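import Cfsg.Statements.S0411
import Cfsg.Agent.Lib.Helper10.Design11

set_option autoImplicit false
open Cfsg

namespace Cfsg.Agent.S0411

/-- Uniqueness of the Steiner system S(4, 5, 11) up to isomorphism. -/
theorem result {α β : Type*} [Fintype α] [DecidableEq α] [Fintype β] [DecidableEq β] (hα : Fintype.card α = 11) (hβ : Fintype.card β = 11) {B : Set (Finset α)} {B' : Set (Finset β)} (hB : Cfsg.IsSteinerSystem 4 5 B) (hB' : Cfsg.IsSteinerSystem 4 5 B') : Cfsg.SetSystemIso B B' := by
  open Cfsg.Agent.Lib.Helper10 in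
  exact iso_of_labelled (v := 11) (t := 4) (k := 5) (by norm_num) hα hβ hB hB' (by norm_num)
    cover11 (labelled11 hα hB) (labelled11 hβ hB')

end Cfsg.Agent.S0411
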