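import Cfsg.Statements.S0385
import Cfsg.Agent.Lib.Helper9.GolaySteiner
-- import your own Cfsg.Agent.* helpers here

set_option autoImplicit false
open Cfsg

namespace Cfsg.Agent.S0385

/-- The 6-point intersections of octads with a fixed dodecad form a Steiner system S(5, 6, 12) on the dodecad. -/
theorem result (d : Finset Cfsg.GolayPt) (hd : d ∈ Cfsg.dodecads) : Cfsg.IsSteinerSystem 5 6 {h : Finset {p : Cfsg.GolayPt // p ∈ d} | ∃ o ∈ Cfsg.octads, (o ∩ d).card = 6 ∧ h = Finset.subtype (fun p => p ∈ d) o} := by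
  classical
  have key : ∀ o ∈ Cfsg.octads, 5 ≤ (o ∩ d).card → (o ∩ d).card = 6 := by
    intro o ho h5
    have h1 := Cfsg.Agent.Lib.Helper10.golay_symmDiff ho.1 hd.1
    have h2 := Cfsg.Agent.Lib.Helper10.card_symmDiff_add o d
    rw [ho.2, hd.2] at h2
    have h3 : (o ∩ d).card ≤ 8 := by
      rw [← ho.2]; exact Finset.card_le_card Finset.inter_subset_left
    rcases Cfsg.Agent.Lib.Helper9.card_of_mem_supports h1 with h | h | h | h | h <;> omega
  have hsub : ∀ o : Finset Cfsg.GolayPt,
      (Finset.subtype (fun p => p ∈ d) o).card = (o ∩ d).card := by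
    intro o
    rw [Finset.card_subtype]
    congr 1
  refine ⟨?_, ?_⟩
  · rintro b ⟨o, ho, h6, rfl⟩
    rw [hsub, h6]
  · intro s hs
    set S : Finset Cfsg.GolayPt := s.map (Function.Embedding.subtype _) with hS
    have hScard : S.card = 5 := by rw [hS, Finset.card_map, hs]
    have hSd : S ⊆ d := by
      intro p hp
      rw [hS, Finset.mem_map] at hp
      obtain ⟨q, _, rfl⟩ := hp
      exact q.2
    obtain ⟨o, ⟨ho, hSo⟩, huniq⟩ := Cfsg.Agent.Lib.Helper9.octads_steiner.2 S hScard
    have h5 : 5 ≤ (o ∩ d).card := by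
      rw [← hScard]
      exact Finset.card_le_card (Finset.subset_inter hSo hSd)
    refine ⟨Finset.subtype (fun p => p ∈ d) o, ⟨⟨o, ho, key o ho h5, rfl⟩, ?_⟩, ?_⟩
    · intro q hq
      rw [Finset.mem_subtype]
      apply hSo
      rw [hS, Finset.mem_map]
      exact ⟨q, hq, rfl⟩
    · rintro b ⟨⟨o', ho', _, rfl⟩, hsb⟩
      have : o' = o := by
        apply huniq
        refine ⟨ho', ?_⟩
        intro p hp
        rw [hS, Finset.mem_map] at hp
        obtain ⟨q, hq, rfl⟩ := hp
        exact Finset.mem_subtype.1 (hsb hq)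
      rw [this]

end Cfsg.Agent.S0385
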