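import Cfsg.Statements.S0352
import Cfsg.Agent.Lib.Helper10.Steiner2

set_option autoImplicit false
open Cfsg

namespace Cfsg.Agent.S0352

/-- In a Steiner system S(5, 8, 24), two distinct blocks intersect in 0, 2 or 4 points. -/
theorem result {α : Type*} [Fintype α] [DecidableEq α] (hα : Fintype.card α = 24) {B : Set (Finset α)} (hB : Cfsg.IsSteinerSystem 5 8 B) {b c : Finset α} (hb : b ∈ B) (hc : c ∈ B) (hbc : b ≠ c) : (b ∩ c).card = 0 ∨ (b ∩ c).card = 2 ∨ (b ∩ c).card = 4 := by
  open Cfsg.Agent.Lib.Helper10 Finset in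
  have hc8 : c.card = 8 := hB.1 c hc
  have m1 := momZ hα hB c 1 (by norm_num) 253 (by decide) (by decide)
  have m2 := momZ hα hB c 2 (by norm_num) 77 (by decide) (by decide)
  have m3 := momZ hα hB c 3 (by norm_num) 21 (by decide) (by decide)
  have m4 := momZ hα hB c 4 (by norm_num) 5 (by decide) (by decide)
  rw [hc8] at m1 m2 m3 m4
  have key := vanish_of_sum (blocksThrough B ∅) c (mem_blocksThrough_empty.2 hc)
    (fun d => ((((d ∩ c).card).choose 1 : ℕ) : ℤ) - 2 * ((((d ∩ c).card).choose 2 : ℕ) : ℤ)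
      + 4 * ((((d ∩ c).card).choose 3 : ℕ) : ℤ) - 8 * ((((d ∩ c).card).choose 4 : ℕ) : ℤ))
    (by
      rw [sum_sub_distrib, sum_add_distrib, sum_sub_distrib, ← mul_sum, ← mul_sum, ← mul_sum,
        m1, m2, m3, m4, inter_self, hc8]
      decide)
    (by
      intro d hd hdb
      have h3 := steiner_inter_lt hB (mem_blocksThrough_empty.1 hd) hc hdb
      generalize (d ∩ c).card = j at h3
      interval_cases j <;> decide)
    b (mem_blocksThrough_empty.2 hb) hbc
  have h3 := steiner_inter_lt hB hb hc hbc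
  generalize (b ∩ c).card = j at h3 key ⊢
  interval_cases j
  · left; rfl
  · exact absurd key (by decide)
  · right; left; rfl
  · exact absurd key (by decide)
  · right; right; rfl

end Cfsg.Agent.S0352
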