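import Cfsg.Statements.S0353
import Cfsg.Agent.Lib.Helper10.Steiner2
import Cfsg.Agent.Lib.Helper10.Golay
import Cfsg.Agent.S0352

set_option autoImplicit false
open Cfsg

namespace Cfsg.Agent.S0353

/-- In an S(5, 8, 24), the symmetric difference of two blocks meeting in four points is a block. -/
theorem result {α : Type*} [Fintype α] [DecidableEq α] (hα : Fintype.card α = 24) {B : Set (Finset α)} (hB : Cfsg.IsSteinerSystem 5 8 B) {b c : Finset α} (hb : b ∈ B) (hc : c ∈ B) (h4 : (b ∩ c).card = 4) : symmDiff b c ∈ B := by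
  open Cfsg.Agent.Lib.Helper10 Finset in
  have hb8 : b.card = 8 := hB.1 b hb
  have hc8 : c.card = 8 := hB.1 c hc
  have hX : (symmDiff b c).card = 8 := by
    have := card_symmDiff_add b c
    omega
  have m1 := momZ hα hB (symmDiff b c) 1 (by norm_num) 253 (by decide) (by decide)
  have m2 := momZ hα hB (symmDiff b c) 2 (by norm_num) 77 (by decide) (by decide)
  have m3 := momZ hα hB (symmDiff b c) 3 (by norm_num) 21 (by decide) (by decide)
  have m4 := momZ hα hB (symmDiff b c) 4 (by norm_num) 5 (by decide) (by decide)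
  rw [hX] at m1 m2 m3 m4
  have heven : ∀ d ∈ B, ∀ e ∈ B, (d ∩ e).card = 0 ∨ (d ∩ e).card = 2 ∨ (d ∩ e).card = 4 ∨
      (d ∩ e).card = 8 := by
    intro d hd e he
    by_cases hde : d = e
    · subst hde
      rw [inter_self, hB.1 d hd]
      simp
    · rcases Cfsg.Agent.S0352.result hα hB hd he hde with h | h | h
      · exact Or.inl h
      · exact Or.inr (Or.inl h)
      · exact Or.inr (Or.inr (Or.inl h))
  have key := mul_card_filter_eq_sum (blocksThrough B ∅)
    (fun d => (d ∩ symmDiff b c).card = 8)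
    (fun d => -15 * ((((d ∩ symmDiff b c).card).choose 1 : ℕ) : ℤ)
      + 30 * ((((d ∩ symmDiff b c).card).choose 2 : ℕ) : ℤ)
      - 36 * ((((d ∩ symmDiff b c).card).choose 3 : ℕ) : ℤ)
      + 24 * ((((d ∩ symmDiff b c).card).choose 4 : ℕ) : ℤ)) 384
    (by
      intro d hd
      rw [mem_blocksThrough_empty] at hd
      have h1 : d ∩ symmDiff b c = symmDiff (d ∩ b) (d ∩ c) := inf_symmDiff_distrib_left d b c
      have h2 := card_symmDiff_add (d ∩ b) (d ∩ c)
      rw [← h1] at h2
      have h3 : (d ∩ symmDiff b c).card ≤ 8 := by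
        rw [← hX]; exact card_le_card inter_subset_right
      have h4 := heven d hd b hb
      have h5 := heven d hd c hc
      have h6 : (d ∩ symmDiff b c).card = 0 ∨ (d ∩ symmDiff b c).card = 2 ∨
          (d ∩ symmDiff b c).card = 4 ∨ (d ∩ symmDiff b c).card = 6 ∨
          (d ∩ symmDiff b c).card = 8 := by omega
      rcases h6 with h | h | h | h | h <;> rw [h] <;> decide)
  rw [sum_add_distrib, sum_sub_distrib, sum_add_distrib, ← mul_sum, ← mul_sum, ← mul_sum,
    ← mul_sum, m1, m2, m3, m4] at key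
  have key2 : (384 : ℤ) * (((blocksThrough B ∅).filter
      (fun d => (d ∩ symmDiff b c).card = 8)).card : ℤ) = 384 := by
    rw [key]; decide
  have key3 : 0 < ((blocksThrough B ∅).filter (fun d => (d ∩ symmDiff b c).card = 8)).card := by
    omega
  obtain ⟨d, hd⟩ := card_pos.1 key3
  rw [mem_filter, mem_blocksThrough_empty] at hd
  have hd8 := hB.1 d hd.1
  have e1 : d ∩ symmDiff b c = d :=
    eq_of_subset_of_card_le inter_subset_left (by rw [hd.2, hd8])
  have e2 : d ∩ symmDiff b c = symmDiff b c :=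
    eq_of_subset_of_card_le inter_subset_right (by rw [hd.2, hX])
  rw [← e2, e1]
  exact hd.1

end Cfsg.Agent.S0353
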