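import Cfsg.Statements.S0369
import Cfsg.Agent.Lib.Helper9.M24Mem
import Cfsg.Agent.Lib.Helper33.Perm
-- import your own Cfsg.Agent.* helpers here

set_option autoImplicit false
open Cfsg

namespace Cfsg.Agent.S0369

section
open Cfsg.Agent.Lib.Helper9 Cfsg.Agent.Lib.Helper10
open scoped Pointwise

theorem gB_octad : ∀ b ∈ gB, ofMask b ∈ Cfsg.octads := by
  intro b hb
  refine ⟨⟨wordOf b, wordOf_gB_mem b hb, support₂_wordOf b⟩, ?_⟩
  rw [card_ofMask]
  revert b
  decide +kernel

theorem aux : Cfsg.M24 = Cfsg.setSystemAut Cfsg.octads := by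
  apply le_antisymm
  · intro σ hσ
    unfold setSystemAut
    rw [MulAction.mem_stabilizer_set' (s := Cfsg.octads) (Set.toFinite _)]
    intro o ho
    exact Cfsg.Agent.Lib.Helper33.smul_mem_octads hσ ho
  · intro σ hσ
    rw [mem_M24_iff]
    have hσ' : σ⁻¹ ∈ setSystemAut Cfsg.octads := Subgroup.inv_mem _ hσ
    unfold setSystemAut at hσ'
    rw [MulAction.mem_stabilizer_set' (s := Cfsg.octads) (Set.toFinite _)] at hσ'
    have : golayCode ≤ golayCode.comap (LinearMap.funLeft (ZMod 2) (ZMod 2) σ) := by
      conv_lhs => rw [golayCode_eq_span]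
      rw [Submodule.span_le]
      rintro w ⟨b, hb, rfl⟩
      have h1 := hσ' (gB_octad b hb)
      rw [← support₂_wordOf, inv_smul_support₂] at h1
      have h2 := h1.1
      rw [mem_supports_iff, ind_support₂] at h2
      exact h2
    exact fun w hw => this hw

end


/-- The group of the length-24 code coincides with the automorphism group of its octad system. -/
theorem result : Cfsg.M24 = Cfsg.setSystemAut Cfsg.octads := by
  exact aux

end Cfsg.Agent.S0369
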