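import Cfsg.Statements.S0357
import Cfsg.Agent.Lib.Helper10.Steiner2

set_option autoImplicit false
open Cfsg

namespace Cfsg.Agent.S0357

/-- In a Steiner system S(5, 6, 12), the complement of every block is again a block. -/
theorem result {α : Type*} [Fintype α] [DecidableEq α] (hα : Fintype.card α = 12) {B : Set (Finset α)} (hB : Cfsg.IsSteinerSystem 5 6 B) {b : Finset α} (hb : b ∈ B) : bᶜ ∈ B := by
  open Cfsg.Agent.Lib.Helper10 Finset in
  have hb6 : b.card = 6 := hB.1 b hb
  have m0 := momZ hα hB b 0 (by norm_num) 132 (by decide) (by decide)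
  have m1 := momZ hα hB b 1 (by norm_num) 66 (by decide) (by decide)
  have m2 := momZ hα hB b 2 (by norm_num) 30 (by decide) (by decide)
  have m3 := momZ hα hB b 3 (by norm_num) 12 (by decide) (by decide)
  have m4 := momZ hα hB b 4 (by norm_num) 4 (by decide) (by decide)
  rw [hb6] at m0 m1 m2 m3 m4
  have key := card_filter_eq_sum (blocksThrough B ∅) (fun d => Disjoint b d)
    (fun d => ((((d ∩ b).card).choose 0 : ℕ) : ℤ) - ((((d ∩ b).card).choose 1 : ℕ) : ℤ)
      + ((((d ∩ b).card).choose 2 : ℕ) : ℤ) - ((((d ∩ b).card).choose 3 : ℕ) : ℤ)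
      + ((((d ∩ b).card).choose 4 : ℕ) : ℤ) - (if d = b then 5 else 0))
    (by
      intro d hd
      by_cases hdb : d = b
      · subst hdb
        have : ¬ Disjoint d d := by
          rw [disjoint_self]
          intro h
          rw [bot_eq_empty] at h
          rw [h] at hb6; simp at hb6
        simp only [this, if_false, if_true, inter_self, hb6]
        decide
      · have h3 := steiner_inter_lt hB (mem_blocksThrough_empty.1 hd) hb hdb
        simp only [hdb, if_false, disjoint_iff_card_inter b d]
        generalize (d ∩ b).card = j at h3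
        interval_cases j <;> decide)
  rw [sum_sub_distrib, sum_add_distrib, sum_sub_distrib, sum_add_distrib, sum_sub_distrib,
    m0, m1, m2, m3, m4,
    sum_ite_eq' (blocksThrough B ∅) b (fun _ => (5 : ℤ)),
    if_pos (mem_blocksThrough_empty.2 hb)] at key
  have key2 : (((blocksThrough B ∅).filter (fun d => Disjoint b d)).card : ℤ) = 1 := by
    rw [key]; decide
  have key3 : ((blocksThrough B ∅).filter (fun d => Disjoint b d)).card = 1 := by
    exact_mod_cast key2
  obtain ⟨d, hd⟩ := card_eq_one.1 key3
  have hd' : d ∈ (blocksThrough B ∅).filter (fun d => Disjoint b d) := by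
    rw [hd]; exact mem_singleton_self d
  rw [mem_filter, mem_blocksThrough_empty] at hd'
  have hsub : d ⊆ bᶜ := by
    intro x hx
    rw [mem_compl]
    exact fun hxb => disjoint_left.1 hd'.2 hxb hx
  have hcard : bᶜ.card ≤ d.card := by
    rw [card_compl, hα, hb6, hB.1 d hd'.1]
  rw [← eq_of_subset_of_card_le hsub hcard]
  exact hd'.1

end Cfsg.Agent.S0357
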