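import Cfsg.Statements.S1595
import Cfsg.Agent.Lib.Helper10.Steiner2

set_option autoImplicit false
open Cfsg

namespace Cfsg.Agent.S1595

open Cfsg.Agent.Lib.Helper10 Finset in
theorem lamT {α : Type*} [Fintype α] [DecidableEq α] (hα : Fintype.card α = 12)
    {B : Set (Finset α)} (hB : Cfsg.IsSteinerSystem 5 6 B) (b : Finset α) (hb : b ∈ B)
    (T : Finset α) (hT : T ⊆ b) :
    (T.card = 2 → (blocksThrough B T).card = 30) ∧ (T.card = 3 → (blocksThrough B T).card = 12) ∧
    (T.card = 4 → (blocksThrough B T).card = 4) ∧ (T.card = 5 → (blocksThrough B T).card = 1) ∧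
    (T.card = 6 → (blocksThrough B T).card = 1) := by
  refine ⟨fun h => lam_eq hα hB h (by norm_num) 30 (by decide) (by decide),
    fun h => lam_eq hα hB h (by norm_num) 12 (by decide) (by decide),
    fun h => lam_eq hα hB h (by norm_num) 4 (by decide) (by decide),
    fun h => lam_eq hα hB h (by norm_num) 1 (by decide) (by decide), ?_⟩
  intro h
  have hTb : T = b := eq_of_subset_of_card_le hT (by rw [h, hB.1 b hb])
  subst hTb
  rw [card_eq_one]
  refine ⟨T, ?_⟩
  ext d
  rw [mem_blocksThrough, mem_singleton]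
  constructor
  · rintro ⟨hd, hTd⟩
    exact (eq_of_subset_of_card_le hTd (by rw [h, hB.1 d hd])).symm
  · rintro rfl
    exact ⟨hb, Subset.refl _⟩

open Cfsg.Agent.Lib.Helper10 Finset in
theorem momS {α : Type*} [Fintype α] [DecidableEq α]
    {B : Set (Finset α)} (b s : Finset α) (hs : s ⊆ b) (i n L : ℕ) (hn : s.card + i = n)
    (hL : ∀ T ⊆ b, T.card = n → (blocksThrough B T).card = L) :
    ∑ d ∈ blocksThrough B s, ((((d ∩ (b \ s)).card).choose i : ℕ) : ℤ)
      = ((((b \ s).card).choose i : ℕ) : ℤ) * (L : ℤ) := by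
  have h1 := steiner_moment B s (b \ s) i L (fun I hI => by
    rw [mem_powersetCard] at hI
    apply hL
    · exact union_subset hs (hI.1.trans sdiff_subset)
    · rw [card_union_of_disjoint, hI.2, hn]
      exact disjoint_of_subset_right hI.1 disjoint_sdiff)
  exact_mod_cast h1

open Cfsg.Agent.Lib.Helper10 Finset in
theorem setEq {α : Type*} [Fintype α] [DecidableEq α]
    (B : Set (Finset α)) (b s : Finset α) (hs : s ⊆ b) :
    {c : Finset α | c ∈ B ∧ b ∩ c = s}.ncard
      = ((blocksThrough B s).filter (fun d => (d ∩ (b \ s)).card = 0)).card := by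
  have : {c : Finset α | c ∈ B ∧ b ∩ c = s}
      = ↑((blocksThrough B s).filter (fun d => (d ∩ (b \ s)).card = 0)) := by
    ext c
    rw [mem_coe, mem_filter, mem_blocksThrough, card_eq_zero, Set.mem_setOf_eq]
    constructor
    · rintro ⟨hc, h⟩
      refine ⟨⟨hc, ?_⟩, ?_⟩
      · rw [← h]; exact inter_subset_right
      · ext x
        simp only [mem_inter, mem_sdiff, notMem_empty, iff_false]
        rintro ⟨hxc, hxb, hxs⟩
        apply hxs
        rw [← h]
        exact mem_inter.2 ⟨hxb, hxc⟩
    · rintro ⟨⟨hc, hsc⟩, h⟩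
      refine ⟨hc, ?_⟩
      ext x
      constructor
      · intro hx
        rw [mem_inter] at hx
        by_contra hxs
        have : x ∈ c ∩ (b \ s) := mem_inter.2 ⟨hx.2, mem_sdiff.2 ⟨hx.1, hxs⟩⟩
        rw [h] at this
        exact absurd this (notMem_empty x)
      · intro hx
        exact mem_inter.2 ⟨hs hx, hsc hx⟩
  rw [this]
  exact Set.ncard_coe_finset _

/-- Leech triangle of S(5, 6, 12): blocks meet in 0, 2, 3 or 4 points, and a block is met exactly in a given 2-, 3- or 4-subset by 3, 2, 3 blocks respectively. -/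
theorem result {α : Type*} [Fintype α] [DecidableEq α] (hα : Fintype.card α = 12) {B : Set (Finset α)} (hB : Cfsg.IsSteinerSystem 5 6 B) (b : Finset α) (hb : b ∈ B) : (∀ c ∈ B, c ≠ b → (b ∩ c).card = 0 ∨ (b ∩ c).card = 2 ∨ (b ∩ c).card = 3 ∨ (b ∩ c).card = 4) ∧ ∀ s ⊆ b, (s.card = 2 → {c : Finset α | c ∈ B ∧ b ∩ c = s}.ncard = 3) ∧ (s.card = 3 → {c : Finset α | c ∈ B ∧ b ∩ c = s}.ncard = 2) ∧ (s.card = 4 → {c : Finset α | c ∈ B ∧ b ∩ c = s}.ncard = 3) := by
  open Cfsg.Agent.Lib.Helper10 Finset in
  have hb6 : b.card = 6 := hB.1 b hb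
  constructor
  · have m1 := momZ hα hB b 1 (by norm_num) 66 (by decide) (by decide)
    have m2 := momZ hα hB b 2 (by norm_num) 30 (by decide) (by decide)
    have m3 := momZ hα hB b 3 (by norm_num) 12 (by decide) (by decide)
    have m4 := momZ hα hB b 4 (by norm_num) 4 (by decide) (by decide)
    rw [hb6] at m1 m2 m3 m4
    have hlt : ∀ d ∈ blocksThrough B ∅, d ≠ b → (d ∩ b).card = 0 ∨ (d ∩ b).card = 1 ∨
        (d ∩ b).card = 2 ∨ (d ∩ b).card = 3 ∨ (d ∩ b).card = 4 := by
      intro d hd hdb
      have h3 := steiner_inter_lt hB (mem_blocksThrough_empty.1 hd) hb hdb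
      omega
    have key := vanish_of_sum (blocksThrough B ∅) b (mem_blocksThrough_empty.2 hb)
      (fun d => ((((d ∩ b).card).choose 1 : ℕ) : ℤ) - 2 * ((((d ∩ b).card).choose 2 : ℕ) : ℤ)
        + 3 * ((((d ∩ b).card).choose 3 : ℕ) : ℤ) - 4 * ((((d ∩ b).card).choose 4 : ℕ) : ℤ))
      (by
        rw [sum_sub_distrib, sum_add_distrib, sum_sub_distrib, ← mul_sum, ← mul_sum, ← mul_sum,
          m1, m2, m3, m4]
        simp only [inter_self, hb6]
        decide)
      (by
        intro d hd hdb
        rcases hlt d hd hdb with h | h | h | h | h <;> simp only [h] <;> decide)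
    intro c hc hcb
    have h1 := key c (mem_blocksThrough_empty.2 hc) hcb
    rw [inter_comm b c]
    rcases hlt c (mem_blocksThrough_empty.2 hc) hcb with h | h | h | h | h
    · exact Or.inl h
    · exfalso
      simp only [h] at h1
      revert h1
      decide
    · exact Or.inr (Or.inl h)
    · exact Or.inr (Or.inr (Or.inl h))
    · exact Or.inr (Or.inr (Or.inr h))
  · intro s hs
    have hX : (b \ s).card = 6 - s.card := by
      rw [card_sdiff_of_subset hs, hb6]
    have L2 : ∀ T ⊆ b, T.card = 2 → (blocksThrough B T).card = 30 :=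
      fun T hT => (lamT hα hB b hb T hT).1
    have L3 : ∀ T ⊆ b, T.card = 3 → (blocksThrough B T).card = 12 :=
      fun T hT => (lamT hα hB b hb T hT).2.1
    have L4 : ∀ T ⊆ b, T.card = 4 → (blocksThrough B T).card = 4 :=
      fun T hT => (lamT hα hB b hb T hT).2.2.1
    have L5 : ∀ T ⊆ b, T.card = 5 → (blocksThrough B T).card = 1 :=
      fun T hT => (lamT hα hB b hb T hT).2.2.2.1
    have L6 : ∀ T ⊆ b, T.card = 6 → (blocksThrough B T).card = 1 :=
      fun T hT => (lamT hα hB b hb T hT).2.2.2.2
    rw [setEq B b s hs]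
    refine ⟨?_, ?_, ?_⟩
    · intro h
      rw [h] at hX
      have hle : ∀ d : Finset α, (d ∩ (b \ s)).card = 0 ∨ (d ∩ (b \ s)).card = 1 ∨
          (d ∩ (b \ s)).card = 2 ∨ (d ∩ (b \ s)).card = 3 ∨ (d ∩ (b \ s)).card = 4 := by
        intro d
        have : (d ∩ (b \ s)).card ≤ 4 := by
          calc _ ≤ (b \ s).card := card_le_card inter_subset_right
            _ = 4 := hX
        omega
      have n0 := momS (B := B) b s hs 0 2 30 (by rw [h]) L2
      have n1 := momS (B := B) b s hs 1 3 12 (by rw [h]) L3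
      have n2 := momS (B := B) b s hs 2 4 4 (by rw [h]) L4
      have n3 := momS (B := B) b s hs 3 5 1 (by rw [h]) L5
      have n4 := momS (B := B) b s hs 4 6 1 (by rw [h]) L6
      rw [hX] at n0 n1 n2 n3 n4
      have k0 := card_filter_eq_sum (blocksThrough B s) (fun d => (d ∩ (b \ s)).card = 0)
        (fun d => ((((d ∩ (b \ s)).card).choose 0 : ℕ) : ℤ)
          - ((((d ∩ (b \ s)).card).choose 1 : ℕ) : ℤ)
          + ((((d ∩ (b \ s)).card).choose 2 : ℕ) : ℤ)
          - ((((d ∩ (b \ s)).card).choose 3 : ℕ) : ℤ)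
          + ((((d ∩ (b \ s)).card).choose 4 : ℕ) : ℤ))
        (by
          intro d _
          rcases hle d with h | h | h | h | h <;> simp only [h] <;> decide)
      rw [sum_add_distrib, sum_sub_distrib, sum_add_distrib, sum_sub_distrib,
        n0, n1, n2, n3, n4] at k0
      have : (((blocksThrough B s).filter (fun d => (d ∩ (b \ s)).card = 0)).card : ℤ) = 3 := by
        rw [k0]; decide
      exact_mod_cast this
    · intro h
      rw [h] at hX
      have hle : ∀ d : Finset α, (d ∩ (b \ s)).card = 0 ∨ (d ∩ (b \ s)).card = 1 ∨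
          (d ∩ (b \ s)).card = 2 ∨ (d ∩ (b \ s)).card = 3 := by
        intro d
        have : (d ∩ (b \ s)).card ≤ 3 := by
          calc _ ≤ (b \ s).card := card_le_card inter_subset_right
            _ = 3 := hX
        omega
      have n0 := momS (B := B) b s hs 0 3 12 (by rw [h]) L3
      have n1 := momS (B := B) b s hs 1 4 4 (by rw [h]) L4
      have n2 := momS (B := B) b s hs 2 5 1 (by rw [h]) L5
      have n3 := momS (B := B) b s hs 3 6 1 (by rw [h]) L6
      rw [hX] at n0 n1 n2 n3
      have k0 := card_filter_eq_sum (blocksThrough B s) (fun d => (d ∩ (b \ s)).card = 0)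
        (fun d => ((((d ∩ (b \ s)).card).choose 0 : ℕ) : ℤ)
          - ((((d ∩ (b \ s)).card).choose 1 : ℕ) : ℤ)
          + ((((d ∩ (b \ s)).card).choose 2 : ℕ) : ℤ)
          - ((((d ∩ (b \ s)).card).choose 3 : ℕ) : ℤ))
        (by
          intro d _
          rcases hle d with h | h | h | h <;> simp only [h] <;> decide)
      rw [sum_sub_distrib, sum_add_distrib, sum_sub_distrib,
        n0, n1, n2, n3] at k0
      have : (((blocksThrough B s).filter (fun d => (d ∩ (b \ s)).card = 0)).card : ℤ) = 2 := by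
        rw [k0]; decide
      exact_mod_cast this
    · intro h
      rw [h] at hX
      have hle : ∀ d : Finset α, (d ∩ (b \ s)).card = 0 ∨ (d ∩ (b \ s)).card = 1 ∨
          (d ∩ (b \ s)).card = 2 := by
        intro d
        have : (d ∩ (b \ s)).card ≤ 2 := by
          calc _ ≤ (b \ s).card := card_le_card inter_subset_right
            _ = 2 := hX
        omega
      have n0 := momS (B := B) b s hs 0 4 4 (by rw [h]) L4
      have n1 := momS (B := B) b s hs 1 5 1 (by rw [h]) L5
      have n2 := momS (B := B) b s hs 2 6 1 (by rw [h]) L6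
      rw [hX] at n0 n1 n2
      have k0 := card_filter_eq_sum (blocksThrough B s) (fun d => (d ∩ (b \ s)).card = 0)
        (fun d => ((((d ∩ (b \ s)).card).choose 0 : ℕ) : ℤ)
          - ((((d ∩ (b \ s)).card).choose 1 : ℕ) : ℤ)
          + ((((d ∩ (b \ s)).card).choose 2 : ℕ) : ℤ))
        (by
          intro d _
          rcases hle d with h | h | h <;> simp only [h] <;> decide)
      rw [sum_add_distrib, sum_sub_distrib, n0, n1, n2] at k0
      have : (((blocksThrough B s).filter (fun d => (d ∩ (b \ s)).card = 0)).card : ℤ) = 3 := by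
        rw [k0]; decide
      exact_mod_cast this

end Cfsg.Agent.S1595
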