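import Cfsg.Statements.S0428
import Cfsg.Agent.Lib.Helper10.Steiner22

set_option autoImplicit false
open Cfsg

namespace Cfsg.Agent.S0428

section
variable {α : Type*} {B : Set (Finset α)}

open Classical in
theorem ncard_split [Fintype α] [Fintype B] (s : Set (Option (α ⊕ B)))
    (A : Finset α) (hA : ∀ a, a ∈ A ↔ some (Sum.inl a) ∈ s)
    (F : Finset (Finset α)) (hF : ∀ d, d ∈ F ↔ ∃ hd : d ∈ B, some (Sum.inr (⟨d, hd⟩ : B)) ∈ s) :
    s.ncard = (if none ∈ s then 1 else 0) + A.card + F.card := by
  have h0 : s = ↑(Finset.univ.filter (fun x => x ∈ s)) := by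
    ext x; simp
  have hA' : A = Finset.univ.filter (fun a => some (Sum.inl a) ∈ s) := by
    ext a; simp [hA]
  have hF' : F = (Finset.univ.filter (fun b : B => some (Sum.inr b) ∈ s)).map
      ⟨Subtype.val, Subtype.val_injective⟩ := by
    ext d
    simp [hF]
  conv_lhs => rw [h0]
  rw [Set.ncard_coe_finset, Finset.card_filter, Fintype.sum_option, Fintype.sum_sum_type,
    hA', hF', Finset.card_map, Finset.card_filter, Finset.card_filter, add_assoc]

theorem adj_none_inl (a : α) : (Cfsg.pointBlockGraph B).Adj none (some (Sum.inl a)) := by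
  simp [Cfsg.pointBlockGraph, SimpleGraph.fromRel_adj, Cfsg.pointBlockRel]

theorem adj_none_inr (b : B) : ¬ (Cfsg.pointBlockGraph B).Adj none (some (Sum.inr b)) := by
  simp [Cfsg.pointBlockGraph, SimpleGraph.fromRel_adj, Cfsg.pointBlockRel]

theorem adj_inl_inl (a a' : α) :
    ¬ (Cfsg.pointBlockGraph B).Adj (some (Sum.inl a)) (some (Sum.inl a')) := by
  simp [Cfsg.pointBlockGraph, SimpleGraph.fromRel_adj, Cfsg.pointBlockRel]

theorem adj_inl_inr (a : α) (b : B) :
    (Cfsg.pointBlockGraph B).Adj (some (Sum.inl a)) (some (Sum.inr b)) ↔ a ∈ (b : Finset α) := by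
  simp [Cfsg.pointBlockGraph, SimpleGraph.fromRel_adj, Cfsg.pointBlockRel]

theorem adj_inr_inr (hB : Cfsg.IsSteinerSystem 3 6 B) (b c : B) :
    (Cfsg.pointBlockGraph B).Adj (some (Sum.inr b)) (some (Sum.inr c)) ↔
      Disjoint (b : Finset α) (c : Finset α) := by
  simp only [Cfsg.pointBlockGraph, SimpleGraph.fromRel_adj, Cfsg.pointBlockRel]
  constructor
  · rintro ⟨_, h | h⟩
    · exact h
    · exact h.symm
  · intro h
    refine ⟨?_, Or.inl h⟩
    intro h'
    have h'' : b = c := by simpa using h'
    subst h''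
    rw [disjoint_self, Finset.bot_eq_empty] at h
    have := hB.1 b b.2
    rw [h] at this
    simp at this

end

section
variable {α : Type*} [Fintype α] {B : Set (Finset α)} [Fintype B]

open Cfsg.Agent.Lib.Helper10 in
theorem nbr_ncard (hα : Fintype.card α = 22) (hB : Cfsg.IsSteinerSystem 3 6 B)
    (v : Option (α ⊕ B)) : ((Cfsg.pointBlockGraph B).neighborSet v).ncard = 22 := by
  classical
  rcases v with _ | p | b
  · rw [ncard_split _ Finset.univ (fun a => by simp [adj_none_inl]) ∅
      (fun d => by simp [adj_none_inr])]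
    simp [hα]
  · rw [ncard_split _ ∅ (fun a => by simp [adj_inl_inl]) (blocksThrough B {p})
      (fun d => by simp [adj_inl_inr, mem_blocksThrough])]
    rw [lam22_1 hα hB (Finset.card_singleton p)]
    have : none ∈ (Cfsg.pointBlockGraph B).neighborSet (some (Sum.inl p)) :=
      (adj_none_inl p).symm
    simp [this]
  · rw [ncard_split _ (b : Finset α)
      (fun a => by
        rw [SimpleGraph.mem_neighborSet, SimpleGraph.adj_comm, adj_inl_inr])
      ((blocksThrough B ∅).filter (fun d => Disjoint (b : Finset α) d))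
      (fun d => by simp [adj_inr_inr hB, mem_blocksThrough])]
    rw [disj22_card hα hB b.2, hB.1 b b.2]
    have : none ∉ (Cfsg.pointBlockGraph B).neighborSet (some (Sum.inr b)) :=
      fun h => adj_none_inr b h.symm
    simp [this]

omit [Fintype B] in
open Cfsg.Agent.Lib.Helper10 in
theorem common_adj (hα : Fintype.card α = 22) (hB : Cfsg.IsSteinerSystem 3 6 B)
    (v w x : Option (α ⊕ B)) (hvw : (Cfsg.pointBlockGraph B).Adj v w)
    (h1 : (Cfsg.pointBlockGraph B).Adj v x) (h2 : (Cfsg.pointBlockGraph B).Adj w x) : False := by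
  classical
  -- no triangles
  have tri_bbb : ∀ b c d : B, Disjoint (b : Finset α) c → Disjoint (b : Finset α) d →
      Disjoint (c : Finset α) d → False := by
    intro b c d hbc hbd hcd
    have h0 := disj22_pair_disjoint hα hB b.2 c.2 hbc
    rw [Finset.card_eq_zero] at h0
    have : (d : Finset α) ∈ (blocksThrough B ∅).filter
        (fun d => Disjoint (b : Finset α) d ∧ Disjoint (c : Finset α) d) :=
      Finset.mem_filter.2 ⟨mem_blocksThrough_empty.2 d.2, hbd, hcd⟩
    rw [h0] at this
    simp at this
  have tri_pbb : ∀ (p : α) (b c : B), p ∈ (b : Finset α) → p ∈ (c : Finset α) →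
      Disjoint (b : Finset α) c → False := by
    intro p b c hb hc hbc
    exact Finset.disjoint_left.1 hbc hb hc
  rcases v with _ | p | b <;> rcases w with _ | q | c <;> rcases x with _ | r | d
  all_goals first
    | exact absurd hvw (SimpleGraph.irrefl _)
    | exact absurd h1 (SimpleGraph.irrefl _)
    | exact absurd h2 (SimpleGraph.irrefl _)
    | exact adj_inl_inl _ _ hvw
    | exact adj_inl_inl _ _ h1
    | exact adj_inl_inl _ _ h2
    | exact adj_none_inr _ hvw
    | exact adj_none_inr _ h1
    | exact adj_none_inr _ h2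
    | exact adj_none_inr _ hvw.symm
    | exact adj_none_inr _ h1.symm
    | exact adj_none_inr _ h2.symm
    | skip
  · exact tri_pbb p c d ((adj_inl_inr _ _).1 hvw) ((adj_inl_inr _ _).1 h1)
      ((adj_inr_inr hB _ _).1 h2)
  · exact tri_pbb q b d ((adj_inl_inr _ _).1 hvw.symm) ((adj_inl_inr _ _).1 h2)
      ((adj_inr_inr hB _ _).1 h1)
  · exact tri_pbb r b c ((adj_inl_inr _ _).1 h1.symm) ((adj_inl_inr _ _).1 h2.symm)
      ((adj_inr_inr hB _ _).1 hvw)
  · exact tri_bbb b c d ((adj_inr_inr hB _ _).1 hvw) ((adj_inr_inr hB _ _).1 h1)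
      ((adj_inr_inr hB _ _).1 h2)

open Cfsg.Agent.Lib.Helper10 in
theorem common_not_adj (hα : Fintype.card α = 22) (hB : Cfsg.IsSteinerSystem 3 6 B)
    (v w : Option (α ⊕ B)) (hne : v ≠ w) (hvw : ¬ (Cfsg.pointBlockGraph B).Adj v w) :
    ((Cfsg.pointBlockGraph B).commonNeighbors v w).ncard = 6 := by
  classical
  have case_nb : ∀ b : B,
      ((Cfsg.pointBlockGraph B).commonNeighbors none (some (Sum.inr b))).ncard = 6 := by
    intro b
    rw [ncard_split _ (b : Finset α)
      (fun a => by
        rw [SimpleGraph.mem_commonNeighbors, SimpleGraph.adj_comm _ (some (Sum.inr b)),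
          adj_inl_inr]
        simp [adj_none_inl])
      ∅ (fun d => by simp [SimpleGraph.mem_commonNeighbors, adj_none_inr])]
    rw [hB.1 b b.2]
    simp [SimpleGraph.mem_commonNeighbors]
  have case_pb : ∀ (p : α) (b : B), p ∉ (b : Finset α) →
      ((Cfsg.pointBlockGraph B).commonNeighbors (some (Sum.inl p)) (some (Sum.inr b))).ncard
        = 6 := by
    intro p b hp
    rw [ncard_split _ ∅
      (fun a => by simp [SimpleGraph.mem_commonNeighbors, adj_inl_inl])
      ((blocksThrough B {p}).filter (fun d => Disjoint (b : Finset α) d))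
      (fun d => by
        simp [SimpleGraph.mem_commonNeighbors, adj_inl_inr, adj_inr_inr hB, mem_blocksThrough,
          and_assoc]
        tauto)]
    rw [disj22_point hα hB b.2 hp]
    have : none ∉ (Cfsg.pointBlockGraph B).commonNeighbors (some (Sum.inl p))
        (some (Sum.inr b)) := fun h => adj_none_inr b h.2.symm
    simp [this]
  rcases v with _ | p | b <;> rcases w with _ | q | c
  · exact absurd rfl hne
  · exact absurd (adj_none_inl q) hvw
  · exact case_nb c
  · exact absurd (adj_none_inl p).symm hvw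
  · have hpq : p ≠ q := fun h => hne (by rw [h])
    rw [ncard_split _ ∅
      (fun a => by simp [SimpleGraph.mem_commonNeighbors, adj_inl_inl])
      (blocksThrough B {p, q})
      (fun d => by
        simp [SimpleGraph.mem_commonNeighbors, adj_inl_inr, mem_blocksThrough,
          Finset.insert_subset_iff]
        tauto)]
    rw [lam22_2 hα hB (Finset.card_pair hpq)]
    have : none ∈ (Cfsg.pointBlockGraph B).commonNeighbors (some (Sum.inl p))
        (some (Sum.inl q)) := ⟨(adj_none_inl p).symm, (adj_none_inl q).symm⟩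
    simp [this]
  · exact case_pb p c (fun h => hvw ((adj_inl_inr _ _).2 h))
  · rw [SimpleGraph.commonNeighbors_symm]; exact case_nb b
  · rw [SimpleGraph.commonNeighbors_symm]
    exact case_pb q b (fun h => hvw ((adj_inl_inr _ _).2 h).symm)
  · have hbc : (b : Finset α) ≠ c := fun h => hne (by rw [Subtype.ext h])
    have hnd : ¬ Disjoint (b : Finset α) c := fun h => hvw ((adj_inr_inr hB _ _).2 h)
    rw [ncard_split _ ((c : Finset α) ∩ b)
      (fun a => by
        rw [SimpleGraph.mem_commonNeighbors, SimpleGraph.adj_comm _ (some (Sum.inr b)),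
          SimpleGraph.adj_comm _ (some (Sum.inr c)), adj_inl_inr, adj_inl_inr,
          Finset.mem_inter, and_comm])
      ((blocksThrough B ∅).filter
        (fun d => Disjoint (b : Finset α) d ∧ Disjoint (c : Finset α) d))
      (fun d => by
        simp [SimpleGraph.mem_commonNeighbors, adj_inr_inr hB, mem_blocksThrough]
        tauto)]
    rw [disj22_pair_meet hα hB b.2 c.2 hbc hnd]
    have h2 : ((c : Finset α) ∩ b).card = 2 := by
      rcases inter22 hα hB b.2 c.2 hbc.symm with h | h
      · exact absurd ((disjoint_iff_card_inter _ _).2 h) hnd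
      · exact h
    rw [h2]
    have : none ∉ (Cfsg.pointBlockGraph B).commonNeighbors (some (Sum.inr b))
        (some (Sum.inr c)) := fun h => adj_none_inr b h.1.symm
    simp [this]

end

/-- The point-block graph of an S(3, 6, 22) is strongly regular with parameters (100, 22, 0, 6). -/
theorem result {α : Type*} [Fintype α] (hα : Fintype.card α = 22) {B : Set (Finset α)} (hB : Cfsg.IsSteinerSystem 3 6 B) [Fintype B] [DecidableRel (Cfsg.pointBlockGraph B).Adj] : (Cfsg.pointBlockGraph B).IsSRGWith 100 22 0 6 := by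
  classical
  open Cfsg.Agent.Lib.Helper10 in
  refine ⟨?_, ?_, ?_, ?_⟩
  · have h77 : Fintype.card B = 77 := by
      rw [← lam22_0 hα hB]
      exact Fintype.card_of_subtype _ (fun x => mem_blocksThrough_empty)
    rw [Fintype.card_option, Fintype.card_sum, hα, h77]
  · intro v
    rw [← SimpleGraph.card_neighborSet_eq_degree, ← Nat.card_eq_fintype_card,
      Nat.card_coe_set_eq]
    exact nbr_ncard hα hB v
  · intro v w hvw
    rw [Fintype.card_eq_zero_iff]
    exact ⟨fun x => common_adj hα hB v w x.1 hvw x.2.1 x.2.2⟩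
  · intro v w hne hvw
    rw [← Nat.card_eq_fintype_card, Nat.card_coe_set_eq]
    exact common_not_adj hα hB v w hne hvw

end Cfsg.Agent.S0428
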