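import Cfsg.Statements.S1593
import Cfsg.Agent.Lib.Helper34.TernaryGolay
-- import your own Cfsg.Agent.* helpers here

set_option autoImplicit false
open Cfsg

namespace Cfsg.Agent.S1593

open Cfsg.Agent.Lib.Helper34

theorem unit_cases : ∀ u : (ZMod 3)ˣ, u = 1 ∨ u = -1 := by decide

theorem key (c : Cfsg.ArrayPt → (ZMod 3)ˣ) (h : (∀ x ∈ Cfsg.ternaryGolayCode, Cfsg.monomialMap 1 c x ∈ Cfsg.ternaryGolayCode)) (a : P6) :
    Chk (fun p => (c p : ZMod 3) * enc a p) :=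
  (mem_code_iff _).1 (h _ (enc_mem a))

theorem all_eq (c : Cfsg.ArrayPt → (ZMod 3)ˣ) (h : (∀ x ∈ Cfsg.ternaryGolayCode, Cfsg.monomialMap 1 c x ∈ Cfsg.ternaryGolayCode)) (p : ArrayPt) : (c p : ZMod 3) = c (1, 2) := by
  have h3 : (3 : ZMod 3) = 0 := by decide
  obtain ⟨a0, a1, a2, a3, a4, -⟩ := key c h (1, 0, 0, 0, 0, 0)
  obtain ⟨-, b1, -, -, -, b6⟩ := key c h (0, 1, 0, 0, 0, 0)
  obtain ⟨c0, -, -, -, -, -⟩ := key c h (0, 0, 1, 0, 0, 0)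
  obtain ⟨d0, -, -, -, -, -⟩ := key c h (0, 0, 0, 1, 0, 0)
  obtain ⟨e0, -, -, -, -, -⟩ := key c h (0, 0, 0, 0, 1, 0)
  obtain ⟨f0, -, -, -, -, -⟩ := key c h (0, 0, 0, 0, 0, 1)
  have a0' : (c (0, 0) : ZMod 3) * 2 = 2 * ((c (1, 2) : ZMod 3) * 1) + 2 * ((c (2, 2) : ZMod 3) * 0) + 2 * ((c (3, 0) : ZMod 3) * 0) + 2 * ((c (3, 1) : ZMod 3) * 0) + (c (3, 2) : ZMod 3) * 0 := a0
  have a1' : (c (0, 1) : ZMod 3) * 2 = 2 * ((c (1, 2) : ZMod 3) * 1) + (c (2, 1) : ZMod 3) * 0 + (c (2, 2) : ZMod 3) * 0 + (c (3, 0) : ZMod 3) * 0 + (c (3, 2) : ZMod 3) * 0 := a1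
  have a2' : (c (0, 2) : ZMod 3) * 2 = 2 * ((c (1, 2) : ZMod 3) * 1) + 2 * ((c (2, 1) : ZMod 3) * 0) + (c (3, 0) : ZMod 3) * 0 + 2 * ((c (3, 1) : ZMod 3) * 0) + 2 * ((c (3, 2) : ZMod 3) * 0) := a2
  have a3' : (c (1, 0) : ZMod 3) * 1 = (c (1, 2) : ZMod 3) * 1 + (c (2, 1) : ZMod 3) * 0 + 2 * ((c (2, 2) : ZMod 3) * 0) + (c (3, 0) : ZMod 3) * 0 + 2 * ((c (3, 1) : ZMod 3) * 0) := a3
  have a4' : (c (1, 1) : ZMod 3) * 1 = (c (1, 2) : ZMod 3) * 1 + 2 * ((c (2, 1) : ZMod 3) * 0) + (c (2, 2) : ZMod 3) * 0 + 2 * ((c (3, 1) : ZMod 3) * 0) + (c (3, 2) : ZMod 3) * 0 := a4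
  have b1' : (c (0, 1) : ZMod 3) * 1 = 2 * ((c (1, 2) : ZMod 3) * 0) + (c (2, 1) : ZMod 3) * 1 + (c (2, 2) : ZMod 3) * 0 + (c (3, 0) : ZMod 3) * 0 + (c (3, 2) : ZMod 3) * 0 := b1
  have b6' : (c (2, 0) : ZMod 3) * 2 = 2 * ((c (2, 1) : ZMod 3) * 1) + 2 * ((c (2, 2) : ZMod 3) * 0) + (c (3, 0) : ZMod 3) * 0 + (c (3, 1) : ZMod 3) * 0 + (c (3, 2) : ZMod 3) * 0 := b6
  have c0' : (c (0, 0) : ZMod 3) * 2 = 2 * ((c (1, 2) : ZMod 3) * 0) + 2 * ((c (2, 2) : ZMod 3) * 1) + 2 * ((c (3, 0) : ZMod 3) * 0) + 2 * ((c (3, 1) : ZMod 3) * 0) + (c (3, 2) : ZMod 3) * 0 := c0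
  have d0' : (c (0, 0) : ZMod 3) * 2 = 2 * ((c (1, 2) : ZMod 3) * 0) + 2 * ((c (2, 2) : ZMod 3) * 0) + 2 * ((c (3, 0) : ZMod 3) * 1) + 2 * ((c (3, 1) : ZMod 3) * 0) + (c (3, 2) : ZMod 3) * 0 := d0
  have e0' : (c (0, 0) : ZMod 3) * 2 = 2 * ((c (1, 2) : ZMod 3) * 0) + 2 * ((c (2, 2) : ZMod 3) * 0) + 2 * ((c (3, 0) : ZMod 3) * 0) + 2 * ((c (3, 1) : ZMod 3) * 1) + (c (3, 2) : ZMod 3) * 0 := e0
  have f0' : (c (0, 0) : ZMod 3) * 1 = 2 * ((c (1, 2) : ZMod 3) * 0) + 2 * ((c (2, 2) : ZMod 3) * 0) + 2 * ((c (3, 0) : ZMod 3) * 0) + 2 * ((c (3, 1) : ZMod 3) * 0) + (c (3, 2) : ZMod 3) * 1 := f0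
  have z0 : (c (0, 0) : ZMod 3) = c (1, 2) := by linear_combination 2 * a0' - ((c (0, 0) : ZMod 3) - c (1, 2)) * h3
  have z1 : (c (0, 1) : ZMod 3) = c (1, 2) := by linear_combination 2 * a1' - ((c (0, 1) : ZMod 3) - c (1, 2)) * h3
  have z2 : (c (0, 2) : ZMod 3) = c (1, 2) := by linear_combination 2 * a2' - ((c (0, 2) : ZMod 3) - c (1, 2)) * h3
  have z3 : (c (1, 0) : ZMod 3) = c (1, 2) := by linear_combination a3'
  have z4 : (c (1, 1) : ZMod 3) = c (1, 2) := by linear_combination a4'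
  have z7 : (c (2, 1) : ZMod 3) = c (1, 2) := by linear_combination z1 - b1'
  have z6 : (c (2, 0) : ZMod 3) = c (1, 2) := by linear_combination 2 * b6' + z7 - ((c (2, 0) : ZMod 3) - c (2, 1)) * h3
  have z8 : (c (2, 2) : ZMod 3) = c (1, 2) := by linear_combination z0 - 2 * c0' + ((c (0, 0) : ZMod 3) - c (2, 2)) * h3
  have z9 : (c (3, 0) : ZMod 3) = c (1, 2) := by linear_combination z0 - 2 * d0' + ((c (0, 0) : ZMod 3) - c (3, 0)) * h3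
  have z10 : (c (3, 1) : ZMod 3) = c (1, 2) := by linear_combination z0 - 2 * e0' + ((c (0, 0) : ZMod 3) - c (3, 1)) * h3
  have z11 : (c (3, 2) : ZMod 3) = c (1, 2) := by linear_combination z0 - f0'
  obtain ⟨i, r⟩ := p
  fin_cases i <;> fin_cases r
  · exact z0
  · exact z1
  · exact z2
  · exact z3
  · exact z4
  · rfl
  · exact z6
  · exact z7
  · exact z8
  · exact z9
  · exact z10
  · exact z11

/-- The only sign changes preserving the length-12 ternary code are the identity and negation of all coordinates. -/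
theorem result (c : Cfsg.ArrayPt → (ZMod 3)ˣ) (h : (∀ x ∈ Cfsg.ternaryGolayCode, Cfsg.monomialMap 1 c x ∈ Cfsg.ternaryGolayCode)) : (∀ p, c p = 1) ∨ (∀ p, c p = -1) := by
  rcases unit_cases (c (1, 2)) with h1 | h1
  · left
    intro p
    apply Units.ext
    rw [all_eq c h p, h1]
  · right
    intro p
    apply Units.ext
    rw [all_eq c h p, h1]

end Cfsg.Agent.S1593
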