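import Cfsg.Statements.S0589
-- import your own Cfsg.Agent.* helpers here
import Mathlib

set_option autoImplicit false
open Pointwise
open Cfsg

namespace Cfsg.Agent.S0589

open MulAction

theorem card_dvd_of_free {L X : Type*} [Group L] [Finite L] [MulAction L X] [Finite X]
    (h : ∀ x : X, stabilizer L x = ⊥) : Nat.card L ∣ Nat.card X := by
  classical
  have := Fintype.ofFinite (orbitRel.Quotient L X)
  rw [Nat.card_congr (selfEquivSigmaOrbits L X), Nat.card_sigma]
  apply Finset.dvd_sum
  intro ω _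
  rw [Nat.card_congr (orbitEquivQuotientStabilizer L ω.out), h, ← Subgroup.index_eq_card,
    Subgroup.index_bot]

theorem card_dvd_free_part {L X : Type*} [Group L] [Finite L] [MulAction L X] [Finite X] :
    Nat.card L ∣ Nat.card {x : X // stabilizer L x = ⊥} := by
  let S : SubMulAction L X :=
    { carrier := {x | stabilizer L x = ⊥}
      smul_mem' := by
        intro g x hx
        change stabilizer L (g • x) = ⊥
        rw [stabilizer_smul_eq_stabilizer_map_conj, show stabilizer L x = ⊥ from hx, Subgroup.map_bot] }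
  have : Nat.card L ∣ Nat.card S := by
    apply card_dvd_of_free
    intro x
    rw [SubMulAction.stabilizer_of_subMul]
    exact x.2
  exact this

open scoped Pointwise

section
variable {G : Type*} [Group G] {H : Subgroup G}

theorem smul_mk_eq_iff (g x : G) :
    g • (x : G ⧸ H) = (x : G ⧸ H) ↔ x⁻¹ * g * x ∈ H := by
  rw [eq_comm]
  change (x : G ⧸ H) = ((g * x : G) : G ⧸ H) ↔ _
  rw [QuotientGroup.eq, mul_assoc]

theorem mem_conj_smul_iff (g x : G) : g ∈ MulAut.conj x • H ↔ x⁻¹ * g * x ∈ H := by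
  rw [Subgroup.mem_pointwise_smul_iff_inv_smul_mem]
  simp [MulAut.smul_def]

theorem fix_unique (hH : Cfsg.IsFrobeniusComplement H) {g : G} (hg : g ≠ 1) {a b : G ⧸ H}
    (ha : g • a = a) (hb : g • b = b) : a = b := by
  obtain ⟨x, rfl⟩ := QuotientGroup.mk_surjective a
  obtain ⟨y, rfl⟩ := QuotientGroup.mk_surjective b
  rw [smul_mk_eq_iff] at ha hb
  rw [QuotientGroup.eq]
  by_contra ht
  have h1 := hH.2.2 _ ht
  have h2 : x⁻¹ * g * x ∈ H ⊓ MulAut.conj (x⁻¹ * y) • H := by
    refine ⟨ha, ?_⟩
    apply (mem_conj_smul_iff _ _).mpr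
    have : (x⁻¹ * y)⁻¹ * (x⁻¹ * g * x) * (x⁻¹ * y) = y⁻¹ * g * y := by group
    rw [this]
    exact hb
  rw [h1, Subgroup.mem_bot] at h2
  apply hg
  calc g = x * (x⁻¹ * g * x) * x⁻¹ := by group
    _ = 1 := by rw [h2]; group

variable [Finite G]

theorem card_nonfree_le (hH : Cfsg.IsFrobeniusComplement H) (L : Subgroup G) :
    Nat.card {a : G ⧸ H // stabilizer L a ≠ ⊥} + 1 ≤ Nat.card L := by
  classical
  have hch : ∀ a : {a : G ⧸ H // stabilizer L a ≠ ⊥}, ∃ g : L, g ≠ 1 ∧ g • (a : G ⧸ H) = a := by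
    intro a
    obtain ⟨g, hg1⟩ := (Subgroup.ne_bot_iff_exists_ne_one.mp a.2)
    exact ⟨g, fun h => hg1 (Subtype.ext h), g.2⟩
  choose f hf1 hf2 using hch
  have hinj : Function.Injective (fun a => (⟨f a, hf1 a⟩ : {g : L // g ≠ 1})) := by
    intro a b hab
    have hab' : f a = f b := congrArg Subtype.val hab
    apply Subtype.ext
    have h1 : ((f a : L) : G) ≠ 1 := fun h => hf1 a (Subtype.ext h)
    apply fix_unique hH h1 (hf2 a)
    rw [hab']
    exact hf2 b
  have h2 := Nat.card_le_card_of_injective _ hinj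
  have h3 : Nat.card {g : L // g ≠ 1} + 1 = Nat.card L := by
    have := Fintype.ofFinite L
    rw [Nat.card_eq_fintype_card, Nat.card_eq_fintype_card, Fintype.card_subtype_compl,
      Fintype.card_subtype_eq]
    have : 0 < Fintype.card L := Fintype.card_pos
    omega
  omega

theorem card_split (L : Subgroup G) :
    Nat.card {a : G ⧸ H // stabilizer L a = ⊥} + Nat.card {a : G ⧸ H // stabilizer L a ≠ ⊥} =
      Nat.card (G ⧸ H) := by
  classical
  have := Fintype.ofFinite (G ⧸ H)
  simp only [Nat.card_eq_fintype_card]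
  exact Fintype.card_subtype_compl (fun a : G ⧸ H => stabilizer L a = ⊥) ▸ by
    have := Fintype.card_subtype_le (fun a : G ⧸ H => stabilizer L a = ⊥)
    omega

theorem index_mod (hH : Cfsg.IsFrobeniusComplement H) : Nat.card H ∣ Nat.card (G ⧸ H) - 1 := by
  have h1 := card_split (H := H) H
  have h2 := card_dvd_free_part (L := H) (X := G ⧸ H)
  have h3 : Nat.card {a : G ⧸ H // stabilizer H a ≠ ⊥} = 1 := by
    rw [Nat.card_eq_one_iff_unique]
    obtain ⟨g, hg1⟩ := (Subgroup.ne_bot_iff_exists_ne_one.mp hH.1)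
    have hfix : ∀ h : H, h • ((1 : G) : G ⧸ H) = ((1 : G) : G ⧸ H) := by
      intro h
      change (h : G) • ((1 : G) : G ⧸ H) = ((1 : G) : G ⧸ H)
      rw [smul_mk_eq_iff]
      simp
    refine ⟨⟨?_⟩, ⟨⟨((1 : G) : G ⧸ H), ?_⟩⟩⟩
    · have key : ∀ a : {a : G ⧸ H // stabilizer H a ≠ ⊥}, (a : G ⧸ H) = ((1 : G) : G ⧸ H) := by
        intro a
        obtain ⟨k, hk1⟩ := (Subgroup.ne_bot_iff_exists_ne_one.mp a.2)
        have hk1' : ((k : H) : G) ≠ 1 := fun h => hk1 (Subtype.ext (Subtype.ext h))
        exact fix_unique hH hk1' k.2 (hfix k)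
      intro a b
      apply Subtype.ext
      rw [key a, key b]
    · rw [Subgroup.ne_bot_iff_exists_ne_one]
      exact ⟨⟨g, hfix g⟩, fun h => hg1 (congrArg Subtype.val h)⟩
  rw [h3] at h1
  rw [← h1]
  simpa using h2

end

/-- Let H be a Frobenius complement in a finite group G and L a subgroup of G whose order divides the order of H. Then L is contained in some conjugate of H. -/
theorem result {G : Type*} [Group G] [Finite G] (H : Subgroup G) (hH : Cfsg.IsFrobeniusComplement H) (L : Subgroup G) (hL : Nat.card L ∣ Nat.card H) : ∃ x : G, L ≤ MulAut.conj x • H := by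
  classical
  by_cases hL1 : Nat.card L = 1
  · refine ⟨1, ?_⟩
    rw [Subgroup.card_eq_one.mp hL1]
    exact bot_le
  · have hLpos : 0 < Nat.card L := Nat.card_pos
    have h1 := card_split (H := H) L
    have h2 := card_dvd_free_part (L := L) (X := G ⧸ H)
    have h3 := card_nonfree_le hH L
    have h4 := hL.trans (index_mod hH)
    have hpos : 0 < Nat.card (G ⧸ H) := Nat.card_pos
    have h5 : Nat.card {a : G ⧸ H // MulAction.stabilizer L a ≠ ⊥} = 1 := by
      obtain ⟨c, hc⟩ := h2
      obtain ⟨d, hd⟩ := h4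
      set t := Nat.card {a : G ⧸ H // MulAction.stabilizer L a ≠ ⊥}
      set l := Nat.card L
      have e : l * c + t = l * d + 1 := by omega
      have hcd : c = d := by
        by_contra hne
        rcases Nat.lt_or_gt_of_ne hne with hlt | hlt
        · have : l * (c + 1) ≤ l * d := Nat.mul_le_mul_left _ hlt
          rw [Nat.mul_add] at this
          omega
        · have : l * (d + 1) ≤ l * c := Nat.mul_le_mul_left _ hlt
          rw [Nat.mul_add] at this
          omega
      rw [hcd] at e
      omega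
    rw [Nat.card_eq_one_iff_unique] at h5
    obtain ⟨hsub, ⟨a⟩⟩ := h5
    obtain ⟨x, hx⟩ := QuotientGroup.mk_surjective (a : G ⧸ H)
    refine ⟨x, ?_⟩
    intro g hg
    rw [mem_conj_smul_iff, ← smul_mk_eq_iff, hx]
    have hmem : MulAction.stabilizer L ((⟨g, hg⟩ : L) • (a : G ⧸ H)) ≠ ⊥ := by
      rw [MulAction.stabilizer_smul_eq_stabilizer_map_conj, Ne,
        Subgroup.map_eq_bot_iff_of_injective _ (MulAut.conj _).injective]
      exact a.2
    have := hsub.elim ⟨_, hmem⟩ a
    exact congrArg Subtype.val this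

end Cfsg.Agent.S0589
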