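import Cfsg.Statements.S0561
import Cfsg.Agent.Lib.Helper12.ComplSys
import Cfsg.Agent.S0005
import Cfsg.Agent.S0559

set_option autoImplicit false
open Pointwise
open Cfsg

namespace Cfsg.Agent.S0561

open Cfsg.Agent.Lib.Helper12

theorem normalizer_conj_smul {G : Type*} [Group G] (H : Subgroup G) (g : G) :
    Subgroup.normalizer ((MulAut.conj g • H : Subgroup G) : Set G)
      = MulAut.conj g • Subgroup.normalizer (H : Set G) :=
  (Subgroup.map_equiv_normalizer_eq H (MulAut.conj g)).symm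

theorem coprime_aux {G : Type*} [Group G] [Finite G] (A : Subgroup G) (m n : ℕ)
    (hG : Nat.card G = m * n) (ham : Nat.card A ∣ m) (hAh : (Nat.card A).Coprime A.index) :
    (Nat.card A).Coprime n := by
  obtain ⟨t, ht⟩ := ham
  have h1 := Subgroup.card_mul_index A
  rw [hG, ht, mul_assoc] at h1
  have h2 := Nat.eq_of_mul_eq_mul_left Nat.card_pos h1
  exact Nat.Coprime.coprime_dvd_right ⟨t, by rw [h2, mul_comm]⟩ hAh

theorem special {G : Type*} [Group G] [Finite G] [Group.IsSolvable G] (H K A B : Subgroup G) (hHK : ∀ g : G, ∃ h ∈ H, ∃ k ∈ K, g = h * k) (hAn : H ≤ Subgroup.normalizer (A : Set G)) (hBn : K ≤ Subgroup.normalizer (B : Set G)) (hAh : (Nat.card A).Coprime A.index) (hBh : (Nat.card B).Coprime B.index) : ∃ S : Subgroup G, (S : Set G) = (A : Set G) * (B : Set G) := by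
  set m := Nat.lcm (Nat.card A) (Nat.card B) with hm
  have hmd : m ∣ Nat.card G :=
    Nat.lcm_dvd (Subgroup.card_subgroup_dvd_card A) (Subgroup.card_subgroup_dvd_card B)
  obtain ⟨n, hG⟩ := hmd
  have hAn' := coprime_aux A m n hG (Nat.dvd_lcm_left _ _) hAh
  have hBn' := coprime_aux B m n hG (Nat.dvd_lcm_right _ _) hBh
  have hmn : m.Coprime n :=
    Nat.Coprime.coprime_dvd_left (Nat.lcm_dvd_mul _ _) (Nat.Coprime.mul_left hAn' hBn')
  obtain ⟨E₁, hE₁, hAE⟩ := Cfsg.Agent.S0005.result m n hG hmn A hAn'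
  obtain ⟨E₂, hE₂, hBE⟩ := Cfsg.Agent.S0005.result m n hG hmn B hBn'
  obtain ⟨g, hg⟩ := Cfsg.Agent.S0004.result m n hG hmn E₁ E₂ hE₁ hE₂
  obtain ⟨h, hh, k, hk, hgk⟩ := hHK g⁻¹
  have hg' : g = k⁻¹ * h⁻¹ := by
    rw [← inv_inv g, hgk, mul_inv_rev]
  set E := MulAut.conj h⁻¹ • E₁ with hE
  have hAE' : A ≤ E := by
    rw [← (mem_normalizer_iff_smul A h⁻¹).1 (hAn (inv_mem hh))]
    exact Subgroup.pointwise_smul_le_pointwise_smul_iff.2 hAE
  have hBE' : B ≤ E := by
    rw [hg', map_mul, mul_smul, ← hE] at hg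
    rw [← hg, ← (mem_normalizer_iff_smul B k⁻¹).1 (hBn (inv_mem hk))] at hBE
    exact Subgroup.pointwise_smul_le_pointwise_smul_iff.1 hBE
  have hEc : Nat.card E = m := by rw [hE, card_conj_smul, hE₁]
  refine ⟨E, ?_⟩
  symm
  apply Set.eq_of_subset_of_ncard_le _ _ (Set.toFinite _)
  · rintro _ ⟨a, ha, b, hb, rfl⟩
    exact mul_mem (hAE' ha) (hBE' hb)
  · have h1 := card_mul_set_mul_card_inf A B
    rw [← Nat.gcd_mul_lcm (Nat.card A) (Nat.card B), ← hm] at h1
    have h2 : Nat.card (A ⊓ B : Subgroup G) ∣ Nat.gcd (Nat.card A) (Nat.card B) :=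
      Nat.dvd_gcd (Subgroup.card_dvd_of_le inf_le_left) (Subgroup.card_dvd_of_le inf_le_right)
    have h3 : Nat.card (A ⊓ B : Subgroup G) ≤ Nat.gcd (Nat.card A) (Nat.card B) :=
      Nat.le_of_dvd (Nat.gcd_pos_of_pos_left _ Nat.card_pos) h2
    rw [← Nat.card_coe_set_eq, ← Nat.card_coe_set_eq]
    change Nat.card E ≤ _
    rw [hEc]
    by_contra hlt
    push Not at hlt
    have h4 : 0 < Nat.card (A ⊓ B : Subgroup G) := Nat.card_pos
    have : Nat.card ((A : Set G) * (B : Set G) : Set G) * Nat.card (A ⊓ B : Subgroup G)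
        < Nat.gcd (Nat.card A) (Nat.card B) * m := by
      calc _ < m * Nat.card (A ⊓ B : Subgroup G) := Nat.mul_lt_mul_of_pos_right hlt h4
        _ ≤ m * Nat.gcd (Nat.card A) (Nat.card B) := Nat.mul_le_mul_left _ h3
        _ = _ := mul_comm _ _
    exact this.ne h1

/-- Let the finite solvable group G be the product HK of subgroups, and let A be normal in H and B normal in K, where A and B are Hall subgroups of G (order coprime to index). Then for all x, y the product set of xAx⁻¹ and yBy⁻¹ is a subgroup of G. -/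
theorem result {G : Type*} [Group G] [Finite G] [Group.IsSolvable G] (H K A B : Subgroup G) (hHK : ∀ g : G, ∃ h ∈ H, ∃ k ∈ K, g = h * k) (hA : A ≤ H) (hAn : (A.subgroupOf H).Normal) (hB : B ≤ K) (hBn : (B.subgroupOf K).Normal) (hAh : (Nat.card A).Coprime A.index) (hBh : (Nat.card B).Coprime B.index) (x y : G) : ∃ S : Subgroup G, (S : Set G) = ((MulAut.conj x • A : Subgroup G) : Set G) * ((MulAut.conj y • B : Subgroup G) : Set G) := by
  rw [Subgroup.normal_subgroupOf_iff_le_normalizer hA] at hAn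
  rw [Subgroup.normal_subgroupOf_iff_le_normalizer hB] at hBn
  apply special (MulAut.conj x • H) (MulAut.conj y • K)
  · exact (Cfsg.Agent.S0559.result H K _ _ hHK ⟨x, rfl⟩ ⟨y, rfl⟩).1
  · rw [normalizer_conj_smul]
    exact Subgroup.pointwise_smul_le_pointwise_smul_iff.2 hAn
  · rw [normalizer_conj_smul]
    exact Subgroup.pointwise_smul_le_pointwise_smul_iff.2 hBn
  · rw [card_conj_smul, index_conj_smul]; exact hAh
  · rw [card_conj_smul, index_conj_smul]; exact hBh

end Cfsg.Agent.S0561
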