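import Cfsg.Statements.S0562
import Mathlib

set_option autoImplicit false
open Cfsg

namespace Cfsg.Agent.S0562

open Pointwise in
theorem mem_normalizer_iff_smul {G : Type*} [Group G] (H : Subgroup G) (g : G) :
    g ∈ Subgroup.normalizer (H : Set G) ↔ MulAut.conj g • H = H :=
  Subgroup.mem_normalizer_iff_map_conj_eq

open Pointwise in
theorem smul_eq_of_le {G : Type*} [Group G] [Finite G] (H : Subgroup G) (g : G)
    (h : H ≤ MulAut.conj g • H) : MulAut.conj g • H = H := by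
  symm
  apply Subgroup.eq_of_le_of_card_ge h
  rw [Nat.card_congr (Subgroup.equivSMul (MulAut.conj g) H).toEquiv]

open Pointwise in
theorem aux {G : Type*} [Group G] [Finite G] (H K A B : Subgroup G) (hHK : ∀ g : G, ∃ h ∈ H, ∃ k ∈ K, g = h * k) (hA : A ≤ H) (hAn : (A.subgroupOf H).Normal) (hB : B ≤ K) (hBn : (B.subgroupOf K).Normal) : ∀ g ∈ Subgroup.normalizer ((A ⊔ B : Subgroup G) : Set G), ∃ h ∈ Subgroup.normalizer ((A ⊔ B : Subgroup G) : Set G) ⊓ H, ∃ k ∈ Subgroup.normalizer ((A ⊔ B : Subgroup G) : Set G) ⊓ K, g = h * k := by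
  intro g hg
  obtain ⟨h, hh, k, hk, rfl⟩ := hHK g
  rw [Subgroup.normal_subgroupOf_iff_le_normalizer hA] at hAn
  rw [Subgroup.normal_subgroupOf_iff_le_normalizer hB] at hBn
  have hAh : MulAut.conj h⁻¹ • A = A := (mem_normalizer_iff_smul A _).1 (hAn (H.inv_mem hh))
  have hBk : MulAut.conj k • B = B := (mem_normalizer_iff_smul B k).1 (hBn hk)
  rw [mem_normalizer_iff_smul, map_mul, mul_smul] at hg
  have h1 : MulAut.conj k • (A ⊔ B) = MulAut.conj h⁻¹ • (A ⊔ B) := by
    rw [map_inv, eq_inv_smul_iff, hg]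
  have h2 : A ⊔ B ≤ MulAut.conj k • (A ⊔ B) := by
    apply sup_le
    · rw [h1, Subgroup.smul_sup, hAh]; exact le_sup_left
    · rw [Subgroup.smul_sup, hBk]; exact le_sup_right
  have h3 : MulAut.conj k • (A ⊔ B) = A ⊔ B := smul_eq_of_le _ _ h2
  have h4 : MulAut.conj h • (A ⊔ B) = A ⊔ B := by rw [h3] at hg; exact hg
  exact ⟨h, ⟨(mem_normalizer_iff_smul _ _).2 h4, hh⟩, k, ⟨(mem_normalizer_iff_smul _ _).2 h3, hk⟩, rfl⟩

/-- Let the finite group G be the product HK of subgroups, A normal in H, B normal in K, and L the normalizer of the subgroup generated by A and B. Then every element of L is a product of an element of L ∩ H and an element of L ∩ K. -/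
theorem result {G : Type*} [Group G] [Finite G] (H K A B : Subgroup G) (hHK : ∀ g : G, ∃ h ∈ H, ∃ k ∈ K, g = h * k) (hA : A ≤ H) (hAn : (A.subgroupOf H).Normal) (hB : B ≤ K) (hBn : (B.subgroupOf K).Normal) : ∀ g ∈ Subgroup.normalizer ((A ⊔ B : Subgroup G) : Set G), ∃ h ∈ Subgroup.normalizer ((A ⊔ B : Subgroup G) : Set G) ⊓ H, ∃ k ∈ Subgroup.normalizer ((A ⊔ B : Subgroup G) : Set G) ⊓ K, g = h * k :=
  aux H K A B hHK hA hAn hB hBn

end Cfsg.Agent.S0562
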