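import Cfsg.Statements.S0566
import Cfsg.Agent.Lib.Helper12.Permute
import Cfsg.Agent.Lib.Helper12.CoreFree

set_option autoImplicit false
open Pointwise
open Cfsg

namespace Cfsg.Agent.S0566

open Cfsg.Agent.Lib.Helper12

theorem smul_eq_of_smul_le {G : Type*} [Group G] [Finite G] (H : Subgroup G) (g : G)
    (h : MulAut.conj g • H ≤ H) : MulAut.conj g • H = H := by
  apply Subgroup.eq_of_le_of_card_ge h
  rw [card_conj_smul]

theorem main {G : Type*} [Group G] [Finite G] (B : Subgroup G) (A : Subgroup G) :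
    (∀ x : G, ∃ S : Subgroup G, S ≠ ⊤ ∧ (S : Set G) = (A : Set G) * ((MulAut.conj x • B : Subgroup G) : Set G)) →
    ∃ N : Subgroup G, N.Normal ∧ N ≠ ⊤ ∧ (A ≤ N ∨ B ≤ N) := by
  induction A using (wellFounded_gt (α := Subgroup G)).induction with
  | _ A ih =>
    intro h
    by_contra hcon
    push Not at hcon
    have hBtop : Subgroup.normalClosure (B : Set G) = ⊤ := by
      by_contra hne
      exact (hcon _ inferInstance hne).2 Subgroup.le_normalClosure
    have hAle : ∀ x : G, ∀ S : Subgroup G, (S : Set G) = (A : Set G) * ((MulAut.conj x • B : Subgroup G) : Set G) →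
        A ≤ S ∧ MulAut.conj x • B ≤ S := by
      intro x S hS
      constructor
      · intro a ha
        rw [← SetLike.mem_coe, hS]; exact ⟨a, ha, 1, one_mem _, mul_one a⟩
      · intro c hc
        rw [← SetLike.mem_coe, hS]; exact ⟨1, one_mem _, c, hc, one_mul c⟩
    have hAnn : ¬ A.Normal := by
      intro hn
      obtain ⟨S, hS, hSe⟩ := h 1
      have : A ≠ ⊤ := by
        rintro rfl
        exact hS (top_le_iff.1 (hAle 1 S hSe).1)
      exact (hcon A hn this).1 le_rfl
    have hex : ∃ x : G, ∃ b ∈ MulAut.conj x • B, MulAut.conj b • A ≠ A := by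
      by_contra hno
      push Not at hno
      apply hAnn
      rw [← Subgroup.normalizer_eq_top_iff, eq_top_iff, ← hBtop, Subgroup.normalClosure,
        Subgroup.closure_le]
      intro z hz
      rw [Group.mem_conjugatesOfSet_iff] at hz
      obtain ⟨a, ha, hconj⟩ := hz
      rw [isConj_iff] at hconj
      obtain ⟨c, rfl⟩ := hconj
      rw [SetLike.mem_coe, mem_normalizer_iff_smul]
      have hmem : c * a * c⁻¹ ∈ MulAut.conj c • B := by
        have := Subgroup.smul_mem_pointwise_smul a (MulAut.conj c) B ha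
        rwa [MulAut.smul_def, MulAut.conj_apply] at this
      exact hno c (c * a * c⁻¹) hmem
    obtain ⟨x, b, hb, hbA⟩ := hex
    obtain ⟨H, hHtop, hHe⟩ := h x
    obtain ⟨hAH, hBH⟩ := hAle x H hHe
    have hbH : b ∈ H := hBH hb
    set A₁ := A ⊔ MulAut.conj b • A with hA₁
    have hlt : A < A₁ := by
      refine lt_of_le_of_ne le_sup_left ?_
      intro heq
      apply hbA
      apply smul_eq_of_smul_le
      exact le_sup_right.trans heq.ge
    have hA₁H : A₁ ≤ H := sup_le hAH (Subgroup.conj_smul_le_of_le hAH ⟨b, hbH⟩)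
    have hperm : ∀ y : G, PermLe (MulAut.conj y • B) A₁ := by
      intro y
      apply PermLe.sup
      · obtain ⟨S, -, hS⟩ := h y
        exact PermLe.of_coe_eq hS
      · obtain ⟨S, -, hS⟩ := h (b⁻¹ * y)
        have := (PermLe.of_coe_eq hS).conj b
        rwa [← mul_smul, ← map_mul, mul_inv_cancel_left] at this
    by_cases hall : ∀ y : G, ∀ S : Subgroup G,
        (S : Set G) = (A₁ : Set G) * ((MulAut.conj y • B : Subgroup G) : Set G) → S ≠ ⊤
    · obtain ⟨N, hN, hNtop, hN'⟩ := ih A₁ hlt (fun y => by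
        obtain ⟨S, hS⟩ := (hperm y).exists_subgroup
        exact ⟨S, hall y S hS, hS⟩)
      rcases hN' with h' | h'
      · exact (hcon N hN hNtop).1 (hlt.le.trans h')
      · exact (hcon N hN hNtop).2 h'
    · push Not at hall
      obtain ⟨y, S, hS, rfl⟩ := hall
      apply hHtop
      have hprod : ∀ g : G, ∃ a ∈ A₁, ∃ k ∈ MulAut.conj y • B, g = a * k := by
        intro g
        have : g ∈ ((⊤ : Subgroup G) : Set G) := trivial
        rw [hS] at this
        obtain ⟨a, ha, k, hk, e⟩ := this
        exact ⟨a, ha, k, hk, e.symm⟩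
      obtain ⟨a, ha, k, hk, e⟩ := hprod (x * y⁻¹)
      have hKH : MulAut.conj y • B ≤ H := by
        have e1 : y * x⁻¹ = k⁻¹ * a⁻¹ := by
          have : y * x⁻¹ = (x * y⁻¹)⁻¹ := by group
          rw [this, e, mul_inv_rev]
        have e2 : MulAut.conj y • B = MulAut.conj (k⁻¹) • (MulAut.conj a⁻¹ • (MulAut.conj x • B)) := by
          rw [← mul_smul, ← mul_smul, ← map_mul, ← map_mul, ← e1]
          congr 2
          group
        have e3 : MulAut.conj a⁻¹ • (MulAut.conj x • B) = MulAut.conj y • B := by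
          have h1 : MulAut.conj k • (MulAut.conj y • B) = MulAut.conj y • B :=
            Subgroup.conj_smul_eq_self_of_mem hk
          rw [← h1]
          conv_rhs => rw [e2]
          rw [← mul_smul (MulAut.conj k), ← map_mul, mul_inv_cancel, map_one, one_smul]
        rw [← e3]
        exact Subgroup.conj_smul_le_of_le hBH ⟨a⁻¹, inv_mem (hA₁H ha)⟩
      rw [eq_top_iff]
      intro g _
      obtain ⟨a', ha', k', hk', rfl⟩ := hprod g
      exact mul_mem (hA₁H ha') (hKH hk')

/-- Let A and B be nontrivial subgroups of a finite group G such that for every x the product set of A and xBx⁻¹ is a proper subgroup of G. Then there is a proper normal subgroup of G containing A or containing B. -/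
theorem result {G : Type*} [Group G] [Finite G] (A B : Subgroup G) (hA : A ≠ ⊥) (hB : B ≠ ⊥) (h : ∀ x : G, ∃ S : Subgroup G, S ≠ ⊤ ∧ (S : Set G) = (A : Set G) * ((MulAut.conj x • B : Subgroup G) : Set G)) : ∃ N : Subgroup G, N.Normal ∧ N ≠ ⊤ ∧ (A ≤ N ∨ B ≤ N) := by
  exact main B A h

end Cfsg.Agent.S0566
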