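import Cfsg.Statements.S0558
import Cfsg.Agent.S0071
import Cfsg.Agent.Lib.Helper31.Nilpotent
import Cfsg.Agent.Lib.Helper11.SylowAux

set_option autoImplicit false
open Cfsg

namespace Cfsg.Agent.S0558

open Cfsg.Agent.Lib.Helper11
open scoped Pointwise

variable {G : Type*} [Group G] [Finite G]

theorem mem_normalizer_of_conj_mem (D : Subgroup G) (g : G)
    (h : ∀ d ∈ D, g * d * g⁻¹ ∈ D) : g ∈ Subgroup.normalizer (D : Set G) := by
  rw [Subgroup.mem_normalizer_iff]
  intro x
  refine ⟨h x, fun hx => ?_⟩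
  let f : D → D := fun d => ⟨g * d * g⁻¹, h d d.2⟩
  have hf : Function.Injective f := by
    intro a b hab
    have := congrArg Subtype.val hab
    simp only [f] at this
    apply Subtype.ext
    simpa using this
  obtain ⟨d, hd⟩ := (Finite.injective_iff_surjective.1 hf) ⟨_, hx⟩
  have := congrArg Subtype.val hd
  simp only [f] at this
  have hdx : (d : G) = x := by simpa using this
  rw [← hdx]; exact d.2

/-- the image in `G` of a Sylow subgroup of `H` whose normalizer is `H` is a Sylow subgroup of `G`. -/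
theorem exists_sylow_eq (H : Subgroup G) {p : ℕ} [Fact p.Prime] (P : Sylow p H)
    (hN : Subgroup.normalizer (((P : Subgroup H).map H.subtype : Subgroup G) : Set G) = H) :
    ∃ S : Sylow p G, (S : Subgroup G) = (P : Subgroup H).map H.subtype := by
  have hPp : IsPGroup p ((P : Subgroup H).map H.subtype : Subgroup G) := P.isPGroup'.map _
  obtain ⟨S, hS⟩ := hPp.exists_le_sylow
  refine ⟨S, ?_⟩
  symm
  apply eq_of_normalizer_inf_le (S : Subgroup G) _ S.isPGroup' hS
  intro x hxS hxN
  rw [hN] at hxN
  have hT : IsPGroup p (((S : Subgroup G)).subgroupOf H) := S.isPGroup'.comap_subtype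
  have hle : (P : Subgroup H) ≤ (S : Subgroup G).subgroupOf H := by
    intro y hy
    rw [Subgroup.mem_subgroupOf]
    exact hS ⟨y, hy, rfl⟩
  have heq := P.is_maximal' hT hle
  refine ⟨⟨x, hxN⟩, ?_, rfl⟩
  show (⟨x, hxN⟩ : H) ∈ (P : Subgroup H)
  rw [← heq, Subgroup.mem_subgroupOf]
  exact hxS

theorem isNilpotent_of_hnorm (H : Subgroup G)
    (hnorm : ∀ p : ℕ, p.Prime → p ∣ Nat.card H → ∀ P : Sylow p H,
      Subgroup.normalizer (((P : Subgroup H).map H.subtype : Subgroup G) : Set G) = H) :
    Group.IsNilpotent H := by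
  apply (Group.isNilpotent_of_finite_tfae.out 0 3 rfl rfl).mpr
  intro r hr R
  by_cases hd : r ∣ Nat.card H
  · have h1 := hnorm r hr.out hd R
    have h2 : (((R : Subgroup H).map H.subtype : Subgroup G).subgroupOf H).Normal :=
      Subgroup.normal_subgroupOf_of_le_normalizer h1.ge
    have h3 : ((R : Subgroup H).map H.subtype : Subgroup G).subgroupOf H = (R : Subgroup H) := by
      ext y
      rw [Subgroup.mem_subgroupOf]
      constructor
      · rintro ⟨z, hz, hzy⟩
        have : z = y := Subtype.ext hzy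
        rwa [← this]
      · intro hy
        exact ⟨y, hy, rfl⟩
    rwa [h3] at h2
  · have h1 : Nat.card (R : Subgroup H) = 1 := by
      rw [R.card_eq_multiplicity, Nat.factorization_eq_zero_of_not_dvd hd, pow_zero]
    rw [Subgroup.card_eq_one.1 h1]
    infer_instance

/-- the per-prime statement -/
theorem per_prime (H : Subgroup G)
    (hnot : ∀ p : ℕ, p.Prime → ∀ P : Sylow p G, (P : Subgroup G) ≠ H)
    (hnorm : ∀ p : ℕ, p.Prime → p ∣ Nat.card H → ∀ P : Sylow p H,
      Subgroup.normalizer (((P : Subgroup H).map H.subtype : Subgroup G) : Set G) = H)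
    (p : ℕ) (hp : p.Prime) (hpd : p ∣ Nat.card H) :
    ∃ N : Subgroup G, N.Normal ∧ N.index = p ^ (Nat.card H).factorization p ∧
      (Nat.card N).Coprime p := by
  have : Fact p.Prime := ⟨hp⟩
  have hnil := isNilpotent_of_hnorm H hnorm
  obtain ⟨P⟩ : Nonempty (Sylow p H) := inferInstance
  obtain ⟨S, hS⟩ := exists_sylow_eq H P (hnorm p hp hpd P)
  have hSH : (S : Subgroup G) ≤ H := by
    rw [hS]; exact Subgroup.map_subtype_le _
  have hScard : Nat.card (S : Subgroup G) = p ^ (Nat.card H).factorization p := by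
    rw [hS, Subgroup.card_map_of_injective H.subtype_injective, P.card_eq_multiplicity]
  -- another prime
  obtain ⟨q, hq, hqd, hqp⟩ : ∃ q : ℕ, q.Prime ∧ q ∣ Nat.card H ∧ q ≠ p := by
    by_contra hcon
    push Not at hcon
    have h1 : Nat.card H = p ^ (Nat.card H).factorization p := by
      obtain ⟨k, hk⟩ : ∃ k, Nat.card H = p ^ k :=
        ⟨_, Nat.eq_prime_pow_of_unique_prime_dvd Nat.card_pos.ne' (fun {d} hd hdd => hcon d hd hdd)⟩
      rw [hk, Nat.Prime.factorization_pow hp]
      simp
    apply hnot p hp S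
    exact Subgroup.eq_of_le_of_card_ge hSH (by rw [hScard, ← h1])
  have : Fact q.Prime := ⟨hq⟩
  obtain ⟨Q⟩ : Nonempty (Sylow q H) := inferInstance
  obtain ⟨T, hT⟩ := exists_sylow_eq H Q (hnorm q hq hqd Q)
  have hTH : (T : Subgroup G) ≤ H := by
    rw [hT]; exact Subgroup.map_subtype_le _
  have hTN : Subgroup.normalizer ((T : Subgroup G) : Set G) = H := by
    rw [hT]; exact hnorm q hq hqd Q
  -- elements of `H` of order prime to `p` centralize `S`
  have hcent : ∀ y ∈ H, (orderOf y).Coprime p → ∀ s ∈ (S : Subgroup G), y * s = s * y := by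
    intro y hy hyp s hs
    obtain ⟨k, hk⟩ := S.isPGroup' ⟨s, hs⟩
    have hk' : s ^ p ^ k = 1 := by
      have := congrArg Subtype.val hk
      simpa using this
    have h11 : orderOf s ∣ p ^ k := orderOf_dvd_of_pow_eq_one hk'
    have h12 : (orderOf (⟨y, hy⟩ : H)).Coprime (orderOf (⟨s, hSH hs⟩ : H)) := by
      rw [Subgroup.orderOf_mk, Subgroup.orderOf_mk]
      exact Nat.Coprime.coprime_dvd_right h11 (hyp.pow_right k)
    have := Cfsg.Agent.Lib.Helper31.commute_of_coprime_orderOf H _ _ h12
    exact congrArg Subtype.val this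
  have key : ∃ N : Subgroup G, N.Normal ∧ N.IsComplement' (S : Subgroup G) := by
    rw [Cfsg.Agent.S0071.result S]
    intro U hUS g hgN hgp
    have hqcop : ∀ t ∈ (T : Subgroup G), (orderOf t).Coprime p := by
      intro t ht
      obtain ⟨k, hk⟩ := T.isPGroup' ⟨t, ht⟩
      have hk' : t ^ q ^ k = 1 := by
        have := congrArg Subtype.val hk
        simpa using this
      have h11 : orderOf t ∣ q ^ k := orderOf_dvd_of_pow_eq_one hk'
      exact Nat.Coprime.coprime_dvd_left h11
        (Nat.Coprime.pow_left k ((Nat.coprime_primes hq hp).2 hqp))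
    have hTC : (T : Subgroup G) ≤ Subgroup.centralizer (U : Set G) := by
      intro t ht
      rw [Subgroup.mem_centralizer_iff]
      intro u hu
      exact (hcent t (hTH ht) (hqcop t ht) u (hUS hu)).symm
    have hRC : MulAut.conj g • (T : Subgroup G) ≤ Subgroup.centralizer (U : Set G) := by
      intro x hx
      rw [mem_conj_smul_iff] at hx
      rw [Subgroup.mem_centralizer_iff]
      intro u hu
      have hu' : g⁻¹ * u * g ∈ U := by
        have := (Subgroup.mem_normalizer_iff.1 (Subgroup.inv_mem _ hgN) u).1 hu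
        simpa using this
      have h1 := Subgroup.mem_centralizer_iff.1 (hTC hx) _ hu'
      have h2 : g * (g⁻¹ * u * g * (g⁻¹ * x * g)) * g⁻¹ = g * (g⁻¹ * x * g * (g⁻¹ * u * g)) * g⁻¹ := by
        rw [h1]
      have e1 : g * (g⁻¹ * u * g * (g⁻¹ * x * g)) * g⁻¹ = u * x := by group
      have e2 : g * (g⁻¹ * x * g * (g⁻¹ * u * g)) * g⁻¹ = x * u := by group
      rw [e1, e2] at h2
      exact h2
    have hRq : IsPGroup q (MulAut.conj g • (T : Subgroup G) : Subgroup G) := by
      have : (MulAut.conj g • (T : Subgroup G) : Subgroup G)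
          = (T : Subgroup G).map (MulAut.conj g).toMonoidHom := rfl
      rw [this]
      exact T.isPGroup'.map _
    obtain ⟨k, hkC, hk⟩ := exists_conj_le_sylow_of_le _ T hTC _ hRq hRC
    have hkgH : k * g ∈ H := by
      rw [← hTN]
      apply mem_normalizer_of_conj_mem
      intro t ht
      apply hk
      have e : k * g * t * (k * g)⁻¹ = k * (g * t * g⁻¹) * k⁻¹ := by group
      rw [e]
      exact conj_mem_conj_smul (conj_mem_conj_smul ht)
    have hkN : k ∈ Subgroup.normalizer (U : Set G) := Subgroup.centralizer_le_normalizer _ hkC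
    have hhN : k * g ∈ Subgroup.normalizer (U : Set G) := Subgroup.mul_mem _ hkN hgN
    have hker : ∀ (y : G) (hy : y ∈ Subgroup.normalizer (U : Set G)),
        U.normalizerMonoidHom ⟨y, hy⟩ = 1 ↔ y ∈ Subgroup.centralizer (U : Set G) := by
      intro y hy
      rw [← MonoidHom.mem_ker, Subgroup.normalizerMonoidHom_ker, Subgroup.mem_subgroupOf]
    have hφ : U.normalizerMonoidHom ⟨k * g, hhN⟩ = U.normalizerMonoidHom ⟨g, hgN⟩ := by
      have : (⟨k * g, hhN⟩ : Subgroup.normalizer (U : Set G)) = ⟨k, hkN⟩ * ⟨g, hgN⟩ := rfl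
      rw [this, map_mul, (hker k hkN).2 hkC, one_mul]
    obtain ⟨a, s, hs, has⟩ := Nat.exists_eq_pow_mul_and_not_dvd (orderOf_pos (k * g)).ne' p hp.ne_one
    have hpow : (k * g) ^ p ^ a ∈ Subgroup.centralizer (U : Set G) := by
      rw [Subgroup.mem_centralizer_iff]
      intro u hu
      refine (hcent _ (H.pow_mem hkgH _) ?_ u (hUS hu)).symm
      have h1 : orderOf ((k * g) ^ p ^ a) ∣ s := by
        apply orderOf_dvd_of_pow_eq_one
        rw [← pow_mul, ← has, pow_orderOf_eq_one]
      exact Nat.Coprime.coprime_dvd_left h1 ((Nat.Prime.coprime_iff_not_dvd hp).2 hs).symm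
    have h1 : (U.normalizerMonoidHom ⟨g, hgN⟩) ^ p ^ a = 1 := by
      rw [← hφ, ← map_pow]
      exact (hker _ _).2 hpow
    have h2 : orderOf (U.normalizerMonoidHom ⟨g, hgN⟩) ∣ orderOf g := by
      have := orderOf_map_dvd U.normalizerMonoidHom (⟨g, hgN⟩ : Subgroup.normalizer (U : Set G))
      rwa [Subgroup.orderOf_mk] at this
    have h3 : orderOf (U.normalizerMonoidHom ⟨g, hgN⟩) = 1 :=
      Nat.eq_one_of_dvd_coprimes (hgp.pow_right a) h2 (orderOf_dvd_of_pow_eq_one h1)
    exact (hker g hgN).1 (orderOf_eq_one_iff.1 h3)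
  obtain ⟨N, hN, hc⟩ := key
  refine ⟨N, hN, ?_, ?_⟩
  · have h1 := hc.card_mul_card
    have h2 := N.card_mul_index
    rw [← hScard]
    exact Nat.eq_of_mul_eq_mul_left Nat.card_pos (h2.trans h1.symm)
  · have h8 := hc.card_mul_card
    have h9 := (S : Subgroup G).card_mul_index
    have h10 : Nat.card N = (S : Subgroup G).index := by
      have hpos : 0 < Nat.card (S : Subgroup G) := Nat.card_pos
      have : Nat.card (S : Subgroup G) * Nat.card N
          = Nat.card (S : Subgroup G) * (S : Subgroup G).index := by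
        rw [h9, mul_comm, h8]
      exact Nat.eq_of_mul_eq_mul_left hpos this
    rw [h10]
    exact ((Nat.Prime.coprime_iff_not_dvd hp).2 S.not_dvd_index).symm

/-- Let H be a subgroup of a finite group G that is not a Sylow subgroup of G for any prime, and suppose that for every prime p dividing the order of H and every Sylow p-subgroup P of H the normalizer of P in G is exactly H. Then some normal subgroup of G is a complement to H. -/
theorem result {G : Type*} [Group G] [Finite G] (H : Subgroup G) (hnot : ∀ p : ℕ, p.Prime → ∀ P : Sylow p G, (P : Subgroup G) ≠ H) (hnorm : ∀ p : ℕ, p.Prime → p ∣ Nat.card H → ∀ P : Sylow p H, Subgroup.normalizer (((P : Subgroup H).map H.subtype : Subgroup G) : Set G) = H) : ∃ N : Subgroup G, N.Normal ∧ Subgroup.IsComplement' N H := by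
  classical
  have hex : ∀ p : (Nat.card H).primeFactors, ∃ N : Subgroup G, N.Normal ∧
      N.index = (p : ℕ) ^ (Nat.card H).factorization p ∧ (Nat.card N).Coprime p := by
    intro p
    exact per_prime H hnot hnorm p (Nat.prime_of_mem_primeFactors p.2)
      (Nat.dvd_of_mem_primeFactors p.2)
  choose Nf hNn hNi hNc using hex
  let N : Subgroup G := ⨅ p, Nf p
  have hNnormal : N.Normal := Subgroup.normal_iInf_normal hNn
  have hdisj : Disjoint N H := by
    rw [Subgroup.disjoint_def]
    intro x hxN hxH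
    by_contra hx1
    have h1 : orderOf x ≠ 1 := fun h => hx1 (orderOf_eq_one_iff.1 h)
    obtain ⟨r, hr, hrd⟩ := Nat.exists_prime_and_dvd h1
    have hrH : r ∣ Nat.card H := by
      have := orderOf_dvd_natCard (⟨x, hxH⟩ : H)
      rw [Subgroup.orderOf_mk] at this
      exact hrd.trans this
    have hrmem : r ∈ (Nat.card H).primeFactors :=
      Nat.mem_primeFactors.2 ⟨hr, hrH, Nat.card_pos.ne'⟩
    have hxr : x ∈ Nf ⟨r, hrmem⟩ := (Subgroup.mem_iInf.1 hxN) ⟨r, hrmem⟩
    have h2 : r ∣ Nat.card (Nf ⟨r, hrmem⟩) := by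
      have := orderOf_dvd_natCard (⟨x, hxr⟩ : Nf ⟨r, hrmem⟩)
      rw [Subgroup.orderOf_mk] at this
      exact hrd.trans this
    have h3 := hNc ⟨r, hrmem⟩
    exact hr.one_lt.ne' (Nat.eq_one_of_dvd_coprimes h3 h2 dvd_rfl)
  have hle : N.index ≤ Nat.card H := by
    calc N.index ≤ ∏ p, (Nf p).index := Subgroup.index_iInf_le Nf
      _ = ∏ p : (Nat.card H).primeFactors, (p : ℕ) ^ (Nat.card H).factorization p :=
        Finset.prod_congr rfl (fun p _ => hNi p)
      _ = ∏ p ∈ (Nat.card H).primeFactors, p ^ (Nat.card H).factorization p :=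
        Finset.prod_coe_sort (Nat.card H).primeFactors (fun p => p ^ (Nat.card H).factorization p)
      _ = Nat.card H := Nat.prod_factorization_pow_eq_self Nat.card_pos.ne'
  have hge : Nat.card H ≤ N.index := by
    have h1 : N.relIndex H ≤ N.relIndex ⊤ :=
      Subgroup.relIndex_le_of_le_right le_top (by
        rw [Subgroup.relIndex_top_right]; exact Subgroup.index_ne_zero_of_finite)
    rw [Subgroup.relIndex_top_right] at h1
    have h2 : N.relIndex H = Nat.card H := by
      have : N.subgroupOf H = ⊥ := by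
        rw [Subgroup.subgroupOf_eq_bot]; exact hdisj
      rw [Subgroup.relIndex, this, Subgroup.index_bot]
    rwa [h2] at h1
  refine ⟨N, hNnormal, Subgroup.isComplement'_of_card_mul_and_disjoint ?_ hdisj⟩
  rw [← le_antisymm hle hge]
  exact N.card_mul_index

end Cfsg.Agent.S0558
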