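import Cfsg.Statements.S0581
-- import your own Cfsg.Agent.* helpers here
import Cfsg.Agent.Lib.Helper13.Schmidt2
import Cfsg.Agent.Lib.Helper67.SylowAux

set_option autoImplicit false
open Pointwise
open Cfsg

namespace Cfsg.Agent.S0581


open Cfsg.Agent.Lib.Helper13 Cfsg.Agent.Lib.Helper31 Cfsg.Agent.Lib.Helper67 Cfsg.Agent.Lib.Helper2

universe u
variable {G : Type u} [Group G]

theorem nil_of_injective {A B : Type*} [Group A] [Group B] (f : A →* B)
    (hf : Function.Injective f) (hB : Group.IsNilpotent B) : Group.IsNilpotent A :=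
  Subgroup.isNilpotent_of_ker_le_center f
    (by rw [(MonoidHom.ker_eq_bot_iff f).2 hf]; exact bot_le)

theorem nil_of_le {H M : Subgroup G} (h : H ≤ M)
    (hM : Group.IsNilpotent M) : Group.IsNilpotent H :=
  nil_of_injective (Subgroup.inclusion h) (Subgroup.inclusion_injective h) hM

theorem nil_cj (x : G) {H : Subgroup G} (hH : Group.IsNilpotent H) : Group.IsNilpotent (cj x H) :=
  (Group.isNilpotent_congr (H.equivMapOfInjective (MulAut.conj x).toMonoidHom
    (MulAut.conj x).injective)).mp hH

theorem step [Finite G] (H K : Subgroup G) (hH : Group.IsNilpotent H)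
    (hHall : (Nat.card H).Coprime H.index) (p : ℕ) [Fact p.Prime] (hpH : p ∣ Nat.card H)
    (hRH : (Cfsg.pResidual p K).map K.subtype ≤ H) : ∃ x : G, K ≤ cj x H := by
  have hp : p.Prime := Fact.out
  set R := (Cfsg.pResidual p K).map K.subtype with hR
  obtain ⟨P₀⟩ : Nonempty (Sylow p H) := inferInstance
  obtain ⟨P₁⟩ : Nonempty (Sylow p K) := inferInstance
  have hH₁p : IsPGroup p ((P₀ : Subgroup H).map H.subtype) := P₀.isPGroup'.map _
  have hP₁p : IsPGroup p ((P₁ : Subgroup K).map K.subtype) := P₁.isPGroup'.map _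
  have hH₁i : ¬ p ∣ ((P₀ : Subgroup H).map H.subtype).index := by
    rw [Subgroup.index_map_subtype]
    intro hd
    rcases (Nat.Prime.dvd_mul hp).mp hd with h | h
    · exact P₀.not_dvd_index h
    · exact hp.one_lt.ne' (Nat.eq_one_of_dvd_coprimes hHall hpH h)
  have hKL : K ≤ Subgroup.normalizer (R : Set G) := by
    rw [← Subgroup.normal_subgroupOf_iff_le_normalizer (Subgroup.map_subtype_le _)]
    have h1 : ((Cfsg.pResidual p K).map K.subtype).subgroupOf K = Cfsg.pResidual p K :=
      Subgroup.comap_map_eq_self_of_injective K.subtype_injective _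
    rw [h1]
    infer_instance
  have hRC : R ≤ Subgroup.centralizer (((P₀ : Subgroup H).map H.subtype : Subgroup G) : Set G) := by
    have hRH' := hRH
    rw [hR, map_pResidual_subtype] at hRH' ⊢
    rw [Subgroup.closure_le]
    rintro r ⟨hrK, hro⟩
    have hrH : r ∈ H := hRH' (Subgroup.subset_closure ⟨hrK, hro⟩)
    rw [SetLike.mem_coe, Subgroup.mem_centralizer_iff]
    rintro _ ⟨u, hu, rfl⟩
    obtain ⟨k, hk⟩ := (IsPGroup.iff_orderOf.mp P₀.isPGroup') ⟨u, hu⟩
    rw [Subgroup.orderOf_mk] at hk
    have := commute_of_coprime_orderOf H u ⟨r, hrH⟩ (by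
      rw [hk, Subgroup.orderOf_mk]
      exact hro.symm.pow_left k)
    exact congrArg Subtype.val this
  have hH₁L : (P₀ : Subgroup H).map H.subtype ≤ Subgroup.normalizer (R : Set G) :=
    (Subgroup.le_centralizer_iff.mp hRC).trans (Subgroup.centralizer_le_normalizer _)
  obtain ⟨m, hm, hle⟩ := exists_cj_of_relIndex hH₁p hH₁L ((Subgroup.map_subtype_le _).trans hKL)
    (fun h => hH₁i (h.trans (Subgroup.relIndex_dvd_index_of_le hH₁L))) hP₁p
  refine ⟨m, ?_⟩
  have hK : K = (P₁ : Subgroup K).map K.subtype ⊔ R := by
    rw [hR, ← Subgroup.map_sup, sylow_sup_pResidual, ← MonoidHom.range_eq_map, Subgroup.range_subtype]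
  rw [hK]
  apply sup_le
  · exact hle.trans (cj_mono m (Subgroup.map_subtype_le _))
  · rw [← mem_normalizer_iff_cj.mp hm]
    exact cj_mono m hRH

theorem main [Finite G] (H : Subgroup G) (hH : Group.IsNilpotent H)
    (hHall : (Nat.card H).Coprime H.index) : ∀ (n : ℕ) (K : Subgroup G), Nat.card K = n →
    (∀ p : ℕ, p.Prime → p ∣ Nat.card K → p ∣ Nat.card H) → ∃ x : G, K ≤ cj x H := by
  intro n
  induction n using Nat.strong_induction_on with
  | _ n ih =>
    intro K hn hK
    by_cases hbot : K = ⊥
    · exact ⟨1, hbot ▸ bot_le⟩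
    have : Nontrivial K := (Subgroup.nontrivial_iff_ne_bot K).mpr hbot
    have hprop : ∀ S : Subgroup K, S ≠ ⊤ → ∃ x : G, S.map K.subtype ≤ cj x H := by
      intro S hS
      have hcard : Nat.card (S.map K.subtype) = Nat.card S :=
        Subgroup.card_map_of_injective K.subtype_injective
      have hlt : Nat.card S < Nat.card K := by
        have h1 := S.card_mul_index
        have h2 : S.index ≠ 1 := fun h => hS (Subgroup.index_eq_one.mp h)
        have h3 : 0 < S.index := Nat.pos_of_ne_zero Subgroup.index_ne_zero_of_finite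
        have h4 : 0 < Nat.card S := Nat.card_pos
        have h5 : 2 ≤ S.index := by omega
        nlinarith
      refine ih _ (by rw [hcard, ← hn]; exact hlt) _ rfl ?_
      intro p hp hd
      rw [hcard] at hd
      exact hK p hp (hd.trans (Subgroup.card_subgroup_dvd_card S))
    have hsol : Group.IsSolvable K := by
      apply isSolvable_of_proper_nilpotent
      intro S hS
      obtain ⟨x, hx⟩ := hprop S hS
      exact (Group.isNilpotent_congr (S.equivMapOfInjective K.subtype K.subtype_injective)).mpr
        (nil_of_le hx (nil_cj x hH))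
    obtain ⟨M, hMn, hMp⟩ := exists_normal_prime_index hsol
    have : Fact M.index.Prime := ⟨hMp⟩
    have hRM : Cfsg.pResidual M.index K ≤ M := by
      unfold Cfsg.pResidual
      rw [Subgroup.closure_le]
      intro x hx
      exact Cfsg.Agent.Lib.Helper58.mem_of_coprime_order M 1 (pow_one _).symm x hx
    have hMtop : M ≠ ⊤ := by
      intro h
      rw [h, Subgroup.index_top] at hMp
      exact Nat.not_prime_one hMp
    have hRtop : Cfsg.pResidual M.index K ≠ ⊤ := by
      intro h
      rw [h] at hRM
      exact hMtop (top_le_iff.mp hRM)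
    obtain ⟨g, hg⟩ := hprop _ hRtop
    have hcg : Nat.card (cj g H) = Nat.card H :=
      Subgroup.card_map_of_injective (MulAut.conj g).injective
    obtain ⟨x, hx⟩ := step (cj g H) K (nil_cj g hH) (by
        rw [hcg]
        have h1 := (cj g H).card_mul_index
        have h2 := H.card_mul_index
        rw [hcg, ← h2] at h1
        rw [Nat.eq_of_mul_eq_mul_left Nat.card_pos h1]
        exact hHall) M.index (by
        rw [hcg]
        exact hK _ hMp (Subgroup.index_dvd_card M)) hg
    exact ⟨x * g, by rw [← cj_cj]; exact hx⟩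

/-- Let H be a nilpotent subgroup of a finite group G whose order is coprime to its index, and K a subgroup every prime divisor of whose order divides the order of H. Then K lies in some conjugate of H. -/
theorem result {G : Type*} [Group G] [Finite G] (H K : Subgroup G) (hH : Group.IsNilpotent H) (hHall : (Nat.card H).Coprime H.index) (hK : ∀ p : ℕ, p.Prime → p ∣ Nat.card K → p ∣ Nat.card H) : ∃ x : G, K ≤ MulAut.conj x • H := by
  exact main H hH hHall _ K rfl hK

end Cfsg.Agent.S0581
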