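import Cfsg.Statements.S0560
import Cfsg.Agent.Lib.Helper12.Card

set_option autoImplicit false
open Pointwise
open Cfsg

namespace Cfsg.Agent.S0560

open Cfsg.Agent.Lib.Helper12

theorem map_smul_le {G : Type*} [Group G] (H : Subgroup G) (p : ℕ) [Fact p.Prime]
    (P : Sylow p H) (R : Sylow p G) (hPR : (P : Subgroup H).map H.subtype ≤ R) (h : H) :
    (((h • P : Sylow p H) : Subgroup H).map H.subtype) ≤ (((h : G) • R : Sylow p G) : Subgroup G) := by
  rintro _ ⟨y, hy, rfl⟩
  rw [SetLike.mem_coe, Sylow.coe_subgroup_smul, Subgroup.mem_pointwise_smul_iff_inv_smul_mem] at hy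
  rw [Sylow.coe_subgroup_smul, Subgroup.mem_pointwise_smul_iff_inv_smul_mem]
  have := hPR ⟨_, hy, rfl⟩
  simpa [MulAut.smul_def, MulAut.conj_apply] using this

theorem card_map_sylow {G : Type*} [Group G] [Finite G] (H : Subgroup G) (p : ℕ) [Fact p.Prime]
    (P : Sylow p H) : Nat.card ((P : Subgroup H).map H.subtype) = p ^ (Nat.card H).factorization p := by
  rw [Subgroup.card_map_of_injective H.subtype_injective, Sylow.card_eq_multiplicity]

/-- Let the finite group G be the product HK of two subgroups and p a prime. Then there are Sylow p-subgroups P of H and Q of K and a Sylow p-subgroup R of G whose underlying set is the product set of P and Q. -/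
theorem result {G : Type*} [Group G] [Finite G] (H K : Subgroup G) (hHK : ∀ g : G, ∃ h ∈ H, ∃ k ∈ K, g = h * k) (p : ℕ) [Fact p.Prime] : ∃ (P : Sylow p H) (Q : Sylow p K) (R : Sylow p G), ((R : Subgroup G) : Set G) = (((P : Subgroup H).map H.subtype : Subgroup G) : Set G) * (((Q : Subgroup K).map K.subtype : Subgroup G) : Set G) := by
  have hp : p.Prime := Fact.out
  obtain ⟨P₀⟩ : Nonempty (Sylow p H) := inferInstance
  obtain ⟨Q₀⟩ : Nonempty (Sylow p K) := inferInstance
  obtain ⟨R₁, hR₁⟩ := (P₀.2.map H.subtype).exists_le_sylow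
  obtain ⟨R₂, hR₂⟩ := (Q₀.2.map K.subtype).exists_le_sylow
  obtain ⟨g, hg⟩ := MulAction.exists_smul_eq G R₁ R₂
  obtain ⟨h, hh, k, hk, hgk⟩ := hHK g⁻¹
  have hR : (h⁻¹ : G) • R₁ = k • R₂ := by
    rw [← hg, smul_smul]
    congr 1
    have : g = k⁻¹ * h⁻¹ := by rw [← mul_inv_rev, ← hgk, inv_inv]
    rw [this]; group
  have hP := map_smul_le H p P₀ R₁ hR₁ ⟨h⁻¹, H.inv_mem hh⟩
  have hQ := map_smul_le K p Q₀ R₂ hR₂ ⟨k, hk⟩
  simp only at hP hQ
  rw [← hR] at hQ
  set P := ((⟨h⁻¹, H.inv_mem hh⟩ : H) • P₀ : Sylow p H) with hPdef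
  set Q := ((⟨k, hk⟩ : K) • Q₀ : Sylow p K) with hQdef
  set R := (h⁻¹ : G) • R₁ with hRdef
  refine ⟨P, Q, R, ?_⟩
  set P' := (P : Subgroup H).map H.subtype with hP'
  set Q' := (Q : Subgroup K).map K.subtype with hQ'
  symm
  have hsub : (P' : Set G) * (Q' : Set G) ⊆ ((R : Subgroup G) : Set G) := by
    rintro _ ⟨x, hx, y, hy, rfl⟩
    exact (R : Subgroup G).mul_mem (hP hx) (hQ hy)
  apply Set.eq_of_subset_of_ncard_le hsub _ (Set.toFinite _)
  rw [← Nat.card_coe_set_eq, ← Nat.card_coe_set_eq]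
  have h1 := card_mul_set_mul_card_inf P' Q'
  have h2 := card_mul_set_mul_card_inf H K
  have huniv : (H : Set G) * (K : Set G) = Set.univ := by
    rw [Set.eq_univ_iff_forall]
    intro x
    obtain ⟨a, ha, b, hb, rfl⟩ := hHK x
    exact ⟨a, ha, b, hb, rfl⟩
  rw [huniv, Nat.card_univ] at h2
  rw [card_map_sylow, card_map_sylow, ← pow_add] at h1
  have hPQ : IsPGroup p (P' ⊓ Q' : Subgroup G) := (P.2.map H.subtype).to_le inf_le_left
  obtain ⟨c, hc⟩ := IsPGroup.iff_card.1 hPQ
  have hle : (P' ⊓ Q' : Subgroup G) ≤ H ⊓ K :=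
    inf_le_inf (Subgroup.map_subtype_le _) (Subgroup.map_subtype_le _)
  have hdvd : p ^ c ∣ Nat.card (H ⊓ K : Subgroup G) := hc ▸ Subgroup.card_dvd_of_le hle
  have hcle : c ≤ (Nat.card (H ⊓ K : Subgroup G)).factorization p :=
    (hp.pow_dvd_iff_le_factorization Nat.card_pos.ne').1 hdvd
  have h3 : (Nat.card G).factorization p + (Nat.card (H ⊓ K : Subgroup G)).factorization p
      = (Nat.card H).factorization p + (Nat.card K).factorization p := by
    have := congrArg (fun n => n.factorization p) h2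
    beta_reduce at this
    rw [Nat.factorization_mul Nat.card_pos.ne' Nat.card_pos.ne',
      Nat.factorization_mul Nat.card_pos.ne' Nat.card_pos.ne'] at this
    simpa using this
  rw [hc, ← h3] at h1
  have hRc : Nat.card ((R : Subgroup G) : Set G) = p ^ (Nat.card G).factorization p :=
    Sylow.card_eq_multiplicity R
  rw [hRc]
  have h4 : p ^ (Nat.card G).factorization p * p ^ c ≤ Nat.card ((P' : Set G) * (Q' : Set G) : Set G) * p ^ c := by
    rw [h1, ← pow_add]
    exact Nat.pow_le_pow_right hp.pos (by omega)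
  exact Nat.le_of_mul_le_mul_right h4 (pow_pos hp.pos _)

end Cfsg.Agent.S0560
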