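import Cfsg.Statements.S0543
import Cfsg.Agent.Lib.Helper12.ComplSys

set_option autoImplicit false
open Pointwise
open Cfsg

namespace Cfsg.Agent.S0543

open Cfsg.Agent.Lib.Helper12

theorem aux {G : Type*} [Group G] [Finite G] [Group.IsSolvable G] (K L : Nat.Primes → Subgroup G) (hK : Cfsg.IsComplementSystem K) (hL : Cfsg.IsComplementSystem L) (s : Finset Nat.Primes) :
    ∃ g : G, ∀ p ∈ s, MulAut.conj g • K p = L p := by
  classical
  induction s using Finset.induction_on with
  | empty => exact ⟨1, by simp⟩
  | insert q s hq ih =>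
    obtain ⟨g, hg⟩ := ih
    have hK' := cs_conj hK g
    obtain ⟨x, hx⟩ := conj_of_index_eq (MulAut.conj g • K q) (L q)
      (by rw [hK' q, hL q]) (cs_coprime hK' q)
    have hcop : ((⨅ p ∈ s, L p).index).Coprime (MulAut.conj g • K q : Subgroup G).index := by
      rw [hK' q]
      exact Nat.Coprime.pow_right _ (cs_coprime_index_iInf hL s q hq)
    have huniv := mul_eq_univ_of_coprime_index _ _ hcop
    have hxm : x ∈ ((⨅ p ∈ s, L p : Subgroup G) : Set G) * ((MulAut.conj g • K q : Subgroup G) : Set G) := by
      rw [huniv]; trivial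
    obtain ⟨d, hd, k, hk, rfl⟩ := hxm
    refine ⟨d * g, ?_⟩
    intro p hp
    rw [map_mul, mul_smul]
    rcases Finset.mem_insert.1 hp with rfl | hp
    · rw [← hx, map_mul, mul_smul, Subgroup.conj_smul_eq_self_of_mem hk]
    · rw [hg p hp]
      apply Subgroup.conj_smul_eq_self_of_mem
      have hd' : d ∈ (⨅ p ∈ s, L p : Subgroup G) := hd
      simp only [Subgroup.mem_iInf] at hd'
      exact hd' p hp

/-- In a finite solvable group any two Hall complement systems are simultaneously conjugate: one element conjugates every member of the first system to the corresponding member of the second. -/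
theorem result {G : Type*} [Group G] [Finite G] [Group.IsSolvable G] (K L : Nat.Primes → Subgroup G) (hK : Cfsg.IsComplementSystem K) (hL : Cfsg.IsComplementSystem L) : ∃ g : G, ∀ p : Nat.Primes, MulAut.conj g • K p = L p := by
  obtain ⟨g, hg⟩ := aux K L hK hL (primesOf (Nat.card G))
  refine ⟨g, fun p => ?_⟩
  by_cases hp : (p : ℕ) ∣ Nat.card G
  · exact hg p ((mem_primesOf Nat.card_pos.ne' p).2 hp)
  · rw [cs_eq_top hK p hp, cs_eq_top hL p hp]
    exact Subgroup.Normal.conj_smul_eq_self g ⊤

end Cfsg.Agent.S0543
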