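import Cfsg.Statements.S0544
import Cfsg.Agent.Lib.Helper12.ComplSys

set_option autoImplicit false
open Cfsg

namespace Cfsg.Agent.S0544

open Cfsg.Agent.Lib.Helper12

theorem all_normal_of_normal {G : Type*} [Group G] [Finite G] {p : ℕ} [Fact p.Prime]
    (Q : Sylow p G) (hQ : (Q : Subgroup G).Normal) (P : Sylow p G) : (P : Subgroup G).Normal := by
  obtain ⟨g, rfl⟩ := MulAction.exists_smul_eq G Q P
  rw [Sylow.smul_eq_of_normal]
  exact hQ

theorem aux {G : Type*} [Group G] [Finite G] (K : Nat.Primes → Subgroup G) (hK : Cfsg.IsComplementSystem K) (D : Subgroup G) (hD : ∀ x ∈ D, ∀ q, x ∈ Subgroup.normalizer (K q : Set G)) : Group.IsNilpotent D := by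
  classical
  apply ((Group.isNilpotent_of_finite_tfae (G := D)).out 0 3 rfl rfl).2
  intro p hp P
  let pp : Nat.Primes := ⟨p, hp.out⟩
  set s := (primesOf (Nat.card G)).erase pp with hs
  set S : Subgroup G := ⨅ q ∈ s, K q with hS
  have hSp : IsPGroup p S := by
    have hcard : Nat.card S = p ^ (Nat.card S).primeFactorsList.length := by
      apply Nat.eq_prime_pow_of_unique_prime_dvd Nat.card_pos.ne'
      intro r hr hrd
      by_contra hne
      let rr : Nat.Primes := ⟨r, hr⟩
      have hrs : rr ∈ s := by
        rw [hs, Finset.mem_erase]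
        refine ⟨fun h => hne (congrArg Subtype.val h), ?_⟩
        rw [mem_primesOf Nat.card_pos.ne']
        exact hrd.trans (Subgroup.card_subgroup_dvd_card S)
      have hle : S ≤ K rr := iInf₂_le rr hrs
      exact cs_not_dvd_card hK rr (hrd.trans (Subgroup.card_dvd_of_le hle))
    exact IsPGroup.of_card hcard
  have hSi : ¬ p ∣ S.index := by
    have h1 := cs_coprime_index_iInf hK s pp (Finset.notMem_erase _ _)
    intro h2
    have := Nat.dvd_gcd h2 (dvd_refl p)
    rw [show Nat.gcd S.index p = 1 from h1] at this
    exact hp.out.one_lt.ne' (Nat.dvd_one.1 this)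
  have hDS : D ≤ Subgroup.normalizer (S : Set G) := by
    intro x hx
    replace hx := hD x hx
    rw [Subgroup.mem_normalizer_iff]
    intro h
    simp only [hS, Subgroup.mem_iInf]
    constructor
    · intro hh q hq
      exact (Subgroup.mem_normalizer_iff.1 (hx q) h).1 (hh q hq)
    · intro hh q hq
      exact (Subgroup.mem_normalizer_iff.1 (hx q) h).2 (hh q hq)
  have hQp : IsPGroup p (S.subgroupOf D) := hSp.comap_subtype
  have hQi : ¬ p ∣ (S.subgroupOf D).index := fun h =>
    hSi (h.trans (relIndex_dvd_index_of_le_normalizer hDS))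
  exact all_normal_of_normal (hQp.toSylow hQi) (Subgroup.normal_subgroupOf_of_le_normalizer hDS) P

/-- In a finite solvable group the intersection of the normalizers of the members of a Hall complement system is a nilpotent subgroup. -/
theorem result {G : Type*} [Group G] [Finite G] [Group.IsSolvable G] (K : Nat.Primes → Subgroup G) (hK : Cfsg.IsComplementSystem K) : Group.IsNilpotent (Cfsg.systemNormalizer K) := by
  apply aux K hK
  intro x hx
  rwa [Cfsg.systemNormalizer, Subgroup.mem_iInf] at hx

end Cfsg.Agent.S0544
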