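import Cfsg.Statements.S0545
import Cfsg.Agent.Lib.Helper12.ComplSys

set_option autoImplicit false
open Cfsg

namespace Cfsg.Agent.S0545

open Cfsg.Agent.Lib.Helper12
open Pointwise

theorem factorization_mul_pow {p : ℕ} (hp : p.Prime) (m b : ℕ) (hm : ¬ p ∣ m) :
    (m * p ^ b).factorization p = b := by
  have hm0 : m ≠ 0 := by rintro rfl; simp at hm
  rw [Nat.factorization_mul hm0 (pow_ne_zero _ hp.ne_zero), Finsupp.add_apply,
    Nat.factorization_eq_zero_of_not_dvd hm, zero_add, hp.factorization_pow]
  simp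

theorem exists_mul_of_coprime_relIndex {G : Type*} [Group G] [Finite G] (N A B : Subgroup G)
    (h : (A.relIndex N).Coprime (B.relIndex N)) (n : G) (hn : n ∈ N) :
    ∃ a ∈ A ⊓ N, ∃ b ∈ B ⊓ N, n = a * b := by
  have h1 := mul_eq_univ_of_coprime_index (A.subgroupOf N) (B.subgroupOf N) h
  have h2 : (⟨n, hn⟩ : N) ∈ ((A.subgroupOf N : Subgroup N) : Set N) * ((B.subgroupOf N : Subgroup N) : Set N) := by
    rw [h1]; trivial
  obtain ⟨a, ha, b, hb, hab⟩ := h2
  exact ⟨a, ⟨ha, a.2⟩, b, ⟨hb, b.2⟩, (congrArg Subtype.val hab).symm⟩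

theorem conj_in_subgroup {G : Type*} [Group G] [Finite G] [Group.IsSolvable G]
    (X A B : Subgroup G) (hA : A ≤ X) (hB : B ≤ X) (hcard : Nat.card A = Nat.card B)
    (hcop : (Nat.card A).Coprime (A.relIndex X)) : ∃ x ∈ X, MulAut.conj x • A = B := by
  have e1 : Nat.card (A.subgroupOf X) = Nat.card A :=
    Nat.card_congr (Subgroup.subgroupOfEquivOfLe hA).toEquiv
  have hidx : (A.subgroupOf X).index = (B.subgroupOf X).index := by
    have h1 := relIndex_mul_card' hA
    have h2 := relIndex_mul_card' hB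
    rw [← h1, hcard] at h2
    exact (Nat.eq_of_mul_eq_mul_right Nat.card_pos h2).symm
  obtain ⟨r, hr⟩ := conj_of_index_eq (A.subgroupOf X) (B.subgroupOf X) hidx (by rw [e1]; exact hcop)
  refine ⟨r, r.2, ?_⟩
  rw [Subgroup.conj_smul_subgroupOf hA, Subgroup.subgroupOf_inj,
    inf_eq_left.2 hB, inf_eq_left.2 (Subgroup.conj_smul_le_of_le hA r)] at hr
  exact hr

theorem eq_of_conj_smul_eq {G : Type*} [Group G] {H V : Subgroup G} {k : G} (hk : k ∈ H)
    (h : MulAut.conj k • V = H) : V = H := by
  have : V = (MulAut.conj k)⁻¹ • H := by rw [← h, inv_smul_smul]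
  rw [this, ← map_inv, Subgroup.conj_smul_eq_self_of_mem (inv_mem hk)]

theorem step {G : Type*} [Group G] [Finite G] [Group.IsSolvable G] (K : Nat.Primes → Subgroup G) (hK : Cfsg.IsComplementSystem K) (N : Subgroup G) [N.Normal] (y : G)
    (hy : ∀ p, y ∈ Subgroup.normalizer ((K p ⊔ N : Subgroup G) : Set G)) (s : Finset Nat.Primes) :
    ∃ n ∈ N, ∀ p ∈ s, n * y ∈ Subgroup.normalizer (K p : Set G) := by
  classical
  induction s using Finset.induction_on with
  | empty => exact ⟨1, one_mem _, by simp⟩
  | insert q s hq ih =>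
    obtain ⟨n, hn, hns⟩ := ih
    set y' := n * y with hy'
    set X := K q ⊔ N with hX
    have hy'X : y' ∈ Subgroup.normalizer (X : Set G) :=
      mul_mem (Subgroup.le_normalizer ((le_sup_right : N ≤ X) hn)) (hy q)
    set W := MulAut.conj y' • K q with hW
    have hWX : W ≤ X := by
      rw [← (mem_normalizer_iff_smul X y').1 hy'X]
      exact Subgroup.pointwise_smul_le_pointwise_smul_iff.2 le_sup_left
    have hK' := cs_conj hK y'
    have hcop : (Nat.card W).Coprime (W.relIndex X) :=
      Nat.Coprime.coprime_dvd_right (Subgroup.relIndex_dvd_index_of_le hWX) (cs_coprime hK' q)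
    obtain ⟨x, hx, hxW⟩ := conj_in_subgroup X W (K q) hWX le_sup_left (card_conj_smul _ _) hcop
    obtain ⟨k, hk, n₁, hn₁, rfl⟩ := Subgroup.mem_sup_of_normal_right.1 hx
    have h1 : MulAut.conj n₁ • W = K q := by
      rw [map_mul, mul_smul] at hxW
      exact eq_of_conj_smul_eq hk hxW
    have hcop2 : ((K q).relIndex N).Coprime ((⨅ p ∈ s, K p).relIndex N) := by
      have a1 : (K q).relIndex N ∣ (q : ℕ) ^ (Nat.card G).factorization q :=
        hK q ▸ relIndex_dvd_index_of_normal' (K q) N
      have a2 := relIndex_dvd_index_of_normal' (⨅ p ∈ s, K p) N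
      have a3 := (cs_coprime_index_iInf hK s q hq).pow_right ((Nat.card G).factorization q)
      exact (Nat.Coprime.coprime_dvd_left a2 (Nat.Coprime.coprime_dvd_right a1 a3)).symm
    obtain ⟨k', hk', d, hd, rfl⟩ := exists_mul_of_coprime_relIndex N _ _ hcop2 n₁ hn₁
    have h2 : MulAut.conj d • W = K q := by
      rw [map_mul, mul_smul] at h1
      exact eq_of_conj_smul_eq hk'.1 h1
    refine ⟨d * n, mul_mem hd.2 hn, ?_⟩
    intro p hp
    rw [mul_assoc, ← hy']
    rcases Finset.mem_insert.1 hp with rfl | hp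
    · rw [mem_normalizer_iff_smul, map_mul, mul_smul]
      exact h2
    · apply mul_mem _ (hns p hp)
      apply Subgroup.le_normalizer
      have hd' : d ∈ (⨅ p ∈ s, K p : Subgroup G) := hd.1
      simp only [Subgroup.mem_iInf] at hd'
      exact hd' p hp

/-- Let K be a Hall complement system of a finite solvable group G and N a normal subgroup. Then the images of the K p in G modulo N form a Hall complement system of the quotient, and its system normalizer is the image of the system normalizer of K. -/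
theorem result {G : Type*} [Group G] [Finite G] [Group.IsSolvable G] (K : Nat.Primes → Subgroup G) (hK : Cfsg.IsComplementSystem K) (N : Subgroup G) [N.Normal] : Cfsg.IsComplementSystem (fun p => (K p).map (QuotientGroup.mk' N)) ∧ Cfsg.systemNormalizer (fun p => (K p).map (QuotientGroup.mk' N)) = (Cfsg.systemNormalizer K).map (QuotientGroup.mk' N) := by
  have hsurj := QuotientGroup.mk'_surjective N
  constructor
  · intro p
    have h1 : ((K p).map (QuotientGroup.mk' N)).index ∣ (p : ℕ) ^ (Nat.card G).factorization p :=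
      hK p ▸ Subgroup.index_map_dvd (K p) hsurj
    obtain ⟨b, -, hb⟩ := (Nat.dvd_prime_pow p.2).1 h1
    have h2 : ¬ (p : ℕ) ∣ Nat.card ((K p).map (QuotientGroup.mk' N)) := fun h =>
      cs_not_dvd_card hK p (h.trans (Subgroup.card_map_dvd (K p) _))
    have h3 := Subgroup.card_mul_index ((K p).map (QuotientGroup.mk' N))
    change ((K p).map (QuotientGroup.mk' N)).index = _
    rw [← h3, hb, factorization_mul_pow p.2 _ _ h2]
  · apply le_antisymm
    · intro yb hyb
      obtain ⟨y, rfl⟩ := hsurj yb
      rw [Cfsg.systemNormalizer, Subgroup.mem_iInf] at hyb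
      have hy : ∀ p, y ∈ Subgroup.normalizer ((K p ⊔ N : Subgroup G) : Set G) := by
        intro p
        have h1 : y ∈ (Subgroup.normalizer (((K p).map (QuotientGroup.mk' N) : Subgroup (G ⧸ N)) : Set (G ⧸ N))).comap (QuotientGroup.mk' N) := hyb p
        rwa [Subgroup.comap_normalizer_eq_of_surjective _ hsurj, Subgroup.comap_map_eq,
          QuotientGroup.ker_mk'] at h1
      obtain ⟨n, hn, hns⟩ := step K hK N y hy (primesOf (Nat.card G))
      refine ⟨n * y, ?_, ?_⟩
      · rw [SetLike.mem_coe, Cfsg.systemNormalizer, Subgroup.mem_iInf]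
        intro p
        by_cases hp : (p : ℕ) ∣ Nat.card G
        · exact hns p ((mem_primesOf Nat.card_pos.ne' p).2 hp)
        · rw [cs_eq_top hK p hp, Subgroup.normalizer_eq_top]; trivial
      · rw [map_mul]
        have : (QuotientGroup.mk' N) n = 1 := by
          rw [QuotientGroup.mk'_apply, QuotientGroup.eq_one_iff]; exact hn
        rw [this, one_mul]
    · rintro _ ⟨x, hx, rfl⟩
      rw [SetLike.mem_coe, Cfsg.systemNormalizer, Subgroup.mem_iInf] at hx
      rw [Cfsg.systemNormalizer, Subgroup.mem_iInf]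
      intro p
      exact Subgroup.le_normalizer_map _ (Subgroup.mem_map_of_mem _ (hx p))

end Cfsg.Agent.S0545
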