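import Cfsg.Statements.S0546
import Cfsg.Agent.S0545

set_option autoImplicit false
open Cfsg

namespace Cfsg.Agent.S0546

open scoped commutatorElement in
theorem aux {G : Type*} [Group G] [Finite G] [Group.IsSolvable G] (K : Nat.Primes → Subgroup G) (hK : Cfsg.IsComplementSystem K) : Subgroup.normalClosure ((Cfsg.systemNormalizer K : Subgroup G) : Set G) = ⊤ := by
  by_contra hne
  set M := Subgroup.normalClosure ((Cfsg.systemNormalizer K : Subgroup G) : Set G) with hM
  have hnt : Nontrivial (G ⧸ M) := QuotientGroup.nontrivial_iff.2 hne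
  have hlt : commutator (G ⧸ M) < ⊤ := Group.IsSolvable.commutator_lt_top_of_nontrivial (G ⧸ M)
  set N := (commutator (G ⧸ M)).comap (QuotientGroup.mk' M) with hN
  have hNn : N.Normal := inferInstance
  have hNtop : N ≠ ⊤ := by
    intro h
    apply hlt.ne
    rw [← Subgroup.map_comap_eq_self_of_surjective (QuotientGroup.mk'_surjective M) (commutator (G ⧸ M)),
      ← hN, h, Subgroup.map_top_of_surjective _ (QuotientGroup.mk'_surjective M)]
  have hDN : Cfsg.systemNormalizer K ≤ N := by
    intro x hx
    have h1 : x ∈ M := Subgroup.le_normalClosure hx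
    rw [hN, Subgroup.mem_comap]
    have : (QuotientGroup.mk' M) x = 1 := by
      rw [QuotientGroup.mk'_apply, QuotientGroup.eq_one_iff]; exact h1
    rw [this]; exact one_mem _
  have hcomm : ∀ a b : G ⧸ N, a * b = b * a := by
    intro a b
    obtain ⟨x, rfl⟩ := QuotientGroup.mk'_surjective N a
    obtain ⟨y, rfl⟩ := QuotientGroup.mk'_surjective N b
    rw [← map_mul, ← map_mul, QuotientGroup.mk'_apply, QuotientGroup.mk'_apply, QuotientGroup.eq]
    rw [hN, Subgroup.mem_comap]
    have : (x * y)⁻¹ * (y * x) = ⁅y⁻¹, x⁻¹⁆ := by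
      rw [commutatorElement_def]; group
    rw [this, map_commutatorElement]
    exact Subgroup.commutator_mem_commutator (Subgroup.mem_top _) (Subgroup.mem_top _)
  have h2 := (Cfsg.Agent.S0545.result K hK N).2
  have h3 : (Cfsg.systemNormalizer K).map (QuotientGroup.mk' N) = ⊥ := by
    rw [Subgroup.map_eq_bot_iff, QuotientGroup.ker_mk']; exact hDN
  have h4 : Cfsg.systemNormalizer (fun p => (K p).map (QuotientGroup.mk' N)) = ⊤ := by
    rw [Cfsg.systemNormalizer, iInf_eq_top]
    intro p
    rw [Subgroup.normalizer_eq_top_iff]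
    constructor
    intro n hn g
    rw [hcomm g n, mul_assoc, mul_inv_cancel, mul_one]; exact hn
  rw [h3, h4] at h2
  have hnt2 : Nontrivial (G ⧸ N) := QuotientGroup.nontrivial_iff.2 hNtop
  exact top_ne_bot h2

/-- The normal closure of a system normalizer of a finite solvable group is the whole group. -/
theorem result {G : Type*} [Group G] [Finite G] [Group.IsSolvable G] (K : Nat.Primes → Subgroup G) (hK : Cfsg.IsComplementSystem K) : Subgroup.normalClosure ((Cfsg.systemNormalizer K : Subgroup G) : Set G) = ⊤ := by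
  exact aux K hK

end Cfsg.Agent.S0546
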