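import Cfsg.Statements.S0580
-- import your own Cfsg.Agent.* helpers here
import Mathlib

set_option autoImplicit false
open Cfsg

namespace Cfsg.Agent.S0580

universe u

theorem index_modEq_one {G : Type*} [Group G] [Finite G] {p : ℕ} [Fact p.Prime] (P : Sylow p G)
    (M : Subgroup G) (h : Subgroup.normalizer ((P : Subgroup G) : Set G) ≤ M) :
    M.index ≡ 1 [MOD p] := by
  have hPM : (P : Subgroup G) ≤ M := Subgroup.le_normalizer.trans h
  have h1 : (Subgroup.normalizer ((P : Subgroup G) : Set G)).index ≡ 1 [MOD p] := by
    rw [Sylow.coe_coe, ← Sylow.card_eq_index_normalizer]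
    exact card_sylow_modEq_one p G
  have h2 : (Subgroup.normalizer ((P : Subgroup G) : Set G)).relIndex M ≡ 1 [MOD p] := by
    have := Sylow.card_eq_index_normalizer (P.subtype hPM)
    rw [← Sylow.coe_coe, Sylow.coe_subtype, ← Subgroup.subgroupOf_normalizer_eq hPM] at this
    rw [Subgroup.relIndex, ← this]
    exact card_sylow_modEq_one p M
  have h3 := Subgroup.relIndex_mul_index h
  have h4 : (Subgroup.normalizer ((P : Subgroup G) : Set G)).relIndex M * M.index ≡
      1 * M.index [MOD p] := Nat.ModEq.mul_right _ h2
  rw [h3, one_mul] at h4
  exact h4.symm.trans h1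

theorem aux (n : ℕ) : ∀ (G : Type u) [Group G] [Finite G], Nat.card G = n →
    (∀ M : Subgroup G, IsCoatom M → M.index.Prime) → Group.IsSolvable G := by
  induction n using Nat.strong_induction_on with
  | _ n ih =>
    intro G _ _ hn h
    by_cases h1 : Nat.card G = 1
    · have : Subsingleton G := (Nat.card_eq_one_iff_unique.mp h1).1
      infer_instance
    · -- the largest prime divisor
      have hne : (Nat.card G).primeFactors.Nonempty := by
        rw [Nat.nonempty_primeFactors]
        have : 0 < Nat.card G := Nat.card_pos
        omega
      obtain ⟨p, hp, hpmax⟩ := Finset.exists_max_image (Nat.card G).primeFactors id hne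
      have hpp : p.Prime := Nat.prime_of_mem_primeFactors hp
      have hpd : p ∣ Nat.card G := Nat.dvd_of_mem_primeFactors hp
      have : Fact p.Prime := ⟨hpp⟩
      obtain ⟨P⟩ : Nonempty (Sylow p G) := inferInstance
      have hPn : (P : Subgroup G).Normal := by
        rw [← Subgroup.normalizer_eq_top_iff]
        by_contra hcon
        obtain ⟨M, hM, hle⟩ := (eq_top_or_exists_le_coatom _).resolve_left hcon
        have hq := h M hM
        have hqd : M.index ∣ Nat.card G := Subgroup.index_dvd_card M
        have hqle : M.index ≤ p :=
          hpmax _ (Nat.mem_primeFactors.mpr ⟨hq, hqd, Nat.card_pos.ne'⟩)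
        have hmod := index_modEq_one P M hle
        have h2 : 2 ≤ M.index := hq.two_le
        have h3 : p ∣ M.index - 1 := (Nat.modEq_iff_dvd' (by omega)).mp hmod.symm
        have h4 := Nat.le_of_dvd (by omega) h3
        omega
      have hPne : (P : Subgroup G) ≠ ⊥ := P.ne_bot_of_dvd_card hpd
      have hlt : Nat.card (G ⧸ (P : Subgroup G)) < n := by
        rw [← hn, ← Subgroup.index_eq_card, ← Subgroup.card_mul_index (P : Subgroup G)]
        have h5 : 1 < Nat.card (P : Subgroup G) := by
          rw [Subgroup.one_lt_card_iff_ne_bot]
          exact hPne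
        have h6 : 0 < (P : Subgroup G).index := Nat.pos_of_ne_zero Subgroup.index_ne_zero_of_finite
        nlinarith
      have hquot : Group.IsSolvable (G ⧸ (P : Subgroup G)) := by
        apply ih _ hlt (G ⧸ (P : Subgroup G)) rfl
        intro M hM
        have hc := Subgroup.isCoatom_comap_of_surjective
          (QuotientGroup.mk'_surjective (P : Subgroup G)) hM
        have := h _ hc
        rwa [Subgroup.index_comap_of_surjective _ (QuotientGroup.mk'_surjective _)] at this
      have hPs : Group.IsSolvable (P : Subgroup G) := by
        have : Group.IsNilpotent (P : Subgroup G) := P.2.isNilpotent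
        infer_instance
      apply Group.isSolvable_of_ker_le_range (P : Subgroup G).subtype (QuotientGroup.mk' (P : Subgroup G))
      rw [QuotientGroup.ker_mk', Subgroup.range_subtype]

/-- If every maximal subgroup of a finite group has prime index, then the group is solvable. -/
theorem result {G : Type*} [Group G] [Finite G] (h : ∀ M : Subgroup G, IsCoatom M → M.index.Prime) : Group.IsSolvable G := by
  exact aux _ G rfl h

end Cfsg.Agent.S0580
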