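import Cfsg.Statements.S5638
-- import your own Cfsg.Agent.* helpers here
import Cfsg.Agent.Lib.Helper17.Tensor

set_option autoImplicit false
open Cfsg

namespace Cfsg.Agent.S5638

open scoped Kronecker MatrixGroups
open Matrix Cfsg.Agent.Lib.Helper17.Tensor

/-- An element of order three. -/
def om (F : Type*) [Field F] : GL (Fin 2) F :=
  ⟨!![0, 1; -1, -1], !![-1, -1; 1, 0],
    by ext i j; fin_cases i <;> fin_cases j <;> simp [Matrix.mul_apply, Fin.sum_univ_two],
    by ext i j; fin_cases i <;> fin_cases j <;> simp [Matrix.mul_apply, Fin.sum_univ_two]⟩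

/-- The swap. -/
def sw (F : Type*) [Field F] : GL (Fin 2) F :=
  ⟨!![0, 1; 1, 0], !![0, 1; 1, 0],
    by ext i j; fin_cases i <;> fin_cases j <;> simp [Matrix.mul_apply, Fin.sum_univ_two],
    by ext i j; fin_cases i <;> fin_cases j <;> simp [Matrix.mul_apply, Fin.sum_univ_two]⟩

lemma coe_om (F : Type*) [Field F] : ((om F : GL (Fin 2) F) : Matrix (Fin 2) (Fin 2) F) = !![0, 1; -1, -1] := rfl

lemma coe_om_inv (F : Type*) [Field F] :
    (((om F)⁻¹ : GL (Fin 2) F) : Matrix (Fin 2) (Fin 2) F) = !![-1, -1; 1, 0] := rfl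

lemma sw_conj (F : Type*) [Field F] : sw F * om F * (sw F)⁻¹ = (om F)⁻¹ := by
  apply Units.ext
  change (!![0, 1; 1, 0] : Matrix (Fin 2) (Fin 2) F) * !![0, 1; -1, -1] * !![0, 1; 1, 0] = !![-1, -1; 1, 0]
  ext i j; fin_cases i <;> fin_cases j <;> simp [Matrix.mul_apply, Fin.sum_univ_two]

lemma om_ne_inv (F : Type*) [Field F] : om F ≠ (om F)⁻¹ := by
  intro h
  have h1 := congrArg (fun g : GL (Fin 2) F => (g : Matrix (Fin 2) (Fin 2) F) 0 0) h
  simp only [coe_om, coe_om_inv] at h1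
  simp at h1

lemma conj_om {F : Type*} [Field F] (h2 : ∀ c : F, c = 0 ∨ c = 1) (h11 : (1 : F) + 1 = 0)
    (a : GL (Fin 2) F) : a * om F * a⁻¹ = om F ∨ a * om F * a⁻¹ = (om F)⁻¹ := by
  have hneg : (-1 : F) = 1 := by linear_combination -h11
  obtain ⟨c, hc⟩ : ∃ c : GL (Fin 2) F, c = a * om F * a⁻¹ := ⟨_, rfl⟩
  rw [← hc]
  have htr : (c : Matrix (Fin 2) (Fin 2) F).trace = 1 := by
    rw [hc, Units.val_mul, Units.val_mul, Matrix.trace_units_conj, coe_om, Matrix.trace_fin_two]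
    simp [hneg]
  have hdet : (c : Matrix (Fin 2) (Fin 2) F).det = 1 := by
    rw [hc, Units.val_mul, Units.val_mul, Matrix.det_units_conj, coe_om, Matrix.det_fin_two]
    simp
  rw [Matrix.trace_fin_two] at htr
  rw [Matrix.det_fin_two] at hdet
  have hcases : ((c : Matrix (Fin 2) (Fin 2) F) 0 0 = 0 ∧ (c : Matrix (Fin 2) (Fin 2) F) 0 1 = 1 ∧
      (c : Matrix (Fin 2) (Fin 2) F) 1 0 = 1 ∧ (c : Matrix (Fin 2) (Fin 2) F) 1 1 = 1) ∨
      ((c : Matrix (Fin 2) (Fin 2) F) 0 0 = 1 ∧ (c : Matrix (Fin 2) (Fin 2) F) 0 1 = 1 ∧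
      (c : Matrix (Fin 2) (Fin 2) F) 1 0 = 1 ∧ (c : Matrix (Fin 2) (Fin 2) F) 1 1 = 0) := by
    rcases h2 ((c : Matrix (Fin 2) (Fin 2) F) 0 0) with h00 | h00 <;>
    rcases h2 ((c : Matrix (Fin 2) (Fin 2) F) 0 1) with h01 | h01 <;>
    rcases h2 ((c : Matrix (Fin 2) (Fin 2) F) 1 0) with h10 | h10 <;>
    rcases h2 ((c : Matrix (Fin 2) (Fin 2) F) 1 1) with h11' | h11' <;>
    simp [h00, h01, h10, h11', h11, hneg] at htr hdet ⊢
  rcases hcases with ⟨h00, h01, h10, h11'⟩ | ⟨h00, h01, h10, h11'⟩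
  · left
    apply Units.ext
    rw [coe_om]
    ext i j; fin_cases i <;> fin_cases j <;> simp [h00, h01, h10, h11', hneg]
  · right
    apply Units.ext
    rw [coe_om_inv]
    ext i j; fin_cases i <;> fin_cases j <;> simp [h00, h01, h10, h11', hneg]

theorem main {F : Type*} [Field F] (h2 : ∀ c : F, c = 0 ∨ c = 1) (h11 : (1 : F) + 1 = 0) {n₂ : ℕ}
    (hn₂ : 2 ≤ n₂) :
    (∀ g ∈ Cfsg.Geo.kroneckerSubgroup 2 n₂ F, g ∈ extCent (kHom (om F, (1 : GL (Fin n₂) F)))) ∧
    (∃ g ∈ extCent (kHom (om F, (1 : GL (Fin n₂) F))), g ∉ Cfsg.Geo.kroneckerSubgroup 2 n₂ F) ∧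
    (∃ g, g ∉ extCent (kHom (om F, (1 : GL (Fin n₂) F)))) := by
  let j₀ : Fin n₂ := ⟨0, by omega⟩
  let j₁ : Fin n₂ := ⟨1, by omega⟩
  have hj : j₁ ≠ j₀ := by simp [j₀, j₁]
  have hinj := dHom_injective (F := F) (n₁ := 2) hj
  refine ⟨?_, ?_, ?_⟩
  · intro g hg
    obtain ⟨a, b, rfl⟩ := (mem_kronecker_iff g).1 hg
    rw [mem_extCent, ← map_inv, ← map_mul, ← map_mul, ← map_inv]
    have e : (a, b) * (om F, (1 : GL (Fin n₂) F)) * (a, b)⁻¹ = (a * om F * a⁻¹, 1) := by
      ext1 <;> simp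
    have e' : (om F, (1 : GL (Fin n₂) F))⁻¹ = ((om F)⁻¹, 1) := by
      ext1 <;> simp
    rw [e, e']
    rcases conj_om h2 h11 a with h | h
    · left; rw [h]
    · right; rw [h]
  · refine ⟨dHom (eMat F j₀) (eMat_mul_self j₀) (om F, 1), ?_, ?_⟩
    · rw [mem_extCent]
      left
      rw [← dHom_diag (eMat F j₀) (eMat_mul_self j₀), ← map_inv, ← map_mul, ← map_mul]
      congr 1
      ext1 <;> simp
    · intro hg
      obtain ⟨a, b, hab⟩ := hg
      have h1 := dHom_apply_same j₀ (om F) 1 0 1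
      have h3 := dHom_apply_other hj (om F) 1 0 1
      have h4 := dHom_apply_other hj (om F) 1 0 0
      rw [hab, Matrix.kroneckerMap_apply] at h1 h3 h4
      have e1 : (om F).1 0 1 = 1 := by
        change (!![0, 1; -1, -1] : Matrix (Fin 2) (Fin 2) F) 0 1 = 1
        simp
      rw [e1] at h1
      have e3 : (1 : GL (Fin 2) F).1 0 1 = 0 := by simp
      have e4 : (1 : GL (Fin 2) F).1 0 0 = 1 := by simp
      rw [e3] at h3
      rw [e4] at h4
      rcases mul_eq_zero.1 h3 with h5 | h5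
      · rw [h5, zero_mul] at h1
        exact zero_ne_one h1
      · rw [h5, mul_zero] at h4
        exact zero_ne_one h4
  · refine ⟨dHom (eMat F j₀) (eMat_mul_self j₀) (sw F, 1), ?_⟩
    rw [mem_extCent, ← dHom_diag (eMat F j₀) (eMat_mul_self j₀), ← map_inv, ← map_mul, ← map_mul,
      ← map_inv]
    have e : (sw F, (1 : GL (Fin 2) F)) * (om F, om F) * (sw F, 1)⁻¹ = ((om F)⁻¹, om F) := by
      ext1
      · simpa using sw_conj F
      · simp
    rw [e]
    rintro (h | h)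
    · have := hinj h
      exact om_ne_inv F (congrArg Prod.fst this).symm
    · have := hinj h
      exact om_ne_inv F (congrArg Prod.snd this)

/-- Over the field with 2 elements, for n = 2 n₂ ≥ 13, the stabiliser in SL_n of a tensor decomposition with factors of dimensions 2 and n₂ (the conjugate by any P of the Kronecker-product subgroup transported along any bijection Fin n ≃ Fin 2 × Fin n₂, intersected with SL_n) is not a maximal subgroup: some subgroup lies strictly between it and SL_n. -/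
theorem result {F : Type*} [Field F] [Fintype F] (n : ℕ) (hn : 13 ≤ n) (hq : Fintype.card F = 2) (n₂ : ℕ) (e : Fin n ≃ Fin 2 × Fin n₂) (P : Matrix.GeneralLinearGroup (Fin n) F) : ∃ K : Subgroup (Matrix.GeneralLinearGroup (Fin n) F), Cfsg.Geo.tensorProductSubgroup 2 n₂ e P ⊓ Cfsg.Geo.specialLinear (Fin n) F < K ∧ K < Cfsg.Geo.specialLinear (Fin n) F := by
  classical
  have hcast : ((Fintype.card F : ℕ) : F) = 0 := Nat.cast_card_eq_zero F
  rw [hq] at hcast
  push_cast at hcast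
  have h11 : (1 : F) + 1 = 0 := by linear_combination hcast
  have h2 : ∀ c : F, c = 0 ∨ c = 1 := by
    intro c
    by_contra hc
    push Not at hc
    have h3 : ({0, 1, c} : Finset F).card = 3 := by
      rw [Finset.card_insert_of_notMem, Finset.card_insert_of_notMem, Finset.card_singleton]
      · simp [hc.2.symm]
      · simp [hc.1.symm]
    have h4 := Finset.card_le_univ ({0, 1, c} : Finset F)
    omega
  have hn₂ : 2 ≤ n₂ := by
    have := Fintype.card_congr e
    simp only [Fintype.card_fin, Fintype.card_prod] at this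
    omega
  have hSL : ∀ g : Matrix.GeneralLinearGroup (Fin n) F, g ∈ Cfsg.Geo.specialLinear (Fin n) F := by
    intro g
    change Matrix.GeneralLinearGroup.det g = 1
    apply Units.ext
    exact (h2 _).resolve_left (Units.ne_zero _)
  obtain ⟨m1, ⟨g2, hg2, hg2'⟩, ⟨g3, hg3⟩⟩ := main h2 h11 hn₂
  rw [tensorProductSubgroup_eq]
  exact between_transfer (tIso e P) _ _ _ (fun g hg _ => m1 g hg) ⟨g2, hg2, hSL _, hg2'⟩
    ⟨g3, hSL _, hg3⟩

end Cfsg.Agent.S5638
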