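import Cfsg.Statements.S4444
import Cfsg.Agent.Lib.Helper77.GlaubPGroup

set_option autoImplicit false
open Cfsg

namespace Cfsg.Agent.S4444

open Subgroup Cfsg.Agent.Lib.Helper77


/-- The Glauberman correspondence for a p-group of operators. Inside a finite group Γ let S normalise G with the orders of G and S coprime, S a p-group, and let C = G ⊓ C(S) be the fixed points. Call an irreducible character χ of G S-invariant when χ(s g s⁻¹) = χ(g) for s ∈ S, g ∈ G. Then: (i) for every S-invariant χ there is exactly one irreducible character β of C whose multiplicity [χ_C, β] in the restriction of χ is not divisible by p; (ii) that multiplicity is ≡ 1 or ≡ −1 (mod p); (iii) distinct S-invariant χ give distinct β; (iv) every irreducible character of C arises in this way. So χ ↦ β is a bijection from the S-invariant irreducible characters of G onto the irreducible characters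 of C. -/
theorem result {Γ : Type*} [Group Γ] [Fintype Γ] (G S : Subgroup Γ) [Fintype G] (hnorm : ∀ s ∈ S, ∀ g ∈ G, s * g * s⁻¹ ∈ G) (hcop : (Nat.card G).Coprime (Nat.card S)) (p : ℕ) (hp : p.Prime) (hS : IsPGroup p S) (C : Subgroup Γ) [Fintype C] (hC : C = G ⊓ Subgroup.centralizer (S : Set Γ)) (hCG : C ≤ G) : (∀ χ : Cfsg.IrrCharacter G, (∀ s ∈ S, ∀ g g' : G, (g' : Γ) = s * g * s⁻¹ → (χ : G → ℂ) g' = (χ : G → ℂ) g) → ∃! β : Cfsg.IrrCharacter C, ∃ m : ℕ, Cfsg.classInner (fun c : C => (χ : G → ℂ) ⟨c, hCG c.2⟩) (β : C → ℂ) = (m : ℂ) ∧ ¬ p ∣ m) ∧ (∀ χ : Cfsg.IrrCharacter G, (∀ s ∈ S, ∀ g g' : G, (g' : Γ) = s * g * s⁻¹ → (χ : G → ℂ) g' = (χ : G → ℂ) g) → ∀ β : Cfsg.IrrCharacter C, ∀ m : ℕ, Cfsg.classInner (fun c : C => (χ : G → ℂ) ⟨c, hCG c.2⟩) (β : C → ℂ) = (m : ℂ) → ¬ p ∣ m → ((m : ℤ) ≡ 1 [ZMOD p] ∨ (m : ℤ) ≡ -1 [ZMOD p])) ∧ (∀ χ χ' : Cfsg.IrrCharacter G, (∀ s ∈ S, ∀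 g g' : G, (g' : Γ) = s * g * s⁻¹ → (χ : G → ℂ) g' = (χ : G → ℂ) g) → (∀ s ∈ S, ∀ g g' : G, (g' : Γ) = s * g * s⁻¹ → (χ' : G → ℂ) g' = (χ' : G → ℂ) g) → ∀ β : Cfsg.IrrCharacter C, ∀ m m' : ℕ, Cfsg.classInner (fun c : C => (χ : G → ℂ) ⟨c, hCG c.2⟩) (β : C → ℂ) = (m : ℂ) → ¬ p ∣ m → Cfsg.classInner (fun c : C => (χ' : G → ℂ) ⟨c, hCG c.2⟩) (β : C → ℂ) = (m' : ℂ) → ¬ p ∣ m' → χ = χ') ∧ (∀ β : Cfsg.IrrCharacter C, ∃ χ : Cfsg.IrrCharacter G, (∀ s ∈ S, ∀ g g' : G, (g' : Γ) = s * g * s⁻¹ → (χ : G → ℂ) g' = (χ : G → ℂ) g) ∧ ∃ m : ℕ, Cfsg.classInner (fun c : C => (χ : G → ℂ) ⟨c, hCG c.2⟩) (β : C → ℂ) = (m : ℂ) ∧ ¬ p ∣ m) := by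
  have : Fact p.Prime := ⟨hp⟩
  have hGl := glaub_pgroup p (Nat.card S) G S le_rfl hS (le_normalizer_of_norm G S hnorm) hcop C hC hCG
  refine ⟨?_, ?_, ?_, ?_⟩
  · intro χ hinv
    obtain ⟨β, ε, hε, M⟩ := hGl.data χ hinv
    exact ⟨β, (M.pcorr_iff hε β).2 rfl, fun γ hγ => (M.pcorr_iff hε γ).1 hγ⟩
  · intro χ hinv β m hm hpm
    obtain ⟨β₀, ε, hε, M⟩ := hGl.data χ hinv
    have e := (M.pcorr_iff hε β).1 ⟨m, hm, hpm⟩
    obtain ⟨m', hm', h1, _⟩ := M β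
    have hmm : m = m' := by
      have : (m : ℂ) = (m' : ℂ) := by rw [← hm, ← hm']
      exact_mod_cast this
    have h2 := h1 e
    rw [← hmm] at h2
    have h3 : ((m : ℤ) : ZMod p) = ((ε : ℤ) : ZMod p) := by simpa using h2
    have h4 := (ZMod.intCast_eq_intCast_iff _ _ p).1 h3
    rcases hε with rfl | rfl
    · exact Or.inl h4
    · exact Or.inr h4
  · intro χ χ' hinv hinv' β m m' hm hpm hm' hpm'
    exact hGl.inj χ χ' hinv hinv' β ⟨m, hm, hpm⟩ ⟨m', hm', hpm'⟩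
  · intro β
    exact hGl.surj β

end Cfsg.Agent.S4444
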