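import Cfsg.Statements.S4636
-- import your own Cfsg.Agent.* helpers here

set_option autoImplicit false
open scoped Pointwise
open Cfsg

namespace Cfsg.Agent.S4636

/-- Let P be a nontrivial cyclic p-subgroup of the finite group G and Z its subgroup of order p. For every x outside N_G(Z), P meets its conjugate xPx⁻¹ trivially; consequently N_G(Q) ≤ N_G(Z) for every nontrivial subgroup Q of P. -/
theorem result {G : Type*} [Group G] [Finite G] (p : ℕ) [Fact p.Prime] (P : Subgroup G) (hP : IsPGroup p P) (hP1 : P ≠ ⊥) (hcyc : IsCyclic P) (Z : Subgroup G) (hZ : Z ≤ P) (hZcard : Nat.card Z = p) : (∀ x : G, x ∉ Subgroup.normalizer (Z : Set G) → P ⊓ MulAut.conj x • P = ⊥) ∧ ∀ Q : Subgroup G, Q ≤ P → Q ≠ ⊥ → Subgroup.normalizer (Q : Set G) ≤ Subgroup.normalizer (Z : Set G) := by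
  classical
  have hp : p.Prime := Fact.out
  -- every element of P killed by p lies in Z
  have hA : ∀ a ∈ P, a ^ p = 1 → a ∈ Z := by
    intro a haP hap
    have : Fintype P := Fintype.ofFinite P
    have hle := IsCyclic.card_pow_eq_one_le (α := P) (n := p) hp.pos
    set S : Finset P := Finset.univ.filter (fun b : P => b ^ p = 1) with hS
    set Z' : Finset P := Finset.univ.filter (fun b : P => (b : G) ∈ Z) with hZ'
    have hZ'card : Z'.card = p := by
      rw [← hZcard]
      have e : {b : P // (b : G) ∈ Z} ≃ Z :=
        { toFun := fun b => ⟨b.1.1, b.2⟩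
          invFun := fun z => ⟨⟨z.1, hZ z.2⟩, z.2⟩
          left_inv := fun b => rfl
          right_inv := fun z => rfl }
      rw [← Nat.card_congr e, Nat.card_eq_fintype_card, Fintype.card_subtype]
    have hsub : Z' ⊆ S := by
      intro b hb
      simp only [hZ', Finset.mem_filter, Finset.mem_univ, true_and] at hb
      simp only [hS, Finset.mem_filter, Finset.mem_univ, true_and]
      have h1 : (⟨(b : G), hb⟩ : Z) ^ Nat.card Z = 1 := pow_card_eq_one'
      rw [hZcard] at h1
      have h2 : ((b : G)) ^ p = 1 := by
        have := congrArg (Subtype.val) h1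
        simpa using this
      exact Subtype.ext (by simpa using h2)
    have heq : Z' = S := Finset.eq_of_subset_of_card_le hsub (by rw [hZ'card]; exact hle)
    have : (⟨a, haP⟩ : P) ∈ S := by
      simp only [hS, Finset.mem_filter, Finset.mem_univ, true_and]
      exact Subtype.ext (by simpa using hap)
    rw [← heq] at this
    simpa [hZ'] using this
  -- Z lies in every nontrivial subgroup of P
  have hB : ∀ R : Subgroup G, R ≤ P → R ≠ ⊥ → Z ≤ R := by
    intro R hRP hR1
    have hRp : IsPGroup p R := hP.to_le hRP
    have : Nontrivial R := (Subgroup.nontrivial_iff_ne_bot R).2 hR1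
    have hdvd : p ∣ Nat.card R := by
      obtain ⟨n, hn⟩ := hRp.exists_card_eq
      have h1 : 1 < Nat.card R := Finite.one_lt_card
      rcases Nat.eq_zero_or_pos n with h0 | h0
      · subst h0
        rw [pow_zero] at hn
        omega
      · rw [hn]; exact dvd_pow_self p h0.ne'
    obtain ⟨a, ha⟩ := exists_prime_orderOf_dvd_card' p hdvd
    have haG : orderOf (a : G) = p := by rw [Subgroup.orderOf_coe]; exact ha
    have hle : Subgroup.zpowers (a : G) ≤ Z := by
      rw [Subgroup.zpowers_le]
      apply hA _ (hRP a.2)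
      rw [← haG]; exact pow_orderOf_eq_one _
    have hcard : Nat.card (Subgroup.zpowers (a : G)) = p := by rw [Nat.card_zpowers, haG]
    have heq : Subgroup.zpowers (a : G) = Z :=
      Subgroup.eq_of_le_of_card_ge hle (by rw [hcard, hZcard])
    rw [← heq, Subgroup.zpowers_le]
    exact a.2
  have hZp : ∀ z ∈ Z, z ^ p = 1 := by
    intro z hz
    have h1 : (⟨z, hz⟩ : Z) ^ Nat.card Z = 1 := pow_card_eq_one'
    rw [hZcard] at h1
    simpa using congrArg (Subtype.val) h1
  -- criterion
  have hC : ∀ x : G, (∀ z ∈ Z, x * z * x⁻¹ ∈ P) → x ∈ Subgroup.normalizer (Z : Set G) := by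
    intro x hx
    apply Subgroup.mem_normalizer_fintype
    intro z hz
    apply hA _ (hx z hz)
    rw [conj_pow, hZp z hz]; group
  constructor
  · intro x hx
    by_contra hne
    apply hx
    apply hC
    intro z hz
    -- x⁻¹ (P ⊓ xPx⁻¹) x is a nontrivial subgroup of P
    set R := P ⊓ MulAut.conj x • P with hR
    have h1 : Z ≤ MulAut.conj x⁻¹ • R := by
      apply hB
      · intro y hy
        rw [Subgroup.mem_pointwise_smul_iff_inv_smul_mem] at hy
        have hy2 : (MulAut.conj x⁻¹)⁻¹ • y ∈ MulAut.conj x • P := hy.2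
        rw [Subgroup.mem_pointwise_smul_iff_inv_smul_mem] at hy2
        simpa [MulAut.smul_def, mul_assoc] using hy2
      · intro hbot
        apply hne
        have := congrArg (fun K => MulAut.conj x • K) hbot
        simpa [smul_smul] using this
    have h2 := h1 hz
    rw [Subgroup.mem_pointwise_smul_iff_inv_smul_mem] at h2
    have h3 := h2.1
    simpa [MulAut.smul_def, mul_assoc] using h3
  · intro Q hQP hQ1 g hg
    apply hC
    intro z hz
    have hzQ := hB Q hQP hQ1 hz
    rw [Subgroup.mem_normalizer_iff] at hg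
    exact hQP ((hg z).1 hzQ)

end Cfsg.Agent.S4636
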