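import Cfsg.Statements.S0089
import Cfsg.Agent.Lib.Helper3.Transfer

set_option autoImplicit false
open Cfsg

namespace Cfsg.Agent.S0089

/-- When all Sylow subgroups are abelian, the derived subgroup meets the centre trivially. -/
theorem result {G : Type*} [Group G] [Finite G] (h : ∀ p : ℕ, p.Prime → ∀ P : Sylow p G, IsMulCommutative P) : commutator G ⊓ Subgroup.center G = ⊥ := by
  rw [eq_bot_iff]
  rintro z ⟨hzc, hz⟩
  rw [Subgroup.mem_bot]
  by_contra hz1
  obtain ⟨p, hp, hpd⟩ := Nat.exists_prime_and_dvd (fun h => hz1 (orderOf_eq_one_iff.mp h) : orderOf z ≠ 1)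
  obtain ⟨m, hm⟩ := hpd
  have : Fact p.Prime := ⟨hp⟩
  have ho : orderOf (z ^ m) = p := by
    have hpos : 0 < orderOf z := orderOf_pos z
    have hm0 : m ≠ 0 := by
      rintro rfl
      rw [mul_zero] at hm
      omega
    rw [orderOf_pow_of_dvd hm0 ⟨p, by rw [hm, mul_comm]⟩, hm]
    exact Nat.mul_div_cancel _ (Nat.pos_of_ne_zero hm0)
  have hpg : IsPGroup p (Subgroup.zpowers (z ^ m)) := by
    rw [IsPGroup.iff_card]
    exact ⟨1, by rw [Nat.card_zpowers, ho, pow_one]⟩
  obtain ⟨P, hP⟩ := hpg.exists_le_sylow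
  have hHall : Nat.Coprime (Nat.card (P : Subgroup G)) (P : Subgroup G).index := by
    obtain ⟨n, hn⟩ := IsPGroup.iff_card.mp P.2
    rw [hn]
    exact Nat.Coprime.pow_left n ((Nat.Prime.coprime_iff_not_dvd hp).mpr P.not_dvd_index)
  have := Cfsg.Agent.Lib.Helper3.abelian_hall_inf_commutator_inf_center (P : Subgroup G) (h p hp P) hHall
  have hmem : z ^ m ∈ (P : Subgroup G) ⊓ commutator G ⊓ Subgroup.center G :=
    ⟨⟨hP (Subgroup.mem_zpowers _), Subgroup.pow_mem _ hzc m⟩, Subgroup.pow_mem _ hz m⟩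
  rw [this, Subgroup.mem_bot] at hmem
  rw [hmem, orderOf_one] at ho
  exact hp.one_lt.ne ho

end Cfsg.Agent.S0089
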