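import Cfsg.Statements.S0316
import Cfsg.Agent.Lib.Helper8.BNPar

set_option autoImplicit false
open Cfsg

namespace Cfsg.Agent.S0316

/-- The map `J ↦ P_J` is a lattice isomorphism from the power set of the set of distinguished generators onto the
subgroups containing `B`. -/
theorem result {G : Type*} [Group G] (P : Cfsg.BNPair G) :
    ∃ e : Set P.S ≃o {M : Subgroup G // P.B ≤ M},
      ∀ J : Set P.S, ((e J : {M : Subgroup G // P.B ≤ M}) : Subgroup G) = P.parabolic (Subtype.val '' J) := by
  have himg : ∀ J : Set P.S, Subtype.val '' J ⊆ P.S := by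
    rintro J _ ⟨s, _, rfl⟩; exact s.2
  refine ⟨{ toFun := fun J => ⟨P.parabolic (Subtype.val '' J), Cfsg.Agent.Lib.Helper8.B_le_parabolic _⟩
            invFun := fun M => {s : P.S | (s : G) ∈ M.1}
            left_inv := ?_
            right_inv := ?_
            map_rel_iff' := ?_ }, fun J => rfl⟩
  · intro J
    ext s
    have h := Cfsg.Agent.Lib.Helper8.S_inter_parabolic (himg J)
    constructor
    · intro hs
      have h1 : (s : G) ∈ P.S ∩ (P.parabolic (Subtype.val '' J) : Set G) := ⟨s.2, hs⟩
      rw [h] at h1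
      obtain ⟨t, ht, e⟩ := h1
      rwa [← Subtype.ext e]
    · intro hs
      have h1 : (s : G) ∈ Subtype.val '' J := ⟨s, hs, rfl⟩
      rw [← h] at h1
      exact h1.2
  · intro M
    apply Subtype.ext
    have h := Cfsg.Agent.Lib.Helper8.eq_parabolic_of_le M.2
    have e : Subtype.val '' {s : P.S | (s : G) ∈ M.1} = P.S ∩ (M.1 : Set G) := by
      ext x
      constructor
      · rintro ⟨s, hs, rfl⟩; exact ⟨s.2, hs⟩
      · rintro ⟨h1, h2⟩; exact ⟨⟨x, h1⟩, h2, rfl⟩
    show P.parabolic (Subtype.val '' {s : P.S | (s : G) ∈ M.1}) = M.1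
    rw [e, ← h]
  · intro J K
    show P.parabolic (Subtype.val '' J) ≤ P.parabolic (Subtype.val '' K) ↔ J ≤ K
    rw [Cfsg.Agent.Lib.Helper8.parabolic_le_iff (himg J) (himg K)]
    exact Set.image_subset_image_iff Subtype.val_injective

end Cfsg.Agent.S0316
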