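import Cfsg.Statements.S1078
import Cfsg.Agent.Lib.Helper23.StLat

set_option autoImplicit false
open Cfsg

namespace Cfsg.Agent.S1078

/-- For G₂, F₄, E₈ the presented group has trivial centre (the universal and adjoint groups coincide). -/
theorem result {K : Type*} [Field K] (D : Cfsg.Lie.ChevalleyDatum) (hD : D ∈ [Cfsg.Lie.chevG2, Cfsg.Lie.chevF4, Cfsg.Lie.chevE8]) :
    Subgroup.center (D.SteinbergGroup K) = ⊥ := by
  have hD' : D ∈ [Cfsg.Lie.chevG2, Cfsg.Lie.chevB2, Cfsg.Lie.chevD4, Cfsg.Lie.chevF4, Cfsg.Lie.chevE6,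
      Cfsg.Lie.chevE7, Cfsg.Lie.chevE8] := by
    simp only [List.mem_cons, List.not_mem_nil, or_false] at hD ⊢
    rcases hD with h | h | h <;> simp [h]
  have hA := Cfsg.Agent.Lib.Helper23.addFact_of_mem K hD'
  have T := Cfsg.Agent.Lib.Helper23.StP.stTab_of_mem hD'
  let S := Cfsg.Agent.Lib.Helper23.StP.sysGroup hD' hA
  rw [eq_bot_iff]
  intro z hz
  obtain ⟨c, hc, rfl, h⟩ := Cfsg.Agent.Lib.Helper23.StP.StSys.R3.center_eq S hD' T
    (Cfsg.Agent.Lib.Helper23.StP.sysGroup_R3 hD' hA) hz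
  have h1 := Cfsg.Agent.Lib.Helper23.StP.cartan_unimod hD c hc h
  rw [Subgroup.mem_bot, ← S.hW_one D.rank]
  exact S.hW_congr h1

end Cfsg.Agent.S1078
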