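import Cfsg.Statements.S0514
import Cfsg.Agent.S0111
import Cfsg.Agent.Lib.Helper11.TwoComplement
import Cfsg.Agent.Lib.Helper11.SylowAux

set_option autoImplicit false
open Cfsg

namespace Cfsg.Agent.S0514

open Cfsg.Agent.Lib.Helper11
open scoped Pointwise

universe u

/-- every 2-subgroup embeds in the dihedral group `D_n` -/
def Hyp (H : Type*) [Group H] (n : ℕ) : Prop :=
  ∀ R : Subgroup H, IsPGroup 2 R → ∃ f : R →* DihedralGroup n, Function.Injective f

theorem Hyp.subgroup {H : Type*} [Group H] {n : ℕ} (h : Hyp H n) (M : Subgroup H) : Hyp M n := by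
  intro R hR
  obtain ⟨f, hf⟩ := h (R.map M.subtype) (hR.map _)
  refine ⟨f.comp (R.equivMapOfInjective M.subtype Subtype.val_injective).toMonoidHom, ?_⟩
  exact hf.comp (MulEquiv.injective _)

theorem central_mem_sylow {H : Type*} [Group H] [Finite H] (T : Sylow 2 H) {t : H}
    (htc : t ∈ Subgroup.center H) (ht2 : orderOf t = 2) : t ∈ (T : Subgroup H) := by
  have : Fact (Nat.Prime 2) := ⟨Nat.prime_two⟩
  have hn : (Subgroup.zpowers t).Normal := by
    constructor
    intro x hx g
    have hxc : x ∈ Subgroup.center H := (Subgroup.zpowers_le.mpr htc) hx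
    have : g * x * g⁻¹ = x := by
      rw [Subgroup.mem_center_iff.mp hxc g]; group
    rwa [this]
  have hp : IsPGroup 2 (Subgroup.zpowers t) := by
    apply IsPGroup.of_card (n := 1)
    rw [Nat.card_zpowers, ht2, pow_one]
  have h1 : IsPGroup 2 ((T : Subgroup H) ⊔ Subgroup.zpowers t : Subgroup H) :=
    T.isPGroup'.to_sup_of_normal_right hp
  have h2 := T.is_maximal' h1 le_sup_left
  have h3 : Subgroup.zpowers t ≤ (T : Subgroup H) := by
    rw [← h2]; exact le_sup_right
  exact h3 (Subgroup.mem_zpowers t)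

theorem thompson_step {H : Type*} [Group H] [Finite H] (T : Sylow 2 H) {t : H}
    (htc : t ∈ Subgroup.center H) (ht2 : orderOf t = 2) (Q : Subgroup H)
    (hQT : Q ≤ (T : Subgroup H)) (hQc : IsCyclic Q) (htQ : t ∈ Q)
    (hQi : Q.relIndex (T : Subgroup H) = 2) (u : H) (huT : u ∈ (T : Subgroup H)) (huQ : u ∉ Q)
    (hu2 : orderOf u = 2) : ∃ M : Subgroup H, M.Normal ∧ M.index = 2 := by
  rcases Cfsg.Agent.S0111.result T Q hQT hQi u hu2 huT huQ with ⟨M, hM, hMi, -⟩ | ⟨g, hg⟩
  · exact ⟨M, hM, hMi⟩
  · exfalso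
    have h1 : orderOf (g * u * g⁻¹) = 2 := by
      rw [← hu2]; exact (MulAut.conj g).orderOf_eq u
    have h2 : (⟨g * u * g⁻¹, hg⟩ : Q) = ⟨t, htQ⟩ := by
      apply eq_of_orderOf_two_of_cyclic
      · rw [Subgroup.orderOf_mk]; exact h1
      · rw [Subgroup.orderOf_mk]; exact ht2
    have h3 : g * u * g⁻¹ = t := congrArg Subtype.val h2
    have h4 : u = t := by
      have : u = g⁻¹ * (g * u * g⁻¹) * g := by group
      rw [this, h3, mul_assoc, ← Subgroup.mem_center_iff.mp htc g]
      group
    exact huQ (h4 ▸ htQ)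

theorem card_sylow_index_two {H : Type*} [Group H] [Finite H] (T : Sylow 2 H) (M : Subgroup H)
    (hMi : M.index = 2) (T1 : Sylow 2 M) :
    Nat.card (T : Subgroup H) = 2 * Nat.card (T1 : Subgroup M) := by
  have : Fact (Nat.Prime 2) := ⟨Nat.prime_two⟩
  have h1 : Nat.card H = Nat.card M * 2 := by rw [← hMi]; exact M.card_mul_index.symm
  rw [T.card_eq_multiplicity, T1.card_eq_multiplicity, h1,
    Nat.factorization_mul Nat.card_pos.ne' (by norm_num)]
  simp [Nat.Prime.factorization_self Nat.prime_two, pow_succ, mul_comm]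

theorem main (n : ℕ) : ∀ (c : ℕ) (H : Type u) [Group H] [Finite H], Nat.card H = c → Hyp H n →
    (∃ t ∈ Subgroup.center H, orderOf t = 2) → NC H := by
  intro c
  induction c using Nat.strong_induction_on with
  | _ c ih =>
  intro H _ _ hc hyp ⟨t, htc, ht2⟩
  classical
  have hp2 : Fact (Nat.Prime 2) := ⟨Nat.prime_two⟩
  obtain ⟨T⟩ : Nonempty (Sylow 2 H) := inferInstance
  by_cases hcyc : IsCyclic (T : Subgroup H)
  · exact NC_of_cyclic_sylow T hcyc
  obtain ⟨f, hf⟩ := hyp T T.isPGroup'
  obtain ⟨A, hAcyc, hAidx, hAinv⟩ := dihedral_structure f hf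
  have hAtop : A ≠ ⊤ := by
    rintro rfl
    exact hcyc (isCyclic_of_surjective (Subgroup.topEquiv (G := (T : Subgroup H))).toMonoidHom
      (MulEquiv.surjective _))
  have hAi : A.index = 2 := hAidx.resolve_left hAtop
  have htT : t ∈ (T : Subgroup H) := central_mem_sylow T htc ht2
  have ht'2 : orderOf (⟨t, htT⟩ : (T : Subgroup H)) = 2 := by rw [Subgroup.orderOf_mk]; exact ht2
  by_cases hα : ∀ a ∈ A, a ^ 2 = 1
  · -- the Sylow subgroup has order four
    have hA2 : Nat.card A ≤ 2 := card_le_two_of_cyclic_of_sq (fun a => Subtype.ext (hα a a.2))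
    have hTA : Nat.card A * 2 = Nat.card (T : Subgroup H) := by
      have := A.card_mul_index
      rwa [hAi] at this
    have hA1 : Nat.card A ≠ 1 := by
      intro h
      rw [h] at hTA
      exact hcyc (isCyclic_of_prime_card (p := 2) hTA.symm)
    have hApos : 0 < Nat.card A := Nat.card_pos
    have hT4 : Nat.card (T : Subgroup H) = 4 := by omega
    have hsq : ∀ x : (T : Subgroup H), x * x = 1 := by
      intro x
      by_cases hx : x ∈ A
      · rw [← pow_two]; exact hα x hx
      · exact (hAinv x hx).1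
    have hQT : Subgroup.zpowers t ≤ (T : Subgroup H) := Subgroup.zpowers_le.mpr htT
    have hQcard : Nat.card (Subgroup.zpowers t) = 2 := by rw [Nat.card_zpowers, ht2]
    have hQi : (Subgroup.zpowers t).relIndex (T : Subgroup H) = 2 := by
      have h1 := ((Subgroup.zpowers t).subgroupOf (T : Subgroup H)).card_mul_index
      rw [Nat.card_congr (Subgroup.subgroupOfEquivOfLe hQT).toEquiv, hQcard, hT4] at h1
      rw [Subgroup.relIndex]
      omega
    obtain ⟨u, huT, huQ⟩ : ∃ u ∈ (T : Subgroup H), u ∉ Subgroup.zpowers t := by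
      by_contra hcon
      push Not at hcon
      have : (T : Subgroup H) ≤ Subgroup.zpowers t := hcon
      have := Subgroup.card_le_of_le this
      omega
    have hu2 : orderOf u = 2 := by
      apply orderOf_eq_prime
      · rw [pow_two]; exact congrArg Subtype.val (hsq ⟨u, huT⟩)
      · rintro rfl
        exact huQ (Subgroup.one_mem _)
    obtain ⟨M, hM, hMi⟩ := thompson_step T htc ht2 (Subgroup.zpowers t) hQT inferInstance
      (Subgroup.mem_zpowers t) hQi u huT huQ hu2
    obtain ⟨T1⟩ : Nonempty (Sylow 2 M) := inferInstance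
    have hT1 := card_sylow_index_two T M hMi T1
    have hT1' : Nat.card (T1 : Subgroup M) = 2 := by omega
    exact NC_of_index_two M hMi (NC_of_cyclic_sylow T1 (isCyclic_of_prime_card (p := 2) hT1'))
  · push Not at hα
    obtain ⟨a0, ha0A, ha0⟩ := hα
    have ht'A : (⟨t, htT⟩ : (T : Subgroup H)) ∈ A := by
      by_contra hnot
      have h1 := (hAinv _ hnot).2 a0 ha0A
      have h2 : (⟨t, htT⟩ : (T : Subgroup H)) * a0 * (⟨t, htT⟩ : (T : Subgroup H))⁻¹ = a0 := by
        apply Subtype.ext
        show t * (a0 : H) * t⁻¹ = a0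
        rw [← Subgroup.mem_center_iff.mp htc (a0 : H)]; group
      rw [h2] at h1
      apply ha0
      rw [pow_two]
      nth_rewrite 1 [h1]
      exact inv_mul_cancel a0
    have hQT : A.map (T : Subgroup H).subtype ≤ (T : Subgroup H) := Subgroup.map_subtype_le A
    have hQi : (A.map (T : Subgroup H).subtype).relIndex (T : Subgroup H) = 2 := by
      rw [Subgroup.relIndex, Subgroup.subgroupOf,
        Subgroup.comap_map_eq_self_of_injective Subtype.val_injective]
      exact hAi
    have hQc : IsCyclic (A.map (T : Subgroup H).subtype) :=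
      isCyclic_of_surjective
        (A.equivMapOfInjective (T : Subgroup H).subtype Subtype.val_injective).toMonoidHom
        (MulEquiv.surjective _)
    obtain ⟨u', hu'⟩ : ∃ u' : (T : Subgroup H), u' ∉ A := by
      by_contra hcon
      push Not at hcon
      exact hAtop (eq_top_iff.mpr fun x _ => hcon x)
    have huQ : (u' : H) ∉ A.map (T : Subgroup H).subtype := by
      rintro ⟨y, hy, hyu⟩
      have : y = u' := Subtype.ext hyu
      exact hu' (this ▸ hy)
    have hu2 : orderOf (u' : H) = 2 := by
      apply orderOf_eq_prime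
      · rw [pow_two]; exact congrArg Subtype.val (hAinv u' hu').1
      · intro h
        apply hu'
        have : u' = 1 := Subtype.ext h
        rw [this]; exact A.one_mem
    obtain ⟨M, hM, hMi⟩ := thompson_step T htc ht2 _ hQT hQc ⟨_, ht'A, rfl⟩ hQi u' u'.2 huQ hu2
    -- t lies in M
    have htM : t ∈ M := by
      obtain ⟨j, hj⟩ := (IsPGroup.iff_orderOf.mp T.isPGroup') (a0 ^ 2)
      have hj0 : j ≠ 0 := by
        rintro rfl
        rw [pow_zero, orderOf_eq_one_iff] at hj
        exact ha0 hj
      have hb2 : orderOf ((a0 ^ 2) ^ (2 ^ (j - 1))) = 2 := by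
        rw [orderOf_pow_of_dvd (by positivity) (by rw [hj]; exact pow_dvd_pow 2 (Nat.sub_le j 1)), hj]
        obtain ⟨i, rfl⟩ : ∃ i, j = i + 1 := ⟨j - 1, by omega⟩
        simp [pow_succ]
      have hbA : (a0 ^ 2) ^ (2 ^ (j - 1)) ∈ A := A.pow_mem (A.pow_mem ha0A 2) _
      have heq : (⟨(a0 ^ 2) ^ (2 ^ (j - 1)), hbA⟩ : A) = ⟨⟨t, htT⟩, ht'A⟩ := by
        apply eq_of_orderOf_two_of_cyclic
        · rw [Subgroup.orderOf_mk]; exact hb2
        · rw [Subgroup.orderOf_mk]; exact ht'2
      have heq' : (((a0 : H) ^ 2) ^ (2 ^ (j - 1))) = t :=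
        congrArg (fun x : A => ((x : (T : Subgroup H)) : H)) heq
      rw [← heq']
      apply M.pow_mem
      have := M.pow_index_mem (a0 : H)
      rwa [hMi] at this
    have hcardM : Nat.card M < c := by
      have := M.card_mul_index
      rw [hMi, hc] at this
      have hpos : 0 < Nat.card M := Nat.card_pos
      omega
    have hNCM : NC M := by
      apply ih (Nat.card M) hcardM M rfl (hyp.subgroup M)
      refine ⟨⟨t, htM⟩, ?_, ?_⟩
      · rw [Subgroup.mem_center_iff]
        intro g
        apply Subtype.ext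
        exact Subgroup.mem_center_iff.mp htc g
      · rw [Subgroup.orderOf_mk]; exact ht2
    exact NC_of_index_two M hMi hNCM

/-- In a finite group whose Sylow 2-subgroups are dihedral of order at least 4, the centralizer of any involution has a
normal subgroup of odd order whose index in the centralizer is a power of 2. -/
theorem result {X : Type*} [Group X] [Finite X]
    (S : Sylow 2 X) (n : ℕ) (hn : 2 ≤ n) (hS : Nonempty ((S : Subgroup X) ≃* DihedralGroup n)) (t : X)
    (ht : orderOf t = 2) :
    ∃ N : Subgroup (Subgroup.centralizer ({t} : Set X)), N.Normal ∧ Odd (Nat.card N) ∧ ∃ k : ℕ, N.index = 2 ^ k := by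
  classical
  have hp2 : Fact (Nat.Prime 2) := ⟨Nat.prime_two⟩
  obtain ⟨e⟩ := hS
  have hX : Hyp X n := by
    intro R hR
    obtain ⟨g, -, hg⟩ := exists_conj_le_sylow_of_le (⊤ : Subgroup X) S le_top R hR le_top
    let φ : R →* (S : Subgroup X) :=
      ((MulAut.conj g).toMonoidHom.comp R.subtype).codRestrict (S : Subgroup X) (fun x => by
        apply hg
        exact conj_mem_conj_smul x.2)
    refine ⟨e.toMonoidHom.comp φ, e.injective.comp ?_⟩
    intro x y hxy
    have h1 : g * (x : X) * g⁻¹ = g * (y : X) * g⁻¹ := congrArg Subtype.val hxy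
    apply Subtype.ext
    exact mul_left_cancel (mul_right_cancel h1)
  have htmem : t ∈ Subgroup.centralizer ({t} : Set X) := by
    rw [Subgroup.mem_centralizer_singleton_iff]
  apply main n _ (Subgroup.centralizer ({t} : Set X)) rfl (hX.subgroup _)
  refine ⟨⟨t, htmem⟩, ?_, ?_⟩
  · rw [Subgroup.mem_center_iff]
    intro g
    apply Subtype.ext
    exact Subgroup.mem_centralizer_singleton_iff.mp g.2
  · rw [Subgroup.orderOf_mk]; exact ht

end Cfsg.Agent.S0514
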