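import Cfsg.Statements.S0107
import Cfsg.Agent.S0111

set_option autoImplicit false
open Cfsg

namespace Cfsg.Agent.S0107

/-- In a finite cyclic group there is at most one element of order two. -/
theorem cyclic_involution_unique {C : Type*} [Group C] [Finite C] [IsCyclic C] (a b : C)
    (ha : orderOf a = 2) (hb : orderOf b = 2) : a = b := by
  classical
  by_contra hab
  have : Fintype C := Fintype.ofFinite C
  have hle := IsCyclic.card_pow_eq_one_le (α := C) (n := 2) (by norm_num)
  have ha1 : a ≠ 1 := by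
    rintro rfl; simp at ha
  have hb1 : b ≠ 1 := by
    rintro rfl; simp at hb
  have hsub : ({1, a, b} : Finset C) ⊆ Finset.univ.filter (fun x : C => x ^ 2 = 1) := by
    intro x hx
    simp only [Finset.mem_insert, Finset.mem_singleton] at hx
    simp only [Finset.mem_filter, Finset.mem_univ, true_and]
    rcases hx with rfl | rfl | rfl
    · simp
    · rw [← ha, pow_orderOf_eq_one]
    · rw [← hb, pow_orderOf_eq_one]
  have h3 : ({1, a, b} : Finset C).card = 3 := by
    rw [Finset.card_insert_of_notMem, Finset.card_insert_of_notMem, Finset.card_singleton]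
    · simpa using hab
    · simp only [Finset.mem_insert, Finset.mem_singleton, not_or]
      exact ⟨ha1.symm, hb1.symm⟩
  have := Finset.card_le_card hsub
  omega

theorem orderOf_conj' {G : Type*} [Group G] (g x : G) : orderOf (g * x * g⁻¹) = orderOf x := by
  have := (MulAut.conj g).orderOf_eq x
  simpa using this

/-- A finite group with no nontrivial 2-group quotient and dihedral Sylow 2-subgroups of order at least 8 has a single class of involutions. -/
theorem result {G : Type*} [Group G] [Finite G] (T : Sylow 2 G) (n : ℕ) (hn : 2 ≤ n) (hT : Nonempty ((T : Subgroup G) ≃* DihedralGroup (2 ^ n))) (hO : Cfsg.pResidual 2 G = ⊤) (x y : G) (hx : orderOf x = 2) (hy : orderOf y = 2) : ∃ g : G, g * x * g⁻¹ = y := by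
  obtain ⟨e⟩ := hT
  -- no normal subgroup of index two
  have hno : ¬ ∃ M : Subgroup G, M.Normal ∧ M.index = 2 := by
    rintro ⟨M, hMn, hMi⟩
    have hle : Cfsg.pResidual 2 G ≤ M := by
      unfold Cfsg.pResidual
      rw [Subgroup.closure_le]
      intro g hg
      have hg' : Nat.Coprime (orderOf g) 2 := hg
      show g ∈ M
      rw [← QuotientGroup.eq_one_iff]
      have h1 : orderOf (g : G ⧸ M) ∣ 2 := by
        have : Nat.card (G ⧸ M) = 2 := hMi
        rw [← this]; exact orderOf_dvd_natCard _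
      have h2 : orderOf (g : G ⧸ M) ∣ orderOf g := orderOf_map_dvd (QuotientGroup.mk' M) g
      exact orderOf_eq_one_iff.mp (Nat.eq_one_of_dvd_coprimes hg' h2 h1)
    rw [hO, top_le_iff] at hle
    rw [hle, Subgroup.index_top] at hMi
    omega
  let c : G := ((e.symm (DihedralGroup.r 1) : (T : Subgroup G)) : G)
  have hcT : c ∈ (T : Subgroup G) := (e.symm (DihedralGroup.r 1)).2
  have hco : orderOf c = 2 ^ n := by
    show orderOf ((e.symm (DihedralGroup.r 1) : (T : Subgroup G)) : G) = 2 ^ n
    rw [Subgroup.orderOf_coe, e.symm.orderOf_eq, DihedralGroup.orderOf_r_one]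
  let Q : Subgroup G := Subgroup.zpowers c
  have hQT : Q ≤ (T : Subgroup G) := by
    rw [Subgroup.zpowers_le]; exact hcT
  have hQcard : Nat.card Q = 2 ^ n := by rw [Nat.card_zpowers, hco]
  have hTcard : Nat.card (T : Subgroup G) = 2 * 2 ^ n := by
    rw [Nat.card_congr e.toEquiv, DihedralGroup.nat_card]
  have hQi : Q.relIndex (T : Subgroup G) = 2 := by
    have h := Subgroup.relIndex_mul_relIndex ⊥ Q (T : Subgroup G) bot_le hQT
    rw [Subgroup.relIndex_bot_left, Subgroup.relIndex_bot_left, hQcard, hTcard] at h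
    have hpos : 0 < 2 ^ n := by positivity
    nlinarith
  -- each involution of T is conjugate into Q
  have hA : ∀ u : G, orderOf u = 2 → u ∈ (T : Subgroup G) → ∃ g : G, g * u * g⁻¹ ∈ Q := by
    intro u hu huT
    by_cases huQ : u ∈ Q
    · exact ⟨1, by simpa using huQ⟩
    · rcases Cfsg.Agent.S0111.result T Q hQT hQi u hu huT huQ with ⟨M, hM1, hM2, _⟩ | h
      · exact absurd ⟨M, hM1, hM2⟩ hno
      · exact h
  -- each involution of G is conjugate into T
  have hB : ∀ u : G, orderOf u = 2 → ∃ g : G, g * u * g⁻¹ ∈ (T : Subgroup G) := by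
    intro u hu
    have hpg : IsPGroup 2 (Subgroup.zpowers u) := by
      rw [IsPGroup.iff_card]
      exact ⟨1, by rw [Nat.card_zpowers, hu, pow_one]⟩
    obtain ⟨T', hT'⟩ := hpg.exists_le_sylow
    obtain ⟨g, hg⟩ := MulAction.exists_smul_eq G T' T
    refine ⟨g, ?_⟩
    rw [← hg, Sylow.coe_subgroup_smul]
    have h1 : u ∈ (T' : Subgroup G) := hT' (Subgroup.mem_zpowers u)
    have h2 := Subgroup.smul_mem_pointwise_smul u (MulAut.conj g) (T' : Subgroup G) h1
    simpa [MulAut.smul_def] using h2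
  have hC : ∀ u : G, orderOf u = 2 → ∃ g : G, g * u * g⁻¹ ∈ Q := by
    intro u hu
    obtain ⟨g, hg⟩ := hB u hu
    obtain ⟨k, hk⟩ := hA (g * u * g⁻¹) (by rw [orderOf_conj', hu]) hg
    exact ⟨k * g, by simpa [mul_assoc] using hk⟩
  obtain ⟨g1, h1⟩ := hC x hx
  obtain ⟨g2, h2⟩ := hC y hy
  have heq : (⟨g1 * x * g1⁻¹, h1⟩ : Q) = ⟨g2 * y * g2⁻¹, h2⟩ := by
    apply cyclic_involution_unique
    · rw [Subgroup.orderOf_mk, orderOf_conj', hx]
    · rw [Subgroup.orderOf_mk, orderOf_conj', hy]
  have heq' : g1 * x * g1⁻¹ = g2 * y * g2⁻¹ := congrArg Subtype.val heq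
  refine ⟨g2⁻¹ * g1, ?_⟩
  calc g2⁻¹ * g1 * x * (g2⁻¹ * g1)⁻¹ = g2⁻¹ * (g1 * x * g1⁻¹) * g2 := by group
    _ = g2⁻¹ * (g2 * y * g2⁻¹) * g2 := by rw [heq']
    _ = y := by group

end Cfsg.Agent.S0107
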