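import Cfsg.Statements.S1184
import Cfsg.Agent.Lib.Helper25.Isolated

set_option autoImplicit false
open Cfsg

namespace Cfsg.Agent.S1184

open Cfsg.Agent.Lib.Helper25

theorem aux {G : Type*} [Group G] {z s a : G} (hzz : z * z = 1) (hss : s * s = 1)
    (hza : z * a * z = a) (hsa : s * a * s = a⁻¹) (j : ℕ)
    (hj : (z * s) ^ j * z * ((z * s) ^ j)⁻¹ = s) : a * a = 1 := by
  have hz' : z⁻¹ = z := inv_eq_of_mul_eq_one_left hzz
  have hs' : s⁻¹ = s := inv_eq_of_mul_eq_one_left hss
  have hza' : z * a⁻¹ * z = a⁻¹ := by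
    have : z * a⁻¹ * z = (z * a * z)⁻¹ := by rw [mul_inv_rev, mul_inv_rev, hz', mul_assoc]
    rw [this, hza]
  have hsa' : s * a⁻¹ * s = a := by
    have : s * a⁻¹ * s = (s * a * s)⁻¹ := by rw [mul_inv_rev, mul_inv_rev, hs', mul_assoc]
    rw [this, hsa, inv_inv]
  have hzs : ∀ i : ℕ, ((z * s) ^ i)⁻¹ * a * (z * s) ^ i = a ∨ ((z * s) ^ i)⁻¹ * a * (z * s) ^ i = a⁻¹ := by
    intro i
    induction i with
    | zero => left; simp
    | succ n ih =>
      have e : ∀ b : G, ((z * s) ^ (n + 1))⁻¹ * b * (z * s) ^ (n + 1)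
          = s * (z * (((z * s) ^ n)⁻¹ * b * (z * s) ^ n) * z) * s := by
        intro b
        rw [pow_succ, mul_inv_rev, mul_inv_rev, hz', hs']; group
      rcases ih with ih | ih
      · right; rw [e, ih, hza, hsa]
      · left; rw [e, ih, hza', hsa']
  have hsc : s * a * s = a := by
    have e : s * a * s = (z * s) ^ j * (z * (((z * s) ^ j)⁻¹ * a * (z * s) ^ j) * z) * ((z * s) ^ j)⁻¹ := by
      conv_lhs => rw [← hj]
      group
    rcases hzs j with h1 | h1
    · rw [e, h1, hza]; nth_rewrite 1 [← h1]; group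
    · rw [e, h1, hza']; nth_rewrite 1 [← h1]; group
  have : a = a⁻¹ := by rw [← hsa, hsc]
  calc a * a = a * a⁻¹ := by rw [← this]
    _ = 1 := mul_inv_cancel a


/-- Let z be an isolated involution of the finite group G. If s and t are distinct conjugates of z, then st does not commute with z. -/
theorem result {G : Type*} [Group G] [Finite G] (z : G) (hz : Cfsg.IsIsolatedInvolution z) (g h : G) (hne : g * z * g⁻¹ ≠ h * z * h⁻¹) : ¬ Commute (g * z * g⁻¹ * (h * z * h⁻¹)) z := by
  intro hcomm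
  have hzz := isolated_sq hz
  have hss : (g * z * g⁻¹) * (g * z * g⁻¹) = 1 := conj_sq hzz g
  have htt : (h * z * h⁻¹) * (h * z * h⁻¹) = 1 := conj_sq hzz h
  have hodd := isolated_odd_mul' hz g h
  have hsa := invol_inverts hss htt
  obtain ⟨j, hj⟩ := isolated_conj_pow hz g
  have hza : z * (g * z * g⁻¹ * (h * z * h⁻¹)) * z = (g * z * g⁻¹ * (h * z * h⁻¹)) := by
    have := hcomm.eq
    rw [mul_assoc, this, ← mul_assoc, hzz, one_mul]
  have haa := aux hzz hss hza hsa j hj
  have ha1 := eq_one_of_odd_of_sq hodd haa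
  apply hne
  have := eq_inv_of_mul_eq_one_left ha1
  rw [this]; exact inv_eq_of_mul_eq_one_left htt

end Cfsg.Agent.S1184
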