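import Cfsg.Statements.S0100
import Cfsg.Agent.Lib.Helper3.OmegaCentralizer

set_option autoImplicit false
open Cfsg

namespace Cfsg.Agent.S0100

open scoped commutatorElement

/-- For odd p, a p-group without normal elementary abelian subgroups of order p^3 has p-rank at most 2. -/
theorem result {P : Type*} [Group P] [Finite P] {p : ℕ} [Fact p.Prime] (hp : p ≠ 2) (hP : IsPGroup p P) (h : ∀ A : Subgroup P, A.Normal → IsMulCommutative A → (∀ a ∈ A, a ^ p = 1) → Nat.card A ≠ p ^ 3) (E : Subgroup P) (hE : IsMulCommutative E) (hEe : ∀ e ∈ E, e ^ p = 1) : Nat.card E ≤ p ^ 2 := by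
  classical
  have hpp : p.Prime := Fact.out
  -- a maximal normal elementary abelian subgroup
  let S : Set (Subgroup P) :=
    {A | A.Normal ∧ (∀ a ∈ A, ∀ b ∈ A, a * b = b * a) ∧ ∀ a ∈ A, a ^ p = 1}
  have hSne : S.Nonempty := by
    refine ⟨⊥, inferInstance, ?_, ?_⟩
    · intro a ha b hb
      rw [Subgroup.mem_bot] at ha hb
      rw [ha, hb]
    · intro a ha
      rw [Subgroup.mem_bot] at ha
      rw [ha, one_pow]
  obtain ⟨A, ⟨hAn, hAc, hAe⟩, hAmax⟩ := (Set.toFinite S).exists_maximal hSne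
  have hp1 : p ^ 1 ≠ 2 := by rwa [pow_one]
  have hAlp : ∀ x ∈ Subgroup.centralizer (A : Set P), x ^ p = 1 → x ∈ A := by
    intro x hx hxp
    by_contra hxA
    obtain ⟨B, hBn, hBc, hBe, hAB, hne⟩ :=
      Cfsg.Agent.Lib.Helper3.exists_larger_normal_abelian hP 1 hp1 A hAc
        (by simpa using hAe) x hx (by simpa using hxp) hxA
    exact hne (le_antisymm (hAmax ⟨hBn, hBc, by simpa using hBe⟩ hAB) hAB)
  have hEc : ∀ a ∈ E, ∀ b ∈ E, a * b = b * a := fun a ha b hb =>
    congrArg Subtype.val (hE.is_comm.comm ⟨a, ha⟩ ⟨b, hb⟩)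
  obtain ⟨a, ha⟩ := (hP.to_subgroup A).exists_card_eq
  have ha2 : a ≤ 2 := by
    by_contra hlt
    push Not at hlt
    obtain ⟨A', hA'A, hA'n, hA'c⟩ := Cfsg.Agent.Lib.Helper3.exists_normal_le_card_eq (p := p) 3 P hP A
      hAn (by rw [ha]; exact pow_dvd_pow p hlt)
    exact h A' hA'n ⟨⟨fun x y => Subtype.ext (hAc x (hA'A x.2) y (hA'A y.2))⟩⟩
      (fun x hx => hAe x (hA'A hx)) hA'c
  -- if `E` centralizes `A` we are done
  have hdone : E ≤ Subgroup.centralizer (A : Set P) → Nat.card E ≤ p ^ 2 := by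
    intro hle
    have hEA : E ≤ A := fun x hx => hAlp x (hle hx) (hEe x hx)
    calc Nat.card E ≤ Nat.card A := Subgroup.card_le_of_le hEA
      _ = p ^ a := ha
      _ ≤ p ^ 2 := Nat.pow_le_pow_right hpp.pos ha2
  by_cases hA0 : A = ⊥
  · apply hdone
    rw [hA0]
    intro x _
    rw [Subgroup.mem_centralizer_iff]
    intro y hy
    have : y = 1 := hy
    rw [this, one_mul, mul_one]
  obtain ⟨z, hzA, hzc, hzo⟩ := Cfsg.Agent.Lib.Helper3.exists_central_order_p hP A hA0
  have hZcard : Nat.card (Subgroup.zpowers z) = p := by rw [Nat.card_zpowers, hzo]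
  have hZA : Subgroup.zpowers z ≤ A := Subgroup.zpowers_le.mpr hzA
  have hZc : Subgroup.zpowers z ≤ Subgroup.center P := Subgroup.zpowers_le.mpr hzc
  have hZn : (Subgroup.zpowers z).Normal := Cfsg.Agent.Lib.Helper3.normal_of_le_center' hZc
  by_cases hAZ : A ≤ Subgroup.zpowers z
  · apply hdone
    intro x _
    rw [Subgroup.mem_centralizer_iff]
    intro y hy
    exact (Subgroup.mem_center_iff.mp (hZc (hAZ hy)) x).symm
  obtain ⟨e, heA, heZ, _, he5⟩ := Cfsg.Agent.Lib.Helper3.central_step hP (Subgroup.zpowers z) A hAZ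
  -- `A` is generated by `z` and `e`
  have hgen : A ≤ Subgroup.zpowers z ⊔ Subgroup.zpowers e := by
    have hle : Subgroup.zpowers z ⊔ Subgroup.zpowers e ≤ A :=
      sup_le hZA (Subgroup.zpowers_le.mpr heA)
    obtain ⟨b, hb⟩ := (hP.to_subgroup (Subgroup.zpowers z ⊔ Subgroup.zpowers e)).exists_card_eq
    have hb1 : 1 < b := by
      by_contra hb1
      push Not at hb1
      have h1 : Nat.card (Subgroup.zpowers z ⊔ Subgroup.zpowers e : Subgroup P) ≤
          Nat.card (Subgroup.zpowers z) := by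
        rw [hb, hZcard]
        calc p ^ b ≤ p ^ 1 := Nat.pow_le_pow_right hpp.pos hb1
          _ = p := pow_one p
      have h2 := Subgroup.eq_of_le_of_card_ge (le_sup_left :
        Subgroup.zpowers z ≤ Subgroup.zpowers z ⊔ Subgroup.zpowers e) h1
      apply heZ
      rw [h2]
      exact Subgroup.mem_sup_right (Subgroup.mem_zpowers e)
    have h3 : Nat.card A ≤ Nat.card (Subgroup.zpowers z ⊔ Subgroup.zpowers e : Subgroup P) := by
      rw [ha, hb]
      exact Nat.pow_le_pow_right hpp.pos (by omega)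
    exact (Subgroup.eq_of_le_of_card_ge hle h3).ge
  by_cases hAE : A ≤ E
  · apply hdone
    intro x hx
    rw [Subgroup.mem_centralizer_iff]
    intro y hy
    exact hEc y (hAE hy) x hx
  -- the commutator homomorphism
  let f : E →* Subgroup.zpowers z := MonoidHom.mk' (fun g => ⟨⁅e, (g : P)⁆, he5 g⟩) (by
    intro g g'
    apply Subtype.ext
    show ⁅e, (g : P) * (g' : P)⁆ = ⁅e, (g : P)⁆ * ⁅e, (g' : P)⁆
    have hc := Subgroup.mem_center_iff.mp (hZc (he5 (g' : P))) (g : P)
    have h1 : ⁅e, (g : P) * (g' : P)⁆ = ⁅e, (g : P)⁆ * ((g : P) * ⁅e, (g' : P)⁆) * (g : P)⁻¹ := by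
      simp only [commutatorElement_def]; group
    rw [h1, hc]
    group)
  have hker : f.ker.map E.subtype ≤ A ⊓ E := by
    rintro _ ⟨g, hg, rfl⟩
    refine ⟨?_, g.2⟩
    apply hAlp _ _ (hEe _ g.2)
    have h1 : ⁅e, (g : P)⁆ = 1 := congrArg Subtype.val (MonoidHom.mem_ker.mp hg)
    rw [commutatorElement_eq_one_iff_mul_comm] at h1
    have h2 : Subgroup.zpowers z ⊔ Subgroup.zpowers e ≤ Subgroup.centralizer {(g : P)} := by
      apply sup_le
      · rw [Subgroup.zpowers_le, Subgroup.mem_centralizer_singleton_iff]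
        exact (Subgroup.mem_center_iff.mp hzc _).symm
      · rw [Subgroup.zpowers_le, Subgroup.mem_centralizer_singleton_iff]
        exact h1
    rw [Subgroup.mem_centralizer_iff]
    intro y hy
    have := h2 (hgen hy)
    rw [Subgroup.mem_centralizer_singleton_iff] at this
    exact this
  have hcardK : Nat.card f.ker ≤ p := by
    have h1 : Nat.card f.ker = Nat.card (f.ker.map E.subtype) :=
      (Subgroup.card_map_of_injective E.subtype_injective).symm
    have h2 : Nat.card (f.ker.map E.subtype) ≤ Nat.card (A ⊓ E : Subgroup P) :=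
      Subgroup.card_le_of_le hker
    obtain ⟨b, hb⟩ := (hP.to_subgroup (A ⊓ E)).exists_card_eq
    have hb1 : b ≤ 1 := by
      by_contra hb1
      push Not at hb1
      have h3 : Nat.card A ≤ Nat.card (A ⊓ E : Subgroup P) := by
        rw [ha, hb]
        exact Nat.pow_le_pow_right hpp.pos (by omega)
      have h4 := Subgroup.eq_of_le_of_card_ge (inf_le_left : A ⊓ E ≤ A) h3
      exact hAE (h4 ▸ inf_le_right)
    calc Nat.card f.ker ≤ p ^ b := by rw [h1, ← hb]; exact h2
      _ ≤ p ^ 1 := Nat.pow_le_pow_right hpp.pos hb1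
      _ = p := pow_one p
  have hidx : f.ker.index ≤ p := by
    rw [Subgroup.index_ker, ← hZcard]
    exact Subgroup.card_le_card_group _
  calc Nat.card E = Nat.card f.ker * f.ker.index := (Subgroup.card_mul_index _).symm
    _ ≤ p * p := Nat.mul_le_mul hcardK hidx
    _ = p ^ 2 := (sq p).symm

end Cfsg.Agent.S0100
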