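import Cfsg.Statements.S1453
import Cfsg.Agent.Lib.Helper3.RankThree
import Cfsg.Agent.S0100

set_option autoImplicit false
open Cfsg

namespace Cfsg.Agent.S1453

open scoped commutatorElement

/-- Let p be an odd prime and R a finite p-group with an elementary abelian subgroup of order p ^ 3 and an elementary abelian subgroup E of order p ^ 2 contained in no larger elementary abelian subgroup. Let Z₂ be the second centre of R, W the subgroup generated by the elements of Z₂ of order dividing p, and T = C_R(W). Then E is not contained in T; the elements of order dividing p of the centre of R generate a group of order p; W is elementary abelian of order p ^ 2; and T is characteristic in R of index p. -/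
theorem result {R : Type*} [Group R] [Finite R] (p : ℕ) [Fact p.Prime] (hp : p ≠ 2) (hR : IsPGroup p R) (hr : ¬ Cfsg.PRankLE p 2 R)
    (E : Subgroup R) (hE : Cfsg.IsElementaryAbelian p E) (hE2 : Nat.card E = p ^ 2)
    (hEmax : ∀ B : Subgroup R, Cfsg.IsElementaryAbelian p B → E ≤ B → B = E) :
    ¬ E ≤ Subgroup.centralizer ((Subgroup.closure {x : R | x ∈ Subgroup.upperCentralSeries R 2 ∧ x ^ p = 1} : Subgroup R) : Set R) ∧
      Nat.card ↥(Subgroup.closure {x : R | x ∈ Subgroup.center R ∧ x ^ p = 1}) = p ∧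
      (Cfsg.IsElementaryAbelian p (Subgroup.closure {x : R | x ∈ Subgroup.upperCentralSeries R 2 ∧ x ^ p = 1}) ∧
        Nat.card ↥(Subgroup.closure {x : R | x ∈ Subgroup.upperCentralSeries R 2 ∧ x ^ p = 1}) = p ^ 2) ∧
      (Subgroup.centralizer ((Subgroup.closure {x : R | x ∈ Subgroup.upperCentralSeries R 2 ∧ x ^ p = 1} : Subgroup R) : Set R)).Characteristic ∧
      (Subgroup.centralizer ((Subgroup.closure {x : R | x ∈ Subgroup.upperCentralSeries R 2 ∧ x ^ p = 1} : Subgroup R) : Set R)).index = p := by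
  have hpp : p.Prime := Fact.out
  have hEc' : ∀ a ∈ E, ∀ b ∈ E, a * b = b * a := fun a ha b hb =>
    congrArg Subtype.val (hE.1.is_comm.comm ⟨a, ha⟩ ⟨b, hb⟩)
  -- maximality of `E`, elementwise
  have hmem : ∀ w : R, (∀ a ∈ E, a * w = w * a) → w ^ p = 1 → w ∈ E := by
    intro w hw hwp
    have hc := Cfsg.Agent.Lib.Helper3.sup_comm_of_comm E (Subgroup.zpowers w) hEc'
      (by
        rintro a ⟨i, rfl⟩ b ⟨j, rfl⟩
        exact (Commute.refl w).zpow_zpow i j)
      (by
        rintro a ha b ⟨j, rfl⟩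
        exact (show Commute a w from hw a ha).zpow_right j)
    have he := Cfsg.Agent.Lib.Helper3.sup_pow_of_comm E (Subgroup.zpowers w) p hE.2
      (by
        rintro a ⟨i, rfl⟩
        show (w ^ i) ^ p = 1
        rw [← zpow_natCast, ← zpow_mul, mul_comm, zpow_mul, zpow_natCast, hwp, one_zpow]) hc
    have h1 := hEmax (E ⊔ Subgroup.zpowers w)
      ⟨⟨⟨fun a b => Subtype.ext (hc a a.2 b b.2)⟩⟩, he⟩ le_sup_left
    rw [← h1]
    exact Subgroup.mem_sup_right (Subgroup.mem_zpowers w)
  set Z : Subgroup R := Subgroup.closure {x : R | x ∈ Subgroup.center R ∧ x ^ p = 1} with hZdef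
  set W : Subgroup R :=
    Subgroup.closure {x : R | x ∈ Subgroup.upperCentralSeries R 2 ∧ x ^ p = 1} with hWdef
  have hZ : ∀ z ∈ Z, z ∈ Subgroup.center R ∧ z ^ p = 1 := by
    intro z hz
    induction hz using Subgroup.closure_induction with
    | mem x hx => exact hx
    | one => exact ⟨Subgroup.one_mem _, one_pow _⟩
    | mul x y _ _ hx hy =>
      refine ⟨Subgroup.mul_mem _ hx.1 hy.1, ?_⟩
      have : Commute x y := Subgroup.mem_center_iff.mp hy.1 x
      rw [this.mul_pow, hx.2, hy.2, one_mul]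
    | inv x _ hx => exact ⟨Subgroup.inv_mem _ hx.1, by rw [inv_pow, hx.2, inv_one]⟩
  have hZc : Z ≤ Subgroup.center R := fun z hz => (hZ z hz).1
  have hZn : Z.Normal := Cfsg.Agent.Lib.Helper3.normal_of_le_center' hZc
  have hZE : Z ≤ E := fun z hz =>
    hmem z (fun a _ => Subgroup.mem_center_iff.mp (hZ z hz).1 a) (hZ z hz).2
  -- large elementary abelian subgroups
  have hA0 : ∃ A0 : Subgroup R, IsMulCommutative A0 ∧ (∀ a ∈ A0, a ^ p = 1) ∧
      p ^ 2 < Nat.card A0 := by
    by_contra hno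
    apply hr
    intro A hAc hAe
    by_contra hlt
    exact hno ⟨A, hAc, hAe, by omega⟩
  obtain ⟨A0, hA0c, hA0e, hA0card⟩ := hA0
  have hZneE : Z ≠ E := by
    intro h
    have h1 : A0 ≤ E := by
      intro b hb
      apply hmem b _ (hA0e b hb)
      intro a ha
      exact (Subgroup.mem_center_iff.mp (hZc (h ▸ ha)) b).symm
    have := Subgroup.card_le_of_le h1
    omega
  have htop : (⊤ : Subgroup R) ≠ ⊥ := by
    intro h
    have h1 : E ≤ ⊥ := h ▸ le_top
    have h2 := Subgroup.card_le_of_le h1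
    rw [Subgroup.card_bot, hE2] at h2
    have : 2 ^ 2 ≤ p ^ 2 := Nat.pow_le_pow_left hpp.two_le 2
    omega
  obtain ⟨z0, _, hz0c, hz0o⟩ := Cfsg.Agent.Lib.Helper3.exists_central_order_p hR ⊤ htop
  have hz0Z : z0 ∈ Z := Subgroup.subset_closure ⟨hz0c, by rw [← hz0o]; exact pow_orderOf_eq_one z0⟩
  have hZcard : Nat.card Z = p := by
    obtain ⟨k, hk⟩ := (hR.to_subgroup Z).exists_card_eq
    have hk0 : k ≠ 0 := by
      intro h0
      rw [h0, pow_zero, Subgroup.card_eq_one] at hk
      rw [hk, Subgroup.mem_bot] at hz0Z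
      rw [hz0Z, orderOf_one] at hz0o
      exact hpp.one_lt.ne hz0o
    have hk2 : k < 2 := by
      by_contra hge
      push Not at hge
      apply hZneE
      apply Subgroup.eq_of_le_of_card_ge hZE
      rw [hE2, hk]
      exact Nat.pow_le_pow_right hpp.pos hge
    have : k = 1 := by omega
    rw [hk, this, pow_one]
  have hZ2 : ∀ x : R, x ∈ Subgroup.upperCentralSeries R 2 ↔ ∀ g : R, ⁅x, g⁆ ∈ Subgroup.center R := by
    intro x
    rw [Subgroup.mem_upperCentralSeries_succ_iff, Subgroup.upperCentralSeries_one]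
  have hW : ∀ w ∈ W, w ∈ Subgroup.upperCentralSeries R 2 ∧ w ^ p = 1 := by
    intro w hw
    induction hw using Subgroup.closure_induction with
    | mem x hx => exact hx
    | one => exact ⟨Subgroup.one_mem _, one_pow _⟩
    | mul x y _ _ hx hy =>
      refine ⟨Subgroup.mul_mem _ hx.1 hy.1, ?_⟩
      have hc : ⁅y⁻¹, x⁻¹⁆ ∈ Subgroup.center R := (hZ2 _).mp (Subgroup.inv_mem _ hy.1) _
      have hyx := Cfsg.Agent.Lib.Helper3.mul_eq_mul_mul_commutator x y
      have hcx : Commute ⁅y⁻¹, x⁻¹⁆ x := (Subgroup.mem_center_iff.mp hc x).symm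
      have hcy : Commute ⁅y⁻¹, x⁻¹⁆ y := (Subgroup.mem_center_iff.mp hc y).symm
      have hcp : ⁅y⁻¹, x⁻¹⁆ ^ p = 1 := by
        have h6 := Cfsg.Agent.Lib.Helper3.pow_mul_comm_of_central hyx hcy p
        rw [hy.2, one_mul, mul_one] at h6
        exact mul_eq_left.mp h6.symm
      obtain ⟨k, hk⟩ := hpp.dvd_choose_self (by norm_num : (2 : ℕ) ≠ 0)
        (lt_of_le_of_ne hpp.two_le (Ne.symm hp))
      rw [Cfsg.Agent.Lib.Helper3.mul_pow_of_central hyx hcx hcy, hx.2, hy.2, hk, pow_mul, hcp]
      simp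
    | inv x _ hx => exact ⟨Subgroup.inv_mem _ hx.1, by rw [inv_pow, hx.2, inv_one]⟩
  have hWZ : ∀ w ∈ W, ∀ g : R, ⁅w, g⁆ ∈ Z := by
    intro w hw g
    have hc : ⁅w, g⁆ ∈ Subgroup.center R := (hZ2 _).mp (hW w hw).1 g
    apply Subgroup.subset_closure
    refine ⟨hc, ?_⟩
    have hyx : w * g = g * w * ⁅w, g⁆ := by
      rw [Subgroup.mem_center_iff.mp hc (g * w), commutatorElement_def]; group
    have h6 := Cfsg.Agent.Lib.Helper3.pow_mul_comm_of_central hyx
      (Subgroup.mem_center_iff.mp hc w).symm p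
    rw [(hW w hw).2, one_mul, mul_one] at h6
    exact mul_eq_left.mp h6.symm
  have hZW : Z ≤ W := by
    intro z hz
    apply Subgroup.subset_closure
    refine ⟨(hZ2 z).mpr ?_, (hZ z hz).2⟩
    intro g
    rw [commutatorElement_eq_one_iff_mul_comm.mpr (Subgroup.mem_center_iff.mp (hZ z hz).1 g).symm]
    exact Subgroup.one_mem _
  -- a normal elementary abelian subgroup of order `p ^ 3`
  have hB : ∃ B : Subgroup R, B.Normal ∧ IsMulCommutative B ∧ (∀ a ∈ B, a ^ p = 1) ∧
      Nat.card B = p ^ 3 := by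
    by_contra hno
    apply hr
    intro E' hE'c hE'e
    refine Cfsg.Agent.S0100.result hp hR ?_ E' hE'c hE'e
    intro A hAn hAc hAe hcard
    exact hno ⟨A, hAn, hAc, hAe, hcard⟩
  obtain ⟨B, hBn, hBc, hBe, hBcard⟩ := hB
  have hBc' : ∀ a ∈ B, ∀ b ∈ B, a * b = b * a := fun a ha b hb =>
    congrArg Subtype.val (hBc.is_comm.comm ⟨a, ha⟩ ⟨b, hb⟩)
  have hBZ : ¬ B ≤ Z := by
    intro h
    have h1 := Subgroup.card_le_of_le h
    rw [hBcard, hZcard] at h1
    have h2 : p ^ 1 < p ^ 3 := Nat.pow_lt_pow_right hpp.one_lt (by norm_num)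
    rw [pow_one] at h2
    omega
  obtain ⟨e, heB, heZ, _, he5⟩ := Cfsg.Agent.Lib.Helper3.central_step hR Z B hBZ
  have heW : e ∈ W := Subgroup.subset_closure ⟨(hZ2 e).mpr fun g => hZc (he5 g), hBe e heB⟩
  -- `E = Z ⟨x⟩`
  obtain ⟨x, hxE, hxZ⟩ := SetLike.exists_of_lt (lt_of_le_of_ne hZE hZneE)
  have hgen : E ≤ Z ⊔ Subgroup.zpowers x := by
    have hle : Z ⊔ Subgroup.zpowers x ≤ E := sup_le hZE (Subgroup.zpowers_le.mpr hxE)
    obtain ⟨b, hb⟩ := (hR.to_subgroup (Z ⊔ Subgroup.zpowers x)).exists_card_eq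
    have hb1 : 1 < b := by
      by_contra hb1
      push Not at hb1
      have h1 : Nat.card (Z ⊔ Subgroup.zpowers x : Subgroup R) ≤ Nat.card Z := by
        rw [hb, hZcard]
        calc p ^ b ≤ p ^ 1 := Nat.pow_le_pow_right hpp.pos hb1
          _ = p := pow_one p
      have h2 := Subgroup.eq_of_le_of_card_ge (le_sup_left : Z ≤ Z ⊔ Subgroup.zpowers x) h1
      apply hxZ
      rw [h2]
      exact Subgroup.mem_sup_right (Subgroup.mem_zpowers x)
    have h3 : Nat.card E ≤ Nat.card (Z ⊔ Subgroup.zpowers x : Subgroup R) := by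
      rw [hE2, hb]
      exact Nat.pow_le_pow_right hpp.pos (by omega)
    exact (Subgroup.eq_of_le_of_card_ge hle h3).ge
  -- `E` is not contained in `W`
  have hEW : ¬ E ≤ W := by
    intro hle
    have hEn : E.Normal := by
      constructor
      intro a ha g
      have h1 : g * a * g⁻¹ = ⁅a, g⁆⁻¹ * a := by
        rw [commutatorElement_def]; group
      rw [h1]
      exact E.mul_mem (E.inv_mem (hZE (hWZ a (hle ha) g))) ha
    have hidx := Cfsg.Agent.Lib.Helper3.index_centralizer_le hR E hE2.le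
    have h1 := Cfsg.Agent.Lib.Helper3.card_le_index_mul_card_inf B
      (Subgroup.centralizer (E : Set R))
    rw [hBcard] at h1
    have h2 : p ^ 3 ≤ p * Nat.card (B ⊓ Subgroup.centralizer (E : Set R) : Subgroup R) :=
      h1.trans (Nat.mul_le_mul_right _ hidx)
    have h3 : p ^ 2 ≤ Nat.card (B ⊓ Subgroup.centralizer (E : Set R) : Subgroup R) := by
      have h3 : p * p ^ 2 ≤ p * Nat.card (B ⊓ Subgroup.centralizer (E : Set R) : Subgroup R) := by
        calc p * p ^ 2 = p ^ 3 := by ring
          _ ≤ _ := h2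
      exact Nat.le_of_mul_le_mul_left h3 hpp.pos
    have h4 : B ⊓ Subgroup.centralizer (E : Set R) ≤ E := by
      intro b hb
      exact hmem b (fun a ha => Subgroup.mem_centralizer_iff.mp hb.2 a ha) (hBe b hb.1)
    have h5 : B ⊓ Subgroup.centralizer (E : Set R) = E :=
      Subgroup.eq_of_le_of_card_ge h4 (by rw [hE2]; exact h3)
    have h6 : E ≤ B := by rw [← h5]; exact inf_le_left
    have h7 : B ≤ E := fun b hb => hmem b (fun a ha => hBc' a (h6 ha) b hb) (hBe b hb)
    have h8 := Subgroup.card_le_of_le h7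
    rw [hBcard, hE2] at h8
    have h9 : p ^ 2 < p ^ 3 := Nat.pow_lt_pow_right hpp.one_lt (by norm_num)
    omega
  -- the commutator homomorphism `W → Z`
  let f : W →* Z := MonoidHom.mk' (fun w => ⟨⁅(w : R), x⁆, hWZ w w.2 x⟩) (by
    intro w w'
    apply Subtype.ext
    show ⁅(w : R) * (w' : R), x⁆ = ⁅(w : R), x⁆ * ⁅(w' : R), x⁆
    have hc := Subgroup.mem_center_iff.mp (hZc (hWZ w' w'.2 x))
    have h1 : ⁅(w : R) * (w' : R), x⁆ = ((w : R) * ⁅(w' : R), x⁆) * (w : R)⁻¹ * ⁅(w : R), x⁆ := by
      simp only [commutatorElement_def]; group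
    rw [h1, hc (w : R), mul_assoc, mul_assoc, mul_inv_cancel_left]
    rw [hc])
  have hker : f.ker.map W.subtype ≤ E ⊓ W := by
    rintro _ ⟨w, hw, rfl⟩
    refine ⟨?_, w.2⟩
    apply hmem _ _ (hW _ w.2).2
    have h1 : ⁅(w : R), x⁆ = 1 := congrArg Subtype.val (MonoidHom.mem_ker.mp hw)
    rw [commutatorElement_eq_one_iff_mul_comm] at h1
    have h2 : Z ⊔ Subgroup.zpowers x ≤ Subgroup.centralizer {(w : R)} := by
      apply sup_le
      · intro z hz
        rw [Subgroup.mem_centralizer_singleton_iff]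
        exact (Subgroup.mem_center_iff.mp (hZc hz) _).symm
      · rw [Subgroup.zpowers_le, Subgroup.mem_centralizer_singleton_iff]
        exact h1.symm
    intro a ha
    have := h2 (hgen ha)
    rw [Subgroup.mem_centralizer_singleton_iff] at this
    exact this
  have hcardK : Nat.card f.ker ≤ p := by
    have h1 : Nat.card f.ker = Nat.card (f.ker.map W.subtype) :=
      (Subgroup.card_map_of_injective W.subtype_injective).symm
    have h2 : Nat.card (f.ker.map W.subtype) ≤ Nat.card (E ⊓ W : Subgroup R) :=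
      Subgroup.card_le_of_le hker
    obtain ⟨b, hb⟩ := (hR.to_subgroup (E ⊓ W)).exists_card_eq
    have hb1 : b ≤ 1 := by
      by_contra hb1
      push Not at hb1
      have h3 : Nat.card E ≤ Nat.card (E ⊓ W : Subgroup R) := by
        rw [hE2, hb]
        exact Nat.pow_le_pow_right hpp.pos (by omega)
      have h4 := Subgroup.eq_of_le_of_card_ge (inf_le_left : E ⊓ W ≤ E) h3
      exact hEW (h4 ▸ inf_le_right)
    calc Nat.card f.ker ≤ p ^ b := by rw [h1, ← hb]; exact h2
      _ ≤ p ^ 1 := Nat.pow_le_pow_right hpp.pos hb1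
      _ = p := pow_one p
  have hidxK : f.ker.index ≤ p := by
    rw [Subgroup.index_ker, ← hZcard]
    exact Subgroup.card_le_card_group _
  have hWle : Nat.card W ≤ p ^ 2 :=
    calc Nat.card W = Nat.card f.ker * f.ker.index := (Subgroup.card_mul_index _).symm
      _ ≤ p * p := Nat.mul_le_mul hcardK hidxK
      _ = p ^ 2 := (sq p).symm
  have hWcard : Nat.card W = p ^ 2 := by
    obtain ⟨c, hc⟩ := (hR.to_subgroup W).exists_card_eq
    have hc1 : 1 < c := by
      by_contra hc1
      push Not at hc1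
      have h1 : Nat.card W ≤ Nat.card Z := by
        rw [hc, hZcard]
        calc p ^ c ≤ p ^ 1 := Nat.pow_le_pow_right hpp.pos hc1
          _ = p := pow_one p
      have h2 := Subgroup.eq_of_le_of_card_ge hZW h1
      exact heZ (h2 ▸ heW)
    have hc2 : c ≤ 2 := by
      rw [hc] at hWle
      exact (Nat.pow_le_pow_iff_right hpp.one_lt).mp hWle
    have : c = 2 := by omega
    rw [hc, this]
  have hWchar : W.Characteristic := by
    rw [Subgroup.characteristic_iff_le_comap]
    intro φ
    rw [hWdef, Subgroup.closure_le]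
    intro y hy
    apply Subgroup.subset_closure
    refine ⟨?_, ?_⟩
    · have h1 := (inferInstance : (Subgroup.upperCentralSeries R 2).Characteristic)
      have h2 := Subgroup.characteristic_iff_le_comap.mp h1 φ
      exact h2 hy.1
    · show (φ y) ^ p = 1
      rw [← map_pow, hy.2, map_one]
  have hWn : W.Normal := inferInstance
  have hTidx : (Subgroup.centralizer (W : Set R)).index = p := by
    have h1 := Cfsg.Agent.Lib.Helper3.index_centralizer_le hR W hWcard.le
    obtain ⟨k, hk⟩ := (hR.to_quotient (Subgroup.centralizer (W : Set R))).exists_card_eq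
    have hk' : (Subgroup.centralizer (W : Set R)).index = p ^ k := hk
    have hk0 : k ≠ 0 := by
      intro h0
      rw [h0, pow_zero, Subgroup.index_eq_one] at hk'
      -- then `W` is central
      apply heZ
      apply Subgroup.subset_closure
      refine ⟨?_, hBe e heB⟩
      rw [Subgroup.mem_center_iff]
      intro g
      have hg : g ∈ Subgroup.centralizer (W : Set R) := hk' ▸ Subgroup.mem_top g
      exact (Subgroup.mem_centralizer_iff.mp hg e heW).symm
    have hk1 : k ≤ 1 := by
      rw [hk'] at h1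
      by_contra hlt
      push Not at hlt
      have : p ^ 2 ≤ p ^ k := Nat.pow_le_pow_right hpp.pos hlt
      have h2 : p < p ^ 2 := by
        calc p = p ^ 1 := (pow_one p).symm
          _ < p ^ 2 := Nat.pow_lt_pow_right hpp.one_lt (by norm_num)
      omega
    have : k = 1 := by omega
    rw [hk', this, pow_one]
  refine ⟨?_, hZcard, ⟨⟨IsPGroup.isMulCommutative_of_card_eq_prime_sq hWcard,
    fun w hw => (hW w hw).2⟩, hWcard⟩, inferInstance, hTidx⟩
  intro hET
  have h1 : W ≤ E := by
    intro w hw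
    apply hmem w _ (hW w hw).2
    intro a ha
    exact (Subgroup.mem_centralizer_iff.mp (hET ha) w hw).symm
  have h2 : W = E := Subgroup.eq_of_le_of_card_ge h1 (by rw [hE2, hWcard])
  exact hEW h2.ge

end Cfsg.Agent.S1453
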