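import Cfsg.Statements.S5553
import Cfsg.Agent.Lib.Helper9.GolayFacts
import Cfsg.Agent.Lib.Helper9.Leech2

set_option autoImplicit false
open Cfsg

namespace Cfsg.Agent.S5553

open Cfsg.Agent.Lib.Helper9 Cfsg.Agent.Lib.Helper10

def Asub : AddSubgroup (GolayPt → ℤ) where
  carrier := {x | ∃ (c : ℤ) (y : GolayPt → ℤ), (∀ i, x i = 2 * c + 4 * y i) ∧ (8 : ℤ) ∣ ∑ i, x i}
  zero_mem' := ⟨0, 0, by simp, by simp⟩
  add_mem' := by
    rintro a b ⟨c, y, h1, h2⟩ ⟨c', y', h1', h2'⟩
    refine ⟨c + c', y + y', fun i => ?_, ?_⟩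
    · simp only [Pi.add_apply, h1 i, h1' i]; ring
    · simp only [Pi.add_apply, Finset.sum_add_distrib]; exact dvd_add h2 h2'
  neg_mem' := by
    rintro a ⟨c, y, h1, h2⟩
    refine ⟨-c, -y, fun i => ?_, ?_⟩
    · simp only [Pi.neg_apply, h1 i]; ring
    · simp only [Pi.neg_apply, Finset.sum_neg_distrib]; exact (dvd_neg).2 h2

theorem mem_Asub (x : GolayPt → ℤ) : x ∈ Asub ↔
    ∃ (c : ℤ) (y : GolayPt → ℤ), (∀ i, x i = 2 * c + 4 * y i) ∧ (8 : ℤ) ∣ ∑ i, x i := Iff.rfl

theorem const_mem_golay (c : ZMod 2) : (fun _ => c : GolayPt → ZMod 2) ∈ golayCode := by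
  have : (fun _ => c : GolayPt → ZMod 2) = c • (1 : GolayPt → ZMod 2) := by
    funext i; simp
  rw [this]
  exact golayCode.smul_mem c one_mem_golay

theorem Asub_le : Asub ≤ leechLattice := by
  rintro x ⟨c, y, h1, h2⟩
  rw [mem_leechLattice_iff_mem_leechSet, mem_leechSet_iff]
  refine ⟨0, fun i => c + 2 * y i, fun i => by rw [h1 i]; ring, ?_, ?_⟩
  · rw [mul_zero]; exact (Int.modEq_zero_iff_dvd).2 h2
  · have : red2 (fun i => c + 2 * y i) = fun _ => (c : ZMod 2) := by
      funext i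
      simp only [red2]
      push_cast
      have : (2 : ZMod 2) = 0 := by decide
      rw [this]; ring
    rw [this]
    exact const_mem_golay _

theorem two_smul_mem (v : GolayPt → ℤ) (hv : v ∈ leechLattice) : (2 : ℤ) • v ∈ Asub := by
  rw [mem_leechLattice_iff_mem_leechSet, mem_leechSet_iff] at hv
  obtain ⟨m, z, h1, h2, -⟩ := hv
  refine ⟨m, z, fun i => ?_, ?_⟩
  · simp only [Pi.smul_apply, smul_eq_mul, h1 i]; ring
  · simp only [Pi.smul_apply, smul_eq_mul, ← Finset.mul_sum]
    have h3 := (Int.modEq_iff_dvd).1 h2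
    obtain ⟨t, ht⟩ := h3
    have : ∑ i, v i = 4 * m - 8 * t := by linarith
    rw [this]
    exact ⟨m - 2 * t, by ring⟩

theorem sum_sq_even (y : GolayPt → ℤ) : (2 : ℤ) ∣ ∑ i, y i ^ 2 - ∑ i, y i := by
  rw [← Finset.sum_sub_distrib]
  apply Finset.dvd_sum
  intro i _
  have : y i ^ 2 - y i = y i * (y i - 1) := by ring
  rw [this]
  exact even_iff_two_dvd.1 (Int.even_mul_pred_self (y i))

theorem norm_dvd (v : GolayPt → ℤ) (hv : v ∈ Asub) : (32 : ℤ) ∣ sqNorm v := by
  obtain ⟨c, y, h1, h2⟩ := hv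
  have hs : ∑ i, v i = 48 * c + 4 * ∑ i, y i := by
    simp only [h1, Finset.sum_add_distrib, Finset.sum_const, Finset.card_univ, card_golayPt, ← Finset.mul_sum]
    simp; ring
  have hn : sqNorm v = 96 * c ^ 2 + 16 * c * ∑ i, y i + 16 * ∑ i, y i ^ 2 := by
    unfold sqNorm
    have : ∀ i, v i ^ 2 = 4 * c ^ 2 + 16 * c * y i + 16 * y i ^ 2 := by
      intro i; rw [h1 i]; ring
    simp only [this, Finset.sum_add_distrib, Finset.sum_const, Finset.card_univ, card_golayPt, ← Finset.mul_sum]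
    simp; ring
  rw [hs] at h2
  obtain ⟨t, ht⟩ := h2
  obtain ⟨r, hr⟩ := sum_sq_even y
  have hy : ∑ i, y i = 2 * (t - 6 * c) := by linarith
  have hy2 : ∑ i, y i ^ 2 = 2 * r + 2 * (t - 6 * c) := by linarith
  rw [hn, hy2, hy]
  exact ⟨3 * c ^ 2 + c * (t - 6 * c) + r + (t - 6 * c), by ring⟩

def hfun (x : GolayPt → ℤ) : GolayPt → ZMod 2 :=
  fun i => (((x i - x none) / 2 : ℤ) : ZMod 2) + ((x none : ℤ) : ZMod 2)

theorem hfun_of_form (x z : GolayPt → ℤ) (m : ℤ) (h1 : ∀ i, x i = m + 2 * z i) :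
    hfun x = red2 z + fun _ => ((z none + m : ℤ) : ZMod 2) := by
  funext i
  have h2 : (x i - x none) / 2 = z i - z none := by
    rw [h1 i, h1 none]
    have : m + 2 * z i - (m + 2 * z none) = 2 * (z i - z none) := by ring
    rw [this, Int.mul_ediv_cancel_left _ (by norm_num)]
  simp only [hfun, Pi.add_apply, red2]
  rw [h2, h1 none, ← Int.cast_add, ← Int.cast_add]
  congr 1
  ring

theorem form_of_mem (x : GolayPt → ℤ) (hx : x ∈ leechLattice) :
    ∃ (m : ℤ) (z : GolayPt → ℤ), (∀ i, x i = m + 2 * z i) ∧ (∑ i, x i ≡ 4 * m [ZMOD 8]) ∧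
      red2 z ∈ golayCode := by
  rwa [mem_leechLattice_iff_mem_leechSet, mem_leechSet_iff] at hx

def fhom : ↥leechLattice →+ (GolayPt → ZMod 2) where
  toFun x := hfun x.1
  map_zero' := by
    funext i; simp [hfun]
  map_add' := by
    intro x y
    obtain ⟨m, z, h1, -, -⟩ := form_of_mem x.1 x.2
    obtain ⟨m', z', h1', -, -⟩ := form_of_mem y.1 y.2
    have h3 : ∀ i, (x + y).1 i = (m + m') + 2 * (z + z') i := by
      intro i
      show x.1 i + y.1 i = _
      rw [h1 i, h1' i, Pi.add_apply]; ring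
    rw [hfun_of_form _ _ _ h3, hfun_of_form _ _ _ h1, hfun_of_form _ _ _ h1', red2_add]
    funext i
    simp only [Pi.add_apply]
    push_cast
    ring

theorem fhom_apply (x : ↥leechLattice) : fhom x = hfun x.1 := rfl

theorem fhom_mem (x : ↥leechLattice) : fhom x ∈ golayCode := by
  obtain ⟨m, z, h1, -, h3⟩ := form_of_mem x.1 x.2
  rw [fhom_apply, hfun_of_form _ _ _ h1]
  exact golayCode.add_mem h3 (const_mem_golay _)

theorem val_eq_ite : ∀ a : ZMod 2, ((a.val : ℕ) : ℤ) = if a ≠ 0 then 1 else 0 := by decide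

theorem cast_val : ∀ a : ZMod 2, (((a.val : ℕ) : ℤ) : ZMod 2) = a := by decide

theorem fhom_surj (c : GolayPt → ZMod 2) (hc : c ∈ golayCode) : ∃ x : ↥leechLattice, fhom x = c := by
  obtain ⟨e, he⟩ : ∃ e : ℤ, e = ((c none).val : ℕ) := ⟨_, rfl⟩
  obtain ⟨c', hc'⟩ : ∃ c' : GolayPt → ZMod 2, c' = c + fun _ => c none := ⟨_, rfl⟩
  have hc'mem : c' ∈ golayCode := by rw [hc']; exact golayCode.add_mem hc (const_mem_golay _)
  obtain ⟨zz, hzz⟩ : ∃ zz : GolayPt → ℤ, zz = fun i => (((c' i).val : ℕ) : ℤ) + if i = some 0 then 2 * e else 0 :=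
    ⟨_, rfl⟩
  have hred : red2 zz = c' := by
    funext i
    simp only [red2, hzz]
    push_cast
    rw [ZMod.natCast_zmod_val]
    split_ifs
    · have : (2 : ZMod 2) = 0 := by decide
      rw [this]; ring
    · ring
  have hsum : ∑ i, zz i = ((support₂ c').card : ℤ) + 2 * e := by
    rw [hzz, Finset.sum_add_distrib, Finset.sum_ite_eq' Finset.univ (some 0 : GolayPt) (fun _ => 2 * e)]
    simp only [val_eq_ite, Finset.mem_univ, if_true]
    rw [support₂, Finset.card_filter]
    push_cast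
    rfl
  obtain ⟨q, hq⟩ := golay_doubly_even_word c' hc'mem
  have hx : (fun i => e + 2 * zz i) ∈ leechLattice := by
    rw [mem_leechLattice_iff_mem_leechSet, mem_leechSet_iff]
    refine ⟨e, zz, fun i => rfl, ?_, by rw [hred]; exact hc'mem⟩
    rw [Finset.sum_add_distrib, ← Finset.mul_sum, hsum, hq, Finset.sum_const, Finset.card_univ, card_golayPt]
    apply (Int.modEq_iff_dvd).2
    refine ⟨-(3 * e + q), ?_⟩
    push_cast
    simp only [nsmul_eq_mul]
    push_cast
    ring
  refine ⟨⟨_, hx⟩, ?_⟩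
  rw [fhom_apply, hfun_of_form _ zz e (fun i => rfl), hred, hc']
  funext i
  have h0 : zz none = 0 := by
    rw [hzz]
    have : c' none = 0 := by
      rw [hc']; simp only [Pi.add_apply]; exact CharTwo.add_self_eq_zero _
    simp [this]
  simp only [Pi.add_apply, h0, zero_add, he, cast_val]
  rw [add_assoc, CharTwo.add_self_eq_zero, add_zero]

theorem ker_eq : Asub.addSubgroupOf leechLattice = fhom.ker := by
  ext x
  rw [AddSubgroup.mem_addSubgroupOf, AddMonoidHom.mem_ker, fhom_apply]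
  constructor
  · rintro ⟨c, y, h1, -⟩
    have h2 : ∀ i, x.1 i = 0 + 2 * (c + 2 * y i) := by intro i; rw [h1 i]; ring
    rw [hfun_of_form _ _ _ h2]
    funext i
    simp only [Pi.add_apply, red2, Pi.zero_apply]
    rw [← Int.cast_add]
    rw [ZMod.intCast_zmod_eq_zero_iff_dvd]
    exact ⟨c + y i + y none, by push_cast; ring⟩
  · intro h
    obtain ⟨m, z, h1, h2, -⟩ := form_of_mem x.1 x.2
    rw [hfun_of_form _ _ _ h1] at h
    have hi : ∀ i, (2 : ℤ) ∣ z i + (z none + m) := by
      intro i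
      have := congrFun h i
      simp only [Pi.add_apply, red2, Pi.zero_apply] at this
      rw [← Int.cast_add, ZMod.intCast_zmod_eq_zero_iff_dvd] at this
      exact_mod_cast this
    obtain ⟨a, ha⟩ := hi none
    choose b hb using hi
    have hm : m = 2 * (a - z none) := by linarith
    refine ⟨a, fun i => b i - a, fun i => ?_, ?_⟩
    · rw [h1 i]
      have := hb i
      have hz : z i = 2 * b i - z none - m := by linarith
      rw [hz, hm]; ring
    · have h3 := (Int.modEq_iff_dvd).1 h2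
      obtain ⟨t, ht⟩ := h3
      have : ∑ i, x.1 i = 4 * m - 8 * t := by linarith
      rw [this, hm]
      exact ⟨a - z none - t, by ring⟩

theorem index_eq : (Asub.addSubgroupOf leechLattice).index = 2 ^ 12 := by
  rw [ker_eq, AddSubgroup.index_ker]
  have : (fhom.range : Set (GolayPt → ZMod 2)) = (golayCode : Set (GolayPt → ZMod 2)) := by
    ext c
    constructor
    · rintro ⟨x, rfl⟩; exact fhom_mem x
    · intro hc; exact fhom_surj c hc
  have h2 : Nat.card fhom.range = Nat.card golayCode :=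
    Nat.card_congr (Equiv.setCongr this)
  rw [h2, card_golayCode]
  norm_num

/-- The Leech lattice of the definitions has an additive subgroup A containing twice the lattice, of index 2^12 in the lattice, all of whose vectors have squared length divisible by 32: the invariant quadratic form 'squared length over 16 modulo 2' on the lattice modulo twice the lattice (a 24-dimensional space over the field with two elements) vanishes on a 12-dimensional subspace, so it is of plus type. -/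
theorem result : ∃ A : AddSubgroup (Cfsg.GolayPt → ℤ), A ≤ Cfsg.leechLattice ∧ (∀ v ∈ Cfsg.leechLattice, (2 : ℤ) • v ∈ A) ∧ (A.addSubgroupOf Cfsg.leechLattice).index = 2 ^ 12 ∧ ∀ v ∈ A, (32 : ℤ) ∣ Cfsg.sqNorm v := by
  exact ⟨Asub, Asub_le, two_smul_mem, index_eq, norm_dvd⟩

end Cfsg.Agent.S5553
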