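import Cfsg.Statements.S5552
import Cfsg.Agent.Lib.Helper11.LeechTrans8
import Cfsg.Agent.Lib.Helper11.LeechCross
import Cfsg.Agent.S0400
import Cfsg.Agent.S0401

set_option autoImplicit false
open Cfsg

namespace Cfsg.Agent.S5552

open Cfsg.Agent.Lib.Helper11 Cfsg.Agent.Lib.Helper9 Cfsg.Agent.S5546

abbrev pa : GolayPt := some 5
abbrev pb : GolayPt := some 0
abbrev pc : GolayPt := some 1
abbrev pd : GolayPt := some 6
abbrev pe : GolayPt := some 8

def vv : ↥leechLattice := ⟨single4 pa + single4 pb, plus_mem _ _⟩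
def ww : ↥leechLattice := ⟨single4 pc - single4 pa, minus_mem _ _⟩
def u1 : ↥leechLattice := ⟨single4 pd + single4 pe, plus_mem _ _⟩
def u2 : ↥leechLattice := ⟨twoVec (wordOf 0x149f), twoVec_mem (wordOf_gB_mem _ (by decide))⟩

theorem n_vv : sqNorm (vv : GolayPt → ℤ) = 32 := by decide +kernel
theorem n_ww : sqNorm (ww : GolayPt → ℤ) = 32 := by decide +kernel
theorem n_u1 : sqNorm (u1 : GolayPt → ℤ) = 32 := by decide +kernel
theorem n_u2 : sqNorm (u2 : GolayPt → ℤ) = 32 := by decide +kernel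
theorem n_vw : sqNorm ((vv + ww : ↥leechLattice) : GolayPt → ℤ) = 32 := by decide +kernel
theorem n_u1vw : sqNorm ((u1 + vv + ww : ↥leechLattice) : GolayPt → ℤ) = 64 := by decide +kernel
theorem n_u1v : sqNorm ((u1 + vv : ↥leechLattice) : GolayPt → ℤ) = 64 := by decide +kernel
theorem n_u1w : sqNorm ((u1 + ww : ↥leechLattice) : GolayPt → ℤ) = 64 := by decide +kernel
theorem n_u2vw : sqNorm ((u2 - (vv + ww) : ↥leechLattice) : GolayPt → ℤ) = 32 := by decide +kernel
theorem n_u2v : sqNorm ((u2 - vv : ↥leechLattice) : GolayPt → ℤ) = 48 := by decide +kernel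
theorem n_u2w : sqNorm ((u2 - ww : ↥leechLattice) : GolayPt → ℤ) = 48 := by decide +kernel

theorem eight_dvd_dot {y z : GolayPt → ℤ} (hy : y ∈ leechLattice) (hz : z ∈ leechLattice) :
    (8 : ℤ) ∣ dotInt y z := by
  have h1 := leech_even (leechLattice.add_mem hy hz)
  have h2 := leech_even hy
  have h3 := leech_even hz
  rw [sqNorm_add'] at h1
  omega

theorem norm_cases {y : GolayPt → ℤ} (hy : y ∈ leechLattice) (h : sqNorm y ≤ 64) :
    y = 0 ∨ sqNorm y = 32 ∨ sqNorm y = 48 ∨ sqNorm y = 64 := by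
  by_cases h0 : y = 0
  · exact Or.inl h0
  · right
    have h1 := leech_min_norm_of min_weight hy h0
    have h2 := leech_even hy
    omega

/-- The quadratic form v ↦ (v,v)/2 mod 2 is the only non-zero quadratic form on the Leech lattice modulo 2 that is invariant under the automorphism group of the lattice. -/
theorem result (Q : ↥Cfsg.leechLattice → ZMod 2) (hcoset : ∀ v w : ↥Cfsg.leechLattice, Q (v + (w + w)) = Q v) (hquad : ∀ u v w : ↥Cfsg.leechLattice, Q (u + v + w) + Q u + Q v + Q w = Q (u + v) + Q (u + w) + Q (v + w)) (hinv : ∀ (g : ↥Cfsg.Co0) (v : ↥Cfsg.leechLattice), Q (g • v) = Q v) (hne : ∃ v : ↥Cfsg.leechLattice, Q v ≠ 0) (v : ↥Cfsg.leechLattice) : Q v = ((Cfsg.sqNorm (v : Cfsg.GolayPt → ℤ) / 16 : ℤ) : ZMod 2) := by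
  have inv32 : ∀ x y : ↥leechLattice, sqNorm (x : GolayPt → ℤ) = 32 →
      sqNorm (y : GolayPt → ℤ) = 32 → Q x = Q y := by
    intro x y hx hy
    obtain ⟨g, hg⟩ := Cfsg.Agent.S0400.result x y hx hy
    rw [← hg, hinv]
  have inv48 : ∀ x y : ↥leechLattice, sqNorm (x : GolayPt → ℤ) = 48 →
      sqNorm (y : GolayPt → ℤ) = 48 → Q x = Q y := by
    intro x y hx hy
    obtain ⟨g, hg⟩ := Cfsg.Agent.S0401.result x y hx hy
    rw [← hg, hinv]
  have inv64 : ∀ x y : ↥leechLattice, sqNorm (x : GolayPt → ℤ) = 64 →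
      sqNorm (y : GolayPt → ℤ) = 64 → Q x = Q y := by
    intro x y hx hy
    obtain ⟨g, hg⟩ := trans64 x y hx hy
    rw [← hg, hinv]
  have hQ0 : Q 0 = 0 := by
    have h := hquad 0 0 0
    simp only [add_zero] at h
    generalize Q 0 = a at h
    revert a; decide
  have hq4 : Q (u1 + vv + ww) = 0 := by
    have h := hquad u1 vv ww
    rw [inv32 u1 vv n_u1 n_vv, inv32 ww vv n_ww n_vv, inv32 (vv + ww) vv n_vw n_vv,
      inv64 (u1 + vv) (u1 + vv + ww) n_u1v n_u1vw, inv64 (u1 + ww) (u1 + vv + ww) n_u1w n_u1vw] at h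
    generalize Q (u1 + vv + ww) = a at h ⊢
    generalize Q vv = b at h
    revert a b; decide
  have hq2 : Q vv = 0 := by
    have h := hquad u2 vv ww
    have e1 : u2 + vv + ww = (u2 - (vv + ww)) + ((vv + ww) + (vv + ww)) := by abel
    have e2 : u2 + vv = (u2 - vv) + (vv + vv) := by abel
    have e3 : u2 + ww = (u2 - ww) + (ww + ww) := by abel
    rw [e1, e2, e3, hcoset, hcoset, hcoset, inv32 _ vv n_u2vw n_vv, inv32 u2 vv n_u2 n_vv,
      inv32 ww vv n_ww n_vv, inv32 (vv + ww) vv n_vw n_vv, inv48 (u2 - ww) (u2 - vv) n_u2w n_u2v] at h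
    generalize Q (u2 - vv) = a at h
    generalize Q vv = b at h ⊢
    revert a b; decide
  have hred : ∀ v : ↥leechLattice, ∃ y : ↥leechLattice, sqNorm (y : GolayPt → ℤ) ≤ 64 ∧ Q v = Q y ∧
      ((sqNorm (v : GolayPt → ℤ) / 16 : ℤ) : ZMod 2) = ((sqNorm (y : GolayPt → ℤ) / 16 : ℤ) : ZMod 2) := by
    intro v
    obtain ⟨y, hy, hyn, z, hz, hvy⟩ := mod2_main.2 v.1 v.2
    have hv : v = (⟨y, hy⟩ : ↥leechLattice) + (⟨z, hz⟩ + ⟨z, hz⟩) := by
      apply Subtype.ext
      show v.1 = y + (z + z)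
      have : v.1 = y + (v.1 - y) := by abel
      rw [this, hvy, two_smul]
    refine ⟨⟨y, hy⟩, hyn, by rw [hv, hcoset], ?_⟩
    have hv' : v.1 = y + 2 • z := by
      have : v.1 = y + (v.1 - y) := by abel
      rw [this, hvy]
    have e := sqNorm_add_two y z
    rw [← hv'] at e
    obtain ⟨a, ha⟩ := eight_dvd_dot hy hz
    obtain ⟨b, hb⟩ := leech_even hz
    obtain ⟨c, hc⟩ := leech_even hy
    have e2 : sqNorm v.1 / 16 = sqNorm y / 16 + 2 * (a + 2 * b) := by omega
    show ((sqNorm v.1 / 16 : ℤ) : ZMod 2) = ((sqNorm y / 16 : ℤ) : ZMod 2)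
    rw [e2]
    push_cast
    have : (2 : ZMod 2) = 0 := by decide
    rw [this, zero_mul, add_zero]
  have htab : ∀ y : ↥leechLattice, sqNorm (y : GolayPt → ℤ) ≤ 64 →
      sqNorm (y : GolayPt → ℤ) ≠ 48 → Q y = 0 := by
    intro y hy h48
    rcases norm_cases y.2 hy with h | h | h | h
    · have : y = 0 := Subtype.ext h
      rw [this, hQ0]
    · rw [inv32 y vv h n_vv, hq2]
    · exact absurd h h48
    · rw [inv64 y _ h n_u1vw, hq4]
  have hq3 : ∀ y : ↥leechLattice, sqNorm (y : GolayPt → ℤ) = 48 → Q y = 1 := by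
    intro y hy
    obtain ⟨v0, hv0⟩ := hne
    obtain ⟨y0, h1, h2, -⟩ := hred v0
    have h48 : sqNorm (y0 : GolayPt → ℤ) = 48 := by
      by_contra h
      exact hv0 (by rw [h2, htab y0 h1 h])
    rw [inv48 y y0 hy h48, ← h2]
    generalize Q v0 = a at hv0
    revert a; decide
  obtain ⟨y, h1, h2, h3⟩ := hred v
  rw [h2, h3]
  rcases norm_cases y.2 h1 with h | h | h | h
  · have : y = 0 := Subtype.ext h
    rw [this, hQ0]
    simp [sqNorm]
  · rw [htab y h1 (by rw [h]; norm_num), h]; decide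
  · rw [hq3 y h, h]; decide
  · rw [htab y h1 (by rw [h]; norm_num), h]; decide

end Cfsg.Agent.S5552
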