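import Cfsg.Statements.S1031
import Cfsg.Agent.Lib.Helper22.ChevBChkG2
import Cfsg.Agent.Lib.Helper22.ChevBChkB2
import Cfsg.Agent.Lib.Helper22.ChevBChkD4
import Cfsg.Agent.Lib.Helper22.ChevBChkF4
import Cfsg.Agent.Lib.Helper22.ChevBChkE6
import Cfsg.Agent.Lib.Helper22.ChevBChkE7
import Cfsg.Agent.Lib.Helper22.ChevBChkE8
import Cfsg.Agent.Lib.Helper22.ChevB2

set_option autoImplicit false
open Cfsg

namespace Cfsg.Agent.S1031

/-- For a fundamental root `p = p_{i+1}` and any root `s`: `n_p x_s(t) n_p⁻¹ = x_{w_p(s)}(η t)` with a sign `η = ±1` independent of `t`, where `w_p(s)` is the reflected root (`reflectRoot`). Stated as `n_p x_s(t) = x_{w_p(s)}(η t) n_p`. -/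
theorem result {F : Type*} [Field F] (D : Cfsg.Lie.ChevalleyDatum) (hD : D ∈ [Cfsg.Lie.chevG2, Cfsg.Lie.chevB2, Cfsg.Lie.chevD4, Cfsg.Lie.chevF4, Cfsg.Lie.chevE6, Cfsg.Lie.chevE7, Cfsg.Lie.chevE8]) (i s : ℕ) (hi : i < D.rank) (hs : s < D.nroots) :
    ∃ η : ℤ, (η = 1 ∨ η = -1) ∧
      ∀ t : F, D.nMat F (D.simple i) 1 * D.x F s t = D.x F (D.reflectRoot i s) ((η : F) * t) * D.nMat F (D.simple i) 1 := by
  simp only [List.mem_cons, List.not_mem_nil, or_false] at hD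
  rcases hD with rfl | rfl | rfl | rfl | rfl | rfl | rfl
  · exact Lib.Helper22.PValid.s1031 Lib.Helper22.pvG2 Lib.Helper22.bchkG2 Lib.Helper22.reflG2 hi hs
  · exact Lib.Helper22.PValid.s1031 Lib.Helper22.pvB2 Lib.Helper22.bchkB2 Lib.Helper22.reflB2 hi hs
  · exact Lib.Helper22.PValid.s1031 Lib.Helper22.pvD4 Lib.Helper22.bchkD4 Lib.Helper22.reflD4 hi hs
  · exact Lib.Helper22.PValid.s1031 Lib.Helper22.pvF4 Lib.Helper22.bchkF4 Lib.Helper22.reflF4 hi hs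
  · exact Lib.Helper22.PValid.s1031 Lib.Helper22.pvE6 Lib.Helper22.bchkE6 Lib.Helper22.reflE6 hi hs
  · exact Lib.Helper22.PValid.s1031 Lib.Helper22.pvE7 Lib.Helper22.bchkE7 Lib.Helper22.reflE7 hi hs
  · exact Lib.Helper22.PValid.s1031 Lib.Helper22.pvE8 Lib.Helper22.bchkE8 Lib.Helper22.reflE8 hi hs

end Cfsg.Agent.S1031
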