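import Cfsg.Statements.S1067
import Cfsg.Agent.Lib.Helper45.TwistD4Count
import Cfsg.Agent.Lib.Helper45.TwistCoxD4
import Cfsg.Agent.Lib.Helper45.TwistOrder
import Cfsg.Agent.Lib.Helper45.WtF4
import Cfsg.Agent.S1106

set_option autoImplicit false
open Cfsg

namespace Cfsg.Agent.S1067

/-- `|³D₄(q)| = q¹² (q² - 1)(q⁶ - 1)(q⁸ + q⁴ + 1)`, the group being realised inside D₄ over the field with `q³` elements. -/
theorem result {K : Type*} [Field K] [Fintype K] {q : ℕ} (hq : IsPrimePow q) (hK : Fintype.card K = q ^ 3) :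
    Nat.card ↥(Cfsg.Lie.twistedD4 K q) = q ^ 12 * (q ^ 2 - 1) * (q ^ 6 - 1) * (q ^ 8 + q ^ 4 + 1) := by
  obtain ⟨σ, φ, hφ, X⟩ := Cfsg.Agent.Lib.Helper45.d4_setup hq hK
  have hq1 : 1 < q := hq.one_lt
  have hH := Cfsg.Agent.S1106.result hq hK
  have hU := Cfsg.Agent.Lib.Helper45.d4_card_U1 hq hK
  have ha : ∀ i, Nat.card ↥(Cfsg.Agent.Lib.Helper22.Umin Cfsg.Lie.chevD4 K
      ((Cfsg.Agent.Lib.Helper23.bundle_of_mem K Cfsg.Agent.Lib.Helper45.memD4).hA.nword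
        (Cfsg.Agent.Lib.Helper45.orbFD4 i)) ⊓ Cfsg.Lie.twistedD4 K q) =
      q ^ (![1, 3] i : ℕ) := by
    intro i
    rw [Cfsg.Agent.Lib.Helper45.d4_card_Umin hq hK hφ X _ (Cfsg.Agent.Lib.Helper45.orbFD4_mem i)]
    congr 1
    fin_cases i <;> rfl
  have h := X.card_G1 _ Cfsg.Agent.Lib.Helper45.orbFD4_mem Cfsg.Agent.Lib.Helper45.orbFD4_surj
    Cfsg.Agent.Lib.Helper45.twCoxD4 q ![1, 3] ha ((q - 1) ^ 2 * (q ^ 2 + q + 1))
    ((q ^ 2 - 1) * (q ^ 6 - 1) * (q ^ 8 + q ^ 4 + 1))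
    (fun f h1 h2 h3 h4 c hc => Cfsg.Agent.Lib.Helper45.G2_wsum f h1 h2 h3 h4 q hq1.le c hc)
  rw [hU, hH] at h
  have hE : 0 < (q - 1) ^ 2 * (q ^ 2 + q + 1) :=
    Nat.mul_pos (pow_pos (by omega) _) (by positivity)
  apply Nat.eq_of_mul_eq_mul_left hE
  rw [h]; ring

end Cfsg.Agent.S1067
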