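import Cfsg.Statements.S2585
import Cfsg.Agent.Lib.Helper48.SympForm

set_option autoImplicit false
open Cfsg

namespace Cfsg.Agent.S2585

open Matrix

theorem sympForm_expand {F : Type*} [Field F] {m : ℕ} (u v : Fin m ⊕ Fin m → F) :
    Cfsg.sympForm m F u v =
      ∑ i : Fin m, (u (Sum.inr i) * v (Sum.inl i) - u (Sum.inl i) * v (Sum.inr i)) := by
  unfold Cfsg.sympForm Matrix.J
  rw [Matrix.fromBlocks_mulVec, dotProduct, Fintype.sum_sum_type]
  simp only [Sum.elim_inl, Sum.elim_inr, Matrix.zero_mulVec, Matrix.neg_mulVec, Matrix.one_mulVec,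
    zero_add, add_zero, Pi.neg_apply, Function.comp_apply]
  rw [← Finset.sum_add_distrib]
  apply Finset.sum_congr rfl
  intro i _
  ring

/-- the hyperbolic quadratic form -/
noncomputable def Q0 (m : ℕ) (F : Type*) [Field F] : QuadraticForm F (Fin m ⊕ Fin m → F) :=
  ∑ i : Fin m, QuadraticMap.linMulLin (LinearMap.proj (Sum.inl i)) (LinearMap.proj (Sum.inr i))

theorem Q0_apply {F : Type*} [Field F] {m : ℕ} (v : Fin m ⊕ Fin m → F) :
    Q0 m F v = ∑ i : Fin m, v (Sum.inl i) * v (Sum.inr i) := by
  unfold Q0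
  rw [_root_.sum_apply]
  rfl

theorem Q0_add {F : Type*} [Field F] [CharP F 2] {m : ℕ} (u v : Fin m ⊕ Fin m → F) :
    Q0 m F (u + v) = Q0 m F u + Q0 m F v + Cfsg.sympForm m F u v := by
  rw [sympForm_expand, Q0_apply, Q0_apply, Q0_apply, ← Finset.sum_add_distrib,
    ← Finset.sum_add_distrib]
  apply Finset.sum_congr rfl
  intro i _
  simp only [Pi.add_apply, CharTwo.sub_eq_add]
  ring

/-- Over a finite field of characteristic two every element of the symplectic group is orthogonal for a suitable quadratic form: for each A in Sp_2m(F) there is a quadratic form Q on F^(2m) whose polar form is the alternating form defining Sp_2m(F) (so Q is non-degenerate) and which A preserves. Equivalently, for m ≥ 1, Sp_2m(F) is the union of the conjugates of its two orthogonal subgroups O⁺_2m(F) and O⁻_2m(F). -/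
theorem result {F : Type*} [Field F] [Fintype F] [CharP F 2] {m : ℕ} (A : Matrix.symplecticGroup (Fin m) F) : ∃ Q : QuadraticForm F (Fin m ⊕ Fin m → F), (∀ u v : Fin m ⊕ Fin m → F, QuadraticMap.polar ⇑Q u v = Cfsg.sympForm m F u v) ∧ ∀ v : Fin m ⊕ Fin m → F, Q ((A : Matrix (Fin m ⊕ Fin m) (Fin m ⊕ Fin m) F).mulVec v) = Q v := by
  classical
  set M : Matrix (Fin m ⊕ Fin m) (Fin m ⊕ Fin m) F := (A : Matrix (Fin m ⊕ Fin m) (Fin m ⊕ Fin m) F)
    with hM
  let D : (Fin m ⊕ Fin m → F) → F := fun v => Q0 m F (M *ᵥ v) + Q0 m F v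
  have hDadd : ∀ u v, D (u + v) = D u + D v := by
    intro u v
    simp only [D]
    rw [Matrix.mulVec_add, Q0_add, Q0_add, Cfsg.Agent.Lib.Helper48.sympForm_mulVec M A.2]
    have h2 := CharTwo.add_self_eq_zero (Cfsg.sympForm m F u v)
    linear_combination h2
  have hDsmul : ∀ (c : F) v, D (c • v) = c ^ 2 * D v := by
    intro c v
    simp only [D]
    rw [Matrix.mulVec_smul, QuadraticMap.map_smul, QuadraticMap.map_smul]
    simp only [smul_eq_mul]
    ring
  let ℓ : (Fin m ⊕ Fin m → F) →ₗ[F] F :=
    { toFun := fun v => (frobeniusEquiv F 2).symm (D v)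
      map_add' := by
        intro u v
        rw [hDadd, map_add]
      map_smul' := by
        intro c v
        rw [hDsmul, map_mul, RingHom.id_apply, smul_eq_mul]
        congr 1
        exact frobeniusEquiv_symm_apply_frobenius F 2 c }
  have hℓ : ∀ v, ℓ v ^ 2 = D v := fun v => frobeniusEquiv_symm_pow_p F 2 (D v)
  let T : (Fin m ⊕ Fin m → F) →ₗ[F] (Fin m ⊕ Fin m → F) := Matrix.mulVecLin M - LinearMap.id
  have hmem : ℓ ∈ LinearMap.range T.dualMap := by
    rw [LinearMap.range_dualMap_eq_dualAnnihilator_ker, Submodule.mem_dualAnnihilator]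
    intro v hv
    have hv' : M *ᵥ v = v := by
      have : T v = 0 := hv
      simp only [T, LinearMap.sub_apply, Matrix.mulVecLin_apply, LinearMap.id_apply] at this
      exact sub_eq_zero.1 this
    have h0 : D v = 0 := by
      simp only [D]
      rw [hv']
      exact CharTwo.add_self_eq_zero _
    have := hℓ v
    rw [h0] at this
    exact pow_eq_zero_iff (two_ne_zero) |>.1 this
  obtain ⟨φ, hφ⟩ := hmem
  have hφ' : ∀ v, φ (M *ᵥ v) + φ v = ℓ v := by
    intro v
    have := congrArg (fun g : Module.Dual F (Fin m ⊕ Fin m → F) => g v) hφ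
    simp only [LinearMap.dualMap_apply, T, LinearMap.sub_apply, Matrix.mulVecLin_apply,
      LinearMap.id_apply, map_sub] at this
    rw [← this, CharTwo.sub_eq_add]
  refine ⟨Q0 m F + QuadraticMap.linMulLin φ φ, ?_, ?_⟩
  · intro u v
    unfold QuadraticMap.polar
    simp only [_root_.add_apply, QuadraticMap.linMulLin_apply, map_add, Q0_add]
    have h2 := CharTwo.add_self_eq_zero (φ u * φ v)
    linear_combination h2
  · intro v
    simp only [_root_.add_apply, QuadraticMap.linMulLin_apply]
    have h1 := hℓ v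
    rw [← hφ' v, CharTwo.add_sq] at h1
    simp only [D] at h1
    have h2 := CharTwo.add_self_eq_zero (Q0 m F v)
    have h3 := CharTwo.add_self_eq_zero (φ (M *ᵥ v) ^ 2)
    linear_combination (-1 : F) * h1 - h2 + h3

end Cfsg.Agent.S2585
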