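import Cfsg.Statements.S2621
import Cfsg.Agent.Lib.Helper49.StdForms
import Cfsg.Agent.Lib.Helper49.FinSq

set_option autoImplicit false
open Cfsg

namespace Cfsg.Agent.S2621

/-- Discriminant of an elliptic quadratic form Σ_(i<m−1) x_i y_i + z₁² + a z₁z₂ + c z₂² (binary part anisotropic) in dimension 2m over a field with q elements, q odd, m ≥ 1: the determinant of the Gram matrix of its polar form in any basis is a square if and only if m(q − 1)/2 is odd (equivalently q^m ≡ 3 (mod 4)). -/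
theorem result {F : Type*} [Field F] [Fintype F] {q : ℕ} (hF : Fintype.card F = q) (hq : Odd q) {m : ℕ} (hm : 1 ≤ m) (a c : F) (hac : ∀ z₁ z₂ : F, z₁ ^ 2 + a * z₁ * z₂ + c * z₂ ^ 2 = 0 → z₁ = 0 ∧ z₂ = 0) {ι : Type*} [Fintype ι] [DecidableEq ι] (b : Module.Basis ι F ((Fin (m - 1) ⊕ Fin (m - 1)) ⊕ Fin 2 → F)) : IsSquare (Matrix.of (fun i j : ι => QuadraticMap.polar (Cfsg.quadFormMinus (m - 1) F a c) (b i) (b j))).det ↔ ¬ Even (m * (q - 1) / 2) := by
  have h := Cfsg.Agent.Lib.Helper49.isSquare_gram_det_iff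
    (Cfsg.Agent.Lib.Helper49.minusQF (m - 1) F a c)
    (Pi.basisFun F ((Fin (m - 1) ⊕ Fin (m - 1)) ⊕ Fin 2)) b
  rw [Cfsg.Agent.Lib.Helper49.minusQF_coe] at h
  rw [h]
  simp only [Pi.basisFun_apply]
  rw [Cfsg.Agent.Lib.Helper49.gram_quadFormMinus_det]
  have h2 : (2 : F) ≠ 0 := Cfsg.Agent.Lib.Helper49.two_ne_zero_of_odd_card hF hq
  have hns : ¬ IsSquare (a ^ 2 - 4 * c) := by
    rintro ⟨s, hs⟩
    have := hac ((-a + s) / 2) 1 (by
      field_simp
      have : s ^ 2 = a ^ 2 - 4 * c := by rw [hs]; ring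
      ring_nf
      rw [this]
      ring)
    exact one_ne_zero this.2
  have e : (-1 : F) ^ (m - 1) * (4 * c - a ^ 2) = (a ^ 2 - 4 * c) * (-1) ^ m := by
    obtain ⟨k, rfl⟩ : ∃ k, m = k + 1 := ⟨m - 1, by omega⟩
    simp only [Nat.add_sub_cancel, pow_succ]
    ring
  rw [e, Cfsg.Agent.Lib.Helper49.isSquare_mul_iff_of_not_isSquare h2 hns
    (pow_ne_zero _ (neg_ne_zero.2 one_ne_zero)),
    Cfsg.Agent.Lib.Helper49.isSquare_neg_one_pow_iff hF hq m]

end Cfsg.Agent.S2621
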