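import Cfsg.Statements.S0836
-- import your own Cfsg.Agent.* helpers here

set_option autoImplicit false
open Cfsg

namespace Cfsg.Agent.S0836

theorem comm_of_mul_eq {G : Type*} [Group G] (a b t : G) (h : a * b = t * b * a) : t ∈ commutatorSet G := by
  refine ⟨a, b, ?_⟩
  rw [commutatorElement_def, h]
  group

/-- For i ≠ j and any scalar c, the elementary transvection 1 + c E_ij is a commutator ⁅g, h⁆ of two elements of SL_n(F) provided n ≥ 3, or n = 2 and F contains x ≠ 0 with x² ≠ 1. -/
theorem result {F : Type*} [Field F] (n : ℕ) (hn : 3 ≤ n ∨ (n = 2 ∧ ∃ x : F, x ≠ 0 ∧ x ^ 2 ≠ 1)) (i j : Fin n) (hij : i ≠ j) (c : F) (t : Matrix.SpecialLinearGroup (Fin n) F) (ht : (t : Matrix (Fin n) (Fin n) F) = Matrix.transvection i j c) : t ∈ commutatorSet (Matrix.SpecialLinearGroup (Fin n) F) := by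
  have key : ∀ (D T : Matrix.SpecialLinearGroup (Fin n) F),
      (D : Matrix (Fin n) (Fin n) F) * T = t * T * D → t ∈ commutatorSet _ := by
    intro D T h
    apply comm_of_mul_eq D T t
    apply Subtype.ext
    simpa using h
  rcases hn with hn | ⟨rfl, x, hx0, hx1⟩
  · obtain ⟨k, hki, hkj⟩ : ∃ k : Fin n, k ≠ i ∧ k ≠ j := by
      by_contra hcon
      push Not at hcon
      have hsub : (Finset.univ : Finset (Fin n)) ⊆ {i, j} := by
        intro k _
        by_cases hk : k = i
        · simp [hk]
        · simp [hcon k hk]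
      have := Finset.card_le_card hsub
      have h2 : ({i, j} : Finset (Fin n)).card ≤ 2 := Finset.card_le_two
      simp at this
      omega
    refine key ⟨Matrix.transvection i k c, Matrix.det_transvection_of_ne i k hki.symm c⟩
      ⟨Matrix.transvection k j 1, Matrix.det_transvection_of_ne k j hkj 1⟩ ?_
    rw [ht]
    show Matrix.transvection i k c * Matrix.transvection k j 1 =
      Matrix.transvection i j c * Matrix.transvection k j 1 * Matrix.transvection i k c
    unfold Matrix.transvection
    simp only [mul_add, add_mul, mul_one, one_mul, Matrix.single_mul_single_same,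
      Matrix.single_mul_single_of_ne _ _ _ _ hij.symm, Matrix.single_mul_single_of_ne _ _ _ _ hkj.symm,
      Matrix.single_mul_single_of_ne _ _ _ _ hki, add_zero, zero_add, zero_mul, mul_zero]
    abel
  · have hx2 : x ^ 2 - 1 ≠ 0 := sub_ne_zero.mpr hx1
    fin_cases i <;> fin_cases j
    · exact absurd rfl hij
    · refine key ⟨!![x, 0; 0, x⁻¹], by simp [Matrix.det_fin_two, hx0]⟩
        ⟨!![1, c / (x ^ 2 - 1); 0, 1], by simp [Matrix.det_fin_two]⟩ ?_
      rw [ht]
      ext a b
      fin_cases a <;> fin_cases b <;>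
        simp [Matrix.transvection, Matrix.mul_apply, Fin.sum_univ_two, Matrix.single] <;> field_simp <;> ring
    · refine key ⟨!![x⁻¹, 0; 0, x], by simp [Matrix.det_fin_two, hx0]⟩
        ⟨!![1, 0; c / (x ^ 2 - 1), 1], by simp [Matrix.det_fin_two]⟩ ?_
      rw [ht]
      ext a b
      fin_cases a <;> fin_cases b <;>
        simp [Matrix.transvection, Matrix.mul_apply, Fin.sum_univ_two, Matrix.single] <;> field_simp <;> ring
    · exact absurd rfl hij

end Cfsg.Agent.S0836
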