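import Cfsg.Statements.S4499
import Cfsg.Agent.Lib.Helper78.Contrib2

set_option autoImplicit false
open Cfsg
open Cfsg.Agent.Lib.Helper20 Cfsg.Agent.Lib.Helper81 Cfsg.Agent.Lib.Helper78

namespace Cfsg.Agent.S4499

/-- Let G be a finite group whose order has p-part p^a (a ≥ 1), and fix a maximal ideal M of the algebraic integers containing p. If the degree of one irreducible character of a p-block B is divisible by p^(a−1), then the degree of every irreducible character in B is divisible by p^(a−1) (so B has defect at most 1). -/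
theorem result {G : Type*} [Group G] [Finite G] (p : ℕ) [Fact p.Prime] (M : Ideal Cfsg.AlgInt) (hM : Cfsg.IsPModular p M) (hpa : p ∣ Nat.card G) (B : Set (Cfsg.IrrCharacter G)) (hB : Cfsg.IsPBlock M B) (χ : Cfsg.IrrCharacter G) (hχ : χ ∈ B) (hdiv : p ^ ((Nat.card G).factorization p - 1) ∣ Cfsg.charDegree (χ : G → ℂ)) (ψ : Cfsg.IrrCharacter G) (hψ : ψ ∈ B) : p ^ ((Nat.card G).factorization p - 1) ∣ Cfsg.charDegree (ψ : G → ℂ) := by
  classical
  have : Fintype G := Fintype.ofFinite G
  have hp : p.Prime := Fact.out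
  set a := (Nat.card G).factorization p with ha
  have hχν : a - 1 ≤ nuDeg p χ :=
    (hp.pow_dvd_iff_le_factorization (charDegree_ne_zero χ)).1 hdiv
  suffices h : a - 1 ≤ minDeg p B from
    (hp.pow_dvd_iff_le_factorization (charDegree_ne_zero ψ)).2 (h.trans (minDeg_le hψ))
  by_contra hlt
  push Not at hlt
  have h0 : blockHeight p B (χ : G → ℂ) ≠ 0 := by
    rw [Ne, blockHeight_eq_zero_iff hχ]; omega
  have h1 := Sm_memLocalIdeal_of_height_pos hM hB hχ hχ h0
  have hn : nC p χ χ ≠ 0 := (nC_self_pos hp χ).ne'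
  rw [Sm_eq_nC hp, memLocalIdeal_int_iff hM hn (not_dvd_ordCompl_card hp)
    (charDegree_ne_zero χ)] at h1
  have h2 : a ≤ (nC p χ χ).natAbs.factorization p := by
    have : a - 1 ≤ (charDegree (χ : G → ℂ)).factorization p := hχν
    omega
  have h3 : ((p ^ a : ℕ) : ℤ) ∣ nC p χ χ := by
    rw [Int.natCast_dvd]
    exact (hp.pow_dvd_iff_le_factorization (Int.natAbs_ne_zero.2 hn)).2 h2
  have h4 := Cfsg.Agent.S0928.result p χ (fun g hg => vanish_of_pow_dvd_nC hp χ h3 (by rw [hg]))
  have h5 := block_eq_singleton_of_nuDeg hM hB hχ h4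
  obtain ⟨χ₀, hχ₀, hmin⟩ := exists_minDeg (p := p) (isPBlock_nonempty hM hB)
  rw [h5, Set.mem_singleton_iff] at hχ₀
  rw [hχ₀] at hmin
  omega

end Cfsg.Agent.S4499
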