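import Cfsg.Statements.S2578
import Cfsg.Agent.Lib.Helper48.RegNilpConj
import Cfsg.Agent.Lib.Helper48.GLTransfer
import Cfsg.Agent.Lib.Helper48.ClassSplit
import Cfsg.Agent.Lib.Helper48.JordanBlock

set_option autoImplicit false
open Cfsg

namespace Cfsg.Agent.S2578

open Cfsg.Agent.Lib.Helper48 Module

variable {F : Type*} [Field F] {n : ℕ}

/-- regular nilpotent hypotheses in endomorphism form -/
theorem reg_end (M : Matrix (Fin n) (Fin n) F) (h1 : M ^ n = 0) (h2 : M.rank = n - 1) :
    finrank F (LinearMap.ker (Matrix.mulVecLin M)) ≤ 1 ∧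
      (Matrix.mulVecLin M : End F (Fin n → F)) ^ finrank F (Fin n → F) = 0 := by
  constructor
  · rw [finrank_ker_mulVecLin, h2, Fintype.card_fin]; omega
  · rw [Module.finrank_fin_fun, ← mulVecLin_pow, h1]; simp

theorem conj_of_reg (hn : 1 ≤ n) (M M' : Matrix (Fin n) (Fin n) F) (h1 : M ^ n = 0)
    (h2 : M.rank = n - 1) (h1' : M' ^ n = 0) (h2' : M'.rank = n - 1) :
    ∃ g : GL (Fin n) F, (g : Matrix (Fin n) (Fin n) F) * M = M' * (g : Matrix (Fin n) (Fin n) F) := by
  obtain ⟨a1, a2⟩ := reg_end M h1 h2
  obtain ⟨b1, b2⟩ := reg_end M' h1' h2'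
  obtain ⟨g, hg⟩ := exists_equiv_conj _ _ a1 a2 b1 b2 (by rw [Module.finrank_fin_fun]; omega)
  let gu : (End F (Fin n → F))ˣ := ⟨g.toLinearMap, g.symm.toLinearMap,
    by ext x; simp, by ext x; simp⟩
  refine ⟨glEquivEnd.symm gu, ?_⟩
  have h3 : Matrix.mulVecLin ((glEquivEnd.symm gu : GL (Fin n) F) : Matrix (Fin n) (Fin n) F) =
      g.toLinearMap := by
    rw [← glEquivEnd_coe, MulEquiv.apply_symm_apply]
  apply Matrix.toLin'.injective
  apply LinearMap.ext
  intro x
  have h4 : ∀ y, ((glEquivEnd.symm gu : GL (Fin n) F) : Matrix (Fin n) (Fin n) F).mulVec y = g y := by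
    intro y
    rw [← Matrix.mulVecLin_apply, h3]; rfl
  rw [Matrix.toLin'_apply, Matrix.toLin'_apply, ← Matrix.mulVec_mulVec, ← Matrix.mulVec_mulVec,
    h4, h4]
  exact hg x

/-- Regular unipotent classes of SL_n(q): for n ≥ 2 over the field with q elements, the matrices u of determinant one with (u − 1)^n = 0 and rank(u − 1) = n − 1 form a single GL_n(q)-class which splits into exactly gcd(n, q − 1) conjugacy classes of SL_n(q). -/
theorem result {F : Type*} [Field F] [Fintype F] {q : ℕ} (hF : Fintype.card F = q) {n : ℕ} (hn : 2 ≤ n) : Nat.card {C : ConjClasses (Matrix.SpecialLinearGroup (Fin n) F) // ∃ u : Matrix.SpecialLinearGroup (Fin n) F, ConjClasses.mk u = C ∧ ((u : Matrix (Fin n) (Fin n) F) - 1) ^ n = 0 ∧ ((u : Matrix (Fin n) (Fin n) F) - 1).rank = n - 1} = Nat.gcd n (q - 1) := by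
  classical
  have hne : Nonempty (Fin n) := ⟨⟨0, by omega⟩⟩
  let u₀ : Matrix.SpecialLinearGroup (Fin n) F := ⟨Cfsg.jordanBlock n F, jordanBlock_det⟩
  have hu₀ : (u₀ : Matrix (Fin n) (Fin n) F) = Cfsg.jordanBlock n F := rfl
  have key := card_classes_eq_index (S := Matrix.SpecialLinearGroup (Fin n) F)
    (G := GL (Fin n) F) (A := Fˣ) Matrix.SpecialLinearGroup.toGL
    Matrix.SpecialLinearGroup.toGL_injective Matrix.GeneralLinearGroup.det
    (by
      intro g
      constructor
      · intro hg
        have hg' : (g : Matrix (Fin n) (Fin n) F).det = 1 := by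
          have := congrArg Units.val hg
          simpa using this
        exact ⟨⟨(g : Matrix (Fin n) (Fin n) F), hg'⟩, by apply Units.ext; rfl⟩
      · rintro ⟨s, rfl⟩
        apply Units.ext
        simp)
    Matrix.GeneralLinearGroup.det_surjective
    (fun u => ((u : Matrix (Fin n) (Fin n) F) - 1) ^ n = 0 ∧
      ((u : Matrix (Fin n) (Fin n) F) - 1).rank = n - 1)
    u₀
    (by
      intro u
      constructor
      · rintro ⟨h1, h2⟩
        obtain ⟨g, hg⟩ := conj_of_reg (by omega) (Cfsg.jordanBlock n F - 1)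
          ((u : Matrix (Fin n) (Fin n) F) - 1) jordanBlock_sub_one_pow jordanBlock_sub_one_rank h1 h2
        refine ⟨g, ?_⟩
        rw [mul_inv_eq_iff_eq_mul]
        apply Units.ext
        simp only [Units.val_mul, Matrix.SpecialLinearGroup.coe_GL_coe_matrix, hu₀]
        rw [Matrix.mul_sub, Matrix.sub_mul, Matrix.mul_one, Matrix.one_mul] at hg
        exact sub_left_injective hg
      · rintro ⟨g, hg⟩
        have hg' : (u : Matrix (Fin n) (Fin n) F) - 1 = (g : Matrix (Fin n) (Fin n) F) *
            (Cfsg.jordanBlock n F - 1) * ((g⁻¹ : GL (Fin n) F) : Matrix (Fin n) (Fin n) F) := by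
          have := congrArg (fun x : GL (Fin n) F => (x : Matrix (Fin n) (Fin n) F)) hg
          simp only [Units.val_mul, Matrix.SpecialLinearGroup.coe_GL_coe_matrix, hu₀] at this
          rw [← this, Matrix.mul_sub, Matrix.sub_mul, Matrix.mul_one]
          congr 1
          rw [← Units.val_mul, mul_inv_cancel]; rfl
        constructor
        · rw [hg']
          have := Units.conj_pow g (Cfsg.jordanBlock n F - 1) n
          rw [this, jordanBlock_sub_one_pow]
          simp
        · rw [hg', Matrix.rank_mul_eq_left_of_isUnit_det, Matrix.rank_mul_eq_right_of_isUnit_det,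
            jordanBlock_sub_one_rank]
          · exact (Matrix.isUnit_iff_isUnit_det _).1 g.isUnit
          · exact (Matrix.isUnit_iff_isUnit_det _).1 (g⁻¹).isUnit)
    (powMonoidHom n : Fˣ →* Fˣ).range
    (by
      intro a
      constructor
      · rintro ⟨c, rfl⟩
        refine ⟨Matrix.GeneralLinearGroup.scalar (Fin n) c, ?_, ?_⟩
        · have : Matrix.GeneralLinearGroup.scalar (Fin n) c ∈ Subgroup.center (GL (Fin n) F) := by
            rw [Matrix.GeneralLinearGroup.center_eq_range_scalar]; exact ⟨c, rfl⟩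
          exact (Subgroup.mem_center_iff.1 this _).symm
        · apply Units.ext
          simp
      · rintro ⟨g, hg, rfl⟩
        have hc : g ∈ Subgroup.centralizer ({Matrix.SpecialLinearGroup.toGL u₀} :
            Set (GL (Fin n) F)) := by
          rw [Subgroup.mem_centralizer_singleton_iff]; exact hg.eq
        rw [mem_centralizer_iff_commute] at hc
        obtain ⟨a1, a2⟩ := reg_end (Cfsg.jordanBlock n F - 1) jordanBlock_sub_one_pow
          jordanBlock_sub_one_rank
        obtain ⟨p, hp⟩ := exists_eq_aeval_of_commute _ a1 a2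
          (by rw [Module.finrank_fin_fun]; omega) _ hc
        have hdet := det_aeval_of_isNilpotent _ ⟨_, a2⟩ p
        rw [← hp, glEquivEnd_coe, Module.finrank_fin_fun] at hdet
        have hdet' : (g : Matrix (Fin n) (Fin n) F).det = p.coeff 0 ^ n := by
          rw [← hdet, ← Matrix.toLin'_apply', LinearMap.det_toLin']
        have hne0 : p.coeff 0 ≠ 0 := by
          intro h0
          rw [h0, zero_pow (by omega)] at hdet'
          exact ((Matrix.isUnit_iff_isUnit_det _).1 g.isUnit).ne_zero hdet'
        refine ⟨Units.mk0 _ hne0, ?_⟩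
        apply Units.ext
        simp [hdet'])
  rw [key, IsCyclic.index_powMonoidHom_range, Nat.card_eq_fintype_card, Fintype.card_units, hF,
    Nat.gcd_comm]

end Cfsg.Agent.S2578
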