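import Cfsg.Statements.S1500
-- import your own Cfsg.Agent.* helpers here
import Cfsg.Agent.Lib.Helper32.DadeCount

set_option autoImplicit false
open Cfsg

namespace Cfsg.Agent.S1500

open Cfsg.Agent.Lib.Helper32

theorem finsum_mem_eq_sum_ite {G : Type*} [Fintype G] (S : Set G) [DecidablePred (· ∈ S)]
    (f : G → ℂ) : ∑ᶠ u ∈ S, f u = ∑ u : G, if u ∈ S then f u else 0 := by
  rw [finsum_mem_def, finsum_eq_sum_of_fintype]
  simp [Set.indicator_apply]

open Classical in
theorem dade_inner {G : Type*} [Group G] [Fintype G] (A : Set G) (L : Subgroup G) [Fintype L]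
    (H : G → Subgroup G) (hD : Cfsg.DadeHypothesis A L H) (α : L → ℂ)
    (hα : Cfsg.IsClassFunction L α) (hαA : ∀ x : L, (x : G) ∉ A → α x = 0)
    (χ : G → ℂ) (ψ : L → ℂ) (hχ : Cfsg.IsClassFunction G χ)
    (hψ : ∀ a : L, (a : G) ∈ A → ψ a = (Nat.card (H a) : ℂ)⁻¹ * ∑ᶠ u ∈ (H a : Set G), χ (a * u)) :
    Cfsg.classInner (Cfsg.dadeIsometry A L H α) χ = Cfsg.classInner α ψ := by
  unfold Cfsg.classInner
  have hcl := dadeIsometry_isClassFunction hD α hα
  have hF : Cfsg.IsClassFunction G
      (fun g => Cfsg.dadeIsometry A L H α g * (starRingEnd ℂ) (χ g)) := by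
    intro g h
    simp only
    rw [hcl, hχ]
  have h1 : ∑ g : G, Cfsg.dadeIsometry A L H α g * (starRingEnd ℂ) (χ g) =
      ∑ g : G, (if g ∈ dadeSupp A L H then
        (fun g => Cfsg.dadeIsometry A L H α g * (starRingEnd ℂ) (χ g)) g else 0) := by
    apply Finset.sum_congr rfl
    intro g _
    split_ifs with hg
    · rfl
    · rw [dadeIsometry_apply_not_mem α hg, zero_mul]
  rw [h1, dade_sum hD _ hF]
  have hG : (Nat.card G : ℂ) ≠ 0 := by exact_mod_cast (Nat.card_pos (α := G)).ne'
  rw [← mul_assoc, ← mul_assoc, inv_mul_cancel₀ hG, one_mul]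
  congr 1
  apply Finset.sum_congr rfl
  intro a _
  by_cases ha : (a : G) ∈ A
  · rw [if_pos ha, hψ a ha, finsum_mem_eq_sum_ite, map_mul, map_sum, map_inv₀, Complex.conj_natCast,
      mul_left_comm]
    congr 1
    rw [Finset.mul_sum]
    apply Finset.sum_congr rfl
    intro u _
    by_cases hu : u ∈ H a
    · have hu' : u ∈ (H a : Set G) := hu
      rw [if_pos hu, if_pos hu']
      rw [dadeIsometry_apply hD α hα ha hu (x := 1) (by simp)]
    · have hu' : u ∉ (H a : Set G) := hu
      rw [if_neg hu, if_neg hu']; simp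
  · rw [if_neg ha, hαA a ha, zero_mul]


/-- Under the Dade hypothesis for (A, L, H), let α be a class function of L vanishing outside A. Then (i) for every class function β of L vanishing outside A, the inner product over G of the Dade images of α and β equals the inner product of α and β over L; and (ii) for every class function χ of G and every function ψ on L whose value at each a ∈ A is the average of χ over the coset a·H(a), the inner product over G of the Dade image of α with χ equals the inner product over L of α with ψ. -/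
theorem result {G : Type*} [Group G] [Fintype G] (A : Set G) (L : Subgroup G) [Fintype L] (H : G → Subgroup G) (hD : Cfsg.DadeHypothesis A L H) (α : L → ℂ) (hα : Cfsg.IsClassFunction L α) (hαA : ∀ x : L, (x : G) ∉ A → α x = 0) : (∀ β : L → ℂ, Cfsg.IsClassFunction L β → (∀ x : L, (x : G) ∉ A → β x = 0) → Cfsg.classInner (Cfsg.dadeIsometry A L H α) (Cfsg.dadeIsometry A L H β) = Cfsg.classInner α β) ∧ (∀ (χ : G → ℂ) (ψ : L → ℂ), Cfsg.IsClassFunction G χ → (∀ a : L, (a : G) ∈ A → ψ a = (Nat.card (H a) : ℂ)⁻¹ * ∑ᶠ u ∈ (H a : Set G), χ (a * u)) → Cfsg.classInner (Cfsg.dadeIsometry A L H α) χ = Cfsg.classInner α ψ) := by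
  refine ⟨?_, fun χ ψ hχ hψ => dade_inner A L H hD α hα hαA χ ψ hχ hψ⟩
  intro β hβ hβA
  apply dade_inner A L H hD α hα hαA _ β (dadeIsometry_isClassFunction hD β hβ)
  intro a ha
  have h1 : ∑ᶠ u ∈ (H a : Set G), Cfsg.dadeIsometry A L H β (a * u) =
      ∑ᶠ u ∈ (H a : Set G), β a := by
    apply finsum_mem_congr rfl
    intro u hu
    exact dadeIsometry_apply hD β hβ ha hu (x := 1) (by simp)
  rw [h1, finsum_mem_eq_finite_toFinset_sum _ (Set.toFinite _), Finset.sum_const, nsmul_eq_mul]
  have h2 : ((Set.toFinite (H a : Set G)).toFinset.card : ℂ) = (Nat.card (H a) : ℂ) := by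
    congr 1
    rw [← Set.ncard_eq_toFinset_card _ (Set.toFinite _), ← Nat.card_coe_set_eq]
    rfl
  rw [h2]
  have h3 : (Nat.card (H a) : ℂ) ≠ 0 := by exact_mod_cast (Nat.card_pos (α := H a)).ne'
  rw [← mul_assoc, inv_mul_cancel₀ h3, one_mul]

end Cfsg.Agent.S1500
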