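import Cfsg.Statements.S1501
import Cfsg.Agent.Lib.Helper4.DadeVirt2
import Cfsg.Agent.S1500

set_option autoImplicit false
open Cfsg

namespace Cfsg.Agent.S1501

open Cfsg.Agent.Lib.Helper4 Cfsg.Agent.Lib.Helper32

/-- Under the Dade hypothesis for (A, L, H): if α is a generalized character of L vanishing outside A, then its image under the Dade map is a generalized character of G. -/
theorem result {G : Type*} [Group G] [Fintype G] (A : Set G) (L : Subgroup G) [Fintype L] (H : G → Subgroup G) (hD : Cfsg.DadeHypothesis A L H) (α : L → ℂ) (hα : Cfsg.IsGeneralizedCharacter L α) (hαA : ∀ x : L, (x : G) ∉ A → α x = 0) : Cfsg.IsGeneralizedCharacter G (Cfsg.dadeIsometry A L H α) := by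
  classical
  have hαc := genChar_isClassFunction hα
  apply genChar_of_classInner_int' (dadeIsometry_isClassFunction hD α hαc)
  intro χ hχ
  have hχc := Cfsg.Agent.Lib.Helper20.isCharacter_of_isIrrCharacter hχ
  have hχf := Cfsg.Agent.Lib.Helper20.isClassFunction_of_isCharacter hχc
  obtain ⟨Z, hZ⟩ := exists_int_classInner_dadeXi hD hχc hα
  refine ⟨Z, ?_⟩
  rw [← hZ]
  apply (Cfsg.Agent.S1500.result A L H hD α hαc hαA).2 χ _ hχf
  intro a ha
  rw [dadeXi_apply hD hχf ha]
  unfold avgK
  congr 1
  rw [← finsum_set_coe_eq_finsum_mem, finsum_eq_sum_of_fintype]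
  rfl

end Cfsg.Agent.S1501
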