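import Cfsg.Statements.S0590
-- import your own Cfsg.Agent.* helpers here

set_option autoImplicit false
open Cfsg

namespace Cfsg.Agent.S0590

open scoped commutatorElement in
theorem aux {G : Type*} [Group G] {p : ℕ} (V H : Subgroup G)
    (hV : Cfsg.IsElementaryAbelian p V) (hHV : H ≤ Subgroup.normalizer (V : Set G))
    (hq : ⁅⁅V, H⁆, H⁆ = ⊥) (a : G) (ha : a ∈ H) :
    a ^ p ∈ Subgroup.centralizer (V : Set G) := by
  rw [Subgroup.mem_centralizer_iff]
  intro v hv
  have hc : ⁅v, a⁆ ∈ ⁅V, H⁆ := Subgroup.commutator_mem_commutator hv ha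
  have hca : ⁅⁅v, a⁆, a⁆ = 1 := by
    have : ⁅⁅v, a⁆, a⁆ ∈ ⁅⁅V, H⁆, H⁆ := Subgroup.commutator_mem_commutator hc ha
    rwa [hq, Subgroup.mem_bot] at this
  have hcomm : Commute ⁅v, a⁆ a := commutatorElement_eq_one_iff_commute.mp hca
  have hcV : ⁅v, a⁆ ∈ V := (Subgroup.le_normalizer_iff_commutator_le_left.mp hHV) hc
  have hcp : ⁅v, a⁆ ^ p = 1 := hV.2 _ hcV
  have h1 : v * a * v⁻¹ = ⁅v, a⁆ * a := by simp [commutatorElement_def]
  have h2 : v * a ^ p * v⁻¹ = a ^ p := by
    rw [← conj_pow, h1, hcomm.mul_pow, hcp, one_mul]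
  calc v * a ^ p = v * a ^ p * v⁻¹ * v := by group
    _ = a ^ p * v := by rw [h2]

/-- Quadratic action on an elementary abelian p-group forces the acting group modulo the kernel of the action to be elementary abelian. -/
theorem result {G : Type*} [Group G] [Finite G] {p : ℕ} [Fact p.Prime] (V H : Subgroup G) (hV : Cfsg.IsElementaryAbelian p V) (hHV : H ≤ Subgroup.normalizer (V : Set G)) (hq : ⁅⁅V, H⁆, H⁆ = ⊥) : ⁅H, H⁆ ≤ Subgroup.centralizer (V : Set G) ∧ ∀ a ∈ H, a ^ p ∈ Subgroup.centralizer (V : Set G) := by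
  refine ⟨?_, fun a ha => aux V H hV hHV hq a ha⟩
  rw [← Subgroup.commutator_eq_bot_iff_le_centralizer]
  apply Subgroup.commutator_commutator_eq_bot_of_rotate
  · rw [Subgroup.commutator_comm H V]
    exact hq
  · exact hq

end Cfsg.Agent.S0590
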