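import Cfsg.Statements.S0597
-- import your own Cfsg.Agent.* helpers here
import Mathlib
import Cfsg.Agent.Lib.Helper28.Cores
import Cfsg.Agent.S0538
import Cfsg.Agent.S0590

set_option autoImplicit false
open Cfsg

namespace Cfsg.Agent.S0597

open Subgroup
open scoped commutatorElement

/-- elements of `N(V)` acting trivially on `V / W` -/
def stab {G : Type*} [Group G] (V W : Subgroup G) (hWV : W ≤ V) : Subgroup G where
  carrier := {t | t ∈ normalizer (V : Set G) ∧ ∀ v ∈ V, t * v * t⁻¹ * v⁻¹ ∈ W}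
  one_mem' := ⟨Subgroup.one_mem _, fun v _ => by simp⟩
  mul_mem' := by
    rintro t s ⟨ht, ht'⟩ ⟨hs, hs'⟩
    refine ⟨Subgroup.mul_mem _ ht hs, fun v hv => ?_⟩
    have h1 := hs' v hv
    have h2 := ht' _ (hWV h1)
    have h3 : t * (s * v * s⁻¹ * v⁻¹) * t⁻¹ ∈ W := by
      have := W.mul_mem h2 h1
      rwa [inv_mul_cancel_right] at this
    have h4 := W.mul_mem h3 (ht' v hv)
    have : t * s * v * (t * s)⁻¹ * v⁻¹ = t * (s * v * s⁻¹ * v⁻¹) * t⁻¹ * (t * v * t⁻¹ * v⁻¹) := by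
      group
    rw [this]
    exact h4
  inv_mem' := by
    rintro t ⟨ht, ht'⟩
    refine ⟨Subgroup.inv_mem _ ht, fun v hv => ?_⟩
    have hu : t⁻¹ * v * t ∈ V := (mem_normalizer_iff''.mp ht v).mp hv
    have h1 := W.inv_mem (ht' _ hu)
    have : t⁻¹ * v * t⁻¹⁻¹ * v⁻¹ = (t * (t⁻¹ * v * t) * t⁻¹ * (t⁻¹ * v * t)⁻¹)⁻¹ := by group
    rw [this]
    exact h1

theorem quad {G : Type*} [Group G] (V E₁ E₂ : Subgroup G) [IsMulCommutative V]
    (h₁ : E₁ ≤ normalizer (V : Set G)) (h₂ : E₂ ≤ normalizer (V : Set G))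
    (hc : ⁅⁅V, E₁⁆, E₂⁆ = ⊥) : ⁅⁅V, ⁅E₁, E₂⁆⁆, ⁅E₁, E₂⁆⁆ = ⊥ := by
  have hWV : ⁅V, E₁⁆ ≤ V := le_normalizer_iff_commutator_le_left.mp h₁
  have hWE₂ : ⁅V, E₁⁆ ≤ centralizer (E₂ : Set G) := commutator_eq_bot_iff_le_centralizer.mp hc
  -- D centralizes W
  have hD1 : ⁅⁅E₁, E₂⁆, ⁅V, E₁⁆⁆ = ⊥ := by
    apply commutator_commutator_eq_bot_of_rotate
    · rw [commutator_comm E₂, hc]
      exact commutator_bot_left E₁
    · rw [eq_bot_iff, ← hc]
      apply commutator_mono _ le_rfl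
      exact le_normalizer_iff_commutator_le_left.mp (normalizer_commutator_ge_right V E₁)
  -- D acts trivially on V / W
  have hE₁ : E₁ ≤ stab V ⁅V, E₁⁆ hWV := by
    intro e he
    refine ⟨h₁ he, fun v hv => ?_⟩
    have := (⁅V, E₁⁆).inv_mem (commutator_mem_commutator hv he)
    rwa [commutatorElement_inv, commutatorElement_def] at this
  have hD2 : ⁅E₁, E₂⁆ ≤ stab V ⁅V, E₁⁆ hWV := by
    rw [commutator_le]
    intro e₁ he₁ e₂ he₂
    have hconj : e₂ * e₁⁻¹ * e₂⁻¹ ∈ stab V ⁅V, E₁⁆ hWV := by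
      obtain ⟨ht, ht'⟩ := hE₁ (E₁.inv_mem he₁)
      refine ⟨Subgroup.mul_mem _ (Subgroup.mul_mem _ (h₂ he₂) ht) (Subgroup.inv_mem _ (h₂ he₂)),
        fun v hv => ?_⟩
      have hu : e₂⁻¹ * v * e₂ ∈ V := (mem_normalizer_iff''.mp (h₂ he₂) v).mp hv
      have h1 := ht' _ hu
      have h2 := mem_centralizer_iff.mp (hWE₂ h1) e₂ he₂
      have : e₂ * e₁⁻¹ * e₂⁻¹ * v * (e₂ * e₁⁻¹ * e₂⁻¹)⁻¹ * v⁻¹ =
          (e₂ * (e₁⁻¹ * (e₂⁻¹ * v * e₂) * e₁⁻¹⁻¹ * (e₂⁻¹ * v * e₂)⁻¹)) * e₂⁻¹ := by group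
      rw [this, h2]
      simpa using h1
    have : ⁅e₁, e₂⁆ = e₁ * (e₂ * e₁⁻¹ * e₂⁻¹) := by
      rw [commutatorElement_def]; group
    rw [this]
    exact Subgroup.mul_mem _ (hE₁ he₁) hconj
  have hVD : ⁅V, ⁅E₁, E₂⁆⁆ ≤ ⁅V, E₁⁆ := by
    rw [commutator_le]
    intro v hv d hd
    have := (⁅V, E₁⁆).inv_mem ((hD2 hd).2 v hv)
    have e : ⁅v, d⁆ = (d * v * d⁻¹ * v⁻¹)⁻¹ := by
      rw [commutatorElement_def]; group
    rw [e]
    exact this
  rw [eq_bot_iff, ← hD1, commutator_comm ⁅E₁, E₂⁆]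
  exact commutator_mono hVD le_rfl

/-- If two subnormal subgroups of a faithful group on an elementary abelian p-group satisfy [V, E₁, E₂] = 1, then their commutator lies in the largest normal p-subgroup. -/
theorem result {G : Type*} [Group G] [Finite G] {p : ℕ} [Fact p.Prime] (V H : Subgroup G) (hV : Cfsg.IsElementaryAbelian p V) (hHV : H ≤ Subgroup.normalizer (V : Set G)) (hf : H ⊓ Subgroup.centralizer (V : Set G) = ⊥) (E₁ E₂ : Subgroup G) (h₁ : E₁ ≤ H) (h₂ : E₂ ≤ H) (hs₁ : (E₁.subgroupOf H).IsSubnormal) (hs₂ : (E₂.subgroupOf H).IsSubnormal) (hc : ⁅⁅V, E₁⁆, E₂⁆ = ⊥) : ⁅E₁, E₂⁆ ≤ (Cfsg.pCore p H).map H.subtype := by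
  have hVc := hV.1
  have hq := quad V E₁ E₂ (h₁.trans hHV) (h₂.trans hHV) hc
  have hDH : ⁅E₁, E₂⁆ ≤ H := by
    rw [Subgroup.commutator_le]
    intro a ha b hb
    rw [commutatorElement_def]
    exact H.mul_mem (H.mul_mem (H.mul_mem (h₁ ha) (h₂ hb)) (H.inv_mem (h₁ ha))) (H.inv_mem (h₂ hb))
  have hpow := (Cfsg.Agent.S0590.result V ⁅E₁, E₂⁆ hV (hDH.trans hHV) hq).2
  have hexp : ∀ a ∈ ⁅E₁, E₂⁆, a ^ p = 1 := by
    intro a ha
    have : a ^ p ∈ H ⊓ Subgroup.centralizer (V : Set G) := ⟨H.pow_mem (hDH ha) p, hpow a ha⟩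
    rwa [hf, Subgroup.mem_bot] at this
  have hsub : (⁅E₁.subgroupOf H, E₂.subgroupOf H⁆).IsSubnormal := by
    have hT := Cfsg.Agent.S0538.result _ _ hs₁ hs₂
    have hle : ⁅E₁.subgroupOf H, E₂.subgroupOf H⁆ ≤ E₁.subgroupOf H ⊔ E₂.subgroupOf H := by
      rw [Subgroup.commutator_le]
      intro a ha b hb
      rw [commutatorElement_def]
      have ha' := (le_sup_left : _ ≤ E₁.subgroupOf H ⊔ E₂.subgroupOf H) ha
      have hb' := (le_sup_right : _ ≤ E₁.subgroupOf H ⊔ E₂.subgroupOf H) hb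
      exact Subgroup.mul_mem _ (Subgroup.mul_mem _ (Subgroup.mul_mem _ ha' hb')
        (Subgroup.inv_mem _ ha')) (Subgroup.inv_mem _ hb')
    refine Subgroup.IsSubnormal.step _ _ hle hT
      ((Subgroup.normal_subgroupOf_iff_le_normalizer hle).mpr ?_)
    exact sup_le (Subgroup.normalizer_commutator_ge_left _ _)
      (Subgroup.normalizer_commutator_ge_right _ _)
  have hmap : (⁅E₁.subgroupOf H, E₂.subgroupOf H⁆).map H.subtype = ⁅E₁, E₂⁆ := by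
    rw [Subgroup.map_commutator, Subgroup.subgroupOf_map_subtype, Subgroup.subgroupOf_map_subtype,
      inf_of_le_left h₁, inf_of_le_left h₂]
  have hp : IsPGroup p ↥(⁅E₁.subgroupOf H, E₂.subgroupOf H⁆) := by
    intro a
    refine ⟨1, ?_⟩
    apply Subtype.ext
    apply Subtype.ext
    rw [pow_one]
    apply hexp
    rw [← hmap]
    exact ⟨a, a.2, rfl⟩
  rw [← hmap]
  exact Subgroup.map_mono (Cfsg.Agent.Lib.Helper28.subnormal_le_pCore hsub hp)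

end Cfsg.Agent.S0597
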