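import Cfsg.Statements.S1181
import Cfsg.Agent.Lib.Helper25.Isolated

set_option autoImplicit false
open Cfsg

namespace Cfsg.Agent.S1181

open Cfsg.Agent.Lib.Helper25

/-- Let z be an isolated involution of the finite group G and N a normal subgroup with z ∉ N. Then the centralizer of zN in G/N is the image of C_G(z), and zN is an isolated involution of G/N. -/
theorem result {G : Type*} [Group G] [Finite G] (z : G) (hz : Cfsg.IsIsolatedInvolution z) (N : Subgroup G) [N.Normal] (hzN : z ∉ N) : Subgroup.centralizer ({(QuotientGroup.mk z : G ⧸ N)} : Set (G ⧸ N)) = (Subgroup.centralizer ({z} : Set G)).map (QuotientGroup.mk' N) ∧ Cfsg.IsIsolatedInvolution (QuotientGroup.mk z : G ⧸ N) := by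
  have hzz := isolated_sq hz
  have hz' := isolated_inv hz
  constructor
  · ext q
    obtain ⟨g, rfl⟩ := QuotientGroup.mk_surjective q
    rw [Subgroup.mem_centralizer_singleton_iff, Subgroup.mem_map]
    constructor
    · intro h
      -- z * (g z g⁻¹) ∈ N
      have h1 : z * (g * z * g⁻¹) ∈ N := by
        rw [← QuotientGroup.eq_one_iff]
        have e : ((z * (g * z * g⁻¹) : G) : G ⧸ N) = (z : G ⧸ N) * ((g : G ⧸ N) * (z : G ⧸ N)) * (g : G ⧸ N)⁻¹ := by
          simp [mul_assoc]
        rw [e, h]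
        have : ((z : G ⧸ N)) * (z : G ⧸ N) = 1 := by
          rw [← QuotientGroup.mk_mul, hzz]; rfl
        rw [← mul_assoc, this, one_mul, mul_inv_cancel]
      obtain ⟨j, hj⟩ := isolated_conj_pow hz g
      have hcN := N.pow_mem h1 j
      generalize (z * (g * z * g⁻¹)) ^ j = c at hj hcN
      refine ⟨c⁻¹ * g, ?_, ?_⟩
      · rw [Subgroup.mem_centralizer_singleton_iff]
        have e1 : c⁻¹ * g * z = c⁻¹ * (g * z * g⁻¹) * g := by group
        rw [e1, ← hj]; group
      · rw [QuotientGroup.mk'_apply, QuotientGroup.eq]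
        have : (c⁻¹ * g)⁻¹ * g = g⁻¹ * c * g := by group
        rw [this]
        have := (inferInstance : N.Normal).conj_mem c hcN g⁻¹
        simpa using this
    · rintro ⟨c, hc, hcg⟩
      rw [Subgroup.mem_centralizer_singleton_iff] at hc
      rw [← hcg, QuotientGroup.mk'_apply, ← QuotientGroup.mk_mul, ← QuotientGroup.mk_mul, hc]
  · refine ⟨?_, ?_⟩
    · apply orderOf_eq_prime
      · rw [← QuotientGroup.mk_pow, pow_two, hzz]; rfl
      · intro h
        exact hzN ((QuotientGroup.eq_one_iff z).1 h)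
    · intro q hq
      obtain ⟨g, rfl⟩ := QuotientGroup.mk_surjective q
      have hodd := isolated_odd_mul hz g
      have hww : (g * z * g⁻¹) * (g * z * g⁻¹) = 1 := conj_sq hzz g
      have e0 : (g : G ⧸ N) * (z : G ⧸ N) * (g : G ⧸ N)⁻¹ = ((g * z * g⁻¹ : G) : G ⧸ N) := by simp
      rw [e0] at hq ⊢
      generalize g * z * g⁻¹ = w at hodd hww hq
      have hodd' : Odd (orderOf ((z * w : G) : G ⧸ N)) :=
        Odd.of_dvd_nat hodd (orderOf_map_dvd (QuotientGroup.mk' N) (z * w))
      have hsq : ((z * w : G) : G ⧸ N) * ((z * w : G) : G ⧸ N) = 1 := by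
        have h1 : ((z : G) : G ⧸ N) * (z : G ⧸ N) = 1 := by rw [← QuotientGroup.mk_mul, hzz]; rfl
        have h2 : ((w : G) : G ⧸ N) * (w : G ⧸ N) = 1 := by rw [← QuotientGroup.mk_mul, hww]; rfl
        rw [QuotientGroup.mk_mul]
        calc (z : G ⧸ N) * w * (z * w) = (z : G ⧸ N) * (w * z) * w := by group
          _ = (z : G ⧸ N) * (z * w) * w := by rw [hq.eq]
          _ = ((z : G ⧸ N) * z) * (w * w) := by group
          _ = 1 := by rw [h1, h2, one_mul]
      have h1 := eq_one_of_odd_of_sq hodd' hsq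
      rw [QuotientGroup.mk_mul] at h1
      have h2 : ((z : G) : G ⧸ N) * (z : G ⧸ N) = 1 := by rw [← QuotientGroup.mk_mul, hzz]; rfl
      have h3 := eq_inv_of_mul_eq_one_right h1
      rw [h3]; exact inv_eq_of_mul_eq_one_left h2

end Cfsg.Agent.S1181
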