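import Cfsg.Statements.S1182
import Cfsg.Agent.Lib.Helper25.Isolated

set_option autoImplicit false
open Cfsg

namespace Cfsg.Agent.S1182

open Cfsg.Agent.Lib.Helper25

/-- Let z be an isolated involution of the finite group G and H a subgroup normalized by z. If x, y ∈ H both commute with z and y = h x h⁻¹ for some h ∈ H, then y = c x c⁻¹ for some c ∈ H commuting with z. -/
theorem result {G : Type*} [Group G] [Finite G] (z : G) (hz : Cfsg.IsIsolatedInvolution z) (H : Subgroup G) (hzH : z ∈ Subgroup.normalizer (H : Set G)) (x y : G) (hx : x ∈ H) (hy : y ∈ H) (hxz : Commute x z) (hyz : Commute y z) (h : G) (hh : h ∈ H) (hconj : h * x * h⁻¹ = y) : ∃ c ∈ H, Commute c z ∧ c * x * c⁻¹ = y := by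
  have hzz := isolated_sq hz
  have hz' := isolated_inv hz
  obtain ⟨j, hj⟩ := isolated_conj_pow hz h
  -- a = z * (h z h⁻¹) lies in H and commutes with y
  have haH : z * (h * z * h⁻¹) ∈ H := by
    have h1 : z * h * z⁻¹ ∈ H := (Subgroup.mem_normalizer_iff.1 hzH h).1 hh
    have : z * (h * z * h⁻¹) = (z * h * z⁻¹) * h⁻¹ := by rw [hz']; group
    rw [this]; exact H.mul_mem h1 (H.inv_mem hh)
  have hay : Commute (z * (h * z * h⁻¹)) y := by
    apply Commute.mul_left hyz.symm
    rw [← hconj]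
    unfold Commute SemiconjBy
    have e1 : h * z * h⁻¹ * (h * x * h⁻¹) = h * (z * x) * h⁻¹ := by group
    have e2 : h * x * h⁻¹ * (h * z * h⁻¹) = h * (x * z) * h⁻¹ := by group
    rw [e1, e2, hxz.eq]
  have hcH := H.pow_mem haH j
  have hc : Commute ((z * (h * z * h⁻¹)) ^ j) y := hay.pow_left j
  generalize (z * (h * z * h⁻¹)) ^ j = c at hj hcH hc
  refine ⟨c⁻¹ * h, H.mul_mem (H.inv_mem hcH) hh, ?_, ?_⟩
  · unfold Commute SemiconjBy
    have e1 : c⁻¹ * h * z = c⁻¹ * (h * z * h⁻¹) * h := by group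
    rw [e1, ← hj]
    group
  · have e1 : c⁻¹ * h * x * (c⁻¹ * h)⁻¹ = c⁻¹ * (h * x * h⁻¹) * c := by group
    rw [e1, hconj, mul_assoc, ← hc.eq, ← mul_assoc, inv_mul_cancel, one_mul]

end Cfsg.Agent.S1182
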