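import Cfsg.Statements.S0783
-- import your own Cfsg.Agent.* helpers here
import Cfsg.Agent.Lib.Helper17.GU

set_option autoImplicit false
open Cfsg

namespace Cfsg.Agent.S0783

open Cfsg.Agent.Lib.Helper17 Matrix

section
variable {F : Type*} [Field F] [Fintype F] {q : ℕ}

theorem card_N (hF : Fintype.card F = q ^ 2) : Nat.card (powMonoidHom (q + 1) : Fˣ →* Fˣ).ker = q + 1 := by
  classical
  have hq2 := two_le_of_card_sq hF
  have hcardU : Nat.card Fˣ = q ^ 2 - 1 := by
    rw [Nat.card_eq_fintype_card, Fintype.card_units, hF]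
  have hfac : q ^ 2 - 1 = (q - 1) * (q + 1) := by
    obtain ⟨r, rfl⟩ : ∃ r, q = r + 1 := ⟨q - 1, by omega⟩
    simp only [Nat.add_sub_cancel]
    have : (r + 1) ^ 2 = r * (r + 1 + 1) + 1 := by ring
    rw [this, Nat.add_sub_cancel]
  rw [IsCyclic.card_powMonoidHom_ker, hcardU, hfac]
  exact Nat.gcd_eq_right (Dvd.intro_left _ rfl)

/-- central elements of `GU` are scalar -/
theorem center_scalar (hF : Fintype.card F = q ^ 2) {n : ℕ} (z : ↥(Cfsg.GU n F q))
    (hz : z ∈ Subgroup.center ↥(Cfsg.GU n F q)) (i0 : Fin n) :
    ((z : Matrix.GeneralLinearGroup (Fin n) F) : Matrix (Fin n) (Fin n) F) =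
      Matrix.diagonal (fun _ => ((z : Matrix.GeneralLinearGroup (Fin n) F) : Matrix (Fin n) (Fin n) F) i0 i0) := by
  classical
  rw [Subgroup.mem_center_iff] at hz
  set Z := ((z : Matrix.GeneralLinearGroup (Fin n) F) : Matrix (Fin n) (Fin n) F) with hZ
  have hnt : Nontrivial (powMonoidHom (q + 1) : Fˣ →* Fˣ).ker := by
    rw [← Finite.one_lt_card_iff_nontrivial, card_N hF]
    have := two_le_of_card_sq hF
    omega
  obtain ⟨l, hl⟩ := exists_ne (1 : (powMonoidHom (q + 1) : Fˣ →* Fˣ).ker)
  have hl1 : (l : Fˣ) ^ (q + 1) = 1 := l.2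
  have hl2 : ((l : Fˣ) : F) ≠ 1 := by
    intro h
    apply hl
    apply Subtype.ext
    apply Units.ext
    simpa using h
  have hoff : ∀ a b, a ≠ b → Z a b = 0 := by
    intro a b hab
    have h1 := hz (diagGU (fun i => if i = a then (l : Fˣ) else 1) (by
      intro i
      split_ifs
      · exact hl1
      · exact one_pow _))
    have h2 := congrArg (fun x : ↥(Cfsg.GU n F q) =>
      ((x : Matrix.GeneralLinearGroup (Fin n) F) : Matrix (Fin n) (Fin n) F)) h1
    simp only [Subgroup.coe_mul, Units.val_mul, diagGU_coe] at h2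
    have h3 := congrFun (congrFun h2 a) b
    rw [Matrix.diagonal_mul, Matrix.mul_diagonal] at h3
    simp only [if_true, if_neg hab.symm, Units.val_one, mul_one] at h3
    have h4 : (((l : Fˣ) : F) - 1) * Z a b = 0 := by linear_combination h3
    exact (mul_eq_zero.mp h4).resolve_left (sub_ne_zero.mpr hl2)
  have hdiag : ∀ a b, Z a a = Z b b := by
    intro a b
    have h1 := hz (swapGU a b)
    have h2 := congrArg (fun x : ↥(Cfsg.GU n F q) =>
      ((x : Matrix.GeneralLinearGroup (Fin n) F) : Matrix (Fin n) (Fin n) F)) h1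
    simp only [Subgroup.coe_mul, Units.val_mul, swapGU_coe] at h2
    have h3 := congrFun (congrArg (fun M => M *ᵥ (Pi.single b 1 : Fin n → F)) h2) a
    simp only [← Matrix.mulVec_mulVec, Matrix.permMatrix_mulVec, Function.comp_apply, Equiv.swap_apply_left] at h3
    have h4 : (Pi.single b 1 : Fin n → F) ∘ (Equiv.swap a b) = Pi.single a 1 := by
      funext i
      simp only [Function.comp_apply, Pi.single_apply]
      by_cases hi : i = a
      · simp [hi]
      · have : Equiv.swap a b i ≠ b := by
          intro h
          apply hi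
          have := congrArg (Equiv.swap a b) h
          simpa using this
        simp [hi, this]
    rw [h4] at h3
    simp only [Matrix.mulVec_single_one, Matrix.col_apply] at h3
    exact h3.symm
  ext a b
  by_cases hab : a = b
  · subst hab
    rw [Matrix.diagonal_apply_eq]
    exact hdiag a i0
  · rw [Matrix.diagonal_apply_ne _ hab]
    exact hoff a b hab

end

/-- PGU_n(q)/PSU_n(q) is cyclic of order (n, q+1): for n ≥ 2 and |F| = q² there is a surjective homomorphism from GU_n(q) onto the cyclic group of order gcd(n, q + 1) whose kernel is generated by the determinant-one elements together with the centre. -/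
theorem result {F : Type*} [Field F] [Fintype F] {q : ℕ} (hF : Fintype.card F = q ^ 2) (n : ℕ) (hn : 2 ≤ n) : ∃ φ : ↥(Cfsg.GU n F q) →* Multiplicative (ZMod (Nat.gcd n (q + 1))), Function.Surjective φ ∧ φ.ker = (Matrix.GeneralLinearGroup.det : Matrix.GeneralLinearGroup (Fin n) F →* Fˣ).ker.subgroupOf (Cfsg.GU n F q) ⊔ Subgroup.center ↥(Cfsg.GU n F q) := by
  classical
  have hq2 := two_le_of_card_sq hF
  let i0 : Fin n := ⟨0, by omega⟩
  let N : Subgroup Fˣ := (powMonoidHom (q + 1) : Fˣ →* Fˣ).ker
  have hcardN : Nat.card N = q + 1 := card_N hF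
  have hNmem : ∀ x : Fˣ, x ∈ N ↔ x ^ (q + 1) = 1 := fun x => by
    rw [MonoidHom.mem_ker, powMonoidHom_apply]
  let detN : ↥(Cfsg.GU n F q) →* N :=
    ((Matrix.GeneralLinearGroup.det : Matrix.GeneralLinearGroup (Fin n) F →* Fˣ).comp
      (Cfsg.GU n F q).subtype).codRestrict N (fun g => by
        rw [hNmem]
        apply Units.ext
        simpa using GU_det_pow hF g.2)
  have hdetN : ∀ g : ↥(Cfsg.GU n F q), (((detN g : N) : Fˣ) : F) =
      ((g : Matrix.GeneralLinearGroup (Fin n) F) : Matrix (Fin n) (Fin n) F).det := fun g => rfl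
  let R : Subgroup N := (powMonoidHom n : N →* N).range
  have hidx : R.index = Nat.gcd n (q + 1) := by
    rw [IsCyclic.index_powMonoidHom_range, hcardN, Nat.gcd_comm]
  have hcyc : IsCyclic (N ⧸ R) := isCyclic_of_surjective (QuotientGroup.mk' R) (QuotientGroup.mk'_surjective R)
  have hcardQ : Nat.card (N ⧸ R) = Nat.card (Multiplicative (ZMod (Nat.gcd n (q + 1)))) := by
    rw [Nat.card_congr Multiplicative.toAdd, Nat.card_zmod, ← hidx]
    rfl
  let iso : N ⧸ R ≃* Multiplicative (ZMod (Nat.gcd n (q + 1))) := mulEquivOfCyclicCardEq hcardQ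
  have hsurj : Function.Surjective detN := by
    intro l
    refine ⟨diagGU (fun i => if i = i0 then (l : Fˣ) else 1) (by
      intro i
      split_ifs
      · exact (hNmem _).mp l.2
      · exact one_pow _), ?_⟩
    apply Subtype.ext
    apply Units.ext
    rw [hdetN, diagGU_coe, Matrix.det_diagonal]
    rw [Finset.prod_eq_single i0]
    · simp
    · intro b _ hb
      simp [hb]
    · simp
  refine ⟨iso.toMonoidHom.comp ((QuotientGroup.mk' R).comp detN), ?_, ?_⟩
  · exact iso.surjective.comp ((QuotientGroup.mk'_surjective R).comp hsurj)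
  · have hker : ∀ g : ↥(Cfsg.GU n F q), g ∈ (iso.toMonoidHom.comp ((QuotientGroup.mk' R).comp detN)).ker ↔
        detN g ∈ R := by
      intro g
      rw [MonoidHom.mem_ker]
      simp only [MonoidHom.comp_apply, MulEquiv.coe_toMonoidHom, QuotientGroup.mk'_apply]
      rw [MulEquiv.map_eq_one_iff, QuotientGroup.eq_one_iff]
    apply le_antisymm
    · intro g hg
      rw [hker] at hg
      obtain ⟨l, hl⟩ := hg
      let s : ↥(Cfsg.GU n F q) := diagGU (fun _ => (l : Fˣ)) (fun _ => (hNmem _).mp l.2)
      have hscoe : ((s : Matrix.GeneralLinearGroup (Fin n) F) : Matrix (Fin n) (Fin n) F) =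
          Matrix.diagonal (fun _ => ((l : Fˣ) : F)) := rfl
      have hs : s ∈ Subgroup.center ↥(Cfsg.GU n F q) := by
        rw [Subgroup.mem_center_iff]
        intro x
        apply Subtype.ext
        apply Units.ext
        simp only [Subgroup.coe_mul, Units.val_mul, hscoe]
        ext a b
        rw [Matrix.diagonal_mul, Matrix.mul_diagonal, mul_comm]
      have hdets : detN s = l ^ n := by
        apply Subtype.ext
        apply Units.ext
        rw [hdetN]
        simp only [hscoe, Matrix.det_diagonal, Finset.prod_const, Finset.card_univ, Fintype.card_fin]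
        simp
      have hgs : g * s⁻¹ ∈ (Matrix.GeneralLinearGroup.det : Matrix.GeneralLinearGroup (Fin n) F →* Fˣ).ker.subgroupOf
          (Cfsg.GU n F q) := by
        rw [Subgroup.mem_subgroupOf, MonoidHom.mem_ker]
        have h1 : detN (g * s⁻¹) = 1 := by
          rw [map_mul, map_inv, hdets, ← hl]
          simp
        exact congrArg Subtype.val h1
      have : g = (g * s⁻¹) * s := by group
      rw [this]
      exact Subgroup.mul_mem_sup hgs hs
    · apply sup_le
      · intro g hg
        rw [hker]
        rw [Subgroup.mem_subgroupOf, MonoidHom.mem_ker] at hg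
        have : detN g = 1 := Subtype.ext hg
        rw [this]
        exact one_mem _
      · intro z hz
        rw [hker]
        have hsc := center_scalar hF z hz i0
        set ζ := ((z : Matrix.GeneralLinearGroup (Fin n) F) : Matrix (Fin n) (Fin n) F) i0 i0 with hζ
        have hζq : ζ ^ (q + 1) = 1 := by
          have h1 := z.2 (Pi.single i0 1) (Pi.single i0 1)
          simp only [Units.coeHom_apply] at h1
          rw [hsc, hermForm_single_left] at h1
          simp only [Cfsg.hermForm, Matrix.mulVec_diagonal] at h1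
          rw [Finset.sum_eq_single i0] at h1
          · simp only [Pi.single_eq_same, mul_one, one_pow] at h1
            rw [pow_succ, mul_comm]
            exact h1
          · intro b _ hb
            simp [hb]
          · simp
        have hζ0 : ζ ≠ 0 := by
          intro h
          rw [h, zero_pow (by omega)] at hζq
          exact zero_ne_one hζq
        refine ⟨⟨Units.mk0 ζ hζ0, ?_⟩, ?_⟩
        · rw [hNmem]
          apply Units.ext
          simpa using hζq
        · apply Subtype.ext
          apply Units.ext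
          rw [hdetN, hsc, Matrix.det_diagonal]
          simp

end Cfsg.Agent.S0783
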