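import Cfsg.Statements.S1443
import Cfsg.Agent.S0120
import Cfsg.Agent.Lib.Helper11.AxB

set_option autoImplicit false
open Cfsg

namespace Cfsg.Agent.S1443

/-- odd `p`: a `p'`-subgroup normalizing a `p`-subgroup `C` and centralizing its elements of order `p`
centralizes `C`. -/
theorem centralizes_of_omega {G : Type*} [Group G] [Finite G] (p : ℕ) [Fact p.Prime] (hp : p ≠ 2)
    (C A : Subgroup G) (hC : IsPGroup p C) (hA : A ≤ Subgroup.normalizer (C : Set G))
    (hcop : (Nat.card A).Coprime p)
    (hfix : ∀ x ∈ C, x ^ p = 1 → ∀ a ∈ A, a * x = x * a) :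
    A ≤ Subgroup.centralizer (C : Set G) := by
  intro a ha
  set α : MulAut C := C.normalizerMonoidHom ⟨a, hA ha⟩ with hα
  have hord : Nat.Coprime (orderOf α) p := by
    have h1 : orderOf α ∣ orderOf (⟨a, hA ha⟩ : Subgroup.normalizer (C : Set G)) := orderOf_map_dvd _ _
    rw [Subgroup.orderOf_mk] at h1
    have h2 : orderOf a ∣ Nat.card A := by
      have := orderOf_dvd_natCard (⟨a, ha⟩ : A)
      rwa [Subgroup.orderOf_mk] at this
    exact Nat.Coprime.coprime_dvd_left (h1.trans h2) hcop
  have h1 : α = 1 := by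
    apply Cfsg.Agent.S0120.result hp hC α hord
    intro x hx
    apply Subtype.ext
    change a * x * a⁻¹ = x
    have h3 : (x : G) ^ p = 1 := congrArg Subtype.val hx
    rw [hfix x x.2 h3 a ha]
    group
  rw [Subgroup.mem_centralizer_iff]
  intro x hx
  have h2 : α ⟨x, hx⟩ = ⟨x, hx⟩ := by rw [h1]; rfl
  have h3 : a * x * a⁻¹ = x := congrArg Subtype.val h2
  calc x * a = a * x * a⁻¹ * a := by rw [h3]
    _ = a * x := by group

/-- Let G be a finite group, p an odd prime, H a p-subgroup, E an elementary abelian subgroup of H, and A a subgroup of order coprime to p normalizing H. If A centralizes every element of order p in H ∩ C_G(E), then A centralizes H. -/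
theorem result {G : Type*} [Group G] [Finite G] (p : ℕ) [Fact p.Prime] (hp : p ≠ 2) (H E A : Subgroup G) (hH : IsPGroup p H) (hE : E ≤ H) (hEe : Cfsg.IsElementaryAbelian p E)
    (hA : (A ≤ Subgroup.normalizer (H : Set G))) (hcop : (Nat.card A).Coprime p)
    (hfix : ∀ x ∈ (H ⊓ Subgroup.centralizer (E : Set G)), orderOf x = p → A ≤ Subgroup.centralizer ({x} : Set G)) :
    A ≤ Subgroup.centralizer (H : Set G) := by
  have hpp : p.Prime := Fact.out
  have hfix' : ∀ x ∈ H ⊓ Subgroup.centralizer (E : Set G), x ^ p = 1 → ∀ a ∈ A, a * x = x * a := by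
    intro x hx hxp a ha
    by_cases hx1 : x = 1
    · rw [hx1]; simp
    · have := hfix x hx (orderOf_eq_prime hxp hx1) ha
      exact Subgroup.mem_centralizer_singleton_iff.mp this
  have hEc : E ≤ Subgroup.centralizer (E : Set G) :=
    Subgroup.le_centralizer_iff_isMulCommutative.mpr hEe.1
  have hAE : A ≤ Subgroup.centralizer (E : Set G) := by
    intro a ha
    rw [Subgroup.mem_centralizer_iff]
    intro x hx
    exact (hfix' x ⟨hE hx, hEc hx⟩ (hEe.2 x hx) a ha).symm
  have hAN : A ≤ Subgroup.normalizer ((H ⊓ Subgroup.centralizer (E : Set G) : Subgroup G) : Set G) := by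
    intro a ha
    rw [Subgroup.mem_normalizer_iff]
    intro x
    have h1 := Subgroup.mem_normalizer_iff.mp (hA ha) x
    have h2 : x ∈ Subgroup.centralizer (E : Set G) ↔ a * x * a⁻¹ ∈ Subgroup.centralizer (E : Set G) := by
      constructor
      · intro hx
        exact Subgroup.mul_mem _ (Subgroup.mul_mem _ (hAE ha) hx) (Subgroup.inv_mem _ (hAE ha))
      · intro hx
        have : x = a⁻¹ * (a * x * a⁻¹) * a := by group
        rw [this]
        exact Subgroup.mul_mem _ (Subgroup.mul_mem _ (Subgroup.inv_mem _ (hAE ha)) hx) (hAE ha)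
    rw [Subgroup.mem_inf, Subgroup.mem_inf, h1, h2]
  have hAC := centralizes_of_omega p hp _ A (hH.to_le inf_le_left) hAN hcop hfix'
  exact Cfsg.Agent.Lib.Helper11.thompson_AxB E A (hH.to_le hE) hcop hAE H hH
    (hE.trans Subgroup.le_normalizer) hA hAC

end Cfsg.Agent.S1443
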