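import Cfsg.Statements.S3798
-- import your own Cfsg.Agent.* helpers here
import Cfsg.Agent.S1443
import Cfsg.Agent.Lib.Helper66.PLength
import Cfsg.Agent.Lib.Helper66.PComplement
import Cfsg.Agent.Lib.Helper80.PSolv
import Cfsg.Agent.Lib.Helper14.PConstrained
import Cfsg.Agent.Lib.Helper1.Cores

set_option autoImplicit false
open Cfsg

namespace Cfsg.Agent.S3798


open Cfsg.Agent.Lib.Helper1 Cfsg.Agent.Lib.Helper66 in
theorem plen_of_index {X : Type*} [Group X] [Finite X] (p : ℕ) [hp : Fact p.Prime]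
    (h : ¬ p ∣ (Cfsg.pCore p X).index) : Cfsg.PLengthLE p 1 X := by
  rw [pLengthLE_iff, eq_top_iff]
  have hn : (Cfsg.pCore p X).Normal := pCore_normal p X
  have h2 : Cfsg.pCore p X ≤ ups p X 2 := by
    obtain ⟨m, hm⟩ := IsPGroup.iff_card.1 (pCore_isPGroup p X)
    apply le_ups_succ_of_odd (j := 1) (X := ⊥) (m := m) (by decide) hn bot_le
    rw [Subgroup.relIndex_bot_left, hm]
  apply le_ups_succ_of_even (j := 2) (X := Cfsg.pCore p X) (by decide) inferInstance h2
  rw [Subgroup.relIndex_top_right]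
  exact ((Nat.Prime.coprime_iff_not_dvd hp.out).2 h).symm

/-- lifting elements of order `p` through a normal `p'`-subgroup -/
theorem lift_order {G : Type*} [Group G] [Finite G] {p : ℕ} [hp : Fact p.Prime] (N : Subgroup G) [N.Normal]
    (hN : (Nat.card N).Coprime p) (y : G ⧸ N) (hy : orderOf y = p) :
    ∃ x : G, orderOf x = p ∧ QuotientGroup.mk' N x = y := by
  obtain ⟨u, rfl⟩ := QuotientGroup.mk'_surjective N y
  obtain ⟨e, he1, he0⟩ := Nat.chineseRemainder hN.symm 1 0
  have hup : u ^ p ∈ N := by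
    rw [← QuotientGroup.eq_one_iff, ← QuotientGroup.mk'_apply, map_pow, ← hy, pow_orderOf_eq_one]
  have hmk : QuotientGroup.mk' N (u ^ e) = QuotientGroup.mk' N u := by
    rw [map_pow, ← pow_mod_orderOf, hy, he1, Nat.mod_eq_of_lt hp.out.one_lt, pow_one]
  refine ⟨u ^ e, ?_, hmk⟩
  apply orderOf_eq_prime
  · rw [← pow_mul, mul_comm, pow_mul]
    have h1 : (⟨u ^ p, hup⟩ : N) ^ Nat.card N = 1 := pow_card_eq_one'
    have h2 : (u ^ p) ^ Nat.card N = 1 := by
      have := congrArg Subtype.val h1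
      exact this
    obtain ⟨c, hc⟩ := (Nat.modEq_zero_iff_dvd.1 he0)
    rw [hc, pow_mul, h2, one_pow]
  · intro h1
    rw [h1, map_one] at hmk
    rw [← hmk, orderOf_one] at hy
    exact hp.out.one_lt.ne hy

theorem exists_order_p {X : Type*} [Group X] [Finite X] {p : ℕ} [hp : Fact p.Prime] {Y : Subgroup X}
    (hY : IsPGroup p Y) (hne : Y ≠ ⊥) : ∃ z ∈ Y, orderOf z = p := by
  obtain ⟨n, hn⟩ := IsPGroup.iff_card.1 hY
  have hd : p ∣ Nat.card Y := by
    rw [hn]
    rcases Nat.eq_zero_or_pos n with h0 | h0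
    · exfalso
      rw [h0, pow_zero] at hn
      exact hne (Subgroup.card_eq_one.1 hn)
    · exact dvd_pow_self p h0.ne'
  obtain ⟨z, hz⟩ := exists_prime_orderOf_dvd_card' p hd
  exact ⟨z, z.2, by rw [← hz, Subgroup.orderOf_coe]⟩

open Cfsg.Agent.Lib.Helper1 Cfsg.Agent.Lib.Helper66 Cfsg.Agent.Lib.Helper30 Cfsg.Agent.Lib.Helper14 in
theorem core {X : Type*} [Group X] [Finite X] {p : ℕ} [hp : Fact p.Prime] (hp2 : p ≠ 2)
    (hX : Cfsg.IsPSolvable p X) (h0 : Cfsg.pPrimeCore p X = ⊥)
    (hH : ∀ x y : X, orderOf x = p → orderOf y = p → ∃ a : MulAut X, a x ∈ Subgroup.zpowers y) :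
    ¬ p ∣ (Cfsg.pCore p X).index := by
  intro hdvd
  obtain ⟨T, hT⟩ : ∃ T, T = Cfsg.pCore p X := ⟨_, rfl⟩
  rw [← hT] at hdvd
  haveI hTn : T.Normal := hT ▸ Cfsg.Agent.Lib.Helper1.pCore_normal p X
  have hTp : IsPGroup p T := hT ▸ Cfsg.Agent.Lib.Helper1.pCore_isPGroup p X
  have hTc : Subgroup.centralizer (T : Set X) ≤ T := hT ▸ Cfsg.Agent.Lib.Helper80.centralizer_pCore_le hX h0
  haveI hTchar : T.Characteristic := hT ▸ pCore_characteristic p X
  have princ : ∀ W : Subgroup X, W.Characteristic → (∃ z ∈ W, orderOf z = p) →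
      ∀ y, orderOf y = p → y ∈ W := by
    rintro W hW ⟨z, hz, hzp⟩ y hy
    obtain ⟨a, ha⟩ := hH y z hy hzp
    have h1 : a y ∈ W := (Subgroup.zpowers_le.2 hz) ha
    have h2 := Subgroup.characteristic_iff_comap_eq.1 hW a
    rw [← h2]
    exact h1
  -- T is nontrivial
  have hTne : T ≠ ⊥ := by
    intro h
    have h1 : Subgroup.centralizer (T : Set X) = ⊤ := by
      rw [h]; simp
    rw [h1, h] at hTc
    have h2 : (⊥ : Subgroup X) = ⊤ := le_antisymm bot_le hTc
    rw [h, h2, Subgroup.index_top] at hdvd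
    exact hp.out.one_lt.ne' (Nat.dvd_one.1 hdvd)
  -- all elements of order p are in Z(T)
  have hZ : ∀ y, orderOf y = p → y ∈ T ⊓ Subgroup.centralizer (T : Set X) := by
    apply princ _ inferInstance
    apply exists_order_p (hTp.to_le inf_le_left)
    intro hbot
    haveI : Nontrivial T := (Subgroup.nontrivial_iff_ne_bot T).2 hTne
    haveI : Nontrivial (Subgroup.center T) := hTp.center_nontrivial
    obtain ⟨c, hc⟩ := exists_ne (1 : Subgroup.center T)
    have h1 : ((c : T) : X) ∈ T ⊓ Subgroup.centralizer (T : Set X) := by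
      refine Subgroup.mem_inf.2 ⟨(c : T).2, ?_⟩
      rw [Subgroup.mem_centralizer_iff]
      intro t ht
      have := Subgroup.mem_center_iff.1 c.2 ⟨t, ht⟩
      exact congrArg Subtype.val this
    rw [hbot, Subgroup.mem_bot] at h1
    apply hc
    ext
    exact h1
  -- the quotient Y = X / T and K = O_{p,p'}(X)
  have hY : Cfsg.IsPSolvable p (X ⧸ T) :=
    Cfsg.Agent.Lib.Helper80.isPSolvable_of_surjective hp.out (QuotientGroup.mk' T)
      (QuotientGroup.mk'_surjective T) hX
  obtain ⟨M, hM⟩ : ∃ M, M = Cfsg.pPrimeCore p (X ⧸ T) := ⟨_, rfl⟩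
  haveI hMn : M.Normal := hM ▸ Cfsg.Agent.Lib.Helper1.pPrimeCore_normal p (X ⧸ T)
  have hMc : (Nat.card M).Coprime p := hM ▸ Cfsg.Agent.Lib.Helper1.pPrimeCore_coprime p (X ⧸ T)
  obtain ⟨K, hK⟩ : ∃ K, K = M.comap (QuotientGroup.mk' T) := ⟨_, rfl⟩
  haveI hKn : K.Normal := hK ▸ inferInstance
  have hTK : T ≤ K := hK ▸ le_comap_mk' T M
  have hKrel : T.relIndex K = Nat.card M := hK ▸ relIndex_comap_mk' T M
  haveI hKchar : K.Characteristic := by
    rw [Subgroup.characteristic_iff_comap_eq]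
    intro a
    have hTa : T.map a.toMonoidHom = T := Subgroup.characteristic_iff_map_eq.1 hTchar a
    have hMa : M.map (QuotientGroup.congr T T a hTa).toMonoidHom = M := by
      rw [hM]; exact map_pPrimeCore _
    ext x
    rw [Subgroup.mem_comap, hK, Subgroup.mem_comap, Subgroup.mem_comap]
    have e1 : QuotientGroup.mk' T (a.toMonoidHom x) =
        (QuotientGroup.congr T T a hTa) (QuotientGroup.mk' T x) := rfl
    rw [e1]
    constructor
    · intro h
      rw [← hMa] at h
      obtain ⟨m, hm, hme⟩ := h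
      have : m = QuotientGroup.mk' T x := (QuotientGroup.congr T T a hTa).injective hme
      rw [← this]; exact hm
    · intro h
      rw [← hMa]
      exact ⟨_, h, rfl⟩
  -- a complement B of T in K
  obtain ⟨B, hBc, hKB⟩ : ∃ B : Subgroup X, (Nat.card B).Coprime p ∧ K = B ⊔ T := by
    haveI : (T.subgroupOf K).Normal := inferInstance
    have hcop : Nat.Coprime (Nat.card (T.subgroupOf K)) (T.subgroupOf K).index := by
      obtain ⟨n, hn⟩ := IsPGroup.iff_card.1 hTp
      rw [card_subgroupOf hTK, hn]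
      change Nat.Coprime _ (T.relIndex K)
      rw [hKrel]
      exact (Nat.Coprime.pow_right n hMc).symm
    obtain ⟨B', hB'⟩ := Subgroup.exists_right_complement'_of_coprime hcop
    refine ⟨B'.map K.subtype, ?_, ?_⟩
    · rw [Subgroup.card_map_of_injective K.subtype_injective, ← hB'.symm.index_eq_card]
      change Nat.Coprime (T.relIndex K) p
      rw [hKrel]; exact hMc
    · have h1 := hB'.sup_eq_top
      have h2 := congrArg (Subgroup.map K.subtype) h1
      rw [Subgroup.map_sup, Subgroup.subgroupOf_map_subtype, inf_eq_left.2 hTK,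
        ← MonoidHom.range_eq_map, Subgroup.range_subtype] at h2
      rw [sup_comm]; exact h2.symm
  have hTB : T ⊓ B = ⊥ := inf_eq_bot_of_pgroup_coprime hTp hBc
  have hBK : B ≤ K := hKB ▸ le_sup_left
  -- Frattini argument
  have hfrat : ∀ g : X, ∃ t ∈ T, ∃ n ∈ Subgroup.normalizer (B : Set X), g = t * n := by
    intro g
    have h1 : cj g B ≤ B ⊔ T := by
      rw [← hKB]
      calc cj g B ≤ cj g K := cj_mono g hBK
        _ = K := cj_normal g K
    obtain ⟨x, hx, hle⟩ := le_cj_of_le_sup T hTp B (cj g B) hBc (by rw [card_cj]; exact hBc) h1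
    have heq : cj g B = cj x B := by
      apply Subgroup.eq_of_le_of_card_ge hle
      rw [card_cj, card_cj]
    refine ⟨x, hx, x⁻¹ * g, ?_, by group⟩
    apply mem_normalizer_of_cj_eq
    rw [cj_mul, heq, cj_inv_cj]
  have hcardY : Nat.card (X ⧸ T) = T.index := (Subgroup.index_eq_card T).symm
  by_cases hz : ∃ z ∈ Subgroup.centralizer (K : Set X), orderOf z = p
  · have hall := princ _ inferInstance hz
    have hBT : B ≤ Subgroup.centralizer (T : Set X) := by
      apply Cfsg.Agent.S1443.result p hp2 T ⊥ B hTp bot_le ?_ ?_ hBc ?_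
      · refine ⟨inferInstance, ?_⟩
        intro a ha
        rw [Subgroup.mem_bot.1 ha, one_pow]
      · rw [Subgroup.normalizer_eq_top]; exact le_top
      · intro x _ hx b hb
        rw [Subgroup.mem_centralizer_singleton_iff]
        have h1 := hall x hx
        rw [Subgroup.mem_centralizer_iff] at h1
        exact (h1 b (hBK hb))
    have hB1 : B = ⊥ := by
      rw [eq_bot_iff, ← hTB]; exact le_inf (hBT.trans hTc) le_rfl
    have hKT : K = T := by rw [hKB, hB1, bot_sup_eq]
    have hMbot : M = ⊥ := by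
      have h1 := Subgroup.map_comap_eq_self_of_surjective (QuotientGroup.mk'_surjective T) M
      rw [← hK, hKT] at h1
      rw [← h1, Subgroup.map_eq_bot_iff, QuotientGroup.ker_mk']
    haveI : Nontrivial (X ⧸ T) := by
      rw [← Finite.one_lt_card_iff_nontrivial, hcardY]
      exact lt_of_lt_of_le hp.out.one_lt (Nat.le_of_dvd (Nat.pos_of_ne_zero T.index_ne_zero_of_finite) hdvd)
    obtain ⟨N', hN'n, hN'ne, hN'⟩ := exists_normal_of_isPSolvable hY
    rcases hN' with h | h
    · have h1 : IsPGroup p (N'.comap (QuotientGroup.mk' T)) :=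
        IsPGroup.comap_of_ker_isPGroup h _ (by rw [QuotientGroup.ker_mk']; exact hTp)
      have h2 : N'.comap (QuotientGroup.mk' T) ≤ T := by
        have := Cfsg.Agent.Lib.Helper1.le_pCore (hN'n.comap (QuotientGroup.mk' T)) h1
        rwa [← hT] at this
      apply hN'ne
      have h3 := Subgroup.map_mono (f := QuotientGroup.mk' T) h2
      rw [Subgroup.map_comap_eq_self_of_surjective (QuotientGroup.mk'_surjective T)] at h3
      have h4 : T.map (QuotientGroup.mk' T) = ⊥ := by
        rw [Subgroup.map_eq_bot_iff, QuotientGroup.ker_mk']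
      rw [h4] at h3
      exact le_bot_iff.1 h3
    · have h1 : N' ≤ M := hM ▸ Cfsg.Agent.Lib.Helper1.le_pPrimeCore hN'n h
      rw [hMbot] at h1
      exact hN'ne (le_bot_iff.1 h1)
  · have hD : T ⊓ Subgroup.centralizer (B : Set X) = ⊥ := by
      by_contra hne
      obtain ⟨z, hzD, hzp⟩ := exists_order_p (hTp.to_le inf_le_left) hne
      apply hz
      refine ⟨z, ?_, hzp⟩
      have h1 : T ≤ Subgroup.centralizer ({z} : Set X) := by
        intro t ht
        rw [Subgroup.mem_centralizer_singleton_iff]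
        have := (Subgroup.mem_inf.1 (hZ z hzp)).2
        rw [Subgroup.mem_centralizer_iff] at this
        exact (this t ht)
      have h2 : B ≤ Subgroup.centralizer ({z} : Set X) := by
        intro t ht
        rw [Subgroup.mem_centralizer_singleton_iff]
        have := (Subgroup.mem_inf.1 hzD).2
        rw [Subgroup.mem_centralizer_iff] at this
        exact (this t ht)
      rw [Subgroup.mem_centralizer_iff]
      intro k hk
      have h3 : k ∈ Subgroup.centralizer ({z} : Set X) := by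
        have : K ≤ Subgroup.centralizer ({z} : Set X) := hKB ▸ sup_le h2 h1
        exact this hk
      exact Subgroup.mem_centralizer_singleton_iff.1 h3
    obtain ⟨y, hy⟩ := exists_prime_orderOf_dvd_card' p (hcardY ▸ hdvd)
    obtain ⟨g, rfl⟩ := QuotientGroup.mk'_surjective T y
    obtain ⟨t, ht, n, hn, rfl⟩ := hfrat g
    have hmk : QuotientGroup.mk' T (t * n) = QuotientGroup.mk' T n := by
      rw [map_mul, QuotientGroup.mk'_apply, (QuotientGroup.eq_one_iff t).2 ht, one_mul]
    rw [hmk] at hy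
    have hnp : n ^ p ∈ T := by
      rw [← QuotientGroup.eq_one_iff, ← QuotientGroup.mk'_apply, map_pow, ← hy, pow_orderOf_eq_one]
    have hnp2 : n ^ p ∈ Subgroup.centralizer (B : Set X) := by
      rw [Subgroup.mem_centralizer_iff]
      intro b hb
      have hN := Subgroup.pow_mem _ hn p
      have h1 : (n ^ p) * b * (n ^ p)⁻¹ ∈ B := (Subgroup.mem_normalizer_iff.1 hN b).1 hb
      have h2 : (n ^ p) * b * (n ^ p)⁻¹ * b⁻¹ ∈ T ⊓ B := by
        refine Subgroup.mem_inf.2 ⟨?_, B.mul_mem h1 (B.inv_mem hb)⟩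
        have : (n ^ p) * b * (n ^ p)⁻¹ * b⁻¹ = (n ^ p) * (b * (n ^ p)⁻¹ * b⁻¹) := by group
        rw [this]
        exact T.mul_mem hnp (hTn.conj_mem _ (T.inv_mem hnp) b)
      rw [hTB, Subgroup.mem_bot] at h2
      have h3 : (n ^ p) * b = b * (n ^ p) := by
        have := congrArg (fun w => w * b * n ^ p) h2
        simpa [mul_assoc] using this
      exact h3.symm
    have hnp1 : n ^ p = 1 := by
      have : n ^ p ∈ T ⊓ Subgroup.centralizer (B : Set X) := Subgroup.mem_inf.2 ⟨hnp, hnp2⟩
      rwa [hD, Subgroup.mem_bot] at this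
    have hn1 : n ≠ 1 := by
      intro h
      rw [h, map_one, orderOf_one] at hy
      exact hp.out.one_lt.ne hy
    have hnT : n ∈ T := (Subgroup.mem_inf.1 (hZ n (orderOf_eq_prime hnp1 hn1))).1
    rw [QuotientGroup.mk'_apply, (QuotientGroup.eq_one_iff n).2 hnT, orderOf_one] at hy
    exact hp.out.one_lt.ne hy

/-- The Gaschütz–Yen Theorem: let G be a finite p-soluble group, p an odd prime dividing its order, such that the automorphism group of G permutes the subgroups of G of order p transitively. Then G has p-length at most 1. -/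
theorem result {G : Type*} [Group G] [Finite G] {p : ℕ} [Fact p.Prime] (hp : p ≠ 2) (hdvd : p ∣ Nat.card G) (hG : Cfsg.IsPSolvable p G) (htrans : ∀ U V : Subgroup G, Nat.card U = p → Nat.card V = p → ∃ a : MulAut G, U.map a.toMonoidHom = V) : Cfsg.PLengthLE p 1 G := by
  haveI hNn : (Cfsg.pPrimeCore p G).Normal := Cfsg.Agent.Lib.Helper1.pPrimeCore_normal p G
  have hNc : (Nat.card (Cfsg.pPrimeCore p G)).Coprime p := Cfsg.Agent.Lib.Helper1.pPrimeCore_coprime p G
  have hpp : p.Prime := Fact.out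
  have hX : Cfsg.IsPSolvable p (G ⧸ Cfsg.pPrimeCore p G) :=
    Cfsg.Agent.Lib.Helper80.isPSolvable_of_surjective hpp (QuotientGroup.mk' _)
      (QuotientGroup.mk'_surjective _) hG
  have hH : ∀ x y : G ⧸ Cfsg.pPrimeCore p G, orderOf x = p → orderOf y = p →
      ∃ a : MulAut (G ⧸ Cfsg.pPrimeCore p G), a x ∈ Subgroup.zpowers y := by
    intro x y hx hy
    obtain ⟨x', hx', rfl⟩ := lift_order _ hNc x hx
    obtain ⟨y', hy', rfl⟩ := lift_order _ hNc y hy
    obtain ⟨a, ha⟩ := htrans (Subgroup.zpowers x') (Subgroup.zpowers y')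
      (by rw [Nat.card_zpowers, hx']) (by rw [Nat.card_zpowers, hy'])
    have hNa : (Cfsg.pPrimeCore p G).map a.toMonoidHom = Cfsg.pPrimeCore p G :=
      Cfsg.Agent.Lib.Helper14.map_pPrimeCore a
    refine ⟨QuotientGroup.congr _ _ a hNa, ?_⟩
    have h1 : a x' ∈ Subgroup.zpowers y' := by
      rw [← ha]
      exact ⟨x', Subgroup.mem_zpowers x', rfl⟩
    obtain ⟨k, hk⟩ := Subgroup.mem_zpowers_iff.1 h1
    have e1 : (QuotientGroup.congr _ _ a hNa) (QuotientGroup.mk' (Cfsg.pPrimeCore p G) x') =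
        QuotientGroup.mk' (Cfsg.pPrimeCore p G) (a x') := rfl
    rw [e1, ← hk, map_zpow]
    exact Subgroup.zpow_mem_zpowers _ k
  have h1 := Cfsg.Agent.Lib.Helper66.pLengthLE_extension (p := p) (Cfsg.pPrimeCore p G) (a := 0) (b := 1)
    (Cfsg.Agent.Lib.Helper66.pLengthLE_zero_of_coprime hNc)
    (plen_of_index p (core hp hX Cfsg.Agent.Lib.Helper80.pPrimeCore_quotient_eq_bot hH))
  simpa using h1

end Cfsg.Agent.S3798
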