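import Cfsg.Statements.S3780
import Mathlib.Algebra.CharP.Lemmas
import Mathlib.Tactic

set_option autoImplicit false
open Cfsg

namespace Cfsg.Agent.S3780

set_option linter.style.haveILetI false

section additive

variable {A : Type*} [AddCommGroup A]

theorem sub_one_pow_eq_zero {p : ℕ} (hp : p.Prime) (hA : ∀ x : A, p • x = 0)
    (a : AddMonoid.End A) (ha : a ^ p = 1) : (a - 1) ^ p = 0 := by
  obtain ⟨r, hr⟩ := (Commute.neg_one_right a).exists_add_pow_prime_eq hp
  have hp0 : (p : AddMonoid.End A) = 0 := by
    ext x; simp [hA]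
  rw [sub_eq_add_neg, hr, ha, hp0]
  simp only [zero_mul, add_zero]
  rcases hp.eq_two_or_odd' with rfl | hodd
  · have : (1 : AddMonoid.End A) + (-1) ^ 2 = ((2 : ℕ) : AddMonoid.End A) := by
      norm_num
    rw [this, hp0]
  · rw [hodd.neg_one_pow]; simp

/-- kernel of an endomorphism -/
def kerE (f : AddMonoid.End A) : AddSubgroup A where
  carrier := {x | f x = 0}
  zero_mem' := map_zero f
  add_mem' := by
    intro a b ha hb
    show f (a + b) = 0
    rw [map_add, show f a = 0 from ha, show f b = 0 from hb, add_zero]
  neg_mem' := by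
    intro a ha
    show f (-a) = 0
    rw [map_neg, show f a = 0 from ha, neg_zero]

theorem mem_kerE (f : AddMonoid.End A) (x : A) : x ∈ kerE f ↔ f x = 0 := Iff.rfl

theorem card_ker_mul_le [Finite A] (f g : AddMonoid.End A) :
    Nat.card (kerE (g * f)) ≤ Nat.card (kerE f) * Nat.card (kerE g) := by
  let φ : kerE (g * f) →+ kerE g :=
    AddMonoidHom.mk' (fun x => ⟨f x.1, x.2⟩) (by
      intro x y
      apply Subtype.ext
      exact map_add f x.1 y.1)
  have h1 : Nat.card φ.ker * Nat.card φ.range = Nat.card (kerE (g * f)) := by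
    rw [← AddSubgroup.index_ker]; exact AddSubgroup.card_mul_index _
  have h2 : Nat.card φ.range ≤ Nat.card (kerE g) :=
    Nat.card_le_card_of_injective (fun x => x.1) Subtype.val_injective
  have h3 : Nat.card φ.ker ≤ Nat.card (kerE f) := by
    refine Nat.card_le_card_of_injective (fun x => ⟨x.1.1, ?_⟩) ?_
    · have := x.2
      rw [AddMonoidHom.mem_ker] at this
      exact congrArg Subtype.val this
    · intro x y hxy
      have h5 : x.1.1 = y.1.1 := by
        have h6 := Subtype.ext_iff.1 hxy
        exact h6
      exact Subtype.ext (Subtype.ext h5)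
  rw [← h1]
  exact Nat.mul_le_mul h3 h2

theorem card_ker_pow_le [Finite A] (f : AddMonoid.End A) (k : ℕ) :
    Nat.card (kerE (f ^ k)) ≤ Nat.card (kerE f) ^ k := by
  induction k with
  | zero =>
    simp only [pow_zero]
    have : kerE (1 : AddMonoid.End A) = ⊥ := by
      ext x; simp [mem_kerE]
    rw [this]; simp
  | succ k ih =>
    rw [pow_succ, pow_succ]
    calc _ ≤ Nat.card (kerE f) * Nat.card (kerE (f ^ k)) := card_ker_mul_le f (f ^ k)
      _ ≤ Nat.card (kerE f) * Nat.card (kerE f) ^ k := Nat.mul_le_mul_left _ ih
      _ = _ := by ring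

theorem card_le_card_fixed_pow [Finite A] {p : ℕ} (hp : p.Prime) (hA : ∀ x : A, p • x = 0)
    (a : AddMonoid.End A) (ha : a ^ p = 1) :
    Nat.card A ≤ Nat.card (kerE (a - 1)) ^ p := by
  have h := card_ker_pow_le (a - 1) p
  rw [sub_one_pow_eq_zero hp hA a ha] at h
  have : kerE (0 : AddMonoid.End A) = ⊤ := by
    ext x; simp [mem_kerE]
  rw [this] at h
  simpa using h

end additive

section gens

/-- a finite `p`-group of order at most `p ^ m` is generated by at most `m` elements. -/
theorem exists_gens {Q : Type*} [Group Q] [Finite Q] {p : ℕ} [Fact p.Prime] (hQ : IsPGroup p Q) :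
    ∃ S : Finset Q, Subgroup.closure (S : Set Q) = ⊤ ∧ p ^ S.card ≤ Nat.card Q := by
  classical
  have key : ∀ H : Subgroup Q, (∃ S : Finset Q, Subgroup.closure (S : Set Q) = H ∧ p ^ S.card ≤ Nat.card H) →
      ∃ S : Finset Q, Subgroup.closure (S : Set Q) = ⊤ ∧ p ^ S.card ≤ Nat.card (⊤ : Subgroup Q) := by
    intro H
    induction H using WellFoundedGT.induction with
    | ind H ih =>
      rintro ⟨S, hS, hcard⟩
      by_cases hH : H = ⊤
      · subst hH; exact ⟨S, hS, hcard⟩
      · obtain ⟨x, hx⟩ : ∃ x, x ∉ H := by
          by_contra hcon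
          push Not at hcon
          exact hH (Subgroup.eq_top_iff' H |>.2 hcon)
        have hlt : H < Subgroup.closure ((insert x S : Finset Q) : Set Q) := by
          refine lt_of_le_of_ne ?_ ?_
          · rw [← hS]; apply Subgroup.closure_mono; simp
          · intro heq
            apply hx
            rw [heq]
            apply Subgroup.subset_closure; simp
        apply ih _ hlt
        refine ⟨insert x S, rfl, ?_⟩
        set H' := Subgroup.closure ((insert x S : Finset Q) : Set Q) with hH'
        have hxS : x ∉ S := by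
          intro h
          apply hx; rw [← hS]; exact Subgroup.subset_closure h
        rw [Finset.card_insert_of_notMem hxS, pow_succ]
        obtain ⟨e, he⟩ := (hQ.to_subgroup H').index (H.subgroupOf H')
        have he' : H.relIndex H' = p ^ e := he
        have he0 : e ≠ 0 := by
          rintro rfl
          rw [pow_zero, Subgroup.relIndex_eq_one] at he'
          exact absurd he' (not_le_of_gt hlt)
        have hmul : Nat.card H * H.relIndex H' = Nat.card H' := by
          have := Subgroup.relIndex_mul_relIndex ⊥ H H' bot_le hlt.le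
          simpa using this
        rw [← hmul, he']
        apply Nat.mul_le_mul hcard
        calc p = p ^ 1 := (pow_one p).symm
          _ ≤ p ^ e := Nat.pow_le_pow_right (Fact.out : p.Prime).pos (by omega)
  obtain ⟨S, hS, hc⟩ := key ⊥ ⟨∅, by simp, by simp⟩
  exact ⟨S, hS, by simpa using hc⟩

end gens

/-- In a finite abelian `p`-group, a subgroup which together with the `p`-th powers generates
everything is everything. -/
theorem eq_top_of_sup_range_pow {V : Type*} [CommGroup V] [Finite V] {p : ℕ} (hV : IsPGroup p V)
    (H : Subgroup V) (h : H ⊔ (powMonoidHom p : V →* V).range = ⊤) : H = ⊤ := by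
  have hsurj : Function.Surjective (fun y : V ⧸ H => y ^ p) := by
    intro y
    obtain ⟨v, rfl⟩ := QuotientGroup.mk_surjective y
    have hv : v ∈ H ⊔ (powMonoidHom p : V →* V).range := by rw [h]; trivial
    obtain ⟨a, ha, b, ⟨u, rfl⟩, rfl⟩ := Subgroup.mem_sup.1 hv
    refine ⟨QuotientGroup.mk u, ?_⟩
    simp only [powMonoidHom_apply]
    rw [← QuotientGroup.mk_pow, QuotientGroup.mk_mul, (QuotientGroup.eq_one_iff a).2 ha, one_mul]
  have hinj : Function.Injective (fun y : V ⧸ H => y ^ p) := Finite.injective_iff_surjective.2 hsurj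
  have hone : ∀ k : ℕ, ∀ y : V ⧸ H, y ^ p ^ k = 1 → y = 1 := by
    intro k
    induction k with
    | zero => intro y hy; simpa using hy
    | succ k ih =>
      intro y hy
      apply ih
      apply hinj
      simp only
      rw [← pow_mul, ← pow_succ, hy, one_pow]
  rw [Subgroup.eq_top_iff']
  intro v
  obtain ⟨k, hk⟩ := hV v
  rw [← QuotientGroup.eq_one_iff]
  apply hone k
  rw [← QuotientGroup.mk_pow, hk]; rfl

/-- Let V be a finite abelian p-group and α an automorphism of V of order p whose fixed-point subgroup has order p^n. Then V can be generated by pn elements: some subset of V with at most pn elements generates V. -/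
theorem result {V : Type*} [CommGroup V] [Finite V] {p : ℕ} [Fact p.Prime] (hV : IsPGroup p V) (α : MulAut V) (hα : orderOf α = p) (n : ℕ) (hfix : Nat.card {v : V // α v = v} = p ^ n) : ∃ S : Finset V, S.card ≤ p * n ∧ Subgroup.closure (S : Set V) = ⊤ := by
  classical
  have hp : p.Prime := Fact.out
  let W : Subgroup V := (powMonoidHom p : V →* V).ker
  let U : Subgroup V := (powMonoidHom p : V →* V).range
  have memW : ∀ v : V, v ∈ W ↔ v ^ p = 1 := by
    intro v
    show v ∈ (powMonoidHom p : V →* V).ker ↔ _
    rw [MonoidHom.mem_ker, powMonoidHom_apply]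
  -- the restriction of α to W
  have hαW : ∀ w : W, α w.1 ∈ W := by
    intro w
    have := (memW _).1 w.2
    rw [memW, ← map_pow, this, map_one]
  let aW : W →* W := (α.toMonoidHom.comp W.subtype).codRestrict W hαW
  let a : AddMonoid.End (Additive W) := MonoidHom.toAdditive aW
  have ha_pow : ∀ k : ℕ, ∀ w : W, (((a ^ k) (Additive.ofMul w)).toMul : W).1 = (α ^ k) w.1 := by
    intro k
    induction k with
    | zero => intro w; simp
    | succ k ih =>
      intro w
      rw [pow_succ, pow_succ]
      have : (a ^ k * a) (Additive.ofMul w) = (a ^ k) (Additive.ofMul (aW w)) := rfl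
      rw [this, ih]
      rfl
  have ha : a ^ p = 1 := by
    apply AddMonoidHom.ext
    intro w
    have h1 := ha_pow p w.toMul
    have h2 : α ^ p = 1 := by rw [← hα]; exact pow_orderOf_eq_one α
    rw [h2] at h1
    apply Additive.toMul.injective
    apply Subtype.ext
    exact h1
  have hA : ∀ x : Additive W, p • x = 0 := by
    intro x
    have := (memW _).1 x.toMul.2
    apply Additive.toMul.injective
    apply Subtype.ext
    simpa using this
  have hcard := card_le_card_fixed_pow hp hA a ha
  have hker : Nat.card (kerE (a - 1)) ≤ p ^ n := by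
    rw [← hfix]
    refine Nat.card_le_card_of_injective (fun x => ⟨(x.1.toMul : W).1, ?_⟩) ?_
    · have := x.2
      rw [mem_kerE] at this
      have h2 : a x.1 = x.1 := by
        have h3 : (a - 1 : AddMonoid.End (Additive W)) x.1 = a x.1 - x.1 := rfl
        rw [h3] at this
        exact sub_eq_zero.1 this
      have h4 := congrArg (fun y : Additive W => (y.toMul : W).1) h2
      exact h4
    · intro x y hxy
      apply Subtype.ext
      apply Additive.toMul.injective
      have h5 : (x.1.toMul : W).1 = (y.1.toMul : W).1 := by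
        have h6 := Subtype.ext_iff.1 hxy
        exact h6
      exact Subtype.ext h5
  have hWcard : Nat.card W ≤ p ^ (p * n) := by
    calc Nat.card W = Nat.card (Additive W) := rfl
      _ ≤ _ := hcard
      _ ≤ (p ^ n) ^ p := Nat.pow_le_pow_left hker p
      _ = p ^ (p * n) := by rw [← pow_mul, mul_comm]
  -- index of U
  have hUidx : U.index = Nat.card W := by
    have h1 : Nat.card W * W.index = Nat.card V := W.card_mul_index
    have h2 : Nat.card U * U.index = Nat.card V := U.card_mul_index
    have h3 : W.index = Nat.card U := Subgroup.index_ker _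
    rw [h3] at h1
    have hpos : 0 < Nat.card U := Nat.card_pos
    have : Nat.card U * U.index = Nat.card U * Nat.card W := by rw [h2, ← h1, mul_comm]
    exact Nat.eq_of_mul_eq_mul_left hpos this
  obtain ⟨S, hS, hSc⟩ := exists_gens (hV.to_quotient U)
  have hScard : S.card ≤ p * n := by
    have : p ^ S.card ≤ p ^ (p * n) := by
      calc p ^ S.card ≤ Nat.card (V ⧸ U) := hSc
        _ = U.index := rfl
        _ = Nat.card W := hUidx
        _ ≤ _ := hWcard
    exact (Nat.pow_le_pow_iff_right hp.one_lt).1 this
  refine ⟨S.image Quotient.out, le_trans Finset.card_image_le hScard, ?_⟩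
  apply eq_top_of_sup_range_pow hV
  have hmap : (Subgroup.closure ((S.image Quotient.out : Finset V) : Set V)).map (QuotientGroup.mk' U) = ⊤ := by
    rw [MonoidHom.map_closure, ← hS]
    congr 1
    ext y
    simp only [Finset.coe_image, Set.mem_image, Finset.mem_coe]
    constructor
    · rintro ⟨_, ⟨z, hz, rfl⟩, rfl⟩
      have : (QuotientGroup.mk' U) (Quotient.out z) = z := Quotient.out_eq z
      rw [this]; exact hz
    · intro hy
      exact ⟨Quotient.out y, ⟨y, hy, rfl⟩, Quotient.out_eq y⟩
  have := congrArg (Subgroup.comap (QuotientGroup.mk' U)) hmap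
  rw [Subgroup.comap_map_eq, QuotientGroup.ker_mk', Subgroup.comap_top] at this
  exact this

end Cfsg.Agent.S3780
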