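import Cfsg.Statements.S3781
import Mathlib.Tactic

set_option autoImplicit false
open Cfsg
open scoped commutatorElement

namespace Cfsg.Agent.S3781

set_option linter.style.haveILetI false

variable {G : Type*} [Group G]

/-- iterated commutator with the whole group -/
def iter (j : ℕ) (K : Subgroup G) : Subgroup G := (fun X : Subgroup G => ⁅X, (⊤ : Subgroup G)⁆)^[j] K

theorem iter_zero (K : Subgroup G) : iter 0 K = K := rfl

theorem iter_succ (j : ℕ) (K : Subgroup G) : iter (j + 1) K = iter j ⁅K, (⊤ : Subgroup G)⁆ := by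
  unfold iter; rw [Function.iterate_succ_apply]

theorem iter_succ' (j : ℕ) (K : Subgroup G) : iter (j + 1) K = ⁅iter j K, (⊤ : Subgroup G)⁆ := by
  unfold iter; rw [Function.iterate_succ_apply']

theorem iter_normal (j : ℕ) (K : Subgroup G) [hK : K.Normal] : (iter j K).Normal := by
  induction j with
  | zero => exact hK
  | succ j ih => rw [iter_succ']; infer_instance

theorem iter_mono (j : ℕ) {K K' : Subgroup G} (h : K ≤ K') : iter j K ≤ iter j K' := by
  induction j with
  | zero => exact h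
  | succ j ih => rw [iter_succ', iter_succ']; exact Subgroup.commutator_mono ih le_rfl

theorem iter_succ_le (j : ℕ) (K : Subgroup G) [K.Normal] : iter (j + 1) K ≤ iter j K := by
  rw [iter_succ']
  haveI := iter_normal j K
  exact Subgroup.commutator_le_left _ _

theorem iter_antitone (K : Subgroup G) [K.Normal] : Antitone (fun j => iter j K) :=
  antitone_nat_of_succ_le (fun j => iter_succ_le j K)

theorem three_subgroups_mod (H₁ H₂ H₃ M : Subgroup G) [M.Normal]
    (h1 : ⁅⁅H₂, H₃⁆, H₁⁆ ≤ M) (h2 : ⁅⁅H₃, H₁⁆, H₂⁆ ≤ M) : ⁅⁅H₁, H₂⁆, H₃⁆ ≤ M := by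
  have key : ∀ X : Subgroup G, X ≤ M ↔ X.map (QuotientGroup.mk' M) = ⊥ := by
    intro X
    rw [Subgroup.map_eq_bot_iff, QuotientGroup.ker_mk']
  rw [key] at h1 h2 ⊢
  simp only [Subgroup.map_commutator] at h1 h2 ⊢
  exact Subgroup.commutator_commutator_eq_bot_of_rotate h1 h2

theorem commutator_lcs_le (j : ℕ) : ∀ (K : Subgroup G) [K.Normal],
    ⁅K, (⊤ : Subgroup G).lowerCentralSeries j⁆ ≤ iter (j + 1) K := by
  induction j with
  | zero => intro K _; exact le_rfl
  | succ j ih =>
    intro K _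
    rw [Subgroup.lowerCentralSeries_succ, Subgroup.commutator_comm]
    haveI := iter_normal (j + 1 + 1) K
    apply three_subgroups_mod
    · rw [Subgroup.commutator_comm ⊤ K, iter_succ]
      exact ih ⁅K, ⊤⁆
    · rw [iter_succ']
      exact Subgroup.commutator_mono (ih K) le_rfl

theorem sup_commutator_top_le (A L : Subgroup G) [L.Normal] :
    ⁅A ⊔ L, (⊤ : Subgroup G)⁆ ≤ ⁅A, (⊤ : Subgroup G)⁆ ⊔ L := by
  rw [Subgroup.commutator_le]
  intro x hx g _
  rw [← SetLike.mem_coe, Subgroup.mul_normal] at hx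
  obtain ⟨a, ha, b, hb, rfl⟩ := hx
  rw [commutatorElement_mul_left_eq_conj_mul]
  have h1 : ⁅b, g⁆ ∈ L := by
    rw [commutatorElement_def]
    have := ‹L.Normal›.conj_mem b⁻¹ (L.inv_mem hb) g
    have h2 := L.mul_mem hb this
    simpa [mul_assoc] using h2
  apply Subgroup.mul_mem
  · apply Subgroup.mem_sup_right
    have := ‹L.Normal›.conj_mem _ h1 a
    simpa using this
  · apply Subgroup.mem_sup_left
    exact Subgroup.commutator_mem_commutator ha (Subgroup.mem_top g)

theorem commutator_sup_lt [hnil : Group.IsNilpotent G] (K L : Subgroup G) [K.Normal] [L.Normal]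
    (hLK : L ≤ K) (hne : ¬ K ≤ L) : ⁅K, (⊤ : Subgroup G)⁆ ⊔ L < K := by
  have hle : ⁅K, (⊤ : Subgroup G)⁆ ⊔ L ≤ K := sup_le (Subgroup.commutator_le_left _ _) hLK
  refine lt_of_le_of_ne hle ?_
  intro heq
  apply hne
  have key : ∀ j, K ≤ (⊤ : Subgroup G).lowerCentralSeries j ⊔ L := by
    intro j
    induction j with
    | zero => simp
    | succ j ih =>
      calc K = ⁅K, (⊤ : Subgroup G)⁆ ⊔ L := heq.symm
        _ ≤ ⁅(⊤ : Subgroup G).lowerCentralSeries j ⊔ L, (⊤ : Subgroup G)⁆ ⊔ L :=
            sup_le_sup_right (Subgroup.commutator_mono ih le_rfl) _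
        _ ≤ (⁅(⊤ : Subgroup G).lowerCentralSeries j, (⊤ : Subgroup G)⁆ ⊔ L) ⊔ L :=
            sup_le_sup_right (sup_commutator_top_le _ _) _
        _ = (⊤ : Subgroup G).lowerCentralSeries (j + 1) ⊔ L := by
            rw [sup_assoc, sup_idem, Subgroup.lowerCentralSeries_succ]
  obtain ⟨c, hc⟩ := Subgroup.nilpotent_iff_lowerCentralSeries.1 hnil
  have := key c
  rwa [hc, bot_sup_eq] at this

theorem iter_le_of_relIndex_le [Finite G] {p : ℕ} [Fact p.Prime] (hG : IsPGroup p G) (m : ℕ) :
    ∀ (K L : Subgroup G) [K.Normal] [L.Normal], L ≤ K → L.relIndex K ≤ p ^ m → iter m K ≤ L := by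
  haveI := hG.isNilpotent
  induction m with
  | zero =>
    intro K L _ _ hLK h
    rw [iter_zero]
    have h0 : L.relIndex K ≠ 0 := (L.subgroupOf K).index_ne_zero_of_finite
    have : L.relIndex K = 1 := by
      simp at h; omega
    exact Subgroup.relIndex_eq_one.1 this
  | succ m ih =>
    intro K L _ _ hLK h
    by_cases hKL : K ≤ L
    · exact le_trans (iter_antitone K (Nat.zero_le _)) hKL
    · have hlt := commutator_sup_lt K L hLK hKL
      set K' := ⁅K, (⊤ : Subgroup G)⁆ ⊔ L with hK'
      have hmul := Subgroup.relIndex_mul_relIndex L K' K le_sup_right hlt.le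
      have hp : p ≤ K'.relIndex K := by
        obtain ⟨e, he⟩ := (hG.to_subgroup K).index (K'.subgroupOf K)
        have he' : K'.relIndex K = p ^ e := he
        have : e ≠ 0 := by
          rintro rfl
          rw [pow_zero, Subgroup.relIndex_eq_one] at he'
          exact absurd he' (not_le_of_gt hlt)
        rw [he']
        calc p = p ^ 1 := (pow_one p).symm
          _ ≤ p ^ e := Nat.pow_le_pow_right (Fact.out : p.Prime).pos (by omega)
      have h2 : L.relIndex K' ≤ p ^ m := by
        have hp0 : 0 < p := (Fact.out : p.Prime).pos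
        have : L.relIndex K' * p ≤ p ^ m * p := by
          calc L.relIndex K' * p ≤ L.relIndex K' * K'.relIndex K := Nat.mul_le_mul_left _ hp
            _ = L.relIndex K := hmul
            _ ≤ p ^ (m + 1) := h
            _ = p ^ m * p := pow_succ p m
        exact Nat.le_of_mul_le_mul_right this hp0
      have h3 := ih K' L le_sup_right h2
      rw [iter_succ]
      exact le_trans (iter_mono m le_sup_left) h3

theorem lcs_normal (N : Subgroup G) [hN : N.Normal] (j : ℕ) : (N.lowerCentralSeries j).Normal := by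
  induction j with
  | zero => exact hN
  | succ j ih => rw [Subgroup.lowerCentralSeries_succ]; infer_instance

/-- Let G be a finite p-group and n ≥ 1, and write γ_1(G) = G, γ_{k+1}(G) = [γ_k(G), G], and likewise γ_k(N) for a subgroup N. Let N be a normal subgroup of G contained in γ_n(G). If i > 1 and γ_{i+1}(N) ≠ 1, then |γ_i(N) : γ_{i+1}(N)| ≥ p^n. -/
theorem result {G : Type*} [Group G] [Finite G] {p : ℕ} [Fact p.Prime] (hG : IsPGroup p G) (n : ℕ) (hn : 1 ≤ n) (N : Subgroup G) [N.Normal] (hN : N ≤ (⊤ : Subgroup G).lowerCentralSeries (n - 1)) (i : ℕ) (hi : 1 < i) (hne : N.lowerCentralSeries i ≠ ⊥) : p ^ n ≤ (N.lowerCentralSeries i).relIndex (N.lowerCentralSeries (i - 1)) := by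
  haveI := hG.isNilpotent
  obtain ⟨i', rfl⟩ : ∃ i', i = i' + 1 := ⟨i - 1, by omega⟩
  obtain ⟨n', rfl⟩ : ∃ n', n = n' + 1 := ⟨n - 1, by omega⟩
  simp only [Nat.add_sub_cancel] at *
  set K := N.lowerCentralSeries i' with hK
  set L := N.lowerCentralSeries (i' + 1) with hL
  haveI : K.Normal := lcs_normal N i'
  haveI : L.Normal := lcs_normal N (i' + 1)
  have hLK : L ≤ K := N.lowerCentralSeries_antitone (Nat.le_succ i')
  by_contra hcon
  rw [not_le] at hcon
  obtain ⟨e, he⟩ := (hG.to_subgroup K).index (L.subgroupOf K)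
  have he' : L.relIndex K = p ^ e := he
  have hen : e ≤ n' := by
    rw [he'] at hcon
    have := (Nat.pow_lt_pow_iff_right (Fact.out : p.Prime).one_lt).1 hcon
    omega
  have h1 : iter e K ≤ L := iter_le_of_relIndex_le hG e K L hLK he'.le
  have h2 : iter n' K ≤ L := le_trans (iter_antitone K hen) h1
  have h3 : iter (n' + 1) K ≤ ⁅L, (⊤ : Subgroup G)⁆ := by
    rw [iter_succ']; exact Subgroup.commutator_mono h2 le_rfl
  have h4 : L ≤ iter (n' + 1) K := by
    calc L = ⁅K, N⁆ := rfl
      _ ≤ ⁅K, (⊤ : Subgroup G).lowerCentralSeries n'⁆ := Subgroup.commutator_mono le_rfl hN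
      _ ≤ iter (n' + 1) K := commutator_lcs_le n' K
  have h5 := commutator_sup_lt L ⊥ bot_le (by rwa [le_bot_iff])
  rw [sup_bot_eq] at h5
  exact absurd (le_trans h4 h3) (not_le_of_gt h5)

end Cfsg.Agent.S3781
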