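import Cfsg.Statements.S0208
import Cfsg.Agent.Lib.Helper5.Dihedral

set_option autoImplicit false
open Cfsg

namespace Cfsg.Agent.S0208

open Cfsg.Agent.Lib.Helper5

/-- If x, y are involutions and xy has odd order, then some element of the subgroup generated by x and y conjugates x to y. -/
theorem result {G : Type*} [Group G] [Finite G] (x y : G) (hx : orderOf x = 2) (hy : orderOf y = 2) (hodd : Odd (orderOf (x * y))) : ∃ d ∈ Subgroup.closure ({x, y} : Set G), d * x * d⁻¹ = y := by
  obtain ⟨m, hm⟩ := hodd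
  refine ⟨(x * y) ^ (m : ℤ), Subgroup.zpow_mem _ dih_r_mem _, ?_⟩
  rw [← zpow_neg, mul_assoc, dih_comm hx hy, neg_neg, ← mul_assoc, ← zpow_add]
  have h1 : (x * y) ^ ((m : ℤ) + m + 1) = 1 := by
    have := pow_orderOf_eq_one (x * y)
    rw [hm] at this
    rw [← this, ← zpow_natCast]
    congr 1
    push_cast
    ring
  rw [zpow_add, zpow_one] at h1
  have h2 : (x * y) ^ ((m : ℤ) + m) = (x * y)⁻¹ := eq_inv_of_mul_eq_one_left h1
  rw [h2, mul_inv_rev, inv_eq_self_of_order_two hx, inv_eq_self_of_order_two hy, mul_assoc,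
    mul_self_of_order_two hx, mul_one]

end Cfsg.Agent.S0208
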