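import Cfsg.Statements.S0209
import Cfsg.Agent.Lib.Helper5.Dihedral

set_option autoImplicit false
open Cfsg

namespace Cfsg.Agent.S0209

open Cfsg.Agent.Lib.Helper5

/-- If x, y are involutions whose product has even order n, the element (xy)^(n/2) is an involution that commutes with x and with y. -/
theorem result {G : Type*} [Group G] [Finite G] (x y : G) (hx : orderOf x = 2) (hy : orderOf y = 2) (heven : Even (orderOf (x * y))) : orderOf ((x * y) ^ (orderOf (x * y) / 2)) = 2 ∧ Commute ((x * y) ^ (orderOf (x * y) / 2)) x ∧ Commute ((x * y) ^ (orderOf (x * y) / 2)) y := by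
  obtain ⟨m, hm⟩ := heven
  have hpos : 0 < orderOf (x * y) := orderOf_pos _
  have hm0 : 0 < m := by omega
  have hdiv : orderOf (x * y) / 2 = m := by omega
  rw [hdiv]
  have hz2 : (x * y) ^ m * (x * y) ^ m = 1 := by
    rw [← pow_add, ← hm, pow_orderOf_eq_one]
  have hz1 : (x * y) ^ m ≠ 1 := by
    intro h
    have := orderOf_le_of_pow_eq_one hm0 h
    omega
  have hinv : ((x * y) ^ m)⁻¹ = (x * y) ^ m := inv_eq_of_mul_eq_one_left hz2
  refine ⟨order_two_of_mul_self hz2 hz1, ?_, ?_⟩
  · have := dih_conj_zpow hx hy (m : ℤ)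
    rw [zpow_neg, zpow_natCast, hinv] at this
    exact (mul_inv_eq_iff_eq_mul.mp this).symm
  · have := dih_conj_zpow_y hx hy (m : ℤ)
    rw [zpow_neg, zpow_natCast, hinv] at this
    exact (mul_inv_eq_iff_eq_mul.mp this).symm

end Cfsg.Agent.S0209
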