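import Cfsg.Statements.S0213
import Cfsg.Agent.Lib.Helper5.Dihedral
import Cfsg.Agent.S0208
import Cfsg.Agent.S0209

set_option autoImplicit false
open Cfsg

namespace Cfsg.Agent.S0213

open Cfsg.Agent.Lib.Helper5

section
set_option linter.unusedSectionVars false
variable {G : Type*} [Group G] [Finite G]

theorem card_conj_fiber (x w : G) (h : IsConj x w) :
    Nat.card {g : G // g * x * g⁻¹ = w} = Nat.card (Subgroup.centralizer ({x} : Set G)) := by
  obtain ⟨b, hb⟩ := isConj_iff.mp h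
  apply Nat.card_congr
  exact
    { toFun := fun g => ⟨b⁻¹ * g.1, by
        rw [Subgroup.mem_centralizer_singleton_iff]
        have h1 : g.1 * x * g.1⁻¹ = b * x * b⁻¹ := g.2.trans hb.symm
        calc b⁻¹ * g.1 * x = b⁻¹ * (g.1 * x * g.1⁻¹) * g.1 := by group
          _ = b⁻¹ * (b * x * b⁻¹) * g.1 := by rw [h1]
          _ = x * (b⁻¹ * g.1) := by group⟩
      invFun := fun c => ⟨b * c.1, by
        have h1 : c.1 * x = x * c.1 := Subgroup.mem_centralizer_singleton_iff.mp c.2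
        calc b * c.1 * x * (b * c.1)⁻¹ = b * (c.1 * x) * c.1⁻¹ * b⁻¹ := by group
          _ = b * (x * c.1) * c.1⁻¹ * b⁻¹ := by rw [h1]
          _ = b * x * b⁻¹ := by group
          _ = w := hb⟩
      left_inv := fun g => by simp
      right_inv := fun c => by simp }

theorem card_class_mul (x : G) :
    Nat.card {w : G // IsConj x w} * Nat.card (Subgroup.centralizer ({x} : Set G)) = Nat.card G := by
  classical
  have : Fintype {w : G // IsConj x w} := Fintype.ofFinite _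
  let f : G → {w : G // IsConj x w} := fun g => ⟨g * x * g⁻¹, isConj_iff.mpr ⟨g, rfl⟩⟩
  rw [← Nat.card_congr (Equiv.sigmaFiberEquiv f), Nat.card_sigma]
  have h1 : ∀ w : {w : G // IsConj x w}, Nat.card {g : G // f g = w}
      = Nat.card (Subgroup.centralizer ({x} : Set G)) := by
    intro w
    rw [← card_conj_fiber x w.1 w.2]
    apply Nat.card_congr
    apply Equiv.subtypeEquivRight
    intro g
    exact Subtype.ext_iff
  simp_rw [h1]
  rw [Finset.sum_const, smul_eq_mul, Finset.card_univ, Nat.card_eq_fintype_card]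

theorem order_two_conj {x : G} (hx : orderOf x = 2) (g : G) : orderOf (g * x * g⁻¹) = 2 := by
  apply order_two_of_mul_self
  · calc g * x * g⁻¹ * (g * x * g⁻¹) = g * (x * x) * g⁻¹ := by group
      _ = 1 := by rw [mul_self_of_order_two hx]; group
  · intro h
    apply ne_one_of_order_two hx
    calc x = g⁻¹ * (g * x * g⁻¹) * g := by group
      _ = 1 := by rw [h]; group

theorem order_two_of_isConj {x w : G} (hx : orderOf x = 2) (h : IsConj x w) : orderOf w = 2 := by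
  obtain ⟨b, hb⟩ := isConj_iff.mp h
  rw [← hb]
  exact order_two_conj hx b

theorem unique_involution (r w : G) (hr : Even (orderOf r)) (hw : orderOf w = 2)
    (hmem : w ∈ Subgroup.zpowers r) : w = r ^ (orderOf r / 2) := by
  obtain ⟨k, rfl⟩ := Subgroup.mem_zpowers_iff.mp hmem
  obtain ⟨m, hm⟩ := hr
  have hdiv : orderOf r / 2 = m := by omega
  rw [hdiv]
  have h1 : r ^ (k + k) = 1 := by
    rw [zpow_add]
    exact mul_self_of_order_two hw
  have h2 := orderOf_dvd_iff_zpow_eq_one.mpr h1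
  rw [hm] at h2
  have hpos : 0 < orderOf r := orderOf_pos _
  have hm0 : (m : ℤ) ≠ 0 := by
    have : m ≠ 0 := by omega
    exact_mod_cast this
  obtain ⟨c, hc⟩ := h2
  push_cast at hc
  have h3 : k = m * c := by
    have : 2 * k = 2 * (m * c) := by linarith
    linarith
  have hrm : r ^ m * r ^ m = 1 := by
    rw [← pow_add, ← hm, pow_orderOf_eq_one]
  rcases Int.even_or_odd' c with ⟨j, rfl | rfl⟩
  · exfalso
    apply ne_one_of_order_two hw
    rw [h3]
    have : (m : ℤ) * (2 * j) = ((m : ℤ) + m) * j := by ring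
    rw [this, zpow_mul, zpow_add, zpow_natCast, hrm, one_zpow]
  · rw [h3]
    have : (m : ℤ) * (2 * j + 1) = ((m : ℤ) + m) * j + m := by ring
    rw [this, zpow_add, zpow_mul, zpow_add, zpow_natCast, hrm, one_zpow, one_mul]

theorem card_A (x₁ x₂ x : G) :
    Nat.card {q : G × (G × G) // (IsConj x₁ q.2.1 ∧ IsConj x₂ q.2.2) ∧
      q.1 * x * q.1⁻¹ ∈ Subgroup.zpowers (q.2.1 * q.2.2)} =
    Nat.card G * Nat.card {p : G × G // IsConj x₁ p.1 ∧ IsConj x₂ p.2 ∧
      x ∈ Subgroup.zpowers (p.1 * p.2)} := by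
  rw [← Nat.card_prod]
  apply Nat.card_congr
  have hz : ∀ (g a b : G), (g * x * g⁻¹ ∈ Subgroup.zpowers (a * b)) ↔
      x ∈ Subgroup.zpowers (g⁻¹ * a * g * (g⁻¹ * b * g)) := by
    intro g a b
    have e : g⁻¹ * a * g * (g⁻¹ * b * g) = g⁻¹ * (a * b) * g⁻¹⁻¹ := by group
    rw [e, Subgroup.mem_zpowers_iff, Subgroup.mem_zpowers_iff]
    constructor
    · rintro ⟨k, hk⟩
      refine ⟨k, ?_⟩
      rw [conj_zpow, hk]
      group
    · rintro ⟨k, hk⟩
      refine ⟨k, ?_⟩
      rw [conj_zpow] at hk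
      rw [← hk]
      group
  have hcj : ∀ (y a g : G), IsConj y a → IsConj y (g * a * g⁻¹) :=
    fun y a g h => h.trans (isConj_iff.mpr ⟨g, rfl⟩)
  exact
    { toFun := fun q => (q.1.1, ⟨(q.1.1⁻¹ * q.1.2.1 * q.1.1, q.1.1⁻¹ * q.1.2.2 * q.1.1), by
        have h1 := hcj x₁ _ q.1.1⁻¹ q.2.1.1
        have h2 := hcj x₂ _ q.1.1⁻¹ q.2.1.2
        rw [inv_inv] at h1 h2
        exact ⟨h1, h2, (hz _ _ _).mp q.2.2⟩⟩)
      invFun := fun z => ⟨(z.1, (z.1 * z.2.1.1 * z.1⁻¹, z.1 * z.2.1.2 * z.1⁻¹)), by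
        refine ⟨⟨hcj x₁ _ z.1 z.2.2.1, hcj x₂ _ z.1 z.2.2.2.1⟩, ?_⟩
        rw [hz]
        have e1 : z.1⁻¹ * (z.1 * z.2.1.1 * z.1⁻¹) * z.1 = z.2.1.1 := by group
        have e2 : z.1⁻¹ * (z.1 * z.2.1.2 * z.1⁻¹) * z.1 = z.2.1.2 := by group
        simp only [e1, e2]
        exact z.2.2.2.2⟩
      left_inv := fun q => by
        apply Subtype.ext
        apply Prod.ext
        · rfl
        · apply Prod.ext
          · change q.1.1 * (q.1.1⁻¹ * q.1.2.1 * q.1.1) * q.1.1⁻¹ = q.1.2.1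
            group
          · change q.1.1 * (q.1.1⁻¹ * q.1.2.2 * q.1.1) * q.1.1⁻¹ = q.1.2.2
            group
      right_inv := fun z => by
        apply Prod.ext
        · rfl
        · apply Subtype.ext
          apply Prod.ext
          · change z.1⁻¹ * (z.1 * z.2.1.1 * z.1⁻¹) * z.1 = z.2.1.1
            group
          · change z.1⁻¹ * (z.1 * z.2.1.2 * z.1⁻¹) * z.1 = z.2.1.2
            group }

theorem card_A_sum (x₁ x₂ x : G) [Fintype {p : G × G // IsConj x₁ p.1 ∧ IsConj x₂ p.2}] :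
    Nat.card {q : G × (G × G) // (IsConj x₁ q.2.1 ∧ IsConj x₂ q.2.2) ∧
      q.1 * x * q.1⁻¹ ∈ Subgroup.zpowers (q.2.1 * q.2.2)} =
    ∑ p : {p : G × G // IsConj x₁ p.1 ∧ IsConj x₂ p.2},
      Nat.card {g : G // g * x * g⁻¹ ∈ Subgroup.zpowers (p.1.1 * p.1.2)} := by
  rw [← Nat.card_sigma]
  apply Nat.card_congr
  exact
   { toFun := fun q => ⟨⟨q.1.2, q.2.1⟩, ⟨q.1.1, q.2.2⟩⟩
     invFun := fun s => ⟨(s.2.1, s.1.1), s.1.2, s.2.2⟩
     left_inv := fun q => rfl
     right_inv := fun s => rfl }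

end

/-- Thompson Order Formula, two-class case: if every involution of the finite group G is conjugate to exactly one of the non-conjugate involutions x₁, x₂, and nᵢ is the number of pairs (u, v) with u conjugate to x₁, v conjugate to x₂ and xᵢ in the cyclic group generated by uv, then |G| = |C(x₂)| n₁ + |C(x₁)| n₂. -/
theorem result {G : Type*} [Group G] [Finite G] (x₁ x₂ : G) (h₁ : orderOf x₁ = 2) (h₂ : orderOf x₂ = 2) (hnc : ¬ IsConj x₁ x₂) (hall : ∀ t : G, orderOf t = 2 → IsConj x₁ t ∨ IsConj x₂ t) : Nat.card G = Nat.card (Subgroup.centralizer ({x₂} : Set G)) * Nat.card {p : G × G // IsConj x₁ p.1 ∧ IsConj x₂ p.2 ∧ x₁ ∈ Subgroup.zpowers (p.1 * p.2)} + Nat.card (Subgroup.centralizer ({x₁} : Set G)) * Nat.card {p : G × G // IsConj x₁ p.1 ∧ IsConj x₂ p.2 ∧ x₂ ∈ Subgroup.zpowers (p.1 * p.2)} := by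
  classical
  have : Fintype {p : G × G // IsConj x₁ p.1 ∧ IsConj x₂ p.2} := Fintype.ofFinite _
  obtain ⟨C₁, hC₁⟩ : ∃ C₁, C₁ = Nat.card (Subgroup.centralizer ({x₁} : Set G)) := ⟨_, rfl⟩
  obtain ⟨C₂, hC₂⟩ : ∃ C₂, C₂ = Nat.card (Subgroup.centralizer ({x₂} : Set G)) := ⟨_, rfl⟩
  rw [← hC₁, ← hC₂]
  have hpt : ∀ p : {p : G × G // IsConj x₁ p.1 ∧ IsConj x₂ p.2},
      C₂ * Nat.card {g : G // g * x₁ * g⁻¹ ∈ Subgroup.zpowers (p.1.1 * p.1.2)}
        + C₁ * Nat.card {g : G // g * x₂ * g⁻¹ ∈ Subgroup.zpowers (p.1.1 * p.1.2)} = C₁ * C₂ := by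
    rintro ⟨⟨u, v⟩, hu, hv⟩
    have hu2 := order_two_of_isConj h₁ hu
    have hv2 := order_two_of_isConj h₂ hv
    have heven : Even (orderOf (u * v)) := by
      by_contra hodd
      rw [Nat.not_even_iff_odd] at hodd
      obtain ⟨d, _, hd⟩ := Cfsg.Agent.S0208.result u v hu2 hv2 hodd
      exact hnc (hu.trans ((isConj_iff.mpr ⟨d, hd⟩).trans hv.symm))
    obtain ⟨hw2, _, _⟩ := Cfsg.Agent.S0209.result u v hu2 hv2 heven
    obtain ⟨w, hw⟩ : ∃ w, w = (u * v) ^ (orderOf (u * v) / 2) := ⟨_, rfl⟩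
    rw [← hw] at hw2
    have hwmem : w ∈ Subgroup.zpowers (u * v) := hw ▸ Subgroup.npow_mem_zpowers _ _
    have hiff : ∀ (x : G), orderOf x = 2 → ∀ g : G,
        (g * x * g⁻¹ ∈ Subgroup.zpowers (u * v) ↔ g * x * g⁻¹ = w) := by
      intro x hx g
      constructor
      · intro h
        rw [hw]
        exact unique_involution _ _ heven (order_two_conj hx g) h
      · intro h
        rw [h]
        exact hwmem
    have e1 : Nat.card {g : G // g * x₁ * g⁻¹ ∈ Subgroup.zpowers (u * v)}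
        = Nat.card {g : G // g * x₁ * g⁻¹ = w} := Nat.card_congr (Equiv.subtypeEquivRight (hiff x₁ h₁))
    have e2 : Nat.card {g : G // g * x₂ * g⁻¹ ∈ Subgroup.zpowers (u * v)}
        = Nat.card {g : G // g * x₂ * g⁻¹ = w} := Nat.card_congr (Equiv.subtypeEquivRight (hiff x₂ h₂))
    simp only
    rw [e1, e2]
    rcases hall w hw2 with hc | hc
    · rw [card_conj_fiber x₁ w hc]
      have : IsEmpty {g : G // g * x₂ * g⁻¹ = w} :=
        ⟨fun g => hnc (hc.trans (isConj_iff.mpr ⟨g.1, g.2⟩).symm)⟩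
      rw [← hC₁, Nat.card_of_isEmpty]
      ring
    · rw [card_conj_fiber x₂ w hc]
      have : IsEmpty {g : G // g * x₁ * g⁻¹ = w} :=
        ⟨fun g => hnc ((isConj_iff.mpr ⟨g.1, g.2⟩).trans hc.symm)⟩
      rw [← hC₂, Nat.card_of_isEmpty]
      ring
  have hsum := Finset.sum_congr (rfl : (Finset.univ : Finset {p : G × G // IsConj x₁ p.1 ∧ IsConj x₂ p.2}) = _)
    (fun p _ => hpt p)
  rw [Finset.sum_add_distrib, ← Finset.mul_sum, ← Finset.mul_sum, ← card_A_sum, ← card_A_sum, card_A,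
    card_A, Finset.sum_const, Finset.card_univ, smul_eq_mul] at hsum
  have hS : Fintype.card {p : G × G // IsConj x₁ p.1 ∧ IsConj x₂ p.2}
      = Nat.card {w : G // IsConj x₁ w} * Nat.card {w : G // IsConj x₂ w} := by
    rw [← Nat.card_eq_fintype_card, ← Nat.card_prod]
    exact Nat.card_congr (Equiv.subtypeProdEquivProd)
  have k1 := card_class_mul x₁
  have k2 := card_class_mul x₂
  rw [← hC₁] at k1
  rw [← hC₂] at k2
  rw [hS] at hsum
  have hpos : 0 < Nat.card G := Nat.card_pos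
  apply Nat.eq_of_mul_eq_mul_left hpos
  calc Nat.card G * Nat.card G
      = (Nat.card {w : G // IsConj x₁ w} * C₁) * (Nat.card {w : G // IsConj x₂ w} * C₂) := by rw [k1, k2]
    _ = Nat.card {w : G // IsConj x₁ w} * Nat.card {w : G // IsConj x₂ w} * (C₁ * C₂) := by ring
    _ = _ := by rw [← hsum]; ring

end Cfsg.Agent.S0213
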