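import Cfsg.Statements.S0212
import Cfsg.Agent.Lib.Helper5.Dihedral
import Cfsg.Agent.S0213

set_option autoImplicit false
open Cfsg

namespace Cfsg.Agent.S0212

open Cfsg.Agent.Lib.Helper5
open Cfsg.Agent.S0213 (card_conj_fiber card_class_mul order_two_of_isConj)

section
variable {G : Type*} [Group G] [Finite G]

theorem card_le_factorial_index [IsSimpleGroup G] (H : Subgroup G) (hH : H ≠ ⊤) :
    Nat.card G ≤ Nat.factorial H.index := by
  have hker : (MulAction.toPermHom G (G ⧸ H)).ker = ⊥ := by
    rcases IsSimpleGroup.eq_bot_or_eq_top_of_normal (MulAction.toPermHom G (G ⧸ H)).ker inferInstance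
      with h | h
    · exact h
    · exfalso
      apply hH
      rw [← Subgroup.normalCore_eq_ker] at h
      exact top_le_iff.mp (h ▸ Subgroup.normalCore_le H)
  have hinj : Function.Injective (MulAction.toPermHom G (G ⧸ H)) :=
    (MonoidHom.ker_eq_bot_iff _).mp hker
  have := Nat.card_le_card_of_injective _ hinj
  rwa [Nat.card_perm] at this

theorem card_inverting_le (x : G) :
    Nat.card {g : G // g * x * g⁻¹ = x⁻¹} ≤ Nat.card (Subgroup.centralizer ({x} : Set G)) := by
  by_cases h : IsConj x x⁻¹
  · exact (card_conj_fiber x x⁻¹ h).le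
  · have : IsEmpty {g : G // g * x * g⁻¹ = x⁻¹} := ⟨fun g => h (isConj_iff.mpr ⟨g.1, g.2⟩)⟩
    rw [Nat.card_of_isEmpty]
    exact Nat.zero_le _

theorem count_pairs (t : G) (ht : orderOf t = 2) [Fintype G] [DecidableEq G] :
    Nat.card {u : G // IsConj t u} * Nat.card {u : G // IsConj t u} ≤
      Nat.card {u : G // IsConj t u} +
        ∑ x ∈ (Finset.univ : Finset G).erase 1, Nat.card (Subgroup.centralizer ({x} : Set G)) := by
  let f : {u : G // IsConj t u} × {u : G // IsConj t u} → G := fun p => p.1.1 * p.2.1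
  rw [← Nat.card_prod, ← Nat.card_congr (Equiv.sigmaFiberEquiv f), Nat.card_sigma,
    ← Finset.add_sum_erase _ _ (Finset.mem_univ (1 : G))]
  apply Nat.add_le_add
  · apply Nat.card_le_card_of_injective (fun p : {p // f p = 1} => p.1.1)
    intro p q hpq
    apply Subtype.ext
    apply Prod.ext hpq
    apply Subtype.ext
    have h1 : p.1.1.1 * p.1.2.1 = 1 := p.2
    have h2 : q.1.1.1 * q.1.2.1 = 1 := q.2
    have h3 : p.1.1.1 = q.1.1.1 := congrArg Subtype.val hpq
    rw [h3] at h1
    exact mul_left_cancel (h1.trans h2.symm)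
  · apply Finset.sum_le_sum
    intro x _
    refine le_trans ?_ (card_inverting_le x)
    apply Nat.card_le_card_of_injective
      (fun p : {p // f p = x} => (⟨p.1.1.1, by
        have h1 : p.1.1.1 * p.1.2.1 = x := p.2
        have hu := order_two_of_isConj ht p.1.1.2
        have hv := order_two_of_isConj ht p.1.2.2
        have h2 := dih_conj hu hv
        rw [h1] at h2
        exact h2⟩ : {g : G // g * x * g⁻¹ = x⁻¹}))
    intro p q hpq
    have h3 : p.1.1.1 = q.1.1.1 := congrArg (fun z : {g : G // g * x * g⁻¹ = x⁻¹} => z.1) hpq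
    apply Subtype.ext
    apply Prod.ext (Subtype.ext h3)
    apply Subtype.ext
    have h1 : p.1.1.1 * p.1.2.1 = x := p.2
    have h2 : q.1.1.1 * q.1.2.1 = x := q.2
    rw [h3] at h1
    exact mul_left_cancel (h1.trans h2.symm)

end

/-- The Brauer–Fowler bound: if G is a finite simple group and t an involution of G whose centralizer has order n, then |G| ≤ (2n^2)!. -/
theorem result {G : Type*} [Group G] [Finite G] [IsSimpleGroup G] (t : G) (ht : orderOf t = 2) : Nat.card G ≤ Nat.factorial (2 * (Nat.card (Subgroup.centralizer ({t} : Set G))) ^ 2) := by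
  classical
  have : Fintype G := Fintype.ofFinite G
  obtain ⟨n, hn⟩ : ∃ n, n = Nat.card (Subgroup.centralizer ({t} : Set G)) := ⟨_, rfl⟩
  obtain ⟨m, hm⟩ : ∃ m, m = Nat.card {u : G // IsConj t u} := ⟨_, rfl⟩
  obtain ⟨N, hN⟩ : ∃ N, N = Nat.card G := ⟨_, rfl⟩
  rw [← hn, ← hN]
  have hmn : m * n = N := by rw [hm, hn, hN]; exact card_class_mul t
  have hNpos : 0 < N := hN ▸ Nat.card_pos
  have hnpos : 0 < n := hn ▸ Nat.card_pos
  have hmpos : 0 < m := Nat.pos_of_ne_zero (by rintro rfl; omega)
  by_cases hm1 : m = 1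
  · have : N = n := by rw [← hmn, hm1, one_mul]
    rw [this]
    calc n ≤ 2 * n ^ 2 := by nlinarith
      _ ≤ _ := Nat.self_le_factorial _
  have hm2 : 2 ≤ m := by omega
  have hex : ∃ x : G, x ≠ 1 ∧ (Subgroup.centralizer ({x} : Set G)).index ≤ 2 * n ^ 2 := by
    by_contra hcon
    push Not at hcon
    have h1 := count_pairs t ht
    rw [← hm] at h1
    have h2 : ∀ x ∈ (Finset.univ : Finset G).erase 1,
        2 * n ^ 2 * Nat.card (Subgroup.centralizer ({x} : Set G)) ≤ N := by
      intro x hx
      have hx1 : x ≠ 1 := (Finset.mem_erase.mp hx).1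
      have h3 := hcon x hx1
      have h4 : Nat.card (Subgroup.centralizer ({x} : Set G)) * (Subgroup.centralizer ({x} : Set G)).index = N := by
        rw [hN]; exact Subgroup.card_mul_index _
      rw [← h4, mul_comm]
      exact Nat.mul_le_mul_left _ h3.le
    have h5 : 2 * n ^ 2 * ∑ x ∈ (Finset.univ : Finset G).erase 1,
        Nat.card (Subgroup.centralizer ({x} : Set G)) ≤ (N - 1) * N := by
      rw [Finset.mul_sum]
      have := Finset.sum_le_card_nsmul _ _ _ h2
      rw [Finset.card_erase_of_mem (Finset.mem_univ _), Finset.card_univ, ← Nat.card_eq_fintype_card,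
        ← hN, smul_eq_mul] at this
      exact this
    have h6 : 2 * n ^ 2 * (m * m) ≤ 2 * n ^ 2 * m + (N - 1) * N := by
      calc 2 * n ^ 2 * (m * m) ≤ 2 * n ^ 2 * (m + ∑ x ∈ (Finset.univ : Finset G).erase 1,
            Nat.card (Subgroup.centralizer ({x} : Set G))) := Nat.mul_le_mul_left _ h1
        _ = 2 * n ^ 2 * m + 2 * n ^ 2 * ∑ x ∈ (Finset.univ : Finset G).erase 1,
            Nat.card (Subgroup.centralizer ({x} : Set G)) := by ring
        _ ≤ _ := Nat.add_le_add_left h5 _
    have h7 : 2 * n ^ 2 * (m * m) = (2 * N) * N := by rw [← hmn]; ring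
    have h8 : 2 * n ^ 2 * m = (2 * n) * N := by rw [← hmn]; ring
    rw [h7, h8, ← add_mul] at h6
    have h9 := Nat.le_of_mul_le_mul_right h6 hNpos
    have h10 : 2 * n ≤ N := by rw [← hmn]; exact Nat.mul_le_mul_right _ hm2
    omega
  obtain ⟨x, hx1, hx⟩ := hex
  have hxtop : Subgroup.centralizer ({x} : Set G) ≠ ⊤ := by
    intro htop
    have hxc : x ∈ Subgroup.center G := by
      rw [Subgroup.mem_center_iff]
      intro g
      have : g ∈ Subgroup.centralizer ({x} : Set G) := by rw [htop]; trivial
      exact Subgroup.mem_centralizer_singleton_iff.mp this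
    rcases IsSimpleGroup.eq_bot_or_eq_top_of_normal (Subgroup.center G) inferInstance with h | h
    · rw [h, Subgroup.mem_bot] at hxc
      exact hx1 hxc
    · apply hm1
      have htc : Subgroup.centralizer ({t} : Set G) = ⊤ := by
        rw [eq_top_iff]
        intro g _
        rw [Subgroup.mem_centralizer_singleton_iff]
        have : t ∈ Subgroup.center G := by rw [h]; trivial
        exact Subgroup.mem_center_iff.mp this g
      have hnN : n = N := by
        rw [hn, htc, hN]
        exact Subgroup.card_top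
      rw [hnN] at hmn
      exact Nat.eq_of_mul_eq_mul_right hNpos (by rw [hmn, one_mul])
  rw [hN]
  exact (card_le_factorial_index _ hxtop).trans (Nat.factorial_le hx)

end Cfsg.Agent.S0212
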