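import Cfsg.Statements.S4717
import Cfsg.Agent.Lib.Helper84.IdemBlock
import Cfsg.Agent.S0936
import Cfsg.Agent.Lib.Helper81.Subsections
-- import your own Cfsg.Agent.* helpers here

set_option autoImplicit false
open Cfsg
open Cfsg.Agent.Lib.Helper20 Cfsg.Agent.Lib.Helper81 Cfsg.Agent.Lib.Helper21 Cfsg.Agent.Lib.Helper84

namespace Cfsg.Agent.S4717

theorem blockDefect_le_of_induced {G : Type*} [Group G] [Fintype G] {p : ℕ} [Fact p.Prime]
    {M : Ideal AlgInt} (hM : IsPModular p M) {H : Subgroup G}
    {b : Set (IrrCharacter H)} {B : Set (IrrCharacter G)} (hind : IsInducedBlock M H b B) :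
    blockDefect p b ≤ blockDefect p B := by
  classical
  have : Fintype H := Fintype.ofFinite _
  obtain ⟨D, hD⟩ := exists_isDefectGroup hM b hind.1
  obtain ⟨E, hE, hDE⟩ := defectGroup_le_of_induced hM hind D hD
  have h1 := card_defectGroup hM b hind.1 D hD
  have h2 := card_defectGroup hM B hind.2.1 E hE
  have h3 : Nat.card (D.map H.subtype) = Nat.card D :=
    Subgroup.card_map_of_injective (Subgroup.subtype_injective _)
  have h4 := Subgroup.card_le_of_le hDE
  rw [h3, h1, h2] at h4
  exact (Nat.pow_le_pow_iff_right (Fact.out : p.Prime).one_lt).1 h4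

theorem induced_unique {G : Type*} [Group G] [Fintype G] {p : ℕ}
    {M : Ideal AlgInt} (hM : IsPModular p M) {H : Subgroup G}
    {b : Set (IrrCharacter H)} {B B' : Set (IrrCharacter G)} (h1 : IsInducedBlock M H b B)
    (h2 : IsInducedBlock M H b B') : B = B' := by
  obtain ⟨ξ, hξ⟩ := isPBlock_nonempty hM h1.1
  obtain ⟨χ, hχ⟩ := isPBlock_nonempty hM h1.2.1
  obtain ⟨χ', hχ'⟩ := isPBlock_nonempty hM h2.2.1
  have h3 : SameBlock M (χ : G → ℂ) (χ' : G → ℂ) := by
    intro g
    have := memLocalIdeal_sub hM (h2.2.2 ξ hξ χ' hχ' g) (h1.2.2 ξ hξ χ hχ g)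
    rwa [sub_sub_sub_cancel_left] at this
  rw [isPBlock_eq_blockOf hM h1.2.1 hχ, isPBlock_eq_blockOf hM h2.2.1 hχ']
  symm
  apply blockOf_eq_of_mem hM
  exact h3

theorem exists_central_order_p {G : Type*} [Group G] [Finite G] {p : ℕ} [Fact p.Prime]
    (D : Subgroup G) (hD : IsPGroup p D) (hne : D ≠ ⊥) :
    ∃ y : G, y ∈ D ∧ orderOf y = p ∧ ∀ d ∈ D, d * y = y * d := by
  have : Nontrivial D := (Subgroup.nontrivial_iff_ne_bot D).2 hne
  have h1 : Nontrivial (Subgroup.center D) := hD.center_nontrivial
  have h2 : IsPGroup p (Subgroup.center D) := hD.to_subgroup _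
  obtain ⟨n, hn⟩ := IsPGroup.iff_card.1 h2
  have h3 : p ∣ Nat.card (Subgroup.center D) := by
    rw [hn]
    rcases n with _ | n
    · rw [pow_zero] at hn
      have := Finite.one_lt_card (α := Subgroup.center D)
      omega
    · exact dvd_pow_self p (Nat.succ_ne_zero n)
  obtain ⟨z, hz⟩ := exists_prime_orderOf_dvd_card' p h3
  refine ⟨((z : D) : G), (z : D).2, ?_, ?_⟩
  · rw [Subgroup.orderOf_coe, Subgroup.orderOf_coe]; exact hz
  · intro d hd
    have := Subgroup.mem_center_iff.1 z.2 ⟨d, hd⟩
    exact congrArg Subtype.val this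


/-- Let p be a prime, M a maximal ideal of the algebraic integers containing p, and r a natural number; say that a finite group X has deficiency class r when X has no non-principal p-block of defect ≥ r. If G has deficiency class r then so does the centralizer of every p-element of G; conversely, if r > 0 and the centralizer of every element of order p has deficiency class r, then G has deficiency class r. -/
theorem result {G : Type*} [Group G] [Finite G] (p : ℕ) [Fact p.Prime] (M : Ideal Cfsg.AlgInt) (hM : Cfsg.IsPModular p M) (r : ℕ) : ((∀ B' : Set (Cfsg.IrrCharacter G), Cfsg.IsPBlock M B' → B' ≠ Cfsg.principalBlock M G → Cfsg.blockDefect p B' < r) → ∀ y : G, (∃ k : ℕ, orderOf y = p ^ k) → (∀ B' : Set (Cfsg.IrrCharacter ↥(Subgroup.centralizer ({y} : Set G))), Cfsg.IsPBlock M B' → B' ≠ Cfsg.principalBlock M ↥(Subgroup.centralizer ({y} : Set G)) → Cfsg.blockDefect p B' < r)) ∧ (0 < r → (∀ y : G, orderOf y = p → (∀ B' : Set (Cfsg.IrrCharacter ↥(Subgroup.centralizer ({y} : Set G))), Cfsg.IsPBlock M B' → B' ≠ Cfsg.principalBlock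 M ↥(Subgroup.centralizer ({y} : Set G)) → Cfsg.blockDefect p B' < r)) → (∀ B' : Set (Cfsg.IrrCharacter G), Cfsg.IsPBlock M B' → B' ≠ Cfsg.principalBlock M G → Cfsg.blockDefect p B' < r)) := by
  classical
  have := Fintype.ofFinite G
  constructor
  · intro hG y hy b hb hbne
    have hdef := inducedBlockDefined_centralizer hM y hy b hb
    obtain ⟨B, hind⟩ := id hdef
    have hBne : B ≠ principalBlock M G := by
      intro h
      apply hbne
      rw [h] at hind
      exact (Cfsg.Agent.S0936.result p M hM _ b hdef).1 hind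
    exact lt_of_le_of_lt (blockDefect_le_of_induced hM hind) (hG B hind.2.1 hBne)
  · intro hr hC B hB hBne
    by_contra hcon
    push Not at hcon
    obtain ⟨D, hD⟩ := exists_isDefectGroup hM B hB
    have hcard := card_defectGroup hM B hB D hD
    have hD' := hD
    rw [isDefectGroup_iff] at hD'
    obtain ⟨g, hg, hgD⟩ := hD'
    have hDne : D ≠ ⊥ := by
      intro h
      rw [h, Subgroup.card_bot] at hcard
      have : 1 < p ^ blockDefect p B :=
        Nat.one_lt_pow (by omega) (Fact.out : p.Prime).one_lt
      omega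
    obtain ⟨y, hyD, hyo, hyc⟩ := exists_central_order_p D hgD.isPGroup hDne
    have hy : ∃ k : ℕ, orderOf y = p ^ k := ⟨1, by rw [hyo, pow_one]⟩
    have hP : IsPGroup p (Subgroup.zpowers y) := by
      apply IsPGroup.of_card (n := 1)
      rw [Nat.card_zpowers, hyo, pow_one]
    have hPH : Subgroup.zpowers y ≤ Subgroup.centralizer ({y} : Set G) := by
      rw [Subgroup.zpowers_le, Subgroup.mem_centralizer_iff]
      intro v hv; rw [Set.mem_singleton_iff] at hv; rw [hv]
    have hCH : Subgroup.centralizer (Subgroup.zpowers y : Set G) ≤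
        Subgroup.centralizer ({y} : Set G) := by
      apply Subgroup.centralizer_le
      intro v hv; rw [Set.mem_singleton_iff] at hv; rw [hv]
      exact Subgroup.mem_zpowers y
    have hHC : Subgroup.centralizer ({y} : Set G) ≤
        Subgroup.centralizer (Subgroup.zpowers y : Set G) := by
      intro g hg
      rw [Subgroup.mem_centralizer_iff] at hg ⊢
      intro v hv
      obtain ⟨n, rfl⟩ := Subgroup.mem_zpowers_iff.1 hv
      have : Commute y g := hg y rfl
      exact (this.zpow_left n).eq
    have hHN := hHC.trans (Subgroup.centralizer_le_normalizer _)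
    have hgy : g ∈ Subgroup.centralizer ({y} : Set G) := by
      have h1 := hgD.le hyD
      rw [Subgroup.mem_centralizer_singleton_iff] at h1 ⊢
      exact h1.symm
    obtain ⟨b, hind, hbg⟩ := exists_induced_unit_coeff hM hP hPH hCH hHN B hB g (hHC hgy) hg.2.1
    have hbne : b ≠ principalBlock M (Subgroup.centralizer ({y} : Set G)) := by
      intro h
      apply hBne
      have h1 := (Cfsg.Agent.S0936.result p M hM _ b ⟨B, hind⟩).2 h
      exact induced_unique hM hind h1
    have h1 := hC y hyo b hind.1 hbne
    have h2 := factorization_centralizer_le_blockDefect hM b hind.1 _ hbg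
    -- `D` embeds in the centralizer of `g` in `H`
    have hDH : D ≤ Subgroup.centralizer ({y} : Set G) := by
      intro d hd
      rw [Subgroup.mem_centralizer_singleton_iff]
      exact hyc d hd
    have h3 : D.subgroupOf (Subgroup.centralizer ({y} : Set G)) ≤
        Subgroup.centralizer ({(⟨g, hCH (hHC hgy)⟩ : Subgroup.centralizer ({y} : Set G))} : Set _) := by
      intro d hd
      rw [Subgroup.mem_centralizer_singleton_iff]
      apply Subtype.ext
      have := hgD.le (Subgroup.mem_subgroupOf.1 hd)
      rw [Subgroup.mem_centralizer_singleton_iff] at this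
      exact this
    have h4 : Nat.card (D.subgroupOf (Subgroup.centralizer ({y} : Set G))) = Nat.card D :=
      Nat.card_congr (Subgroup.subgroupOfEquivOfLe hDH).toEquiv
    have h5 := Subgroup.card_dvd_of_le h3
    rw [h4, hcard] at h5
    have h6 := (Nat.Prime.pow_dvd_iff_le_factorization (Fact.out : p.Prime)
      (Nat.card_pos.ne')).1 h5
    omega

end Cfsg.Agent.S4717
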