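import Cfsg.Statements.S4718
-- import your own Cfsg.Agent.* helpers here
import Cfsg.Agent.Lib.Helper51.Landau
import Cfsg.Agent.S4494
import Cfsg.Agent.S0936
import Cfsg.Agent.Lib.Helper20.CharCount

set_option autoImplicit false
universe u
open Cfsg

namespace Cfsg.Agent.S4718

/-- Let p be a prime and a a natural number. There is a bound N such that every finite group whose Sylow p-subgroups have order p^a and whose only p-block (relative to a maximal ideal of the algebraic integers containing p) is the principal block has order at most N. -/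
theorem result (p : ℕ) [Fact p.Prime] (a : ℕ) : ∃ N : ℕ, ∀ (G : Type u) [Group G] [Finite G] (M : Ideal Cfsg.AlgInt), Cfsg.IsPModular p M → (Nat.card G).factorization p = a → (∀ B : Set (Cfsg.IrrCharacter G), Cfsg.IsPBlock M B → B = Cfsg.principalBlock M G) → Nat.card G ≤ N := by
  obtain ⟨N, hN⟩ := Cfsg.Agent.Lib.Helper51.landau.{u} ((p ^ (2 * a) + 4) / 4)
  refine ⟨N, fun G _ _ M hM ha hB => ?_⟩
  apply hN G
  rw [← Cfsg.Agent.Lib.Helper20.card_irrCharacter]
  have huniv : principalBlock M G = Set.univ := by
    ext χ
    simp only [Set.mem_univ, iff_true]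
    rw [← hB (blockOf M (χ : G → ℂ)) ⟨χ, rfl⟩]
    exact Cfsg.Agent.Lib.Helper81.mem_blockOf_self hM χ
  have h1 := Cfsg.Agent.S4494.result p M hM (principalBlock M G)
    (Cfsg.Agent.S0936.isPBlock_principal M)
  have h2 : Nat.card (principalBlock M G) = Nat.card (IrrCharacter G) := by
    rw [huniv]; exact Nat.card_congr (Equiv.Set.univ _)
  have h3 : blockDefect p (principalBlock M G) ≤ a := by
    unfold blockDefect
    rw [ha]
    exact Nat.sub_le _ _
  have h4 : p ^ (2 * blockDefect p (principalBlock M G)) ≤ p ^ (2 * a) :=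
    Nat.pow_le_pow_right (Fact.out : p.Prime).pos (by omega)
  rw [h2] at h1
  rw [Nat.le_div_iff_mul_le (by norm_num)]
  omega

end Cfsg.Agent.S4718
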