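import Cfsg.Statements.S0102
import Cfsg.Agent.Lib.Helper3.Transfer

set_option autoImplicit false
open Cfsg

namespace Cfsg.Agent.S0102

/-- A finite perfect group with cyclic Sylow p-subgroups has no perfect central extension whose kernel has order divisible by p. -/
theorem result {G : Type*} {H : Type*} [Group G] [Group H] [Finite G] [Finite H] (hG : commutator G = ⊤) {p : ℕ} [Fact p.Prime] (hcyc : ∀ P : Sylow p G, IsCyclic P) (σ : H →* G) (hσ : Function.Surjective σ) (hz : σ.ker ≤ Subgroup.center H) (hH : commutator H = ⊤) : ¬ p ∣ Nat.card σ.ker := by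
  intro hdvd
  obtain ⟨x, hx⟩ := exists_prime_orderOf_dvd_card' p hdvd
  have hxo : orderOf (x : H) = p := by rw [Subgroup.orderOf_coe, hx]
  have hpg : IsPGroup p (Subgroup.zpowers (x : H)) := by
    rw [IsPGroup.iff_card]
    exact ⟨1, by rw [Nat.card_zpowers, hxo, pow_one]⟩
  obtain ⟨P, hP⟩ := hpg.exists_le_sylow
  obtain ⟨Q, hQ⟩ := (P.2.map σ).exists_le_sylow
  have hQc : IsCyclic Q := hcyc Q
  let f : P →* Q := (σ.domRestrict (P : Subgroup H)).codRestrict (Q : Subgroup G)
    (fun y => hQ ⟨y, y.2, rfl⟩)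
  have hf : f.ker ≤ Subgroup.center P := by
    intro y hy
    have hy1 : σ (y : H) = 1 := by
      have := congrArg Subtype.val (MonoidHom.mem_ker.mp hy)
      simpa [f] using this
    have hy2 : (y : H) ∈ Subgroup.center H := hz (MonoidHom.mem_ker.mpr hy1)
    rw [Subgroup.mem_center_iff]
    intro g
    exact Subtype.ext (Subgroup.mem_center_iff.mp hy2 g)
  have hcomm : IsMulCommutative P := f.isMulCommutative_of_isCyclic_of_ker_le_center hf
  have hHall : Nat.Coprime (Nat.card (P : Subgroup H)) (P : Subgroup H).index := by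
    obtain ⟨n, hn⟩ := IsPGroup.iff_card.mp P.2
    rw [hn]
    exact Nat.Coprime.pow_left n ((Nat.Prime.coprime_iff_not_dvd Fact.out).mpr P.not_dvd_index)
  have := Cfsg.Agent.Lib.Helper3.abelian_hall_inf_commutator_inf_center (P : Subgroup H) hcomm hHall
  have hmem : (x : H) ∈ (P : Subgroup H) ⊓ commutator H ⊓ Subgroup.center H :=
    ⟨⟨hP (Subgroup.mem_zpowers _), by rw [hH]; trivial⟩, hz x.2⟩
  rw [this, Subgroup.mem_bot] at hmem
  rw [hmem, orderOf_one] at hxo
  exact (Fact.out : p.Prime).one_lt.ne hxo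

end Cfsg.Agent.S0102
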