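import Cfsg.Statements.S0895
import Cfsg.Agent.Lib.Helper78.FrobSchur2

set_option autoImplicit false
open Cfsg
open Cfsg.Agent.Lib.Helper78

namespace Cfsg.Agent.S0895

/-- Let χ be a real-valued irreducible character of a finite group G whose degree is an odd natural number. Then the average over s in G of χ (s * s) equals 1. -/
theorem result {G : Type*} [Group G] [Fintype G] (χ : G → ℂ) (hχ : Cfsg.IsIrrCharacter G χ) (hreal : ∀ g : G, (χ g).im = 0) (d : ℕ) (hd : χ 1 = d) (hodd : Odd d) : (Nat.card G : ℂ)⁻¹ * ∑ s : G, χ (s * s) = 1 := by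
  obtain ⟨n, ρ, hirr, rfl⟩ := hχ
  obtain ⟨M, h0, hM⟩ := fs_exists_inv hirr hreal
  have hT := fsInv_transpose_eq hirr hM
  have hdet := fsInv_det_ne_zero hirr hM h0
  have hn : n = d := by
    have h1 : ρ.character 1 = (n : ℂ) := by
      rw [Representation.char_one]
      simp
    rw [h1] at hd
    exact_mod_cast hd
  subst hn
  change fsNu ρ.character = 1
  rcases (fsNu_trichotomy hirr).1 with h | h | h
  · exfalso
    obtain ⟨s, hs⟩ := (fsNu_trichotomy hirr).2.mp h
    exact hs (hreal s)
  · exact h
  · exfalso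
    rw [h] at hT
    have h2 := congrArg Matrix.det hT
    rw [Matrix.det_transpose, Matrix.det_smul, Fintype.card_fin, hodd.neg_one_pow] at h2
    have h3 : (2 : ℂ) * M.det = 0 := by linear_combination h2
    rcases mul_eq_zero.mp h3 with h4 | h4
    · norm_num at h4
    · exact hdet h4

end Cfsg.Agent.S0895
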