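import Cfsg.Statements.S5016
import Cfsg.Agent.Lib.Helper85.SL2RankOne

set_option autoImplicit false
open Cfsg

namespace Cfsg.Agent.S5016

/-- For any field k, the special linear group SL₂(k) is a special rank one group with abelian unipotent subgroups, the unipotent subgroups being the group of lower unitriangular matrices and the group of upper unitriangular matrices. -/
theorem result (k : Type*) [Field k] :
    Cfsg.IsRankOneGroup (Matrix.SpecialLinearGroup (Fin 2) k) (Cfsg.lowerUnipotentSL2 k) (Cfsg.upperUnipotentSL2 k) ∧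
    Cfsg.IsSpecialRankOnePair (Cfsg.lowerUnipotentSL2 k) (Cfsg.upperUnipotentSL2 k) ∧
    Cfsg.HasAbelianUnipotents (Cfsg.lowerUnipotentSL2 k) (Cfsg.upperUnipotentSL2 k) := by
  open Cfsg.Agent.Lib.Helper85 in
  exact ⟨⟨SL2.sup_eq_top, SL2.isRankOnePair⟩, SL2.isSpecial,
    SL2.isMulCommutative_lower, SL2.isMulCommutative_upper⟩

end Cfsg.Agent.S5016
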