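import Cfsg.Statements.S0292
import Cfsg.Agent.Lib.Helper18.OmegaFrames
import Cfsg.Agent.Lib.Helper18.OrthOmega
import Cfsg.Agent.Lib.Helper49.HypPairs
import Cfsg.Agent.S0286
import Cfsg.Agent.S0790

set_option autoImplicit false
open Cfsg
open Cfsg.Agent.Lib.Helper18 Cfsg.Agent.Lib.Helper18.OmegaCenter Cfsg.Agent.Lib.Helper49

namespace Cfsg.Agent.S0292

/-- 2 |PΩ_{2m+1}(q)| = q^(m^2) prod_{i=1}^{m} (q^(2i) - 1), for q odd and m at least 3 (type B_m). -/
theorem result {F : Type*} [Field F] [Fintype F] {q : ℕ} (hF : Fintype.card F = q) (hodd : Odd q) (m : ℕ) (hm : 3 ≤ m) : 2 * Nat.card (Cfsg.POmega F (Cfsg.quadFormOdd m F)) = q ^ (m ^ 2) * ∏ i ∈ Finset.range m, (q ^ (2 * (i + 1)) - 1) := by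
  have h2 : (2 : F) ≠ 0 := Cfsg.Agent.S0790.two_ne_zero_of_odd_card (hF ▸ hodd)
  have hO := Cfsg.Agent.S0286.result hF hodd m
  rw [← oddQF_coe m F] at hO ⊢
  have hQ := oddQF_nondegenerate m F h2
  have hidx : (Cfsg.Omega F ⇑(oddQF m F)).index = 4 :=
    index_commutator (oddQF m F) h2 hQ (by simp; omega)
  have hZ : Nat.card (Subgroup.center ↥(Cfsg.Omega F ⇑(oddQF m F))) = 1 := by
    apply card_center_eq_one (oddQF m F) hQ (frame_odd m hm)
    right
    rintro ⟨g, hg, hg1⟩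
    have hd := det_of_mem_Omega (oddQF m F) g hg
    rw [hg1, Matrix.det_neg, Matrix.det_one] at hd
    have hc : Fintype.card (Unit ⊕ (Fin m ⊕ Fin m)) = 2 * m + 1 := by simp; omega
    rw [hc, pow_succ, pow_mul] at hd
    simp only [even_two, Even.neg_pow, one_pow, one_mul, mul_one] at hd
    apply h2
    linear_combination -hd
  have h := card_isometryGroup_eq (oddQF m F)
  rw [hZ, hidx, hO] at h
  have h' : 2 * (q ^ (m ^ 2) * ∏ i ∈ Finset.range m, (q ^ (2 * (i + 1)) - 1)) =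
      2 * (2 * Nat.card (Cfsg.POmega F ⇑(oddQF m F))) := by
    rw [← mul_assoc, h]; ring
  exact (Nat.eq_of_mul_eq_mul_left (by norm_num) h').symm

end Cfsg.Agent.S0292
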