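import Cfsg.Statements.S1680
import Cfsg.Agent.Lib.Helper35.Suz1782.Check
import Cfsg.Agent.Lib.Helper35.Suz1782.Perm

set_option autoImplicit false
open Cfsg

namespace Cfsg.Agent.S1680

/-- In the presented sporadic Suzuki group, let H be the subgroup generated by the images of a, …, f. Then H has index 1782, H has orbits of sizes 416 and 1365 on the cosets of H other than H itself (with the index 1782 this makes the action rank 3). -/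
theorem result : (((Subgroup.closure ({Cfsg.Spor.Suz.a, Cfsg.Spor.Suz.b, Cfsg.Spor.Suz.c, Cfsg.Spor.Suz.d, Cfsg.Spor.Suz.e, Cfsg.Spor.Suz.f} : Set (FreeGroup Cfsg.Spor.Suz.Gen))).map (PresentedGroup.mk (Cfsg.Spor.coxRelators Cfsg.Spor.Suz.edges ∪ {r | r ∈ Cfsg.Spor.Suz.extra})))).index = 1782 ∧ ∃ q₁ q₂ : Cfsg.Spor.Suz ⧸ (((Subgroup.closure ({Cfsg.Spor.Suz.a, Cfsg.Spor.Suz.b, Cfsg.Spor.Suz.c, Cfsg.Spor.Suz.d, Cfsg.Spor.Suz.e, Cfsg.Spor.Suz.f} : Set (FreeGroup Cfsg.Spor.Suz.Gen))).map (PresentedGroup.mk (Cfsg.Spor.coxRelators Cfsg.Spor.Suz.edges ∪ {r | r ∈ Cfsg.Spor.Suz.extra})))), (MulAction.orbit (((Subgroup.closure ({Cfsg.Spor.Suz.a, Cfsg.Spor.Suz.b, Cfsg.Spor.Suz.c, Cfsg.Spor.Suz.d, Cfsg.Spor.Suz.e, Cfsg.Spor.Suz.f} : Set (FreeGroup Cfsg.Spor.Suz.Gen))).map (PresentedGroup.mk (Cfsg.Spor.coxRelators Cfsg.Spor.Suz.edges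 ∪ {r | r ∈ Cfsg.Spor.Suz.extra})))) q₁).ncard = 416 ∧ (MulAction.orbit (((Subgroup.closure ({Cfsg.Spor.Suz.a, Cfsg.Spor.Suz.b, Cfsg.Spor.Suz.c, Cfsg.Spor.Suz.d, Cfsg.Spor.Suz.e, Cfsg.Spor.Suz.f} : Set (FreeGroup Cfsg.Spor.Suz.Gen))).map (PresentedGroup.mk (Cfsg.Spor.coxRelators Cfsg.Spor.Suz.edges ∪ {r | r ∈ Cfsg.Spor.Suz.extra})))) q₂).ncard = 1365 := by
  open Cfsg.Agent.Lib.Helper35 in
  obtain ⟨hidx, L, hL⟩ := cox_index_orbits Cfsg.Spor.Suz.edges Cfsg.Spor.Suz.extra PresSuz.cc PresSuz.extraL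
    PresSuz.R PresSuz.allGens PresSuz.hall PresSuz.hOK PresSuz.hextra
    ({Cfsg.Spor.Suz.a, Cfsg.Spor.Suz.b, Cfsg.Spor.Suz.c, Cfsg.Spor.Suz.d, Cfsg.Spor.Suz.e, Cfsg.Spor.Suz.f} : Set (FreeGroup Cfsg.Spor.Suz.Gen))
    Suz1782.SL (by
      have h : Suz1782.SL.map FreeGroup.mk = [Cfsg.Spor.Suz.a, Cfsg.Spor.Suz.b, Cfsg.Spor.Suz.c, Cfsg.Spor.Suz.d, Cfsg.Spor.Suz.e, Cfsg.Spor.Suz.f] := rfl
      rw [h]; ext x; simp)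
    Suz1782.S Suz1782.hS 1781 Suz1782.permData Suz1782.certData Suz1782.orbData
  refine ⟨hidx, ?_⟩
  obtain ⟨q₁, -, h₁⟩ := hL 2 (by decide +kernel) Cfsg.Agent.Lib.Helper35.Suz1782.orep2
  obtain ⟨q₂, -, h₂⟩ := hL 1 (by decide +kernel) Cfsg.Agent.Lib.Helper35.Suz1782.orep1
  exact ⟨q₁, q₂, h₁.trans Cfsg.Agent.Lib.Helper35.Suz1782.ocnt2, h₂.trans Cfsg.Agent.Lib.Helper35.Suz1782.ocnt1⟩

end Cfsg.Agent.S1680
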