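import Cfsg.Statements.S2430
import Cfsg.Agent.Lib.Helper46.SL2Nonsplit
import Cfsg.Agent.Lib.Helper46.SylowTorus

set_option autoImplicit false
open Cfsg
open Cfsg.Agent.Lib.Helper46

namespace Cfsg.Agent.S2430

theorem aux {F : Type*} [Field F] [Fintype F] (hodd : Fintype.card F % 2 = 1) (ℓ : ℕ) [Fact ℓ.Prime]
    (hℓ : ℓ ≠ 2) (P : Sylow ℓ (Matrix.SpecialLinearGroup (Fin 2) F))
    (X₀ : Matrix.SpecialLinearGroup (Fin 2) F) (hs : tr X₀ ^ 2 ≠ 4)
    (hC : ∀ h, h * X₀ = X₀ * h → h ∈ Subgroup.zpowers X₀) (n : ℕ)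
    (hn : Nat.card (Subgroup.zpowers X₀) = n) (hdvd : ℓ ∣ n) :
    Nat.card (Subgroup.centralizer ((P : Subgroup (Matrix.SpecialLinearGroup (Fin 2) F)) : Set (Matrix.SpecialLinearGroup (Fin 2) F))) = n ∧
      IsCyclic (Subgroup.centralizer ((P : Subgroup (Matrix.SpecialLinearGroup (Fin 2) F)) : Set (Matrix.SpecialLinearGroup (Fin 2) F))) ∧
      Nat.card (Subgroup.normalizer ((P : Subgroup (Matrix.SpecialLinearGroup (Fin 2) F)) : Set (Matrix.SpecialLinearGroup (Fin 2) F))) = 2 * n := by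
  have := finite_SL2 (F := F)
  have hℓp : ℓ.Prime := Fact.out
  obtain ⟨-, r2, r3, -, -⟩ := cyclic_torus hodd X₀ hs hC
  have hcommT : ∀ a ∈ Subgroup.zpowers X₀, ∀ b ∈ Subgroup.zpowers X₀, a * b = b * a := by
    intro a ha b hb
    obtain ⟨i, rfl⟩ := Subgroup.mem_zpowers_iff.1 ha
    obtain ⟨j, rfl⟩ := Subgroup.mem_zpowers_iff.1 hb
    rw [← zpow_add, ← zpow_add, add_comm]
  have hCt : ∀ t ∈ Subgroup.zpowers X₀, orderOf t = ℓ →
      Subgroup.centralizer ({t} : Set (Matrix.SpecialLinearGroup (Fin 2) F)) = Subgroup.zpowers X₀ := by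
    intro t ht hto
    apply r2 t ht
    intro hc
    have h1 := sq_eq_one_of_mem_center t hc
    rw [← pow_two] at h1
    have h2 := orderOf_dvd_of_pow_eq_one h1
    rw [hto] at h2
    exact hℓ ((Nat.prime_dvd_prime_iff_eq hℓp Nat.prime_two).1 h2)
  have hex : ∃ y ∈ Subgroup.zpowers X₀, orderOf y = ℓ := by
    obtain ⟨y, hy⟩ := exists_prime_orderOf_dvd_card' (G := Subgroup.zpowers X₀) ℓ (hn ▸ hdvd)
    exact ⟨y, y.2, by rw [Subgroup.orderOf_coe, hy]⟩
  obtain ⟨e, e1, e2⟩ := sylow_torus ℓ (Subgroup.zpowers X₀) hcommT hCt hex P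
  rw [e1, e2]
  refine ⟨?_, ?_, ?_⟩
  · rw [card_map_equiv, hn]
  · exact isCyclic_map_equiv _ e inferInstance
  · rw [card_map_equiv, r3, hn]

/-- Let F be a finite field with q elements, q odd, ℓ an odd prime, and P a Sylow ℓ-subgroup of SL₂ over F. If ℓ divides q − 1, the centraliser of P is cyclic of order q − 1 (a split torus) and the normaliser of P has order 2(q − 1); if ℓ divides q + 1, the centraliser of P is cyclic of order q + 1 (a non-split torus) and the normaliser of P has order 2(q + 1). -/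
theorem result {F : Type*} [Field F] [Fintype F] (hodd : Odd (Fintype.card F)) (ℓ : ℕ) [Fact ℓ.Prime] (hℓ : ℓ ≠ 2)
    (P : Sylow ℓ (Matrix.SpecialLinearGroup (Fin 2) F)) :
    (ℓ ∣ Fintype.card F - 1 →
      Nat.card (Subgroup.centralizer ((P : Subgroup (Matrix.SpecialLinearGroup (Fin 2) F)) : Set (Matrix.SpecialLinearGroup (Fin 2) F))) = Fintype.card F - 1 ∧
      IsCyclic (Subgroup.centralizer ((P : Subgroup (Matrix.SpecialLinearGroup (Fin 2) F)) : Set (Matrix.SpecialLinearGroup (Fin 2) F))) ∧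
      Nat.card (Subgroup.normalizer ((P : Subgroup (Matrix.SpecialLinearGroup (Fin 2) F)) : Set (Matrix.SpecialLinearGroup (Fin 2) F))) = 2 * (Fintype.card F - 1)) ∧
    (ℓ ∣ Fintype.card F + 1 →
      Nat.card (Subgroup.centralizer ((P : Subgroup (Matrix.SpecialLinearGroup (Fin 2) F)) : Set (Matrix.SpecialLinearGroup (Fin 2) F))) = Fintype.card F + 1 ∧
      IsCyclic (Subgroup.centralizer ((P : Subgroup (Matrix.SpecialLinearGroup (Fin 2) F)) : Set (Matrix.SpecialLinearGroup (Fin 2) F))) ∧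
      Nat.card (Subgroup.normalizer ((P : Subgroup (Matrix.SpecialLinearGroup (Fin 2) F)) : Set (Matrix.SpecialLinearGroup (Fin 2) F))) = 2 * (Fintype.card F + 1)) := by
  have hodd' : Fintype.card F % 2 = 1 := Nat.odd_iff.1 hodd
  have hℓp : ℓ.Prime := Fact.out
  constructor
  · intro hdvd
    have hex : ∃ v : Fˣ, v ^ 2 ≠ 1 := by
      have h1 : ℓ ∣ Nat.card Fˣ := by rw [Nat.card_units, Nat.card_eq_fintype_card]; exact hdvd
      obtain ⟨v, hv⟩ := exists_prime_orderOf_dvd_card' ℓ h1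
      refine ⟨v, fun h => ?_⟩
      have h2 := orderOf_dvd_of_pow_eq_one h
      rw [hv] at h2
      exact hℓ ((Nat.prime_dvd_prime_iff_eq hℓp Nat.prime_two).1 h2)
    obtain ⟨X₀, hs, hC, -, hcard⟩ := split_torus (F := F) hex
    exact aux hodd' ℓ hℓ P X₀ hs hC _ hcard hdvd
  · intro hdvd
    obtain ⟨X₀, hs, hC, hcard, -⟩ := nonsplit_torus (F := F) hodd'
    exact aux hodd' ℓ hℓ P X₀ hs hC _ hcard hdvd

end Cfsg.Agent.S2430
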