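import Cfsg.Statements.S2695
import Cfsg.Agent.Lib.Helper95.AutO.Main
import Cfsg.Agent.Lib.Helper29.AutOGlue
import Cfsg.Agent.Lib.Helper49.HypPairs
import Cfsg.Agent.Lib.Helper49.MinusNoLagr
import Cfsg.Agent.Lib.Helper49.RankParity
import Cfsg.Agent.Lib.Helper49.FinSq

set_option autoImplicit false
open Cfsg

namespace Cfsg.Agent.S2695

/-- For m ≥ 5 and a finite field F, the automorphism group of PΩ⁺_{2m}(F) (the form Σ xᵢ yᵢ) is generated by the automorphisms induced by the semisimilarities v ↦ g σ(v) of the form (the image of the projective semisimilarity group). The case 2m = 8 is excluded: there triality gives further automorphisms. -/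
theorem result {F : Type*} [Field F] [Fintype F] {m : ℕ} (hm : 5 ≤ m) :
    Cfsg.gammaPOmega F (Cfsg.quadFormPlus m F) = ⊤ := by
  rw [← Cfsg.Agent.Lib.Helper49.plusQF_coe]
  apply Cfsg.Agent.Lib.Helper29.AutO.gamma_eq_top_of_abstract
  intro α
  have hfr : Module.finrank F (Fin m ⊕ Fin m → F) = 2 * m := by
    rw [Module.finrank_fintype_fun_eq_card]
    simp only [Fintype.card_sum, Fintype.card_fin]
    omega
  exact Cfsg.Agent.Lib.Helper95.AutO.aut_main (Cfsg.Agent.Lib.Helper49.plusQF_nondegenerate m F)
    (by omega) (fun W _ hW => by omega) α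

end Cfsg.Agent.S2695
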