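import Cfsg.Statements.S0707
import Cfsg.Agent.Lib.Helper16.Semiregular

set_option autoImplicit false
open Cfsg

namespace Cfsg.Agent.S0707

open Cfsg.Agent.Lib.Helper16 MulAction

/-- a group in which the trivial subgroup is maximal has prime order -/
theorem prime_card_of_isCoatom_bot {G : Type*} [Group G] (h : IsCoatom (⊥ : Subgroup G)) :
    (Nat.card G).Prime := by
  have hne : (⊥ : Subgroup G) ≠ ⊤ := h.1
  obtain ⟨g, hg⟩ : ∃ g : G, g ≠ 1 := by
    by_contra hcon
    push Not at hcon
    apply hne
    rw [eq_comm, Subgroup.eq_bot_iff_forall]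
    intro x _; exact hcon x
  have key : ∀ x : G, x ≠ 1 → Subgroup.zpowers x = ⊤ := by
    intro x hx
    apply h.2
    rw [bot_lt_iff_ne_bot]
    intro hb
    exact hx (Subgroup.zpowers_eq_bot.mp hb)
  have hfin : orderOf g ≠ 0 := by
    intro h0
    have h2 : g ^ 2 ≠ 1 := by
      intro h2
      have := orderOf_dvd_of_pow_eq_one h2
      rw [h0] at this
      omega
    have h3 : g ∈ Subgroup.zpowers (g ^ 2) := by rw [key _ h2]; trivial
    obtain ⟨k, hk⟩ := Subgroup.mem_zpowers_iff.mp h3
    have h4 : g ^ (2 * k - 1) = 1 := by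
      rw [zpow_sub, zpow_mul, zpow_one]
      have : (g ^ (2 : ℤ)) = g ^ 2 := by norm_cast
      rw [this, hk]; simp
    have h5 := orderOf_dvd_iff_zpow_eq_one.mpr h4
    rw [h0] at h5
    simp only [Nat.cast_zero, zero_dvd_iff] at h5
    omega
  have h1 : orderOf g ≠ 1 := by rwa [Ne, orderOf_eq_one_iff]
  obtain ⟨r, hr, hrd⟩ := Nat.exists_prime_and_dvd h1
  have hx : orderOf (g ^ (orderOf g / r)) = r := orderOf_pow_orderOf_div hfin hrd
  have hx1 : g ^ (orderOf g / r) ≠ 1 := by
    intro h
    rw [h, orderOf_one] at hx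
    exact hr.one_lt.ne hx
  have := key _ hx1
  rw [← Subgroup.card_top, ← this, Nat.card_zpowers, hx]
  exact hr

/-- In a primitive permutation group, distinct points have distinct stabilisers unless the group is regular of prime degree. -/
theorem result {α : Type*} (G : Subgroup (Equiv.Perm α)) [MulAction.IsPreprimitive G α] (h : ¬ (Nat.card α).Prime ∨ ∃ a : α, MulAction.stabilizer G a ≠ ⊥) {a b : α} (hab : a ≠ b) : MulAction.stabilizer G a ≠ MulAction.stabilizer G b := by
  intro heq
  have : Nontrivial α := ⟨a, b, hab⟩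
  have hco : IsCoatom (stabilizer G a) := IsPreprimitive.isCoatom_stabilizer_of_isPreprimitive _ a
  obtain ⟨g, hg⟩ := exists_smul_eq G a b
  have hgN : g ∈ Subgroup.normalizer (stabilizer G a : Set G) := by
    rw [Subgroup.mem_normalizer_iff]
    intro x
    have h1 : stabilizer G (g • a) = stabilizer G a := by rw [hg, heq]
    rw [← h1]
    conv_rhs => rw [mem_stabilizer_iff]
    rw [h1, mem_stabilizer_iff, mul_smul, mul_smul, inv_smul_smul, smul_left_cancel_iff]
  have hgS : g ∉ stabilizer G a := by
    rw [mem_stabilizer_iff, hg]; exact hab.symm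
  have hNtop : Subgroup.normalizer (stabilizer G a : Set G) = ⊤ := by
    apply hco.2
    apply lt_of_le_of_ne Subgroup.le_normalizer
    intro h1
    rw [h1] at hgS
    exact hgS hgN
  have hnormal : (stabilizer G a).Normal := Subgroup.normalizer_eq_top_iff.mp hNtop
  have hbot : stabilizer G a = ⊥ := by
    rw [Subgroup.eq_bot_iff_forall]
    intro x hx
    apply Subtype.ext
    ext y
    obtain ⟨k, hk⟩ := exists_smul_eq G a y
    have h1 := hnormal.conj_mem x hx k⁻¹
    rw [mem_stabilizer_iff, mul_smul, mul_smul, inv_inv, hk, inv_smul_eq_iff, hk] at h1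
    exact h1
  have hall : ∀ y : α, stabilizer G y = ⊥ := by
    intro y
    obtain ⟨k, hk⟩ := exists_smul_eq G a y
    rw [← hk, stabilizer_smul_eq_stabilizer_map_conj, hbot, Subgroup.map_bot]
  rcases h with h | ⟨c, hc⟩
  · apply h
    rw [hbot] at hco
    rw [← Nat.card_congr (Equiv.ofBijective _ (orbitMap_bijective_of_regular a hbot))]
    exact prime_card_of_isCoatom_bot hco
  · exact hc (hall c)

end Cfsg.Agent.S0707
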