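import Cfsg.Statements.S0007
import Mathlib

set_option autoImplicit false
open Cfsg

namespace Cfsg.Agent.S0007

/-- Subgroups of coprime index: the intersection has index equal to the product of the indices, and every element is a product of an element of the first subgroup and an element of the second. -/
theorem result {G : Type*} [Group G] [Finite G] (H K : Subgroup G)
    (h : H.index.Coprime K.index) :
    (H ⊓ K).index = H.index * K.index ∧ ∀ g : G, ∃ x ∈ H, ∃ y ∈ K, g = x * y := by
  have h1 : (H ⊓ K).index = H.index * K.index := by
    apply le_antisymm (Subgroup.index_inf_le)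
    apply Nat.le_of_dvd (Nat.pos_of_ne_zero Subgroup.index_ne_zero_of_finite)
    exact h.mul_dvd_of_dvd_of_dvd (Subgroup.index_dvd_of_le inf_le_left) (Subgroup.index_dvd_of_le inf_le_right)
  refine ⟨h1, ?_⟩
  have h2 : K.relIndex H = K.index := by
    have := Subgroup.relIndex_mul_index (inf_le_left : H ⊓ K ≤ H)
    rw [Subgroup.inf_relIndex_left, h1, mul_comm] at this
    exact Nat.eq_of_mul_eq_mul_left (Nat.pos_of_ne_zero Subgroup.index_ne_zero_of_finite) this
  let f : H ⧸ K.subgroupOf H → G ⧸ K := Quotient.map' (fun x => (x : G)) (by
    intro a b hab
    rw [QuotientGroup.leftRel_apply] at hab ⊢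
    simpa [Subgroup.mem_subgroupOf] using hab)
  have hf : Function.Injective f := by
    intro a b
    induction a using Quotient.inductionOn' with | _ a => ?_
    induction b using Quotient.inductionOn' with | _ b => ?_
    intro hab
    have := Quotient.exact' hab
    apply Quotient.sound'
    rw [QuotientGroup.leftRel_apply] at this ⊢
    simpa [Subgroup.mem_subgroupOf] using this
  have hbij : Function.Bijective f := by
    rw [Nat.bijective_iff_injective_and_card]
    exact ⟨hf, h2⟩
  intro g
  obtain ⟨a, ha⟩ := hbij.2 (g : G ⧸ K)
  induction a using Quotient.inductionOn' with | _ a => ?_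
  have := Quotient.exact' ha
  rw [QuotientGroup.leftRel_apply] at this
  exact ⟨a, a.2, _, this, by group⟩

end Cfsg.Agent.S0007
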