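import Cfsg.Statements.S0019
import Cfsg.Agent.Lib.Helper1.Coprime3

set_option autoImplicit false
open Cfsg

namespace Cfsg.Agent.S0019

open scoped Pointwise
open Lib.Helper1

universe u

theorem normalClosure_le {G : Type*} [Group G] [Finite G] {p : ℕ} [Fact p.Prime]
    (H₁ X N : Subgroup G) (hn : H₁ ≤ Subgroup.normalizer (N : Set G))
    (hNp : IsPGroup p N) (hX : ¬ p ∣ X.index) (hfac : ∀ g : G, ∃ x ∈ H₁, ∃ y ∈ X, g = x * y) :
    Subgroup.normalClosure (N : Set G) ≤ X := by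
  obtain ⟨T, hT⟩ := hNp.exists_le_sylow
  obtain ⟨S₀⟩ : Nonempty (Sylow p X) := inferInstance
  have hSp : IsPGroup p ((S₀ : Subgroup X).map X.subtype) := S₀.isPGroup'.map _
  have hSi : ¬ p ∣ ((S₀ : Subgroup X).map X.subtype).index := by
    rw [Subgroup.index_map_subtype]
    intro h
    rcases (Nat.Prime.dvd_mul Fact.out).mp h with h | h
    · exact S₀.not_dvd_index h
    · exact hX h
  obtain ⟨g, hg⟩ := MulAction.exists_smul_eq G (hSp.toSylow hSi) T
  have h1 : N ≤ MulAut.conj g • X := by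
    have h2 : (T : Subgroup G) = MulAut.conj g • ((S₀ : Subgroup X).map X.subtype) := by
      rw [← hg, Sylow.coe_subgroup_smul]
      rfl
    refine hT.trans ?_
    rw [h2]
    exact Subgroup.pointwise_smul_le_pointwise_smul_iff.mpr (Subgroup.map_subtype_le _)
  obtain ⟨h, hh, x, hx, rfl⟩ := hfac g
  rw [conj_mul_smul, Subgroup.conj_smul_eq_self_of_mem hx] at h1
  have hNX : N ≤ X := by
    intro a ha
    have h3 : h * a * h⁻¹ ∈ N := (Subgroup.le_normalizer_iff.mp hn) h hh a ha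
    have h4 := h1 h3
    rw [mem_conj_smul] at h4
    convert h4 using 1
    group
  rw [Subgroup.normalClosure, Subgroup.closure_le]
  intro z hz
  rw [Group.mem_conjugatesOfSet_iff] at hz
  obtain ⟨a, ha, hconj⟩ := hz
  rw [isConj_iff] at hconj
  obtain ⟨c, rfl⟩ := hconj
  obtain ⟨h', hh', x', hx', hc⟩ := hfac c⁻¹
  have hc' : c = x'⁻¹ * h'⁻¹ := by
    rw [← inv_inj, hc]; group
  have h5 : h'⁻¹ * a * h'⁻¹⁻¹ ∈ N := (Subgroup.le_normalizer_iff.mp hn) h'⁻¹ (H₁.inv_mem hh') a ha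
  have h6 : c * a * c⁻¹ = x'⁻¹ * (h'⁻¹ * a * h'⁻¹⁻¹) * x' := by
    rw [hc']; group
  rw [SetLike.mem_coe, h6]
  exact X.mul_mem (X.mul_mem (X.inv_mem hx') (hNX h5)) hx'

theorem main (n : ℕ) : ∀ (G : Type u) [Group G] [Finite G], Nat.card G = n →
    ∀ (H₁ H₂ H₃ : Subgroup G), Group.IsSolvable H₁ → Group.IsSolvable H₂ → Group.IsSolvable H₃ →
    (∀ g : G, ∃ x ∈ H₁, ∃ y ∈ H₂, g = x * y) → (∀ g : G, ∃ x ∈ H₁, ∃ y ∈ H₃, g = x * y) →
    H₂.index.Coprime H₃.index → Group.IsSolvable G := by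
  induction n using Nat.strong_induction_on with
  | _ n ih =>
  intro G _ _ hG H₁ H₂ H₃ h₁ h₂ h₃ h12 h13 hcop
  by_cases hb : H₁ = ⊥
  · have htop : H₂ = ⊤ := by
      rw [eq_top_iff]
      intro g _
      obtain ⟨x, hx, y, hy, rfl⟩ := h12 g
      rw [hb, Subgroup.mem_bot] at hx
      rw [hx, one_mul]
      exact hy
    apply Group.isSolvable_of_surjective (f := H₂.subtype)
    intro g
    exact ⟨⟨g, htop ▸ Subgroup.mem_top g⟩, rfl⟩
  have hnon : Nontrivial H₁ := (Subgroup.nontrivial_iff_ne_bot H₁).mpr hb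
  obtain ⟨M', -, hM'n, hM'b, -, p, hp, hM'p⟩ :=
    exists_normal_abelian_pgroup_le (⊤ : Subgroup H₁) top_ne_bot inferInstance
  have := Fact.mk hp
  set N := M'.map H₁.subtype with hN
  have hNp : IsPGroup p N := hM'p.map _
  have hNb : N ≠ ⊥ := by
    intro h
    apply hM'b
    rwa [hN, Subgroup.map_eq_bot_iff_of_injective _ H₁.subtype_injective] at h
  have hn : H₁ ≤ Subgroup.normalizer (N : Set G) := by
    rw [Subgroup.le_normalizer_iff]
    rintro h hh _ ⟨m, hm, rfl⟩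
    exact ⟨_, hM'n.conj_mem m hm ⟨h, hh⟩, rfl⟩
  have hex : ∃ X : Subgroup G, Group.IsSolvable X ∧ Subgroup.normalClosure (N : Set G) ≤ X := by
    by_cases hp2 : p ∣ H₂.index
    · have hp3 : ¬ p ∣ H₃.index := fun hp3 =>
        hp.one_lt.ne' (Nat.eq_one_of_dvd_coprimes hcop hp2 hp3)
      exact ⟨H₃, h₃, normalClosure_le H₁ H₃ N hn hNp hp3 h13⟩
    · exact ⟨H₂, h₂, normalClosure_le H₁ H₂ N hn hNp hp2 h12⟩
  obtain ⟨X, hXs, hMX⟩ := hex
  set M := Subgroup.normalClosure (N : Set G) with hM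
  have hMs : Group.IsSolvable M := isSolvable_of_le hMX hXs
  have hMb : M ≠ ⊥ := by
    intro h
    apply hNb
    rw [eq_bot_iff, ← h]
    exact Subgroup.subset_normalClosure
  have hM1 : 1 < Nat.card M := (Subgroup.one_lt_card_iff_ne_bot M).mpr hMb
  have hQ : Nat.card (G ⧸ M) * Nat.card M = n := hG ▸ card_quotient_mul_card M
  have hQpos : 0 < Nat.card (G ⧸ M) := Nat.card_pos
  have hQlt : Nat.card (G ⧸ M) < n := by
    rw [← hQ]; exact lt_mul_of_one_lt_right hQpos hM1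
  have hsurj := QuotientGroup.mk'_surjective M
  have hsolvmap : ∀ H : Subgroup G, Group.IsSolvable H →
      Group.IsSolvable (H.map (QuotientGroup.mk' M)) := by
    intro H hH
    exact Group.isSolvable_of_surjective (f := (QuotientGroup.mk' M).subgroupMap H)
      ((QuotientGroup.mk' M).subgroupMap_surjective H)
  have hfacmap : ∀ H K : Subgroup G, (∀ g : G, ∃ x ∈ H, ∃ y ∈ K, g = x * y) →
      ∀ q : G ⧸ M, ∃ x ∈ H.map (QuotientGroup.mk' M), ∃ y ∈ K.map (QuotientGroup.mk' M),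
        q = x * y := by
    intro H K hHK q
    obtain ⟨g, rfl⟩ := hsurj q
    obtain ⟨x, hx, y, hy, rfl⟩ := hHK g
    exact ⟨_, ⟨x, hx, rfl⟩, _, ⟨y, hy, rfl⟩, map_mul _ _ _⟩
  have hQs : Group.IsSolvable (G ⧸ M) :=
    ih _ hQlt (G ⧸ M) rfl _ _ _ (hsolvmap H₁ h₁) (hsolvmap H₂ h₂) (hsolvmap H₃ h₃)
      (hfacmap H₁ H₂ h12) (hfacmap H₁ H₃ h13)
      (Nat.Coprime.of_dvd (Subgroup.index_map_dvd H₂ hsurj) (Subgroup.index_map_dvd H₃ hsurj) hcop)
  exact (Group.isSolvable_iff_subgroup_quotient M).mpr ⟨hMs, hQs⟩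

/-- A finite group that factorises as H₁H₂ and as H₁H₃ with all three subgroups solvable and the indices of H₂ and H₃ coprime is solvable. -/
theorem result {G : Type*} [Group G] [Finite G] (H₁ H₂ H₃ : Subgroup G)
    (h₁ : Group.IsSolvable H₁) (h₂ : Group.IsSolvable H₂) (h₃ : Group.IsSolvable H₃)
    (h12 : ∀ g : G, ∃ x ∈ H₁, ∃ y ∈ H₂, g = x * y) (h13 : ∀ g : G, ∃ x ∈ H₁, ∃ y ∈ H₃, g = x * y)
    (hcop : H₂.index.Coprime H₃.index) : Group.IsSolvable G := by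
  exact main _ G rfl H₁ H₂ H₃ h₁ h₂ h₃ h12 h13 hcop

end Cfsg.Agent.S0019
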