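import Cfsg.Statements.S0006
import Cfsg.Agent.Lib.Helper1.Coprime3
import Cfsg.Agent.S0007
import Cfsg.Agent.S0019
import Cfsg.Agent.S0144

set_option autoImplicit false
open Cfsg

namespace Cfsg.Agent.S0006

open Lib.Helper1

universe u

/-- the hypothesis of the statement -/
def HasComplements (G : Type*) [Group G] : Prop :=
  ∀ p : ℕ, p.Prime → ∃ H : Subgroup G, H.index = p ^ (Nat.card G).factorization p

theorem inherit {G : Type*} [Group G] [Finite G] (h : HasComplements G) (p₀ : ℕ) (hp₀ : p₀.Prime)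
    (H₀ : Subgroup G) (hH₀ : H₀.index = p₀ ^ (Nat.card G).factorization p₀) :
    HasComplements H₀ ∧ (Nat.card H₀).factorization p₀ = 0 := by
  have hn : Nat.card H₀ * p₀ ^ (Nat.card G).factorization p₀ = Nat.card G := by
    rw [← hH₀]; exact H₀.card_mul_index
  have hfac : ∀ q, (Nat.card G).factorization q = (Nat.card H₀).factorization q +
      (Finsupp.single p₀ ((Nat.card G).factorization p₀)) q := by
    intro q
    conv_lhs => rw [← hn]
    rw [Nat.factorization_mul Nat.card_pos.ne' (pow_pos hp₀.pos _).ne',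
      Nat.Prime.factorization_pow hp₀]
    rfl
  have h0 : (Nat.card H₀).factorization p₀ = 0 := by
    have := hfac p₀
    rw [Finsupp.single_eq_same] at this
    omega
  refine ⟨?_, h0⟩
  intro q hq
  by_cases hqp : q = p₀
  · subst hqp
    exact ⟨⊤, by rw [h0, pow_zero, Subgroup.index_top]⟩
  · obtain ⟨K, hK⟩ := h q hq
    refine ⟨K.subgroupOf H₀, ?_⟩
    have hcop : H₀.index.Coprime K.index := by
      rw [hH₀, hK]
      exact Nat.Coprime.pow _ _ ((Nat.coprime_primes hp₀ hq).mpr (fun h => hqp h.symm))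
    have h1 := (S0007.result H₀ K hcop).1
    have h2 := Subgroup.relIndex_mul_index (inf_le_left : H₀ ⊓ K ≤ H₀)
    rw [Subgroup.inf_relIndex_left, h1, mul_comm] at h2
    have h3 : K.relIndex H₀ = K.index :=
      Nat.eq_of_mul_eq_mul_left (Nat.pos_of_ne_zero Subgroup.index_ne_zero_of_finite) h2
    change K.relIndex H₀ = _
    rw [h3, hK]
    have := hfac q
    rw [Finsupp.single_eq_of_ne hqp, add_zero] at this
    rw [this]

theorem main (n : ℕ) : ∀ (G : Type u) [Group G] [Finite G], Nat.card G = n →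
    HasComplements G → Group.IsSolvable G := by
  induction n using Nat.strong_induction_on with
  | _ n ih =>
  intro G _ _ hG h
  by_cases h1 : n = 1
  · have : Subsingleton G := (Nat.card_eq_one_iff_unique.mp (hG.trans h1)).1
    infer_instance
  have hlt : ∀ (p : ℕ), p.Prime → p ∣ n → ∀ H : Subgroup G,
      H.index = p ^ (Nat.card G).factorization p → Group.IsSolvable H := by
    intro p hp hpn H hH
    apply ih (Nat.card H) _ H rfl (inherit h p hp H hH).1
    rw [← hG, ← H.card_mul_index]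
    apply lt_mul_of_one_lt_right Nat.card_pos
    rw [hH]
    apply Nat.one_lt_pow _ hp.one_lt
    rw [hG]
    exact (hp.factorization_pos_of_dvd (by rw [← hG]; exact Nat.card_pos.ne') hpn).ne'
  obtain ⟨p₁, hp₁, hd₁⟩ := Nat.exists_prime_and_dvd h1
  obtain ⟨H₁, hH₁⟩ := h p₁ hp₁
  have hs₁ := hlt p₁ hp₁ hd₁ H₁ hH₁
  by_cases hb₁ : Nat.card H₁ = 1
  · apply S0144.result p₁ p₁ ((Nat.card G).factorization p₁) 0 hp₁ hp₁
    have := H₁.card_mul_index
    rw [hb₁, hH₁, one_mul] at this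
    rw [pow_zero, mul_one]
    exact this.symm
  obtain ⟨p₂, hp₂, hd₂⟩ := Nat.exists_prime_and_dvd hb₁
  have hne12 : p₂ ≠ p₁ := by
    rintro rfl
    have := (inherit h p₂ hp₂ H₁ hH₁).2
    exact (hp₂.factorization_pos_of_dvd Nat.card_pos.ne' hd₂).ne' this
  have hd₂' : p₂ ∣ n := hG ▸ hd₂.trans (Subgroup.card_subgroup_dvd_card H₁)
  obtain ⟨H₂, hH₂⟩ := h p₂ hp₂
  have hs₂ := hlt p₂ hp₂ hd₂' H₂ hH₂
  have hcop12 : H₁.index.Coprime H₂.index := by
    rw [hH₁, hH₂]
    exact Nat.Coprime.pow _ _ ((Nat.coprime_primes hp₁ hp₂).mpr hne12.symm)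
  have hinf := (S0007.result H₁ H₂ hcop12).1
  by_cases hb₂ : Nat.card (H₁ ⊓ H₂ : Subgroup G) = 1
  · apply S0144.result p₁ p₂ _ _ hp₁ hp₂
    rw [← (H₁ ⊓ H₂).card_mul_index, hb₂, hinf, hH₁, hH₂, one_mul]
  obtain ⟨p₃, hp₃, hd₃⟩ := Nat.exists_prime_and_dvd hb₂
  have hne13 : p₃ ≠ p₁ := by
    rintro rfl
    have := (inherit h p₃ hp₃ H₁ hH₁).2
    exact (hp₃.factorization_pos_of_dvd Nat.card_pos.ne'
      (hd₃.trans (Subgroup.card_dvd_of_le inf_le_left))).ne' this
  have hne23 : p₃ ≠ p₂ := by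
    rintro rfl
    have := (inherit h p₃ hp₃ H₂ hH₂).2
    exact (hp₃.factorization_pos_of_dvd Nat.card_pos.ne'
      (hd₃.trans (Subgroup.card_dvd_of_le inf_le_right))).ne' this
  have hd₃' : p₃ ∣ n := hG ▸ hd₃.trans (Subgroup.card_subgroup_dvd_card _)
  obtain ⟨H₃, hH₃⟩ := h p₃ hp₃
  have hs₃ := hlt p₃ hp₃ hd₃' H₃ hH₃
  have hcop13 : H₁.index.Coprime H₃.index := by
    rw [hH₁, hH₃]
    exact Nat.Coprime.pow _ _ ((Nat.coprime_primes hp₁ hp₃).mpr hne13.symm)
  have hcop23 : H₂.index.Coprime H₃.index := by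
    rw [hH₂, hH₃]
    exact Nat.Coprime.pow _ _ ((Nat.coprime_primes hp₂ hp₃).mpr hne23.symm)
  exact S0019.result H₁ H₂ H₃ hs₁ hs₂ hs₃ (S0007.result H₁ H₂ hcop12).2
    (S0007.result H₁ H₃ hcop13).2 hcop23

/-- Converse of Hall's Theorem: if for every prime p a finite group has a subgroup of index equal to the p-part of the group order (a Hall p-complement), then the group is solvable. -/
theorem result {G : Type*} [Group G] [Finite G]
    (h : ∀ p : ℕ, p.Prime → ∃ H : Subgroup G, H.index = p ^ (Nat.card G).factorization p) :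
    Group.IsSolvable G := by
  exact main _ G rfl h

end Cfsg.Agent.S0006
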