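import Cfsg.Statements.S0010
import Mathlib

set_option autoImplicit false
open Cfsg

namespace Cfsg.Agent.S0010

/-- The largest normal p-subgroup of a finite group is the intersection of all its Sylow p-subgroups. -/
theorem result {G : Type*} [Group G] [Finite G] (p : ℕ) [Fact p.Prime] :
    Cfsg.pCore p G = ⨅ P : Sylow p G, (P : Subgroup G) := by
  apply le_antisymm
  · apply sSup_le
    rintro N ⟨hN, hp⟩
    exact le_iInf fun P => hp.le_sylow_of_normal P
  · apply le_sSup
    constructor
    · constructor
      intro n hn g
      rw [Subgroup.mem_iInf] at hn ⊢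
      intro P
      have := hn (g⁻¹ • P)
      rw [Sylow.coe_subgroup_smul, Subgroup.mem_pointwise_smul_iff_inv_smul_mem] at this
      simpa [MulAut.smul_def] using this
    · obtain ⟨P⟩ : Nonempty (Sylow p G) := inferInstance
      exact P.isPGroup'.to_le (iInf_le _ P)

end Cfsg.Agent.S0010
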