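import Cfsg.Statements.S0011
import Mathlib

set_option autoImplicit false
open Cfsg

namespace Cfsg.Agent.S0011

/-- If the Frattini quotient of a finite group is nilpotent then the group is nilpotent. -/
theorem result {G : Type*} [Group G] [Finite G]
    (h : Group.IsNilpotent (G ⧸ frattini G)) : Group.IsNilpotent G := by
  have q := (Group.isNilpotent_of_finite_tfae (G := G)).out 0 3
  rw [q]; clear q
  intro p hp P
  have hs : Function.Surjective (QuotientGroup.mk' (frattini G)) := QuotientGroup.mk'_surjective _
  have h1 : ((P.mapSurjective hs : Sylow p (G ⧸ frattini G)) : Subgroup (G ⧸ frattini G)).Normal :=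
    inferInstance
  have h2 : ((P : Subgroup G) ⊔ frattini G).Normal := by
    have h3 : (P : Subgroup G) ⊔ frattini G
        = Subgroup.comap (QuotientGroup.mk' (frattini G))
            ((P : Subgroup G).map (QuotientGroup.mk' (frattini G))) := by
      rw [Subgroup.comap_map_eq, QuotientGroup.ker_mk']
    rw [h3]
    exact Subgroup.Normal.comap h1 _
  have h4 := P.normalizer_sup_eq_top' (N := (P : Subgroup G) ⊔ frattini G) le_sup_left
  have h5 : Subgroup.normalizer ((P : Subgroup G) : Set G) ⊔ frattini G = ⊤ := by
    rw [eq_top_iff, ← h4]
    apply sup_le le_sup_left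
    apply sup_le _ le_sup_right
    exact Subgroup.le_normalizer.trans le_sup_left
  exact Subgroup.normalizer_eq_top_iff.mp (frattini_nongenerating h5)

end Cfsg.Agent.S0011
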