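import Cfsg.Statements.S0018
import Cfsg.Agent.Lib.Helper1.Tools
import Cfsg.Agent.S0017

set_option autoImplicit false
open Cfsg

namespace Cfsg.Agent.S0018

/-- A finite solvable group whose Sylow p-subgroups are abelian has p-length one: a Sylow p-subgroup together with the largest normal subgroup of order prime to p generates a normal subgroup. -/
theorem result {G : Type*} [Group G] [Finite G] [Group.IsSolvable G]
    (p : ℕ) [Fact p.Prime] (P : Sylow p G) (hP : IsMulCommutative P) :
    ((P : Subgroup G) ⊔ Cfsg.pPrimeCore p G).Normal := by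
  set K := Cfsg.pPrimeCore p G with hK
  have hKn : K.Normal := Lib.Helper1.pPrimeCore_normal p G
  have hKc : (Nat.card K).Coprime p := Lib.Helper1.pPrimeCore_coprime p G
  have hsurj := QuotientGroup.mk'_surjective K
  have h1 : Cfsg.pPrimeCore p (G ⧸ K) = ⊥ := by
    rw [eq_bot_iff]
    apply sSup_le
    rintro N ⟨hNn, hNc⟩
    have h2 : N.comap (QuotientGroup.mk' K) ≤ K := by
      apply Lib.Helper1.le_pPrimeCore (hNn.comap _)
      rw [Lib.Helper1.card_comap_mk]
      exact Nat.Coprime.mul_left hNc hKc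
    intro x hx
    obtain ⟨g, rfl⟩ := hsurj x
    rw [Subgroup.mem_bot]
    exact (QuotientGroup.eq_one_iff g).mpr (h2 hx)
  have h3 := S0017.result (G := G ⧸ K) p h1
  set P' := (P : Subgroup G).map (QuotientGroup.mk' K) with hP'
  have hP'syl : P' = ((P.mapSurjective hsurj : Sylow p (G ⧸ K)) : Subgroup (G ⧸ K)) := rfl
  have h4 : Cfsg.pCore p (G ⧸ K) ≤ P' := by
    rw [hP'syl]
    have := Lib.Helper1.pCore_normal p (G ⧸ K)
    exact (Lib.Helper1.pCore_isPGroup p (G ⧸ K)).le_sylow_of_normal _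
  have hP'comm : ∀ x ∈ P', ∀ y ∈ P', x * y = y * x := by
    rintro _ ⟨a, ha, rfl⟩ _ ⟨b, hb, rfl⟩
    have := mul_comm' (⟨a, ha⟩ : (P : Subgroup G)) ⟨b, hb⟩
    have h5 : a * b = b * a := congrArg Subtype.val this
    rw [← map_mul, ← map_mul, h5]
  have h6 : P' ≤ Cfsg.pCore p (G ⧸ K) := by
    refine le_trans ?_ h3
    intro x hx
    rw [Subgroup.mem_centralizer_iff]
    intro y hy
    exact hP'comm y (h4 hy) x hx
  have h7 : P' = Cfsg.pCore p (G ⧸ K) := le_antisymm h6 h4
  have h8 : (P : Subgroup G) ⊔ K = P'.comap (QuotientGroup.mk' K) := by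
    rw [hP', Subgroup.comap_map_eq, QuotientGroup.ker_mk']
  rw [h8, h7]
  exact (Lib.Helper1.pCore_normal p (G ⧸ K)).comap _

end Cfsg.Agent.S0018
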