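import Cfsg.Statements.S0020
import Cfsg.Agent.Lib.Helper1.Coprime3
import Cfsg.Agent.S0007

set_option autoImplicit false
open Pointwise
open Cfsg

namespace Cfsg.Agent.S0020

open scoped Pointwise
open Lib.Helper1

/-- two subgroups of `T` with coprime relative indices have product `T` -/
theorem mul_eq_of_coprime_relIndex {G : Type*} [Group G] [Finite G] (X Y T : Subgroup G)
    (hX : X ≤ T) (hY : Y ≤ T) (h : (X.relIndex T).Coprime (Y.relIndex T)) :
    (X : Set G) * (Y : Set G) = T := by
  apply Set.Subset.antisymm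
  · rintro _ ⟨x, hx, y, hy, rfl⟩
    exact T.mul_mem (hX hx) (hY hy)
  · intro t ht
    obtain ⟨x, hx, y, hy, hxy⟩ := (S0007.result (X.subgroupOf T) (Y.subgroupOf T) h).2 ⟨t, ht⟩
    exact ⟨x, hx, y, hy, (congrArg Subtype.val hxy).symm⟩

theorem index_inf_formula {G : Type*} [Group G] [Finite G] (K : ℕ → Subgroup G) (f : ℕ → ℕ)
    (hK : ∀ q, q.Prime → (K q).index = q ^ f q) (s : Finset ℕ) :
    (∀ q ∈ s, q.Prime) → (s.inf K).index = ∏ q ∈ s, q ^ f q := by
  induction s using Finset.induction_on with
  | empty => intro _; simp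
  | insert a s ha ih =>
    intro hs
    have hs' : ∀ q ∈ s, q.Prime := fun q hq => hs q (Finset.mem_insert_of_mem hq)
    have hap : a.Prime := hs a (Finset.mem_insert_self a s)
    rw [Finset.inf_insert, Finset.prod_insert ha]
    have hcop : (K a).index.Coprime (s.inf K).index := by
      rw [ih hs', hK a hap]
      apply Nat.Coprime.prod_right
      intro q hq
      apply Nat.Coprime.pow
      rw [Nat.coprime_primes hap (hs' q hq)]
      rintro rfl
      exact ha hq
    rw [(S0007.result (K a) (s.inf K) hcop).1, ih hs', hK a hap]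

/-- A finite solvable group admits a Sylow system: Sylow subgroups, one for each prime, that pairwise permute as sets. -/
theorem result {G : Type*} [Group G] [Finite G] [Group.IsSolvable G] :
    ∃ S : (p : Nat.Primes) → Sylow (p : ℕ) G,
      ∀ p q : Nat.Primes, (S p : Set G) * (S q : Set G) = (S q : Set G) * (S p : Set G) := by
  classical
  set n := Nat.card G with hn
  have hn0 : n ≠ 0 := Nat.card_pos.ne'
  have hex : ∀ q : ℕ, ∃ K : Subgroup G, q.Prime → K.index = q ^ n.factorization q := by
    intro q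
    by_cases hq : q.Prime
    · obtain ⟨K, hK⟩ := hall_exists (G := G) (n / q ^ n.factorization q) (q ^ n.factorization q)
        (by rw [mul_comm]; exact (Nat.ordProj_mul_ordCompl_eq_self n q).symm)
        (Nat.Coprime.pow_right _ (Nat.coprime_ordCompl hq hn0).symm)
      refine ⟨K, fun _ => ?_⟩
      have h1 := K.card_mul_index
      rw [hK, ← hn] at h1
      have h2 := Nat.ordProj_mul_ordCompl_eq_self n q
      have h3 : 0 < n / q ^ n.factorization q := Nat.ordCompl_pos q hn0
      apply Nat.eq_of_mul_eq_mul_left h3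
      rw [h1, mul_comm, h2]
    · exact ⟨⊤, fun h => absurd h hq⟩
  choose K hK using hex
  set ps := n.primeFactors with hps
  have hpsprime : ∀ q ∈ ps, q.Prime := fun q hq => Nat.prime_of_mem_primeFactors hq
  have hidx : ∀ s : Finset ℕ, s ⊆ ps → (s.inf K).index = ∏ q ∈ s, q ^ n.factorization q :=
    fun s hs => index_inf_formula K _ hK s (fun q hq => hpsprime q (hs hq))
  have hprod : ∏ q ∈ ps, q ^ n.factorization q = n := Nat.prod_factorization_pow_eq_self hn0
  have hcard : ∀ p : ℕ, p.Prime → Nat.card ((ps.erase p).inf K : Subgroup G)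
      = p ^ n.factorization p := by
    intro p hp
    have h1 := ((ps.erase p).inf K).card_mul_index
    rw [hidx _ (Finset.erase_subset _ _), ← hn] at h1
    by_cases hpp : p ∈ ps
    · have h2 := Finset.mul_prod_erase ps (fun q => q ^ n.factorization q) hpp
      rw [hprod] at h2
      have h3 : 0 < ∏ q ∈ ps.erase p, q ^ n.factorization q := by
        apply Finset.prod_pos
        intro q hq
        exact pow_pos (hpsprime q (Finset.mem_of_mem_erase hq)).pos _
      apply Nat.eq_of_mul_eq_mul_right h3
      rw [h1, h2]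
    · rw [Finset.erase_eq_of_notMem hpp, hprod] at h1
      have h4 : n.factorization p = 0 := by
        rw [← Finsupp.notMem_support_iff]
        exact hpp
      rw [h4, pow_zero]
      have hnpos : 0 < n := Nat.pos_of_ne_zero hn0
      rw [Finset.erase_eq_of_notMem hpp]
      exact Nat.eq_of_mul_eq_mul_right hnpos (by rw [h1, one_mul])
  refine ⟨fun p => haveI := Fact.mk p.2; Sylow.ofCard ((ps.erase p).inf K) (hcard p p.2), ?_⟩
  intro p q
  change (((ps.erase p).inf K : Subgroup G) : Set G) * (((ps.erase q).inf K : Subgroup G) : Set G)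
    = (((ps.erase q).inf K : Subgroup G) : Set G) * (((ps.erase p).inf K : Subgroup G) : Set G)
  by_cases hpq : (p : ℕ) = q
  · rw [hpq]
  have triv : ∀ (r : ℕ), r.Prime → r ∉ ps → ((ps.erase r).inf K : Subgroup G) = ⊥ := by
    intro r hr hrp
    apply Subgroup.card_eq_one.mp
    rw [hcard r hr]
    have h4 : n.factorization r = 0 := by
      rw [← Finsupp.notMem_support_iff]
      exact hrp
    rw [h4, pow_zero]
  by_cases hp : (p : ℕ) ∈ ps
  swap
  · rw [triv p p.2 hp]; simp
  by_cases hq : (q : ℕ) ∈ ps
  swap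
  · rw [triv q q.2 hq]; simp
  set s₀ := (ps.erase p).erase q with hs₀
  have hs₀ps : s₀ ⊆ ps := (Finset.erase_subset _ _).trans (Finset.erase_subset _ _)
  have e1 : ps.erase p = insert (q : ℕ) s₀ :=
    (Finset.insert_erase (Finset.mem_erase.mpr ⟨fun h => hpq h.symm, hq⟩)).symm
  have e2 : ps.erase q = insert (p : ℕ) s₀ := by
    rw [hs₀, Finset.erase_right_comm]
    exact (Finset.insert_erase (Finset.mem_erase.mpr ⟨hpq, hp⟩)).symm
  have hq₀ : (q : ℕ) ∉ s₀ := Finset.notMem_erase _ _
  have hp₀ : (p : ℕ) ∉ s₀ := by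
    rw [hs₀, Finset.erase_right_comm]; exact Finset.notMem_erase _ _
  set T := s₀.inf K with hT
  have hTpos : 0 < T.index := Nat.pos_of_ne_zero Subgroup.index_ne_zero_of_finite
  have r1 : ((ps.erase p).inf K).relIndex T = (q : ℕ) ^ n.factorization q := by
    have hle : (ps.erase p).inf K ≤ T := by rw [e1, Finset.inf_insert]; exact inf_le_right
    have h1 := Subgroup.relIndex_mul_index hle
    rw [hidx _ (Finset.erase_subset _ _)] at h1
    conv_rhs at h1 => rw [e1, Finset.prod_insert hq₀, ← hidx s₀ hs₀ps]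
    exact Nat.eq_of_mul_eq_mul_right hTpos h1
  have r2 : ((ps.erase q).inf K).relIndex T = (p : ℕ) ^ n.factorization p := by
    have hle : (ps.erase q).inf K ≤ T := by rw [e2, Finset.inf_insert]; exact inf_le_right
    have h1 := Subgroup.relIndex_mul_index hle
    rw [hidx _ (Finset.erase_subset _ _)] at h1
    conv_rhs at h1 => rw [e2, Finset.prod_insert hp₀, ← hidx s₀ hs₀ps]
    exact Nat.eq_of_mul_eq_mul_right hTpos h1
  have hcop : ((q : ℕ) ^ n.factorization q).Coprime ((p : ℕ) ^ n.factorization p) :=
    Nat.Coprime.pow _ _ ((Nat.coprime_primes q.2 p.2).mpr (fun h => hpq h.symm))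
  have l1 : (ps.erase p).inf K ≤ T := by rw [e1, Finset.inf_insert]; exact inf_le_right
  have l2 : (ps.erase q).inf K ≤ T := by rw [e2, Finset.inf_insert]; exact inf_le_right
  rw [mul_eq_of_coprime_relIndex _ _ T l1 l2 (by rw [r1, r2]; exact hcop),
    mul_eq_of_coprime_relIndex _ _ T l2 l1 (by rw [r1, r2]; exact hcop.symm)]

end Cfsg.Agent.S0020
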