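import Cfsg.Statements.S0021
import Cfsg.Agent.Lib.Helper1.Coprime3
import Cfsg.Agent.S0006

set_option autoImplicit false
open Pointwise
open Cfsg

namespace Cfsg.Agent.S0021

open scoped Pointwise
open Lib.Helper1

theorem coe_sup_of_mul_comm {G : Type*} [Group G] (A B : Subgroup G)
    (h : (A : Set G) * (B : Set G) = (B : Set G) * (A : Set G)) :
    ((A ⊔ B : Subgroup G) : Set G) = (A : Set G) * (B : Set G) := by
  let C : Subgroup G :=
    { carrier := (A : Set G) * (B : Set G)
      one_mem' := ⟨1, A.one_mem, 1, B.one_mem, one_mul 1⟩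
      mul_mem' := by
        rintro _ _ ⟨a, ha, b, hb, rfl⟩ ⟨a', ha', b', hb', rfl⟩
        have h1 : b * a' ∈ (A : Set G) * (B : Set G) := by
          rw [h]; exact ⟨b, hb, a', ha', rfl⟩
        obtain ⟨a'', ha'', b'', hb'', h2'⟩ := h1
        have h2 : a'' * b'' = b * a' := h2'
        refine ⟨a * a'', A.mul_mem ha ha'', b'' * b', B.mul_mem hb'' hb', ?_⟩
        calc a * a'' * (b'' * b') = a * (a'' * b'') * b' := by group
          _ = a * (b * a') * b' := by rw [h2]
          _ = a * b * (a' * b') := by group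
      inv_mem' := by
        rintro _ ⟨a, ha, b, hb, rfl⟩
        rw [h]
        exact ⟨b⁻¹, B.inv_mem hb, a⁻¹, A.inv_mem ha, by group⟩ }
  have hC : A ⊔ B = C := by
    apply le_antisymm
    · apply sup_le
      · intro a ha; exact ⟨a, ha, 1, B.one_mem, mul_one a⟩
      · intro b hb; exact ⟨1, A.one_mem, b, hb, one_mul b⟩
    · rintro _ ⟨a, ha, b, hb, rfl⟩
      exact Subgroup.mul_mem_sup ha hb
  rw [hC]
  rfl

theorem card_sup_le_of_mul_comm {G : Type*} [Group G] [Finite G] (A B : Subgroup G)
    (h : (A : Set G) * (B : Set G) = (B : Set G) * (A : Set G)) :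
    Nat.card (A ⊔ B : Subgroup G) ≤ Nat.card A * Nat.card B := by
  rw [← Nat.card_prod]
  have hmem : ∀ x : A × B, (x.1 : G) * x.2 ∈ A ⊔ B := fun x => Subgroup.mul_mem_sup x.1.2 x.2.2
  apply Nat.card_le_card_of_surjective (fun x : A × B => (⟨(x.1 : G) * x.2, hmem x⟩ : (A ⊔ B : Subgroup G)))
  rintro ⟨y, hy⟩
  have hy' : y ∈ (A : Set G) * (B : Set G) := by
    rw [← coe_sup_of_mul_comm A B h]; exact hy
  obtain ⟨a, ha, b, hb, rfl⟩ := hy'
  exact ⟨(⟨a, ha⟩, ⟨b, hb⟩), rfl⟩

theorem key {G : Type*} [Group G] [Finite G] (T : ℕ → Subgroup G)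
    (hT : ∀ q r, (T q : Set G) * (T r : Set G) = (T r : Set G) * (T q : Set G)) (s : Finset ℕ) :
    (∀ r, (T r : Set G) * ((s.sup T : Subgroup G) : Set G)
      = ((s.sup T : Subgroup G) : Set G) * (T r : Set G)) ∧
    Nat.card (s.sup T : Subgroup G) ≤ ∏ q ∈ s, Nat.card (T q) := by
  classical
  induction s using Finset.induction_on with
  | empty => simp
  | insert a s ha ih =>
    obtain ⟨ih1, ih2⟩ := ih
    rw [Finset.sup_insert, Finset.prod_insert ha]
    constructor
    · intro r
      rw [coe_sup_of_mul_comm _ _ (ih1 a), ← mul_assoc, hT r a, mul_assoc, ih1 r, ← mul_assoc]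
    · exact (card_sup_le_of_mul_comm _ _ (ih1 a)).trans (Nat.mul_le_mul_left _ ih2)

/-- A finite group with a family of pairwise permuting Sylow subgroups, one for each prime, is solvable (this direction rests on Burnside's two-prime Theorem). -/
theorem result {G : Type*} [Group G] [Finite G]
    (S : (p : Nat.Primes) → Sylow (p : ℕ) G)
    (hS : ∀ p q : Nat.Primes, (S p : Set G) * (S q : Set G) = (S q : Set G) * (S p : Set G)) :
    Group.IsSolvable G := by
  classical
  apply S0006.result
  intro p hp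
  set n := Nat.card G with hn
  have hn0 : n ≠ 0 := Nat.card_pos.ne'
  let T : ℕ → Subgroup G := fun q => if h : q.Prime then (S ⟨q, h⟩ : Subgroup G) else ⊥
  have hTp : ∀ q (h : q.Prime), T q = (S ⟨q, h⟩ : Subgroup G) := fun q h => dif_pos h
  have hTn : ∀ q (_ : ¬ q.Prime), T q = ⊥ := fun q h => dif_neg h
  have hT : ∀ q r, (T q : Set G) * (T r : Set G) = (T r : Set G) * (T q : Set G) := by
    intro q r
    by_cases hq : q.Prime
    · by_cases hr : r.Prime
      · rw [hTp q hq, hTp r hr]
        exact hS ⟨q, hq⟩ ⟨r, hr⟩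
      · rw [hTn r hr]; simp
    · rw [hTn q hq]; simp
  have hTc : ∀ q, q.Prime → Nat.card (T q) = q ^ n.factorization q := by
    intro q hq
    have := Fact.mk hq
    rw [hTp q hq]
    exact (S ⟨q, hq⟩).card_eq_multiplicity
  set ps := n.primeFactors with hps
  have hpsprime : ∀ q ∈ ps, q.Prime := fun q hq => Nat.prime_of_mem_primeFactors hq
  set s := ps.erase p with hs
  have hsprime : ∀ q ∈ s, q.Prime := fun q hq => hpsprime q (Finset.mem_of_mem_erase hq)
  have hle : Nat.card (s.sup T : Subgroup G) ≤ ∏ q ∈ s, q ^ n.factorization q := by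
    refine (key T hT s).2.trans (le_of_eq ?_)
    exact Finset.prod_congr rfl (fun q hq => hTc q (hsprime q hq))
  have hdvd : ∏ q ∈ s, q ^ n.factorization q ∣ Nat.card (s.sup T : Subgroup G) := by
    apply Finset.prod_dvd_of_isRelPrime
    · intro q hq r hr hqr
      change IsRelPrime (q ^ n.factorization q) (r ^ n.factorization r)
      rw [← Nat.coprime_iff_isRelPrime]
      apply Nat.Coprime.pow
      exact (Nat.coprime_primes (hsprime q hq) (hsprime r hr)).mpr hqr
    · intro q hq
      rw [← hTc q (hsprime q hq)]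
      exact Subgroup.card_dvd_of_le (Finset.le_sup (f := T) hq)
  have hcard : Nat.card (s.sup T : Subgroup G) = ∏ q ∈ s, q ^ n.factorization q :=
    le_antisymm hle (Nat.le_of_dvd Nat.card_pos hdvd)
  have hprod : ∏ q ∈ ps, q ^ n.factorization q = n := Nat.prod_factorization_pow_eq_self hn0
  refine ⟨s.sup T, ?_⟩
  have h1 := (s.sup T).card_mul_index
  rw [hcard, ← hn] at h1
  have h3 : 0 < ∏ q ∈ s, q ^ n.factorization q := by
    apply Finset.prod_pos
    intro q hq
    exact pow_pos (hsprime q hq).pos _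
  apply Nat.eq_of_mul_eq_mul_left h3
  rw [h1]
  by_cases hpp : p ∈ ps
  · have h2 := Finset.mul_prod_erase ps (fun q => q ^ n.factorization q) hpp
    rw [hprod] at h2
    rw [mul_comm]
    exact h2.symm
  · have h4 : n.factorization p = 0 := by
      rw [← Finsupp.notMem_support_iff]
      exact hpp
    rw [h4, pow_zero, mul_one, hs, Finset.erase_eq_of_notMem hpp, hprod]

end Cfsg.Agent.S0021
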