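import Cfsg.Statements.S0031
import Mathlib

set_option autoImplicit false
open Cfsg

namespace Cfsg.Agent.S0031

/-- A fixed-point-free automorphism of a finite group maps some Sylow p-subgroup to itself. -/
theorem result {G : Type*} [Group G] [Finite G] (φ : G ≃* G)
    (hφ : MonoidHom.FixedPointFree (φ : G →* G)) (p : ℕ) [Fact p.Prime] :
    ∃ P : Sylow p G, (P : Subgroup G).map (φ : G →* G) = P := by
  obtain ⟨P⟩ : Nonempty (Sylow p G) := inferInstance
  let φ' : MulAut G := φ
  obtain ⟨g, hg⟩ := MulAction.exists_smul_eq G P (φ' • P)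
  obtain ⟨y, hy⟩ := hφ.commutatorMap_surjective g⁻¹
  have hmem : ∀ (a x : G), x ∈ ((a • P : Sylow p G) : Subgroup G) ↔ a⁻¹ * x * a ∈ (P : Subgroup G) := by
    intro a x
    rw [Sylow.coe_subgroup_smul, Subgroup.mem_pointwise_smul_iff_inv_smul_mem]
    simp [MulAut.smul_def]
  have hφP : ∀ x, φ x ∈ ((g • P : Sylow p G) : Subgroup G) ↔ x ∈ (P : Subgroup G) := by
    intro x
    rw [hg, Sylow.pointwise_smul_def, Subgroup.mem_pointwise_smul_iff_inv_smul_mem]
    simp [MulAut.smul_def, φ']
  refine ⟨y⁻¹ • P, ?_⟩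
  ext x
  rw [Subgroup.mem_map]
  simp only [MonoidHom.commutatorMap_apply, MonoidHom.coe_coe] at hy
  have hg' : g = φ y * y⁻¹ := by
    rw [← inv_inj, ← hy, div_eq_mul_inv]; group
  constructor
  · rintro ⟨z, hz, rfl⟩
    rw [hmem] at hz ⊢
    rw [← hφP, hmem] at hz
    convert hz using 1
    simp only [MonoidHom.coe_coe, map_mul, map_inv, hg']
    group
  · intro hx
    refine ⟨φ.symm x, ?_, by simp⟩
    rw [hmem] at hx ⊢
    rw [← hφP, hmem]
    convert hx using 1
    simp only [map_mul, map_inv, hg', MulEquiv.apply_symm_apply]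
    group

end Cfsg.Agent.S0031
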