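import Cfsg.Statements.S0036
import Cfsg.Agent.Lib.Helper1.Frobenius

set_option autoImplicit false
open Cfsg

namespace Cfsg.Agent.S0036

open scoped Pointwise
open Lib.Helper1

/-- When a Frobenius complement contains an involution, an elementary argument shows the Frobenius kernel is closed under multiplication (hence a subgroup). -/
theorem result {G : Type*} [Group G] [Finite G] (H : Subgroup G) (hH : Cfsg.IsFrobeniusComplement H)
    (t : G) (ht : t ∈ H) (ht1 : t ≠ 1) (ht2 : t * t = 1) :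
    ∀ x ∈ Cfsg.frobeniusKernel H, ∀ y ∈ Cfsg.frobeniusKernel H, x * y ∈ Cfsg.frobeniusKernel H := by
  have gen : ∀ s r : G, s * s = 1 → r * r = 1 →
      s * (s * r) * s⁻¹ = (s * r)⁻¹ ∧ r * (s * r) * r⁻¹ = (s * r)⁻¹ := by
    intro s r hs hr
    have hs' : s⁻¹ = s := inv_eq_of_mul_eq_one_left hs
    have hr' : r⁻¹ = r := inv_eq_of_mul_eq_one_left hr
    constructor
    · rw [mul_inv_rev, ← mul_assoc, hs, one_mul, hr']
    · rw [mul_inv_rev, mul_assoc, mul_assoc, mul_inv_cancel, mul_one, hr', hs']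
  let τ : G ⧸ H → G := fun c => c.out * t * c.out⁻¹
  have hτ1 : ∀ c, τ c ≠ 1 := by
    intro c h
    apply ht1
    have : t = c.out⁻¹ * τ c * c.out := by simp only [τ]; group
    rw [this, h]; group
  have hτ2 : ∀ c, τ c * τ c = 1 := by
    intro c
    have : τ c * τ c = c.out * (t * t) * c.out⁻¹ := by simp only [τ]; group
    rw [this, ht2]; group
  have hτinv : ∀ c, (τ c)⁻¹ = τ c := fun c => inv_eq_of_mul_eq_one_left (hτ2 c)
  have hτmem : ∀ c, τ c ∈ MulAut.conj c.out • H := by
    intro c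
    rw [mem_conj_smul]
    have : c.out⁻¹ * τ c * c.out = t := by simp only [τ]; group
    rw [this]; exact ht
  have hcoset : ∀ (c : G ⧸ H) (g : G), τ c ∈ MulAut.conj g • H → c = (g : G ⧸ H) := by
    intro c g hg
    have h1 := frob_inv_mul_mem hH (hτ1 c) (hτmem c) hg
    rw [← QuotientGroup.out_eq' c]
    exact QuotientGroup.eq.mpr h1
  -- an involution inverting a nonidentity element of a conjugate lies in that conjugate
  have hinvert : ∀ (s a g : G), a ≠ 1 → a ∈ MulAut.conj g • H → s * a * s⁻¹ = a⁻¹ →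
      s ∈ MulAut.conj g • H := by
    intro s a g ha hag hs
    have h1 : a⁻¹ ∈ MulAut.conj g • H := Subgroup.inv_mem _ hag
    have h2 : a⁻¹ ∈ MulAut.conj (s * g) • H := by
      rw [← hs, mem_conj_smul]
      rw [mem_conj_smul] at hag
      convert hag using 1
      group
    have h3 := frob_inv_mul_mem hH (inv_ne_one.mpr ha) h1 h2
    rw [mem_conj_smul]
    convert h3 using 1
    group
  have hprod : ∀ c d, τ c * τ d ∈ Cfsg.frobeniusKernel H := by
    intro c d
    by_contra hcon
    obtain ⟨hne, g, hg⟩ := not_mem_frobeniusKernel_iff.mp hcon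
    have e1 : τ c * (τ c * τ d) * (τ c)⁻¹ = (τ c * τ d)⁻¹ := (gen _ _ (hτ2 c) (hτ2 d)).1
    have e2 : τ d * (τ c * τ d) * (τ d)⁻¹ = (τ c * τ d)⁻¹ := (gen _ _ (hτ2 c) (hτ2 d)).2
    have hc := hcoset c g (hinvert _ _ g hne hg e1)
    have hd := hcoset d g (hinvert _ _ g hne hg e2)
    apply hne
    rw [hc, hd, hτ2]
  have hinj : ∀ c, Function.Injective
      (fun d => (⟨τ c * τ d, hprod c d⟩ : Cfsg.frobeniusKernel H)) := by
    intro c d e hde
    have h1 : τ c * τ d = τ c * τ e := congrArg Subtype.val hde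
    have h2 : τ d = τ e := mul_left_cancel h1
    have h3 := hcoset d e.out (h2 ▸ hτmem e)
    rw [h3, QuotientGroup.out_eq']
  have hbij : ∀ c, Function.Bijective
      (fun d => (⟨τ c * τ d, hprod c d⟩ : Cfsg.frobeniusKernel H)) := by
    intro c
    rw [Nat.bijective_iff_injective_and_card]
    exact ⟨hinj c, (card_frobeniusKernel hH).symm⟩
  intro x hx y hy
  obtain ⟨d, hd⟩ := (hbij ((1 : G) : G ⧸ H)).2 ⟨x, hx⟩
  obtain ⟨e, he⟩ := (hbij d).2 ⟨y, hy⟩
  have hd' : τ ((1 : G) : G ⧸ H) * τ d = x := congrArg Subtype.val hd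
  have he' : τ d * τ e = y := congrArg Subtype.val he
  have : x * y = τ ((1 : G) : G ⧸ H) * τ e := by
    rw [← hd', ← he', mul_assoc, ← mul_assoc (τ d), hτ2, one_mul]
  rw [this]
  exact hprod _ _

end Cfsg.Agent.S0036
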