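import Cfsg.Statements.S0040
import Cfsg.Agent.Lib.Helper1.Fpf3
import Cfsg.Agent.S0016

set_option autoImplicit false
open Cfsg

namespace Cfsg.Agent.S0040

open Lib.Helper1

/-- Sylow subgroups of Frobenius complements: if H complements a nontrivial normal subgroup K and every nonidentity element of H has trivial centraliser in K, then each Sylow subgroup of H is cyclic or isomorphic to a generalized quaternion group. -/
theorem result {G : Type*} [Group G] [Finite G] (K H : Subgroup G) [K.Normal]
    (hc : Subgroup.IsComplement' K H) (hK : K ≠ ⊥) (hfpf : ∀ h ∈ H, h ≠ 1 → K ⊓ Subgroup.centralizer {h} = ⊥)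
    (p : ℕ) [Fact p.Prime] (P : Sylow p H) :
    IsCyclic P ∨ ∃ n : ℕ, Nonempty (P ≃* QuaternionGroup (2 ^ n)) := by
  have huniq : ∀ X Y : Subgroup (P : Subgroup H), Nat.card X = p → Nat.card Y = p → X = Y := by
    intro X Y hX hY
    let f : (P : Subgroup H) →* G := H.subtype.comp (P : Subgroup H).subtype
    have hf : Function.Injective f :=
      H.subtype_injective.comp (P : Subgroup H).subtype_injective
    have hle : ∀ Z : Subgroup (P : Subgroup H), Z.map f ≤ (⊤ : Subgroup (P : Subgroup H)).map f :=
      fun Z => Subgroup.map_mono le_top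
    apply Subgroup.map_injective hf
    refine fpf_pgroup_unique p ((⊤ : Subgroup (P : Subgroup H)).map f) K ?_ ?_ hK ?_ _ _
      (hle X) (hle Y) ?_ ?_
    · exact (P.isPGroup'.to_subgroup ⊤).map f
    · rw [Subgroup.normalizer_eq_top]
      exact le_top
    · rintro _ ⟨x, -, rfl⟩ hx
      exact hfpf _ (x : H).2 hx
    · rw [Subgroup.card_map_of_injective hf, hX]
    · rw [Subgroup.card_map_of_injective hf, hY]
  rcases Cfsg.Agent.S0016.result p P.isPGroup' huniq with h | ⟨-, h⟩
  · exact Or.inl h
  · exact Or.inr h

end Cfsg.Agent.S0040
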