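import Cfsg.Statements.S0041
import Cfsg.Agent.Lib.Helper1.Fpf2

set_option autoImplicit false
open Cfsg

namespace Cfsg.Agent.S0041

open Lib.Helper1

/-- A group acting on a nontrivial abelian group so that no nonidentity element has a nonidentity fixed point is cyclic, provided it is abelian or its order is a product of two (possibly equal) primes. -/
theorem result {G : Type*} [Group G] [Finite G] (A V : Subgroup G) [IsMulCommutative V]
    (hV : V ≠ ⊥) (hAV : A ≤ Subgroup.normalizer (V : Set G)) (hfpf : ∀ a ∈ A, a ≠ 1 → V ⊓ Subgroup.centralizer {a} = ⊥)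
    (hA : IsMulCommutative A ∨ ∃ p q : ℕ, p.Prime ∧ q.Prime ∧ Nat.card A = p * q) : IsCyclic A := by
  let _ : CommGroup V := { (inferInstance : Group V) with mul_comm := mul_comm' }
  have : Nontrivial V := (Subgroup.nontrivial_iff_ne_bot V).mpr hV
  let φ : A →* MulAut V := V.normalizerMonoidHom.comp (Subgroup.inclusion hAV)
  have hφ : ∀ (a : A) (v : V), ((φ a v : V) : G) = a * v * (a : G)⁻¹ := fun _ _ => rfl
  have h : ∀ a : A, a ≠ 1 → ∀ v : V, φ a v = v → v = 1 := by
    intro a ha v hv
    have h1 : (v : G) ∈ V ⊓ Subgroup.centralizer {(a : G)} := by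
      refine Subgroup.mem_inf.mpr ⟨v.2, ?_⟩
      rw [Subgroup.mem_centralizer_singleton_iff]
      have := congrArg Subtype.val hv
      rw [hφ] at this
      exact (mul_inv_eq_iff_eq_mul.mp this).symm
    rw [hfpf a a.2 (fun h => ha (Subtype.ext h)), Subgroup.mem_bot] at h1
    exact Subtype.ext h1
  rcases hA with hA | ⟨p, q, hp, hq, hc⟩
  · exact fpf_isCyclic_of_comm φ h (fun a b => mul_comm' a b)
  · exact fpf_isCyclic_of_card_eq_mul φ h hp hq hc

end Cfsg.Agent.S0041
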