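import Cfsg.Statements.S0043
import Mathlib

set_option autoImplicit false
open Cfsg

namespace Cfsg.Agent.S0043

/-- A minimal normal subgroup of a finite solvable group is abelian, and for some prime p all of its elements have order dividing p. -/
theorem result {G : Type*} [Group G] [Finite G] [Group.IsSolvable G]
    (N : Subgroup G) [N.Normal] (hN : N ≠ ⊥) (hmin : ∀ M : Subgroup G, M.Normal → M ≤ N → M = ⊥ ∨ M = N) :
    IsMulCommutative N ∧ ∃ p : ℕ, p.Prime ∧ ∀ x ∈ N, x ^ p = 1 := by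
  have hcomm : ⁅N, N⁆ = ⊥ := by
    rcases hmin ⁅N, N⁆ inferInstance (Subgroup.commutator_le_left N N) with h | h
    · exact h
    · exact absurd h (Group.IsSolvable.commutator_lt_of_ne_bot hN).ne
  have hc : ∀ x ∈ N, ∀ y ∈ N, x * y = y * x := by
    rw [Subgroup.commutator_eq_bot_iff_le_centralizer] at hcomm
    intro x hx y hy
    exact ((Subgroup.mem_centralizer_iff.mp (hcomm hx)) y hy).symm
  refine ⟨⟨⟨fun a b => Subtype.ext (hc a a.2 b b.2)⟩⟩, ?_⟩
  have hN' : Nat.card N ≠ 1 := by
    intro h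
    exact hN (Subgroup.card_eq_one.mp h)
  obtain ⟨p, hp, hpd⟩ := Nat.exists_prime_and_dvd hN'
  haveI := Fact.mk hp
  obtain ⟨z, hz⟩ := exists_prime_orderOf_dvd_card' p hpd
  refine ⟨p, hp, ?_⟩
  let M : Subgroup G :=
    { carrier := {x | x ∈ N ∧ x ^ p = 1}
      one_mem' := ⟨N.one_mem, one_pow _⟩
      mul_mem' := by
        rintro a b ⟨ha, ha'⟩ ⟨hb, hb'⟩
        refine ⟨N.mul_mem ha hb, ?_⟩
        rw [(show Commute a b from hc a ha b hb).mul_pow, ha', hb', one_mul]
      inv_mem' := by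
        rintro a ⟨ha, ha'⟩
        exact ⟨N.inv_mem ha, by rw [inv_pow, ha', inv_one]⟩ }
  have hMn : M.Normal := by
    constructor
    rintro n ⟨hn, hn'⟩ g
    refine ⟨‹N.Normal›.conj_mem n hn g, ?_⟩
    rw [conj_pow, hn']; group
  have hMN : M ≤ N := fun x hx => hx.1
  rcases hmin M hMn hMN with h | h
  · exfalso
    have hzM : (z : G) ∈ M := ⟨z.2, by
      have := pow_orderOf_eq_one z
      rw [hz] at this
      exact_mod_cast congrArg Subtype.val this⟩
    rw [h, Subgroup.mem_bot] at hzM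
    have : z = 1 := Subtype.ext hzM
    rw [this, orderOf_one] at hz
    exact hp.one_lt.ne hz
  · intro x hx
    rw [← h] at hx
    exact hx.2

end Cfsg.Agent.S0043
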