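import Cfsg.Statements.S0046
-- import your own Cfsg.Agent.* helpers here
import Cfsg.Agent.Lib.Helper1.Frobenius

set_option autoImplicit false
open Cfsg

namespace Cfsg.Agent.S0046

universe u

open Cfsg.Agent.Lib.Helper1 in
open scoped Pointwise in
/-- The "simple" case: no proper nontrivial normal subgroups. -/
lemma simple_case {G : Type*} [Group G] [Finite G]
    (h : ∀ M : Subgroup G, IsCoatom M → Group.IsNilpotent M)
    (hsimp : ∀ N : Subgroup G, N.Normal → N = ⊥ ∨ N = ⊤) : Group.IsSolvable G := by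
  by_contra hns
  -- every element lies in a maximal subgroup
  have hcyc : ∀ x : G, ∃ M : Subgroup G, IsCoatom M ∧ x ∈ M := by
    intro x
    rcases eq_top_or_exists_le_coatom (Subgroup.zpowers x) with h1 | ⟨M, hM, hxM⟩
    · exfalso
      apply hns
      have : IsCyclic G := ⟨x, fun y => by
        have : y ∈ Subgroup.zpowers x := h1 ▸ Subgroup.mem_top y
        exact this⟩
      exact Group.isSolvable_of_comm (fun a b => IsCyclic.commGroup.mul_comm a b)
    · exact ⟨M, hM, hxM (Subgroup.mem_zpowers x)⟩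
  have hne_bot : ∀ M : Subgroup G, IsCoatom M → M ≠ ⊥ := by
    rintro M hM rfl
    apply hns
    have : Subsingleton G := by
      constructor
      have key : ∀ x : G, x = 1 := by
        intro x
        obtain ⟨M', hM', hx⟩ := hcyc x
        have : M' = ⊥ := by
          by_contra hne
          exact hM'.1 (hM.2 M' (bot_lt_iff_ne_bot.mpr hne))
        rw [this] at hx
        exact hx
      intro a b
      rw [key a, key b]
    infer_instance
  have hnorm : ∀ M : Subgroup G, IsCoatom M → Subgroup.normalizer (M : Set G) = M := by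
    intro M hM
    by_contra hne
    have h1 : M < Subgroup.normalizer (M : Set G) :=
      lt_of_le_of_ne Subgroup.le_normalizer (Ne.symm hne)
    have h2 := hM.2 _ h1
    have h3 : M.Normal := Subgroup.normalizer_eq_top_iff.mp h2
    rcases hsimp M h3 with h4 | h4
    · exact hne_bot M hM h4
    · exact hM.1 h4
  -- distinct maximal subgroups meet trivially
  have hTI : ∀ M1 M2 : Subgroup G, IsCoatom M1 → IsCoatom M2 → M1 ≠ M2 → M1 ⊓ M2 = ⊥ := by
    by_contra hcon
    push Not at hcon
    obtain ⟨A1, A2, hA1, hA2, hA12, hAne⟩ := hcon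
    let S : Set (Subgroup G) := {I | ∃ M1 M2 : Subgroup G, IsCoatom M1 ∧ IsCoatom M2 ∧ M1 ≠ M2 ∧
      I = M1 ⊓ M2 ∧ I ≠ ⊥}
    have hSfin : S.Finite := Set.toFinite S
    have hSne : S.Nonempty := ⟨A1 ⊓ A2, A1, A2, hA1, hA2, hA12, rfl, hAne⟩
    obtain ⟨I, hIS, hImax⟩ := hSfin.exists_maximal hSne
    obtain ⟨M1, M2, hM1, hM2, hM12, hI, hIne⟩ := hIS
    have hItop : I ≠ ⊤ := by
      intro h1
      apply hM1.1
      rw [eq_top_iff, ← h1, hI]
      exact inf_le_left
    have hNtop : Subgroup.normalizer (I : Set G) ≠ ⊤ := by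
      intro h1
      rcases hsimp I (Subgroup.normalizer_eq_top_iff.mp h1) with h2 | h2
      · exact hIne h2
      · exact hItop h2
    obtain ⟨M, hM, hNM⟩ := (eq_top_or_exists_le_coatom _).resolve_left hNtop
    -- key: any maximal `M'` containing `I` properly-in-the-lattice-sense equals `M`
    have key : ∀ M' M'' : Subgroup G, IsCoatom M' → IsCoatom M'' → M' ≠ M'' → I = M' ⊓ M'' →
        M = M' := by
      intro M' M'' hM' hM'' hne hI'
      by_contra hMM'
      have hIM' : I ≤ M' := hI' ▸ inf_le_left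
      have hlt : I.subgroupOf M' < ⊤ := by
        rw [lt_top_iff_ne_top]
        intro h1
        rw [Subgroup.subgroupOf_eq_top] at h1
        have h2 : M' ≤ M'' := h1.trans (hI' ▸ inf_le_right)
        rcases eq_or_lt_of_le h2 with h3 | h3
        · exact hne h3
        · exact hM''.1 (hM'.2 _ h3)
      have := h M' hM'
      have h1 := Group.normalizerCondition_of_isNilpotent (G := M') _ hlt
      rw [← Subgroup.subgroupOf_normalizer_eq hIM'] at h1
      obtain ⟨x, hx1, hx2⟩ := SetLike.exists_of_lt h1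
      have hx1' : (x : G) ∈ Subgroup.normalizer (I : Set G) := hx1
      have hx2' : (x : G) ∉ I := hx2
      have hmem : M ⊓ M' ∈ S := by
        refine ⟨M, M', hM, hM', hMM', rfl, ?_⟩
        intro h2
        apply hIne
        rw [eq_bot_iff, ← h2]
        exact le_inf (Subgroup.le_normalizer.trans hNM) hIM'
      have hle : I ≤ M ⊓ M' := le_inf (Subgroup.le_normalizer.trans hNM) hIM'
      have h3 := hImax hmem hle
      exact hx2' (h3 (Subgroup.mem_inf.mpr ⟨hNM hx1', x.2⟩))
    have e1 := key M1 M2 hM1 hM2 hM12 hI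
    have e2 := key M2 M1 hM2 hM1 hM12.symm (by rw [hI, inf_comm])
    exact hM12 (e1.symm.trans e2)
  have hconj : ∀ (M : Subgroup G) (g : G), IsCoatom M → IsCoatom (MulAut.conj g • M) := by
    intro M g hM
    exact (OrderIso.isCoatom_iff (MulEquiv.mapSubgroup (MulAut.conj g)) M).mpr hM
  have hfrob : ∀ M : Subgroup G, IsCoatom M → Cfsg.IsFrobeniusComplement M := by
    intro M hM
    refine ⟨hne_bot M hM, hM.1, ?_⟩
    intro g hg
    apply hTI M _ hM (hconj M g hM)
    intro h1
    apply hg
    rw [← hnorm M hM, Subgroup.mem_normalizer_iff_map_conj_eq]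
    exact h1.symm
  -- counting
  obtain ⟨M, hM, -⟩ := hcyc 1
  have hc1 := card_frobeniusKernel (hfrob M hM)
  have hidx1 : 1 < M.index := by
    have h0 : M.index ≠ 0 := Subgroup.index_ne_zero_of_finite
    have h1 : M.index ≠ 1 := fun h1 => hM.1 (Subgroup.index_eq_one.mp h1)
    omega
  obtain ⟨x, hxK, hx1⟩ : ∃ x ∈ Cfsg.frobeniusKernel M, x ≠ 1 := by
    by_contra hcon
    push Not at hcon
    have : Cfsg.frobeniusKernel M ⊆ {1} := fun y hy => hcon y hy
    have h2 := Set.ncard_le_ncard this (Set.finite_singleton _)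
    rw [Set.ncard_singleton, ← Nat.card_coe_set_eq, hc1] at h2
    omega
  obtain ⟨M2, hM2, hxM2⟩ := hcyc x
  have hc2 := card_frobeniusKernel (hfrob M2 hM2)
  have hsub : (Cfsg.frobeniusKernel M)ᶜ ⊆ Cfsg.frobeniusKernel M2 \ {1} := by
    intro y hy
    obtain ⟨hy1, g, hg⟩ := not_mem_frobeniusKernel_iff.mp hy
    refine ⟨Or.inr ?_, hy1⟩
    intro g' hg'
    by_cases heq : MulAut.conj g • M = MulAut.conj g' • M2
    · -- then `x` lies in a conjugate of `M`
      rcases hxK with hx | hx
      · exact hx1 hx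
      · apply hx (g'⁻¹ * g)
        rw [map_mul, mul_smul, heq, map_inv, inv_smul_smul]
        exact hxM2
    · have h1 := hTI _ _ (hconj M g hM) (hconj M2 g' hM2) heq
      have h2 : y ∈ MulAut.conj g • M ⊓ MulAut.conj g' • M2 := Subgroup.mem_inf.mpr ⟨hg, hg'⟩
      rw [h1] at h2
      exact hy1 h2
  have hn1 := Set.ncard_le_ncard hsub (Set.toFinite _)
  have hn2 := Set.ncard_add_ncard_compl (Cfsg.frobeniusKernel M)
  have hn3 : (Cfsg.frobeniusKernel M2 \ {1}).ncard + 1 = (Cfsg.frobeniusKernel M2).ncard :=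
    Set.ncard_sdiff_singleton_add_one (one_mem_frobeniusKernel M2) (Set.toFinite _)
  rw [← Nat.card_coe_set_eq (Cfsg.frobeniusKernel M), hc1] at hn2
  rw [← Nat.card_coe_set_eq (Cfsg.frobeniusKernel M2), hc2] at hn3
  have hm1 : 2 ≤ Nat.card M := by
    have h0 : Nat.card M ≠ 0 := Nat.card_pos.ne'
    have h1 : Nat.card M ≠ 1 := fun h1 => hne_bot M hM (Subgroup.card_eq_one.mp h1)
    omega
  have hm2 : 2 ≤ Nat.card M2 := by
    have h0 : Nat.card M2 ≠ 0 := Nat.card_pos.ne'
    have h1 : Nat.card M2 ≠ 1 := fun h1 => hne_bot M2 hM2 (Subgroup.card_eq_one.mp h1)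
    omega
  have hi1 := M.index_mul_card
  have hi2 := M2.index_mul_card
  have hj1 : 2 * M.index ≤ Nat.card G := by
    rw [← hi1, mul_comm]; exact Nat.mul_le_mul_left _ hm1
  have hj2 : 2 * M2.index ≤ Nat.card G := by
    rw [← hi2, mul_comm]; exact Nat.mul_le_mul_left _ hm2
  omega

lemma aux (n : ℕ) : ∀ (G : Type u) [Group G] [Finite G], Nat.card G = n →
    (∀ M : Subgroup G, IsCoatom M → Group.IsNilpotent M) → Group.IsSolvable G := by
  induction n using Nat.strong_induction_on with
  | _ n ih =>
    intro G _ _ hn h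
    by_cases hsimp : ∀ N : Subgroup G, N.Normal → N = ⊥ ∨ N = ⊤
    · exact simple_case h hsimp
    · push Not at hsimp
      obtain ⟨N, hN, hNbot, hNtop⟩ := hsimp
      obtain ⟨M, hM, hNM⟩ := (eq_top_or_exists_le_coatom N).resolve_left hNtop
      have hMn := h M hM
      have hNs : Group.IsSolvable N :=
        Group.isSolvable_of_isSolvable_injective (Subgroup.inclusion_injective hNM)
      have hlt : Nat.card (G ⧸ N) < n := by
        rw [← hn, ← N.index_mul_card]
        have h1 : 1 < Nat.card N := by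
          have h0 : Nat.card N ≠ 0 := Nat.card_pos.ne'
          have h1 : Nat.card N ≠ 1 := fun h1 => hNbot (Subgroup.card_eq_one.mp h1)
          omega
        have h2 : 0 < N.index := Nat.pos_of_ne_zero Subgroup.index_ne_zero_of_finite
        change N.index < _
        nlinarith
      have hQs : Group.IsSolvable (G ⧸ N) := by
        apply ih _ hlt (G ⧸ N) rfl
        intro M' hM'
        have hco := Subgroup.isCoatom_comap_of_surjective (QuotientGroup.mk'_surjective N) hM'
        have := h _ hco
        let f : (M'.comap (QuotientGroup.mk' N)) →* M' :=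
          ((QuotientGroup.mk' N).comp (Subgroup.subtype _)).codRestrict M' (fun x => x.2)
        apply Group.nilpotent_of_surjective f
        rintro ⟨y, hy⟩
        obtain ⟨g, rfl⟩ := QuotientGroup.mk'_surjective N y
        exact ⟨⟨g, hy⟩, rfl⟩
      exact (Group.isSolvable_iff_subgroup_quotient N).mpr ⟨hNs, hQs⟩

/-- Schmidt's Theorem on minimal non-nilpotent groups: a finite group in which every maximal subgroup is nilpotent is solvable. -/
theorem result {G : Type*} [Group G] [Finite G]
    (h : ∀ M : Subgroup G, IsCoatom M → Group.IsNilpotent M) : Group.IsSolvable G := by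
  exact aux _ G rfl h

end Cfsg.Agent.S0046
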