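import Cfsg.Statements.S0047
-- import your own Cfsg.Agent.* helpers here
import Mathlib.GroupTheory.Commutator.Basic
import Mathlib.GroupTheory.Subgroup.Centralizer
import Mathlib.Tactic.Group
import Mathlib.Algebra.Group.Commute.Hom

set_option autoImplicit false
open Cfsg

namespace Cfsg.Agent.S0047

open scoped commutatorElement in
lemma conj_eq {G : Type*} [Group G] (A B : Subgroup G)
    (hA : ∀ x ∈ A, ∀ y ∈ A, x * y = y * x) (hB : ∀ x ∈ B, ∀ y ∈ B, x * y = y * x)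
    (hAB : ∀ g : G, ∃ a ∈ A, ∃ b ∈ B, g = a * b)
    (a a1 b b1 : G) (ha : a ∈ A) (ha1 : a1 ∈ A) (hb : b ∈ B) (hb1 : b1 ∈ B) :
    a1 * b1 * (a * b * a⁻¹ * b⁻¹) * (a1 * b1)⁻¹ = b1 * a1 * (a * b * a⁻¹ * b⁻¹) * (b1 * a1)⁻¹ := by
  obtain ⟨a3, ha3, b3, hb3, e2⟩ := hAB (b1 * a * b1⁻¹)
  obtain ⟨a2', ha2', b2', hb2', e5'⟩ := hAB (a1 * b * a1⁻¹)⁻¹
  set a2 := a2'⁻¹ with ha2def
  set b2 := b2'⁻¹ with hb2def
  have ha2 : a2 ∈ A := A.inv_mem ha2'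
  have hb2 : b2 ∈ B := B.inv_mem hb2'
  have e5 : a1 * b * a1⁻¹ = b2 * a2 := by
    have := congrArg (·⁻¹) e5'
    simpa using this
  have cjA : ∀ x ∈ A, ∀ y ∈ A, x * y * x⁻¹ = y := by
    intro x hx y hy
    rw [hA x hx y hy]; group
  have cjB : ∀ x ∈ B, ∀ y ∈ B, x * y * x⁻¹ = y := by
    intro x hx y hy
    rw [hB x hx y hy]; group
  have L : a1 * b1 * (a * b * a⁻¹ * b⁻¹) * (a1 * b1)⁻¹ = a3 * b2 * a3⁻¹ * b2⁻¹ := by
    calc a1 * b1 * (a * b * a⁻¹ * b⁻¹) * (a1 * b1)⁻¹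
        = a1 * ((b1 * a * b1⁻¹) * (b1 * b * b1⁻¹) * (b1 * a * b1⁻¹)⁻¹ * (b1 * b * b1⁻¹)⁻¹) * a1⁻¹ := by
          group
      _ = a1 * ((a3 * b3) * b * (a3 * b3)⁻¹ * b⁻¹) * a1⁻¹ := by rw [cjB b1 hb1 b hb, e2]
      _ = a1 * (a3 * (b3 * b * b3⁻¹) * a3⁻¹ * b⁻¹) * a1⁻¹ := by group
      _ = a1 * (a3 * b * a3⁻¹ * b⁻¹) * a1⁻¹ := by rw [cjB b3 hb3 b hb]
      _ = (a1 * a3 * a1⁻¹) * (a1 * b * a1⁻¹) * (a1 * a3 * a1⁻¹)⁻¹ * (a1 * b * a1⁻¹)⁻¹ := by group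
      _ = a3 * (b2 * a2) * a3⁻¹ * (b2 * a2)⁻¹ := by rw [cjA a1 ha1 a3 ha3, e5]
      _ = a3 * b2 * (a2 * a3⁻¹ * a2⁻¹) * b2⁻¹ := by group
      _ = a3 * b2 * a3⁻¹ * b2⁻¹ := by rw [cjA a2 ha2 a3⁻¹ (A.inv_mem ha3)]
  have R : b1 * a1 * (a * b * a⁻¹ * b⁻¹) * (b1 * a1)⁻¹ = a3 * b2 * a3⁻¹ * b2⁻¹ := by
    calc b1 * a1 * (a * b * a⁻¹ * b⁻¹) * (b1 * a1)⁻¹
        = b1 * ((a1 * a * a1⁻¹) * (a1 * b * a1⁻¹) * (a1 * a * a1⁻¹)⁻¹ * (a1 * b * a1⁻¹)⁻¹) * b1⁻¹ := by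
          group
      _ = b1 * (a * (b2 * a2) * a⁻¹ * (b2 * a2)⁻¹) * b1⁻¹ := by rw [cjA a1 ha1 a ha, e5]
      _ = b1 * (a * b2 * (a2 * a⁻¹ * a2⁻¹) * b2⁻¹) * b1⁻¹ := by group
      _ = b1 * (a * b2 * a⁻¹ * b2⁻¹) * b1⁻¹ := by rw [cjA a2 ha2 a⁻¹ (A.inv_mem ha)]
      _ = (b1 * a * b1⁻¹) * (b1 * b2 * b1⁻¹) * (b1 * a * b1⁻¹)⁻¹ * (b1 * b2 * b1⁻¹)⁻¹ := by group
      _ = (a3 * b3) * b2 * (a3 * b3)⁻¹ * b2⁻¹ := by rw [e2, cjB b1 hb1 b2 hb2]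
      _ = a3 * (b3 * b2 * b3⁻¹) * a3⁻¹ * b2⁻¹ := by group
      _ = a3 * b2 * a3⁻¹ * b2⁻¹ := by rw [cjB b3 hb3 b2 hb2]
  rw [L, R]

open scoped commutatorElement in
lemma main {G : Type*} [Group G] (A B : Subgroup G)
    (hA : ∀ x ∈ A, ∀ y ∈ A, x * y = y * x) (hB : ∀ x ∈ B, ∀ y ∈ B, x * y = y * x)
    (hAB : ∀ g : G, ∃ a ∈ A, ∃ b ∈ B, g = a * b) : Group.IsSolvable G := by
  set K : Subgroup G := ⁅A, B⁆ with hK
  have hKn : K.Normal := by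
    rw [← Subgroup.normalizer_eq_top_iff, eq_top_iff]
    intro g _
    obtain ⟨a, ha, b, hb, rfl⟩ := hAB g
    exact mul_mem (Subgroup.normalizer_commutator_ge_left A B ha)
      (Subgroup.normalizer_commutator_ge_right A B hb)
  have hGK : commutator G ≤ K := by
    rw [← Subgroup.Normal.quotient_commutative_iff_commutator_le]
    refine ⟨⟨fun x y => ?_⟩⟩
    obtain ⟨g, rfl⟩ := QuotientGroup.mk'_surjective K x
    obtain ⟨h, rfl⟩ := QuotientGroup.mk'_surjective K y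
    obtain ⟨a, ha, b, hb, rfl⟩ := hAB g
    obtain ⟨a', ha', b', hb', rfl⟩ := hAB h
    have cAB : ∀ x ∈ A, ∀ y ∈ B, Commute (QuotientGroup.mk' K x) (QuotientGroup.mk' K y) := by
      intro x hx y hy
      rw [← commutatorElement_eq_one_iff_commute, ← map_commutatorElement,
        QuotientGroup.mk'_apply, QuotientGroup.eq_one_iff]
      exact Subgroup.commutator_mem_commutator hx hy
    have cAA : ∀ x ∈ A, ∀ y ∈ A, Commute (QuotientGroup.mk' K x) (QuotientGroup.mk' K y) := by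
      intro x hx y hy
      exact Commute.map (hA x hx y hy : Commute x y) (QuotientGroup.mk' K)
    have cBB : ∀ x ∈ B, ∀ y ∈ B, Commute (QuotientGroup.mk' K x) (QuotientGroup.mk' K y) := by
      intro x hx y hy
      exact Commute.map (hB x hx y hy : Commute x y) (QuotientGroup.mk' K)
    rw [map_mul, map_mul]
    exact Commute.mul_left (Commute.mul_right (cAA a ha a' ha') (cAB a ha b' hb'))
      (Commute.mul_right (cAB a' ha' b hb).symm (cBB b hb b' hb'))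
  have hKc : IsMulCommutative K := by
    rw [hK, Subgroup.commutator_def]
    apply Subgroup.isMulCommutative_closure
    rintro _ ⟨a, ha, b, hb, rfl⟩ _ ⟨a1, ha1, b1, hb1, rfl⟩
    have key := conj_eq A B hA hB hAB a a1⁻¹ b b1⁻¹ ha (A.inv_mem ha1) hb (B.inv_mem hb1)
    rw [commutatorElement_def, commutatorElement_def]
    set c := a * b * a⁻¹ * b⁻¹ with hc
    calc c * (a1 * b1 * a1⁻¹ * b1⁻¹)
        = (b1⁻¹ * a1⁻¹)⁻¹ * (b1⁻¹ * a1⁻¹ * c * (b1⁻¹ * a1⁻¹)⁻¹) * (a1⁻¹ * b1⁻¹) := by group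
      _ = (b1⁻¹ * a1⁻¹)⁻¹ * (a1⁻¹ * b1⁻¹ * c * (a1⁻¹ * b1⁻¹)⁻¹) * (a1⁻¹ * b1⁻¹) := by rw [key]
      _ = a1 * b1 * a1⁻¹ * b1⁻¹ * c := by group
  refine ⟨⟨2, ?_⟩⟩
  rw [derivedSeries_succ, derivedSeries_one, eq_bot_iff]
  exact (Subgroup.commutator_mono hGK hGK).trans (Subgroup.commutator_self_eq_bot_iff.mpr hKc).le

/-- A finite group which is the product AB of two abelian subgroups A and B is solvable. -/
theorem result {G : Type*} [Group G] [Finite G] (A B : Subgroup G)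
    [IsMulCommutative A] [IsMulCommutative B] (hAB : ∀ g : G, ∃ a ∈ A, ∃ b ∈ B, g = a * b) :
    Group.IsSolvable G := by
  refine main A B ?_ ?_ hAB
  · intro x hx y hy
    exact congrArg Subtype.val (mul_comm' (⟨x, hx⟩ : A) ⟨y, hy⟩)
  · intro x hx y hy
    exact congrArg Subtype.val (mul_comm' (⟨x, hx⟩ : B) ⟨y, hy⟩)

end Cfsg.Agent.S0047
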