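import Cfsg.Statements.S0048
-- import your own Cfsg.Agent.* helpers here
import Cfsg.Agent.Lib.Helper2.Solvable
import Mathlib.Algebra.IsPrimePow

set_option autoImplicit false
open Cfsg

namespace Cfsg.Agent.S0048

universe u

open Cfsg.Agent.Lib.Helper2 in
lemma aux : ∀ (n : ℕ) (G : Type u) [Group G] [Finite G] [Group.IsSolvable G],
    Nat.card G = n → ∀ M : Subgroup G, IsCoatom M → IsPrimePow M.index := by
  intro n
  induction n using Nat.strong_induction_on with
  | _ n ih =>
    intro G _ _ _ hG M hM
    have hnt : Nontrivial G := by
      by_contra h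
      rw [not_nontrivial_iff_subsingleton] at h
      exact hM.1 (Subsingleton.elim _ _)
    obtain ⟨p, N, hp, hNc, hNne, hNp, -⟩ := exists_characteristic_pgroup_of_solvable (G := G)
    have hNn : N.Normal := inferInstance
    have : Fact p.Prime := ⟨hp⟩
    by_cases hNM : N ≤ M
    · have hker : (QuotientGroup.mk' N).ker ≤ M := by rwa [QuotientGroup.ker_mk']
      have hco := isCoatom_map_of_surjective (QuotientGroup.mk'_surjective N) hM hker
      have hlt : Nat.card (G ⧸ N) < n := by
        rw [← hG, ← N.index_mul_card, ← Subgroup.index]
        have h1 : 1 < Nat.card N := by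
          rw [Finite.one_lt_card_iff_nontrivial]
          exact (Subgroup.nontrivial_iff_ne_bot N).mpr hNne
        have h2 : 0 < N.index := Nat.pos_of_ne_zero Subgroup.FiniteIndex.index_ne_zero
        nlinarith
      have := ih _ hlt (G ⧸ N) rfl _ hco
      rwa [Subgroup.index_map_eq M (QuotientGroup.mk'_surjective N) hker] at this
    · have hsup : M ⊔ N = ⊤ :=
        hM.2 _ (lt_of_le_of_ne le_sup_left (by
          intro h
          apply hNM
          rw [h]
          exact le_sup_right))
      have hdvd := index_dvd_card_of_sup_eq_top hsup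
      obtain ⟨k, hk⟩ := hNp.exists_card_eq
      rw [hk] at hdvd
      obtain ⟨j, -, hj⟩ := (Nat.dvd_prime_pow hp).mp hdvd
      rw [isPrimePow_nat_iff]
      refine ⟨p, j, hp, ?_, hj.symm⟩
      rcases Nat.eq_zero_or_pos j with rfl | h
      · rw [pow_zero, Subgroup.index_eq_one] at hj
        exact absurd hj hM.1
      · exact h

/-- In a finite solvable group every maximal subgroup has index a prime power. -/
theorem result {G : Type*} [Group G] [Finite G] [Group.IsSolvable G]
    (M : Subgroup G) (hM : IsCoatom M) : IsPrimePow M.index := by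
  exact aux _ G rfl M hM

end Cfsg.Agent.S0048
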