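import Cfsg.Statements.S0049
-- import your own Cfsg.Agent.* helpers here
import Mathlib.GroupTheory.SchurZassenhaus

set_option autoImplicit false
open Cfsg

namespace Cfsg.Agent.S0049

/-- A prime divisor of the order of a finite group also divides the index of the Frattini subgroup. -/
theorem result {G : Type*} [Group G] [Finite G] (p : ℕ) (hp : p.Prime) (hdvd : p ∣ Nat.card G) :
    p ∣ (frattini G).index := by
  have : Fact p.Prime := ⟨hp⟩
  by_contra hnd
  obtain ⟨P⟩ : Nonempty (Sylow p (frattini G)) := inferInstance
  have hnil : Group.IsNilpotent (frattini G) := frattini_nilpotent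
  have hPn : (P : Subgroup (frattini G)).Normal := inferInstance
  have hPc : (P : Subgroup (frattini G)).Characteristic := Sylow.characteristic_of_normal P hPn
  let Q : Subgroup G := (P : Subgroup (frattini G)).map (frattini G).subtype
  have hQn : Q.Normal := by
    have : Q.Characteristic := inferInstance
    infer_instance
  have hQle : Q ≤ frattini G := Subgroup.map_subtype_le _
  have hidx : Q.index = (P : Subgroup (frattini G)).index * (frattini G).index :=
    Subgroup.index_map_subtype _
  have hnd2 : ¬ p ∣ Q.index := by
    rw [hidx, hp.dvd_mul]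
    rintro (h | h)
    · exact P.not_dvd_index h
    · exact hnd h
  have hQp : IsPGroup p Q := P.2.map _
  obtain ⟨k, hk⟩ := hQp.exists_card_eq
  have hcop : Nat.Coprime (Nat.card Q) Q.index := by
    rw [hk]
    exact Nat.Coprime.pow_left _ ((Nat.Prime.coprime_iff_not_dvd hp).mpr hnd2)
  obtain ⟨H, hH⟩ := Subgroup.exists_right_complement'_of_coprime hcop
  have h1 : H ⊔ frattini G = ⊤ := by
    apply top_le_iff.mp
    rw [← hH.sup_eq_top]
    exact sup_le (hQle.trans le_sup_right) le_sup_left
  have h2 : H = ⊤ := frattini_nongenerating h1
  have h3 := hH.disjoint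
  rw [h2] at h3
  have h4 : Q = ⊥ := disjoint_top.mp h3
  apply hnd2
  rw [h4, Subgroup.index_bot]
  exact hdvd

end Cfsg.Agent.S0049
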