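import Cfsg.Statements.S0053
-- import your own Cfsg.Agent.* helpers here

set_option autoImplicit false
open Cfsg

namespace Cfsg.Agent.S0053

/-- An abelian minimal normal subgroup N of a finite group is complemented exactly when N is not inside the Frattini subgroup. -/
theorem result {G : Type*} [Group G] [Finite G]
    (N : Subgroup G) [N.Normal] [IsMulCommutative N] (hN : N ≠ ⊥)
    (hmin : ∀ M : Subgroup G, M.Normal → M ≤ N → M = ⊥ ∨ M = N) :
    (∃ H : Subgroup G, Subgroup.IsComplement' N H) ↔ ¬ N ≤ frattini G := by
  constructor
  · rintro ⟨H, hH⟩ hle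
    have h1 : H ⊔ frattini G = ⊤ := by
      have := hH.sup_eq_top
      apply top_le_iff.mp
      rw [← this]
      exact sup_le (hle.trans le_sup_right) le_sup_left
    have h2 : H = ⊤ := frattini_nongenerating h1
    have h3 := hH.disjoint
    rw [h2] at h3
    exact hN (disjoint_top.mp h3)
  · intro hle
    have hex : ∃ M : Subgroup G, IsCoatom M ∧ ¬ N ≤ M := by
      by_contra hcon
      push Not at hcon
      apply hle
      unfold frattini Order.radical
      exact le_iInf₂ (fun M hM => hcon M hM)
    obtain ⟨M, hM, hNM⟩ := hex
    have hsup : N ⊔ M = ⊤ :=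
      hM.2 _ (lt_of_le_of_ne le_sup_right (by
        intro h
        apply hNM
        rw [h]
        exact le_sup_left))
    have hcomm : ∀ a ∈ N, ∀ b ∈ N, a * b = b * a := by
      intro a ha b hb
      have := mul_comm' (⟨a, ha⟩ : N) ⟨b, hb⟩
      exact congrArg Subtype.val this
    have hnorm : (N ⊓ M).Normal := by
      rw [← Subgroup.normalizer_eq_top_iff, ← top_le_iff, ← hsup]
      refine sup_le ?_ ?_
      · intro n hn
        rw [Subgroup.mem_normalizer_iff]
        intro h
        constructor
        · intro hh
          have : n * h * n⁻¹ = h := by rw [hcomm n hn h hh.1]; group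
          rw [this]; exact hh
        · intro hh
          have hhN : h ∈ N := by
            have := N.mul_mem (N.mul_mem (N.inv_mem hn) hh.1) hn
            simpa [mul_assoc] using this
          have : n * h * n⁻¹ = h := by rw [hcomm n hn h hhN]; group
          rw [this] at hh; exact hh
      · intro m hm
        rw [Subgroup.mem_normalizer_iff]
        intro h
        constructor
        · intro hh
          exact ⟨‹N.Normal›.conj_mem h hh.1 m, M.mul_mem (M.mul_mem hm hh.2) (M.inv_mem hm)⟩
        · intro hh
          have e : h = m⁻¹ * (m * h * m⁻¹) * m⁻¹⁻¹ := by group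
          rw [e]
          exact ⟨‹N.Normal›.conj_mem _ hh.1 m⁻¹,
            M.mul_mem (M.mul_mem (M.inv_mem hm) hh.2) (M.inv_mem (M.inv_mem hm))⟩
    rcases hmin _ hnorm inf_le_left with h | h
    · refine ⟨M, Subgroup.isComplement'_of_disjoint_and_mul_eq_univ (disjoint_iff.mpr h) ?_⟩
      rw [← Subgroup.normal_mul, hsup]
      rfl
    · exact absurd (h ▸ inf_le_right) hNM

end Cfsg.Agent.S0053
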