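import Cfsg.Statements.S0054
-- import your own Cfsg.Agent.* helpers here
import Mathlib.GroupTheory.PGroup
import Mathlib.GroupTheory.Perm.Cycle.Type
import Mathlib.Tactic.Group

set_option autoImplicit false
open Cfsg

namespace Cfsg.Agent.S0054

/-- A regular normal subgroup of a finite 2-transitive group is elementary abelian: it is commutative and all its elements have order dividing one prime. -/
theorem result {G : Type*} [Group G] [Finite G]
    {X : Type*} [Nonempty X] [MulAction G X] (h2 : MulAction.IsMultiplyPretransitive G X 2)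
    (N : Subgroup G) [N.Normal] (htrans : MulAction.IsPretransitive N X) (hreg : ∀ x : X, MulAction.stabilizer N x = ⊥) :
    IsMulCommutative N ∧ ∃ p : ℕ, p.Prime ∧ ∀ n ∈ N, n ^ p = 1 := by
  obtain ⟨x0⟩ : Nonempty X := inferInstance
  rw [MulAction.is_two_pretransitive_iff] at h2
  have hfix : ∀ n ∈ N, n • x0 = x0 → n = 1 := by
    intro n hn h
    have : (⟨n, hn⟩ : N) ∈ MulAction.stabilizer N x0 := h
    rw [hreg x0, Subgroup.mem_bot] at this
    exact congrArg Subtype.val this
  have hconj : ∀ n ∈ N, ∀ m ∈ N, n ≠ 1 → m ≠ 1 → ∃ g : G, g * n * g⁻¹ = m := by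
    intro n hn m hm hn1 hm1
    have h1 : x0 ≠ n • x0 := fun h => hn1 (hfix n hn h.symm)
    have h2' : x0 ≠ m • x0 := fun h => hm1 (hfix m hm h.symm)
    obtain ⟨g, hg1, hg2⟩ := h2 h1 h2'
    refine ⟨g, ?_⟩
    have hmem : m⁻¹ * (g * n * g⁻¹) ∈ N :=
      N.mul_mem (N.inv_mem hm) (‹N.Normal›.conj_mem n hn g)
    have hg1' : g⁻¹ • x0 = x0 := by
      rw [inv_smul_eq_iff, hg1]
    have := hfix _ hmem (by
      rw [mul_smul, mul_smul, mul_smul, hg1', hg2, inv_smul_smul])
    calc g * n * g⁻¹ = m * (m⁻¹ * (g * n * g⁻¹)) := by group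
      _ = m := by rw [this, mul_one]
  by_cases hN : N = ⊥
  · subst hN
    refine ⟨⟨⟨fun a b => Subsingleton.elim _ _⟩⟩, 2, Nat.prime_two, ?_⟩
    intro n hn
    rw [Subgroup.mem_bot] at hn
    rw [hn, one_pow]
  · have hcard : Nat.card N ≠ 1 := fun h => hN (Subgroup.card_eq_one.mp h)
    set p := (Nat.card N).minFac with hp
    have hpp : p.Prime := Nat.minFac_prime hcard
    have : Fact p.Prime := ⟨hpp⟩
    obtain ⟨⟨n0, hn0⟩, ho⟩ := exists_prime_orderOf_dvd_card' (G := N) p (Nat.minFac_dvd _)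
    rw [← Subgroup.orderOf_coe] at ho
    simp only at ho
    have hn01 : n0 ≠ 1 := by
      rintro rfl
      rw [orderOf_one] at ho
      exact hpp.one_lt.ne ho
    have hpow : ∀ n ∈ N, n ^ p = 1 := by
      intro n hn
      by_cases hn1 : n = 1
      · rw [hn1, one_pow]
      · obtain ⟨g, rfl⟩ := hconj n0 hn0 n hn hn01 hn1
        rw [conj_pow, ← ho, pow_orderOf_eq_one]
        group
    refine ⟨?_, p, hpp, hpow⟩
    have hpg : IsPGroup p N := by
      intro n
      refine ⟨1, ?_⟩
      apply Subtype.ext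
      rw [pow_one]
      exact hpow n n.2
    have hnt : Nontrivial N := (Subgroup.nontrivial_iff_ne_bot N).mpr hN
    have hZ : Nontrivial (Subgroup.center N) := hpg.center_nontrivial
    obtain ⟨⟨⟨z, hzN⟩, hz⟩, hz1⟩ := exists_ne (1 : Subgroup.center N)
    have hz1' : z ≠ 1 := by
      intro h
      apply hz1
      apply Subtype.ext
      apply Subtype.ext
      exact h
    have hzc : ∀ k ∈ N, k * z = z * k := by
      intro k hk
      have := Subgroup.mem_center_iff.mp hz ⟨k, hk⟩
      exact congrArg Subtype.val this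
    have hall : ∀ m ∈ N, ∀ k ∈ N, m * k = k * m := by
      intro m hm k hk
      by_cases hm1 : m = 1
      · rw [hm1, one_mul, mul_one]
      · obtain ⟨g, rfl⟩ := hconj z hzN m hm hz1' hm1
        have hk' : g⁻¹ * k * g ∈ N := by
          have := ‹N.Normal›.conj_mem k hk g⁻¹
          rwa [inv_inv] at this
        have := hzc _ hk'
        calc g * z * g⁻¹ * k = g * (z * (g⁻¹ * k * g)) * g⁻¹ := by group
          _ = g * ((g⁻¹ * k * g) * z) * g⁻¹ := by rw [this]
          _ = k * (g * z * g⁻¹) := by group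
    exact ⟨⟨fun a b => Subtype.ext (hall a a.2 b b.2)⟩⟩

end Cfsg.Agent.S0054
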