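import Cfsg.Statements.S0056
-- import your own Cfsg.Agent.* helpers here
import Cfsg.Agent.S0055
import Mathlib.GroupTheory.Perm.Cycle.Type

set_option autoImplicit false
open Cfsg

namespace Cfsg.Agent.S0056

/-- A coprime action on an abelian group that fixes all elements of prime order is trivial. -/
theorem result {G : Type*} [Group G] [Finite G] (A V : Subgroup G) [IsMulCommutative V]
    (hAV : A ≤ Subgroup.normalizer (V : Set G)) (hcop : (Nat.card A).Coprime (Nat.card V))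
    (hΩ : ∀ v ∈ V, (orderOf v).Prime → ∀ a ∈ A, a * v = v * a) : A ≤ Subgroup.centralizer (V : Set G) := by
  have h55 := (Cfsg.Agent.S0055.result A V hAV hcop).1
  have hVA : ⁅V, A⁆ ≤ V := Subgroup.le_normalizer_iff_commutator_le_left.mp hAV
  rw [Subgroup.le_centralizer_iff, ← Subgroup.commutator_eq_bot_iff_le_centralizer]
  by_contra hne
  have hcard : Nat.card (⁅V, A⁆ : Subgroup G) ≠ 1 := fun h => hne (Subgroup.card_eq_one.mp h)
  have hp : (Nat.card (⁅V, A⁆ : Subgroup G)).minFac.Prime := Nat.minFac_prime hcard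
  have : Fact (Nat.card (⁅V, A⁆ : Subgroup G)).minFac.Prime := ⟨hp⟩
  obtain ⟨⟨x, hx⟩, hxo⟩ := exists_prime_orderOf_dvd_card' (G := (⁅V, A⁆ : Subgroup G)) _
    (Nat.minFac_dvd _)
  rw [← Subgroup.orderOf_coe] at hxo
  simp only at hxo
  have hxp : (orderOf x).Prime := hxo ▸ hp
  have hxC : x ∈ Subgroup.centralizer (A : Set G) := by
    rw [Subgroup.mem_centralizer_iff]
    intro a ha
    exact hΩ x (hVA hx) hxp a ha
  have hxbot : x ∈ (V ⊓ Subgroup.centralizer (A : Set G)) ⊓ ⁅V, A⁆ :=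
    Subgroup.mem_inf.mpr ⟨Subgroup.mem_inf.mpr ⟨hVA hx, hxC⟩, hx⟩
  rw [h55, Subgroup.mem_bot] at hxbot
  rw [hxbot, orderOf_one] at hxp
  exact Nat.not_prime_one hxp

end Cfsg.Agent.S0056
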