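import Cfsg.Statements.S0057
import Cfsg.Agent.Lib.Helper30.Coprime
import Cfsg.Agent.S0055
open scoped commutatorElement

set_option autoImplicit false
open Cfsg

namespace Cfsg.Agent.S0057


open Subgroup
open Cfsg.Agent.Lib.Helper30

theorem exists_mul_of_relIndex_prime {G : Type*} [Group G] [Finite G] {p : ℕ} [hp : Fact p.Prime]
    {P C K : Subgroup G} (hP : IsSylowIn p P K) (hidx : C.relIndex K = p) :
    ∀ k ∈ K, ∃ x ∈ P, ∃ c ∈ C, k = x * c := by
  intro k hk
  set C' := C.subgroupOf K with hC'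
  set P' := P.subgroupOf K with hP'
  have hP'p : IsPGroup p P' := hP.isPGroup.comap_subtype
  have hcardΩ : Nat.card (K ⧸ C') = p := hidx
  set ω : K ⧸ C' := ((1 : K) : K ⧸ C') with hω
  obtain ⟨n, hn⟩ := hP'p.card_orbit ω
  have hle : Nat.card (MulAction.orbit P' ω) ≤ p := by
    rw [← hcardΩ]
    exact Nat.card_le_card_of_injective _ Subtype.val_injective
  have hn0 : n ≠ 0 := by
    rintro rfl
    rw [pow_zero] at hn
    have hsub : P' ≤ C' := by
      intro x hx
      have h1 : Subsingleton (MulAction.orbit P' ω) := (Nat.card_eq_one_iff_unique.mp hn).1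
      have h2 : (⟨(⟨x, hx⟩ : P') • ω, MulAction.mem_orbit _ _⟩ : MulAction.orbit P' ω)
          = ⟨ω, MulAction.mem_orbit_self _⟩ := Subsingleton.elim _ _
      have h3 : (⟨x, hx⟩ : P') • ω = ω := congrArg Subtype.val h2
      have h4 : ((x * 1 : K) : K ⧸ C') = ((1 : K) : K ⧸ C') := h3
      rw [QuotientGroup.eq] at h4
      simpa using C'.inv_mem h4
    have h5 : C'.index ∣ P'.index := index_dvd_of_le hsub
    apply hP.not_dvd
    have h6 : C'.index = p := hidx
    rw [h6] at h5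
    exact h5
  have hcard : Nat.card (MulAction.orbit P' ω) = Nat.card (K ⧸ C') := by
    rw [hcardΩ]
    apply le_antisymm hle
    rw [hn]
    calc p = p ^ 1 := (pow_one p).symm
      _ ≤ p ^ n := Nat.pow_le_pow_right hp.out.pos (Nat.one_le_iff_ne_zero.mpr hn0)
  have huniv : MulAction.orbit P' ω = Set.univ := by
    apply Set.eq_of_subset_of_ncard_le (Set.subset_univ _) _ (Set.toFinite _)
    rw [Set.ncard_univ, ← hcard, Nat.card_coe_set_eq]
  have hmem : ((⟨k, hk⟩ : K) : K ⧸ C') ∈ MulAction.orbit P' ω := by rw [huniv]; trivial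
  obtain ⟨x, hx⟩ := hmem
  have h4 : (((x : K) * 1 : K) : K ⧸ C') = ((⟨k, hk⟩ : K) : K ⧸ C') := hx
  rw [QuotientGroup.eq] at h4
  refine ⟨((x : K) : G), mem_subgroupOf.mp x.2, ((x : K) : G)⁻¹ * k, ?_, by group⟩
  have := mem_subgroupOf.mp h4
  simpa using this

theorem card_eq_of_isPGroup {G : Type*} [Group G] [Finite G] {p : ℕ} [hp : Fact p.Prime]
    {A L : Subgroup G} (hL : IsPGroup p L) (hAL : A ≤ normalizer (L : Set G))
    (hcop : (Nat.card A).Coprime (Nat.card L)) (hLL : ⁅L, A⁆ = L)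
    (hidx : (L ⊓ centralizer (A : Set G)).relIndex L = p) : Nat.card L = p := by
  set D := L ⊓ centralizer (A : Set G) with hD
  set D' := D.subgroupOf L with hD'
  have hD'idx : D'.index = p := hidx
  have hnorm : D'.Normal := by
    apply normal_of_index_eq_minFac_card
    obtain ⟨m, hm⟩ := IsPGroup.iff_card.mp hL
    have hm0 : m ≠ 0 := by
      rintro rfl
      have h1 : D'.index ∣ Nat.card L := index_dvd_card D'
      rw [hm, pow_zero, hD'idx] at h1
      exact hp.out.one_lt.ne' (Nat.dvd_one.mp h1)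
    rw [hD'idx, hm, hp.out.pow_minFac hm0]
  have hDL : ⁅D, L⁆ ≤ D := by
    rw [commutator_le]
    intro d hd l hl
    have h1 : (⟨l, hl⟩ : L) * ⟨d, hd.1⟩⁻¹ * (⟨l, hl⟩ : L)⁻¹ ∈ D' :=
      hnorm.conj_mem _ (D'.inv_mem (mem_subgroupOf.mpr hd)) _
    have h2 : l * d⁻¹ * l⁻¹ ∈ D := mem_subgroupOf.mp h1
    have : ⁅d, l⁆ = d * (l * d⁻¹ * l⁻¹) := by rw [commutatorElement_def]; group
    rw [this]
    exact D.mul_mem hd h2
  have hDA : ⁅D, A⁆ = ⊥ := commutator_eq_bot_iff_le_centralizer.mpr inf_le_right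
  have h1 : ⁅⁅A, D⁆, L⁆ = ⊥ := by
    rw [commutator_comm A D, hDA]; exact commutator_bot_left L
  have h2 : ⁅⁅D, L⁆, A⁆ = ⊥ := by
    rw [eq_bot_iff, ← hDA]
    exact commutator_mono hDL le_rfl
  have h3 := commutator_commutator_eq_bot_of_rotate h1 h2
  rw [hLL] at h3
  have hLD : L ≤ centralizer (D : Set G) := commutator_eq_bot_iff_le_centralizer.mp h3
  have hcyc : IsCyclic (L ⧸ D') := isCyclic_of_prime_card (p := p) hD'idx
  have hcomm : IsMulCommutative L := by
    apply (QuotientGroup.mk' D').isMulCommutative_of_isCyclic_of_ker_le_center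
    rw [QuotientGroup.ker_mk']
    intro d hd
    rw [mem_center_iff]
    intro l
    apply Subtype.ext
    exact (mem_centralizer_iff.mp (hLD l.2) d (mem_subgroupOf.mp hd)).symm
  have h4 := (Cfsg.Agent.S0055.result A L hAL hcop).1
  rw [hLL, ← hD, inf_eq_left.mpr (inf_le_left : D ≤ L)] at h4
  rw [← hD] at h4
  rw [h4, relIndex_bot_left] at hidx
  exact hidx


/-- Under coprime action, if the centraliser of A in K has prime index p in K then the commutator subgroup [K, A] has order exactly p. -/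
theorem result {G : Type*} [Group G] [Finite G] (A K : Subgroup G) (hAK : A ≤ Subgroup.normalizer (K : Set G))
    (hcop : (Nat.card A).Coprime (Nat.card K)) (hsolv : Group.IsSolvable A ∨ Group.IsSolvable K)
    (p : ℕ) (hp : p.Prime) (hidx : (K ⊓ Subgroup.centralizer (A : Set G)).relIndex K = p) :
    Nat.card (⁅K, A⁆ : Subgroup G) = p := by
  haveI : Fact p.Prime := ⟨hp⟩
  obtain ⟨P, hP, hPA⟩ := exists_invariant_isSylowIn hAK hcop hsolv p
  have hprod := exists_mul_of_relIndex_prime hP hidx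
  have hLK : ⁅K, A⁆ ≤ K := commutator_le_of_le_normalizer hAK
  have hLP : ⁅K, A⁆ ≤ P := by
    rw [commutator_le]
    intro k hk a ha
    obtain ⟨x, hx, c, hc, rfl⟩ := hprod k hk
    have hca : a * c = c * a := mem_centralizer_iff.mp hc.2 a ha
    have h1 : a * x⁻¹ * a⁻¹ ∈ P := (mem_normalizer_iff.mp (hPA ha) x⁻¹).mp (P.inv_mem hx)
    have : ⁅x * c, a⁆ = x * (a * x⁻¹ * a⁻¹) := by
      rw [commutatorElement_def]
      calc x * c * a * (x * c)⁻¹ * a⁻¹ = x * (c * a) * c⁻¹ * x⁻¹ * a⁻¹ := by group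
        _ = x * (a * x⁻¹ * a⁻¹) := by rw [← hca]; group
    rw [this]
    exact P.mul_mem hx h1
  have hLp : IsPGroup p (⁅K, A⁆ : Subgroup G) := hP.isPGroup.to_le hLP
  have hLL := commutator_commutator_eq hAK hcop hsolv
  have hAL : A ≤ normalizer ((⁅K, A⁆ : Subgroup G) : Set G) := le_normalizer_commutator hAK le_normalizer
  have hcopL : (Nat.card A).Coprime (Nat.card (⁅K, A⁆ : Subgroup G)) :=
    Nat.Coprime.coprime_dvd_right (card_dvd_of_le hLK) hcop
  apply card_eq_of_isPGroup hLp hAL hcopL hLL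
  rw [inf_relIndex_left] at hidx ⊢
  have hle : (centralizer (A : Set G)).relIndex ⁅K, A⁆ ≤ p := by
    rw [← hidx]
    exact relIndex_le_of_le_right hLK (by rw [hidx]; exact hp.ne_zero)
  obtain ⟨m, hm⟩ := IsPGroup.iff_card.mp hLp
  have hdvd : (centralizer (A : Set G)).relIndex ⁅K, A⁆ ∣ p ^ m := hm ▸ relIndex_dvd_card _ _
  obtain ⟨j, _, hj⟩ := (Nat.dvd_prime_pow hp).mp hdvd
  have hj0 : j ≠ 0 := by
    rintro rfl
    rw [pow_zero, relIndex_eq_one] at hj
    have h1 : ⁅⁅K, A⁆, A⁆ = ⊥ := commutator_eq_bot_iff_le_centralizer.mpr hj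
    rw [hLL] at h1
    have h2 : K ≤ centralizer (A : Set G) := commutator_eq_bot_iff_le_centralizer.mp h1
    rw [relIndex_eq_one.mpr h2] at hidx
    exact hp.one_lt.ne hidx
  apply le_antisymm hle
  rw [hj]
  calc p = p ^ 1 := (pow_one p).symm
    _ ≤ p ^ j := Nat.pow_le_pow_right hp.pos (Nat.one_le_iff_ne_zero.mpr hj0)

end Cfsg.Agent.S0057
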