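import Cfsg.Statements.S0059
import Cfsg.Agent.Lib.Helper30.Coprime

set_option autoImplicit false
open Cfsg

namespace Cfsg.Agent.S0059

/-- Let a finite group act on a set on which a normal subgroup K of coprime order and index is transitive, with K or the quotient solvable. Then any complement H of K has a fixed point, and any two H-fixed points are interchanged by an element of K centralising H. -/
theorem result {G : Type*} [Group G] [Finite G] {X : Type*} [Nonempty X] [MulAction G X]
    (K H : Subgroup G) [K.Normal] (hc : Subgroup.IsComplement' K H) (hcop : (Nat.card K).Coprime K.index)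
    (hsolv : Group.IsSolvable K ∨ Group.IsSolvable (G ⧸ K)) (htrans : MulAction.IsPretransitive K X) :
    (∃ x : X, ∀ h ∈ H, h • x = x) ∧
    ∀ x y : X, (∀ h ∈ H, h • x = x) → (∀ h ∈ H, h • y = y) → ∃ k ∈ K ⊓ Subgroup.centralizer (H : Set G), k • x = y := by
  have hcard : K.index = Nat.card H := hc.symm.index_eq_card
  have hcop' : (Nat.card H).Coprime (Nat.card K) := (hcard ▸ hcop).symm
  have hsol : Group.IsSolvable H ∨ Group.IsSolvable K := by
    refine hsolv.symm.imp (fun h => ?_) id
    have := h
    exact Group.isSolvable_of_isSolvable_injective (f := (hc.symm.QuotientMulEquiv).symm.toMonoidHom)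
      (hc.symm.QuotientMulEquiv).symm.injective
  have hHK : H ≤ Subgroup.normalizer (K : Set G) := by
    rw [Subgroup.normalizer_eq_top]; exact le_top
  constructor
  · obtain ⟨x₀⟩ : Nonempty X := inferInstance
    obtain ⟨k, _, h⟩ := Cfsg.Agent.Lib.Helper30.glauberman_exists hHK hcop' hsol x₀ (by
      intro a _
      obtain ⟨k, hk⟩ := MulAction.exists_smul_eq K x₀ (a • x₀)
      exact ⟨k, k.2, hk.symm⟩)
    exact ⟨k • x₀, h⟩
  · intro x y hx hy
    obtain ⟨k, hk⟩ := MulAction.exists_smul_eq K x y
    have hk' : (k : G) • x = y := hk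
    obtain ⟨c, hc, hcx⟩ := Cfsg.Agent.Lib.Helper30.glauberman_unique hHK hcop' hsol x hx k.2
      (by rw [hk']; exact hy)
    exact ⟨c, hc, hcx.trans hk'⟩

end Cfsg.Agent.S0059
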