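import Cfsg.Statements.S0060
-- import your own Cfsg.Agent.* helpers here
import Cfsg.Agent.Lib.Helper2.Fusion
import Mathlib.Tactic.Group
import Mathlib.Data.Fintype.Lattice

set_option autoImplicit false
open Pointwise
open Cfsg

namespace Cfsg.Agent.S0060

/-- Brodkey's Theorem: in a finite group with abelian Sylow p-subgroups and no nontrivial normal p-subgroup, some conjugate of a Sylow p-subgroup meets it trivially. -/
theorem result {G : Type*} [Group G] [Finite G] (p : ℕ) [Fact p.Prime]
    (S : Sylow p G) (hS : IsMulCommutative S) (hOp : Cfsg.pCore p G = ⊥) :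
    ∃ g : G, (S : Subgroup G) ⊓ MulAut.conj g • (S : Subgroup G) = ⊥ := by
  have hmem : ∀ (h : G) (P : Sylow p G) (z : G),
      z ∈ ((h • P : Sylow p G) : Subgroup G) ↔ h⁻¹ * z * h ∈ (P : Subgroup G) :=
    @Cfsg.Agent.Lib.Helper2.mem_smul_sylow_iff G _ p
  have comm : ∀ (P : Sylow p G), ∀ x ∈ (P : Subgroup G), ∀ y ∈ (P : Subgroup G),
      x * y = y * x := by
    intro P x hx y hy
    obtain ⟨a, rfl⟩ := MulAction.exists_smul_eq G S P
    rw [hmem] at hx hy
    have := congrArg Subtype.val (mul_comm' (⟨_, hx⟩ : S) ⟨_, hy⟩)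
    change (a⁻¹ * x * a) * (a⁻¹ * y * a) = (a⁻¹ * y * a) * (a⁻¹ * x * a) at this
    calc x * y = a * ((a⁻¹ * x * a) * (a⁻¹ * y * a)) * a⁻¹ := by group
      _ = a * ((a⁻¹ * y * a) * (a⁻¹ * x * a)) * a⁻¹ := by rw [this]
      _ = y * x := by group
  obtain ⟨⟨P, Q⟩, hmin⟩ := Finite.exists_min
    (fun PQ : Sylow p G × Sylow p G => Nat.card ((PQ.1 : Subgroup G) ⊓ (PQ.2 : Subgroup G) : Subgroup G))
  simp only [Prod.forall] at hmin
  set D : Subgroup G := (P : Subgroup G) ⊓ (Q : Subgroup G) with hD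
  set N := Subgroup.normalizer (D : Set G) with hN
  have hPN : (P : Subgroup G) ≤ N := by
    intro x hx
    rw [hN, Subgroup.mem_normalizer_iff]
    intro d
    constructor
    · intro hd
      have : x * d * x⁻¹ = d := by rw [comm P x hx d hd.1]; group
      rw [this]; exact hd
    · intro hd
      have hdP : d ∈ (P : Subgroup G) := by
        have := mul_mem (mul_mem (inv_mem hx) hd.1) hx
        simpa [mul_assoc] using this
      have : x * d * x⁻¹ = d := by rw [comm P x hx d hdP]; group
      rw [this] at hd; exact hd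
  have hQN : (Q : Subgroup G) ≤ N := by
    intro x hx
    rw [hN, Subgroup.mem_normalizer_iff]
    intro d
    constructor
    · intro hd
      have : x * d * x⁻¹ = d := by rw [comm Q x hx d hd.2]; group
      rw [this]; exact hd
    · intro hd
      have hdP : d ∈ (Q : Subgroup G) := by
        have := mul_mem (mul_mem (inv_mem hx) hd.2) hx
        simpa [mul_assoc] using this
      have : x * d * x⁻¹ = d := by rw [comm Q x hx d hdP]; group
      rw [this] at hd; exact hd
  have key : ∀ R : Sylow p G, D ≤ R := by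
    intro R
    obtain ⟨c, hc, R', hR1, hR2⟩ := Cfsg.Agent.Lib.Helper2.exists_conj_le_sylow N P
      ((R : Subgroup G) ⊓ N) hPN inf_le_right P.2 (R.2.to_le inf_le_left)
    have hR' : R' = P := Sylow.ext (P.3 R'.2 hR1)
    subst hR'
    have hle : ((c • R : Sylow p G) : Subgroup G) ⊓ (Q : Subgroup G) ≤ D := by
      intro x hx
      have hx1 : c⁻¹ * x * c ∈ (R : Subgroup G) := (hmem c R x).mp hx.1
      have hx2 : c⁻¹ * x * c ∈ N := mul_mem (mul_mem (inv_mem hc) (hQN hx.2)) hc
      have : c * (c⁻¹ * x * c) * c⁻¹ ∈ (R' : Subgroup G) := hR2 _ ⟨hx1, hx2⟩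
      refine Subgroup.mem_inf.mpr ⟨?_, hx.2⟩
      convert this using 1
      group
    have hcard := hmin (c • R) Q
    have heq : ((c • R : Sylow p G) : Subgroup G) ⊓ (Q : Subgroup G) = D :=
      Subgroup.eq_of_le_of_card_ge hle hcard
    intro d hd
    have h1 : c * d * c⁻¹ ∈ D := (Subgroup.mem_normalizer_iff.mp hc d).mp hd
    rw [← heq] at h1
    have := (hmem c R _).mp h1.1
    convert this using 1
    group
  have hDbot : D = ⊥ := by
    set I : Subgroup G := ⨅ R : Sylow p G, (R : Subgroup G) with hI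
    have hIn : I.Normal := by
      constructor
      intro x hx g
      rw [hI, Subgroup.mem_iInf] at hx ⊢
      intro R
      have := hx (g⁻¹ • R)
      have := (hmem g⁻¹ R x).mp this
      simpa using this
    have hIp : IsPGroup p I := S.2.to_le (iInf_le _ S)
    have hIle : I ≤ Cfsg.pCore p G := le_sSup ⟨hIn, hIp⟩
    rw [hOp] at hIle
    exact le_bot_iff.mp ((le_iInf key).trans hIle)
  obtain ⟨a, rfl⟩ := MulAction.exists_smul_eq G S P
  obtain ⟨b, rfl⟩ := MulAction.exists_smul_eq G S Q
  refine ⟨a⁻¹ * b, ?_⟩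
  rw [eq_bot_iff]
  intro x hx
  have hx1 : a * x * a⁻¹ ∈ ((a • S : Sylow p G) : Subgroup G) := by
    rw [hmem]
    convert (Subgroup.mem_inf.mp hx).1 using 1
    group
  have hx2 : a * x * a⁻¹ ∈ ((b • S : Sylow p G) : Subgroup G) := by
    rw [hmem]
    have : x ∈ (((a⁻¹ * b) • S : Sylow p G) : Subgroup G) := hx.2
    rw [hmem] at this
    convert this using 1
    group
  have : a * x * a⁻¹ ∈ D := ⟨hx1, hx2⟩
  rw [hDbot, Subgroup.mem_bot] at this
  rw [Subgroup.mem_bot]
  have h := congrArg (fun z => a⁻¹ * z * a) this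
  simpa [mul_assoc] using h

end Cfsg.Agent.S0060
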