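import Cfsg.Statements.S0063
-- import your own Cfsg.Agent.* helpers here
import Mathlib.GroupTheory.SpecificGroups.Cyclic

set_option autoImplicit false
open Cfsg

namespace Cfsg.Agent.S0063

universe u

lemma aux (p : ℕ) [Fact p.Prime] : ∀ (m : ℕ) (G : Type u) [Group G] [Finite G],
    Nat.card G = p ^ m → 1 < m → Group.nilpotencyClass G ≤ m - 1 := by
  intro m
  induction m using Nat.strong_induction_on with
  | _ m ih =>
    intro G _ _ hG hm
    have hp : p.Prime := Fact.out
    have hpG : IsPGroup p G := IsPGroup.of_card hG
    have hnil : Group.IsNilpotent G := hpG.isNilpotent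
    obtain ⟨k, hk0, hk⟩ := IsPGroup.card_center_eq_prime_pow hG (by omega)
    have hcard := (Subgroup.center G).card_mul_index
    rw [hk, hG] at hcard
    have hkm : k ≤ m := by
      have : p ^ k ∣ p ^ m := ⟨_, hcard.symm⟩
      exact (Nat.pow_dvd_pow_iff_le_right hp.one_lt).mp this
    have hidx : Nat.card (G ⧸ Subgroup.center G) = p ^ (m - k) := by
      have h1 : p ^ m = p ^ k * p ^ (m - k) := by rw [← pow_add]; congr 1; omega
      rw [h1] at hcard
      exact Nat.eq_of_mul_eq_mul_left (pow_pos hp.pos k) hcard
    have hcl := Group.nilpotencyClass_quotient_center (G := G)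
    rcases Nat.lt_or_ge 1 (m - k) with h | h
    · have := ih (m - k) (by omega) (G ⧸ Subgroup.center G) hidx h
      omega
    · have hcyc : IsCyclic (G ⧸ Subgroup.center G) := by
        apply isCyclic_of_card_dvd_prime (p := p)
        rw [hidx]
        calc p ^ (m - k) ∣ p ^ 1 := pow_dvd_pow p h
          _ = p := pow_one p
      have hcomm : IsMulCommutative G := isMulCommutative_of_isCyclic_quotient_center_self G
      have := Group.IsNilpotent.nilpotencyClass_le_one_iff.mpr hcomm
      omega

/-- A finite group of prime-power order p ^ m with m > 1 is nilpotent of class at most m - 1. -/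
theorem result {G : Type*} [Group G] [Finite G] (p m : ℕ) [Fact p.Prime]
    (hG : Nat.card G = p ^ m) (hm : 1 < m) : Group.nilpotencyClass G ≤ m - 1 := by
  exact aux p m G hG hm

end Cfsg.Agent.S0063
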