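import Cfsg.Statements.S0064
-- import your own Cfsg.Agent.* helpers here

set_option autoImplicit false
open Cfsg

namespace Cfsg.Agent.S0064

/-- A finite group is nilpotent exactly when each of its subgroups is subnormal. -/
theorem result {G : Type*} [Group G] [Finite G] :
    Group.IsNilpotent G ↔ ∀ H : Subgroup G, H.IsSubnormal := by
  constructor
  · intro hG H
    have hnc : NormalizerCondition G := Group.normalizerCondition_of_isNilpotent
    induction H using WellFoundedGT.induction with
    | ind H ih =>
      by_cases hH : H = ⊤
      · subst hH; exact Subgroup.IsSubnormal.top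
      · have hlt : H < Subgroup.normalizer (H : Set G) := hnc H (lt_top_iff_ne_top.mpr hH)
        exact Subgroup.IsSubnormal.step H _ hlt.le (ih _ hlt)
          (Subgroup.normal_subgroupOf_of_le_normalizer le_rfl)
  · intro h
    have key : Group.IsNilpotent G ↔ NormalizerCondition G :=
      (Group.isNilpotent_of_finite_tfae (G := G)).out 0 1
    rw [key]
    intro H hH
    rcases Subgroup.IsSubnormal.iff_eq_top_or_exists.mp (h H) with rfl | ⟨K, hHK, -, hN⟩
    · exact absurd rfl hH.ne
    · exact lt_of_lt_of_le hHK ((Subgroup.normal_subgroupOf_iff_le_normalizer hHK.le).mp hN)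

end Cfsg.Agent.S0064
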