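import Cfsg.Statements.S0065
-- import your own Cfsg.Agent.* helpers here

set_option autoImplicit false
open Cfsg

namespace Cfsg.Agent.S0065

/-- A nontrivial normal subgroup of a nilpotent group intersects the centre nontrivially. -/
theorem result {G : Type*} [Group G] [Finite G] [Group.IsNilpotent G]
    (N : Subgroup G) [N.Normal] (hN : N ≠ ⊥) : N ⊓ Subgroup.center G ≠ ⊥ := by
  let f : ℕ → Subgroup G := fun n => Nat.rec (motive := fun _ => Subgroup G) N (fun _ K => ⁅K, (⊤ : Subgroup G)⁆) n
  have f0 : f 0 = N := rfl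
  have fs : ∀ n, f (n + 1) = ⁅f n, (⊤ : Subgroup G)⁆ := fun n => rfl
  have hfN : ∀ n, f n ≤ N := by
    intro n
    induction n with
    | zero => exact le_rfl
    | succ n ih =>
      rw [fs]
      exact (Subgroup.commutator_mono ih le_rfl).trans (Subgroup.commutator_le_left N ⊤)
  have hfl : ∀ n, f n ≤ (⊤ : Subgroup G).lowerCentralSeries n := by
    intro n
    induction n with
    | zero => exact le_top
    | succ n ih =>
      rw [fs, Subgroup.lowerCentralSeries_succ]
      exact Subgroup.commutator_mono ih le_rfl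
  obtain ⟨n, hn⟩ := Subgroup.nilpotent_iff_lowerCentralSeries.mp (inferInstance : Group.IsNilpotent G)
  have hex : f n = ⊥ := le_bot_iff.mp (hn ▸ hfl n)
  have key : ∀ n, f n = ⊥ → ∃ m, f m ≠ ⊥ ∧ f (m + 1) = ⊥ := by
    intro n
    induction n with
    | zero => intro h; exact absurd h hN
    | succ n ih =>
      intro h
      by_cases hn : f n = ⊥
      · exact ih hn
      · exact ⟨n, hn, h⟩
  obtain ⟨m, hmne, hfind⟩ := key n hex
  have hmc : f m ≤ Subgroup.center G := by
    rw [fs, Subgroup.commutator_eq_bot_iff_le_centralizer] at hfind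
    simpa [Subgroup.centralizer_univ] using hfind
  intro hbot
  exact hmne (le_bot_iff.mp (hbot ▸ le_inf (hfN m) hmc))

end Cfsg.Agent.S0065
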