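import Cfsg.Statements.S0068
-- import your own Cfsg.Agent.* helpers here
import Mathlib.GroupTheory.FixedPointFree
import Mathlib.GroupTheory.Perm.Cycle.Type

set_option autoImplicit false
open Cfsg

namespace Cfsg.Agent.S0068

/-- Frobenius complements of even order: if H complements a nontrivial normal subgroup K, each nonidentity element of H has trivial centraliser in K, and H has even order, then H contains a unique involution s, K is abelian, and s inverts every element of K. -/
theorem result {G : Type*} [Group G] [Finite G] (K H : Subgroup G) [K.Normal]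
    (hc : Subgroup.IsComplement' K H) (hK : K ≠ ⊥) (hfpf : ∀ h ∈ H, h ≠ 1 → K ⊓ Subgroup.centralizer {h} = ⊥)
    (heven : 2 ∣ Nat.card H) :
    (∃ s ∈ H, orderOf s = 2 ∧ (∀ t ∈ H, orderOf t = 2 → t = s) ∧ ∀ k ∈ K, s * k * s⁻¹ = k⁻¹) ∧ IsMulCommutative K := by
  have key : ∀ t ∈ H, orderOf t = 2 →
      (∀ k ∈ K, t * k * t⁻¹ = k⁻¹) ∧ IsMulCommutative K := by
    intro t ht ht2
    have ht1 : t ≠ 1 := by
      rintro rfl
      simp at ht2
    have htt : t * t = 1 := by
      have := pow_orderOf_eq_one t
      rwa [ht2, pow_two] at this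
    have htinv : t⁻¹ = t := inv_eq_of_mul_eq_one_left htt
    let φ : MulAut K := MulAut.conjNormal t
    have hφ : ∀ k : K, ((φ k : K) : G) = t * k * t⁻¹ := fun k => MulAut.conjNormal_apply t k
    have hfp : MonoidHom.FixedPointFree φ := by
      intro k hk
      have h1 : t * k * t⁻¹ = k := by rw [← hφ, hk]
      have h2 : (k : G) ∈ K ⊓ Subgroup.centralizer {t} := by
        refine Subgroup.mem_inf.mpr ⟨k.2, ?_⟩
        rw [Subgroup.mem_centralizer_singleton_iff]
        calc (k : G) * t = (t * k * t⁻¹) * t := by rw [h1]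
          _ = t * k := by group
      rw [hfpf t ht ht1, Subgroup.mem_bot] at h2
      exact Subtype.ext h2
    have hinv : Function.Involutive φ := by
      intro k
      apply Subtype.ext
      rw [hφ, hφ, htinv]
      calc t * (t * k * t) * t = (t * t) * k * (t * t) := by group
        _ = k := by rw [htt]; group
    constructor
    · intro k hk
      have := congrFun (hfp.coe_eq_inv_of_involutive hinv) ⟨k, hk⟩
      have h3 := congrArg Subtype.val this
      rw [hφ] at h3
      simpa using h3
    · exact ⟨⟨fun a b => hfp.commute_all_of_involutive hinv a b⟩⟩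
  have : Fact (Nat.Prime 2) := ⟨Nat.prime_two⟩
  obtain ⟨⟨s, hsH⟩, hs⟩ := exists_prime_orderOf_dvd_card' (G := H) 2 heven
  have hs2 : orderOf (s : G) = 2 := by rwa [← Subgroup.orderOf_coe] at hs
  refine ⟨⟨s, hsH, hs2, ?_, (key s hsH hs2).1⟩, (key s hsH hs2).2⟩
  intro t ht ht2
  by_contra hne
  have hts : t * (s : G) ≠ 1 := by
    intro h
    apply hne
    have hss : (s : G) * s = 1 := by
      have := pow_orderOf_eq_one (s : G)
      rwa [hs2, pow_two] at this
    calc t = t * (s * s) := by rw [hss, mul_one]
      _ = (t * s) * s := by group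
      _ = s := by rw [h, one_mul]
  apply hK
  rw [eq_bot_iff, ← hfpf (t * s) (H.mul_mem ht hsH) hts]
  refine le_inf le_rfl ?_
  intro k hk
  rw [Subgroup.mem_centralizer_singleton_iff]
  have h1 := (key s hsH hs2).1 k hk
  have h2 := (key t ht ht2).1 k⁻¹ (K.inv_mem hk)
  rw [inv_inv] at h2
  calc k * (t * s) = (t * k⁻¹ * t⁻¹) * (t * s) := by rw [h2]
    _ = t * (k⁻¹ * s) := by group
    _ = t * ((s * k * s⁻¹) * s) := by rw [h1]
    _ = t * s * k := by group

end Cfsg.Agent.S0068
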