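import Cfsg.Statements.S0069
-- import your own Cfsg.Agent.* helpers here
import Cfsg.Agent.S0040
import Cfsg.Agent.S0056
import Cfsg.Agent.S0068

set_option autoImplicit false
open Cfsg

namespace Cfsg.Agent.S0069

open Cfsg.Agent.Lib.Helper1

lemma conj_mem_zpowers {X : Type*} [Group X] [Finite X] (D : Subgroup X) [D.Normal] [IsCyclic D]
    {v : X} (hv : v ∈ D) (g : X) : g * v * g⁻¹ ∈ Subgroup.zpowers v := by
  have hw : g * v * g⁻¹ ∈ D := ‹D.Normal›.conj_mem v hv g
  have hord : orderOf (g * v * g⁻¹) = orderOf v := by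
    have := orderOf_injective (MulAut.conj g).toMonoidHom (MulAut.conj g).injective v
    simpa using this
  have h1 : Subgroup.zpowers (⟨g * v * g⁻¹, hw⟩ : D) = Subgroup.zpowers (⟨v, hv⟩ : D) := by
    apply eq_of_card_eq_of_isCyclic
    rw [Nat.card_zpowers, Nat.card_zpowers, ← Subgroup.orderOf_coe, ← Subgroup.orderOf_coe]
    exact hord
  have h2 : (⟨g * v * g⁻¹, hw⟩ : D) ∈ Subgroup.zpowers (⟨v, hv⟩ : D) := by
    rw [← h1]; exact Subgroup.mem_zpowers _
  obtain ⟨k, hk⟩ := Subgroup.mem_zpowers_iff.mp h2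
  refine Subgroup.mem_zpowers_iff.mpr ⟨k, ?_⟩
  have := congrArg (Subtype.val : D → X) hk
  simpa using this

lemma zpowers_normal {X : Type*} [Group X] [Finite X] (D : Subgroup X) [D.Normal] [IsCyclic D]
    {v : X} (hv : v ∈ D) : (Subgroup.zpowers v).Normal := by
  constructor
  intro x hx g
  obtain ⟨k, rfl⟩ := Subgroup.mem_zpowers_iff.mp hx
  rw [← conj_zpow]
  exact Subgroup.zpow_mem _ (conj_mem_zpowers D hv g) k

/-- A nontrivial finite Z-group in which all subgroups of order `pq` are cyclic has nontrivial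
centre. -/
lemma center_ne_bot_of_isZGroup {X : Type*} [Group X] [Finite X] [Nontrivial X] [IsZGroup X]
    (hpq : ∀ (T : Subgroup X) (p q : ℕ), p.Prime → q.Prime → Nat.card T = p * q → IsCyclic T) :
    Subgroup.center X ≠ ⊥ := by
  by_cases hD : commutator X = ⊥
  · have h1 : (⊤ : Subgroup X) ≤ Subgroup.center X :=
      Subgroup.commutator_top_right_eq_bot_iff_le_center.mp hD
    rw [top_le_iff.mp h1]
    exact top_ne_bot
  have hcop := IsZGroup.coprime_commutator_index X
  obtain ⟨B, hB⟩ := Subgroup.exists_right_complement'_of_coprime hcop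
  have hcyc : IsCyclic (commutator X) := IsZGroup.isCyclic_commutator X
  have hcardB : Nat.card B = (commutator X).index := hB.symm.index_eq_card.symm
  have hBne : Nat.card B ≠ 1 := by
    rw [hcardB]
    intro h1
    exact (IsZGroup.commutator_lt (G := X)).ne (Subgroup.index_eq_one.mp h1)
  have hBcomm : ∀ b1 ∈ B, ∀ b2 ∈ B, b1 * b2 = b2 * b1 := by
    intro b1 h1 b2 h2
    have h3 : b1 * b2 * b1⁻¹ * b2⁻¹ ∈ commutator X ⊓ B := by
      refine Subgroup.mem_inf.mpr ⟨?_, ?_⟩
      · exact Subgroup.commutator_mem_commutator (Subgroup.mem_top b1) (Subgroup.mem_top b2)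
      · exact B.mul_mem (B.mul_mem (B.mul_mem h1 h2) (B.inv_mem h1)) (B.inv_mem h2)
    rw [hB.disjoint.eq_bot, Subgroup.mem_bot] at h3
    have : b1 * b2 = (b1 * b2 * b1⁻¹ * b2⁻¹) * (b2 * b1) := by group
    rw [this, h3, one_mul]
  have hq : (Nat.card B).minFac.Prime := Nat.minFac_prime hBne
  set q := (Nat.card B).minFac with hqdef
  have : Fact q.Prime := ⟨hq⟩
  obtain ⟨b0, hb0⟩ := exists_prime_orderOf_dvd_card' (G := B) q (Nat.minFac_dvd _)
  have hb0' : orderOf (b0 : X) = q := by rw [Subgroup.orderOf_coe]; exact hb0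
  have hqD : (Nat.card (Subgroup.zpowers (b0 : X))).Coprime (Nat.card (commutator X)) := by
    rw [Nat.card_zpowers, hb0']
    have h1 : q ∣ (commutator X).index := hcardB ▸ Nat.minFac_dvd _
    exact (Nat.Coprime.coprime_dvd_right h1 hcop).symm
  have hcomm : IsMulCommutative (commutator X) := ⟨⟨IsCyclic.commGroup.mul_comm⟩⟩
  have hcent : Subgroup.zpowers (b0 : X) ≤ Subgroup.centralizer (commutator X : Set X) := by
    apply Cfsg.Agent.S0056.result (Subgroup.zpowers (b0 : X)) (commutator X)
    · rw [Subgroup.normalizer_eq_top]; exact le_top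
    · exact hqD
    · intro v hv hvp a ha
      have hn : (Subgroup.zpowers v).Normal := zpowers_normal (commutator X) hv
      have hle : Subgroup.zpowers v ≤ commutator X := by
        rw [Subgroup.zpowers_le]; exact hv
      have hc : (Nat.card (Subgroup.zpowers (b0 : X))).Coprime (Nat.card (Subgroup.zpowers v)) :=
        Nat.Coprime.coprime_dvd_right (Subgroup.card_dvd_of_le hle) hqD
      have hcard := card_sup_of_coprime_normal (Subgroup.zpowers (b0 : X)) (Subgroup.zpowers v) hc
      rw [Nat.card_zpowers, Nat.card_zpowers, hb0'] at hcard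
      have hT := hpq _ q (orderOf v) hq hvp hcard
      have haT : a ∈ Subgroup.zpowers (b0 : X) ⊔ Subgroup.zpowers v := Subgroup.mem_sup_left ha
      have hvT : v ∈ Subgroup.zpowers (b0 : X) ⊔ Subgroup.zpowers v :=
        Subgroup.mem_sup_right (Subgroup.mem_zpowers v)
      have := IsCyclic.commGroup.mul_comm
        (⟨a, haT⟩ : (Subgroup.zpowers (b0 : X) ⊔ Subgroup.zpowers v : Subgroup X)) ⟨v, hvT⟩
      exact congrArg Subtype.val this
  have hb0c : (b0 : X) ∈ Subgroup.center X := by
    rw [Subgroup.mem_center_iff]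
    intro x
    obtain ⟨⟨d, b⟩, rfl⟩ := hB.2 x
    have h1 : (d : X) * b0 = b0 * d :=
      (Subgroup.mem_centralizer_iff.mp (hcent (Subgroup.mem_zpowers _)) d d.2)
    have h2 : (b : X) * b0 = b0 * b := hBcomm _ b.2 _ b0.2
    change (d : X) * b * b0 = b0 * (d * b)
    rw [mul_assoc, h2, ← mul_assoc, h1, mul_assoc]
  intro hbot
  rw [hbot, Subgroup.mem_bot] at hb0c
  rw [hb0c, orderOf_one] at hb0'
  exact hq.one_lt.ne hb0'

/-- A Frobenius complement has nontrivial centre: if H ≠ 1 complements a nontrivial normal subgroup K and every nonidentity element of H has trivial centraliser in K, then the centre of H is nontrivial. -/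
theorem result {G : Type*} [Group G] [Finite G] (K H : Subgroup G) [K.Normal]
    (hc : Subgroup.IsComplement' K H) (hK : K ≠ ⊥) (hH : H ≠ ⊥) (hfpf : ∀ h ∈ H, h ≠ 1 → K ⊓ Subgroup.centralizer {h} = ⊥) :
    Subgroup.center H ≠ ⊥ := by
  have hHnt : Nontrivial H := (Subgroup.nontrivial_iff_ne_bot H).mpr hH
  by_cases heven : 2 ∣ Nat.card H
  · obtain ⟨⟨s, hs, hs2, huniq, -⟩, -⟩ := Cfsg.Agent.S0068.result K H hc hK hfpf heven
    intro hbot
    have hsc : (⟨s, hs⟩ : H) ∈ Subgroup.center H := by
      rw [Subgroup.mem_center_iff]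
      intro g
      have h1 : (g : G) * s * (g : G)⁻¹ = s := by
        apply huniq _ (H.mul_mem (H.mul_mem g.2 hs) (H.inv_mem g.2))
        have := orderOf_injective (MulAut.conj (g : G)).toMonoidHom (MulAut.conj (g : G)).injective s
        rw [← hs2]
        simpa using this
      apply Subtype.ext
      change (g : G) * s = s * g
      calc (g : G) * s = ((g : G) * s * (g : G)⁻¹) * g := by group
        _ = s * g := by rw [h1]
    rw [hbot, Subgroup.mem_bot] at hsc
    have : s = 1 := congrArg Subtype.val hsc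
    rw [this, orderOf_one] at hs2
    omega
  · have hZ : IsZGroup H := by
      constructor
      intro p hp P
      have : Fact p.Prime := ⟨hp⟩
      rcases Cfsg.Agent.S0040.result K H hc hK hfpf p P with h1 | ⟨n, ⟨e⟩⟩
      · exact h1
      · exfalso
        apply heven
        have h2 : Nat.card (P : Subgroup H) = 4 * 2 ^ n := by
          rw [Nat.card_congr e.toEquiv, Nat.card_eq_fintype_card, QuaternionGroup.card]
        have h3 : Nat.card (P : Subgroup H) ∣ Nat.card H := Subgroup.card_subgroup_dvd_card _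
        rw [h2] at h3
        exact (Dvd.intro _ (by ring : 2 * (2 * 2 ^ n) = 4 * 2 ^ n)).trans h3
    have hHK : H ≤ Subgroup.normalizer (K : Set G) := by
      rw [Subgroup.normalizer_eq_top]; exact le_top
    obtain ⟨V, -, hV, hVc, hHV, hVf⟩ := fpf_exists_invariant_abelian H K hHK hK hfpf
      (Or.inl inferInstance)
    apply center_ne_bot_of_isZGroup
    intro T p q hp hq hT
    have hTle : T.map H.subtype ≤ H := Subgroup.map_subtype_le T
    have hcyc : IsCyclic (T.map H.subtype) := by
      apply fpf_isCyclic_subgroup (T.map H.subtype) V hV (hTle.trans hHV)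
        (fun a ha => hVf a (hTle ha))
      right
      exact ⟨p, q, hp, hq, by rw [Subgroup.card_map_of_injective H.subtype_injective, hT]⟩
    exact (T.equivMapOfInjective H.subtype H.subtype_injective).isCyclic.mpr hcyc

end Cfsg.Agent.S0069
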