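import Cfsg.Statements.S0070
-- import your own Cfsg.Agent.* helpers here
import Cfsg.Agent.Lib.Helper2.FrattiniNil

set_option autoImplicit false
open Cfsg

namespace Cfsg.Agent.S0070

/-- The Fitting subgroup commutes with passing to the Frattini quotient: the Fitting subgroup of G modulo its Frattini subgroup is the image of the Fitting subgroup of G. -/
theorem result {G : Type*} [Group G] [Finite G] :
    Cfsg.fittingSubgroup (G ⧸ frattini G) = (Cfsg.fittingSubgroup G).map (QuotientGroup.mk' (frattini G)) := by
  set f := QuotientGroup.mk' (frattini G) with hfdef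
  have hf : Function.Surjective f := QuotientGroup.mk'_surjective _
  apply le_antisymm
  · unfold Cfsg.fittingSubgroup
    apply sSup_le
    rintro Mbar ⟨hMn, hMnil⟩
    set M := Mbar.comap f with hM
    have hMnorm : M.Normal := hMn.comap f
    have hmap : M.map f = Mbar := Subgroup.map_comap_eq_self_of_surjective hf Mbar
    have hΦ : frattini G ≤ M := by
      have : f.ker ≤ M := Subgroup.ker_le_comap f Mbar
      rwa [QuotientGroup.ker_mk'] at this
    have hnil : Group.IsNilpotent M :=
      Cfsg.Agent.Lib.Helper2.isNilpotent_of_map_mk_frattini M hΦ (by rw [← hfdef, hmap]; exact hMnil)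
    rw [← hmap]
    exact Subgroup.map_mono (le_sSup ⟨hMnorm, hnil⟩)
  · rw [Subgroup.map_le_iff_le_comap]
    unfold Cfsg.fittingSubgroup
    apply sSup_le
    rintro N ⟨hNn, hNnil⟩
    rw [← Subgroup.map_le_iff_le_comap]
    apply le_sSup
    refine ⟨hNn.map f hf, ?_⟩
    exact Group.nilpotent_of_surjective (f.subgroupMap N) (f.subgroupMap_surjective N)

end Cfsg.Agent.S0070
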