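import Cfsg.Statements.S0073
-- import your own Cfsg.Agent.* helpers here
import Cfsg.Agent.Lib.Helper2.SmallSylow
import Mathlib.GroupTheory.Transfer
import Mathlib.GroupTheory.SpecificGroups.Cyclic
import Mathlib.Tactic

set_option autoImplicit false
open Cfsg

namespace Cfsg.Agent.S0073

/-- For a finite non-abelian simple group, either the cube of the least prime divisor of the order divides the order, or 12 does. -/
theorem result {G : Type*} [Group G] [Finite G] [IsSimpleGroup G] (hG : ∃ x y : G, x * y ≠ y * x) : (Nat.card G).minFac ^ 3 ∣ Nat.card G ∨ 12 ∣ Nat.card G := by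
  have hne : Nat.card G ≠ 1 := by
    intro h
    have := (Nat.card_eq_one_iff_unique.mp h).1
    obtain ⟨x, y, hxy⟩ := hG
    exact hxy (Subsingleton.elim _ _)
  set p := (Nat.card G).minFac with hpdef
  have hp : p.Prime := Nat.minFac_prime hne
  have : Fact p.Prime := ⟨hp⟩
  have hpG : p ∣ Nat.card G := Nat.minFac_dvd _
  obtain ⟨P⟩ : Nonempty (Sylow p G) := inferInstance
  obtain ⟨k, hk⟩ := P.2.exists_card_eq
  have hPG : Nat.card P ∣ Nat.card G := (P : Subgroup G).card_subgroup_dvd_card
  have contra : ∀ K : Subgroup G, K.Normal → K.IsComplement' (P : Subgroup G) →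
      IsMulCommutative (P : Subgroup G) → False := by
    intro K hK hc hcomm
    rcases hK.eq_bot_or_eq_top with rfl | rfl
    · have hPtop : (P : Subgroup G) = ⊤ := Subgroup.isComplement'_bot_left.mp hc
      obtain ⟨x, y, hxy⟩ := hG
      apply hxy
      have hx : x ∈ (P : Subgroup G) := by rw [hPtop]; trivial
      have hy : y ∈ (P : Subgroup G) := by rw [hPtop]; trivial
      exact congrArg Subtype.val (mul_comm' (⟨x, hx⟩ : (P : Subgroup G)) ⟨y, hy⟩)
    · exact P.ne_bot_of_dvd_card hpG (Subgroup.isComplement'_top_left.mp hc)
  by_cases hk3 : 3 ≤ k
  · left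
    exact (pow_dvd_pow p hk3).trans (hk ▸ hPG)
  · right
    by_cases hk1 : k ≤ 1
    · exfalso
      have hcyc : IsCyclic (P : Subgroup G) := by
        apply isCyclic_of_card_dvd_prime (p := p)
        rw [hk]
        calc p ^ k ∣ p ^ 1 := pow_dvd_pow p hk1
          _ = p := pow_one p
      exact contra _ inferInstance (IsCyclic.isComplement' hpdef.symm hcyc) inferInstance
    · have hk2 : k = 2 := by omega
      subst hk2
      have hcomm : IsMulCommutative (P : Subgroup G) :=
        IsPGroup.isMulCommutative_of_card_eq_prime_sq hk
      rcases Cfsg.Agent.Lib.Helper2.normalizer_le_centralizer_or_exists_prime P hcomm hk with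
        h | ⟨r, hr, hrG, hrp, h⟩
      · exact (contra _ inferInstance (MonoidHom.ker_transferSylow_isComplement' P h) hcomm).elim
      · have hpr : p < r := lt_of_le_of_ne (Nat.minFac_le_of_dvd hr.two_le hrG) (Ne.symm hrp)
        have hp1 : ¬ r ∣ p - 1 := by
          intro hd
          have := Nat.le_of_dvd (by have := hp.two_le; omega) hd
          omega
        have hp0 : ¬ r ∣ p := by
          intro hd
          have := Nat.le_of_dvd hp.pos hd
          omega
        rcases h with h | h
        · have e : p ^ 2 - 1 = (p - 1) * (p + 1) := by
            obtain ⟨q, hq⟩ : ∃ q, p = q + 1 := ⟨p - 1, by have := hp.pos; omega⟩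
            rw [hq]
            simp only [Nat.add_sub_cancel]
            have : (q + 1) ^ 2 = q * (q + 1 + 1) + 1 := by ring
            omega
          rw [e, hr.dvd_mul] at h
          rcases h with h | h
          · exact absurd h hp1
          · have hle := Nat.le_of_dvd (by omega) h
            have hr' : r = p + 1 := by omega
            have hp2 : p = 2 := by
              rcases hp.eq_two_or_odd with h2 | hodd
              · exact h2
              · exfalso
                rcases hr.eq_two_or_odd with h2 | hodd'
                · have := hp.two_le; omega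
                · omega
            have hr3 : r = 3 := by omega
            have h4 : 4 ∣ Nat.card G := by
              have := hk ▸ hPG
              rw [hp2] at this
              simpa using this
            have h3 : 3 ∣ Nat.card G := hr3 ▸ hrG
            have : 4 * 3 ∣ Nat.card G := Nat.Coprime.mul_dvd_of_dvd_of_dvd (by norm_num) h4 h3
            simpa using this
        · have e : p ^ 2 - p = p * (p - 1) := by
            rw [Nat.mul_sub, mul_one, pow_two]
          rw [e, hr.dvd_mul] at h
          rcases h with h | h
          · exact absurd h hp0
          · exact absurd h hp1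

end Cfsg.Agent.S0073
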