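import Cfsg.Statements.S0075
-- import your own Cfsg.Agent.* helpers here
import Cfsg.Agent.Lib.Helper2.PResidual
import Mathlib.GroupTheory.Focal

set_option autoImplicit false
open Cfsg

namespace Cfsg.Agent.S0075

open Cfsg.Agent.Lib.Helper2

lemma pResidual_le_ker {G H : Type*} [Group G] [Group H] {p : ℕ} (f : G →* H)
    (hH : IsPGroup p H) : Cfsg.pResidual p G ≤ f.ker := by
  unfold Cfsg.pResidual
  rw [Subgroup.closure_le]
  intro x hx
  have hx' : Nat.Coprime (orderOf x) p := hx
  obtain ⟨k, hk⟩ := hH (f x)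
  have h1 : orderOf (f x) ∣ p ^ k := orderOf_dvd_of_pow_eq_one hk
  have h2 : orderOf (f x) ∣ orderOf x := orderOf_map_dvd f x
  have h3 : orderOf (f x) = 1 := Nat.eq_one_of_dvd_coprimes (Nat.Coprime.pow_right k hx') h2 h1
  exact orderOf_eq_one_iff.mp h3

open scoped commutatorElement in
lemma main {G : Type*} [Group G] [Finite G] {p : ℕ} [Fact p.Prime] (T : Sylow p G)
    (hT : IsMulCommutative T) :
    (T : Subgroup G) ⊓ Cfsg.pResidual p G = ⁅(T : Subgroup G), Subgroup.normalizer (T : Set G)⁆ := by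
  have comm : ∀ x ∈ (T : Subgroup G), ∀ y ∈ (T : Subgroup G), x * y = y * x := by
    intro x hx y hy
    exact congrArg Subtype.val (mul_comm' (⟨x, hx⟩ : T) ⟨y, hy⟩)
  apply le_antisymm
  · have h1 : Cfsg.pResidual p G ≤ (T : Subgroup G).transferFocal.ker :=
      pResidual_le_ker _ (T.2.to_quotient _)
    have h2 : (T : Subgroup G) ⊓ Cfsg.pResidual p G ≤ (T : Subgroup G).focalSubgroup := by
      rw [← Subgroup.ker_transferFocal_inf_eq_focalSubgroup, inf_comm]
      exact inf_le_inf_right _ h1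
    refine h2.trans ?_
    rw [Subgroup.focalSubgroup_def, Subgroup.closure_le]
    rintro g ⟨hgP, x, hx, u, rfl⟩
    have hy : u * x * u⁻¹ ∈ T := by
      have : u * x * u⁻¹ = (x⁻¹ * ⁅x, u⁆)⁻¹ := by
        rw [commutatorElement_def]; group
      rw [this]
      exact inv_mem (mul_mem (inv_mem hx) hgP)
    obtain ⟨n, hn, hnx⟩ := T.conj_eq_normalizer_conj_of_mem x u⁻¹ hx (by simpa using hy)
    have : ⁅x, u⁆ = ⁅x, n⁻¹⁆ := by
      rw [commutatorElement_def, commutatorElement_def]
      calc x * u * x⁻¹ * u⁻¹ = x * (u⁻¹⁻¹ * x * u⁻¹)⁻¹ := by group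
        _ = x * (n⁻¹ * x * n)⁻¹ := by rw [hnx]
        _ = _ := by group
    rw [SetLike.mem_coe, this]
    exact Subgroup.commutator_mem_commutator hx (inv_mem hn)
  · rw [Subgroup.commutator_le]
    intro t ht n hn
    refine Subgroup.mem_inf.mpr ⟨?_, ?_⟩
    · rw [commutatorElement_def]
      have h1 : n * t⁻¹ * n⁻¹ ∈ (T : Subgroup G) :=
        (Subgroup.mem_normalizer_iff.mp hn _).mp (inv_mem ht)
      have : t * n * t⁻¹ * n⁻¹ = t * (n * t⁻¹ * n⁻¹) := by group
      rw [this]
      exact mul_mem ht h1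
    · obtain ⟨w, hw, y, hy, rfl⟩ := exists_mul_of_sylow_pResidual T n
      rw [commutatorElement_def]
      have h1 : y * t⁻¹ * y⁻¹ = t⁻¹ := by
        rw [comm y hy t⁻¹ (inv_mem ht)]; group
      have : t * (w * y) * t⁻¹ * (w * y)⁻¹ = (t * w * t⁻¹) * w⁻¹ := by
        calc t * (w * y) * t⁻¹ * (w * y)⁻¹ = t * w * (y * t⁻¹ * y⁻¹) * w⁻¹ := by group
          _ = (t * w * t⁻¹) * w⁻¹ := by rw [h1]
      rw [this]
      exact mul_mem ((pResidual_normal p).conj_mem w hw t) (inv_mem hw)

/-- For an abelian Sylow p-subgroup T, its intersection with the subgroup generated by the elements of order prime to p is the commutator of T with its normalizer. -/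
theorem result {G : Type*} [Group G] [Finite G] {p : ℕ} [Fact p.Prime] (T : Sylow p G) (hT : IsMulCommutative T) : (T : Subgroup G) ⊓ Cfsg.pResidual p G = ⁅(T : Subgroup G), Subgroup.normalizer (T : Set G)⁆ := by
  exact main T hT

end Cfsg.Agent.S0075
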