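import Cfsg.Statements.S0076
-- import your own Cfsg.Agent.* helpers here
import Cfsg.Agent.Lib.Helper2.Fusion

set_option autoImplicit false
open Cfsg

namespace Cfsg.Agent.S0076

lemma mem_normalizer_iff_image {G : Type*} [Group G] (Y : Set G) (a : G) :
    a ∈ Subgroup.normalizer Y ↔ (fun y => a * y * a⁻¹) '' Y = Y :=
  Subgroup.mem_normalizer_iff_conj_image_eq

/-- Two P-invariant subsets of a Sylow p-subgroup P that are conjugate in G are conjugate under the normalizer of P. -/
theorem result {G : Type*} [Group G] [Finite G] {p : ℕ} [Fact p.Prime] (P : Sylow p G) (X Y : Set G) (hXP : X ⊆ P) (hYP : Y ⊆ P) (hX : ∀ x ∈ P, (fun y => x * y * x⁻¹) '' X = X) (hY : ∀ x ∈ P, (fun y => x * y * x⁻¹) '' Y = Y) (g : G) (hg : (fun y => g * y * g⁻¹) '' X = Y) : ∃ n ∈ Subgroup.normalizer (P : Set G), (fun y => n * y * n⁻¹) '' X = Y := by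
  have h1 : (P : Subgroup G) ≤ Subgroup.normalizer Y := by
    intro x hx
    rw [mem_normalizer_iff_image]
    exact hY x hx
  have h2 : ↑(g • P) ≤ Subgroup.normalizer Y := by
    intro z hz
    rw [mem_normalizer_iff_image]
    have hz' : g⁻¹ * z * g ∈ P := (Cfsg.Agent.Lib.Helper2.mem_smul_sylow_iff g P z).mp hz
    have hx := hX _ hz'
    rw [← hg, Set.image_image]
    conv_rhs => rw [← hx, Set.image_image]
    apply Set.image_congr
    intro y _
    group
  obtain ⟨h, hh⟩ :=
    MulAction.exists_smul_eq (Subgroup.normalizer Y) ((g • P).subtype h2) (P.subtype h1)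
  simp_rw [Sylow.smul_subtype, Subgroup.smul_def, smul_smul] at hh
  refine ⟨h * g, Sylow.smul_eq_iff_mem_normalizer.mp (Sylow.subtype_injective hh), ?_⟩
  have hhY := (mem_normalizer_iff_image Y h).mp h.2
  obtain ⟨h, hhmem⟩ := h
  simp only at hhY ⊢
  calc (fun y => h * g * y * (h * g)⁻¹) '' X
      = (fun y => h * y * h⁻¹) '' ((fun y => g * y * g⁻¹) '' X) := by
        rw [Set.image_image]
        apply Set.image_congr
        intro y _
        group
    _ = Y := by rw [hg, hhY]

end Cfsg.Agent.S0076
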