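import Cfsg.Statements.S0079
-- import your own Cfsg.Agent.* helpers here
import Cfsg.Agent.Lib.Helper2.Hyperfocal
import Mathlib.Tactic

set_option autoImplicit false
open Cfsg

namespace Cfsg.Agent.S0079

open Cfsg.Agent.Lib.Helper2 Subgroup

lemma eq_top_of_forall_sylow_le {H : Type*} [Group H] [Finite H] (D : Subgroup H)
    (h : ∀ (q : ℕ) [Fact q.Prime], ∃ S : Sylow q H, (S : Subgroup H) ≤ D) : D = ⊤ := by
  rw [← index_eq_one, Nat.eq_one_iff_not_exists_prime_dvd]
  intro q hq hd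
  have : Fact q.Prime := ⟨hq⟩
  obtain ⟨S, hS⟩ := h q
  exact S.not_dvd_index (hd.trans (index_dvd_of_le hS))

lemma nilpotent_centralizer_sup_sylow {H : Type*} [Group H] [Finite H] [Group.IsNilpotent H]
    {p : ℕ} [Fact p.Prime] (P : Sylow p H) :
    centralizer ((P : Subgroup H) : Set H) ⊔ (P : Subgroup H) = ⊤ := by
  apply eq_top_of_forall_sylow_le
  intro q _
  by_cases hqp : q = p
  · subst hqp
    exact ⟨P, le_sup_right⟩
  · obtain ⟨S⟩ : Nonempty (Sylow q H) := inferInstance
    refine ⟨S, le_trans ?_ le_sup_left⟩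
    rw [← commutator_eq_bot_iff_le_centralizer]
    apply commutator_eq_bot_of_disjoint
    apply disjoint_of_coprime_natCard
    obtain ⟨k, hk⟩ := P.2.exists_card_eq
    obtain ⟨j, hj⟩ := S.2.exists_card_eq
    rw [hk, hj]
    exact Nat.Coprime.pow _ _ ((Nat.coprime_primes Fact.out Fact.out).mpr hqp)

lemma forward {G : Type*} [Group G] (H N : Subgroup G) [hN : N.Normal] (hc : N.IsComplement' H)
    (x y g : G) (hx : x ∈ H) (hy : y ∈ H) (hg : g * x * g⁻¹ = y) : ∃ h ∈ H, h * x * h⁻¹ = y := by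
  have hg' : g ∈ (N ⊔ H : Subgroup G) := by rw [hc.sup_eq_top]; trivial
  rw [← SetLike.mem_coe, normal_mul] at hg'
  obtain ⟨n, hn, h, hh, rfl⟩ := hg'
  refine ⟨h, hh, ?_⟩
  have hx' : h * x * h⁻¹ ∈ H := mul_mem (mul_mem hh hx) (inv_mem hh)
  have h1 : y * (h * x * h⁻¹)⁻¹ ∈ N ⊓ H := by
    refine mem_inf.mpr ⟨?_, mul_mem hy (inv_mem hx')⟩
    have : y * (h * x * h⁻¹)⁻¹ = n * ((h * x * h⁻¹) * n⁻¹ * (h * x * h⁻¹)⁻¹) := by
      rw [← hg]; group
    rw [this]
    exact mul_mem hn (hN.conj_mem _ (inv_mem hn) _)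
  rw [hc.disjoint.eq_bot, mem_bot] at h1
  exact (mul_inv_eq_one.mp h1).symm

lemma pcomp {G : Type*} [Group G] [Finite G] (H : Subgroup G) (hH : Group.IsNilpotent H)
    (hHall : Nat.Coprime (Nat.card H) H.index)
    (hfus : ∀ x ∈ H, ∀ y ∈ H, (∃ g : G, g * x * g⁻¹ = y) → ∃ h ∈ H, h * x * h⁻¹ = y)
    (p : ℕ) [Fact p.Prime] (hp : p ∣ Nat.card H) : Cfsg.HasNormalPComplement p G := by
  have hpp : p.Prime := Fact.out
  obtain ⟨PH⟩ : Nonempty (Sylow p H) := inferInstance
  have hidx : ¬ p ∣ ((PH : Subgroup H).map H.subtype).index := by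
    rw [index_map_subtype, hpp.dvd_mul]
    rintro (h | h)
    · exact PH.not_dvd_index h
    · exact hpp.one_lt.ne' (Nat.eq_one_of_dvd_coprimes hHall hp h)
  let P : Sylow p G := (PH.2.map H.subtype).toSylow hidx
  have hP : (P : Subgroup G) = (PH : Subgroup H).map H.subtype := rfl
  apply hasNormalPComplement_of_controls_own_fusion P
  intro x u hx hy
  rw [hP] at hx hy
  obtain ⟨x', hx', rfl⟩ := hx
  obtain ⟨y', hy', hyy⟩ := hy
  obtain ⟨h, hh, hhx⟩ := hfus x' x'.2 y' y'.2 ⟨u, hyy.symm⟩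
  have htop : (⟨h, hh⟩ : H) ∈ (centralizer ((PH : Subgroup H) : Set H) ⊔ (PH : Subgroup H) : Subgroup H) := by
    rw [nilpotent_centralizer_sup_sylow]; trivial
  rw [← SetLike.mem_coe, normal_mul] at htop
  obtain ⟨c, hc, v, hv, hcv⟩ := htop
  refine ⟨v, by rw [hP]; exact ⟨v, hv, rfl⟩, ?_⟩
  have hvx : v * x' * v⁻¹ ∈ (PH : Subgroup H) := mul_mem (mul_mem hv hx') (inv_mem hv)
  have hcomm := (mem_centralizer_iff.mp hc) _ hvx
  have e1 : (⟨h, hh⟩ : H) * x' * (⟨h, hh⟩ : H)⁻¹ = v * x' * v⁻¹ := by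
    rw [← hcv]
    simp only
    calc c * v * x' * (c * v)⁻¹ = c * (v * x' * v⁻¹) * c⁻¹ := by group
      _ = (v * x' * v⁻¹) * c * c⁻¹ := by rw [hcomm]
      _ = v * x' * v⁻¹ := by group
  have e2 := congrArg Subtype.val e1
  simp only [coe_mul, coe_inv] at e2
  simp only [subtype_apply] at hyy ⊢
  rw [← e2, hhx, hyy]

/-- A nilpotent Hall subgroup has a normal complement exactly when elements of it that are conjugate in the whole group are already conjugate inside it. -/
theorem result {G : Type*} [Group G] [Finite G] (H : Subgroup G) (hH : Group.IsNilpotent H) (hHall : Nat.Coprime (Nat.card H) H.index) : (∃ N : Subgroup G, N.Normal ∧ N.IsComplement' H) ↔ ∀ x ∈ H, ∀ y ∈ H, (∃ g : G, g * x * g⁻¹ = y) → ∃ h ∈ H, h * x * h⁻¹ = y := by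
  constructor
  · rintro ⟨N, hN, hc⟩ x hx y hy ⟨g, hg⟩
    exact forward H N hc x y g hx hy hg
  · intro hfus
    set N : Subgroup G := ⨅ p ∈ (Nat.card H).primeFactors, Cfsg.pResidual p G with hNdef
    have hNle : ∀ p ∈ (Nat.card H).primeFactors, N ≤ Cfsg.pResidual p G :=
      fun p hp => iInf₂_le p hp
    have hNn : N.Normal := by
      constructor
      intro x hx g
      simp only [hNdef, Subgroup.mem_iInf] at hx ⊢
      intro p hp
      exact (pResidual_normal p).conj_mem x (hx p hp) g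
    have hcop : Nat.Coprime (Nat.card N) (Nat.card H) := by
      apply Nat.Coprime.symm
      apply Nat.coprime_of_dvd
      intro p hp hpH hpN
      have : Fact p.Prime := ⟨hp⟩
      have hmem : p ∈ (Nat.card H).primeFactors :=
        Nat.mem_primeFactors.mpr ⟨hp, hpH, Nat.card_pos.ne'⟩
      obtain ⟨N', hN'n, hN'c, k, hk⟩ :=
        hasNormalPComplement_iff_exists.mp (pcomp H hH hHall hfus p hpH)
      have h1 : N ≤ N' := (hNle p hmem).trans
        (pResidual_le_of_isPGroup_quotient N' (isPGroup_quotient_of_index N' hk))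
      have h2 : p ∣ Nat.card N' := hpN.trans (Subgroup.card_dvd_of_le h1)
      exact hp.one_lt.ne' (Nat.eq_one_of_dvd_coprimes hN'c h2 dvd_rfl)
    refine ⟨N, hNn, Subgroup.isComplement'_of_coprime ?_ hcop⟩
    have hidxcop : Nat.Coprime N.index H.index := by
      apply Nat.coprime_of_dvd
      intro q hq hqN hqH
      have : Fact q.Prime := ⟨hq⟩
      obtain ⟨S⟩ : Nonempty (Sylow q G) := inferInstance
      have hqH' : ¬ q ∣ Nat.card H := by
        intro h
        exact hq.one_lt.ne' (Nat.eq_one_of_dvd_coprimes hHall h hqH)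
      have hSN : (S : Subgroup G) ≤ N := by
        intro x hx
        simp only [hNdef, Subgroup.mem_iInf]
        intro p hp
        apply mem_pResidual_of_coprime
        obtain ⟨j, hj⟩ := S.2 ⟨x, hx⟩
        have hj' : x ^ q ^ j = 1 := congrArg Subtype.val hj
        have h1 : orderOf x ∣ q ^ j := orderOf_dvd_of_pow_eq_one hj'
        have hpq : p ≠ q := by
          rintro rfl
          exact hqH' (Nat.dvd_of_mem_primeFactors hp)
        have h2 : Nat.Coprime (q ^ j) p :=
          Nat.Coprime.pow_left j ((Nat.coprime_primes hq (Nat.prime_of_mem_primeFactors hp)).mpr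
            (Ne.symm hpq))
        exact Nat.Coprime.coprime_dvd_left h1 h2
      exact S.not_dvd_index (hqN.trans (Subgroup.index_dvd_of_le hSN))
    have e1 := N.card_mul_index
    have e2 := H.card_mul_index
    have d1 : Nat.card H ∣ N.index := by
      have : Nat.card H ∣ Nat.card N * N.index := by rw [e1]; exact ⟨_, e2.symm⟩
      exact (Nat.Coprime.dvd_mul_left hcop.symm).mp this
    have d2 : N.index ∣ Nat.card H := by
      have : N.index ∣ Nat.card H * H.index := by
        rw [e2]; exact ⟨Nat.card N, by rw [mul_comm]; exact e1.symm⟩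
      exact (Nat.Coprime.dvd_mul_right hidxcop).mp this
    rw [Nat.dvd_antisymm d1 d2, e1]

end Cfsg.Agent.S0079
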