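import Cfsg.Statements.S0082
-- import your own Cfsg.Agent.* helpers here
import Cfsg.Agent.Lib.Helper2.PResidual
import Mathlib.GroupTheory.SpecificGroups.ZGroup

set_option autoImplicit false
open Cfsg

namespace Cfsg.Agent.S0082

/-- With a cyclic Sylow p-subgroup, either there is a normal p-complement or the elements of order prime to p generate the whole group. -/
theorem result {G : Type*} [Group G] [Finite G] {p : ℕ} [Fact p.Prime] (P : Sylow p G) (hP : IsCyclic P) : Cfsg.HasNormalPComplement p G ∨ Cfsg.pResidual p G = ⊤ := by
  rcases P.normalizer_le_centralizer_or_le_commutator with h | h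
  · left
    exact Cfsg.Agent.Lib.Helper2.hasNormalPComplement_of_normalizer_le_centralizer P h
  · right
    have hsup := Cfsg.Agent.Lib.Helper2.sylow_sup_pResidual P
    have hcomm : IsMulCommutative (P : Subgroup G) := inferInstance
    have h1 : commutator G ≤ Cfsg.pResidual p G :=
      Subgroup.Normal.commutator_le_of_self_sup_commutative_eq_top
        (by rw [sup_comm]; exact hsup) hcomm
    rw [eq_top_iff, ← hsup]
    exact sup_le (h.trans h1) le_rfl

end Cfsg.Agent.S0082
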