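import Cfsg.Statements.S0083
-- import your own Cfsg.Agent.* helpers here
import Cfsg.Agent.Lib.Helper2.PResidual

set_option autoImplicit false
open Cfsg

namespace Cfsg.Agent.S0083

/-- For an abelian Sylow p-subgroup P, a normal p-complement exists exactly when the normalizer of P is an internal direct product of P with some subgroup. -/
theorem result {G : Type*} [Group G] [Finite G] {p : ℕ} [Fact p.Prime] (P : Sylow p G) (hP : IsMulCommutative P) : Cfsg.HasNormalPComplement p G ↔ ∃ Q : Subgroup G, Q ≤ Subgroup.centralizer (P : Set G) ∧ Q ⊓ (P : Subgroup G) = ⊥ ∧ Q ⊔ (P : Subgroup G) = Subgroup.normalizer (P : Set G) := by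
  constructor
  · intro h
    obtain ⟨N, hN, hc⟩ := Cfsg.Agent.Lib.Helper2.HasNormalPComplement.exists_complement h P
    have hdisj : N ⊓ (P : Subgroup G) = ⊥ := hc.disjoint.eq_bot
    refine ⟨N ⊓ Subgroup.normalizer (P : Set G), ?_, ?_, ?_⟩
    · intro n hn
      rw [Subgroup.mem_centralizer_iff]
      intro x hx
      have h1 : n * x * n⁻¹ ∈ (P : Subgroup G) := (Subgroup.mem_normalizer_iff.mp hn.2 x).mp hx
      have h2 : n * x * n⁻¹ * x⁻¹ ∈ N ⊓ (P : Subgroup G) := by
        refine Subgroup.mem_inf.mpr ⟨?_, mul_mem h1 (inv_mem hx)⟩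
        have : n * x * n⁻¹ * x⁻¹ = n * (x * n⁻¹ * x⁻¹) := by group
        rw [this]
        exact mul_mem hn.1 (hN.conj_mem _ (inv_mem hn.1) x)
      rw [hdisj, Subgroup.mem_bot] at h2
      calc x * n = (n * x * n⁻¹ * x⁻¹)⁻¹ * (n * x) := by group
        _ = n * x := by rw [h2]; group
    · rw [eq_bot_iff, ← hdisj]
      exact inf_le_inf_right _ inf_le_left
    · apply le_antisymm
      · exact sup_le inf_le_right Subgroup.le_normalizer
      · intro g hg
        have hg' : g ∈ (N ⊔ (P : Subgroup G) : Subgroup G) := by rw [hc.sup_eq_top]; trivial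
        rw [← SetLike.mem_coe, Subgroup.normal_mul] at hg'
        obtain ⟨n, hn, x, hx, rfl⟩ := hg'
        refine mul_mem (Subgroup.mem_sup_left (Subgroup.mem_inf.mpr ⟨hn, ?_⟩)) (Subgroup.mem_sup_right hx)
        have : n = (n * x) * x⁻¹ := by group
        rw [this]
        exact mul_mem hg (inv_mem (Subgroup.le_normalizer hx))
  · rintro ⟨Q, hQ1, -, hQ3⟩
    apply Cfsg.Agent.Lib.Helper2.hasNormalPComplement_of_normalizer_le_centralizer P
    rw [← hQ3]
    exact sup_le hQ1 (Subgroup.le_centralizer_iff_isMulCommutative.mpr hP)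

end Cfsg.Agent.S0083
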