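import Cfsg.Statements.S0084
-- import your own Cfsg.Agent.* helpers here
import Cfsg.Agent.Lib.Helper2.PResidual
import Cfsg.Agent.Lib.Helper2.SmallSylow

set_option autoImplicit false
open Cfsg

namespace Cfsg.Agent.S0084

/-- A group whose Sylow 2-subgroups are Klein four-groups and whose order is prime to 3 has a normal 2-complement. -/
theorem result {G : Type*} [Group G] [Finite G] (T : Sylow 2 G) (hT : IsKleinFour T) (h3 : ¬ 3 ∣ Nat.card G) : Cfsg.HasNormalPComplement 2 G := by
  have : Fact (Nat.Prime 2) := ⟨Nat.prime_two⟩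
  apply Cfsg.Agent.Lib.Helper2.hasNormalPComplement_of_normalizer_le_centralizer T
  rcases Cfsg.Agent.Lib.Helper2.normalizer_le_centralizer_or_exists_prime T
    IsKleinFour.isMulCommutative (by rw [hT.card_four]; norm_num) with h | ⟨r, hr, hrG, hr2, h | h⟩
  · exact h
  · exfalso
    have : r ∣ 3 := h
    rw [Nat.dvd_prime Nat.prime_three] at this
    rcases this with rfl | rfl
    · exact Nat.not_prime_one hr
    · exact h3 hrG
  · exfalso
    have : r ∣ 2 := h
    rw [Nat.dvd_prime Nat.prime_two] at this
    rcases this with rfl | rfl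
    · exact Nat.not_prime_one hr
    · exact hr2 rfl

end Cfsg.Agent.S0084
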