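import Cfsg.Statements.S0085
import Cfsg.Agent.S0071
import Cfsg.Agent.Lib.Helper77.CoprimeAut

set_option autoImplicit false
open Cfsg

namespace Cfsg.Agent.S0085

open Subgroup

/-- An automorphism of order prime to `42` of a `2`-group of order at most `8` is trivial. -/
theorem aut_eq_one_of_card_le_eight {Q : Type*} [Group Q] [Finite Q] (hQ : IsPGroup 2 Q)
    (hcard : Nat.card Q ≤ 8) (β : MulAut Q) (hβ : (orderOf β).Coprime 42) : β = 1 := by
  by_contra hne
  have h1 : orderOf β ≠ 1 := fun h => hne (orderOf_eq_one_iff.1 h)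
  obtain ⟨r, hr, hrd⟩ := Nat.exists_prime_and_dvd h1
  have : Fact r.Prime := ⟨hr⟩
  have hpos : 0 < orderOf β := orderOf_pos β
  have h2 : orderOf (β ^ (orderOf β / r)) = r := by
    rw [orderOf_pow_of_dvd (by
      intro h0
      have := Nat.div_eq_zero_iff.1 h0
      rcases this with h | h
      · exact hr.ne_zero h
      · exact absurd (Nat.le_of_dvd hpos hrd) (by omega)) (Nat.div_dvd_of_dvd hrd)]
    exact Nat.div_div_self hrd hpos.ne'
  have hr6 : r.Coprime 42 := Nat.Coprime.coprime_dvd_left hrd hβ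
  have hr2 : r ≠ 2 := by rintro rfl; revert hr6; decide
  have hr3 : r ≠ 3 := by rintro rfl; revert hr6; decide
  have hr7 : r ≠ 7 := by rintro rfl; revert hr6; decide
  have hfr : Nat.card (Q ⧸ frattini Q) ≤ 2 ^ 3 := by
    have h3 : Nat.card (Q ⧸ frattini Q) ≤ Nat.card Q :=
      Nat.card_le_card_of_surjective _ (QuotientGroup.mk_surjective (s := frattini Q))
    omega
  have h3 := Cfsg.Agent.Lib.Helper77.aut_trivial_of_card_frattini_quotient (p := 2) (r := r) hQ
    (zpowers (β ^ (orderOf β / r)))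
    (IsPGroup.of_card (n := 1) (by rw [Nat.card_zpowers, h2, pow_one])) hr2 3 hfr
    (by
      intro i hi1 hi2 hd
      have : i = 1 ∨ i = 2 ∨ i = 3 := by omega
      rcases this with rfl | rfl | rfl
      · have : r ∣ 1 := by simpa using hd
        exact hr.one_lt.ne' (Nat.dvd_one.1 this)
      · have : r ∣ 3 := by simpa using hd
        exact hr3 ((Nat.prime_dvd_prime_iff_eq hr Nat.prime_three).1 this)
      · have : r ∣ 7 := by simpa using hd
        exact hr7 ((Nat.prime_dvd_prime_iff_eq hr (by norm_num)).1 this))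
    _ (mem_zpowers _)
  rw [h3, orderOf_one] at h2
  exact hr.one_lt.ne h2

/-- A group whose Sylow 2-subgroups are elementary abelian of order 8 and whose order is prime to 3 and to 7 has a normal 2-complement. -/
theorem result {G : Type*} [Group G] [Finite G] (T : Sylow 2 G) (h8 : Nat.card T = 8) (he : ∀ x : T, x * x = 1) (h3 : ¬ 3 ∣ Nat.card G) (h7 : ¬ 7 ∣ Nat.card G) : Cfsg.HasNormalPComplement 2 G := by
  have key : ∃ N : Subgroup G, N.Normal ∧ N.IsComplement' (T : Subgroup G) := by
    rw [Cfsg.Agent.S0071.result T]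
    intro Q hQT g hgN hg2
    have hQ2 : IsPGroup 2 Q := T.isPGroup'.to_le hQT
    have hQc : Nat.card Q ≤ 8 := by
      have := Subgroup.card_le_of_le hQT
      exact this.trans h8.le
    have hord : (orderOf (Q.normalizerMonoidHom ⟨g, hgN⟩)).Coprime 42 := by
      have h8 : orderOf (Q.normalizerMonoidHom ⟨g, hgN⟩) ∣ orderOf g := by
        have := orderOf_map_dvd Q.normalizerMonoidHom (⟨g, hgN⟩ : Subgroup.normalizer (Q : Set G))
        rwa [Subgroup.orderOf_mk] at this
      apply Nat.Coprime.coprime_dvd_left h8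
      have h9 : orderOf g ∣ Nat.card G := orderOf_dvd_natCard g
      have h11 : (orderOf g).Coprime 3 :=
        ((Nat.Prime.coprime_iff_not_dvd Nat.prime_three).2 (fun h => h3 (h.trans h9))).symm
      have h12 : (orderOf g).Coprime 7 :=
        ((Nat.Prime.coprime_iff_not_dvd (by norm_num)).2 (fun h => h7 (h.trans h9))).symm
      have : (42 : ℕ) = 2 * 3 * 7 := by norm_num
      rw [this]
      exact Nat.Coprime.mul_right (Nat.Coprime.mul_right hg2 h11) h12
    have h5 := aut_eq_one_of_card_le_eight hQ2 hQc _ hord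
    have h6 : (⟨g, hgN⟩ : Subgroup.normalizer (Q : Set G)) ∈ Q.normalizerMonoidHom.ker := h5
    rw [Subgroup.normalizerMonoidHom_ker, Subgroup.mem_subgroupOf] at h6
    exact h6
  obtain ⟨N, hN, hc⟩ := key
  exact ⟨T, N, hN, hc⟩

end Cfsg.Agent.S0085
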