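import Cfsg.Statements.S0087
import Cfsg.Agent.Lib.Helper3.HallConj
import Cfsg.Agent.Lib.Helper3.Transfer

set_option autoImplicit false
open Cfsg

namespace Cfsg.Agent.S0087

open Cfsg.Agent.Lib.Helper3
open scoped IsMulCommutative

theorem no_fusion {G : Type*} [Group G] [Finite G] (H : Subgroup G)
    (hHall : Nat.Coprime (Nat.card H) H.index)
    (h : Subgroup.normalizer (H : Set G) ≤ Subgroup.centralizer (H : Set G))
    (hcomm : IsMulCommutative H) (x : G) (hx : x ∈ H) (g : G) (hy : g⁻¹ * x * g ∈ H) :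
    g⁻¹ * x * g = x := by
  have hHC : H ≤ Subgroup.centralizer {g⁻¹ * x * g} := by
    intro u hu
    rw [Subgroup.mem_centralizer_singleton_iff]
    exact congrArg Subtype.val (hcomm.is_comm.comm ⟨u, hu⟩ ⟨_, hy⟩)
  let H2 : Subgroup G := H.map (MulAut.conj g⁻¹).toMonoidHom
  have hH2 : IsMulCommutative H2 := by
    refine ⟨⟨fun a b => Subtype.ext ?_⟩⟩
    obtain ⟨u, hu, hua⟩ := a.2
    obtain ⟨v, hv, hvb⟩ := b.2
    show (a : G) * b = b * a
    rw [← hua, ← hvb, ← map_mul, ← map_mul]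
    exact congrArg _ (congrArg Subtype.val (hcomm.is_comm.comm ⟨u, hu⟩ ⟨v, hv⟩))
  have hyH2 : g⁻¹ * x * g ∈ H2 := ⟨x, hx, by simp⟩
  have hH2C : H2 ≤ Subgroup.centralizer {g⁻¹ * x * g} := by
    intro u hu
    rw [Subgroup.mem_centralizer_singleton_iff]
    exact congrArg Subtype.val (hH2.is_comm.comm ⟨u, hu⟩ ⟨_, hyH2⟩)
  have hH2card : Nat.card H2 = Nat.card H :=
    Subgroup.card_map_of_injective (MulAut.conj g⁻¹).injective
  have hH2idx : H2.index = H.index := Subgroup.index_map_equiv H (MulAut.conj g⁻¹)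
  obtain ⟨c, hcC, hc⟩ := hc_rel (Subgroup.centralizer {g⁻¹ * x * g}) abelian_hall_conj H2 H hH2C hHC
    hH2 hcomm hH2card (by rw [hH2card, hH2idx]; exact hHall)
  have hn : c * g⁻¹ ∈ Subgroup.normalizer (H : Set G) := by
    apply Subgroup.mem_normalizer_fintype
    intro u hu
    have := hc (g⁻¹ * u * g) ⟨u, hu, by simp⟩
    simpa [mul_assoc] using this
  have hn2 := Subgroup.mem_centralizer_iff.mp (h hn) x hx
  rw [Subgroup.mem_centralizer_singleton_iff] at hcC
  -- hn2 : x * (c * g⁻¹) = c * g⁻¹ * x ; hcC : c * y = y * c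
  have e1 : c * (g⁻¹ * x * g) = x * c := by
    calc c * (g⁻¹ * x * g) = (c * g⁻¹ * x) * g := by group
      _ = (x * (c * g⁻¹)) * g := by rw [hn2]
      _ = x * c := by group
  have e2 : (g⁻¹ * x * g) * c = x * c := by rw [← hcC, e1]
  exact mul_right_cancel e2

/-- A Hall subgroup that is central in its normalizer has a normal complement. -/
theorem result {G : Type*} [Group G] [Finite G] (H : Subgroup G) (hHall : Nat.Coprime (Nat.card H) H.index) (h : Subgroup.normalizer (H : Set G) ≤ Subgroup.centralizer (H : Set G)) : ∃ N : Subgroup G, N.Normal ∧ N.IsComplement' H := by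
  have hcomm : IsMulCommutative H :=
    ⟨⟨fun a b => Subtype.ext (h (Subgroup.le_normalizer b.2) a a.2)⟩⟩
  have key : ∀ x ∈ H, ∀ (k : ℕ) (g₀ : G), g₀⁻¹ * x ^ k * g₀ ∈ H → g₀⁻¹ * x ^ k * g₀ = x ^ k :=
    fun x hx k g₀ hk => no_fusion H hHall h hcomm (x ^ k) (H.pow_mem hx k) g₀ hk
  let V : G →* H := MonoidHom.transfer (MonoidHom.id H)
  have hV : ∀ x : H, V x = x ^ H.index := by
    intro x
    have := MonoidHom.transfer_eq_pow (MonoidHom.id H) (x : G) (key x x.2)
    exact this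
  refine ⟨V.ker, inferInstance, ?_⟩
  apply Subgroup.isComplement'_of_card_mul_and_disjoint
  · have h1 := V.ker.card_mul_index
    rw [Subgroup.index_ker] at h1
    have hr : V.range = ⊤ := by
      rw [eq_top_iff]
      intro y _
      obtain ⟨x, hx⟩ := (powCoprime hHall).surjective y
      exact ⟨x, by rw [hV]; exact hx⟩
    rw [hr, Subgroup.card_top] at h1
    exact h1
  · rw [disjoint_iff, eq_bot_iff]
    rintro x ⟨hx1, hx2⟩
    have h1 : V x = 1 := hx1
    have h2 := hV ⟨x, hx2⟩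
    have h3 : (⟨x, hx2⟩ : H) ^ H.index = 1 := by rw [← h2]; exact h1
    have h4 : (⟨x, hx2⟩ : H) ^ Nat.card H = 1 := pow_card_eq_one'
    have h5 := eq_one_of_pow_coprime hHall h4 h3
    exact congrArg Subtype.val h5

end Cfsg.Agent.S0087
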