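import Cfsg.Statements.S0091
-- import your own Cfsg.Agent.* helpers here

set_option autoImplicit false
open Cfsg

namespace Cfsg.Agent.S0091

open scoped commutatorElement

/-- If a nontrivial Sylow p-subgroup controls its own fusion then it is not contained in the derived subgroup. -/
theorem result {G : Type*} [Group G] [Finite G] {p : ℕ} [Fact p.Prime] (P : Sylow p G) (hp : p ∣ Nat.card G) (h : ∀ x ∈ P, ∀ y ∈ P, (∃ g : G, g * x * g⁻¹ = y) → ∃ z ∈ P, z * x * z⁻¹ = y) : ¬ (P : Subgroup G) ≤ commutator G := by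
  intro hle
  have hfoc : commutator G ⊓ (P : Subgroup G) = (P : Subgroup G).focalSubgroup :=
    Subgroup.commutator_inf_eq_focalSubgroup P
  rw [inf_eq_right.mpr hle] at hfoc
  have hfle : (P : Subgroup G).focalSubgroup ≤ ⁅(P : Subgroup G), (P : Subgroup G)⁆ := by
    rw [Subgroup.focalSubgroup_def, Subgroup.closure_le]
    rintro g ⟨hgP, x, hxP, u, rfl⟩
    have hx' : x⁻¹ ∈ (P : Subgroup G) := Subgroup.inv_mem _ hxP
    have hy : u * x⁻¹ * u⁻¹ ∈ (P : Subgroup G) := by
      have : u * x⁻¹ * u⁻¹ = x⁻¹ * ⁅x, u⁆ := by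
        rw [commutatorElement_def]; group
      rw [this]
      exact Subgroup.mul_mem _ hx' hgP
    obtain ⟨z, hz, hzx⟩ := h x⁻¹ hx' _ hy ⟨u, rfl⟩
    have : ⁅x, u⁆ = ⁅x, z⁆ := by
      rw [commutatorElement_def, commutatorElement_def, mul_assoc, mul_assoc, mul_assoc, mul_assoc,
        ← mul_assoc u, ← mul_assoc z, hzx]
    rw [this]
    exact Subgroup.commutator_mem_commutator hxP hz
  have hnil : Group.IsNilpotent (P : Subgroup G) := P.2.isNilpotent
  have hnt : Nontrivial (P : Subgroup G) :=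
    (Subgroup.nontrivial_iff_ne_bot _).mpr (P.ne_bot_of_dvd_card hp)
  have hlt := Group.IsSolvable.commutator_lt_top_of_nontrivial (P : Subgroup G)
  apply hlt.ne
  rw [← Subgroup.map_subtype_commutator, ← hfoc] at hfle
  rw [eq_top_iff]
  intro y _
  obtain ⟨w, hw, hwy⟩ := hfle y.2
  have : w = y := Subtype.ext hwy
  exact this ▸ hw

end Cfsg.Agent.S0091
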