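import Cfsg.Statements.S0092
import Cfsg.Agent.Lib.Helper3.AbelianSylowSplit
import Cfsg.Agent.Lib.Helper53.Basic
import Cfsg.Agent.Lib.Helper30.SZ
import Cfsg.Agent.Lib.Helper1.Coprime

set_option autoImplicit false
open Cfsg

namespace Cfsg.Agent.S0092

open Cfsg.Agent.Lib

theorem pResidual_pResidual_eq_top {G : Type*} [Group G] (p : ℕ) :
    Cfsg.pResidual p (Cfsg.pResidual p G) = ⊤ := by
  apply Subgroup.map_injective (Cfsg.pResidual p G).subtype_injective
  rw [Helper53.pRes_eq_closure, ← MonoidHom.range_eq_map, Subgroup.range_subtype]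
  apply le_antisymm
  · rw [Subgroup.closure_le]
    rintro g ⟨hg, -⟩
    exact hg
  · conv_lhs => unfold Cfsg.pResidual
    rw [Subgroup.closure_le]
    intro g hg
    exact Subgroup.subset_closure ⟨Helper53.mem_pResidual hg, hg⟩

theorem sylow_le_commutator {N : Type*} [Group N] [Finite N] {p : ℕ} [hp : Fact p.Prime]
    (hres : Cfsg.pResidual p N = ⊤) (Q : Sylow p N) : (Q : Subgroup N) ≤ commutator N := by
  have key : ∀ y : N, (orderOf (Abelianization.of y)).Coprime p := by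
    intro y
    have hy : y ∈ Cfsg.pResidual p N := hres ▸ Subgroup.mem_top y
    unfold Cfsg.pResidual at hy
    induction hy using Subgroup.closure_induction with
    | mem g hg => exact Nat.Coprime.coprime_dvd_left (orderOf_map_dvd _ g) hg
    | one => simp
    | mul a b _ _ ha hb =>
      rw [map_mul]
      exact Nat.Coprime.coprime_dvd_left (Commute.all _ _).orderOf_mul_dvd_mul_orderOf
        (Nat.Coprime.mul_left ha hb)
    | inv a _ ha => rw [map_inv, orderOf_inv]; exact ha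
  intro x hx
  obtain ⟨k, hk⟩ := (IsPGroup.iff_orderOf.mp Q.2) ⟨x, hx⟩
  rw [← Subgroup.orderOf_coe] at hk
  have h1 : orderOf (Abelianization.of x) ∣ p ^ k := hk ▸ orderOf_map_dvd _ x
  have h2 : orderOf (Abelianization.of x) = 1 :=
    Nat.eq_one_of_dvd_coprimes ((key x).pow_right k) dvd_rfl h1
  rw [orderOf_eq_one_iff] at h2
  rw [← Abelianization.ker_of]
  exact h2

theorem key {N : Type*} [Group N] [Finite N] {p : ℕ} [hp : Fact p.Prime]
    (hres : Cfsg.pResidual p N = ⊤) (Q : Sylow p N) (hQ : IsMulCommutative Q) :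
    (Q : Subgroup N) ⊓ Subgroup.centralizer (Subgroup.normalizer (Q : Set N) : Set N) = ⊥ := by
  have h1 := (Helper3.abelian_sylow_split Q hQ).1
  rw [← Subgroup.commutator_inf_eq_focalSubgroup, inf_of_le_right (sylow_le_commutator hres Q),
    ← inf_assoc, inf_idem] at h1
  exact h1

theorem card_mul_relIndex' {G : Type*} [Group G] {H K : Subgroup G} (h : H ≤ K) :
    Nat.card H * H.relIndex K = Nat.card K := by
  have := Subgroup.relIndex_mul_relIndex ⊥ H K bot_le h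
  simpa [Subgroup.relIndex_bot_left] using this

theorem split {G : Type*} [Group G] [Finite G] {p : ℕ} [Fact p.Prime] (N : Subgroup G) [N.Normal]
    (a : ℕ) (ha : N.index = p ^ a) (Q₀ : Sylow p N) (hQ₀c : IsMulCommutative Q₀)
    (hkey : (Q₀ : Subgroup N) ⊓ Subgroup.centralizer (Subgroup.normalizer (Q₀ : Set N) : Set N) = ⊥) :
    ∃ K : Subgroup G, K.IsComplement' N := by
  classical
  have hp : p.Prime := Fact.out
  have hfrat := Sylow.normalizer_sup_eq_top Q₀
  have hQ₀idx := Q₀.not_dvd_index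
  obtain ⟨Q, hQ⟩ : ∃ Q, Q = (Q₀ : Subgroup N).map N.subtype := ⟨_, rfl⟩
  rw [← hQ] at hfrat
  have hQN : Q ≤ N := by rw [hQ]; exact Subgroup.map_subtype_le _
  have hQp : IsPGroup p Q := by rw [hQ]; exact Q₀.2.map _
  have hQcomm : ∀ x ∈ Q, ∀ y ∈ Q, x * y = y * x := by
    rw [hQ]
    rintro _ ⟨x, hx, rfl⟩ _ ⟨y, hy, rfl⟩
    have := hQ₀c.is_comm.comm ⟨x, hx⟩ ⟨y, hy⟩
    have h2 : x * y = y * x := congrArg Subtype.val this
    rw [← map_mul, ← map_mul, h2]
  obtain ⟨H, hH⟩ : ∃ H, H = Subgroup.normalizer (Q : Set G) := ⟨_, rfl⟩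
  rw [← hH] at hfrat
  obtain ⟨R, hR⟩ : ∃ R, R = N ⊓ H := ⟨_, rfl⟩
  have hQH : Q ≤ H := by rw [hH]; exact Subgroup.le_normalizer
  have hQR : Q ≤ R := by rw [hR]; exact le_inf hQN hQH
  have hRN : R ≤ N := by rw [hR]; exact inf_le_left
  have hRH : R ≤ H := by rw [hR]; exact inf_le_right
  have hRnQ : R ≤ Subgroup.normalizer (Q : Set G) := by rw [← hH]; exact hRH
  -- the relative index of `Q` in `R` is prime to `p`
  have hQidx : ¬ p ∣ Q.relIndex R := by
    intro hdvd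
    apply hQ₀idx
    have h1 : Q.relIndex N = (Q₀ : Subgroup N).index := by
      rw [hQ, Subgroup.relIndex, Subgroup.subgroupOf, Subgroup.comap_map_eq_self_of_injective N.subtype_injective]
    rw [← h1]
    exact hdvd.trans (Dvd.intro _ (Subgroup.relIndex_mul_relIndex Q R N hQR hRN))
  obtain ⟨b, hb⟩ := IsPGroup.iff_card.mp hQp
  have hcop1 : (Q.relIndex R).Coprime (Nat.card Q) := by
    rw [hb]
    exact Nat.Coprime.pow_right _ ((Nat.Prime.coprime_iff_not_dvd hp).mpr hQidx).symm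
  obtain ⟨K₀, hK₀R, hK₀card⟩ := Helper1.exists_complement_rel' Q R hQR hRnQ (Q.relIndex R)
    (by rw [mul_comm]; exact (card_mul_relIndex' hQR).symm) hcop1
  have hcop2 : (Nat.card Q).Coprime (Nat.card K₀) := by rw [hK₀card]; exact hcop1.symm
  have hQK₀ : Q ⊓ K₀ = ⊥ := Subgroup.inf_eq_bot_of_coprime hcop2
  have hK₀nQ : K₀ ≤ Subgroup.normalizer (Q : Set G) := hK₀R.trans hRnQ
  have hsup : Q ⊔ K₀ = R := by
    apply Subgroup.eq_of_le_of_card_ge (sup_le hQR hK₀R)
    rw [← card_mul_relIndex' hQR, ← hK₀card]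
    exact Nat.le_of_dvd Nat.card_pos (Nat.Coprime.mul_dvd_of_dvd_of_dvd hcop2
      (Subgroup.card_dvd_of_le le_sup_left) (Subgroup.card_dvd_of_le le_sup_right))
  have hpK₀ : (Nat.card K₀).Coprime p := by
    rw [hK₀card]; exact ((Nat.Prime.coprime_iff_not_dvd hp).mpr hQidx).symm
  have hQsol : Group.IsSolvable Q := by
    have := hQp.isNilpotent
    infer_instance
  -- Frattini argument
  have hfr : ∀ h ∈ H, ∃ x ∈ Q, x⁻¹ * h ∈ Subgroup.normalizer (K₀ : Set G) := by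
    intro h hh
    have h1 : Helper30.cj h K₀ ≤ Q ⊔ K₀ := by
      rw [hsup, hR]
      rintro _ ⟨k, hk, rfl⟩
      have hkR := hK₀R hk
      refine ⟨?_, ?_⟩
      · exact ‹N.Normal›.conj_mem k (hRN hkR) h
      · exact H.mul_mem (H.mul_mem hh (hRH hkR)) (H.inv_mem hh)
    obtain ⟨x, hx, hxe⟩ := Helper30.sz_conj Q K₀ (Helper30.cj h K₀) hK₀nQ (Or.inl hQsol) hcop2 h1
      (Helper30.card_cj h K₀)
    refine ⟨x, hx, Helper30.mem_normalizer_of_cj_eq ?_⟩
    rw [Helper30.cj_mul, hxe, Helper30.cj_inv_cj]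
  obtain ⟨H₀, hH₀⟩ : ∃ H₀, H₀ = H ⊓ Subgroup.normalizer (K₀ : Set G) := ⟨_, rfl⟩
  have hH₀H : H₀ ≤ H := by rw [hH₀]; exact inf_le_left
  have hH₀n : H₀ ≤ Subgroup.normalizer (K₀ : Set G) := by rw [hH₀]; exact inf_le_right
  have hK₀H₀ : K₀ ≤ H₀ := by rw [hH₀]; exact le_inf (hK₀R.trans hRH) Subgroup.le_normalizer
  have memQ : ∀ g : G, g ∈ Q ↔ ∃ hg : g ∈ N, (⟨g, hg⟩ : N) ∈ (Q₀ : Subgroup N) := by
    intro g
    rw [hQ]
    constructor
    · rintro ⟨w, hw, rfl⟩
      exact ⟨w.2, hw⟩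
    · rintro ⟨hg, hw⟩
      exact ⟨⟨g, hg⟩, hw, rfl⟩
  -- `H₀ ∩ Q = 1`
  have hH₀Q : ∀ y ∈ Q, y ∈ Subgroup.normalizer (K₀ : Set G) → y = 1 := by
    intro y hy hyn
    have hyK : ∀ k ∈ K₀, y * k = k * y := by
      intro k hk
      have h1 : y * k * y⁻¹ * k⁻¹ ∈ Q ⊓ K₀ := by
        refine ⟨?_, ?_⟩
        · have : k * y⁻¹ * k⁻¹ ∈ Q := (Subgroup.mem_normalizer_iff.mp (hK₀nQ hk) _).mp (Q.inv_mem hy)
          have h2 := Q.mul_mem hy this
          simpa [mul_assoc] using h2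
        · have : y * k * y⁻¹ ∈ K₀ := (Subgroup.mem_normalizer_iff.mp hyn _).mp hk
          exact K₀.mul_mem this (K₀.inv_mem hk)
      rw [hQK₀, Subgroup.mem_bot] at h1
      calc y * k = (y * k * y⁻¹ * k⁻¹) * (k * y) := by group
        _ = k * y := by rw [h1, one_mul]
    obtain ⟨hyN, hyQ₀⟩ := (memQ y).mp hy
    have h3 : (⟨y, hyN⟩ : N) ∈ (Q₀ : Subgroup N) ⊓
        Subgroup.centralizer (Subgroup.normalizer (Q₀ : Set N) : Set N) := by
      refine Subgroup.mem_inf.mpr ⟨hyQ₀, ?_⟩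
      rw [Subgroup.mem_centralizer_iff]
      intro z hz
      have hzR : (z : G) ∈ Q ⊔ K₀ := by
        rw [hsup, hR, hH]
        refine Subgroup.mem_inf.mpr ⟨z.2, ?_⟩
        rw [Subgroup.mem_normalizer_iff]
        intro g
        have hz' := Subgroup.mem_normalizer_iff.mp hz
        rw [memQ, memQ]
        constructor
        · rintro ⟨hg, hw⟩
          exact ⟨N.mul_mem (N.mul_mem z.2 hg) (N.inv_mem z.2), (hz' ⟨g, hg⟩).mp hw⟩
        · rintro ⟨hg, hw⟩
          have hgN : g ∈ N := by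
            have := N.mul_mem (N.mul_mem (N.inv_mem z.2) hg) z.2
            simpa [mul_assoc] using this
          exact ⟨hgN, (hz' ⟨g, hgN⟩).mpr hw⟩
      obtain ⟨q, hq, k, hk, hzqk⟩ := (Helper53.mem_sup_of_le_normalizer' hK₀nQ).mp hzR
      apply Subtype.ext
      change (z : G) * y = y * z
      rw [hzqk, mul_assoc, ← hyK k hk, ← mul_assoc, hQcomm q hq y hy, mul_assoc]
    rw [hkey, Subgroup.mem_bot] at h3
    exact congrArg Subtype.val h3
  -- `H₀ ∩ N = K₀`
  have hH₀N : H₀ ⊓ N = K₀ := by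
    apply le_antisymm
    · rintro z ⟨hz1, hz2⟩
      have hzR : z ∈ Q ⊔ K₀ := by rw [hsup, hR]; exact ⟨hz2, hH₀H hz1⟩
      obtain ⟨q, hq, k, hk, rfl⟩ := (Helper53.mem_sup_of_le_normalizer' hK₀nQ).mp hzR
      have hq' : q ∈ Subgroup.normalizer (K₀ : Set G) := by
        have := (Subgroup.normalizer (K₀ : Set G)).mul_mem (hH₀n hz1)
          ((Subgroup.normalizer (K₀ : Set G)).inv_mem (Subgroup.le_normalizer hk))
        simpa using this
      rw [hH₀Q q hq hq', one_mul]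
      exact hk
    · exact le_inf hK₀H₀ (hK₀R.trans hRN)
  have hsup2 : H₀ ⊔ N = ⊤ := by
    rw [eq_top_iff, ← hfrat]
    refine sup_le ?_ le_sup_right
    intro h hh
    obtain ⟨x, hx, hxh⟩ := hfr h hh
    have h1 : x⁻¹ * h ∈ H₀ := by
      rw [hH₀]; exact ⟨H.mul_mem (H.inv_mem (hQH hx)) hh, hxh⟩
    have h2 : h = x * (x⁻¹ * h) := by group
    rw [h2]
    exact Subgroup.mul_mem _ (Subgroup.mem_sup_right (hQN hx)) (Subgroup.mem_sup_left h1)
  have hrel : K₀.relIndex H₀ = p ^ a := by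
    rw [← hH₀N, Subgroup.inf_relIndex_left, ← Subgroup.relIndex_sup_right, hsup2,
      Subgroup.relIndex_top_right, ha]
  obtain ⟨K, hKH₀, hKcard⟩ := Helper1.exists_complement_rel' K₀ H₀ hK₀H₀ hH₀n (p ^ a)
    (by rw [mul_comm, ← hrel]; exact (card_mul_relIndex' hK₀H₀).symm)
    (Nat.Coprime.pow_left _ hpK₀.symm)
  refine ⟨K, Subgroup.isComplement'_of_card_mul_and_disjoint ?_ ?_⟩
  · rw [hKcard, ← ha, mul_comm]; exact N.card_mul_index
  · rw [disjoint_iff, eq_bot_iff]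
    have h1 : K ⊓ N ≤ K ⊓ K₀ := by
      rw [← hH₀N]
      exact le_inf inf_le_left (le_inf (inf_le_left.trans hKH₀) inf_le_right)
    refine h1.trans (le_of_eq ?_)
    apply Subgroup.inf_eq_bot_of_coprime
    rw [hKcard]
    exact Nat.Coprime.pow_left _ hpK₀.symm

/-- If the Sylow p-subgroups of O^p(G) are abelian then G splits over O^p(G). -/
theorem result {G : Type*} [Group G] [Finite G] {p : ℕ} [Fact p.Prime] (h : ∀ Q : Sylow p (Cfsg.pResidual p G), IsMulCommutative Q) : ∃ K : Subgroup G, K.IsComplement' (Cfsg.pResidual p G) := by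
  have := Helper53.pResidual_normal p G
  obtain ⟨Q₀⟩ : Nonempty (Sylow p (Cfsg.pResidual p G)) := inferInstance
  obtain ⟨a, ha⟩ : ∃ a, (Cfsg.pResidual p G).index = p ^ a := by
    have h1 := (IsPGroup.iff_card.mp (Helper53.isPGroup_quotient_pResidual (G := G) p))
    rwa [← Subgroup.index_eq_card] at h1
  exact split _ a ha Q₀ (h Q₀) (key (pResidual_pResidual_eq_top p) Q₀ (h Q₀))

end Cfsg.Agent.S0092
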