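import Cfsg.Statements.S0094
import Cfsg.Agent.Lib.Helper3.ClassTwo
import Cfsg.Agent.Lib.Helper3.PGroup

set_option autoImplicit false
open Cfsg

namespace Cfsg.Agent.S0094

open scoped commutatorElement
open Cfsg.Agent.Lib.Helper3

/-- In a special p-group every central element has order dividing p. -/
theorem result {P : Type*} [Group P] [Finite P] {p : ℕ} [Fact p.Prime] (h : Cfsg.IsSpecial p P) (z : P) (hz : z ∈ Subgroup.center P) : z ^ p = 1 := by
  obtain ⟨hPG, hfr, hcomm⟩ := h
  have h2 : ⁅commutator P, (⊤ : Subgroup P)⁆ = ⊥ := class_two_of_commutator_le_center hcomm.le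
  rw [← hcomm, commutator_eq_closure] at hz
  have hcl : ∀ x ∈ Subgroup.closure (commutatorSet P), x ∈ Subgroup.center P := by
    intro x hx
    rw [← commutator_eq_closure, hcomm] at hx
    exact hx
  induction hz using Subgroup.closure_induction with
  | mem x hx =>
    obtain ⟨a, b, rfl⟩ := hx
    rw [← commutator_pow_left_class_two h2]
    have ha : a ^ p ∈ Subgroup.center P := hfr ▸ pow_p_mem_frattini hPG a
    rw [commutatorElement_eq_one_iff_mul_comm]
    exact (Subgroup.mem_center_iff.mp ha b).symm
  | one => exact one_pow _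
  | mul x y hx _ hx' hy' =>
    have hc : Commute x y := (Subgroup.mem_center_iff.mp (hcl x hx) y).symm
    rw [hc.mul_pow, hx', hy', one_mul]
  | inv x _ hx => rw [inv_pow, hx, inv_one]

end Cfsg.Agent.S0094
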