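import Cfsg.Statements.S0095
import Cfsg.Agent.Lib.Helper3.Extraspecial

set_option autoImplicit false
open Cfsg

namespace Cfsg.Agent.S0095

/-- The order of an extraspecial p-group is an odd power p^(2n+1) of p with n ≥ 1. -/
theorem result {P : Type*} [Group P] [Finite P] {p : ℕ} [Fact p.Prime] (h : Cfsg.IsExtraspecial p P) : ∃ n : ℕ, 1 ≤ n ∧ Nat.card P = p ^ (2 * n + 1) := by
  obtain ⟨⟨hPG, hfr, hcomm⟩, hcard⟩ := h
  have hpr : p.Prime := Fact.out
  obtain ⟨n, hn⟩ := Cfsg.Agent.Lib.Helper3.card_eq_odd_pow_aux (p := p) _ P rfl hcard hcomm.le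
  refine ⟨n, ?_, hn⟩
  by_contra h0
  have hn0 : n = 0 := by omega
  subst hn0
  simp only [mul_zero, zero_add, pow_one] at hn
  have hcyc : IsCyclic P := isCyclic_of_prime_card hn
  have hcm : IsMulCommutative P := inferInstance
  have hbot : commutator P = ⊥ := by
    rw [commutator_def, Subgroup.commutator_eq_bot_iff_le_centralizer]
    intro x _
    rw [Subgroup.mem_centralizer_iff]
    intro y _
    exact hcm.is_comm.comm y x
  rw [← hcomm, hbot, Subgroup.card_bot] at hcard
  exact hpr.one_lt.ne hcard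

end Cfsg.Agent.S0095
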