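import Cfsg.Statements.S0097
import Cfsg.Agent.Lib.Helper3.ClassTwo

set_option autoImplicit false
open Cfsg

namespace Cfsg.Agent.S0097

open scoped commutatorElement
open Cfsg.Agent.Lib.Helper3

/-- For odd p and E extraspecial, the subgroup generated by the elements of order dividing p has exponent dividing p and index at most p. -/
theorem result {E : Type*} [Group E] [Finite E] {p : ℕ} [Fact p.Prime] (hp : p ≠ 2) (h : Cfsg.IsExtraspecial p E) : (Subgroup.closure {x : E | x ^ p = 1}).index ≤ p ∧ ∀ g ∈ Subgroup.closure {x : E | x ^ p = 1}, g ^ p = 1 := by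
  obtain ⟨⟨hPG, hfr, hcomm⟩, hcard⟩ := h
  have hpr : p.Prime := Fact.out
  have h2 : ⁅commutator E, (⊤ : Subgroup E)⁆ = ⊥ := class_two_of_commutator_le_center hcomm.le
  have hzp : ∀ z ∈ Subgroup.center E, z ^ p = 1 := by
    intro z hz
    have : (⟨z, hz⟩ : Subgroup.center E) ^ Nat.card (Subgroup.center E) = 1 := pow_card_eq_one'
    rw [hcard] at this
    exact congrArg Subtype.val this
  have hcp : ∀ a b : E, ⁅a, b⁆ ^ p = 1 := fun a b =>
    hzp _ (commutator_mem_center_of_class_two h2 a b)
  have hmul : ∀ x y : E, (x * y) ^ p = x ^ p * y ^ p := fun x y =>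
    mul_pow_prime_class_two hpr hp h2 x y (hcp _ _)
  have hpc : ∀ x : E, x ^ p ∈ Subgroup.center E := by
    intro x
    rw [Subgroup.mem_center_iff]
    intro g
    have h1 : ⁅x ^ p, g⁆ = 1 := by rw [commutator_pow_left_class_two h2, hcp]
    exact ((commutatorElement_eq_one_iff_mul_comm.mp h1)).symm
  let φ : E →* Subgroup.center E :=
    { toFun := fun x => ⟨x ^ p, hpc x⟩
      map_one' := Subtype.ext (one_pow p)
      map_mul' := fun x y => Subtype.ext (hmul x y) }
  have hker : Subgroup.closure {x : E | x ^ p = 1} = φ.ker := by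
    have : {x : E | x ^ p = 1} = (φ.ker : Set E) := by
      ext x
      simp only [Set.mem_ofPred_eq, SetLike.mem_coe, MonoidHom.mem_ker]
      constructor
      · intro hx; exact Subtype.ext hx
      · intro hx; exact congrArg Subtype.val hx
    rw [this, Subgroup.closure_eq]
  constructor
  · rw [hker, Subgroup.index_ker, ← hcard]
    exact Nat.card_le_card_of_injective _ Subtype.val_injective
  · intro g hg
    exact omega_one_exponent_class_two hpr hp h2 g hg

end Cfsg.Agent.S0097
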