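import Cfsg.Statements.S0098
import Cfsg.Agent.Lib.Helper3.ExtraspecialIso

set_option autoImplicit false
open Cfsg

namespace Cfsg.Agent.S0098

open scoped commutatorElement
open Cfsg.Agent.Lib.Helper3

universe u v

theorem exists_pair {E : Type*} [Group E] {p : ℕ} [Fact p.Prime]
    (hc : commutator E ≤ Subgroup.center E) (hZ : Nat.card (Subgroup.center E) = p)
    (hna : ¬ ∀ x y : E, Commute x y) (z : E) (hz : z ∈ Subgroup.center E) :
    ∃ x y : E, ⁅x, y⁆ = z := by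
  push Not at hna
  obtain ⟨x, y, hxy⟩ := hna
  have hc1 : commHom hc x y ≠ 1 := fun h => hxy ((mem_ker_commHom hc x y).mp h)
  obtain ⟨j, hj⟩ := mem_zpowers_of_prime_card (g' := (⟨z, hz⟩ : Subgroup.center E)) hZ hc1
  refine ⟨x, y ^ j, ?_⟩
  rw [comm_zpow_right hc]
  exact congrArg Subtype.val hj

theorem hex {E : Type*} [Group E] {p : ℕ} (hpr : p.Prime)
    (hZ : Nat.card (Subgroup.center E) = p) : ∃ z ∈ Subgroup.center E, z ≠ 1 := by
  have : 1 < Nat.card (Subgroup.center E) := hZ ▸ hpr.one_lt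
  have hfin : Finite (Subgroup.center E) := Nat.finite_of_card_ne_zero (by omega)
  rw [Finite.one_lt_card_iff_nontrivial] at this
  obtain ⟨z, hz⟩ := exists_ne (1 : Subgroup.center E)
  exact ⟨z, z.2, fun h => hz (Subtype.ext h)⟩

theorem card_of_abelian {E : Type*} [Group E] {p : ℕ}
    (hZ : Nat.card (Subgroup.center E) = p) (hab : ∀ x y : E, Commute x y) : Nat.card E = p := by
  have : Subgroup.center E = ⊤ := by
    rw [eq_top_iff]
    intro x _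
    rw [Subgroup.mem_center_iff]
    intro g
    exact (hab g x).eq
  rw [this, Subgroup.card_top] at hZ
  exact hZ

theorem main {p : ℕ} [Fact p.Prime] (m : ℕ) :
    ∀ (E₁ : Type u) (E₂ : Type v) [Group E₁] [Group E₂] [Finite E₁] [Finite E₂],
      Nat.card E₁ = m → Nat.card E₂ = m →
      commutator E₁ ≤ Subgroup.center E₁ → commutator E₂ ≤ Subgroup.center E₂ →
      Nat.card (Subgroup.center E₁) = p → Nat.card (Subgroup.center E₂) = p →
      (∀ x : E₁, x ^ p = 1) → (∀ x : E₂, x ^ p = 1) →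
      ∀ z₁ ∈ Subgroup.center E₁, z₁ ≠ 1 → ∀ z₂ ∈ Subgroup.center E₂, z₂ ≠ 1 →
      ∃ F : E₁ ≃* E₂, F z₁ = z₂ := by
  induction m using Nat.strong_induction_on with
  | _ m ih =>
  intro E₁ E₂ _ _ _ _ hm₁ hm₂ hc₁ hc₂ hZ₁ hZ₂ he₁ he₂ z₁ hz₁ hz₁' z₂ hz₂ hz₂'
  have hpr : p.Prime := Fact.out
  have key : ∀ {E : Type _} [Group E] [Finite E] (hc : commutator E ≤ Subgroup.center E)
      (_ : Nat.card (Subgroup.center E) = p) (x y : E) (_ : ¬ Commute x y), p < Nat.card E := by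
    intro E _ _ hc hZ x y hxy
    rw [card_eq_sq_mul_card_ker hc hZ x y hxy]
    have hpos : 0 < Nat.card (commHom₂ hc x y).ker := Nat.card_pos
    have := hpr.one_lt
    nlinarith
  by_cases hab₁ : ∀ x y : E₁, Commute x y
  · have hcard₁ := card_of_abelian hZ₁ hab₁
    have hcard₂ : Nat.card E₂ = p := by rw [hm₂, ← hm₁, hcard₁]
    have ho₁ : orderOf z₁ = p := orderOf_eq_prime (he₁ z₁) hz₁'
    have ho₂ : orderOf z₂ = p := orderOf_eq_prime (he₂ z₂) hz₂'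
    exact ⟨mulEquivOfOrderOfEq (fun x => mem_zpowers_of_prime_card hcard₁ hz₁')
      (fun x => mem_zpowers_of_prime_card hcard₂ hz₂') (ho₁.trans ho₂.symm),
      mulEquivOfOrderOfEq_apply_gen _ _ _⟩
  · have hab₂ : ¬ ∀ x y : E₂, Commute x y := by
      intro hab₂
      have hcard₂ := card_of_abelian hZ₂ hab₂
      push Not at hab₁
      obtain ⟨x, y, hxy⟩ := hab₁
      have := key hc₁ hZ₁ x y hxy
      omega
    obtain ⟨x₁, y₁, hxy₁⟩ := exists_pair hc₁ hZ₁ hab₁ z₁ hz₁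
    obtain ⟨x₂, y₂, hxy₂⟩ := exists_pair hc₂ hZ₂ hab₂ z₂ hz₂
    have hnc₁ : ¬ Commute x₁ y₁ := by
      intro h
      rw [commutatorElement_eq_one_iff_commute.mpr h] at hxy₁
      exact hz₁' hxy₁.symm
    have hnc₂ : ¬ Commute x₂ y₂ := by
      intro h
      rw [commutatorElement_eq_one_iff_commute.mpr h] at hxy₂
      exact hz₂' hxy₂.symm
    have hk₁ := card_eq_sq_mul_card_ker hc₁ hZ₁ x₁ y₁ hnc₁
    have hk₂ := card_eq_sq_mul_card_ker hc₂ hZ₂ x₂ y₂ hnc₂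
    have hp2 : 0 < p ^ 2 := pow_pos hpr.pos 2
    have hQcard : Nat.card (commHom₂ hc₂ x₂ y₂).ker = Nat.card (commHom₂ hc₁ x₁ y₁).ker := by
      apply Nat.eq_of_mul_eq_mul_left hp2
      rw [← hk₁, ← hk₂, hm₁, hm₂]
    have hlt : Nat.card (commHom₂ hc₁ x₁ y₁).ker < m := by
      rw [← hm₁, hk₁]
      have hpos : 0 < Nat.card (commHom₂ hc₁ x₁ y₁).ker := Nat.card_pos
      have : 1 < p ^ 2 := Nat.one_lt_pow (by norm_num) hpr.one_lt
      nlinarith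
    obtain ⟨f, hf⟩ := ih _ hlt (commHom₂ hc₁ x₁ y₁).ker (commHom₂ hc₂ x₂ y₂).ker rfl hQcard
      (commutator_ker_le_center hc₁ hZ₁ x₁ y₁ hnc₁) (commutator_ker_le_center hc₂ hZ₂ x₂ y₂ hnc₂)
      (card_center_ker hc₁ hZ₁ x₁ y₁ hnc₁) (card_center_ker hc₂ hZ₂ x₂ y₂ hnc₂)
      (fun x => Subtype.ext (he₁ x)) (fun x => Subtype.ext (he₂ x))
      ⟨z₁, center_le_ker hc₁ x₁ y₁ hz₁⟩ ((mem_center_ker_iff hc₁ hZ₁ x₁ y₁ hnc₁ _).mpr hz₁)
      (fun h => hz₁' (congrArg Subtype.val h))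
      ⟨z₂, center_le_ker hc₂ x₂ y₂ hz₂⟩ ((mem_center_ker_iff hc₂ hZ₂ x₂ y₂ hnc₂ _).mpr hz₂)
      (fun h => hz₂' (congrArg Subtype.val h))
    obtain ⟨F, hF, -, -⟩ := exists_extension hc₁ hc₂ hZ₁ hZ₂ x₁ y₁ x₂ y₂ hnc₁ hnc₂ f
      (by
        intro q hq
        have : q = ⟨z₁, center_le_ker hc₁ x₁ y₁ hz₁⟩ := Subtype.ext (hq.trans hxy₁)
        rw [this, hf, hxy₂])
      (by
        intro q hq
        have : q = 1 := Subtype.ext (hq.trans (he₁ x₁))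
        rw [this, map_one, he₂]; rfl)
      (by
        intro q hq
        have : q = 1 := Subtype.ext (hq.trans (he₁ y₁))
        rw [this, map_one, he₂]; rfl)
    refine ⟨F, ?_⟩
    have := hF ⟨z₁, center_le_ker hc₁ x₁ y₁ hz₁⟩
    rw [hf] at this
    exact this

/-- For odd p, extraspecial p-groups of exponent p are determined up to isomorphism by their order. -/
theorem result {E₁ : Type*} {E₂ : Type*} [Group E₁] [Group E₂] [Finite E₁] [Finite E₂] {p : ℕ} [Fact p.Prime] (hp : p ≠ 2) (h₁ : Cfsg.IsExtraspecial p E₁) (h₂ : Cfsg.IsExtraspecial p E₂) (he₁ : Monoid.exponent E₁ = p) (he₂ : Monoid.exponent E₂ = p) (hc : Nat.card E₁ = Nat.card E₂) : Nonempty (E₁ ≃* E₂) := by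
  obtain ⟨⟨-, -, hcm₁⟩, hZ₁⟩ := h₁
  obtain ⟨⟨-, -, hcm₂⟩, hZ₂⟩ := h₂
  have hpr : p.Prime := Fact.out
  obtain ⟨z₁, hz₁, hz₁'⟩ := hex hpr hZ₁
  obtain ⟨z₂, hz₂, hz₂'⟩ := hex hpr hZ₂
  obtain ⟨F, -⟩ := main (p := p) _ E₁ E₂ rfl hc.symm hcm₁.le hcm₂.le hZ₁ hZ₂
    (fun x => he₁ ▸ Monoid.pow_exponent_eq_one x) (fun x => he₂ ▸ Monoid.pow_exponent_eq_one x)
    z₁ hz₁ hz₁' z₂ hz₂ hz₂'
  exact ⟨F⟩

end Cfsg.Agent.S0098
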