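import Cfsg.Statements.S0099
import Cfsg.Agent.Lib.Helper3.ExtraspecialIso

set_option autoImplicit false
open Cfsg

namespace Cfsg.Agent.S0099

open scoped commutatorElement
open Cfsg.Agent.Lib.Helper3

universe u v w

theorem center_cases {E : Type*} [Group E] (hZ : Nat.card (Subgroup.center E) = 2) {z t : E}
    (hz : z ∈ Subgroup.center E) (hz1 : z ≠ 1) (ht : t ∈ Subgroup.center E) : t = 1 ∨ t = z := by
  by_cases h1 : t = 1
  · exact Or.inl h1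
  · right
    obtain ⟨y, -, hy⟩ := (Nat.card_eq_two_iff' (1 : Subgroup.center E)).mp hZ
    have e1 := hy ⟨t, ht⟩ (fun h => h1 (congrArg Subtype.val h))
    have e2 := hy ⟨z, hz⟩ (fun h => hz1 (congrArg Subtype.val h))
    exact congrArg Subtype.val (e1.trans e2.symm)

/-- a pair of type A or of type B -/
def PairA {E : Type*} [Group E] (x y : E) : Prop := ¬ Commute x y ∧ x ^ 2 = 1 ∧ y ^ 2 = 1

def PairB {E : Type*} [Group E] (x y : E) : Prop :=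
  ¬ Commute x y ∧ x ^ 2 = ⁅x, y⁆ ∧ y ^ 2 = ⁅x, y⁆

section
variable {E : Type*} [Group E] (hc : commutator E ≤ Subgroup.center E)
  (hZ : Nat.card (Subgroup.center E) = 2)
include hc hZ

theorem mul_sq (x y : E) (hxy : ¬ Commute x y) : (x * y) ^ 2 = x ^ 2 * y ^ 2 * ⁅x, y⁆ := by
  have h2 := class_two_of_commutator_le_center hc
  rw [mul_pow_class_two h2]
  have e1 : ⁅y⁻¹, x⁻¹⁆ = ⁅y, x⁆ := by
    have := comm_zpow_zpow hc y x (-1) (-1)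
    simpa using this
  have hz := comm_mem_center hc x y
  have hz2 : ⁅x, y⁆ ^ 2 = 1 := center_pow_p hc hZ _ hz
  have e2 : ⁅y, x⁆ = ⁅x, y⁆ := by
    rw [← commutatorElement_inv, inv_eq_iff_mul_eq_one, ← sq, hz2]
  rw [e1, e2]
  simp

theorem dich (x y : E) (hxy : ¬ Commute x y) : (∃ x' y' : E, PairA x' y') ∨ PairB x y := by
  have hz := comm_mem_center hc x y
  have hz1 : ⁅x, y⁆ ≠ 1 := fun h => hxy (commutatorElement_eq_one_iff_commute.mp h)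
  have hz2 : ⁅x, y⁆ ^ 2 = 1 := center_pow_p hc hZ _ hz
  have hzz : ⁅x, y⁆ * ⁅x, y⁆ = 1 := by rw [← sq, hz2]
  have hm := mul_sq hc hZ x y hxy
  rcases center_cases hZ hz hz1 (pow_p_mem_center hc hZ x) with hx | hx <;>
  rcases center_cases hZ hz hz1 (pow_p_mem_center hc hZ y) with hy | hy
  · exact Or.inl ⟨x, y, hxy, hx, hy⟩
  · left
    refine ⟨x, x * y, ?_, hx, ?_⟩
    · intro h
      apply hxy
      have := (Commute.refl x).inv_right.mul_right h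
      simpa using this
    · rw [hm, hx, hy, one_mul, hzz]
  · left
    refine ⟨x * y, y, ?_, ?_, hy⟩
    · intro h
      apply hxy
      have := h.mul_left (Commute.refl y).inv_left
      simpa using this
    · rw [hm, hx, hy, mul_one, hzz]
  · exact Or.inr ⟨hxy, hx, hy⟩

theorem exists_pairA_of_large (x y u v : E) (hxy : ¬ Commute x y) (huv : ¬ Commute u v)
    (hxu : Commute x u) (hyu : Commute y u) : ∃ x' y' : E, PairA x' y' := by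
  rcases dich hc hZ x y hxy with h | ⟨-, hx, hy⟩
  · exact h
  rcases dich hc hZ u v huv with h | ⟨-, hu, -⟩
  · exact h
  have hz := comm_mem_center hc x y
  have hz1 : ⁅x, y⁆ ≠ 1 := fun h => hxy (commutatorElement_eq_one_iff_commute.mp h)
  have hw1 : ⁅u, v⁆ ≠ 1 := fun h => huv (commutatorElement_eq_one_iff_commute.mp h)
  have hwz : ⁅u, v⁆ = ⁅x, y⁆ :=
    (center_cases hZ hz hz1 (comm_mem_center hc u v)).resolve_left hw1
  have hz2 : ⁅x, y⁆ ^ 2 = 1 := center_pow_p hc hZ _ hz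
  have hzz : ⁅x, y⁆ * ⁅x, y⁆ = 1 := by rw [← sq, hz2]
  refine ⟨x * u, y * u, ?_, ?_, ?_⟩
  · intro h
    apply hxy
    have e : (x * u) * (y * u) = (y * u) * (x * u) := h.eq
    have e1 : (x * u) * (y * u) = (x * y) * (u * u) := by
      rw [mul_assoc, ← mul_assoc u y u, ← hyu.eq]; simp only [mul_assoc]
    have e2 : (y * u) * (x * u) = (y * x) * (u * u) := by
      rw [mul_assoc, ← mul_assoc u x u, ← hxu.eq]; simp only [mul_assoc]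
    rw [e1, e2] at e
    exact mul_right_cancel e
  · rw [hxu.mul_pow, hx, hu, hwz, hzz]
  · rw [hyu.mul_pow, hy, hu, hwz, hzz]

end

theorem glue {E₁ : Type u} {E₂ : Type v} [Group E₁] [Group E₂] [Finite E₁] [Finite E₂]
    (hc₁ : commutator E₁ ≤ Subgroup.center E₁) (hc₂ : commutator E₂ ≤ Subgroup.center E₂)
    (hZ₁ : Nat.card (Subgroup.center E₁) = 2) (hZ₂ : Nat.card (Subgroup.center E₂) = 2)
    (x₁ y₁ : E₁) (x₂ y₂ : E₂)
    (hty : (PairA x₁ y₁ ∧ PairA x₂ y₂) ∨ (PairB x₁ y₁ ∧ PairB x₂ y₂))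
    (f : (commHom₂ hc₁ x₁ y₁).ker ≃* (commHom₂ hc₂ x₂ y₂).ker) : Nonempty (E₁ ≃* E₂) := by
  have hnc₁ : ¬ Commute x₁ y₁ := by
    rcases hty with h | h
    · exact h.1.1
    · exact h.1.1
  have hnc₂ : ¬ Commute x₂ y₂ := by
    rcases hty with h | h
    · exact h.2.1
    · exact h.2.1
  have hz : ∀ q : (commHom₂ hc₁ x₁ y₁).ker, (q : E₁) = ⁅x₁, y₁⁆ → (f q : E₂) = ⁅x₂, y₂⁆ := by
    intro q hq
    have hq1 : q ≠ 1 := by
      intro h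
      rw [h] at hq
      exact hnc₁ (commutatorElement_eq_one_iff_commute.mp hq.symm)
    have hqc : q ∈ Subgroup.center (commHom₂ hc₁ x₁ y₁).ker := by
      rw [mem_center_ker_iff hc₁ hZ₁ x₁ y₁ hnc₁, hq]
      exact comm_mem_center hc₁ x₁ y₁
    have hfc : f q ∈ Subgroup.center (commHom₂ hc₂ x₂ y₂).ker := by
      rw [Subgroup.mem_center_iff]
      intro g
      obtain ⟨g', rfl⟩ := f.surjective g
      rw [← map_mul, ← map_mul, Subgroup.mem_center_iff.mp hqc g']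
    have hf1 : f q ≠ 1 := by
      intro h
      exact hq1 (f.injective (h.trans (map_one f).symm))
    have hfc' := (mem_center_ker_iff hc₂ hZ₂ x₂ y₂ hnc₂ _).mp hfc
    exact (center_cases hZ₂ (comm_mem_center hc₂ x₂ y₂)
      (fun h => hnc₂ (commutatorElement_eq_one_iff_commute.mp h)) hfc').resolve_left
      (fun h => hf1 (Subtype.ext h))
  have h1 : ∀ q : (commHom₂ hc₁ x₁ y₁).ker, (q : E₁) = 1 → (f q : E₂) = 1 := by
    intro q hq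
    have : q = 1 := Subtype.ext hq
    rw [this, map_one]; rfl
  obtain ⟨F, -⟩ := exists_extension hc₁ hc₂ hZ₁ hZ₂ x₁ y₁ x₂ y₂ hnc₁ hnc₂ f hz
    (by
      intro q hq
      rcases hty with ⟨⟨-, a, -⟩, ⟨-, b, -⟩⟩ | ⟨⟨-, a, -⟩, ⟨-, b, -⟩⟩
      · rw [b]; exact h1 q (hq.trans a)
      · rw [b]; exact hz q (hq.trans a))
    (by
      intro q hq
      rcases hty with ⟨⟨-, -, a⟩, ⟨-, -, b⟩⟩ | ⟨⟨-, -, a⟩, ⟨-, -, b⟩⟩
      · rw [b]; exact h1 q (hq.trans a)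
      · rw [b]; exact hz q (hq.trans a))
  exact ⟨F⟩

theorem card_of_abelian {E : Type*} [Group E] {p : ℕ}
    (hZ : Nat.card (Subgroup.center E) = p) (hab : ∀ x y : E, Commute x y) : Nat.card E = p := by
  have : Subgroup.center E = ⊤ := by
    rw [eq_top_iff]
    intro x _
    rw [Subgroup.mem_center_iff]
    intro g
    exact (hab g x).eq
  rw [this, Subgroup.card_top] at hZ
  exact hZ

/-- a nonabelian group in the class has order at least eight, with a typed pair; for order larger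
than eight there is a pair of type A -/
theorem typed_pair {E : Type u} [Group E] [Finite E]
    (hc : commutator E ≤ Subgroup.center E) (hZ : Nat.card (Subgroup.center E) = 2)
    (hcard : Nat.card E ≠ 2) :
    (∃ x y : E, PairA x y) ∨ (Nat.card E = 8 ∧ ∃ x y : E, PairB x y) := by
  have hna : ¬ ∀ x y : E, Commute x y := fun h => hcard (card_of_abelian hZ h)
  push Not at hna
  obtain ⟨x, y, hxy⟩ := hna
  by_cases hQ : ∀ a b : (commHom₂ hc x y).ker, Commute a b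
  · have h2 := card_of_abelian (card_center_ker hc hZ x y hxy) hQ
    have h8 := card_eq_sq_mul_card_ker hc hZ x y hxy
    rw [h2] at h8
    rcases dich hc hZ x y hxy with h | h
    · exact Or.inl h
    · exact Or.inr ⟨h8, x, y, h⟩
  · push Not at hQ
    obtain ⟨a, b, hab⟩ := hQ
    left
    have ha := (mem_ker_commHom₂ hc x y a).mp a.2
    exact exists_pairA_of_large hc hZ x y a b hxy
      (fun h => hab (Subtype.ext h.eq)) ha.1 ha.2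

theorem glue8 {E₁ : Type u} {E₂ : Type v} [Group E₁] [Group E₂] [Finite E₁] [Finite E₂]
    (hc₁ : commutator E₁ ≤ Subgroup.center E₁) (hc₂ : commutator E₂ ≤ Subgroup.center E₂)
    (hZ₁ : Nat.card (Subgroup.center E₁) = 2) (hZ₂ : Nat.card (Subgroup.center E₂) = 2)
    (h₁ : Nat.card E₁ = 8) (h₂ : Nat.card E₂ = 8)
    (x₁ y₁ : E₁) (x₂ y₂ : E₂)
    (hty : (PairA x₁ y₁ ∧ PairA x₂ y₂) ∨ (PairB x₁ y₁ ∧ PairB x₂ y₂)) : Nonempty (E₁ ≃* E₂) := by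
  have hnc₁ : ¬ Commute x₁ y₁ := by
    rcases hty with h | h
    · exact h.1.1
    · exact h.1.1
  have hnc₂ : ¬ Commute x₂ y₂ := by
    rcases hty with h | h
    · exact h.2.1
    · exact h.2.1
  have k₁ := card_eq_sq_mul_card_ker hc₁ hZ₁ x₁ y₁ hnc₁
  have k₂ := card_eq_sq_mul_card_ker hc₂ hZ₂ x₂ y₂ hnc₂
  exact glue hc₁ hc₂ hZ₁ hZ₂ x₁ y₁ x₂ y₂ hty
    (mulEquivOfPrimeCardEq (p := 2) (by omega) (by omega))

theorem main (m : ℕ) :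
    ∀ (E₁ : Type u) (E₂ : Type v) (E₃ : Type w) [Group E₁] [Group E₂] [Group E₃]
      [Finite E₁] [Finite E₂] [Finite E₃],
      Nat.card E₁ = m → Nat.card E₂ = m → Nat.card E₃ = m →
      commutator E₁ ≤ Subgroup.center E₁ → commutator E₂ ≤ Subgroup.center E₂ →
      commutator E₃ ≤ Subgroup.center E₃ →
      Nat.card (Subgroup.center E₁) = 2 → Nat.card (Subgroup.center E₂) = 2 →
      Nat.card (Subgroup.center E₃) = 2 →
      Nonempty (E₁ ≃* E₂) ∨ Nonempty (E₂ ≃* E₃) ∨ Nonempty (E₁ ≃* E₃) := by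
  induction m using Nat.strong_induction_on with
  | _ m ih =>
  intro E₁ E₂ E₃ _ _ _ _ _ _ hm₁ hm₂ hm₃ hc₁ hc₂ hc₃ hZ₁ hZ₂ hZ₃
  by_cases hm : m = 2
  · left
    exact ⟨mulEquivOfPrimeCardEq (p := 2) (hm₁.trans hm) (hm₂.trans hm)⟩
  have t₁ := typed_pair hc₁ hZ₁ (hm₁ ▸ hm)
  have t₂ := typed_pair hc₂ hZ₂ (hm₂ ▸ hm)
  have t₃ := typed_pair hc₃ hZ₃ (hm₃ ▸ hm)
  rcases t₁ with ⟨x₁, y₁, p₁⟩ | ⟨c₁, x₁, y₁, p₁⟩ <;>
  rcases t₂ with ⟨x₂, y₂, p₂⟩ | ⟨c₂, x₂, y₂, p₂⟩ <;>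
  rcases t₃ with ⟨x₃, y₃, p₃⟩ | ⟨c₃, x₃, y₃, p₃⟩
  · -- A A A
    have k₁ := card_eq_sq_mul_card_ker hc₁ hZ₁ x₁ y₁ p₁.1
    have k₂ := card_eq_sq_mul_card_ker hc₂ hZ₂ x₂ y₂ p₂.1
    have k₃ := card_eq_sq_mul_card_ker hc₃ hZ₃ x₃ y₃ p₃.1
    have hpos : 0 < Nat.card (commHom₂ hc₁ x₁ y₁).ker := Nat.card_pos
    rcases ih (Nat.card (commHom₂ hc₁ x₁ y₁).ker) (by omega)
      (commHom₂ hc₁ x₁ y₁).ker (commHom₂ hc₂ x₂ y₂).ker (commHom₂ hc₃ x₃ y₃).ker rfl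
      (by omega) (by omega)
      (commutator_ker_le_center hc₁ hZ₁ x₁ y₁ p₁.1) (commutator_ker_le_center hc₂ hZ₂ x₂ y₂ p₂.1)
      (commutator_ker_le_center hc₃ hZ₃ x₃ y₃ p₃.1)
      (card_center_ker hc₁ hZ₁ x₁ y₁ p₁.1) (card_center_ker hc₂ hZ₂ x₂ y₂ p₂.1)
      (card_center_ker hc₃ hZ₃ x₃ y₃ p₃.1) with ⟨⟨f⟩⟩ | ⟨⟨f⟩⟩ | ⟨⟨f⟩⟩
    · exact Or.inl (glue hc₁ hc₂ hZ₁ hZ₂ x₁ y₁ x₂ y₂ (Or.inl ⟨p₁, p₂⟩) f)
    · exact Or.inr (Or.inl (glue hc₂ hc₃ hZ₂ hZ₃ x₂ y₂ x₃ y₃ (Or.inl ⟨p₂, p₃⟩) f))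
    · exact Or.inr (Or.inr (glue hc₁ hc₃ hZ₁ hZ₃ x₁ y₁ x₃ y₃ (Or.inl ⟨p₁, p₃⟩) f))
  · -- A A B
    exact Or.inl (glue8 hc₁ hc₂ hZ₁ hZ₂ (by omega) (by omega) x₁ y₁ x₂ y₂ (Or.inl ⟨p₁, p₂⟩))
  · -- A B A
    exact Or.inr (Or.inr (glue8 hc₁ hc₃ hZ₁ hZ₃ (by omega) (by omega) x₁ y₁ x₃ y₃ (Or.inl ⟨p₁, p₃⟩)))
  · -- A B B
    exact Or.inr (Or.inl (glue8 hc₂ hc₃ hZ₂ hZ₃ (by omega) (by omega) x₂ y₂ x₃ y₃ (Or.inr ⟨p₂, p₃⟩)))
  · -- B A A
    exact Or.inr (Or.inl (glue8 hc₂ hc₃ hZ₂ hZ₃ (by omega) (by omega) x₂ y₂ x₃ y₃ (Or.inl ⟨p₂, p₃⟩)))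
  · -- B A B
    exact Or.inr (Or.inr (glue8 hc₁ hc₃ hZ₁ hZ₃ (by omega) (by omega) x₁ y₁ x₃ y₃ (Or.inr ⟨p₁, p₃⟩)))
  · -- B B A
    exact Or.inl (glue8 hc₁ hc₂ hZ₁ hZ₂ (by omega) (by omega) x₁ y₁ x₂ y₂ (Or.inr ⟨p₁, p₂⟩))
  · -- B B B
    exact Or.inl (glue8 hc₁ hc₂ hZ₁ hZ₂ (by omega) (by omega) x₁ y₁ x₂ y₂ (Or.inr ⟨p₁, p₂⟩))

/-- Among three extraspecial 2-groups of equal order, some two are isomorphic. -/
theorem result {E₁ : Type*} {E₂ : Type*} {E₃ : Type*} [Group E₁] [Group E₂] [Group E₃] [Finite E₁] [Finite E₂] [Finite E₃] (h₁ : Cfsg.IsExtraspecial 2 E₁) (h₂ : Cfsg.IsExtraspecial 2 E₂) (h₃ : Cfsg.IsExtraspecial 2 E₃) (h12 : Nat.card E₁ = Nat.card E₂) (h23 : Nat.card E₂ = Nat.card E₃) : Nonempty (E₁ ≃* E₂) ∨ Nonempty (E₂ ≃* E₃) ∨ Nonempty (E₁ ≃* E₃) := by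
  obtain ⟨⟨-, -, hcm₁⟩, hZ₁⟩ := h₁
  obtain ⟨⟨-, -, hcm₂⟩, hZ₂⟩ := h₂
  obtain ⟨⟨-, -, hcm₃⟩, hZ₃⟩ := h₃
  exact main _ E₁ E₂ E₃ rfl h12.symm (h23.symm.trans h12.symm) hcm₁.le hcm₂.le hcm₃.le hZ₁ hZ₂ hZ₃

end Cfsg.Agent.S0099
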