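import Cfsg.Statements.S0101
import Cfsg.Agent.Lib.Helper3.Transfer
import Cfsg.Agent.Lib.Helper3.PGroup

set_option autoImplicit false
open Cfsg

namespace Cfsg.Agent.S0101

/-- In a perfect central extension, the kernel meets each Sylow p-subgroup P inside the Frattini subgroup of P. -/
theorem result {H : Type*} {G : Type*} [Group H] [Group G] [Finite H] (σ : H →* G) (hσ : Function.Surjective σ) (hc : σ.ker ≤ Subgroup.center H) (hH : commutator H = ⊤) {p : ℕ} [Fact p.Prime] (P : Sylow p H) : σ.ker ⊓ (P : Subgroup H) ≤ (frattini P).map (P : Subgroup H).subtype := by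
  rintro z ⟨hzk, hzP⟩
  have hzc : z ∈ Subgroup.center H := hc hzk
  have hzH : z ∈ commutator H := by rw [hH]; trivial
  have h1 := Cfsg.Agent.Lib.Helper3.map_pow_index_eq_one_of_central_commutator (P : Subgroup H)
    (Abelianization.of : (P : Subgroup H) →* Abelianization (P : Subgroup H)) z hzc hzP hzH
  obtain ⟨k, hk⟩ := P.2 ⟨z, hzP⟩
  have h2 : (Abelianization.of (⟨z, hzP⟩ : (P : Subgroup H))) ^ (p ^ k) = 1 := by
    rw [← map_pow, hk, map_one]
  have hcop : Nat.Coprime (p ^ k) (P : Subgroup H).index :=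
    Nat.Coprime.pow_left k ((Nat.Prime.coprime_iff_not_dvd Fact.out).mpr P.not_dvd_index)
  have h3 := Cfsg.Agent.Lib.Helper3.eq_one_of_pow_coprime hcop h2 h1
  have h4 : (⟨z, hzP⟩ : (P : Subgroup H)) ∈ commutator (P : Subgroup H) := by
    rw [← Abelianization.ker_of]; exact h3
  exact ⟨⟨z, hzP⟩, Cfsg.Agent.Lib.Helper3.commutator_le_frattini P.2 h4, rfl⟩

end Cfsg.Agent.S0101
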