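import Cfsg.Statements.S0104
-- import your own Cfsg.Agent.* helpers here

set_option autoImplicit false
open Cfsg

namespace Cfsg.Agent.S0104

/-- A subgroup Z of a Sylow p-subgroup P that is normalized by N_G(P) is weakly closed in P exactly when it is normal in every Sylow p-subgroup containing it. -/
theorem result {G : Type*} [Group G] [Finite G] {p : ℕ} [Fact p.Prime] (P : Sylow p G) (Z : Subgroup G) (hZP : Z ≤ (P : Subgroup G)) (hZN : Subgroup.normalizer (P : Set G) ≤ Subgroup.normalizer (Z : Set G)) : Cfsg.IsWeaklyClosed Z P ↔ ∀ R : Sylow p G, Z ≤ (R : Subgroup G) → (R : Subgroup G) ≤ Subgroup.normalizer (Z : Set G) := by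
  have hPN : (P : Subgroup G) ≤ Subgroup.normalizer (Z : Set G) :=
    (Subgroup.le_normalizer (H := (P : Subgroup G))).trans hZN
  constructor
  · rintro ⟨_, hw⟩ R hZR
    obtain ⟨g, hg⟩ := MulAction.exists_smul_eq G R P
    have hmem : ∀ r ∈ (R : Subgroup G), g * r * g⁻¹ ∈ (P : Subgroup G) := by
      intro r hr
      rw [← hg, Sylow.coe_subgroup_smul]
      have h2 := Subgroup.smul_mem_pointwise_smul r (MulAut.conj g) (R : Subgroup G) hr
      simpa [MulAut.smul_def] using h2
    have hgZ : g ∈ Subgroup.normalizer (Z : Set G) := by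
      rw [Subgroup.mem_normalizer_iff_map_conj_eq]
      apply hw g
      rintro _ ⟨z, hz, rfl⟩
      exact hmem z (hZR hz)
    intro r hr
    have h1 : g * r * g⁻¹ ∈ Subgroup.normalizer (Z : Set G) := hPN (hmem r hr)
    have : r = g⁻¹ * (g * r * g⁻¹) * g := by group
    rw [this]
    exact Subgroup.mul_mem _ (Subgroup.mul_mem _ (Subgroup.inv_mem _ hgZ) h1) hgZ
  · intro hR
    refine ⟨hZP, ?_⟩
    intro g hg
    have hZR : Z ≤ ((g⁻¹ • P : Sylow p G) : Subgroup G) := by
      intro z hz
      rw [Sylow.coe_subgroup_smul]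
      have h1 : g * z * g⁻¹ ∈ (P : Subgroup G) := hg ⟨z, hz, rfl⟩
      have h2 := Subgroup.smul_mem_pointwise_smul _ (MulAut.conj g⁻¹) (P : Subgroup G) h1
      simpa [MulAut.smul_def, mul_assoc] using h2
    have h2 := hR _ hZR
    obtain ⟨h, hh⟩ := MulAction.exists_smul_eq (Subgroup.normalizer (Z : Set G))
      ((g⁻¹ • P).subtype h2) (P.subtype hPN)
    simp_rw [Sylow.smul_subtype, Subgroup.smul_def, smul_smul] at hh
    have h3 : (h : G) * g⁻¹ ∈ Subgroup.normalizer (P : Set G) :=
      Sylow.smul_eq_iff_mem_normalizer.mp (Sylow.subtype_injective hh)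
    have h4 : (h : G) * g⁻¹ ∈ Subgroup.normalizer (Z : Set G) := hZN h3
    have h5 : g ∈ Subgroup.normalizer (Z : Set G) := by
      have : g = ((h : G) * g⁻¹)⁻¹ * h := by group
      rw [this]
      exact Subgroup.mul_mem _ (Subgroup.inv_mem _ h4) h.2
    exact Subgroup.mem_normalizer_iff_map_conj_eq.mp h5

end Cfsg.Agent.S0104
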