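import Cfsg.Statements.S0105
import Cfsg.Agent.Lib.Helper3.AbelianSylowSplit

set_option autoImplicit false
open Cfsg

namespace Cfsg.Agent.S0105

/-- With an abelian Sylow p-subgroup P, some quotient of G is isomorphic to the part of P central in N_G(P). -/
theorem result {G : Type*} [Group G] [Finite G] {p : ℕ} [Fact p.Prime] (P : Sylow p G) (hP : IsMulCommutative P) : ∃ (N : Subgroup G) (hN : N.Normal), Nonempty (G ⧸ N ≃* ((P : Subgroup G) ⊓ Subgroup.centralizer (Subgroup.normalizer (P : Set G) : Set G) : Subgroup G)) := by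
  obtain ⟨h1, h2⟩ := Cfsg.Agent.Lib.Helper3.abelian_sylow_split P hP
  set Z : Subgroup G :=
    (P : Subgroup G) ⊓ Subgroup.centralizer (Subgroup.normalizer (P : Set G) : Set G) with hZ
  let ψ : Z →* (P : Subgroup G) ⧸ (P : Subgroup G).focalSubgroupOf :=
    (QuotientGroup.mk' _).comp (Subgroup.inclusion (inf_le_left : Z ≤ (P : Subgroup G)))
  have hinj : Function.Injective ψ := by
    rw [injective_iff_map_eq_one]
    intro z hz
    have hz' : (Subgroup.inclusion (inf_le_left : Z ≤ (P : Subgroup G)) z) ∈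
        (P : Subgroup G).focalSubgroupOf := (QuotientGroup.eq_one_iff _).mp hz
    rw [Subgroup.focalSubgroupOf_def, Subgroup.mem_subgroupOf] at hz'
    have : (z : G) ∈ (P : Subgroup G).focalSubgroup ⊓ Z := ⟨hz', z.2⟩
    rw [h1, Subgroup.mem_bot] at this
    exact Subtype.ext this
  have hsurj : Function.Surjective ψ := by
    intro q
    obtain ⟨x, rfl⟩ := QuotientGroup.mk'_surjective _ q
    have hx := h2 x.2
    -- work inside the abelian group `P`
    have hnorm : ∀ c ∈ (P : Subgroup G).focalSubgroup, ∀ z ∈ Z, c * z = z * c := by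
      intro c hc z hz
      have := hP.is_comm.comm ⟨c, Subgroup.focalSubgroup_le _ hc⟩ ⟨z, hz.1⟩
      exact congrArg Subtype.val this
    have hex : ∃ c ∈ (P : Subgroup G).focalSubgroup, ∃ z ∈ Z, c * z = (x : G) := by
      have hset : ((P : Subgroup G).focalSubgroup ⊔ Z : Subgroup G) ≤
          { carrier := {g | ∃ c ∈ (P : Subgroup G).focalSubgroup, ∃ z ∈ Z, c * z = g}
            one_mem' := ⟨1, Subgroup.one_mem _, 1, Subgroup.one_mem _, by simp⟩
            mul_mem' := by
              rintro _ _ ⟨c, hc, z, hz, rfl⟩ ⟨c', hc', z', hz', rfl⟩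
              refine ⟨c * c', Subgroup.mul_mem _ hc hc', z * z', Subgroup.mul_mem _ hz hz', ?_⟩
              rw [mul_assoc c c', ← mul_assoc c' z, hnorm c' hc' z hz]
              simp only [mul_assoc]
            inv_mem' := by
              rintro _ ⟨c, hc, z, hz, rfl⟩
              refine ⟨c⁻¹, Subgroup.inv_mem _ hc, z⁻¹, Subgroup.inv_mem _ hz, ?_⟩
              rw [hnorm c hc z hz, mul_inv_rev] } := by
        apply sup_le
        · intro c hc
          exact ⟨c, hc, 1, Subgroup.one_mem _, by simp⟩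
        · intro z hz
          exact ⟨1, Subgroup.one_mem _, z, hz, by simp⟩
      exact hset hx
    obtain ⟨c, hc, z, hz, hcz⟩ := hex
    refine ⟨⟨z, hz⟩, ?_⟩
    show QuotientGroup.mk' _ (Subgroup.inclusion (inf_le_left : Z ≤ (P : Subgroup G)) ⟨z, hz⟩) = _
    rw [QuotientGroup.mk'_apply, QuotientGroup.mk'_apply, QuotientGroup.eq,
      Subgroup.focalSubgroupOf_def, Subgroup.mem_subgroupOf]
    have : ((Subgroup.inclusion (inf_le_left : Z ≤ (P : Subgroup G)) ⟨z, hz⟩)⁻¹ * x : (P : Subgroup G)).1
        = c := by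
      show z⁻¹ * (x : G) = c
      rw [← hcz, hnorm c hc z hz, inv_mul_cancel_left]
    rw [this]
    exact hc
  let e : Z ≃* (P : Subgroup G) ⧸ (P : Subgroup G).focalSubgroupOf :=
    MulEquiv.ofBijective ψ ⟨hinj, hsurj⟩
  exact ⟨(P : Subgroup G).transferFocal.ker, inferInstance,
    ⟨(Subgroup.transferFocal.quotientKerMulEquivQuotientFocalSubroupOf P).trans e.symm⟩⟩

end Cfsg.Agent.S0105
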