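import Cfsg.Statements.S0106
import Cfsg.Agent.Lib.Helper71.SL23
import Cfsg.Agent.Lib.Helper71.Q8Act
import Cfsg.Agent.Lib.Helper71.QuatOdd
import Cfsg.Agent.Lib.Helper74.NilAux

set_option autoImplicit false
open Cfsg

namespace Cfsg.Agent.S0106

/-- A finite group with generalized quaternion Sylow 2-subgroups either has a normal 2-complement or has a section isomorphic to SL(2,3). -/
theorem result {G : Type*} [Group G] [Finite G] (T : Sylow 2 G) (n : ℕ) (hn : 1 ≤ n) (hT : Nonempty ((T : Subgroup G) ≃* QuaternionGroup (2 ^ n))) : Cfsg.HasNormalPComplement 2 G ∨ ∃ (H K : Subgroup G) (hK : (K.subgroupOf H).Normal), Nonempty ((H ⧸ K.subgroupOf H) ≃* Matrix.SpecialLinearGroup (Fin 2) (ZMod 3)) := by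
  classical
  have : Fact (Nat.Prime 2) := ⟨Nat.prime_two⟩
  by_cases hnpc : Cfsg.HasNormalPComplement 2 G
  · exact Or.inl hnpc
  right
  rw [Lib.Helper74.hasNormalPComplement_iff_npc, Lib.Helper77.npc_iff_frobCond] at hnpc
  obtain ⟨Q, hQT, g, hgN, hgo, hgC⟩ : ∃ Q : Subgroup G, Q ≤ (T : Subgroup G) ∧
      ∃ g ∈ Subgroup.normalizer (Q : Set G), (orderOf g).Coprime 2 ∧
        g ∉ Subgroup.centralizer (Q : Set G) := by
    by_contra hcon
    push Not at hcon
    exact hnpc (Lib.Helper77.frobCond_of_sylow T (fun Q hQ g hg ho => hcon Q hQ g hg ho))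
  obtain ⟨e⟩ := hT
  have : NeZero (2 ^ n) := ⟨by positivity⟩
  have huniq : ∀ x ∈ Q, ∀ y ∈ Q, orderOf x = 2 → orderOf y = 2 → x = y := by
    intro x hx y hy hx2 hy2
    have := Lib.Helper19.quatX_involution_unique e ⟨x, hQT hx⟩ ⟨y, hQT hy⟩
      (by rw [Subgroup.orderOf_mk]; exact hx2) (by rw [Subgroup.orderOf_mk]; exact hy2)
    exact congrArg Subtype.val this
  have hQp : IsPGroup 2 Q := T.2.to_le hQT
  have hnc : ∃ q ∈ Q, g * q ≠ q * g := by
    by_contra hcon
    push Not at hcon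
    apply hgC
    rw [Subgroup.mem_centralizer_iff]
    intro q hq
    exact (hcon q hq).symm
  obtain ⟨eQ⟩ := Lib.Helper71.q8_of_odd_action Q hQp huniq g hgN hgo hnc
  have hodd : Odd (orderOf g) := (Nat.coprime_two_right).1 hgo
  obtain ⟨i, j, -, -, hi, hj, hji, hjn, hgi, hgj, -, -⟩ := Lib.Helper71.q8_action Q eQ g
    (fun u hu => (Subgroup.mem_normalizer_iff.1 hgN u).1 hu) (orderOf g) hodd (pow_orderOf_eq_one g)
    (by
      obtain ⟨q, hq, hne⟩ := hnc
      refine ⟨q, hq, fun h => hne ?_⟩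
      calc g * q = (g * q * g⁻¹) * g := by group
        _ = q * g := by rw [h])
  exact Lib.Helper71.exists_section_SL23 i j g hi hj hji hjn hgi hgj (orderOf g) hodd
    (pow_orderOf_eq_one g)

end Cfsg.Agent.S0106
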