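import Cfsg.Statements.S0110
import Cfsg.Agent.Lib.Helper3.ExtraspecialIso

set_option autoImplicit false
open Cfsg

namespace Cfsg.Agent.S0110

open scoped commutatorElement
open Cfsg.Agent.Lib.Helper3

universe u v

theorem main {G : Type u} [Group G] {p : ℕ} [Fact p.Prime] (m : ℕ) :
    ∀ (E : Type v) [Group E] [Finite E], Nat.card E = m →
      ∀ (hc : commutator E ≤ Subgroup.center E), Nat.card (Subgroup.center E) = p →
      ∀ ι : E →* G, (∀ z ∈ Subgroup.center E, ι z ∈ Subgroup.center G) →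
      ∀ g : G, (∀ e : E, ∃ z ∈ Subgroup.center E, ⁅g, ι e⁆ = ι z) →
      ∃ e : E, ∀ e' : E, Commute (g * ι e) (ι e') := by
  induction m using Nat.strong_induction_on with
  | _ m ih =>
  intro E _ _ hm hc hZ ι hι g hg
  have hpr : p.Prime := Fact.out
  by_cases hab : ∀ x y : E, Commute x y
  · refine ⟨1, fun e' => ?_⟩
    have : e' ∈ Subgroup.center E := by
      rw [Subgroup.mem_center_iff]
      intro a
      exact (hab a e').eq
    exact Subgroup.mem_center_iff.mp (hι e' this) _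
  push Not at hab
  obtain ⟨x, y, hxy⟩ := hab
  obtain ⟨z₁, hz₁, e₁⟩ := hg x
  obtain ⟨z₂, hz₂, e₂⟩ := hg y
  obtain ⟨e₀, he₀⟩ := commHom₂_surjective hc hZ x y hxy (⟨z₁, hz₁⟩, ⟨z₂, hz₂⟩)
  have hx0 : ⁅x, e₀⁆ = z₁ := congrArg (fun t => ((t.1 : Subgroup.center E) : E)) he₀
  have hy0 : ⁅y, e₀⁆ = z₂ := congrArg (fun t => ((t.2 : Subgroup.center E) : E)) he₀
  -- general formula
  have hform : ∀ a : E, ∀ z ∈ Subgroup.center E, ⁅g, ι a⁆ = ι z →
      ⁅g * ι e₀, ι a⁆ = ι (⁅e₀, a⁆ * z) := by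
    intro a z _ hz
    have hcen : ι ⁅e₀, a⁆ ∈ Subgroup.center G := hι _ (comm_mem_center hc e₀ a)
    rw [commutatorElement_mul_left_eq_conj_mul, ← map_commutatorElement,
      Subgroup.mem_center_iff.mp hcen g, mul_assoc (ι ⁅e₀, a⁆), mul_inv_cancel, mul_one, hz, map_mul]
  have hgx : Commute (g * ι e₀) (ι x) := by
    rw [← commutatorElement_eq_one_iff_commute, hform x z₁ hz₁ e₁, ← hx0, ← commutatorElement_inv,
      inv_mul_cancel, map_one]
  have hgy : Commute (g * ι e₀) (ι y) := by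
    rw [← commutatorElement_eq_one_iff_commute, hform y z₂ hz₂ e₂, ← hy0, ← commutatorElement_inv,
      inv_mul_cancel, map_one]
  have hlt : Nat.card (commHom₂ hc x y).ker < m := by
    rw [← hm, card_eq_sq_mul_card_ker hc hZ x y hxy]
    have hpos : 0 < Nat.card (commHom₂ hc x y).ker := Nat.card_pos
    have : 1 < p ^ 2 := Nat.one_lt_pow (by norm_num) hpr.one_lt
    nlinarith
  obtain ⟨q₀, hq₀⟩ := ih _ hlt (commHom₂ hc x y).ker rfl (commutator_ker_le_center hc hZ x y hxy)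
    (card_center_ker hc hZ x y hxy) (ι.comp (commHom₂ hc x y).ker.subtype)
    (fun z hz => hι _ ((mem_center_ker_iff hc hZ x y hxy z).mp hz)) (g * ι e₀)
    (by
      intro q
      obtain ⟨z, hz, hzq⟩ := hg q
      have hmem : ⁅e₀, (q : E)⁆ * z ∈ Subgroup.center E :=
        Subgroup.mul_mem _ (comm_mem_center hc e₀ q) hz
      refine ⟨⟨_, center_le_ker hc x y hmem⟩, (mem_center_ker_iff hc hZ x y hxy _).mpr hmem, ?_⟩
      exact hform q z hz hzq)
  refine ⟨e₀ * q₀, fun e' => ?_⟩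
  have hq₀' := (mem_ker_commHom₂ hc x y q₀).mp q₀.2
  rw [map_mul, ← mul_assoc]
  have cx : Commute (g * ι e₀ * ι q₀) (ι x) := hgx.mul_left (hq₀'.1.symm.map ι)
  have cy : Commute (g * ι e₀ * ι q₀) (ι y) := hgy.mul_left (hq₀'.2.symm.map ι)
  obtain ⟨i, k, q, hq, rfl⟩ := exists_decomp hc hZ x y hxy e'
  rw [map_mul, map_mul, map_zpow, map_zpow]
  exact ((cy.zpow_right i).mul_right (cx.zpow_right k)).mul_right (hq₀ ⟨q, hq⟩)

/-- In a p-group G, an extraspecial subgroup E with [G, E] ≤ Z(E) satisfies G = E C_G(E). -/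
theorem result {G : Type*} [Group G] [Finite G] {p : ℕ} [Fact p.Prime] (hG : IsPGroup p G) (E : Subgroup G) (hE : Cfsg.IsExtraspecial p E) (h : ⁅(⊤ : Subgroup G), E⁆ ≤ E ⊓ Subgroup.centralizer (E : Set G)) : E ⊔ Subgroup.centralizer (E : Set G) = ⊤ := by
  obtain ⟨⟨-, -, hcm⟩, hZ⟩ := hE
  have hpr : p.Prime := Fact.out
  have hmemN : ∀ w : G, w ∈ E ⊓ Subgroup.centralizer (E : Set G) ↔
      ∃ z ∈ Subgroup.center E, (z : G) = w := by
    intro w
    constructor
    · rintro ⟨h1, h2⟩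
      refine ⟨⟨w, h1⟩, ?_, rfl⟩
      rw [Subgroup.mem_center_iff]
      intro a
      exact Subtype.ext (Subgroup.mem_centralizer_iff.mp h2 a a.2)
    · rintro ⟨z, hz, rfl⟩
      refine Subgroup.mem_inf.mpr ⟨z.2, ?_⟩
      rw [Subgroup.mem_centralizer_iff]
      intro a ha
      exact congrArg Subtype.val (Subgroup.mem_center_iff.mp hz ⟨a, ha⟩)
  have hNeq : E ⊓ Subgroup.centralizer (E : Set G) = (Subgroup.center E).map E.subtype := by
    ext w
    rw [hmemN]
    rfl
  have hNcard : Nat.card (E ⊓ Subgroup.centralizer (E : Set G) : Subgroup G) = p := by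
    rw [hNeq, Subgroup.card_map_of_injective E.subtype_injective, hZ]
  have hNn : (E ⊓ Subgroup.centralizer (E : Set G) : Subgroup G).Normal := by
    constructor
    intro z hz g
    have h1 : ⁅g, z⁆ ∈ E ⊓ Subgroup.centralizer (E : Set G) :=
      h (Subgroup.commutator_mem_commutator (Subgroup.mem_top g) hz.1)
    have : g * z * g⁻¹ = ⁅g, z⁆ * z := by rw [commutatorElement_def]; group
    rw [this]
    exact Subgroup.mul_mem _ h1 hz
  have hNne : (E ⊓ Subgroup.centralizer (E : Set G) : Subgroup G) ≠ ⊥ := by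
    intro hb
    rw [hb, Subgroup.card_bot] at hNcard
    exact hpr.one_lt.ne hNcard
  have hNc : E ⊓ Subgroup.centralizer (E : Set G) ≤ Subgroup.center G := by
    have hne := normal_inf_center_ne_bot' hG _ hNne
    have hle : (E ⊓ Subgroup.centralizer (E : Set G)) ⊓ Subgroup.center G ≤
        E ⊓ Subgroup.centralizer (E : Set G) := inf_le_left
    have hd := Subgroup.card_dvd_of_le hle
    rw [hNcard] at hd
    have h2 := ((Nat.dvd_prime hpr).mp hd).resolve_left
      (fun h => hne (Subgroup.card_eq_one.mp h))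
    have h3 := Subgroup.eq_of_le_of_card_ge hle (by rw [h2, hNcard])
    rw [← h3]
    exact inf_le_right
  rw [eq_top_iff]
  intro g _
  obtain ⟨e, he⟩ := main (p := p) _ E rfl hcm.le hZ E.subtype
    (fun z hz => hNc ((hmemN _).mpr ⟨z, hz, rfl⟩)) g
    (by
      intro e
      have h1 : ⁅g, (e : G)⁆ ∈ E ⊓ Subgroup.centralizer (E : Set G) :=
        h (Subgroup.commutator_mem_commutator (Subgroup.mem_top g) e.2)
      obtain ⟨z, hz, hzw⟩ := (hmemN _).mp h1
      exact ⟨z, hz, hzw.symm⟩)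
  have hcen : g * e ∈ Subgroup.centralizer (E : Set G) := by
    rw [Subgroup.mem_centralizer_iff]
    intro a ha
    exact (he ⟨a, ha⟩).symm.eq
  have : g = (g * e) * (e : G)⁻¹ := by group
  rw [this]
  exact Subgroup.mul_mem _ ((le_sup_right : _ ≤ E ⊔ Subgroup.centralizer (E : Set G)) hcen)
    ((le_sup_left : E ≤ E ⊔ Subgroup.centralizer (E : Set G)) (E.inv_mem e.2))

end Cfsg.Agent.S0110
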