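import Cfsg.Statements.S0114
import Cfsg.Agent.Lib.Helper3.MaxClass
import Cfsg.Agent.Lib.Helper5.DihedralIso
import Cfsg.Agent.S0113

set_option autoImplicit false
open Cfsg

namespace Cfsg.Agent.S0114

open scoped commutatorElement
open Cfsg.Agent.Lib.Helper3

/-- The central quotient of a 2-group of maximal class is dihedral. -/
theorem result {X : Type*} [Group X] [Finite X] (n : ℕ) (hn : 3 ≤ n) (hX : Nat.card X = 2 ^ n) (hc : Group.nilpotencyClass X = n - 1) : Nonempty (X ⧸ Subgroup.center X ≃* DihedralGroup (2 ^ (n - 2))) := by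
  obtain ⟨c, hCidx⟩ := Cfsg.Agent.S0113.main n hn X hX hc
  have hPG : IsPGroup 2 X := IsPGroup.of_card hX
  have hnil : Group.IsNilpotent X := hPG.isNilpotent
  have hZcard : Nat.card (Subgroup.center X) = 2 := card_center_of_maxClass hn hX hc
  have hq : Nat.card (X ⧸ Subgroup.center X) = 2 ^ (n - 1) :=
    card_quotient_center_of_maxClass hn hX hc
  set Z := Subgroup.center X with hZdef
  set C := Subgroup.zpowers c with hCdef
  have hCcard : Nat.card C = 2 ^ (n - 1) := by
    have h1 := C.card_mul_index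
    rw [hCidx, hX] at h1
    have : 2 ^ n = 2 ^ (n - 1) * 2 := by rw [← pow_succ]; congr 1; omega
    omega
  have hcomC : ∀ g ∈ C, Commute g c := by
    intro g hg
    obtain ⟨i, rfl⟩ := Subgroup.mem_zpowers_iff.mp hg
    exact (Commute.refl c).zpow_left i
  -- decomposition
  have hdec : ∀ x ∉ C, ∀ g ∉ C, x⁻¹ * g ∈ C := by
    intro x hx g hg
    rw [Subgroup.mul_mem_iff_of_index_two hCidx, Subgroup.inv_mem_iff]
    exact ⟨fun h => absurd h hx, fun h => absurd h hg⟩
  have hZC : Z ≤ C := by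
    intro z hz
    by_contra hzC
    have hcZ : c ∈ Z := by
      rw [Subgroup.mem_center_iff]
      intro g
      by_cases hg : g ∈ C
      · exact (hcomC g hg).eq
      · have h1 := hcomC _ (hdec z hzC g hg)
        have h2 : Commute z c := (Subgroup.mem_center_iff.mp hz c).symm
        have h3 : g = z * (z⁻¹ * g) := by group
        rw [h3]
        exact (h2.mul_left h1).eq
    have hCZ : C ≤ Z := by rw [hCdef, Subgroup.zpowers_le]; exact hcZ
    have h1 := Nat.le_of_dvd Nat.card_pos (Subgroup.card_dvd_of_le hCZ)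
    rw [hCcard, hZcard] at h1
    have h3 : 2 ^ 2 ≤ 2 ^ (n - 1) := Nat.pow_le_pow_right (by norm_num) (by omega)
    omega
  have hsq : ∀ x ∉ C, x ^ 2 ∈ Z := by
    intro x hx
    rw [Subgroup.mem_center_iff]
    intro g
    have hx2 : x ^ 2 ∈ C := Subgroup.sq_mem_of_index_two hCidx x
    obtain ⟨j, hj⟩ := Subgroup.mem_zpowers_iff.mp hx2
    have hcc : ∀ g ∈ C, Commute g (x ^ 2) := by
      intro g hg
      rw [← hj]
      exact (hcomC g hg).zpow_right j
    by_cases hg : g ∈ C
    · exact (hcc g hg).eq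
    · have h1 := hcc _ (hdec x hx g hg)
      have h2 : Commute x (x ^ 2) := (Commute.refl x).pow_right 2
      have h3 : g = x * (x⁻¹ * g) := by group
      rw [h3]
      exact (h2.mul_left h1).eq
  obtain ⟨x0, hx0⟩ : ∃ x, x ∉ C := by
    by_contra hcon
    push Not at hcon
    have : C = ⊤ := eq_top_iff.mpr fun x _ => hcon x
    rw [this, Subgroup.index_top] at hCidx
    omega
  have hx0c : x0 * c ∉ C := by
    rw [Subgroup.mul_mem_iff_of_index_two hCidx]
    intro h
    exact hx0 (h.mpr (Subgroup.mem_zpowers c))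
  have hord2 : ∀ x ∉ C, orderOf (QuotientGroup.mk' Z x) = 2 := by
    intro x hx
    apply orderOf_eq_prime
    · rw [← map_pow]
      exact (QuotientGroup.eq_one_iff _).mpr (hsq x hx)
    · intro h
      exact hx (hZC ((QuotientGroup.eq_one_iff x).mp h))
  have hs := hord2 x0 hx0
  have ht := hord2 (x0 * c) hx0c
  have hst : QuotientGroup.mk' Z x0 * QuotientGroup.mk' Z (x0 * c) = QuotientGroup.mk' Z c := by
    have h1 : QuotientGroup.mk' Z (x0 ^ 2) = 1 := (QuotientGroup.eq_one_iff _).mpr (hsq x0 hx0)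
    rw [map_mul, ← mul_assoc, ← sq, ← map_pow, h1, one_mul]
  have hordc : orderOf (QuotientGroup.mk' Z c) = 2 ^ (n - 2) := by
    have h1 : (Subgroup.zpowers (QuotientGroup.mk' Z c)).comap (QuotientGroup.mk' Z) = C := by
      rw [← MonoidHom.map_zpowers, Subgroup.comap_map_eq, QuotientGroup.ker_mk']
      exact sup_eq_left.mpr hZC
    have h2 : (Subgroup.zpowers (QuotientGroup.mk' Z c)).index = 2 := by
      rw [← Subgroup.index_comap_of_surjective _ (QuotientGroup.mk'_surjective Z), h1, hCidx]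
    have h3 := (Subgroup.zpowers (QuotientGroup.mk' Z c)).card_mul_index
    rw [Nat.card_zpowers, h2, hq] at h3
    have : 2 ^ (n - 1) = 2 ^ (n - 2) * 2 := by rw [← pow_succ]; congr 1; omega
    omega
  have hcl : Subgroup.closure ({QuotientGroup.mk' Z x0, QuotientGroup.mk' Z (x0 * c)} : Set (X ⧸ Z)) = ⊤ := by
    apply Subgroup.eq_top_of_card_eq
    rw [Cfsg.Agent.Lib.Helper5.dih_card hs ht, hst, hordc, hq]
    rw [mul_comm, ← pow_succ]; congr 1; omega
  rw [← hordc, ← hst]
  exact ⟨(Subgroup.topEquiv.symm.trans (MulEquiv.subgroupCongr hcl.symm)).trans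
    (Cfsg.Agent.Lib.Helper5.dihEquiv hs ht)⟩

end Cfsg.Agent.S0114
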