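import Cfsg.Statements.S0115
import Cfsg.Agent.Lib.Helper3.MaxClass
import Cfsg.Agent.Lib.Helper3.IndexTwo
import Cfsg.Agent.S0113

set_option autoImplicit false
open Cfsg

namespace Cfsg.Agent.S0115

open scoped commutatorElement
open Cfsg.Agent.Lib.Helper3

universe u

theorem kf_iff {X : Type*} [Group X] :
    IsKleinFour (X ⧸ commutator X) ↔
      (commutator X).index = 4 ∧ ∀ g : X, g ^ 2 ∈ commutator X := by
  constructor
  · intro h
    refine ⟨h.card_four, fun g => ?_⟩
    rw [← QuotientGroup.eq_one_iff, QuotientGroup.mk_pow, ← h.exponent_two]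
    exact Monoid.pow_exponent_eq_one _
  · rintro ⟨h1, h2⟩
    refine ⟨h1, ?_⟩
    have hd : Monoid.exponent (X ⧸ commutator X) ∣ 2 := by
      apply Monoid.exponent_dvd_of_forall_pow_eq_one
      intro q
      induction q using QuotientGroup.induction_on with
      | H g =>
        rw [← QuotientGroup.mk_pow]
        exact (QuotientGroup.eq_one_iff _).mpr (h2 g)
    rcases (Nat.dvd_prime Nat.prime_two).mp hd with h | h
    · exfalso
      rw [Monoid.exp_eq_one_iff] at h
      have h3 : Nat.card (X ⧸ commutator X) = 4 := h1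
      have : Nat.card (X ⧸ commutator X) ≤ 1 := Finite.card_le_one_iff_subsingleton.mpr h
      omega
    · exact h

theorem not_comm_of_class {X : Type*} [Group X] [Group.IsNilpotent X] {k : ℕ}
    (h : Group.nilpotencyClass X = k) (hk : 2 ≤ k) : ¬ IsMulCommutative X := by
  intro hc
  have := Group.IsNilpotent.nilpotencyClass_le_one_iff.mpr hc
  omega

theorem zpowers_comm {X : Type*} [Group X] (c : X) :
    ∀ a ∈ Subgroup.zpowers c, ∀ b ∈ Subgroup.zpowers c, a * b = b * a := by
  intro a ha b hb
  obtain ⟨i, rfl⟩ := Subgroup.mem_zpowers_iff.mp ha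
  obtain ⟨j, rfl⟩ := Subgroup.mem_zpowers_iff.mp hb
  exact ((Commute.refl c).zpow_zpow i j).eq

theorem fwd {X : Type u} [Group X] [Finite X] (n : ℕ) (hn : 3 ≤ n) (hX : Nat.card X = 2 ^ n)
    (hc : Group.nilpotencyClass X = n - 1) :
    (commutator X).index = 4 ∧ ∀ g : X, g ^ 2 ∈ commutator X := by
  obtain ⟨c, hCidx⟩ := Cfsg.Agent.S0113.main n hn X hX hc
  have hPG : IsPGroup 2 X := IsPGroup.of_card hX
  have hnil : Group.IsNilpotent X := hPG.isNilpotent
  have hZcard : Nat.card (Subgroup.center X) = 2 := card_center_of_maxClass hn hX hc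
  have hnc : ¬ IsMulCommutative X := not_comm_of_class hc (by omega)
  have hAB := card_eq_card_center_mul_card_commutator hCidx (zpowers_comm c) hnc
  have hpow : (2 : ℕ) ^ n = 2 ^ (n - 2) * 4 := by
    have : n = (n - 2) + 2 := by omega
    conv_lhs => rw [this, pow_add]
    norm_num
  have hidx : (commutator X).index = 4 := by
    have h1 := (Subgroup.zpowers c).card_mul_index
    have h2 := (commutator X).card_mul_index
    rw [hCidx, hX, hAB, hZcard] at h1
    rw [hX] at h2
    have hpos : 0 < Nat.card (commutator X) := Nat.card_pos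
    have : Nat.card (commutator X) * (commutator X).index = Nat.card (commutator X) * 4 := by
      rw [h2, ← h1]; ring
    exact Nat.eq_of_mul_eq_mul_left hpos this
  refine ⟨hidx, ?_⟩
  intro g
  by_contra hg
  apply hnc
  have hcard : Nat.card (X ⧸ commutator X) = 4 := hidx
  have hg2 : (QuotientGroup.mk' (commutator X) g) ^ 2 ≠ 1 := by
    intro h
    rw [← map_pow] at h
    exact hg ((QuotientGroup.eq_one_iff _).mp h)
  have hord : orderOf (QuotientGroup.mk' (commutator X) g) = 4 := by
    have hd : orderOf (QuotientGroup.mk' (commutator X) g) ∣ 2 ^ 2 := by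
      have := orderOf_dvd_natCard (QuotientGroup.mk' (commutator X) g)
      rw [hcard] at this
      exact this
    obtain ⟨j, hj, hjx⟩ := (Nat.dvd_prime_pow Nat.prime_two).mp hd
    interval_cases j
    · exfalso; apply hg2
      rw [pow_zero, orderOf_eq_one_iff] at hjx
      rw [hjx, one_pow]
    · exfalso; apply hg2
      rw [pow_one] at hjx
      rw [← hjx, pow_orderOf_eq_one]
    · exact hjx
  have htop : Subgroup.zpowers (QuotientGroup.mk' (commutator X) g) = ⊤ := by
    apply Subgroup.eq_top_of_card_eq
    rw [Nat.card_zpowers, hord, hcard]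
  have hsup : Subgroup.zpowers g ⊔ commutator X = ⊤ := by
    have := Subgroup.comap_map_eq (QuotientGroup.mk' (commutator X)) (Subgroup.zpowers g)
    rw [MonoidHom.map_zpowers, htop, Subgroup.comap_top, QuotientGroup.ker_mk'] at this
    exact this.symm
  have hsup2 : Subgroup.zpowers g ⊔ frattini X = ⊤ := by
    rw [eq_top_iff, ← hsup]
    exact sup_le_sup_left (commutator_le_frattini hPG) _
  have hgt := frattini_nongenerating hsup2
  have : IsCyclic X := ⟨g, fun x => by
    have hx : x ∈ Subgroup.zpowers g := hgt ▸ Subgroup.mem_top x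
    exact hx⟩
  infer_instance

theorem commutator_eq_bot_of_comm {X : Type*} [Group X] (h : IsMulCommutative X) :
    commutator X = ⊥ := by
  rw [commutator_def, Subgroup.commutator_eq_bot_iff_le_centralizer]
  intro x _
  rw [Subgroup.mem_centralizer_iff]
  intro y _
  exact h.is_comm.comm y x

theorem card_commutator_of_index {X : Type*} [Group X] [Finite X] {n : ℕ} (hn : 2 ≤ n)
    (hX : Nat.card X = 2 ^ n) (h4 : (commutator X).index = 4) :
    Nat.card (commutator X) = 2 ^ (n - 2) := by
  have h2 := (commutator X).card_mul_index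
  rw [hX, h4] at h2
  have hpow : (2 : ℕ) ^ n = 2 ^ (n - 2) * 4 := by
    have : n = (n - 2) + 2 := by omega
    conv_lhs => rw [this, pow_add]
    norm_num
  omega

theorem bwd (n : ℕ) (hn : 3 ≤ n) :
    ∀ (X : Type u) [Group X] [Finite X], Nat.card X = 2 ^ n → (commutator X).index = 4 →
      (∀ g : X, g ^ 2 ∈ commutator X) → Group.nilpotencyClass X = n - 1 := by
  induction n, hn using Nat.le_induction with
  | base =>
    intro X _ _ hX h4 _
    have hPG : IsPGroup 2 X := IsPGroup.of_card hX
    have hnil : Group.IsNilpotent X := hPG.isNilpotent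
    have hle := nilpotencyClass_le_of_card (p := 2) 3 X hX (by norm_num)
    have hcc := card_commutator_of_index (by norm_num) hX h4
    have hnc : ¬ IsMulCommutative X := by
      intro h
      rw [commutator_eq_bot_of_comm h, Subgroup.card_bot] at hcc
      norm_num at hcc
    have : ¬ Group.nilpotencyClass X ≤ 1 := fun h =>
      hnc (Group.IsNilpotent.nilpotencyClass_le_one_iff.mp h)
    omega
  | succ n hn ih =>
    intro X _ _ hX h4 hsq
    have hPG : IsPGroup 2 X := IsPGroup.of_card hX
    have hnil : Group.IsNilpotent X := hPG.isNilpotent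
    have hcc := card_commutator_of_index (by omega) hX h4
    have h2le : 2 ≤ 2 ^ (n + 1 - 2) := by
      calc 2 = 2 ^ 1 := by norm_num
        _ ≤ 2 ^ (n + 1 - 2) := Nat.pow_le_pow_right (by norm_num) (by omega)
    have hnc : ¬ IsMulCommutative X := by
      intro h
      rw [commutator_eq_bot_of_comm h, Subgroup.card_bot] at hcc
      omega
    have hne : commutator X ≠ ⊥ := by
      intro h
      rw [h, Subgroup.card_bot] at hcc
      omega
    have hne2 := normal_inf_center_ne_bot' hPG (commutator X) hne
    obtain ⟨N, hN1, hN2, hN3⟩ : ∃ N : Subgroup X, N ≤ commutator X ∧ N ≤ Subgroup.center X ∧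
        Nat.card N = 2 := by
      have hdvd : 2 ∣ Nat.card (commutator X ⊓ Subgroup.center X : Subgroup X) := by
        refine (hPG.to_subgroup _).card_eq_or_dvd.resolve_left ?_
        intro h
        exact hne2 (Subgroup.card_eq_one.mp h)
      obtain ⟨z, hz⟩ := exists_prime_orderOf_dvd_card' 2 hdvd
      refine ⟨Subgroup.zpowers (z : X), ?_, ?_, ?_⟩
      · rw [Subgroup.zpowers_le]; exact z.2.1
      · rw [Subgroup.zpowers_le]; exact z.2.2
      · rw [Nat.card_zpowers, Subgroup.orderOf_coe, hz]
    have hNn : N.Normal := by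
      constructor
      intro x hx g
      have := Subgroup.mem_center_iff.mp (hN2 hx) g
      rw [this, mul_assoc, mul_inv_cancel, mul_one]
      exact hx
    obtain ⟨-, hq⟩ := card_quotient_of_card Nat.prime_two N hX (by rw [hN3, pow_one])
    have hq' : Nat.card (X ⧸ N) = 2 ^ n := by rw [hq]; congr 1
    have hcq : commutator (X ⧸ N) = (commutator X).map (QuotientGroup.mk' N) := by
      rw [commutator_def, commutator_def, Subgroup.map_commutator,
        Subgroup.map_top_of_surjective _ (QuotientGroup.mk'_surjective N)]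
    have h4q : (commutator (X ⧸ N)).index = 4 := by
      rw [hcq, Subgroup.index_map_eq _ (QuotientGroup.mk'_surjective N)
        (by rw [QuotientGroup.ker_mk']; exact hN1), h4]
    have hsqq : ∀ q : X ⧸ N, q ^ 2 ∈ commutator (X ⧸ N) := by
      intro q
      obtain ⟨g, rfl⟩ := QuotientGroup.mk'_surjective N q
      rw [hcq, ← map_pow]
      exact ⟨_, hsq g, rfl⟩
    have hclq := ih (X ⧸ N) hq' h4q hsqq
    obtain ⟨cb, hcb⟩ := Cfsg.Agent.S0113.main n hn (X ⧸ N) hq' hclq
    obtain ⟨c, rfl⟩ := QuotientGroup.mk'_surjective _ cb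
    let C : Subgroup X := (Subgroup.zpowers (QuotientGroup.mk' N c)).comap (QuotientGroup.mk' N)
    have hCidx : C.index = 2 := by
      rw [Subgroup.index_comap_of_surjective _ (QuotientGroup.mk'_surjective N), hcb]
    have hCmem : ∀ x ∈ C, ∃ i : ℤ, ∃ z ∈ N, x = c ^ i * z := by
      intro x hx
      obtain ⟨i, hi⟩ := Subgroup.mem_zpowers_iff.mp (Subgroup.mem_comap.mp hx)
      refine ⟨i, (c ^ i)⁻¹ * x, ?_, by group⟩
      rw [← QuotientGroup.eq_one_iff]
      show QuotientGroup.mk' N ((c ^ i)⁻¹ * x) = 1
      rw [map_mul, map_inv, map_zpow, hi, inv_mul_cancel]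
    have hCcomm : ∀ a ∈ C, ∀ b ∈ C, a * b = b * a := by
      intro a ha b hb
      obtain ⟨i, z, hz, rfl⟩ := hCmem a ha
      obtain ⟨j, w, hw, rfl⟩ := hCmem b hb
      have hzc : ∀ g, Commute g z := Subgroup.mem_center_iff.mp (hN2 hz)
      have hwc : ∀ g, Commute g w := Subgroup.mem_center_iff.mp (hN2 hw)
      have h1 : Commute (c ^ i) (c ^ j) := (Commute.refl c).zpow_zpow i j
      exact ((h1.mul_right (hwc _)).mul_left ((hzc _).symm)).eq
    have hAB := card_eq_card_center_mul_card_commutator hCidx hCcomm hnc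
    have hZcard : Nat.card (Subgroup.center X) = 2 := by
      have h1 := C.card_mul_index
      rw [hCidx, hX, hAB, hcc] at h1
      have hpow : (2 : ℕ) ^ (n + 1) = 2 ^ (n + 1 - 2) * 4 := by
        have : n + 1 = (n + 1 - 2) + 2 := by omega
        conv_lhs => rw [this, pow_add]
        norm_num
      have hpos : 0 < 2 ^ (n + 1 - 2) := by positivity
      have : 2 ^ (n + 1 - 2) * (Nat.card (Subgroup.center X) * 2) = 2 ^ (n + 1 - 2) * 4 := by
        rw [← hpow, ← h1]; ring
      have := Nat.eq_of_mul_eq_mul_left hpos this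
      omega
    have hNZ : N = Subgroup.center X := Subgroup.eq_of_le_of_card_ge hN2 (by rw [hN3, hZcard])
    subst hNZ
    rw [Group.nilpotencyClass_quotient_center] at hclq
    omega

/-- A 2-group of order 2^n, n ≥ 3, is of maximal class exactly when its commutator quotient is a Klein four-group. -/
theorem result {X : Type*} [Group X] [Finite X] (n : ℕ) (hn : 3 ≤ n) (hX : Nat.card X = 2 ^ n) : Group.nilpotencyClass X = n - 1 ↔ IsKleinFour (X ⧸ commutator X) := by
  rw [kf_iff]
  constructor
  · intro hc
    exact fwd n hn hX hc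
  · rintro ⟨h4, hsq⟩
    exact bwd n hn X hX h4 hsq

end Cfsg.Agent.S0115
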