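import Cfsg.Statements.S0125
import Cfsg.Agent.S0087

set_option autoImplicit false
open Cfsg

namespace Cfsg.Agent.S0125

/-- The centralizer of a self-centralizing normal subgroup A of a Sylow p-subgroup is the direct product of A with a normal p'-subgroup. -/
theorem result {G : Type*} [Group G] [Finite G] {p : ℕ} [Fact p.Prime] (R : Sylow p G) (A : Subgroup G) (hAR : A ≤ (R : Subgroup G)) (hAn : (R : Subgroup G) ≤ Subgroup.normalizer (A : Set G)) (hC : (R : Subgroup G) ⊓ Subgroup.centralizer (A : Set G) = A) : ∃ H : Subgroup G, H ≤ Subgroup.centralizer (A : Set G) ∧ Nat.Coprime (Nat.card H) p ∧ Subgroup.centralizer (A : Set G) ≤ Subgroup.normalizer (H : Set G) ∧ H ⊓ A = ⊥ ∧ H ⊔ A = Subgroup.centralizer (A : Set G) := by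
  have hpr : p.Prime := Fact.out
  set C := Subgroup.centralizer (A : Set G) with hCdef
  set M := Subgroup.normalizer (A : Set G) with hMdef
  have hAC : A ≤ C := by
    rw [← hC]; exact inf_le_right
  have hCM : C ≤ M := by
    intro c hc
    rw [hMdef, Subgroup.mem_normalizer_iff]
    intro a
    constructor
    · intro ha
      have := Subgroup.mem_centralizer_iff.mp hc a ha
      rw [← this, mul_assoc, mul_inv_cancel, mul_one]; exact ha
    · intro ha
      have h2 := Subgroup.mem_centralizer_iff.mp hc _ ha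
      have : a = c * a * c⁻¹ := by
        have e : c * a * c⁻¹ * c = c * (c * a * c⁻¹) := h2
        have e2 : c * a = c * (c * a * c⁻¹) := by rw [← e]; group
        exact mul_left_cancel e2
      rw [this]; exact ha
  -- M normalizes C
  have hMC : ∀ m ∈ M, ∀ c ∈ C, m * c * m⁻¹ ∈ C := by
    intro m hm c hc
    rw [hCdef, Subgroup.mem_centralizer_iff]
    intro a ha
    have ha' : m⁻¹ * a * m ∈ A := by
      have := (Subgroup.mem_normalizer_iff''.mp hm a).mp ha
      exact this
    have h2 := Subgroup.mem_centralizer_iff.mp hc _ ha'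
    calc a * (m * c * m⁻¹) = m * ((m⁻¹ * a * m) * c) * m⁻¹ := by group
      _ = m * (c * (m⁻¹ * a * m)) * m⁻¹ := by rw [h2]
      _ = m * c * m⁻¹ * a := by group
  -- a Sylow subgroup of C has order at most |A|
  obtain ⟨S⟩ : Nonempty (Sylow p C) := inferInstance
  have hSle : Nat.card S ≤ Nat.card A := by
    have hS0 : IsPGroup p ((S : Subgroup C).map C.subtype) := S.2.map _
    have hS0M : (S : Subgroup C).map C.subtype ≤ M := (Subgroup.map_subtype_le _).trans hCM
    obtain ⟨Q, hQ⟩ := (hS0.comap_subtype (K := M)).exists_le_sylow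
    obtain ⟨m, hm⟩ := MulAction.exists_smul_eq M Q (R.subtype hAn)
    have hconj : ∀ s : S, (m : G) * ((s : C) : G) * (m : G)⁻¹ ∈ A := by
      intro s
      rw [← hC]
      refine ⟨?_, hMC m m.2 _ (s : C).2⟩
      have h1 : (⟨((s : C) : G), hS0M ⟨s, s.2, rfl⟩⟩ : M) ∈ (Q : Subgroup M) :=
        hQ (Subgroup.mem_subgroupOf.mpr ⟨s, s.2, rfl⟩)
      have h2 := Subgroup.smul_mem_pointwise_smul _ (MulAut.conj m) (Q : Subgroup M) h1
      rw [← Sylow.coe_subgroup_smul, hm, Sylow.coe_subtype, Subgroup.mem_subgroupOf] at h2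
      have h3 : (m : G) * ((s : C) : G) * (m : G)⁻¹ ∈ (R : Subgroup G) := by
        simpa [MulAut.smul_def] using h2
      exact h3
    refine Nat.card_le_card_of_injective (fun s : S => (⟨_, hconj s⟩ : A)) ?_
    intro s t hst
    have h1 : (m : G) * ((s : C) : G) * (m : G)⁻¹ = (m : G) * ((t : C) : G) * (m : G)⁻¹ :=
      congrArg Subtype.val hst
    have h2 : ((s : C) : G) = ((t : C) : G) := mul_left_cancel (mul_right_cancel h1)
    exact Subtype.ext (Subtype.ext h2)
  have hA'card : Nat.card (A.subgroupOf C) = Nat.card A :=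
    Nat.card_congr (Subgroup.subgroupOfEquivOfLe hAC).toEquiv
  have hAp : IsPGroup p A := R.2.to_le hAR
  obtain ⟨a, ha⟩ := IsPGroup.iff_card.mp hAp
  have hScard : Nat.card S = Nat.card (A.subgroupOf C) := by
    apply le_antisymm (hA'card ▸ hSle)
    apply Nat.le_of_dvd Nat.card_pos
    rw [hA'card, ha]
    apply S.pow_dvd_card_of_pow_dvd_card
    rw [← ha, ← hA'card]
    exact Subgroup.card_subgroup_dvd_card _
  have hidx : (A.subgroupOf C).index = (S : Subgroup C).index := by
    have h1 := (A.subgroupOf C).card_mul_index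
    have h2 := (S : Subgroup C).card_mul_index
    have h3 : Nat.card (S : Subgroup C) = Nat.card (A.subgroupOf C) := hScard
    rw [h3] at h2
    exact Nat.eq_of_mul_eq_mul_left Nat.card_pos (h1.trans h2.symm)
  have hnd : ¬ p ∣ (A.subgroupOf C).index := hidx ▸ S.not_dvd_index
  have hHall : Nat.Coprime (Nat.card (A.subgroupOf C)) (A.subgroupOf C).index := by
    rw [hA'card, ha]
    exact Nat.Coprime.pow_left a ((Nat.Prime.coprime_iff_not_dvd hpr).mpr hnd)
  obtain ⟨N, hNn, hNc⟩ := Cfsg.Agent.S0087.result (A.subgroupOf C) hHall (by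
    intro x _
    rw [Subgroup.mem_centralizer_iff]
    intro y hy
    exact Subtype.ext (Subgroup.mem_centralizer_iff.mp x.2 y (Subgroup.mem_subgroupOf.mp hy)))
  refine ⟨N.map C.subtype, Subgroup.map_subtype_le _, ?_, ?_, ?_, ?_⟩
  · rw [Subgroup.card_map_of_injective C.subtype_injective]
    have h1 := hNc.card_mul_card
    have h2 := (A.subgroupOf C).card_mul_index
    have h3 : Nat.card N = (A.subgroupOf C).index := by
      apply Nat.eq_of_mul_eq_mul_right (Nat.card_pos (α := A.subgroupOf C))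
      rw [h1, mul_comm, h2]
    rw [h3]
    exact ((Nat.Prime.coprime_iff_not_dvd hpr).mpr hnd).symm
  · intro c hc
    apply Subgroup.mem_normalizer_fintype
    rintro _ ⟨n, hn, rfl⟩
    exact ⟨⟨c, hc⟩ * n * ⟨c, hc⟩⁻¹, hNn.conj_mem n hn ⟨c, hc⟩, rfl⟩
  · rw [eq_bot_iff]
    rintro _ ⟨⟨n, hn, rfl⟩, hnA⟩
    have : n ∈ N ⊓ A.subgroupOf C := ⟨hn, Subgroup.mem_subgroupOf.mpr hnA⟩
    rw [hNc.disjoint.eq_bot, Subgroup.mem_bot] at this
    rw [this]; exact Subgroup.one_mem _
  · have h1 := hNc.sup_eq_top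
    have h2 := congrArg (Subgroup.map C.subtype) h1
    rw [Subgroup.map_sup, Subgroup.subgroupOf_map_subtype, ← MonoidHom.range_eq_map,
      Subgroup.range_subtype, inf_eq_left.mpr hAC] at h2
    exact h2

end Cfsg.Agent.S0125
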