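import Cfsg.Statements.S0127
import Cfsg.Agent.S0638

set_option autoImplicit false
open Cfsg

namespace Cfsg.Agent.S0127

/-- For odd p, in a non-cyclic p-group with a cyclic subgroup of index p, the elements of order dividing p generate an elementary abelian subgroup of order p^2. -/
theorem result {R : Type*} [Group R] [Finite R] {p : ℕ} [Fact p.Prime] (hp : p ≠ 2) (hR : IsPGroup p R) (hnc : ¬ IsCyclic R) (C : Subgroup R) (hC : IsCyclic C) (hCi : C.index = p) : Cfsg.IsElementaryAbelian p (Subgroup.closure {x : R | x ^ p = 1}) ∧ Nat.card (Subgroup.closure {x : R | x ^ p = 1}) = p ^ 2 := by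
  have hpp : p.Prime := Fact.out
  obtain ⟨n, hn⟩ := hR.exists_card_eq
  have hn0 : n ≠ 0 := by
    rintro rfl
    have h1 := C.card_mul_index
    rw [hCi, hn, pow_zero] at h1
    have := Nat.eq_one_of_mul_eq_one_left h1
    exact hpp.one_lt.ne' this
  have hnorm : C.Normal := by
    apply Subgroup.normal_of_index_eq_minFac_card
    rw [hCi, hn, hpp.pow_minFac hn0]
  have hq : IsCyclic (R ⧸ C) := by
    apply isCyclic_of_prime_card (p := p)
    rw [← Subgroup.index_eq_card, hCi]
  have hm : Cfsg.IsMetacyclic R := ⟨C, hnorm, hC, hq⟩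
  have h := Cfsg.Agent.S0638.result hp hR hm hnc
  have e : Cfsg.omegaOne p (⊤ : Subgroup R) = Subgroup.closure {x : R | x ^ p = 1} := by
    simp [Cfsg.omegaOne]
  rw [e] at h
  exact h

end Cfsg.Agent.S0127
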