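import Cfsg.Statements.S0129
-- import your own Cfsg.Agent.* helpers here
import Cfsg.Agent.Lib.Helper31.Nilpotent
import Cfsg.Agent.Lib.Helper57.Replacement
import Cfsg.Agent.Lib.Helper3.NormalSeries
import Cfsg.Agent.Lib.Helper73.MinClass

set_option autoImplicit false
open Cfsg

namespace Cfsg.Agent.S0129

theorem card_lt {P : Type*} [Group P] [Finite P] {H K : Subgroup P} (h : H < K) :
    Nat.card ↥H < Nat.card ↥K := by
  rcases (Subgroup.card_le_of_le h.le).lt_or_eq with h1 | h1
  · exact h1
  · exact absurd (Subgroup.eq_of_le_of_card_ge h.le h1.ge) h.ne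

theorem index_centralizer_le {G : Type*} [Group G] [Finite G] {p : ℕ} [Fact p.Prime] (hG : IsPGroup p G) :
    ∀ (b : ℕ) (B : Subgroup G), B.Normal → Nat.card ↥B = p ^ b →
      (Subgroup.centralizer (B : Set G)).index ≤ p ^ (b * (b - 1) / 2) := by
  have hp : p.Prime := Fact.out
  intro b
  induction b with
  | zero =>
    intro B _ hB
    rw [pow_zero] at hB
    rw [Subgroup.card_eq_one.mp hB]
    have : Subgroup.centralizer (((⊥ : Subgroup G) : Subgroup G) : Set G) = ⊤ := by
      rw [eq_top_iff]
      intro g _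
      rw [Subgroup.mem_centralizer_iff]
      intro y hy
      rw [SetLike.mem_coe, Subgroup.mem_bot] at hy
      simp [hy]
    rw [this]
    simp
  | succ b ih =>
    intro B hBn hB
    obtain ⟨B₁, hB₁B, hB₁n, hB₁⟩ := Cfsg.Agent.Lib.Helper3.exists_normal_le_card_eq (p := p) b G hG B hBn
      (by rw [hB]; exact pow_dvd_pow p (Nat.le_succ b))
    have ih' := ih B₁ hB₁n hB₁
    have hlt : B₁ < B := by
      refine lt_of_le_of_ne hB₁B ?_
      rintro rfl
      rw [hB₁] at hB
      exact absurd (Nat.pow_right_injective hp.two_le hB) (by omega)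
    obtain ⟨x, hxB, hxB₁⟩ := SetLike.exists_of_lt hlt
    have hsup : B₁ ⊔ Subgroup.zpowers x = B := by
      have hle : B₁ ⊔ Subgroup.zpowers x ≤ B := sup_le hB₁B (Subgroup.zpowers_le.mpr hxB)
      apply Subgroup.eq_of_le_of_card_ge hle
      have hlt' : B₁ < B₁ ⊔ Subgroup.zpowers x := by
        refine lt_of_le_of_ne le_sup_left ?_
        intro h
        exact hxB₁ (h ▸ Subgroup.mem_sup_right (Subgroup.mem_zpowers x))
      have h1 := card_lt hlt'
      obtain ⟨k, hk⟩ := (hG.to_subgroup (B₁ ⊔ Subgroup.zpowers x)).exists_card_eq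
      rw [hB₁, hk] at h1
      have := (Nat.pow_lt_pow_iff_right hp.one_lt).mp h1
      rw [hB, hk]
      exact Nat.pow_le_pow_right hp.pos this
    have hCC : Subgroup.centralizer (B : Set G) ≤ Subgroup.centralizer (B₁ : Set G) :=
      Subgroup.centralizer_le hB₁B
    have e1 := Subgroup.relIndex_mul_index hCC
    have hrel : (Subgroup.centralizer (B : Set G)).relIndex (Subgroup.centralizer (B₁ : Set G)) ≤ p ^ b := by
      let φ : ↥(Subgroup.centralizer (B₁ : Set G)) → ↥B := fun t => ⟨t * x * (t : G)⁻¹, hBn.conj_mem x hxB t⟩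
      have h1 : ((Subgroup.centralizer (B : Set G)).subgroupOf (Subgroup.centralizer (B₁ : Set G))).index
          ≤ Nat.card (Set.range φ) := by
        apply Cfsg.Agent.Lib.Helper73.index_le_card_range'
        intro t₁ t₂ h
        have h' : (t₁ : G) * x * (t₁ : G)⁻¹ = t₂ * x * (t₂ : G)⁻¹ := congrArg Subtype.val h
        rw [Subgroup.mem_subgroupOf]
        have hs : B ≤ Subgroup.centralizer ({((t₁⁻¹ * t₂ : ↥(Subgroup.centralizer (B₁ : Set G))) : G)} : Set G) := by
          rw [← hsup]
          apply sup_le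
          · intro y hy
            rw [Subgroup.mem_centralizer_singleton_iff]
            exact (Subgroup.mem_centralizer_iff.mp (t₁⁻¹ * t₂).2 y hy)
          · rw [Subgroup.zpowers_le, Subgroup.mem_centralizer_singleton_iff]
            push_cast
            calc x * ((t₁ : G)⁻¹ * t₂) = (t₁ : G)⁻¹ * ((t₁ : G) * x * (t₁ : G)⁻¹) * t₂ := by group
              _ = (t₁ : G)⁻¹ * (t₂ * x * (t₂ : G)⁻¹) * t₂ := by rw [h']
              _ = (t₁ : G)⁻¹ * t₂ * x := by group
        rw [Subgroup.mem_centralizer_iff]
        intro y hy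
        exact Subgroup.mem_centralizer_singleton_iff.mp (hs hy)
      have h2 : Nat.card (Set.range φ) < Nat.card ↥B := by
        have hne : (1 : ↥B) ∉ Set.range φ := by
          rintro ⟨t, ht⟩
          have ht' : (t : G) * x * (t : G)⁻¹ = 1 := congrArg Subtype.val ht
          apply hxB₁
          have : x = 1 := by
            have h3 : x = (t : G)⁻¹ * ((t : G) * x * (t : G)⁻¹) * t := by group
            rw [h3, ht']; group
          rw [this]; exact B₁.one_mem
        have hss : Set.range φ ⊂ Set.univ := by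
          rw [Set.ssubset_univ_iff]
          intro h
          exact hne (h ▸ Set.mem_univ _)
        have := Set.ncard_lt_ncard hss (Set.toFinite _)
        rwa [Set.ncard_univ, ← Nat.card_coe_set_eq] at this
      have h3 : (Subgroup.centralizer (B : Set G)).relIndex (Subgroup.centralizer (B₁ : Set G)) < p ^ (b + 1) := by
        rw [← hB]; exact lt_of_le_of_lt h1 h2
      obtain ⟨n, hn⟩ := hG.exists_card_eq
      have h4 : (Subgroup.centralizer (B : Set G)).relIndex (Subgroup.centralizer (B₁ : Set G)) ∣ p ^ n := by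
        rw [← hn]
        exact (Subgroup.relIndex_dvd_card _ _).trans (Subgroup.card_subgroup_dvd_card _)
      obtain ⟨e, -, he⟩ := (Nat.dvd_prime_pow hp).mp h4
      rw [he] at h3 ⊢
      have := (Nat.pow_lt_pow_iff_right hp.one_lt).mp h3
      exact Nat.pow_le_pow_right hp.pos (by omega)
    rw [← e1, Nat.triangle_succ, pow_add, mul_comm]
    exact Nat.mul_le_mul ih' hrel

/-- The order of a p-group is bounded by p^(a(a+1)/2) when it has a maximal normal abelian subgroup of order p^a. -/
theorem result {G : Type*} [Group G] [Finite G] {p : ℕ} [Fact p.Prime] (hG : IsPGroup p G) (A : Subgroup G) [A.Normal] (hA : IsMulCommutative A) (hmax : ∀ B : Subgroup G, B.Normal → IsMulCommutative B → A ≤ B → B = A) (a : ℕ) (ha : Nat.card A = p ^ a) : Nat.card G ≤ p ^ (a * (a + 1) / 2) := by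
  have hp : p.Prime := Fact.out
  have hnil : Group.IsNilpotent G := hG.isNilpotent
  have hCA : Subgroup.centralizer (A : Set G) ≤ A := by
    by_contra hcon
    have hN : (Subgroup.centralizer (A : Set G)).map (QuotientGroup.mk' A) ≠ ⊥ := by
      intro h
      apply hcon
      rw [Subgroup.map_eq_bot_iff, QuotientGroup.ker_mk'] at h
      exact h
    have : ((Subgroup.centralizer (A : Set G)).map (QuotientGroup.mk' A)).Normal :=
      Subgroup.Normal.map inferInstance _ (QuotientGroup.mk'_surjective A)
    obtain ⟨z, hzN, hzc, hz1⟩ := Cfsg.Agent.Lib.Helper31.exists_mem_center_of_normal_of_nilpotent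
      ((Subgroup.centralizer (A : Set G)).map (QuotientGroup.mk' A)) hN
    obtain ⟨x, hxC, rfl⟩ := hzN
    have hxA : x ∉ A := fun h => hz1 ((QuotientGroup.eq_one_iff x).mpr h)
    have hB1 : IsMulCommutative ↥(A ⊔ Subgroup.zpowers x) :=
      Cfsg.Agent.Lib.Helper57.isMulCommutative_sup (by rw [Subgroup.zpowers_le]; exact hxC)
    have hB2 : (A ⊔ Subgroup.zpowers x).Normal := by
      rw [← QuotientGroup.comap_map_mk']
      apply Subgroup.Normal.comap
      constructor
      intro n hn g
      have hn' : n ∈ Subgroup.center (G ⧸ A) := by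
        rw [MonoidHom.map_zpowers] at hn
        exact (Subgroup.zpowers_le.mpr hzc) hn
      rw [Subgroup.mem_center_iff.mp hn' g, mul_inv_cancel_right]
      exact hn
    have := hmax _ hB2 hB1 le_sup_left
    exact hxA (this ▸ Subgroup.mem_sup_right (Subgroup.mem_zpowers x))
  have hAC : Subgroup.centralizer (A : Set G) = A :=
    le_antisymm hCA (Subgroup.le_centralizer_iff_isMulCommutative.mpr hA)
  have h1 := index_centralizer_le hG a A inferInstance ha
  rw [hAC] at h1
  have h2 := Subgroup.card_mul_index A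
  rw [← h2, ha, mul_comm a (a + 1)]
  have h3 := Nat.triangle_succ a
  rw [Nat.add_sub_cancel] at h3
  rw [h3, pow_add, mul_comm]
  exact Nat.mul_le_mul_right _ h1

end Cfsg.Agent.S0129
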