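import Cfsg.Statements.S0131
import Mathlib

set_option autoImplicit false
open Cfsg

namespace Cfsg.Agent.S0131

/-- P/P' has a normal complement in G exactly when the focal subgroup G' ∩ P is as small as possible, namely P'. -/
theorem result {G : Type*} [Group G] [Finite G] {p : ℕ} [Fact p.Prime] (P : Sylow p G) : (∃ N : Subgroup G, N.Normal ∧ N ⊓ (P : Subgroup G) = ⁅(P : Subgroup G), (P : Subgroup G)⁆ ∧ N ⊔ (P : Subgroup G) = ⊤) ↔ commutator G ⊓ (P : Subgroup G) = ⁅(P : Subgroup G), (P : Subgroup G)⁆ := by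
  have hPP : ⁅(P : Subgroup G), (P : Subgroup G)⁆ ≤ commutator G ⊓ (P : Subgroup G) := by
    refine le_inf (Subgroup.commutator_mono le_top le_top) ?_
    rw [Subgroup.commutator_le]
    intro a ha b hb
    exact mul_mem (mul_mem (mul_mem ha hb) (inv_mem ha)) (inv_mem hb)
  constructor
  · rintro ⟨N, hN, hNP, hsup⟩
    refine le_antisymm ?_ hPP
    rw [← hNP]
    refine inf_le_inf_right _ ?_
    rw [commutator_def, Subgroup.commutator_le]
    intro a _ b _
    have ha : a ∈ N ⊔ (P : Subgroup G) := by rw [hsup]; exact Subgroup.mem_top a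
    have hb : b ∈ N ⊔ (P : Subgroup G) := by rw [hsup]; exact Subgroup.mem_top b
    obtain ⟨n₁, hn₁, p₁, hp₁, rfl⟩ := Subgroup.mem_sup_of_normal_left.mp ha
    obtain ⟨n₂, hn₂, p₂, hp₂, rfl⟩ := Subgroup.mem_sup_of_normal_left.mp hb
    rw [← QuotientGroup.eq_one_iff]
    have h1 : ((n₁ : G) : G ⧸ N) = 1 := (QuotientGroup.eq_one_iff _).mpr hn₁
    have h2 : ((n₂ : G) : G ⧸ N) = 1 := (QuotientGroup.eq_one_iff _).mpr hn₂
    have h3 : ((p₁ * p₂ * p₁⁻¹ * p₂⁻¹ : G) : G ⧸ N) = 1 := by
      rw [QuotientGroup.eq_one_iff]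
      have : p₁ * p₂ * p₁⁻¹ * p₂⁻¹ ∈ N ⊓ (P : Subgroup G) := by
        rw [hNP]; exact Subgroup.commutator_mem_commutator hp₁ hp₂
      exact this.1
    simp only [commutatorElement_def, QuotientGroup.mk_mul, QuotientGroup.mk_inv, h1, h2,
      one_mul] at h3 ⊢
    exact h3
  · intro h
    have hp : p.Prime := Fact.out
    obtain ⟨k, m, hpm, hcard⟩ := Nat.exists_eq_pow_mul_and_not_dvd (Nat.card_pos (α := G)).ne' p
      hp.ne_one
    let f : G →* Abelianization G := (powMonoidHom m).comp Abelianization.of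
    have hf : ∀ g : G, g ∈ f.ker ↔ (Abelianization.of g) ^ m = 1 := fun g => Iff.rfl
    have hker : ∀ g : G, Abelianization.of g = 1 ↔ g ∈ commutator G := by
      intro g
      rw [← Abelianization.ker_of, MonoidHom.mem_ker]
    refine ⟨f.ker, inferInstance, ?_, ?_⟩
    · rw [← h]
      apply le_antisymm
      · rintro x ⟨hx1, hx2⟩
        refine ⟨?_, hx2⟩
        obtain ⟨j, hj⟩ := P.2 ⟨x, hx2⟩
        have hj' : x ^ p ^ j = 1 := congrArg Subtype.val hj
        have h1 : (Abelianization.of x) ^ p ^ j = 1 := by rw [← map_pow, hj', map_one]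
        have h2 := pow_gcd_eq_one.mpr ⟨h1, (hf x).mp hx1⟩
        have h3 : Nat.gcd (p ^ j) m = 1 :=
          Nat.Coprime.pow_left j ((Nat.Prime.coprime_iff_not_dvd hp).mpr hpm)
        rw [h3, pow_one] at h2
        exact (hker x).mp h2
      · refine inf_le_inf_right _ ?_
        intro x hx
        rw [hf, (hker x).mpr hx, one_pow]
    · rw [← Subgroup.index_eq_one]
      have hpg : IsPGroup p (G ⧸ f.ker) := by
        intro q
        obtain ⟨g, rfl⟩ := QuotientGroup.mk_surjective q
        refine ⟨k, ?_⟩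
        rw [← QuotientGroup.mk_pow, QuotientGroup.eq_one_iff, hf, map_pow, ← pow_mul, ← hcard,
          ← map_pow, pow_card_eq_one', map_one]
      obtain ⟨n, hn⟩ := IsPGroup.iff_card.mp hpg
      have h1 : (f.ker ⊔ (P : Subgroup G)).index ∣ p ^ n := by
        rw [← hn, ← Subgroup.index_eq_card]
        exact Subgroup.index_dvd_of_le le_sup_left
      have h2 : (f.ker ⊔ (P : Subgroup G)).index ∣ (P : Subgroup G).index :=
        Subgroup.index_dvd_of_le le_sup_right
      obtain ⟨j, -, hj⟩ := (Nat.dvd_prime_pow hp).mp h1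
      rcases Nat.eq_zero_or_pos j with rfl | hjpos
      · rw [hj, pow_zero]
      · exfalso
        apply P.not_dvd_index
        refine dvd_trans ?_ h2
        rw [hj]
        exact dvd_pow_self p hjpos.ne'

end Cfsg.Agent.S0131
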