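import Cfsg.Statements.S0137
import Cfsg.Agent.Lib.Helper4.Eigen

set_option autoImplicit false
open Cfsg

namespace Cfsg.Agent.S0137

/-- A character value of a finite group has absolute value at most the degree of the representation. -/
theorem result {G : Type*} [Group G] [Finite G] {V : Type*} [AddCommGroup V] [Module ℂ V] [FiniteDimensional ℂ V] (ρ : Representation ℂ G V) (g : G) : ‖ρ.character g‖ ≤ (Module.finrank ℂ V : ℝ) := by
  obtain ⟨μ, -, hn, h, -⟩ := Cfsg.Agent.Lib.Helper4.exists_eigenvalues ρ g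
  have h1 := h 1
  simp only [pow_one] at h1
  rw [h1]
  calc ‖∑ i, μ i‖ ≤ ∑ i, ‖μ i‖ := norm_sum_le _ _
    _ = (Module.finrank ℂ V : ℝ) := by simp [hn]

end Cfsg.Agent.S0137
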