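import Cfsg.Statements.S0154
import Cfsg.Agent.Lib.Helper4.CharBasic
import Cfsg.Agent.Lib.Helper19.LinChar

set_option autoImplicit false
open Cfsg

namespace Cfsg.Agent.S0154

open Cfsg.Agent.Lib.Helper4 Cfsg.Agent.Lib.Helper19 in
theorem irr_of_linear {G : Type*} [Group G] {χ : G → ℂ} (h : Cfsg.IsCharacter G χ) (h1 : χ 1 = 1) :
    Cfsg.IsIrrCharacter G χ := by
  obtain ⟨n, ρ, rfl⟩ := h
  rw [Representation.char_one] at h1
  have h2 : Module.finrank ℂ (Fin n → ℂ) = 1 := by exact_mod_cast h1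
  exact ⟨n, ρ, isIrreducible_of_finrank_eq_one ρ h2, rfl⟩

open Cfsg.Agent.Lib.Helper4 Cfsg.Agent.Lib.Helper19 in
theorem card_hom {G : Type*} [Group G] [Finite G] :
    Nat.card (G →* ℂˣ) = (commutator G).index := by
  have hne : NeZero ((Monoid.exponent (Abelianization G) : ℕ) : ℂ) :=
    ⟨by exact_mod_cast Monoid.exponent_ne_zero_of_finite⟩
  rw [Nat.card_congr (Abelianization.lift (G := G) (A := ℂˣ)),
    CommGroup.card_monoidHom_of_hasEnoughRootsOfUnity (Abelianization G) ℂ,
    Subgroup.index_eq_card]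
  rfl


/-- A finite group has exactly as many irreducible complex characters of degree 1 as the index of its commutator subgroup. -/
theorem result {G : Type*} [Group G] [Finite G] : Nat.card {χ : Cfsg.IrrCharacter G // (χ : G → ℂ) 1 = 1} = (commutator G).index := by
  rw [← card_hom]
  symm
  apply Nat.card_congr
  refine Equiv.ofBijective (fun f => ⟨⟨Cfsg.Agent.Lib.Helper19.homFun f,
    irr_of_linear (Cfsg.Agent.Lib.Helper19.isCharacter_homFun f).1
      (Cfsg.Agent.Lib.Helper19.isCharacter_homFun f).2⟩,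
      (Cfsg.Agent.Lib.Helper19.isCharacter_homFun f).2⟩) ⟨?_, ?_⟩
  · intro f f' h
    apply Cfsg.Agent.Lib.Helper19.homFun_injective
    exact congrArg (fun x => (x.1 : G → ℂ)) h
  · rintro ⟨⟨χ, hχ⟩, h1⟩
    obtain ⟨f, hf⟩ := Cfsg.Agent.Lib.Helper19.exists_hom_of_linear χ
      ⟨Cfsg.Agent.Lib.Helper4.isCharacter_of_irr hχ, h1⟩
    refine ⟨f, ?_⟩
    apply Subtype.ext
    apply Subtype.ext
    exact hf.symm

end Cfsg.Agent.S0154
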