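import Cfsg.Statements.S0156
import Cfsg.Agent.Lib.Helper4.PermChar
import Cfsg.Agent.S0155

set_option autoImplicit false
open Cfsg

namespace Cfsg.Agent.S0156

/-- The character of the left regular representation is the sum over the irreducible characters χ of χ 1 • χ. -/
theorem result {G : Type*} [Group G] [Fintype G] : (Representation.leftRegular ℂ G).character = ∑ᶠ χ : Cfsg.IrrCharacter G, (χ : G → ℂ) 1 • (χ : G → ℂ) := by
  classical
  have := Cfsg.Agent.Lib.Helper4.finite_irrCharacter (G := G)
  have := Fintype.ofFinite (Cfsg.IrrCharacter G)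
  rw [finsum_eq_sum_of_fintype]
  have hreg := Cfsg.Agent.Lib.Helper4.isCharacter_of_rep (Representation.leftRegular ℂ G)
  conv_lhs => rw [Cfsg.Agent.Lib.Helper4.char_eq_sum_irr hreg]
  refine Finset.sum_congr rfl fun ψ _ => ?_
  congr 1
  rw [Cfsg.classInner]
  simp only [Cfsg.Agent.S0155.result]
  rw [Finset.sum_eq_single 1]
  · obtain ⟨n, hn⟩ := Cfsg.Agent.Lib.Helper4.char_apply_one
      (Cfsg.Agent.Lib.Helper4.isCharacter_of_irr ψ.2)
    rw [if_pos rfl, hn, map_natCast, ← mul_assoc,
      inv_mul_cancel₀ Cfsg.Agent.Lib.Helper4.card_ne_zero', one_mul]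
  · intro g _ hg
    rw [if_neg hg, zero_mul]
  · intro h
    exact absurd (Finset.mem_univ _) h

end Cfsg.Agent.S0156
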