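import Cfsg.Statements.S0162
import Cfsg.Agent.Lib.Helper4.CharConj
import Cfsg.Agent.S0133
import Cfsg.Agent.S0134
import Cfsg.Agent.S0135
import Cfsg.Agent.S0161

set_option autoImplicit false
open Cfsg

namespace Cfsg.Agent.S0162

/-- If a finite group has odd order, its order is congruent to its number of conjugacy classes modulo 16. -/
theorem result {G : Type*} [Group G] [Finite G] (hodd : Odd (Nat.card G)) : Nat.card G ≡ Nat.card (ConjClasses G) [MOD 16] := by
  classical
  have := Fintype.ofFinite G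
  have := Cfsg.Agent.Lib.Helper4.finite_irrCharacter (G := G)
  have := Fintype.ofFinite (Cfsg.IrrCharacter G)
  -- degrees
  have hdeg : ∀ χ : Cfsg.IrrCharacter G, ∃ d : ℕ, (χ : G → ℂ) 1 = d ∧ Odd d := by
    intro χ
    obtain ⟨n, ρ, hρ, hχρ⟩ := χ.2
    refine ⟨n, ?_, ?_⟩
    · rw [← hχρ, Representation.char_one, Module.finrank_fin_fun]
    · have h := Cfsg.Agent.S0135.result ρ
      rw [Module.finrank_fin_fun] at h
      exact Odd.of_dvd_nat hodd h
  choose d hd hdodd using hdeg
  have h134 := Cfsg.Agent.S0134.result (G := G)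
  rw [finsum_eq_sum_of_fintype] at h134
  have hsum : ∑ χ : Cfsg.IrrCharacter G, d χ ^ 2 = Nat.card G := by
    have : ((∑ χ : Cfsg.IrrCharacter G, d χ ^ 2 : ℕ) : ℂ) = (Nat.card G : ℂ) := by
      rw [← h134]
      push_cast
      refine Finset.sum_congr rfl fun χ _ => ?_
      rw [hd]
    exact_mod_cast this
  have hk : Nat.card (ConjClasses G) = ∑ _χ : Cfsg.IrrCharacter G, 1 := by
    rw [← Cfsg.Agent.S0133.result, Nat.card_eq_fintype_card]
    simp
  rw [← ZMod.natCast_eq_natCast_iff, ← hsum, hk]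
  push_cast
  rw [← sub_eq_zero, ← Finset.sum_sub_distrib]
  have hz : ∀ x : ZMod 16, x.val % 2 = 1 → x ^ 2 - 1 + (x ^ 2 - 1) = 0 := by decide
  have hdconj : ∀ χ : Cfsg.IrrCharacter G, d (Cfsg.Agent.Lib.Helper4.irrConj χ) = d χ := by
    intro χ
    have h1 := hd (Cfsg.Agent.Lib.Helper4.irrConj χ)
    rw [Cfsg.Agent.Lib.Helper4.irrConj_apply, hd χ, map_natCast] at h1
    exact_mod_cast h1.symm
  apply Finset.sum_involution (fun χ _ => Cfsg.Agent.Lib.Helper4.irrConj χ)
  · intro χ _
    rw [hdconj]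
    apply hz
    rw [ZMod.val_natCast]
    have := Nat.odd_iff.mp (hdodd χ)
    omega
  · intro χ _ hne hfix
    apply hne
    have hreal := (Cfsg.Agent.Lib.Helper4.irrConj_eq_self_iff χ).mp hfix
    have h1 := Cfsg.Agent.S0161.result hodd χ hreal
    have h2 := hd χ
    rw [h1] at h2
    have h3 : d χ = 1 := by
      have h4 : (1 : ℂ) = (d χ : ℂ) := h2
      exact_mod_cast h4.symm
    rw [h3]
    simp
  · intro χ _
    exact Cfsg.Agent.Lib.Helper4.irrConj_irrConj χ
  · intro χ _
    exact Finset.mem_univ _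

end Cfsg.Agent.S0162
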