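import Cfsg.Statements.S0168
import Cfsg.Agent.Lib.Helper4.CharInner
import Cfsg.Agent.S0139

set_option autoImplicit false
open Cfsg

namespace Cfsg.Agent.S0168

/-- The Burnside–Brauer Theorem. Let χ be the character of a faithful complex representation of a finite group, taking m distinct values. Then every irreducible character has nonzero inner product with χ ^ i for some i < m. -/
theorem result {G : Type*} [Group G] [Fintype G] {V : Type*} [AddCommGroup V] [Module ℂ V] [FiniteDimensional ℂ V] (ρ : Representation ℂ G V) (hfaithful : Function.Injective ρ) (ψ : G → ℂ) (hψ : Cfsg.IsIrrCharacter G ψ) : ∃ i : ℕ, i < Nat.card (Set.range ρ.character) ∧ Cfsg.classInner (fun g => ρ.character g ^ i) ψ ≠ 0 := by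
  classical
  by_contra hcon
  push Not at hcon
  set χ := ρ.character with hχ
  let R : Finset ℂ := Finset.univ.image χ
  have hRcard : R.card = Nat.card (Set.range χ) := by
    rw [Nat.card_eq_fintype_card, ← Set.toFinset_card, Set.toFinset_range]
  let S : Finset ℂ := R.erase (χ 1)
  have h1R : χ 1 ∈ R := Finset.mem_image_of_mem χ (Finset.mem_univ 1)
  have hScard : S.card + 1 = Nat.card (Set.range χ) := by
    rw [← hRcard, Finset.card_erase_of_mem h1R]
    have : 0 < R.card := Finset.card_pos.mpr ⟨_, h1R⟩
    omega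
  let p : Polynomial ℂ := ∏ a ∈ S, (Polynomial.X - Polynomial.C a)
  have hpdeg : p.natDegree = S.card := by
    simp [p]
  have hne : (Nat.card G : ℂ) ≠ 0 := Cfsg.Agent.Lib.Helper4.card_ne_zero'
  have hzero : ∀ i : ℕ, i < Nat.card (Set.range χ) →
      ∑ g : G, χ g ^ i * (starRingEnd ℂ) (ψ g) = 0 := by
    intro i hi
    have h := hcon i hi
    rw [Cfsg.classInner] at h
    exact (mul_eq_zero.mp h).resolve_left (inv_ne_zero hne)
  have hT1 : ∑ g : G, p.eval (χ g) * (starRingEnd ℂ) (ψ g) = 0 := by
    simp only [Polynomial.eval_eq_sum_range, Finset.sum_mul]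
    rw [Finset.sum_comm]
    refine Finset.sum_eq_zero fun i hi => ?_
    have hi' : i < Nat.card (Set.range χ) := by
      have := Finset.mem_range.mp hi
      omega
    have h := hzero i hi'
    calc ∑ g : G, p.coeff i * χ g ^ i * (starRingEnd ℂ) (ψ g)
        = p.coeff i * ∑ g : G, χ g ^ i * (starRingEnd ℂ) (ψ g) := by
          rw [Finset.mul_sum]
          refine Finset.sum_congr rfl fun g _ => ?_
          ring
      _ = 0 := by rw [h, mul_zero]
  have hfaith : ∀ g : G, g ≠ 1 → χ g ≠ χ 1 := by
    intro g hg h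
    rw [hχ, Representation.char_one] at h
    have h2 := (Cfsg.Agent.S0139.result ρ g).mp h
    apply hg
    apply hfaithful
    rw [h2, map_one]
    rfl
  have hT2 : ∑ g : G, p.eval (χ g) * (starRingEnd ℂ) (ψ g) =
      p.eval (χ 1) * (starRingEnd ℂ) (ψ 1) := by
    apply Finset.sum_eq_single
    · intro g _ hg
      have : p.eval (χ g) = 0 := by
        simp only [p, Polynomial.eval_prod]
        apply Finset.prod_eq_zero (i := χ g)
        · exact Finset.mem_erase.mpr ⟨hfaith g hg, Finset.mem_image_of_mem χ (Finset.mem_univ g)⟩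
        · simp
      rw [this, zero_mul]
    · intro h
      exact absurd (Finset.mem_univ _) h
  rw [hT1] at hT2
  have hp1 : p.eval (χ 1) ≠ 0 := by
    simp only [p, Polynomial.eval_prod]
    rw [Finset.prod_ne_zero_iff]
    intro a ha
    simp only [Polynomial.eval_sub, Polynomial.eval_X, Polynomial.eval_C]
    exact sub_ne_zero.mpr (Finset.ne_of_mem_erase ha).symm
  have hψ1 : (starRingEnd ℂ) (ψ 1) ≠ 0 := by
    rw [Ne, map_eq_zero]
    exact Cfsg.Agent.Lib.Helper4.irr_apply_one_ne_zero hψ
  exact (mul_ne_zero hp1 hψ1) hT2.symm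

end Cfsg.Agent.S0168
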