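import Cfsg.Statements.S0170
import Cfsg.Agent.Lib.Helper4.CharDecomp
import Cfsg.Agent.Lib.Helper19.GramRigid
import Cfsg.Agent.Lib.Helper32.GenChar
import Cfsg.Agent.S0148
import Cfsg.Agent.S0150

set_option autoImplicit false
open Cfsg

namespace Cfsg.Agent.S0170

theorem comb {ι α : Type*} (a b : ι → α)
    (hL : ∀ i j, i ≠ j → (a i = a j ∧ b i ≠ b j) ∨ (b i = b j ∧ a i ≠ a j)) :
    (∀ i j, a i = a j) ∨ (∀ i j, b i = b j) := by
  classical
  have hE : ∀ i j, i ≠ j → ¬ (a i = a j ∧ b i = b j) := by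
    intro i j hij ⟨h1, h2⟩
    rcases hL i j hij with ⟨-, h⟩ | ⟨-, h⟩
    · exact h h2
    · exact h h1
  have hV : ∀ i j l, i ≠ j → i ≠ l → b i = b j → a i = a l → False := by
    intro i j l hij hil hb ha
    by_cases hjl : j = l
    · subst hjl
      exact hE i j hij ⟨ha, hb⟩
    · rcases hL j l hjl with ⟨h, -⟩ | ⟨h, -⟩
      · exact hE i j hij ⟨ha.trans h.symm, hb⟩
      · exact hE i l hil ⟨ha, hb.trans h⟩
  by_contra hcon
  push Not at hcon
  obtain ⟨⟨i, j, hij⟩, ⟨k, l, hkl⟩⟩ := hcon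
  have hij' : i ≠ j := fun h => hij (by rw [h])
  have hkl' : k ≠ l := fun h => hkl (by rw [h])
  have hb : b i = b j := by
    rcases hL i j hij' with ⟨h, -⟩ | ⟨h, -⟩
    · exact absurd h hij
    · exact h
  have ha : a k = a l := by
    rcases hL k l hkl' with ⟨h, -⟩ | ⟨h, -⟩
    · exact h
    · exact absurd h hkl
  by_cases hik : i = k
  · subst hik
    exact hV i j l hij' hkl' hb ha
  · rcases hL i k hik with ⟨h, -⟩ | ⟨h, -⟩
    · exact hV i j k hij' hik hb h
    · exact hV k i l (Ne.symm hik) hkl' h.symm ha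

open Cfsg.Agent.Lib.Helper4 in
theorem share {G : Type*} [Group G] [Fintype G] {a b a' b' : G → ℂ}
    (ha : Cfsg.IsIrrCharacter G a) (hb : Cfsg.IsIrrCharacter G b)
    (ha' : Cfsg.IsIrrCharacter G a') (hb' : Cfsg.IsIrrCharacter G b')
    (hab : a ≠ b) (hab' : a' ≠ b') (h : Cfsg.classInner (a - b) (a' - b') = 1) :
    (a = a' ∧ b ≠ b') ∨ (b = b' ∧ a ≠ a') := by
  classical
  rw [classInner_sub_left, classInner_sub_right, classInner_sub_right, classInner_irr ha ha',
    classInner_irr ha hb', classInner_irr hb ha', classInner_irr hb hb'] at h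
  by_cases h1 : a = a'
  · by_cases h2 : b = b'
    · exfalso
      subst h1 h2
      rw [if_pos rfl, if_neg hab, if_neg (Ne.symm hab), if_pos rfl] at h
      norm_num at h
    · exact Or.inl ⟨h1, h2⟩
  · by_cases h2 : b = b'
    · exact Or.inr ⟨h2, h1⟩
    · exfalso
      rw [if_neg h1, if_neg h2] at h
      split_ifs at h <;> norm_num at h

theorem indFun_sub' {G : Type*} [Group G] [Fintype G] (H : Subgroup G) (θ θ' : H → ℂ) :
    Cfsg.indFun H (θ - θ') = Cfsg.indFun H θ - Cfsg.indFun H θ' := by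
  have : θ - θ' = θ + (-1 : ℂ) • θ' := by
    rw [neg_one_smul, sub_eq_add_neg]
  rw [this, Cfsg.Agent.Lib.Helper19.indFun_add, Cfsg.Agent.Lib.Helper19.indFun_smul, neg_one_smul,
    sub_eq_add_neg]


/-- Exceptional characters. Let S be a subset of a finite group contained in its normalizer N and meeting its conjugates by elements outside N only in the identity. Given n ≥ 2 distinct irreducible characters of N of equal degree that vanish on N away from S, there exist a sign ε and n distinct irreducible characters θ_i of G such that inducing χ_i − χ_j to G gives ε (θ_i − θ_j) for all i, j. -/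
theorem result {G : Type*} [Group G] [Fintype G] (S : Set G) (hSN : S ⊆ Subgroup.normalizer S) (hTI : ∀ g : G, g ∉ Subgroup.normalizer S → ∀ s ∈ S, g * s * g⁻¹ ∈ S → s = 1) (n : ℕ) (hn : 2 ≤ n) (χ : Fin n → (Subgroup.normalizer S → ℂ)) (hirr : ∀ i, Cfsg.IsIrrCharacter (Subgroup.normalizer S) (χ i)) (hinj : Function.Injective χ) (hvan : ∀ i, ∀ x : Subgroup.normalizer S, (x : G) ∉ S → χ i x = 0) (hdeg : ∀ i j, χ i 1 = χ j 1) : ∃ ε : ℂ, (ε = 1 ∨ ε = -1) ∧ ∃ θ : Fin n → (G → ℂ), (∀ i, Cfsg.IsIrrCharacter G (θ i)) ∧ Function.Injective θ ∧ ∀ i j, Cfsg.indFun (Subgroup.normalizer S) (χ i) - Cfsg.indFun (Subgroup.normalizer S) (χ j) = ε • (θ i - θ j) := by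
  classical
  have := Fintype.ofFinite (Subgroup.normalizer S)
  let i0 : Fin n := ⟨0, by omega⟩
  let i1 : Fin n := ⟨1, by omega⟩
  have hi10 : i1 ≠ i0 := by
    intro h
    have := congrArg Fin.val h
    simp [i0, i1] at this
  have hcl : ∀ i, Cfsg.IsClassFunction (Subgroup.normalizer S) (χ i) := fun i =>
    Cfsg.Agent.Lib.Helper4.isClassFunction_of_char
      (Cfsg.Agent.Lib.Helper4.isCharacter_of_irr (hirr i))
  have hclsub : ∀ i j, Cfsg.IsClassFunction (Subgroup.normalizer S) (χ i - χ j) := by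
    intro i j g h
    simp only [Pi.sub_apply]
    rw [hcl i g h, hcl j g h]
  have hvansub : ∀ i j, ∀ x : (Subgroup.normalizer S), (x : G) ∉ S → (χ i - χ j) x = 0 := by
    intro i j x hx
    simp only [Pi.sub_apply]
    rw [hvan i x hx, hvan j x hx, sub_zero]
  have hone : ∀ i j, (χ i - χ j) 1 = 0 := by
    intro i j
    simp only [Pi.sub_apply]
    rw [hdeg i j, sub_self]
  let Δ : Fin n → (G → ℂ) := fun i => Cfsg.indFun (Subgroup.normalizer S) (χ i0) - Cfsg.indFun (Subgroup.normalizer S) (χ i)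
  have hΔ : ∀ i, Δ i = Cfsg.indFun (Subgroup.normalizer S) (χ i0 - χ i) := fun i => (indFun_sub' (Subgroup.normalizer S) _ _).symm
  have hinner : ∀ i j, i ≠ i0 → j ≠ i0 →
      Cfsg.classInner (Δ i) (Δ j) = if i = j then 2 else 1 := by
    intro i j hi hj
    rw [hΔ, hΔ, Cfsg.Agent.S0150.result S hTI hSN _ _ (hclsub i0 i) (hclsub i0 j) (hvansub i0 i)
      (hvansub i0 j) (hone i0 i)]
    rw [Cfsg.Agent.Lib.Helper4.classInner_sub_left, Cfsg.Agent.Lib.Helper4.classInner_sub_right,
      Cfsg.Agent.Lib.Helper4.classInner_sub_right,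
      Cfsg.Agent.Lib.Helper4.classInner_irr_self (hirr i0),
      Cfsg.Agent.Lib.Helper4.classInner_irr_ne (hirr i0) (hirr j) (fun h => hj (hinj h).symm),
      Cfsg.Agent.Lib.Helper4.classInner_irr_ne (hirr i) (hirr i0) (fun h => hi (hinj h)),
      Cfsg.Agent.Lib.Helper4.classInner_irr (hirr i) (hirr j)]
    by_cases hij : i = j
    · subst hij
      rw [if_pos rfl, if_pos rfl]; norm_num
    · rw [if_neg hij, if_neg (fun h => hij (hinj h))]; norm_num
  have hgen : ∀ i, Cfsg.IsGeneralizedCharacter G (Δ i) := fun i =>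
    ⟨_, _, Cfsg.Agent.S0148.result (Subgroup.normalizer S) _ (Cfsg.Agent.Lib.Helper4.isCharacter_of_irr (hirr i0)),
      Cfsg.Agent.S0148.result (Subgroup.normalizer S) _ (Cfsg.Agent.Lib.Helper4.isCharacter_of_irr (hirr i)), rfl⟩
  have hΔ1 : ∀ i, Δ i 1 = 0 := by
    intro i
    rw [hΔ, Cfsg.Agent.Lib.Helper19.indFun_apply_one, hone, mul_zero]
  have hex : ∀ i : {i : Fin n // i ≠ i0}, ∃ μ₁ μ₂ : G → ℂ, Cfsg.IsIrrCharacter G μ₁ ∧
      Cfsg.IsIrrCharacter G μ₂ ∧ μ₁ ≠ μ₂ ∧ Δ i = μ₁ - μ₂ := by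
    intro i
    apply Cfsg.Agent.Lib.Helper32.genChar_norm_two (hgen i) _ (hΔ1 i)
    rw [hinner i i i.2 i.2, if_pos rfl]
  choose a b ha hb hab hΔab using hex
  have hL : ∀ i j : {i : Fin n // i ≠ i0}, i ≠ j →
      (a i = a j ∧ b i ≠ b j) ∨ (b i = b j ∧ a i ≠ a j) := by
    intro i j hij
    apply share (ha i) (hb i) (ha j) (hb j) (hab i) (hab j)
    rw [← hΔab, ← hΔab, hinner i j i.2 j.2, if_neg (fun h => hij (Subtype.ext h))]
  have hgoal : ∀ (ε : ℂ) (θ : Fin n → (G → ℂ)), (∀ i, Δ i = ε • (θ i0 - θ i)) →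
      ∀ i j, Cfsg.indFun (Subgroup.normalizer S) (χ i) - Cfsg.indFun (Subgroup.normalizer S) (χ j) = ε • (θ i - θ j) := by
    intro ε θ h i j
    have h1 : Cfsg.indFun (Subgroup.normalizer S) (χ i) - Cfsg.indFun (Subgroup.normalizer S) (χ j) = Δ j - Δ i := by
      simp only [Δ]; abel
    rw [h1, h i, h j, ← smul_sub]
    congr 1
    abel
  rcases comb a b hL with hA | hB
  · refine ⟨1, Or.inl rfl, fun i => if h : i = i0 then a ⟨i1, hi10⟩ else b ⟨i, h⟩, ?_, ?_, ?_⟩
    · intro i
      by_cases h : i = i0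
      · simp only [h, dif_pos]; exact ha _
      · simp only [h, dif_neg, not_false_eq_true]; exact hb _
    · intro i j hij
      by_cases hi : i = i0 <;> by_cases hj : j = i0
      · rw [hi, hj]
      · exfalso
        simp only [hi, hj, dif_pos, dif_neg, not_false_eq_true] at hij
        exact hab ⟨j, hj⟩ ((hA _ _).trans hij)
      · exfalso
        simp only [hi, hj, dif_pos, dif_neg, not_false_eq_true] at hij
        exact hab ⟨i, hi⟩ ((hA _ _).trans hij.symm)
      · simp only [hi, hj, dif_neg, not_false_eq_true] at hij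
        by_contra hne
        rcases hL ⟨i, hi⟩ ⟨j, hj⟩ (fun h => hne (congrArg Subtype.val h)) with ⟨-, h⟩ | ⟨-, h⟩
        · exact h hij
        · exact h (hA _ _)
    · apply hgoal
      intro i
      by_cases hi : i = i0
      · simp only [hi, dif_pos, sub_self, smul_zero, Δ]
      · simp only [hi, dif_pos, dif_neg, not_false_eq_true, one_smul]
        rw [hΔab ⟨i, hi⟩, hA ⟨i, hi⟩ ⟨i1, hi10⟩]
  · refine ⟨-1, Or.inr rfl, fun i => if h : i = i0 then b ⟨i1, hi10⟩ else a ⟨i, h⟩, ?_, ?_, ?_⟩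
    · intro i
      by_cases h : i = i0
      · simp only [h, dif_pos]; exact hb _
      · simp only [h, dif_neg, not_false_eq_true]; exact ha _
    · intro i j hij
      by_cases hi : i = i0 <;> by_cases hj : j = i0
      · rw [hi, hj]
      · exfalso
        simp only [hi, hj, dif_pos, dif_neg, not_false_eq_true] at hij
        exact hab ⟨j, hj⟩ (hij.symm.trans (hB _ _))
      · exfalso
        simp only [hi, hj, dif_pos, dif_neg, not_false_eq_true] at hij
        exact hab ⟨i, hi⟩ (hij.trans (hB _ _))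
      · simp only [hi, hj, dif_neg, not_false_eq_true] at hij
        by_contra hne
        rcases hL ⟨i, hi⟩ ⟨j, hj⟩ (fun h => hne (congrArg Subtype.val h)) with ⟨-, h⟩ | ⟨-, h⟩
        · exact h (hB _ _)
        · exact h hij
    · apply hgoal
      intro i
      by_cases hi : i = i0
      · simp only [hi, dif_pos, sub_self, smul_zero, Δ]
      · simp only [hi, dif_pos, dif_neg, not_false_eq_true, neg_one_smul, neg_sub]
        rw [hΔab ⟨i, hi⟩, hB ⟨i, hi⟩ ⟨i1, hi10⟩]

end Cfsg.Agent.S0170
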