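import Cfsg.Statements.S0172
import Mathlib

set_option autoImplicit false
open Cfsg

namespace Cfsg.Agent.S0172

section
set_option linter.unusedSectionVars false
variable {G : Type*} [Group G] [Finite G] (K H : Subgroup G) [K.Normal]

theorem exists_factor (hKH' : K ⊔ H = ⊤) (g : G) : ∃ k ∈ K, ∃ h ∈ H, g = k * h := by
  have h1 : g ∈ ((K ⊔ H : Subgroup G) : Set G) := by rw [hKH']; trivial
  rw [Subgroup.normal_mul] at h1
  obtain ⟨k, hk, h, hh, rfl⟩ := Set.mem_mul.mp h1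
  exact ⟨k, hk, h, hh, rfl⟩

theorem mem_bot_of (hKH : K ⊓ H = ⊥) {g : G} (h1 : g ∈ K) (h2 : g ∈ H) : g = 1 := by
  have : g ∈ K ⊓ H := ⟨h1, h2⟩
  rw [hKH] at this
  exact Subgroup.mem_bot.mp this

theorem conj_inj (hfpf : ∀ h ∈ H, h ≠ 1 → ∀ k ∈ K, h * k = k * h → k = 1)
    {h : G} (hh : h ∈ H) (h1 : h ≠ 1) {x y : G} (hx : x ∈ K) (hy : y ∈ K)
    (hxy : x * h * x⁻¹ = y * h * y⁻¹) : x = y := by
  have h2 : y⁻¹ * x = 1 := by
    apply hfpf h hh h1 _ (mul_mem (inv_mem hy) hx)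
    calc h * (y⁻¹ * x) = y⁻¹ * (y * h * y⁻¹) * x := by group
      _ = y⁻¹ * (x * h * x⁻¹) * x := by rw [hxy]
      _ = y⁻¹ * x * h := by group
  calc x = y * (y⁻¹ * x) := by group
    _ = y := by rw [h2, mul_one]

theorem lemmaA (hKH' : K ⊔ H = ⊤)
    (hfpf : ∀ h ∈ H, h ≠ 1 → ∀ k ∈ K, h * k = k * h → k = 1) (a : G) (ha : a ∉ K) :
    ∃ x ∈ K, ∃ h ∈ H, h ≠ 1 ∧ a = x * h * x⁻¹ := by
  obtain ⟨k, hk, h, hh, rfl⟩ := exists_factor K H hKH' a
  have h1 : h ≠ 1 := by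
    rintro rfl
    exact ha (by simpa using hk)
  let φ : K → K := fun x => ⟨x * (h * x⁻¹ * h⁻¹),
    mul_mem x.2 (Subgroup.Normal.conj_mem inferInstance _ (inv_mem x.2) h)⟩
  have hinj : Function.Injective φ := by
    intro x y hxy
    apply Subtype.ext
    apply conj_inj K H hfpf hh h1 x.2 y.2
    have h2 : (x : G) * (h * (x : G)⁻¹ * h⁻¹) = y * (h * (y : G)⁻¹ * h⁻¹) := congrArg Subtype.val hxy
    calc (x : G) * h * (x : G)⁻¹ = (x * (h * (x : G)⁻¹ * h⁻¹)) * h := by group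
      _ = (y * (h * (y : G)⁻¹ * h⁻¹)) * h := by rw [h2]
      _ = _ := by group
  obtain ⟨x, hx⟩ := (Finite.injective_iff_surjective.mp hinj) ⟨k, hk⟩
  refine ⟨x, x.2, h, hh, h1, ?_⟩
  have h2 : (x : G) * (h * (x : G)⁻¹ * h⁻¹) = k := congrArg Subtype.val hx
  rw [← h2]
  group

theorem lemmaB (hKH : K ⊓ H = ⊥) (hKH' : K ⊔ H = ⊤)
    (hfpf : ∀ h ∈ H, h ≠ 1 → ∀ k ∈ K, h * k = k * h → k = 1) {h : G} (hh : h ∈ H) (h1 : h ≠ 1)
    (g : G) (hg : Commute h g) : g ∈ H := by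
  obtain ⟨k, hk, h', hh', rfl⟩ := exists_factor K H hKH' g
  have h2 : (h * k * h⁻¹)⁻¹ * k = h * h' * h⁻¹ * h'⁻¹ := by
    have e : h * (k * h') = k * h' * h := hg
    have e2 : k * h' = h * (k * h') * h⁻¹ := by rw [e]; group
    calc (h * k * h⁻¹)⁻¹ * k = (h * k * h⁻¹)⁻¹ * (k * h') * h'⁻¹ := by group
      _ = (h * k * h⁻¹)⁻¹ * (h * (k * h') * h⁻¹) * h'⁻¹ := by rw [← e2]
      _ = _ := by group
  have h3 : (h * k * h⁻¹)⁻¹ * k = 1 := by
    apply mem_bot_of K H hKH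
    · exact mul_mem (inv_mem (Subgroup.Normal.conj_mem inferInstance _ hk h)) hk
    · rw [h2]
      exact mul_mem (mul_mem (mul_mem hh hh') (inv_mem hh)) (inv_mem hh')
  have h4 : k = 1 := by
    apply hfpf h hh h1 k hk
    have : k = h * k * h⁻¹ := by
      have := eq_of_inv_mul_eq_one h3
      exact this.symm
    calc h * k = (h * k * h⁻¹) * h := by group
      _ = k * h := by rw [← this]
  rw [h4, one_mul]
  exact hh'

/-- commuting pairs -/
abbrev CP (A : Type*) [Group A] := {p : A × A // Commute p.1 p.2}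

theorem conj_mem_K_iff (x g : G) : x * g * x⁻¹ ∈ K ↔ g ∈ K := by
  constructor
  · intro h
    have := Subgroup.Normal.conj_mem (inferInstance : K.Normal) _ h x⁻¹
    simpa [mul_assoc] using this
  · intro h
    exact Subgroup.Normal.conj_mem inferInstance _ h x

theorem coset_eq (hKH : K ⊓ H = ⊥) {x y h g : G} (hx : x ∈ K) (hy : y ∈ K) (hh : h ∈ H) (hg : g ∈ H)
    (e : x * h * x⁻¹ = y * g * y⁻¹) : h = g := by
  have h1 : g⁻¹ * h = 1 := by
    apply mem_bot_of K H hKH _ (mul_mem (inv_mem hg) hh)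
    have e3 : g⁻¹ * h = g⁻¹ * (x⁻¹ * (y * g * y⁻¹) * x) := by rw [← e]; group
    have e4 : g⁻¹ * (x⁻¹ * (y * g * y⁻¹) * x) = (g⁻¹ * (x⁻¹ * y) * g⁻¹⁻¹) * (y⁻¹ * x) := by group
    rw [e3, e4]
    exact mul_mem (Subgroup.Normal.conj_mem inferInstance _ (mul_mem (inv_mem hx) hy) _)
      (mul_mem (inv_mem hy) hx)
  exact (eq_of_inv_mul_eq_one h1).symm

theorem key_count (hKH : K ⊓ H = ⊥) (hKH' : K ⊔ H = ⊤)
    (hfpf : ∀ h ∈ H, h ≠ 1 → ∀ k ∈ K, h * k = k * h → k = 1) :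
    Nat.card (CP G) = Nat.card (CP K) + Nat.card K * (Nat.card (CP H) - 1) := by
  classical
  let Q : CP G → Prop := fun p => p.1.1 ∈ K ∧ p.1.2 ∈ K
  have e0 := Equiv.sumCompl Q
  rw [← Nat.card_congr e0, Nat.card_sum]
  congr 1
  · apply Nat.card_congr
    exact
      { toFun := fun p => ⟨(⟨p.1.1.1, p.2.1⟩, ⟨p.1.1.2, p.2.2⟩), Subtype.ext p.1.2⟩
        invFun := fun q => ⟨⟨(q.1.1.1, q.1.2.1), congrArg Subtype.val q.2⟩, q.1.1.2, q.1.2.2⟩
        left_inv := fun p => rfl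
        right_inv := fun q => rfl }
  · have e1 : Nat.card {q : CP H // q ≠ ⟨(1, 1), Commute.one_left 1⟩} = Nat.card (CP H) - 1 := by
      have : Fintype (CP H) := Fintype.ofFinite _
      rw [Nat.card_eq_fintype_card, Nat.card_eq_fintype_card, Fintype.card_subtype_compl,
        Fintype.card_subtype_eq]
    rw [← e1, ← Nat.card_prod]
    symm
    let Φ : K × {q : CP H // q ≠ ⟨(1, 1), Commute.one_left 1⟩} → {p : CP G // ¬ Q p} := fun z =>
      ⟨⟨((z.1 : G) * z.2.1.1.1 * (z.1 : G)⁻¹, (z.1 : G) * z.2.1.1.2 * (z.1 : G)⁻¹), by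
        have hc : (z.2.1.1.1 : G) * z.2.1.1.2 = z.2.1.1.2 * z.2.1.1.1 := congrArg Subtype.val z.2.1.2
        change (z.1 : G) * z.2.1.1.1 * (z.1 : G)⁻¹ * ((z.1 : G) * z.2.1.1.2 * (z.1 : G)⁻¹)
          = (z.1 : G) * z.2.1.1.2 * (z.1 : G)⁻¹ * ((z.1 : G) * z.2.1.1.1 * (z.1 : G)⁻¹)
        calc (z.1 : G) * z.2.1.1.1 * (z.1 : G)⁻¹ * ((z.1 : G) * z.2.1.1.2 * (z.1 : G)⁻¹)
            = (z.1 : G) * (z.2.1.1.1 * z.2.1.1.2) * (z.1 : G)⁻¹ := by group
          _ = (z.1 : G) * (z.2.1.1.2 * z.2.1.1.1) * (z.1 : G)⁻¹ := by rw [hc]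
          _ = _ := by group⟩, by
        rintro ⟨h1, h2⟩
        apply z.2.2
        change (z.1 : G) * z.2.1.1.1 * (z.1 : G)⁻¹ ∈ K at h1
        change (z.1 : G) * z.2.1.1.2 * (z.1 : G)⁻¹ ∈ K at h2
        rw [conj_mem_K_iff] at h1 h2
        apply Subtype.ext
        apply Prod.ext
        · exact Subtype.ext (mem_bot_of K H hKH h1 z.2.1.1.1.2)
        · exact Subtype.ext (mem_bot_of K H hKH h2 z.2.1.1.2.2)⟩
    apply Nat.card_congr
    apply Equiv.ofBijective Φ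
    constructor
    · rintro ⟨x, ⟨⟨⟨h, h'⟩, hc⟩, hne⟩⟩ ⟨y, ⟨⟨⟨g, g'⟩, hc'⟩, hne'⟩⟩ e
      have e1 : (x : G) * h * (x : G)⁻¹ = y * g * (y : G)⁻¹ :=
        congrArg (fun p : {p : CP G // ¬ Q p} => p.1.1.1) e
      have e2 : (x : G) * h' * (x : G)⁻¹ = y * g' * (y : G)⁻¹ :=
        congrArg (fun p : {p : CP G // ¬ Q p} => p.1.1.2) e
      have f1 : (h : G) = g := coset_eq K H hKH x.2 y.2 h.2 g.2 e1
      have f2 : (h' : G) = g' := coset_eq K H hKH x.2 y.2 h'.2 g'.2 e2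
      have f1' : h = g := Subtype.ext f1
      have f2' : h' = g' := Subtype.ext f2
      subst f1' f2'
      have hxy : x = y := by
        by_cases hh : (h : G) = 1
        · have hh' : (h' : G) ≠ 1 := by
            intro hh'
            apply hne
            apply Subtype.ext
            exact Prod.ext (Subtype.ext hh) (Subtype.ext hh')
          exact Subtype.ext (conj_inj K H hfpf h'.2 hh' x.2 y.2 e2)
        · exact Subtype.ext (conj_inj K H hfpf h.2 hh x.2 y.2 e1)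
      subst hxy
      rfl
    · rintro ⟨⟨⟨a, b⟩, hab⟩, hQ⟩
      have hab' : Commute a b := hab
      have main : ∀ a b : G, Commute a b → a ∉ K → ∃ x ∈ K, ∃ h ∈ H, ∃ h' ∈ H, h ≠ 1 ∧
          a = x * h * x⁻¹ ∧ b = x * h' * x⁻¹ := by
        intro a b hab ha
        obtain ⟨x, hx, h, hh, h1, rfl⟩ := lemmaA K H hKH' hfpf a ha
        refine ⟨x, hx, h, hh, x⁻¹ * b * x, ?_, h1, rfl, by group⟩
        apply lemmaB K H hKH hKH' hfpf hh h1
        have e : x * h * x⁻¹ * b = b * (x * h * x⁻¹) := hab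
        change h * (x⁻¹ * b * x) = x⁻¹ * b * x * h
        calc h * (x⁻¹ * b * x) = x⁻¹ * (x * h * x⁻¹ * b) * x := by group
          _ = x⁻¹ * (b * (x * h * x⁻¹)) * x := by rw [e]
          _ = _ := by group
      have comm_of : ∀ (x h h' : G), Commute (x * h * x⁻¹) (x * h' * x⁻¹) → h * h' = h' * h := by
        intro x h h' e
        have e' : x * h * x⁻¹ * (x * h' * x⁻¹) = x * h' * x⁻¹ * (x * h * x⁻¹) := e
        calc h * h' = x⁻¹ * (x * h * x⁻¹ * (x * h' * x⁻¹)) * x := by group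
          _ = x⁻¹ * (x * h' * x⁻¹ * (x * h * x⁻¹)) * x := by rw [e']
          _ = _ := by group
      by_cases ha : a ∈ K
      · have hb : b ∉ K := fun hb => hQ ⟨ha, hb⟩
        obtain ⟨x, hx, h, hh, h', hh', h1, rfl, rfl⟩ := main b a hab'.symm hb
        refine ⟨(⟨x, hx⟩, ⟨⟨(⟨h', hh'⟩, ⟨h, hh⟩), Subtype.ext (comm_of x h' h hab')⟩, ?_⟩), rfl⟩
        intro e
        apply h1
        exact congrArg (fun p : CP H => (p.1.2 : G)) e
      · obtain ⟨x, hx, h, hh, h', hh', h1, rfl, rfl⟩ := main a b hab' ha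
        refine ⟨(⟨x, hx⟩, ⟨⟨(⟨h, hh⟩, ⟨h', hh'⟩), Subtype.ext (comm_of x h h' hab')⟩, ?_⟩), rfl⟩
        intro e
        apply h1
        exact congrArg (fun p : CP H => (p.1.1 : G)) e

end

/-- Class number of a Frobenius group: if G = K H with K normal, K ⊓ H trivial and no non-identity element of H commuting with a non-identity element of K, then |H| * k(G) + 1 = |H| * k(H) + k(K), where k denotes the number of conjugacy classes. -/
theorem result {G : Type*} [Group G] [Finite G] (K H : Subgroup G) [K.Normal] (hKH : K ⊓ H = ⊥) (hKH' : K ⊔ H = ⊤) (hfpf : ∀ h ∈ H, h ≠ 1 → ∀ k ∈ K, h * k = k * h → k = 1) : Nat.card H * Nat.card (ConjClasses G) + 1 = Nat.card H * Nat.card (ConjClasses H) + Nat.card (ConjClasses K) := by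
  have h1 := key_count K H hKH hKH' hfpf
  rw [card_comm_eq_card_conjClasses_mul_card, card_comm_eq_card_conjClasses_mul_card,
    card_comm_eq_card_conjClasses_mul_card] at h1
  have hcompl : Subgroup.IsComplement' K H := by
    apply Subgroup.isComplement'_of_disjoint_and_mul_eq_univ
    · rw [disjoint_iff]; exact hKH
    · rw [← Subgroup.normal_mul, hKH']; rfl
  have hcard : Nat.card K * Nat.card H = Nat.card G := hcompl.card_mul_card
  have hKpos : 0 < Nat.card K := Nat.card_pos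
  have hHpos : 0 < Nat.card H := Nat.card_pos
  have hcHpos : 0 < Nat.card (ConjClasses H) := Nat.card_pos
  have hpos : 0 < Nat.card (ConjClasses H) * Nat.card H := Nat.mul_pos hcHpos hHpos
  rw [← hcard] at h1
  obtain ⟨m, hm⟩ : ∃ m, Nat.card (ConjClasses H) * Nat.card H = m + 1 := ⟨_, (Nat.succ_pred_eq_of_pos hpos).symm⟩
  rw [hm, Nat.add_sub_cancel] at h1
  have h2 : Nat.card K * (Nat.card H * Nat.card (ConjClasses G)) = Nat.card K * (Nat.card (ConjClasses K) + m) := by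
    calc Nat.card K * (Nat.card H * Nat.card (ConjClasses G))
        = Nat.card (ConjClasses G) * (Nat.card K * Nat.card H) := by ring
      _ = Nat.card (ConjClasses K) * Nat.card K + Nat.card K * m := h1
      _ = _ := by ring
  have h3 := Nat.eq_of_mul_eq_mul_left hKpos h2
  rw [h3, mul_comm (Nat.card H), hm]
  ring

end Cfsg.Agent.S0172
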