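import Cfsg.Statements.S0173
import Cfsg.Agent.Lib.Helper79.PermLemma
import Cfsg.Agent.Lib.Helper82.Basic

set_option autoImplicit false
open Cfsg

namespace Cfsg.Agent.S0173

/-- Brauer's permutation lemma for a single automorphism: the number of conjugacy classes mapped to themselves equals the number of irreducible complex characters χ with χ ∘ α = χ. -/
theorem result {G : Type*} [Group G] [Finite G] (α : G ≃* G) : Nat.card {C : ConjClasses G // ConjClasses.map α.toMonoidHom C = C} = Nat.card {χ : Cfsg.IrrCharacter G // (χ : G → ℂ) ∘ α = (χ : G → ℂ)} := by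
  have h := Cfsg.Agent.Lib.Helper79.card_fixed_irr_eq (G := G) (fun g => α g)
    (fun χ hχ => Cfsg.Agent.Lib.Helper82.isIrr_comp_surj hχ α.toMonoidHom α.surjective)
    (fun C => ConjClasses.map α.toMonoidHom C = C)
    (fun g => by
      show ConjClasses.mk (α g) = ConjClasses.mk g ↔ _
      exact ConjClasses.mk_eq_mk_iff_isConj)
  rw [← h]
  apply Nat.card_congr
  apply Equiv.subtypeEquivRight
  intro χ
  exact ⟨fun h => funext h, fun h g => congrFun h g⟩

end Cfsg.Agent.S0173
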