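import Cfsg.Statements.S0177
import Cfsg.Agent.Lib.Helper19.GramRigid
import Cfsg.Agent.Lib.Helper19.LinChar
import Cfsg.Agent.Lib.Helper79.Central

set_option autoImplicit false
open Cfsg

namespace Cfsg.Agent.S0177

open Cfsg.Agent.Lib.Helper20 Cfsg.Agent.Lib.Helper19

section
variable {G : Type*} [Group G] [Fintype G]

def IsArtin (f : G → ℂ) : Prop :=
  ∃ l : List ((A : Subgroup G) × ((A →* ℂˣ) × ℤ)), (∀ t ∈ l, IsCyclic t.1) ∧
    f = (l.map fun t => (t.2.2 : ℂ) • Cfsg.indFun t.1 (fun a => (t.2.1 a : ℂ))).sum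

theorem isArtin_zero : IsArtin (0 : G → ℂ) := ⟨[], by simp, by simp⟩

theorem isArtin_add {f g : G → ℂ} (hf : IsArtin f) (hg : IsArtin g) : IsArtin (f + g) := by
  obtain ⟨l₁, h₁, rfl⟩ := hf
  obtain ⟨l₂, h₂, rfl⟩ := hg
  refine ⟨l₁ ++ l₂, ?_, by rw [List.map_append, List.sum_append]⟩
  intro t ht
  rcases List.mem_append.mp ht with h | h
  · exact h₁ t h
  · exact h₂ t h

theorem isArtin_smul {f : G → ℂ} (hf : IsArtin f) (n : ℤ) : IsArtin ((n : ℂ) • f) := by
  obtain ⟨l, h, rfl⟩ := hf
  refine ⟨l.map (fun t => ⟨t.1, t.2.1, n * t.2.2⟩), ?_, ?_⟩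
  · intro t ht
    obtain ⟨s, hs, rfl⟩ := List.mem_map.mp ht
    exact h s hs
  · clear h
    induction l with
    | nil => simp
    | cons a l ih =>
      simp only [List.map_cons, List.sum_cons, smul_add]
      rw [ih]
      congr 1
      rw [smul_smul]
      push_cast
      rfl

theorem isArtin_sum {ι : Type*} (s : Finset ι) (f : ι → G → ℂ) (h : ∀ i ∈ s, IsArtin (f i)) :
    IsArtin (∑ i ∈ s, f i) := by
  classical
  induction s using Finset.induction_on with
  | empty => simpa using isArtin_zero
  | insert a s ha ih =>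
    rw [Finset.sum_insert ha]
    exact isArtin_add (h a (Finset.mem_insert_self a s))
      (ih fun i hi => h i (Finset.mem_insert_of_mem hi))

theorem isArtin_base (A : Subgroup G) (hA : IsCyclic A) (lam : A →* ℂˣ) :
    IsArtin (Cfsg.indFun A (fun a => (lam a : ℂ))) := by
  refine ⟨[⟨A, lam, 1⟩], ?_, by simp⟩
  intro t ht
  rw [List.mem_singleton] at ht
  rw [ht]
  exact hA

theorem isArtin_ind_char (A : Subgroup G) (hA : IsCyclic A) {ψ : A → ℂ} (hψ : IsCharacter A ψ) :
    IsArtin (Cfsg.indFun A ψ) := by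
  obtain ⟨l, rfl⟩ := exists_multiset_of_isCharacter hψ
  induction l using Multiset.induction_on with
  | empty =>
    simp only [Multiset.map_zero, Multiset.sum_zero]
    rw [indFun_zero]
    exact isArtin_zero
  | cons a l ih =>
    rw [Multiset.map_cons, Multiset.sum_cons, indFun_add]
    refine isArtin_add ?_ (ih (isCharacter_multiset_sum l))
    have hc : ∀ x y : A, x * y = y * x := by
      have := hA.isMulCommutative
      exact fun x y => this.is_comm.comm x y
    have h1 := Cfsg.Agent.Lib.Helper79.IsIrrCharacter.one_eq_one_of_comm a.2 hc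
    obtain ⟨f, hf⟩ := exists_hom_of_linear a.1 ⟨isCharacter_of_isIrrCharacter a.2, h1⟩
    rw [hf]
    exact isArtin_base A hA f

open Classical in
noncomputable def FF (χ : G → ℂ) (B : Subgroup G) : G → ℂ :=
  fun g => ∑ x : G, if Subgroup.zpowers (x⁻¹ * g * x) = B then χ g else 0

open Classical in
theorem sum_FF [Fintype (Subgroup G)] (χ : G → ℂ) (A : Subgroup G) (g : G) :
    ∑ B ∈ Finset.univ.filter (fun B : Subgroup G => B ≤ A), FF χ B g =
      ∑ x : G, if x⁻¹ * g * x ∈ A then χ g else 0 := by
  unfold FF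
  rw [Finset.sum_comm]
  apply Finset.sum_congr rfl
  intro x _
  rw [Finset.sum_ite_eq]
  simp only [Finset.mem_filter, Finset.mem_univ, true_and, Subgroup.zpowers_le]

open Classical in
theorem sum_FF' [Fintype (Subgroup G)] {χ : G → ℂ} (hχ : IsClassFunction G χ) (A : Subgroup G) :
    ∑ B ∈ Finset.univ.filter (fun B : Subgroup G => B ≤ A), FF χ B =
      ((Nat.card A : ℤ) : ℂ) • Cfsg.indFun A (fun a : A => χ a) := by
  funext g
  rw [Finset.sum_apply, sum_FF, Pi.smul_apply, indFun_apply, smul_eq_mul, ← mul_assoc]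
  have : (((Nat.card A : ℤ) : ℂ)) * (Nat.card A : ℂ)⁻¹ = 1 := by
    push_cast
    exact mul_inv_cancel₀ (card_ne_zero_complex A)
  rw [this, one_mul]
  apply Finset.sum_congr rfl
  intro x _
  split_ifs with h
  · rw [extendByZero_of_mem A _ h]
    have := hχ g x⁻¹
    rw [inv_inv] at this
    exact this.symm
  · rw [extendByZero_of_not_mem A _ h]

theorem isArtin_FF {χ : G → ℂ} (hχ : IsCharacter G χ) (A : Subgroup G) (hA : IsCyclic A) :
    IsArtin (FF χ A) := by
  classical
  have : Fintype (Subgroup G) := Fintype.ofFinite _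
  induction A using WellFoundedLT.induction with
  | ind A ih =>
    have h1 := sum_FF' (isClassFunction_of_isCharacter hχ) A
    have h2 : Finset.univ.filter (fun B : Subgroup G => B ≤ A) =
        insert A (Finset.univ.filter (fun B : Subgroup G => B < A)) := by
      ext B
      simp only [Finset.mem_filter, Finset.mem_univ, true_and, Finset.mem_insert]
      exact le_iff_eq_or_lt
    rw [h2, Finset.sum_insert (by simp)] at h1
    have h3 : FF χ A = ((Nat.card A : ℤ) : ℂ) • Cfsg.indFun A (fun a : A => χ a) +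
        ((-1 : ℤ) : ℂ) • ∑ B ∈ Finset.univ.filter (fun B : Subgroup G => B < A), FF χ B := by
      rw [← h1]
      push_cast
      rw [neg_one_smul]
      abel
    rw [h3]
    apply isArtin_add
    · exact isArtin_smul (isArtin_ind_char A hA (isCharacter_restrict hχ A)) _
    · apply isArtin_smul
      apply isArtin_sum
      intro B hB
      have hBA : B < A := (Finset.mem_filter.mp hB).2
      apply ih B hBA
      have : IsCyclic (B.subgroupOf A) := Subgroup.isCyclic _
      exact isCyclic_of_surjective (Subgroup.subgroupOfEquivOfLe hBA.le).toMonoidHom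
        (Subgroup.subgroupOfEquivOfLe hBA.le).surjective

end

/-- The Artin induction Theorem: for a character χ of a finite group, |G| • χ is a ℤ-linear combination of functions induced from homomorphisms of cyclic subgroups into ℂˣ. -/
theorem result {G : Type*} [Group G] [Fintype G] (χ : G → ℂ) (hχ : Cfsg.IsCharacter G χ) : ∃ l : List ((A : Subgroup G) × ((A →* ℂˣ) × ℤ)), (∀ t ∈ l, IsCyclic t.1) ∧ (Nat.card G : ℂ) • χ = (l.map fun t => (t.2.2 : ℂ) • Cfsg.indFun t.1 (fun a => (t.2.1 a : ℂ))).sum := by
  classical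
  have : Fintype (Subgroup G) := Fintype.ofFinite _
  change IsArtin ((Nat.card G : ℂ) • χ)
  have h1 : (Nat.card G : ℂ) • χ =
      ∑ B ∈ Finset.univ.filter (fun B : Subgroup G => B ≤ ⊤), FF χ B := by
    funext g
    rw [Finset.sum_apply, sum_FF]
    simp [Nat.card_eq_fintype_card]
  rw [h1]
  apply isArtin_sum
  intro B _
  by_cases hB : IsCyclic B
  · exact isArtin_FF hχ B hB
  · have : FF χ B = 0 := by
      funext g
      unfold FF
      apply Finset.sum_eq_zero
      intro x _
      rw [if_neg]
      intro h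
      apply hB
      rw [← h]
      infer_instance
    rw [this]
    exact isArtin_zero

end Cfsg.Agent.S0177
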