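import Cfsg.Statements.S0178
import Cfsg.Agent.S0187
import Cfsg.Agent.Lib.Helper5.IndDeg

set_option autoImplicit false
open Cfsg

namespace Cfsg.Agent.S0178

open Cfsg.Agent.Lib.Helper5 Cfsg.Agent.Lib.Helper20

/-- The degree of an irreducible complex representation of a finite group is at most the index of any abelian subgroup. -/
theorem result {G : Type*} [Group G] [Finite G] {V : Type*} [AddCommGroup V] [Module ℂ V] [FiniteDimensional ℂ V] (ρ : Representation ℂ G V) [ρ.IsIrreducible] (A : Subgroup G) (hA : ∀ a ∈ A, ∀ b ∈ A, a * b = b * a) : Module.finrank ℂ V ≤ A.index := by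
  classical
  have := Fintype.ofFinite G
  have := Fintype.ofFinite A
  have hρ : ρ.IsIrreducible := inferInstance
  have hχ : Cfsg.IsIrrCharacter G ρ.character := isIrrCharacter_of_rep ρ hρ
  have hχc := isCharacter_of_isIrrCharacter hχ
  have hres := isCharacter_restrict hχc A
  have h1 : (fun x : A => ρ.character x) 1 ≠ 0 := by
    simp only [Subgroup.coe_one, Representation.char_one]
    exact_mod_cast finrank_ne_zero_of_irr ρ hρ
  obtain ⟨lam, hlam, hne⟩ := exists_constituent hres h1
  have hlam1 : lam 1 = 1 :=
    (Cfsg.Agent.S0187.result (G := A)).mp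
      (fun a b => Subtype.ext (hA a a.2 b b.2)) ⟨lam, hlam⟩
  have hind : Cfsg.IsCharacter G (Cfsg.indFun A lam) :=
    Cfsg.Agent.Lib.Helper19.isCharacter_indFun A lam (isCharacter_of_isIrrCharacter hlam)
  have h2 : Cfsg.classInner (Cfsg.indFun A lam) ρ.character ≠ 0 := by
    rw [Cfsg.Agent.Lib.Helper19.frobenius_reciprocity A lam _ (isClassFunction_of_isCharacter hχc)]
    exact classInner_ne_zero_symm hne
  exact degree_le_of_constituent hind hχ h2 (by rw [indFun_one, hlam1, mul_one])
    (Representation.char_one ρ)

end Cfsg.Agent.S0178
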