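import Cfsg.Statements.S0180
import Cfsg.Agent.Lib.Helper79.GaloisRat
import Cfsg.Agent.Lib.Helper79.GaloisChar
import Cfsg.Agent.S0136

set_option autoImplicit false
open Cfsg

namespace Cfsg.Agent.S0180

/-- Every irreducible complex character of a finite group takes only rational values if and only if g is conjugate to g ^ m for every element g and every m coprime to the group order. -/
theorem result {G : Type*} [Group G] [Finite G] : (∀ χ : Cfsg.IrrCharacter G, ∀ g : G, ∃ q : ℚ, (χ : G → ℂ) g = (q : ℂ)) ↔ ∀ m : ℕ, m.Coprime (Nat.card G) → ∀ g : G, IsConj g (g ^ m) := by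
  have hn : 0 < Nat.card G := Nat.card_pos
  have : NeZero (Nat.card G) := ⟨hn.ne'⟩
  constructor
  · intro hrat m hm g
    rw [Cfsg.Agent.S0136.result]
    intro χ
    obtain ⟨τ, hτ⟩ := Cfsg.Agent.Lib.Helper79.exists_ringAut_pow (Nat.card G) m hn hm
    have h1 := Cfsg.Agent.Lib.Helper79.IsCharacter.ringHom_apply
      (Cfsg.Agent.Lib.Helper79.IsIrrCharacter.isCharacter χ.2) (Nat.card G) m hn (τ : ℂ →+* ℂ) hτ g
      pow_card_eq_one'
    obtain ⟨q, hq⟩ := hrat χ g
    rw [← h1, hq, map_ratCast]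
  · intro hconj χ g
    apply Cfsg.Agent.Lib.Helper79.IsCharacter.exists_rat_of_pow_eq
      (Cfsg.Agent.Lib.Helper79.IsIrrCharacter.isCharacter χ.2) (Nat.card G) g pow_card_eq_one'
    intro k hk
    exact ((Cfsg.Agent.S0136.result g (g ^ k)).mp (hconj k hk g) χ).symm

end Cfsg.Agent.S0180
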