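import Cfsg.Statements.S0181
import Cfsg.Agent.Lib.Helper20.CharComplete

set_option autoImplicit false
open Cfsg

namespace Cfsg.Agent.S0181

open Cfsg.Agent.Lib.Helper20

/-- Let H be a normal subgroup of a finite group G and ρ an irreducible complex representation whose kernel does not contain H. If g commutes with no non-identity element of H, then the character of ρ vanishes at g. -/
theorem result {G : Type*} [Group G] [Finite G] {V : Type*} [AddCommGroup V] [Module ℂ V] [FiniteDimensional ℂ V] (ρ : Representation ℂ G V) [ρ.IsIrreducible] (H : Subgroup G) [H.Normal] (hker : ∃ h ∈ H, ρ h ≠ LinearMap.id) (g : G) (hg : ∀ h ∈ H, h * g = g * h → h = 1) : ρ.character g = 0 := by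
  classical
  have := Fintype.ofFinite G
  have hρ : ρ.IsIrreducible := inferInstance
  -- all elements of the coset g H are conjugate to g
  have hconj : ∀ h ∈ H, ρ.character (g * h) = ρ.character g := by
    let φ : H → H := fun x => ⟨g⁻¹ * x * g * (x : G)⁻¹, by
      have h1 : g⁻¹ * x * g⁻¹⁻¹ ∈ H := Subgroup.Normal.conj_mem inferInstance _ x.2 g⁻¹
      rw [inv_inv] at h1
      exact mul_mem h1 (inv_mem x.2)⟩
    have hinj : Function.Injective φ := by
      intro x y hxy
      have h1 : g⁻¹ * x * g * (x : G)⁻¹ = g⁻¹ * y * g * (y : G)⁻¹ := congrArg Subtype.val hxy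
      have h2 : (y : G)⁻¹ * x = 1 := by
        apply hg _ (mul_mem (inv_mem y.2) x.2)
        have h3 : (x : G) * g * (x : G)⁻¹ = y * g * (y : G)⁻¹ := by
          calc (x : G) * g * (x : G)⁻¹ = g * (g⁻¹ * x * g * (x : G)⁻¹) := by group
            _ = g * (g⁻¹ * y * g * (y : G)⁻¹) := by rw [h1]
            _ = _ := by group
        calc (y : G)⁻¹ * x * g = (y : G)⁻¹ * (x * g * (x : G)⁻¹) * x := by group
          _ = (y : G)⁻¹ * (y * g * (y : G)⁻¹) * x := by rw [h3]
          _ = _ := by group
      apply Subtype.ext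
      calc (x : G) = y * ((y : G)⁻¹ * x) := by group
        _ = y := by rw [h2, mul_one]
    intro h hh
    obtain ⟨x, hx⟩ := (Finite.injective_iff_surjective.mp hinj) ⟨h, hh⟩
    have h1 : g⁻¹ * x * g * (x : G)⁻¹ = h := congrArg Subtype.val hx
    have h2 : g * h = x * g * (x : G)⁻¹ := by rw [← h1]; group
    rw [h2, Representation.char_conj]
  let a : G → ℂ := fun x => if x ∈ H then 1 else 0
  have ha : Cfsg.IsClassFunction G a := by
    intro x y
    have : y * x * y⁻¹ ∈ H ↔ x ∈ H := by
      constructor
      · intro h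
        have := Subgroup.Normal.conj_mem (inferInstance : H.Normal) _ h y⁻¹
        simpa [mul_assoc] using this
      · intro h
        exact Subgroup.Normal.conj_mem inferInstance _ h y
    simp only [a, this]
  have hA := opSum_irr ρ hρ ha
  obtain ⟨c, hc⟩ : ∃ c : ℂ, opSum ρ a = c • LinearMap.id := ⟨_, hA⟩
  obtain ⟨h₀, hh₀, hne⟩ := hker
  have hinv : ρ h₀ ∘ₗ opSum ρ a = opSum ρ a := by
    ext w
    simp only [LinearMap.comp_apply, opSum_apply, map_sum, map_smul]
    conv_rhs => rw [← Equiv.sum_comp (Equiv.mulLeft h₀)]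
    apply Finset.sum_congr rfl
    intro x _
    have e1 : Equiv.mulLeft h₀ x = h₀ * x := rfl
    have e2 : a (h₀ * x) = a x := by
      have : h₀ * x ∈ H ↔ x ∈ H := Subgroup.mul_mem_cancel_left H hh₀
      simp only [a, this]
    rw [e1, e2, map_mul, Module.End.mul_apply]
  have hc0 : c = 0 := by
    by_contra hc0
    apply hne
    rw [hc] at hinv
    ext w
    have := congrArg (fun f : V →ₗ[ℂ] V => f w) hinv
    simp only [LinearMap.comp_apply, LinearMap.smul_apply, LinearMap.id_apply, map_smul] at this
    exact smul_right_injective V hc0 this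
  have hzero : opSum ρ a = 0 := by rw [hc, hc0, zero_smul]
  have htr : LinearMap.trace ℂ V (ρ g ∘ₗ opSum ρ a) = ∑ x : G, a x * ρ.character (g * x) := by
    have : ρ g ∘ₗ opSum ρ a = ∑ x : G, a x • ρ (g * x) := by
      ext w
      simp only [LinearMap.comp_apply, opSum_apply, map_sum, map_smul, LinearMap.sum_apply,
        LinearMap.smul_apply, map_mul, Module.End.mul_apply]
    rw [this, map_sum]
    apply Finset.sum_congr rfl
    intro x _
    rw [map_smul, smul_eq_mul]
    rfl
  rw [hzero, LinearMap.comp_zero, map_zero] at htr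
  have hsum : ∑ x : G, a x * ρ.character (g * x) = (∑ x : G, a x) * ρ.character g := by
    rw [Finset.sum_mul]
    apply Finset.sum_congr rfl
    intro x _
    by_cases hx : x ∈ H
    · rw [hconj x hx]
    · simp [a, hx]
  rw [hsum] at htr
  have hpos : (∑ x : G, a x) ≠ 0 := by
    simp only [a]
    rw [Finset.sum_boole]
    have : 0 < (Finset.univ.filter (fun x : G => x ∈ H)).card :=
      Finset.card_pos.mpr ⟨1, by simp [H.one_mem]⟩
    exact_mod_cast this.ne'
  exact (mul_eq_zero.mp htr.symm).resolve_left hpos

end Cfsg.Agent.S0181
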