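import Cfsg.Statements.S0184
import Cfsg.Agent.S0136
import Cfsg.Agent.Lib.Helper5.ScalarIndex
import Cfsg.Agent.Lib.Helper4.CharBasic
import Cfsg.Agent.Lib.Helper38.PGroup

set_option autoImplicit false
open Cfsg

namespace Cfsg.Agent.S0184

open Cfsg.Agent.Lib.Helper5 Cfsg.Agent.Lib.Helper20

/-- in a finite cyclic group an element of prime order `p` lies in every subgroup generated by an
element of order `p` -/
theorem mem_zpowers_of_order_eq {Z : Type*} [Group Z] [Finite Z] [IsCyclic Z] {p : ℕ} (hp : 0 < p)
    {w z : Z} (hw : orderOf w = p) (hz : z ^ p = 1) : z ∈ Subgroup.zpowers w := by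
  classical
  have := Fintype.ofFinite Z
  have h1 : (Finset.univ.filter (fun a : Z => a ^ p = 1)).card ≤ p := IsCyclic.card_pow_eq_one_le hp
  have h2 : ((Subgroup.zpowers w : Set Z).toFinset) ⊆ Finset.univ.filter (fun a : Z => a ^ p = 1) := by
    intro a ha
    rw [Set.mem_toFinset, SetLike.mem_coe] at ha
    obtain ⟨k, rfl⟩ := Subgroup.mem_zpowers_iff.mp ha
    simp only [Finset.mem_filter, Finset.mem_univ, true_and]
    rw [← zpow_natCast, ← zpow_mul, mul_comm, zpow_mul, zpow_natCast, ← hw, pow_orderOf_eq_one, one_zpow]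
  have h3 : ((Subgroup.zpowers w : Set Z).toFinset).card = p := by
    rw [Set.toFinset_card, ← Nat.card_eq_fintype_card]
    exact (Nat.card_zpowers w).trans hw
  have h4 := Finset.eq_of_subset_of_card_le h2 (by rw [h3]; exact h1)
  have h5 : z ∈ Finset.univ.filter (fun a : Z => a ^ p = 1) := by simp [hz]
  rw [← h4, Set.mem_toFinset] at h5
  exact h5

/-- A finite p-group admits a faithful irreducible complex representation if and only if its centre is cyclic. -/
theorem result {G : Type*} [Group G] [Finite G] (p : ℕ) [Fact p.Prime] (hG : IsPGroup p G) : (∃ (n : ℕ) (ρ : Representation ℂ G (Fin n → ℂ)), ρ.IsIrreducible ∧ Function.Injective ρ) ↔ IsCyclic (Subgroup.center G) := by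
  have hpp : p.Prime := Fact.out
  constructor
  · rintro ⟨n, ρ, hρ, hinj⟩
    have hdim := finrank_ne_zero_of_irr ρ hρ
    have hdimC : (Module.finrank ℂ (Fin n → ℂ) : ℂ) ≠ 0 := by exact_mod_cast hdim
    have hsc : ∀ z : Subgroup.center G, ∃ c : ℂ, ρ z = c • LinearMap.id := fun z =>
      exists_scalar_of_commute ρ hρ z (fun g => (Subgroup.mem_center_iff.mp z.2 g).symm)
    choose c hc using hsc
    have hV : Nontrivial (Fin n → ℂ) := Module.finrank_pos_iff (R := ℂ).mp (Nat.pos_of_ne_zero hdim)
    obtain ⟨v, hv⟩ := exists_ne (0 : Fin n → ℂ)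
    have hinjsc : ∀ a b : ℂ, (a • LinearMap.id : (Fin n → ℂ) →ₗ[ℂ] (Fin n → ℂ)) = b • LinearMap.id → a = b := by
      intro a b hab
      have h3 := congrArg (fun f : (Fin n → ℂ) →ₗ[ℂ] (Fin n → ℂ) => f v) hab
      simp only [LinearMap.smul_apply, LinearMap.id_apply] at h3
      exact smul_left_injective ℂ hv h3
    let f : Subgroup.center G →* ℂ :=
      { toFun := c
        map_one' := by
          apply hinjsc
          rw [← hc, one_smul, Subgroup.coe_one, map_one]
          rfl
        map_mul' := by
          intro a b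
          apply hinjsc
          rw [← hc, Subgroup.coe_mul, map_mul, hc, hc]
          ext w
          simp only [Module.End.mul_apply, LinearMap.smul_apply, LinearMap.id_apply, map_smul,
            LinearMap.comp_apply, Pi.smul_apply, smul_eq_mul]
          ring }
    apply isCyclic_of_injective_ringHom f
    intro a b hab
    have hab' : c a = c b := hab
    apply Subtype.ext
    apply hinj
    rw [hc, hc, hab']
  · intro hcyc
    by_cases hG1 : Subsingleton G
    · refine ⟨1, Representation.trivial ℂ G (Fin 1 → ℂ), ?_, ?_⟩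
      · apply Cfsg.Agent.Lib.Helper4.isIrreducible_of_finrank_eq_one
        simp
      · intro a b _
        exact Subsingleton.elim a b
    · rw [not_subsingleton_iff_nontrivial] at hG1
      have hZ : Nontrivial (Subgroup.center G) := hG.center_nontrivial
      have hZp : IsPGroup p (Subgroup.center G) := hG.to_subgroup _
      have hdvd : p ∣ Nat.card (Subgroup.center G) := by
        obtain ⟨k, hk⟩ := IsPGroup.iff_card.mp hZp
        have : k ≠ 0 := by
          rintro rfl
          have h1 := Finite.one_lt_card (α := Subgroup.center G)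
          rw [hk] at h1
          simp at h1
        rw [hk]
        exact dvd_pow_self p this
      obtain ⟨z₀, hz₀⟩ := exists_prime_orderOf_dvd_card' p hdvd
      have hz₀1 : (z₀ : G) ≠ 1 := by
        intro h
        have : z₀ = 1 := Subtype.ext h
        rw [this, orderOf_one] at hz₀
        exact hpp.one_lt.ne hz₀
      have hnc : ¬ IsConj (z₀ : G) 1 := by
        intro h
        obtain ⟨g, hg⟩ := isConj_iff.mp h
        apply hz₀1
        calc (z₀ : G) = g⁻¹ * (g * z₀ * g⁻¹) * g := by group
          _ = 1 := by rw [hg]; group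
      rw [Cfsg.Agent.S0136.result] at hnc
      push Not at hnc
      obtain ⟨⟨χ, n, σ, hσ, rfl⟩, hne⟩ := hnc
      refine ⟨n, σ, hσ, ?_⟩
      rw [← MonoidHom.ker_eq_bot_iff]
      by_contra hker
      obtain ⟨x, hxN, hx1, hxZ⟩ :=
        Cfsg.Agent.Lib.Helper38.exists_ne_one_mem_center_of_normal hG (MonoidHom.ker σ) hker
      -- an element of order p in the group generated by x
      obtain ⟨j, hj⟩ := (IsPGroup.iff_orderOf.mp hG) x
      have hj0 : j ≠ 0 := by
        rintro rfl
        rw [pow_zero, orderOf_eq_one_iff] at hj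
        exact hx1 hj
      obtain ⟨i, rfl⟩ : ∃ i, j = i + 1 := ⟨j - 1, by omega⟩
      have hw : orderOf (x ^ (p ^ i)) = p := by
        rw [orderOf_pow_of_dvd (pow_ne_zero _ hpp.ne_zero) (by rw [hj]; exact pow_dvd_pow p (Nat.le_succ i)),
          hj, pow_succ]
        exact Nat.mul_div_cancel_left _ (pow_pos hpp.pos i)
      have hw' : orderOf ((⟨x, hxZ⟩ : Subgroup.center G) ^ (p ^ i)) = p := by
        rw [← Subgroup.orderOf_coe]
        exact hw
      have hmem := mem_zpowers_of_order_eq hpp.pos hw' (by rw [← hz₀]; exact pow_orderOf_eq_one z₀)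
      obtain ⟨k, hk⟩ := Subgroup.mem_zpowers_iff.mp hmem
      have hz₀N : (z₀ : G) ∈ MonoidHom.ker σ := by
        rw [← hk]
        simp only [Subgroup.coe_zpow, Subgroup.coe_pow]
        exact Subgroup.zpow_mem _ (Subgroup.pow_mem _ hxN _) _
      apply hne
      have h1 : σ (z₀ : G) = 1 := hz₀N
      simp only [Representation.character, h1, map_one]

end Cfsg.Agent.S0184
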