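import Cfsg.Statements.S0186
import Cfsg.Agent.S0133
import Cfsg.Agent.S0134
import Cfsg.Agent.S0185
import Cfsg.Agent.Lib.Helper20.CharComplete
import Cfsg.Agent.Lib.Helper4.CharBasic

set_option autoImplicit false
open Cfsg

namespace Cfsg.Agent.S0186

open Cfsg.Agent.Lib.Helper20

/-- Let G be a finite simple group of order n and p a prime dividing n. If G has more than n / p^2 conjugacy classes, then every Sylow p-subgroup of G is abelian. -/
theorem result {G : Type*} [Group G] [Finite G] [IsSimpleGroup G] (p : ℕ) [Fact p.Prime] (hp : p ∣ Nat.card G) (hmany : Nat.card G < p ^ 2 * Nat.card (ConjClasses G)) (P : Sylow p G) (a b : G) (ha : a ∈ P) (hb : b ∈ P) : a * b = b * a := by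
  classical
  have hpp : p.Prime := Fact.out
  by_cases hp2 : p ^ 2 ∣ Nat.card G
  · -- a nonprincipal irreducible character of degree less than p
    have := finite_irrCharacter (G := G)
    have := Fintype.ofFinite (Cfsg.IrrCharacter G)
    have := Fintype.ofFinite G
    have hdegφ : ∀ φ : Cfsg.IrrCharacter G, ∃ d : ℕ, (φ : G → ℂ) 1 = d := by
      rintro ⟨_, n, σ, hσ, rfl⟩
      exact ⟨Module.finrank ℂ (Fin n → ℂ), Representation.char_one σ⟩
    choose deg hdeg1 using hdegφ
    have hsq : ∑ φ : Cfsg.IrrCharacter G, deg φ ^ 2 = Nat.card G := by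
      have h1 := Cfsg.Agent.S0134.result (G := G)
      rw [finsum_eq_sum_of_fintype] at h1
      simp_rw [hdeg1] at h1
      exact_mod_cast h1
    let χ₀ : Cfsg.IrrCharacter G := ⟨fun _ => 1, Cfsg.Agent.Lib.Helper4.isIrrCharacter_one⟩
    have hχ₀ : deg χ₀ = 1 := by
      have h := hdeg1 χ₀
      have h' : (1 : ℂ) = (deg χ₀ : ℂ) := h
      exact_mod_cast h'.symm
    have hex : ∃ φ : Cfsg.IrrCharacter G, φ ≠ χ₀ ∧ deg φ < p := by
      by_contra hcon
      push Not at hcon
      rw [← Finset.add_sum_erase _ _ (Finset.mem_univ χ₀), hχ₀] at hsq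
      have h2 : (Finset.univ.erase χ₀).card • p ^ 2 ≤ ∑ φ ∈ Finset.univ.erase χ₀, deg φ ^ 2 := by
        apply Finset.card_nsmul_le_sum
        intro φ hφ
        exact Nat.pow_le_pow_left (hcon φ (Finset.mem_erase.mp hφ).1) 2
      rw [Finset.card_erase_of_mem (Finset.mem_univ _), Finset.card_univ, ← Nat.card_eq_fintype_card,
        Cfsg.Agent.S0133.result, smul_eq_mul] at h2
      obtain ⟨m, hm⟩ := hp2
      have hk : 0 < Nat.card (ConjClasses G) := Nat.card_pos
      obtain ⟨k, hk'⟩ : ∃ k, Nat.card (ConjClasses G) = k + 1 := ⟨_, (Nat.succ_pred_eq_of_pos hk).symm⟩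
      rw [hk'] at h2 hmany
      rw [hm] at hmany hsq
      have hpos : 0 < p ^ 2 := pow_pos hpp.pos 2
      have h3 : m < k + 1 := Nat.lt_of_mul_lt_mul_left hmany
      have h4 : k * p ^ 2 < p ^ 2 * m := by
        simp only [Nat.add_sub_cancel] at h2
        omega
      rw [mul_comm] at h4
      have h5 : k < m := Nat.lt_of_mul_lt_mul_left h4
      omega
    obtain ⟨⟨χ, d, σ, hσ, rfl⟩, hne, hlt⟩ := hex
    have hd : deg ⟨σ.character, d, σ, hσ, rfl⟩ = Module.finrank ℂ (Fin d → ℂ) := by
      have := hdeg1 ⟨σ.character, d, σ, hσ, rfl⟩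
      simp only [Representation.char_one] at this
      exact_mod_cast this.symm
    rw [hd] at hlt
    have hinj : Function.Injective σ := by
      rcases IsSimpleGroup.eq_bot_or_eq_top_of_normal (MonoidHom.ker σ) inferInstance with h | h
      · exact (MonoidHom.ker_eq_bot_iff σ).mp h
      · exfalso
        have htriv : ∀ g : G, σ g = 1 := by
          intro g
          have : g ∈ MonoidHom.ker σ := by rw [h]; trivial
          exact this
        have hchar : σ.character = fun _ => (Module.finrank ℂ (Fin d → ℂ) : ℂ) := by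
          funext g
          rw [← Representation.char_one σ]
          simp only [Representation.character, htriv]
        have horth := classInner_irr_ne (⟨d, σ, hσ, rfl⟩ : Cfsg.IsIrrCharacter G σ.character) χ₀.2
          (fun h => hne (Subtype.ext h))
        rw [hchar] at horth
        have hcard : (Nat.card G : ℂ) ≠ 0 := by exact_mod_cast Nat.card_pos.ne'
        simp only [Cfsg.classInner, χ₀, map_one, mul_one, Finset.sum_const, Finset.card_univ,
          nsmul_eq_mul] at horth
        rw [← Nat.card_eq_fintype_card, ← mul_assoc, inv_mul_cancel₀ hcard, one_mul] at horth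
        have h0 : Module.finrank ℂ (Fin d → ℂ) = 0 := by exact_mod_cast horth
        exact finrank_ne_zero_of_irr σ hσ h0
    have hinj' : Function.Injective (σ.comp (P : Subgroup G).subtype) :=
      hinj.comp Subtype.val_injective
    have hres := Cfsg.Agent.S0185.result (G := (P : Subgroup G)) (σ.comp (P : Subgroup G).subtype) hinj' (by
      intro q hq hqd
      obtain ⟨n, hn⟩ := IsPGroup.iff_card.mp P.isPGroup'
      rw [hn] at hqd
      have := (Nat.prime_dvd_prime_iff_eq hq hpp).mp (hq.dvd_of_dvd_pow hqd)
      rw [this]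
      exact hlt) ⟨a, ha⟩ ⟨b, hb⟩
    exact congrArg Subtype.val hres
  · have hcard : Nat.card P = p := by
      rw [Sylow.card_eq_multiplicity]
      have hn0 : Nat.card G ≠ 0 := Nat.card_pos.ne'
      have h1 : 1 ≤ (Nat.card G).factorization p :=
        (hpp.dvd_iff_one_le_factorization hn0).mp hp
      have h2 : ¬ 2 ≤ (Nat.card G).factorization p := by
        intro h
        exact hp2 ((hpp.pow_dvd_iff_le_factorization hn0).mpr h)
      have h3 : (Nat.card G).factorization p = 1 := by omega
      rw [h3, pow_one]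
    have hcyc : IsCyclic P := isCyclic_of_prime_card hcard
    have := hcyc.isMulCommutative.is_comm.comm ⟨a, ha⟩ ⟨b, hb⟩
    exact congrArg Subtype.val this

end Cfsg.Agent.S0186
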