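import Cfsg.Statements.S0191
import Cfsg.Agent.Lib.Helper79.CharNorm
import Cfsg.Agent.Lib.Helper20.CharBasic

set_option autoImplicit false
open Cfsg

namespace Cfsg.Agent.S0191

/-- An irreducible complex representation of a finite group of degree greater than 1 has a character that vanishes somewhere. -/
theorem result {G : Type*} [Group G] [Finite G] {V : Type*} [AddCommGroup V] [Module ℂ V] [FiniteDimensional ℂ V] (ρ : Representation ℂ G V) [ρ.IsIrreducible] (hdeg : 1 < Module.finrank ℂ V) : ∃ g : G, ρ.character g = 0 := by
  classical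
  by_contra hne
  push Not at hne
  have := Fintype.ofFinite G
  have hirr : Cfsg.IsIrrCharacter G ρ.character := Cfsg.Agent.Lib.Helper20.isIrrCharacter_of_rep ρ inferInstance
  have hc := Cfsg.Agent.Lib.Helper79.IsIrrCharacter.isCharacter hirr
  have hsum := Cfsg.Agent.Lib.Helper79.IsIrrCharacter.sum_norm_sq hirr
  have hR := Cfsg.Agent.Lib.Helper79.IsCharacter.card_le_sum_norm_sq hc (Finset.univ.erase (1 : G))
    (by
      intro k hk g
      simp only [Finset.mem_erase, Finset.mem_univ, and_true, ne_eq]
      rw [not_iff_not]
      constructor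
      · intro h
        have h2 : (powCoprime hk.symm) g = (powCoprime hk.symm) 1 := by
          simp [powCoprime_apply, h]
        exact (powCoprime hk.symm).injective h2
      · intro h; rw [h, one_pow])
    (fun g _ => hne g)
  rw [← Finset.add_sum_erase Finset.univ _ (Finset.mem_univ (1 : G)), Representation.char_one] at hsum
  rw [Finset.card_erase_of_mem (Finset.mem_univ _), Finset.card_univ, ← Nat.card_eq_fintype_card,
    Nat.cast_sub Nat.card_pos] at hR
  have h2 : (2 : ℝ) ≤ (Module.finrank ℂ V : ℝ) := by exact_mod_cast hdeg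
  have h3 : ‖((Module.finrank ℂ V : ℕ) : ℂ)‖ = (Module.finrank ℂ V : ℝ) := Complex.norm_natCast _
  rw [h3] at hsum
  push_cast at hR
  nlinarith

end Cfsg.Agent.S0191
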