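import Cfsg.Statements.S0192
import Cfsg.Agent.Lib.Helper20.CharComplete
import Cfsg.Agent.Lib.Helper4.CharBasic

set_option autoImplicit false
open Cfsg

namespace Cfsg.Agent.S0192

open Cfsg.Agent.Lib.Helper20

theorem inner_one_eq {K : Type*} [Group K] [Fintype K] {V : Type*} [AddCommGroup V] [Module ℂ V]
    [FiniteDimensional ℂ V] (σ : Representation ℂ K V) :
    Cfsg.classInner σ.character (fun _ => 1) = Module.finrank ℂ (Representation.invariants σ) := by
  have : Invertible (Nat.card K : ℂ) := invertibleOfNonzero card_ne_zero_complex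
  rw [← Representation.card_inv_mul_sum_char_eq_finrank σ]
  simp [Cfsg.classInner]

/-- restriction of a representation to a subgroup -/
abbrev res {G : Type*} [Group G] {V : Type*} [AddCommGroup V] [Module ℂ V]
    (ρ : Representation ℂ G V) (K : Subgroup G) : Representation ℂ K V := ρ.comp K.subtype

/-- Brauer's generation criterion. Let G be a finite simple group, H₁ and H₂ subgroups, and χ a non-principal irreducible character. If the multiplicity of the principal character in χ restricted to H₁ ⊓ H₂ is less than the sum of the corresponding multiplicities for H₁ and H₂, then H₁ and H₂ do not generate G. -/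
theorem result {G : Type*} [Group G] [Fintype G] [IsSimpleGroup G] (H₁ H₂ : Subgroup G) [Fintype H₁] [Fintype H₂] [Fintype ↥(H₁ ⊓ H₂)] (χ : G → ℂ) (hχ : Cfsg.IsIrrCharacter G χ) (hχ1 : χ ≠ fun _ => 1) (hlt : (Cfsg.classInner (fun x : ↥(H₁ ⊓ H₂) => χ x) (fun _ => 1)).re < (Cfsg.classInner (fun x : H₁ => χ x) (fun _ => 1)).re + (Cfsg.classInner (fun x : H₂ => χ x) (fun _ => 1)).re) : H₁ ⊔ H₂ ≠ ⊤ := by
  obtain ⟨n, ρ, hρ, rfl⟩ := hχ
  intro htop
  have e12 : (fun x : ↥(H₁ ⊓ H₂) => ρ.character x) = (res ρ (H₁ ⊓ H₂)).character := rfl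
  have e1 : (fun x : H₁ => ρ.character x) = (res ρ H₁).character := rfl
  have e2 : (fun x : H₂ => ρ.character x) = (res ρ H₂).character := rfl
  rw [e12, e1, e2, inner_one_eq, inner_one_eq, inner_one_eq] at hlt
  simp only [Complex.natCast_re] at hlt
  have hlt' : Module.finrank ℂ (Representation.invariants (res ρ (H₁ ⊓ H₂)))
      < Module.finrank ℂ (Representation.invariants (res ρ H₁))
        + Module.finrank ℂ (Representation.invariants (res ρ H₂)) := by exact_mod_cast hlt
  have hle : Representation.invariants (res ρ H₁) ⊔ Representation.invariants (res ρ H₂)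
      ≤ Representation.invariants (res ρ (H₁ ⊓ H₂)) := by
    apply sup_le
    · intro v hv g
      exact hv ⟨g.1, g.2.1⟩
    · intro v hv g
      exact hv ⟨g.1, g.2.2⟩
  have h1 := Submodule.finrank_sup_add_finrank_inf_eq (Representation.invariants (res ρ H₁))
    (Representation.invariants (res ρ H₂))
  have h2 := Submodule.finrank_mono hle
  have h3 : 0 < Module.finrank ℂ ↥(Representation.invariants (res ρ H₁) ⊓
      Representation.invariants (res ρ H₂)) := by omega
  have h4 : Representation.invariants (res ρ H₁) ⊓
      Representation.invariants (res ρ H₂) ≠ ⊥ := by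
    intro h
    rw [h, finrank_bot] at h3
    exact lt_irrefl _ h3
  obtain ⟨v, hv, hv0⟩ := Submodule.exists_mem_ne_zero_of_ne_bot h4
  let S : Subgroup G :=
    { carrier := {g | ρ g v = v}
      mul_mem' := by
        intro a b ha hb
        change ρ (a * b) v = v
        rw [map_mul, Module.End.mul_apply, hb, ha]
      one_mem' := by
        change ρ 1 v = v
        simp
      inv_mem' := by
        intro a ha
        change ρ a⁻¹ v = v
        have ha' : ρ a v = v := ha
        nth_rewrite 1 [← ha']
        rw [← Module.End.mul_apply, ← map_mul, inv_mul_cancel, map_one, Module.End.one_apply] }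
  have hS : H₁ ⊔ H₂ ≤ S := by
    apply sup_le
    · intro g hg
      exact hv.1 ⟨g, hg⟩
    · intro g hg
      exact hv.2 ⟨g, hg⟩
  rw [htop] at hS
  have hinv : v ∈ Representation.invariants ρ := by
    intro g
    exact hS (Subgroup.mem_top g)
  have horth := classInner_irr_ne (⟨n, ρ, hρ, rfl⟩ : Cfsg.IsIrrCharacter G ρ.character)
    Cfsg.Agent.Lib.Helper4.isIrrCharacter_one hχ1
  rw [inner_one_eq] at horth
  have h5 : Module.finrank ℂ (Representation.invariants ρ) = 0 := by exact_mod_cast horth
  rw [Submodule.finrank_eq_zero] at h5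
  rw [h5, Submodule.mem_bot] at hinv
  exact hv0 hinv

end Cfsg.Agent.S0192
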