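import Cfsg.Statements.S0194
import Cfsg.Agent.S0161
import Cfsg.Agent.Lib.Helper5.Inertia
import Cfsg.Agent.Lib.Helper4.CharConj

set_option autoImplicit false
open scoped ComplexConjugate
open Cfsg

namespace Cfsg.Agent.S0194

open Cfsg.Agent.Lib.Helper5 Cfsg.Agent.Lib.Helper20 Cfsg.Agent.Lib.Helper19 Cfsg.Agent.Lib.Helper4

/-- Let G have odd order, H be a normal subgroup and θ a non-principal irreducible character of H. Then the function induced from θ is orthogonal to its complex conjugate. -/
theorem result {G : Type*} [Group G] [Fintype G] (hodd : Odd (Nat.card G)) (H : Subgroup G) [H.Normal] (θ : H → ℂ) (hθ : Cfsg.IsIrrCharacter H θ) (hθ1 : θ ≠ fun _ => 1) : Cfsg.classInner (fun g => conj (Cfsg.indFun H θ g)) (Cfsg.indFun H θ) = 0 := by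
  classical
  have hN : H.Normal := inferInstance
  set θb : H → ℂ := fun h => conj (θ h) with hθb
  have hθbirr : IsIrrCharacter H θb := isIrrCharacter_conj hθ
  have h1 : (fun g => conj (Cfsg.indFun H θ g)) = Cfsg.indFun H θb := by
    funext g
    rw [Cfsg.Agent.Lib.Helper19.indFun_apply, Cfsg.Agent.Lib.Helper19.indFun_apply, map_mul, map_inv₀, map_natCast, map_sum]
    congr 1
    apply Finset.sum_congr rfl
    intro x _
    by_cases hx : x⁻¹ * g * x ∈ H
    · rw [extendByZero_of_mem H θ hx, extendByZero_of_mem H θb hx]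
    · rw [extendByZero_of_not_mem H θ hx, extendByZero_of_not_mem H θb hx, map_zero]
  rw [h1, frobenius_reciprocity H θb _ (indFun_isClassFunction H θ), indFun_restrict_normal hN θ,
    Cfsg.Agent.Lib.Helper20.classInner_smul_right, Cfsg.Agent.Lib.Helper20.classInner_sum_right]
  have key : ∀ x : G, classInner θb (cjF hN θ x) = 0 := by
    intro x
    apply Cfsg.Agent.Lib.Helper20.classInner_irr_ne hθbirr (isIrrCharacter_cjF hN hθ x)
    intro heq
    have h2 : cjF hN θ (x * x) = θ := by
      rw [← cjF_cjF, ← heq]
      funext n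
      rw [cjF_apply]
      have := congrFun heq n
      rw [cjF_apply] at this
      change conj (θ _) = θ n
      rw [← this]
      exact Complex.conj_conj _
    have h3 : x * x ∈ inertia hN θ := h2
    have hxodd : Odd (orderOf x) := hodd.of_dvd_nat (orderOf_dvd_natCard x)
    have h4 : x ∈ inertia hN θ := by
      obtain ⟨k, hk⟩ := hxodd
      have h5 : x = (x * x) ^ (k + 1) := by
        rw [← pow_two, ← pow_mul]
        have : 2 * (k + 1) = orderOf x + 1 := by omega
        rw [this, pow_succ, pow_orderOf_eq_one, one_mul]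
      rw [h5]
      exact Subgroup.pow_mem _ h3 _
    have h6 : cjF hN θ x = θ := h4
    rw [h6] at heq
    apply hθ1
    have hoddH : Odd (Nat.card H) := hodd.of_dvd_nat (Subgroup.card_subgroup_dvd_card H)
    apply Cfsg.Agent.S0161.result hoddH ⟨θ, hθ⟩
    intro g
    have := congrFun heq g
    exact Complex.conj_eq_iff_im.mp this
  rw [Finset.sum_eq_zero (fun x _ => key x), mul_zero]

end Cfsg.Agent.S0194
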