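import Cfsg.Statements.S0196
import Mathlib

set_option autoImplicit false
open Cfsg

namespace Cfsg.Agent.S0196

theorem dvd_card_of_stabilizer_index {N X : Type*} [Group N] [Finite N] [MulAction N X] [Finite X] (d : ℕ)
    (h : ∀ x : X, (MulAction.stabilizer N x).index = d) : d ∣ Nat.card X := by
  classical
  have e := MulAction.selfEquivSigmaOrbitsQuotientStabilizer N X
  have : Finite (Quotient (MulAction.orbitRel N X)) := Quotient.finite _
  have : Fintype (Quotient (MulAction.orbitRel N X)) := Fintype.ofFinite _
  rw [Nat.card_congr e, Nat.card_sigma]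
  apply Finset.dvd_sum
  intro ω _
  have := h (Quotient.out ω)
  rw [Subgroup.index] at this
  rw [this]

/-- Let A be a subgroup of a finite group G that equals the centralizer of each of its non-identity elements, and let N be its normalizer. Then the index of A in N divides |A| − 1 (N/A permutes the non-identity elements of A in orbits of full length). -/
theorem result {G : Type*} [Group G] [Finite G] (A : Subgroup G) (hA : ∀ x ∈ A, x ≠ 1 → Subgroup.centralizer ({x} : Set G) = A) : (A.subgroupOf (Subgroup.normalizer (A : Set G))).index ∣ Nat.card A - 1 := by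
  classical
  let N := Subgroup.normalizer (A : Set G)
  let X := {x : G // x ∈ A ∧ x ≠ 1}
  let act : MulAction N X :=
    { smul := fun n x => ⟨(n : G) * x.1 * (n : G)⁻¹,
        (Subgroup.mem_normalizer_iff.mp n.2 x.1).mp x.2.1, by
          intro h
          apply x.2.2
          have : x.1 = (n : G)⁻¹ * ((n : G) * x.1 * (n : G)⁻¹) * (n : G) := by group
          rw [this, h]; group⟩
      one_smul := fun x => by
        apply Subtype.ext
        change ((1 : N) : G) * x.1 * ((1 : N) : G)⁻¹ = x.1
        simp
      mul_smul := fun a b x => by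
        apply Subtype.ext
        change ((a * b : N) : G) * x.1 * ((a * b : N) : G)⁻¹ = (a : G) * ((b : G) * x.1 * (b : G)⁻¹) * (a : G)⁻¹
        simp only [Subgroup.coe_mul, mul_inv_rev]
        group }
  have hst : ∀ x : X, (MulAction.stabilizer N x).index = (A.subgroupOf N).index := by
    intro x
    congr 1
    ext n
    rw [MulAction.mem_stabilizer_iff, Subgroup.mem_subgroupOf, ← hA x.1 x.2.1 x.2.2,
      Subgroup.mem_centralizer_singleton_iff]
    constructor
    · intro h
      have h1 : (n : G) * x.1 * (n : G)⁻¹ = x.1 := congrArg Subtype.val h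
      exact mul_inv_eq_iff_eq_mul.mp h1
    · intro h
      apply Subtype.ext
      change (n : G) * x.1 * (n : G)⁻¹ = x.1
      exact mul_inv_eq_iff_eq_mul.mpr h
  have h1 := dvd_card_of_stabilizer_index (N := N) (X := X) _ hst
  have h2 : Nat.card X = Nat.card A - 1 := by
    have e : X ≃ {a : A // a ≠ 1} :=
      { toFun := fun x => ⟨⟨x.1, x.2.1⟩, fun h => x.2.2 (congrArg Subtype.val h)⟩
        invFun := fun a => ⟨a.1.1, a.1.2, fun h => a.2 (Subtype.ext h)⟩
        left_inv := fun x => rfl
        right_inv := fun a => rfl }
    rw [Nat.card_congr e]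
    have : Fintype A := Fintype.ofFinite _
    rw [Nat.card_eq_fintype_card, Nat.card_eq_fintype_card, Fintype.card_subtype_compl, Fintype.card_subtype_eq]
  rw [← h2]
  exact h1

end Cfsg.Agent.S0196
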