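import Cfsg.Statements.S0202
import Cfsg.Agent.Lib.Helper5.KleinSylow

set_option autoImplicit false
open Cfsg

namespace Cfsg.Agent.S0202

open Cfsg.Agent.Lib.Helper5

/-- If a Sylow 2-subgroup of a finite group is a Klein four-group, the group has one or three conjugacy classes of involutions. -/
theorem result {G : Type*} [Group G] [Finite G] (P : Sylow 2 G) (hP : IsKleinFour (P : Subgroup G)) : Nat.card {C : ConjClasses G // ∃ t : G, orderOf t = 2 ∧ ConjClasses.mk t = C} = 1 ∨ Nat.card {C : ConjClasses G // ∃ t : G, orderOf t = 2 ∧ ConjClasses.mk t = C} = 3 := by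
  classical
  obtain ⟨a, b, ha, hb, ha1, hb1, hab, hall, hcard⟩ := klein_classes P hP
  rw [hcard]
  rcases klein_dichotomy P hP ha hb ha1 hb1 hab hall with ⟨h1, h2⟩ | ⟨h1, h2, h3⟩
  · left
    rw [← ConjClasses.mk_eq_mk_iff_isConj.mpr h1, ← ConjClasses.mk_eq_mk_iff_isConj.mpr h2]
    simp
  · right
    rw [Finset.card_eq_three]
    exact ⟨_, _, _, fun h => h1 (ConjClasses.mk_eq_mk_iff_isConj.mp h),
      fun h => h2 (ConjClasses.mk_eq_mk_iff_isConj.mp h),
      fun h => h3 (ConjClasses.mk_eq_mk_iff_isConj.mp h), rfl⟩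

end Cfsg.Agent.S0202
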