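import Cfsg.Statements.S0203
import Cfsg.Agent.Lib.Helper5.KleinSylow

set_option autoImplicit false
open Cfsg

namespace Cfsg.Agent.S0203

open Cfsg.Agent.Lib.Helper5
open scoped Pointwise

/-- If a Sylow 2-subgroup P of a finite group G is a Klein four-group, then G has three classes of involutions if and only if P has a normal complement in G. -/
theorem result {G : Type*} [Group G] [Finite G] (P : Sylow 2 G) (hP : IsKleinFour (P : Subgroup G)) : Nat.card {C : ConjClasses G // ∃ t : G, orderOf t = 2 ∧ ConjClasses.mk t = C} = 3 ↔ ∃ N : Subgroup G, N.Normal ∧ Subgroup.IsComplement' N (P : Subgroup G) := by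
  classical
  obtain ⟨a, b, ha, hb, ha1, hb1, hab, hall, hcard⟩ := klein_classes P hP
  rw [hcard]
  have hbb := klein_sq _ hP hb
  have hab1 : a * b ≠ 1 := by
    intro h
    exact hab (mul_right_cancel (h.trans hbb.symm))
  constructor
  · intro h3
    have hdist : ¬ IsConj a b ∧ ¬ IsConj a (a * b) ∧ ¬ IsConj b (a * b) := by
      rcases klein_dichotomy P hP ha hb ha1 hb1 hab hall with ⟨h1, h2⟩ | h
      · exfalso
        rw [← ConjClasses.mk_eq_mk_iff_isConj.mpr h1, ← ConjClasses.mk_eq_mk_iff_isConj.mpr h2] at h3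
        simp at h3
      · exact h
    obtain ⟨d1, d2, d3⟩ := hdist
    have hnoconj : ∀ x ∈ P, ∀ y ∈ P, IsConj x y → x = y := by
      intro x hx y hy hc
      have one_case : ∀ z : G, IsConj 1 z → z = 1 := by
        intro z hz
        obtain ⟨g, hg⟩ := isConj_iff.mp hz
        rw [← hg]; group
      rcases hall x hx with rfl | rfl | rfl | rfl
      · exact (one_case y hc).symm
      · rcases hall y hy with rfl | rfl | rfl | rfl
        · exact one_case _ hc.symm
        · rfl
        · exact absurd hc d1
        · exact absurd hc d2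
      · rcases hall y hy with rfl | rfl | rfl | rfl
        · exact one_case _ hc.symm
        · exact absurd hc.symm d1
        · rfl
        · exact absurd hc d3
      · rcases hall y hy with rfl | rfl | rfl | rfl
        · exact one_case _ hc.symm
        · exact absurd hc.symm d2
        · exact absurd hc.symm d3
        · rfl
    have hNC : Subgroup.normalizer ((P : Subgroup G) : Set G) ≤ Subgroup.centralizer ((P : Subgroup G) : Set G) := by
      intro n hn
      rw [Subgroup.mem_centralizer_iff]
      intro x hx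
      have h1 : n * x * n⁻¹ ∈ P := (Subgroup.mem_normalizer_iff.mp hn x).mp hx
      have h2 := hnoconj x hx _ h1 (isConj_iff.mpr ⟨n, rfl⟩)
      exact (mul_inv_eq_iff_eq_mul.mp h2.symm).symm
    exact ⟨_, inferInstance, MonoidHom.ker_transferSylow_isComplement' P hNC⟩
  · rintro ⟨N, hN, hc⟩
    have hnoconj : ∀ x ∈ P, ∀ y ∈ P, IsConj x y → x = y := by
      intro x hx y hy hxy
      obtain ⟨g, hg⟩ := isConj_iff.mp hxy
      have hmul : (N : Set G) * ((P : Subgroup G) : Set G) = Set.univ := hc.mul_eq
      have hgm : g ∈ (N : Set G) * ((P : Subgroup G) : Set G) := by rw [hmul]; trivial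
      obtain ⟨n, hn, q, hq, rfl⟩ := Set.mem_mul.mp hgm
      have hqx : q * x * q⁻¹ = x := by
        rw [klein_comm _ hP hq hx, mul_inv_cancel_right]
      have h1 : y = n * x * n⁻¹ := by
        rw [← hg]
        calc n * q * x * (n * q)⁻¹ = n * (q * x * q⁻¹) * n⁻¹ := by group
          _ = _ := by rw [hqx]
      have h2 : y * x⁻¹ ∈ N := by
        rw [h1]
        have : n * x * n⁻¹ * x⁻¹ = n * (x * n⁻¹ * x⁻¹) := by group
        rw [this]
        exact mul_mem hn (hN.conj_mem _ (inv_mem hn) x)
      have h3 : y * x⁻¹ ∈ (P : Subgroup G) := mul_mem hy (inv_mem hx)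
      have h4 : y * x⁻¹ ∈ N ⊓ (P : Subgroup G) := ⟨h2, h3⟩
      rw [hc.disjoint.eq_bot, Subgroup.mem_bot] at h4
      exact (mul_inv_eq_one.mp h4).symm
    rw [Finset.card_eq_three]
    refine ⟨_, _, _, ?_, ?_, ?_, rfl⟩
    · intro h
      exact hab (hnoconj a ha b hb (ConjClasses.mk_eq_mk_iff_isConj.mp h))
    · intro h
      have := hnoconj a ha _ (mul_mem ha hb) (ConjClasses.mk_eq_mk_iff_isConj.mp h)
      exact hb1 (by simpa using this.symm)
    · intro h
      have := hnoconj b hb _ (mul_mem ha hb) (ConjClasses.mk_eq_mk_iff_isConj.mp h)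
      exact ha1 (by simpa using this.symm)

end Cfsg.Agent.S0203
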