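import Cfsg.Statements.S0211
import Cfsg.Agent.Lib.Helper5.Dihedral

set_option autoImplicit false
open Cfsg

namespace Cfsg.Agent.S0211

open Cfsg.Agent.Lib.Helper5

/-- Let x, y be involutions with xy of even order n and z = (xy)^(n/2). Then xz is conjugate to x by an element of the subgroup generated by x, y if and only if 4 divides n. -/
theorem result {G : Type*} [Group G] [Finite G] (x y : G) (hx : orderOf x = 2) (hy : orderOf y = 2) (heven : Even (orderOf (x * y))) : (∃ d ∈ Subgroup.closure ({x, y} : Set G), d * x * d⁻¹ = x * (x * y) ^ (orderOf (x * y) / 2)) ↔ 4 ∣ orderOf (x * y) := by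
  obtain ⟨m, hm⟩ := heven
  have hpos : 0 < orderOf (x * y) := orderOf_pos _
  have hdiv : orderOf (x * y) / 2 = m := by omega
  rw [hdiv]
  have hz2 : (x * y) ^ m * (x * y) ^ m = 1 := by
    rw [← pow_add, ← hm, pow_orderOf_eq_one]
  have hinv : ((x * y) ^ m)⁻¹ = (x * y) ^ m := inv_eq_of_mul_eq_one_left hz2
  have hxz : x * (x * y) ^ m = (x * y) ^ (m : ℤ) * x := by
    have := dih_comm hx hy (m : ℤ)
    rw [zpow_neg, zpow_natCast, hinv] at this
    rw [this, zpow_natCast]
  rw [hxz]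
  constructor
  · rintro ⟨d, hd, h⟩
    obtain ⟨k, hk⟩ := dih_conj_x hx hy hd
    rw [h] at hk
    have h1 := mul_right_cancel hk
    have h2 : (x * y) ^ (2 * k - m) = 1 := by
      rw [zpow_sub, ← h1]
      simp
    have h3 := orderOf_dvd_iff_zpow_eq_one.mpr h2
    rw [hm] at h3 ⊢
    obtain ⟨c, hc⟩ := h3
    push_cast at hc
    have h4 : (m : ℤ) = 2 * (k - m * c) := by linarith
    have h5 : (2 : ℤ) ∣ m := ⟨_, h4⟩
    have h6 : 2 ∣ m := by exact_mod_cast h5
    obtain ⟨e, rfl⟩ := h6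
    exact ⟨e, by ring⟩
  · rintro ⟨e, he⟩
    have hme : m = 2 * e := by omega
    refine ⟨(x * y) ^ (e : ℤ), Subgroup.zpow_mem _ dih_r_mem _, ?_⟩
    rw [← zpow_neg, mul_assoc, dih_comm hx hy, neg_neg, ← mul_assoc, ← zpow_add, hme]
    congr 2
    push_cast
    ring

end Cfsg.Agent.S0211
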