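import Cfsg.Statements.S0216
import Cfsg.Agent.Lib.Helper5.DihedralIso

set_option autoImplicit false
open Cfsg

namespace Cfsg.Agent.S0216

open Cfsg.Agent.Lib.Helper5
open scoped Pointwise

/-- For an involution u in a Sylow 2-subgroup P of a finite group G, the following are equivalent: no G-conjugate of u other than u lies in P; every commutator of u with an element of G has odd order. -/
theorem result {G : Type*} [Group G] [Finite G] (P : Sylow 2 G) (u : G) (hu : orderOf u = 2) (huP : u ∈ P) : (∀ g : G, g * u * g⁻¹ ∈ P → g * u * g⁻¹ = u) ↔ (∀ g : G, Odd (orderOf (u * g * u⁻¹ * g⁻¹))) := by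
  have hui := inv_eq_self_of_order_two hu
  constructor
  · intro hiso g
    by_contra hodd
    rw [Nat.not_odd_iff_even] at hodd
    obtain ⟨v, hv⟩ : ∃ v, v = g * u * g⁻¹ := ⟨_, rfl⟩
    have hv2 : orderOf v = 2 := by
      apply order_two_of_mul_self
      · rw [hv]
        calc g * u * g⁻¹ * (g * u * g⁻¹) = g * (u * u) * g⁻¹ := by group
          _ = 1 := by rw [mul_self_of_order_two hu]; group
      · rw [hv]
        intro h
        apply ne_one_of_order_two hu
        calc u = g⁻¹ * (g * u * g⁻¹) * g := by group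
          _ = 1 := by rw [h]; group
    have hcomm : u * g * u⁻¹ * g⁻¹ = u * v := by
      rw [hv, hui]; group
    rw [hcomm] at hodd
    obtain ⟨m, hm⟩ := hodd
    have hpos : 0 < orderOf (u * v) := orderOf_pos _
    have hm0 : 0 < m := by omega
    have hz2 : (u * v) ^ m * (u * v) ^ m = 1 := by
      rw [← pow_add, ← hm, pow_orderOf_eq_one]
    have hz1 : (u * v) ^ m ≠ 1 := by
      intro h
      have := orderOf_le_of_pow_eq_one hm0 h
      omega
    obtain ⟨w, hw⟩ : ∃ w, w = (u * v) ^ (m : ℤ) * u := ⟨_, rfl⟩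
    have hwc : ∃ c : G, w = c * u * c⁻¹ := by
      rcases Nat.even_or_odd' m with ⟨e, rfl | rfl⟩
      · refine ⟨(u * v) ^ (e : ℤ), ?_⟩
        rw [hw, ← zpow_neg, mul_assoc, dih_comm hu hv2, neg_neg, ← mul_assoc, ← zpow_add]
        congr 2
        push_cast
        ring
      · refine ⟨(u * v) ^ ((e : ℤ) + 1) * g, ?_⟩
        have : (u * v) ^ ((e : ℤ) + 1) * g * u * ((u * v) ^ ((e : ℤ) + 1) * g)⁻¹
            = (u * v) ^ ((e : ℤ) + 1) * v * ((u * v) ^ ((e : ℤ) + 1))⁻¹ := by
          rw [hv]; group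
        rw [this, hw]
        have hv' : (u * v) ^ ((e : ℤ) + 1) * v = (u * v) ^ (e : ℤ) * u := by
          have h0 : (u * v) ^ ((e : ℤ) + 1) * v = (u * v) ^ ((e : ℤ) + 1) * ((u * v) ^ (-1 : ℤ) * u) := by
            rw [← dih_y_eq hu hv2]
          rw [h0, ← mul_assoc, ← zpow_add]
          congr 2
          ring
        rw [hv', ← zpow_neg, mul_assoc, dih_comm hu hv2, neg_neg, ← mul_assoc, ← zpow_add]
        congr 2
        push_cast
        ring
    have hwu : w ≠ u := by
      intro h
      rw [hw, zpow_natCast] at h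
      exact hz1 (by simpa using h)
    have huw : u * w = ((u * v) ^ m)⁻¹ := by
      rw [hw, ← mul_assoc, dih_comm hu hv2, mul_assoc, mul_self_of_order_two hu, mul_one, zpow_neg,
        zpow_natCast]
    have hw2 : orderOf w = 2 := by
      apply order_two_of_mul_self
      · rw [hw, mul_assoc, ← mul_assoc u, dih_comm hu hv2, mul_assoc, mul_self_of_order_two hu,
          mul_one, ← zpow_add, add_neg_cancel, zpow_zero]
      · intro h
        rw [hw] at h
        apply dih_x_not_mem hu hv2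
        have h1 : u = ((u * v) ^ (m : ℤ))⁻¹ := eq_inv_of_mul_eq_one_right h
        have h2 : ((u * v) ^ (m : ℤ))⁻¹ ∈ Subgroup.zpowers (u * v) :=
          inv_mem (Subgroup.zpow_mem_zpowers _ _)
        rwa [← h1] at h2
    have hcard := dih_card hu hw2
    have huw2 : orderOf (u * w) = 2 := by
      rw [huw, orderOf_inv]
      exact order_two_of_mul_self hz2 hz1
    rw [huw2] at hcard
    have hpg : IsPGroup 2 ↥(Subgroup.closure ({u, w} : Set G)) :=
      IsPGroup.of_card (n := 2) (by rw [hcard]; norm_num)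
    obtain ⟨Q, hQ⟩ := hpg.exists_le_sylow
    obtain ⟨h, hh⟩ := MulAction.exists_smul_eq G P Q
    have hmem : ∀ a : G, a ∈ Q → h⁻¹ * a * h⁻¹⁻¹ ∈ P := by
      intro a ha
      rw [← hh] at ha
      have ha' : a ∈ (MulAut.conj h • (P : Subgroup G)) := ha
      rw [Subgroup.mem_pointwise_smul_iff_inv_smul_mem] at ha'
      have ha'' : h⁻¹ * a * h ∈ (P : Subgroup G) := by simpa [MulAut.smul_def] using ha'
      rw [inv_inv]
      exact ha''
    have h1 := hiso h⁻¹ (hmem u (hQ dih_x_mem))
    obtain ⟨c, hc⟩ := hwc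
    have h2 := hmem w (hQ dih_y_mem)
    have h3 : h⁻¹ * w * h⁻¹⁻¹ = (h⁻¹ * c) * u * (h⁻¹ * c)⁻¹ := by
      rw [hc]; group
    rw [h3] at h2
    have h4 := hiso _ h2
    rw [← h3, ← h1] at h4
    apply hwu
    have h5 := mul_right_cancel h4
    exact mul_left_cancel h5
  · intro hodd g hg
    have h1 : u * g * u⁻¹ * g⁻¹ = u * (g * u * g⁻¹)⁻¹ := by group
    have h2 : u * g * u⁻¹ * g⁻¹ ∈ P := by
      rw [h1]
      exact mul_mem huP (inv_mem hg)
    obtain ⟨k, hk⟩ := (IsPGroup.iff_orderOf.mp P.isPGroup') ⟨_, h2⟩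
    rw [Subgroup.orderOf_mk] at hk
    have h3 := hodd g
    rw [hk] at h3
    have hk0 : k = 0 := by
      by_contra hk0
      exact (Nat.not_odd_iff_even.mpr ((Nat.even_pow.mpr ⟨even_two, hk0⟩))) h3
    rw [hk0, pow_zero, orderOf_eq_one_iff, h1] at hk
    exact (eq_of_mul_inv_eq_one hk).symm

end Cfsg.Agent.S0216
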