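import Cfsg.Statements.S0218
import Mathlib

set_option autoImplicit false
open Cfsg

namespace Cfsg.Agent.S0218

/-- The generalized quaternion group of order 2^(n+3) contains exactly one element of order 2. -/
theorem result (n : ℕ) : Nat.card {x : QuaternionGroup (2 ^ (n + 1)) // orderOf x = 2} = 1 := by
  have : NeZero (2 ^ (n + 1)) := ⟨by positivity⟩
  set N := 2 ^ (n + 1) with hN
  have hNpos : 0 < N := by positivity
  have : NeZero (2 * N) := ⟨by positivity⟩
  rw [Nat.card_eq_one_iff_unique]
  have key : ∀ x : QuaternionGroup N, orderOf x = 2 → x = QuaternionGroup.a (N : ZMod (2 * N)) := by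
    intro x hx
    cases x with
    | a i =>
      have h1 : (QuaternionGroup.a i : QuaternionGroup N) * QuaternionGroup.a i = 1 := by
        have := pow_orderOf_eq_one (QuaternionGroup.a i : QuaternionGroup N)
        rw [hx, sq] at this
        exact this
      have h0 : i ≠ 0 := by
        rintro rfl
        rw [QuaternionGroup.a_zero] at hx
        simp at hx
      rw [QuaternionGroup.a_mul_a, QuaternionGroup.one_def] at h1
      have h2 : i + i = 0 := by
        injection h1
      congr 1
      have h3 : ((i.val + i.val : ℕ) : ZMod (2 * N)) = 0 := by
        push_cast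
        rw [ZMod.natCast_zmod_val]
        exact h2
      rw [ZMod.natCast_eq_zero_iff] at h3
      have h4 : i.val < 2 * N := ZMod.val_lt i
      have h5 : i.val ≠ 0 := by
        intro h
        exact h0 ((ZMod.val_eq_zero i).mp h)
      obtain ⟨c, hc⟩ := h3
      have h6 : i.val = N := by
        have hc1 : c = 1 := by
          have : c < 2 := by
            by_contra hcc
            push Not at hcc
            have : 2 * N * 2 ≤ 2 * N * c := Nat.mul_le_mul_left _ hcc
            omega
          have : c ≠ 0 := by
            rintro rfl
            omega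
          omega
        subst hc1
        omega
      calc i = ((i.val : ℕ) : ZMod (2 * N)) := (ZMod.natCast_zmod_val i).symm
        _ = (N : ZMod (2 * N)) := by rw [h6]
    | xa i =>
      rw [QuaternionGroup.orderOf_xa] at hx
      omega
  constructor
  · constructor
    intro a b
    apply Subtype.ext
    rw [key a.1 a.2, key b.1 b.2]
  · refine ⟨⟨QuaternionGroup.a (N : ZMod (2 * N)), ?_⟩⟩
    rw [QuaternionGroup.orderOf_a]
    have : (N : ZMod (2 * N)).val = N := ZMod.val_natCast_of_lt (by omega)
    rw [this]
    have : Nat.gcd (2 * N) N = N := Nat.gcd_eq_right (Dvd.intro_left 2 rfl)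
    rw [this]
    exact Nat.mul_div_cancel _ hNpos

end Cfsg.Agent.S0218
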