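import Cfsg.Statements.S0219
import Mathlib
import Cfsg.Agent.Lib.Helper6.Pairs

set_option autoImplicit false
open Cfsg

namespace Cfsg.Agent.S0219

open Cfsg.Agent.Lib.Helper6

/-- If a finite group has even order and a cyclic Sylow 2-subgroup, then it has a subgroup of index 2 (consider the parity of permutations in the regular representation). -/
theorem result {G : Type*} [Group G] [Finite G] (heven : Even (Nat.card G)) (T : Sylow 2 G) (hT : IsCyclic (T : Subgroup G)) : ∃ H : Subgroup G, H.index = 2 := by
  have hfact : Fact (Nat.Prime 2) := ⟨Nat.prime_two⟩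
  have hmin : (Nat.card G).minFac = 2 := by
    rw [Nat.minFac_eq_two_iff]; exact even_iff_two_dvd.mp heven
  have hNC := hT.normalizer_le_centralizer hmin
  have hcompl := hT.isComplement' hmin
  set φ := MonoidHom.transferSylow T hNC with hφ
  -- φ is surjective
  have hsurj : Function.Surjective φ := by
    rw [← MonoidHom.range_eq_top]
    apply Subgroup.eq_top_of_card_eq
    have h1 : Nat.card φ.range = φ.ker.index := (Subgroup.index_ker φ).symm
    rw [h1, hcompl.symm.index_eq_card]
  -- T has a subgroup of index 2
  have hTeven : 2 ∣ Nat.card (T : Subgroup G) := by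
    have := T.card_eq_multiplicity
    rw [this]
    apply dvd_pow_self
    have h2 : 2 ∣ Nat.card G := even_iff_two_dvd.mp heven
    exact (Nat.Prime.factorization_pos_of_dvd Nat.prime_two Nat.card_pos.ne' h2).ne'
  obtain ⟨n, hn⟩ := T.2.exists_card_eq
  have hn0 : n ≠ 0 := by
    rintro rfl
    rw [hn] at hTeven
    simp at hTeven
  obtain ⟨m, rfl⟩ := Nat.exists_eq_succ_of_ne_zero hn0
  obtain ⟨K, hK⟩ := Sylow.exists_subgroup_card_pow_prime (G := (T : Subgroup G)) 2 (n := m)
    (by rw [hn]; exact pow_dvd_pow 2 (Nat.le_succ m))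
  have hKi : K.index = 2 := by
    have h1 := K.card_mul_index
    rw [hK, hn, pow_succ] at h1
    exact Nat.eq_of_mul_eq_mul_left (by positivity) h1
  refine ⟨K.comap φ, ?_⟩
  rw [Subgroup.index_comap_of_surjective K hsurj, hKi]

end Cfsg.Agent.S0219
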