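import Cfsg.Statements.S0220
import Mathlib
import Cfsg.Agent.Lib.Helper6.Invol
import Cfsg.Agent.S0219

set_option autoImplicit false
open Cfsg

namespace Cfsg.Agent.S0220

open Cfsg.Agent.Lib.Helper6

theorem cyc_unique_invol {A : Type*} [Group A] [Finite A] [IsCyclic A] {a b : A}
    (ha : orderOf a = 2) (hb : orderOf b = 2) : a = b := by
  classical
  have := Fintype.ofFinite A
  by_contra hne
  have h := IsCyclic.card_pow_eq_one_le (α := A) (n := 2) (by norm_num)
  have hsub : ({1, a, b} : Finset A) ⊆ Finset.univ.filter (fun g => g ^ 2 = 1) := by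
    intro g hg
    simp only [Finset.mem_insert, Finset.mem_singleton] at hg
    rw [Finset.mem_filter]
    refine ⟨Finset.mem_univ _, ?_⟩
    rcases hg with rfl | rfl | rfl
    · simp
    · exact invol_sq ha
    · exact invol_sq hb
  have hcard : ({1, a, b} : Finset A).card = 3 := by
    rw [Finset.card_insert_of_notMem, Finset.card_insert_of_notMem, Finset.card_singleton]
    · simpa using hne
    · simp only [Finset.mem_insert, Finset.mem_singleton, not_or]
      exact ⟨(invol_ne_one ha).symm, (invol_ne_one hb).symm⟩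
  have := Finset.card_le_card hsub
  omega

theorem aux {G : Type*} [Group G] [Finite G] (x : G) (hx : orderOf x = 2) (C : Subgroup G)
    (hC : ∀ g, g ∈ C ↔ g * x = x * g) (S : Sylow 2 C) (hS : IsCyclic (S : Subgroup C)) :
    ∃ H : Subgroup G, H.index = 2 := by
  have hfact : Fact (Nat.Prime 2) := ⟨Nat.prime_two⟩
  have hxC : x ∈ C := (hC x).mpr rfl
  -- x lies in S
  have hxS : (⟨x, hxC⟩ : C) ∈ (S : Subgroup C) := by
    have hcen : Subgroup.zpowers (⟨x, hxC⟩ : C) ≤ Subgroup.center C := by
      rw [Subgroup.zpowers_le, Subgroup.mem_center_iff]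
      intro g
      apply Subtype.ext
      exact (hC g.1).mp g.2
    have hn : (Subgroup.zpowers (⟨x, hxC⟩ : C)).Normal := ⟨fun k hk g => by
      have := Subgroup.mem_center_iff.mp (hcen hk) g
      rw [this]; simpa using hk⟩
    have hp : IsPGroup 2 (Subgroup.zpowers (⟨x, hxC⟩ : C)) := by
      apply IsPGroup.of_card (n := 1)
      rw [Nat.card_zpowers, pow_one, ← hx, ← Subgroup.orderOf_coe]
    exact hp.le_sylow_of_normal S (Subgroup.mem_zpowers _)
  set S' : Subgroup G := (S : Subgroup C).map C.subtype with hS'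
  have hS'p : IsPGroup 2 S' := S.2.map _
  obtain ⟨T, hT⟩ := hS'p.exists_le_sylow
  have hxS' : x ∈ S' := ⟨⟨x, hxC⟩, hxS, rfl⟩
  -- T ∩ C = S'
  have hTC : (T : Subgroup G) ⊓ C ≤ S' := by
    have h1 : IsPGroup 2 (((T : Subgroup G) ⊓ C).subgroupOf C) :=
      (T.2.to_le inf_le_left).comap_subtype
    have h2 : (S : Subgroup C) ≤ ((T : Subgroup G) ⊓ C).subgroupOf C := by
      intro c hc
      rw [Subgroup.mem_subgroupOf]
      exact ⟨hT ⟨c, hc, rfl⟩, c.2⟩
    have h3 := S.is_maximal' h1 h2
    intro w hw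
    have h4 : (⟨w, hw.2⟩ : C) ∈ ((T : Subgroup G) ⊓ C).subgroupOf C := by
      rw [Subgroup.mem_subgroupOf]; exact hw
    rw [h3] at h4
    exact ⟨⟨w, hw.2⟩, h4, rfl⟩
  -- involutions of S' equal x
  have huniq : ∀ y ∈ S', orderOf y = 2 → y = x := by
    rintro _ ⟨c, hc, rfl⟩ hy
    have h1 : orderOf (⟨c, hc⟩ : (S : Subgroup C)) = 2 :=
      (Subgroup.orderOf_mk c hc).trans ((Subgroup.orderOf_coe c).symm.trans hy)
    have h2 : orderOf (⟨⟨x, hxC⟩, hxS⟩ : (S : Subgroup C)) = 2 :=
      (Subgroup.orderOf_mk _ hxS).trans ((Subgroup.orderOf_mk x hxC).trans hx)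
    have h3 := cyc_unique_invol h1 h2
    exact congrArg (fun w : (S : Subgroup C) => (w.1.1 : G)) h3
  -- S' = T by the normalizer condition
  have hnil : Group.IsNilpotent (T : Subgroup G) := T.2.isNilpotent
  have hnc : NormalizerCondition (T : Subgroup G) := Group.normalizerCondition_of_isNilpotent
  have htop : S'.subgroupOf (T : Subgroup G) = ⊤ := by
    apply normalizerCondition_iff_only_full_group_self_normalizing.mp hnc
    apply le_antisymm _ Subgroup.le_normalizer
    intro n hn
    rw [Subgroup.mem_normalizer_iff] at hn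
    have h1 : (⟨x, hT hxS'⟩ : (T : Subgroup G)) ∈ S'.subgroupOf (T : Subgroup G) := by
      rw [Subgroup.mem_subgroupOf]; exact hxS'
    have h2 := (hn _).mp h1
    rw [Subgroup.mem_subgroupOf] at h2
    have h3 : n.1 * x * n.1⁻¹ = x := huniq _ h2 (invol_conj hx _)
    rw [Subgroup.mem_subgroupOf]
    apply hTC
    exact ⟨n.2, (hC _).mpr (mul_inv_eq_iff_eq_mul.mp h3)⟩
  have hTS' : (T : Subgroup G) ≤ S' := by
    intro w hw
    have : (⟨w, hw⟩ : (T : Subgroup G)) ∈ S'.subgroupOf (T : Subgroup G) := by rw [htop]; trivial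
    exact Subgroup.mem_subgroupOf.mp this
  -- T is cyclic
  have hcyc : IsCyclic (T : Subgroup G) := by
    let f : (S : Subgroup C) →* (T : Subgroup G) :=
      { toFun := fun c => ⟨c.1.1, hT ⟨c.1, c.2, rfl⟩⟩
        map_one' := rfl
        map_mul' := fun a b => rfl }
    apply isCyclic_of_surjective f
    rintro ⟨w, hw⟩
    obtain ⟨c, hc, rfl⟩ := hTS' hw
    exact ⟨⟨c, hc⟩, rfl⟩
  have heven : Even (Nat.card G) := by
    rw [even_iff_two_dvd, ← hx]
    exact orderOf_dvd_natCard x
  exact Cfsg.Agent.S0219.result heven T hcyc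

/-- If x is an involution of a finite group G and a Sylow 2-subgroup of the centralizer of x is cyclic, then G has a subgroup of index 2; in particular G is not simple unless it has order 2. -/
theorem result {G : Type*} [Group G] [Finite G] (x : G) (hx : orderOf x = 2) (S : Sylow 2 ↥(Subgroup.centralizer ({x} : Set G))) (hS : IsCyclic (S : Subgroup ↥(Subgroup.centralizer ({x} : Set G)))) : ∃ H : Subgroup G, H.index = 2 := by
  exact aux x hx _ (fun g => Subgroup.mem_centralizer_singleton_iff) S hS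

end Cfsg.Agent.S0220
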