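import Cfsg.Statements.S0221
import Mathlib
import Cfsg.Agent.Lib.Helper6.Invol
import Cfsg.Agent.Lib.Helper6.PCount
import Cfsg.Agent.Lib.Helper6.ElemAb
import Cfsg.Agent.S0111

set_option autoImplicit false
open Cfsg

namespace Cfsg.Agent.S0221

open Cfsg.Agent.Lib.Helper6

theorem comm_of_sq {G : Type*} [Group G] {a b : G} (ha : a ^ 2 = 1) (hb : b ^ 2 = 1)
    (hab : (a * b) ^ 2 = 1) : a * b = b * a := by
  have h1 : a⁻¹ = a := inv_eq_of_mul_eq_one_left (by rw [← pow_two]; exact ha)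
  have h2 : b⁻¹ = b := inv_eq_of_mul_eq_one_left (by rw [← pow_two]; exact hb)
  have h3 : (a * b)⁻¹ = a * b := inv_eq_of_mul_eq_one_left (by rw [← pow_two]; exact hab)
  rw [mul_inv_rev, h1, h2] at h3
  exact h3.symm

theorem relIndex_dvd_of_card {G : Type*} [Group G] [Finite G] {M T : Subgroup G} (hMT : M ≤ T)
    {p : ℕ} (h : Nat.card T ∣ p * Nat.card M) : M.relIndex T ∣ p := by
  have h1 : Nat.card M * M.relIndex T = Nat.card T := by
    have := Subgroup.relIndex_mul_relIndex ⊥ M T bot_le hMT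
    simpa [Subgroup.relIndex_bot_left] using this
  rw [← h1, mul_comm p] at h
  exact Nat.dvd_of_mul_dvd_mul_left Nat.card_pos h

/-- the main step: an involution `y` of `M = C_T(e)` lies in an elementary abelian group of
order divisible by 8 -/
theorem exists_big_elem {G : Type*} [Group G] [Finite G] (T E₀ : Subgroup G) (hET : E₀ ≤ T)
    (hE8 : Nat.card E₀ = 8) (hE2 : ∀ a ∈ E₀, a ^ 2 = 1) (z e y : G) (hzT : z ∈ T) (heT : e ∈ T)
    (hzc : ∀ t ∈ T, t * z = z * t) (hz : orderOf z = 2) (he : orderOf e = 2)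
    (hez : e ∉ Subgroup.zpowers z)
    (hidx : Nat.card T ∣ 2 * Nat.card (T ⊓ Subgroup.centralizer ({e} : Set G) : Subgroup G))
    (hy : orderOf y = 2) (hyM : y ∈ T ⊓ Subgroup.centralizer ({e} : Set G)) :
    ∃ A : Subgroup G, y ∈ A ∧ (∀ a ∈ A, ∀ b ∈ A, a * b = b * a) ∧ (∀ a ∈ A, a ^ 2 = 1) ∧
      8 ∣ Nat.card A := by
  have hfact : Fact (Nat.Prime 2) := ⟨Nat.prime_two⟩
  have hEc : ∀ a ∈ E₀, ∀ b ∈ E₀, a * b = b * a := fun a ha b hb =>
    comm_of_sq (hE2 a ha) (hE2 b hb) (hE2 _ (E₀.mul_mem ha hb))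
  have hze : z * e = e * z := (hzc e heT).symm
  have hye : y * e = e * y := Subgroup.mem_centralizer_singleton_iff.mp hyM.2
  have hyz : y * z = z * y := hzc y hyM.1
  -- U = ⟨z, e⟩
  have hUc : ∀ a ∈ ({z, e} : Set G), ∀ b ∈ ({z, e} : Set G), a * b = b * a := by
    rintro a (rfl | rfl) b (rfl | rfl)
    · rfl
    · exact hze
    · exact hze.symm
    · rfl
  have hU2 : ∀ a ∈ ({z, e} : Set G), a ^ 2 = 1 := by
    rintro a (rfl | rfl)
    · exact invol_sq hz
    · exact invol_sq he
  by_cases hyU : y ∈ Subgroup.closure ({z, e} : Set G)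
  · -- B = E₀ ∩ M
    set B : Subgroup G := E₀ ⊓ (T ⊓ Subgroup.centralizer ({e} : Set G)) with hB
    have hB4 : 4 ∣ Nat.card B := by
      have h1 : (T ⊓ Subgroup.centralizer ({e} : Set G)).relIndex T ∣ 2 :=
        relIndex_dvd_of_card inf_le_left hidx
      have h2 : (T ⊓ Subgroup.centralizer ({e} : Set G)).relIndex E₀ ≤
          (T ⊓ Subgroup.centralizer ({e} : Set G)).relIndex T :=
        Subgroup.relIndex_le_of_le_right hET (fun h => by rw [h] at h1; simp at h1)
      have h3 : (T ⊓ Subgroup.centralizer ({e} : Set G)).relIndex T ≤ 2 :=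
        Nat.le_of_dvd (by norm_num) h1
      have h4 : Nat.card B * B.relIndex E₀ = Nat.card E₀ := by
        have := Subgroup.relIndex_mul_relIndex ⊥ B E₀ bot_le inf_le_left
        simpa [Subgroup.relIndex_bot_left] using this
      have h5 : B.relIndex E₀ = (T ⊓ Subgroup.centralizer ({e} : Set G)).relIndex E₀ := by
        rw [hB, Subgroup.inf_relIndex_left]
      rw [h5, hE8] at h4
      have h6 : (T ⊓ Subgroup.centralizer ({e} : Set G)).relIndex E₀ ≤ 2 := le_trans h2 h3
      have h7 : (T ⊓ Subgroup.centralizer ({e} : Set G)).relIndex E₀ ≠ 0 := by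
        intro h; rw [h] at h4; simp at h4
      generalize (T ⊓ Subgroup.centralizer ({e} : Set G)).relIndex E₀ = r at h4 h6 h7
      have hr : r = 1 ∨ r = 2 := by omega
      rcases hr with rfl | rfl
      · exact ⟨2, by omega⟩
      · exact ⟨1, by omega⟩
    have hSc : ∀ a ∈ ((B : Set G) ∪ {z, e}), ∀ b ∈ ((B : Set G) ∪ {z, e}), a * b = b * a := by
      have hBz : ∀ b ∈ B, b * z = z * b := fun b hb => hzc b hb.2.1
      have hBe : ∀ b ∈ B, b * e = e * b := fun b hb =>
        Subgroup.mem_centralizer_singleton_iff.mp hb.2.2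
      rintro a (ha | rfl | rfl) b (hb | rfl | rfl)
      · exact hEc a ha.1 b hb.1
      · exact hBz a ha
      · exact hBe a ha
      · exact (hBz b hb).symm
      · rfl
      · exact hze
      · exact (hBe b hb).symm
      · exact hze.symm
      · rfl
    have hS2 : ∀ a ∈ ((B : Set G) ∪ {z, e}), a ^ 2 = 1 := by
      rintro a (ha | rfl | rfl)
      · exact hE2 a ha.1
      · exact invol_sq hz
      · exact invol_sq he
    refine ⟨Subgroup.closure ((B : Set G) ∪ {z, e}), ?_, closure_comm hSc,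
      closure_pow_eq_one 2 hSc hS2, ?_⟩
    · exact Subgroup.closure_mono Set.subset_union_right hyU
    · have hBle : B ≤ Subgroup.closure ((B : Set G) ∪ {z, e}) := fun b hb =>
        Subgroup.subset_closure (Or.inl hb)
      rcases hBle.eq_or_lt with heq | hlt
      · -- then e ∈ E₀ and so E₀ = B
        have heB : e ∈ B := by
          rw [heq]; exact Subgroup.subset_closure (Or.inr (Or.inr rfl))
        have hE0B : E₀ ≤ B := fun a ha =>
          ⟨ha, hET ha, Subgroup.mem_centralizer_singleton_iff.mpr (hEc a ha e heB.1)⟩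
        have : B = E₀ := le_antisymm inf_le_left hE0B
        rw [← heq, this, hE8]
      · have h1 := mul_card_dvd_of_lt 2 hlt (closure_pow_eq_one 2 hSc hS2)
        obtain ⟨c, hc⟩ := hB4
        rw [hc] at h1
        exact dvd_trans ⟨c, by ring⟩ h1
  · have hSc : ∀ a ∈ ({z, e, y} : Set G), ∀ b ∈ ({z, e, y} : Set G), a * b = b * a := by
      rintro a (rfl | rfl | rfl) b (rfl | rfl | rfl)
      · rfl
      · exact hze
      · exact hyz.symm
      · exact hze.symm
      · rfl
      · exact hye.symm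
      · exact hyz
      · exact hye
      · rfl
    have hS2 : ∀ a ∈ ({z, e, y} : Set G), a ^ 2 = 1 := by
      rintro a (rfl | rfl | rfl)
      · exact invol_sq hz
      · exact invol_sq he
      · exact invol_sq hy
    refine ⟨Subgroup.closure ({z, e, y} : Set G), ?_, closure_comm hSc,
      closure_pow_eq_one 2 hSc hS2, ?_⟩
    · exact Subgroup.subset_closure (Or.inr (Or.inr rfl))
    · have h1 : Subgroup.zpowers z < Subgroup.closure ({z, e} : Set G) := by
        refine lt_of_le_of_ne ?_ ?_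
        · rw [Subgroup.zpowers_le]; exact Subgroup.subset_closure (Or.inl rfl)
        · intro h
          apply hez
          rw [h]; exact Subgroup.subset_closure (Or.inr rfl)
      have h2 : Subgroup.closure ({z, e} : Set G) < Subgroup.closure ({z, e, y} : Set G) := by
        refine lt_of_le_of_ne ?_ ?_
        · apply Subgroup.closure_mono
          rintro a (rfl | rfl)
          · exact Or.inl rfl
          · exact Or.inr (Or.inl rfl)
        · intro h
          apply hyU
          rw [h]; exact Subgroup.subset_closure (Or.inr (Or.inr rfl))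
      have h3 := mul_card_dvd_of_lt 2 h1 (closure_pow_eq_one 2 hUc hU2)
      have h4 := mul_card_dvd_of_lt 2 h2 (closure_pow_eq_one 2 hSc hS2)
      rw [Nat.card_zpowers, hz] at h3
      obtain ⟨c, hc⟩ := h3
      rw [hc] at h4
      exact dvd_trans ⟨c, by ring⟩ h4

/-- Let G be a finite group with no subgroup of index 2 whose 2-rank is at least 3 (it contains an elementary abelian subgroup of order 8). Then the centralizer of every involution of G also contains an elementary abelian subgroup of order 8. -/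
theorem result {G : Type*} [Group G] [Finite G] (hno : ∀ H : Subgroup G, H.index ≠ 2) (hrank : ∃ E : Subgroup G, Nat.card E = 8 ∧ ∀ e ∈ E, e ^ 2 = 1) (x : G) (hx : orderOf x = 2) : ∃ E : Subgroup G, E ≤ Subgroup.centralizer ({x} : Set G) ∧ Nat.card E = 8 ∧ ∀ e ∈ E, e ^ 2 = 1 := by
  have hfact : Fact (Nat.Prime 2) := ⟨Nat.prime_two⟩
  obtain ⟨E₀, hE8, hE2⟩ := hrank
  have hEc : ∀ a ∈ E₀, ∀ b ∈ E₀, a * b = b * a := fun a ha b hb =>
    comm_of_sq (hE2 a ha) (hE2 b hb) (hE2 _ (E₀.mul_mem ha hb))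
  obtain ⟨T, hET⟩ := (isPGroup_of_pow_eq_one 2 E₀ hE2).exists_le_sylow
  obtain ⟨z, e, hzT, heT, hzc, hz, he, hez, hidx⟩ :=
    exists_small_class 2 (T : Subgroup G) E₀ T.2 hET hEc hE2 (by rw [hE8]; norm_num)
  -- x is conjugate into T
  obtain ⟨g₁, hg₁⟩ : ∃ g : G, g * x * g⁻¹ ∈ (T : Subgroup G) := by
    have hxp : IsPGroup 2 (Subgroup.zpowers x) := by
      apply IsPGroup.of_card (n := 1)
      rw [Nat.card_zpowers, hx, pow_one]
    obtain ⟨T', hT'⟩ := hxp.exists_le_sylow
    obtain ⟨g, hg⟩ := MulAction.exists_smul_eq G T' T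
    refine ⟨g, ?_⟩
    rw [← hg, Sylow.coe_subgroup_smul]
    exact Subgroup.smul_mem_pointwise_smul x (MulAut.conj g) _ (hT' (Subgroup.mem_zpowers x))
  -- and then into M
  obtain ⟨g, hg⟩ : ∃ g : G, g * x * g⁻¹ ∈ (T : Subgroup G) ⊓ Subgroup.centralizer ({e} : Set G) := by
    by_cases hM : g₁ * x * g₁⁻¹ ∈ (T : Subgroup G) ⊓ Subgroup.centralizer ({e} : Set G)
    · exact ⟨g₁, hM⟩
    · have h1 : ((T : Subgroup G) ⊓ Subgroup.centralizer ({e} : Set G)).relIndex T ∣ 2 :=
        relIndex_dvd_of_card inf_le_left hidx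
      have h2 : ((T : Subgroup G) ⊓ Subgroup.centralizer ({e} : Set G)).relIndex T = 2 := by
        rcases (Nat.dvd_prime Nat.prime_two).mp h1 with h | h
        · exact absurd (Subgroup.relIndex_eq_one.mp h hg₁) hM
        · exact h
      rcases Cfsg.Agent.S0111.result T _ inf_le_left h2 (g₁ * x * g₁⁻¹) (invol_conj hx g₁) hg₁ hM
        with ⟨N, -, hN, -⟩ | ⟨g₂, hg₂⟩
      · exact absurd hN (hno N)
      · refine ⟨g₂ * g₁, ?_⟩
        have : g₂ * g₁ * x * (g₂ * g₁)⁻¹ = g₂ * (g₁ * x * g₁⁻¹) * g₂⁻¹ := by group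
        rw [this]; exact hg₂
  obtain ⟨A, hyA, hAc, hA2, hA8⟩ := exists_big_elem (T : Subgroup G) E₀ hET hE8 hE2 z e
    (g * x * g⁻¹) hzT heT hzc hz he hez hidx (invol_conj hx g) hg
  obtain ⟨E', hE'A, hE'8⟩ := exists_le_card_eq 2 A 3 (by norm_num; exact hA8)
  refine ⟨E'.map (MulAut.conj g⁻¹).toMonoidHom, ?_, ?_, ?_⟩
  · rintro _ ⟨a, ha, rfl⟩
    rw [Subgroup.mem_centralizer_singleton_iff]
    simp only [MulEquiv.coe_toMonoidHom, MulAut.conj_apply, inv_inv]
    have h1 := hAc a (hE'A ha) _ hyA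
    calc g⁻¹ * a * g * x = g⁻¹ * (a * (g * x * g⁻¹)) * g := by group
      _ = g⁻¹ * ((g * x * g⁻¹) * a) * g := by rw [h1]
      _ = x * (g⁻¹ * a * g) := by group
  · rw [Subgroup.card_map_of_injective (MulAut.conj g⁻¹).injective, hE'8]; norm_num
  · rintro _ ⟨a, ha, rfl⟩
    rw [← map_pow, hA2 a (hE'A ha), map_one]

end Cfsg.Agent.S0221
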