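import Cfsg.Statements.S0226
import Mathlib

set_option autoImplicit false
open Cfsg

namespace Cfsg.Agent.S0226

/-- A finite group of even order has an odd number of involutions. -/
theorem result {G : Type*} [Group G] [Finite G] (heven : Even (Nat.card G)) : Odd (Nat.card {t : G // orderOf t = 2}) := by
  classical
  have := Fintype.ofFinite G
  have h0 : Fintype.card G ≡ Fintype.card (Function.fixedPoints (fun x : G => x⁻¹)) [MOD 2] := by
    have hf : ((show Function.End G from fun x : G => x⁻¹) ^ 2 ^ 1 : Function.End G) = 1 := by
      rw [pow_one, pow_two]
      funext x
      show (x⁻¹)⁻¹ = x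
      simp
    exact @Equiv.Perm.card_fixedPoints_modEq G _ _ _ 2 1 ⟨Nat.prime_two⟩ hf
  have h1 : Fintype.card (Function.fixedPoints (fun x : G => x⁻¹)) = Nat.card {t : G // orderOf t = 2} + 1 := by
    rw [← Nat.card_eq_fintype_card]
    have e : (Function.fixedPoints (fun x : G => x⁻¹)) ≃ Option {t : G // orderOf t = 2} :=
      { toFun := fun x => if h : x.1 = 1 then none else some ⟨x.1, by
          have hx : x.1⁻¹ = x.1 := x.2
          rw [orderOf_eq_iff (by norm_num)]
          refine ⟨by rw [pow_two]; nth_rewrite 1 [← hx]; simp, ?_⟩
          intro m hm hm0
          have : m = 1 := by omega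
          subst this
          simpa using h⟩
        invFun := fun o => match o with
          | none => ⟨1, by simp [Function.mem_fixedPoints, Function.IsFixedPt]⟩
          | some t => ⟨t.1, by
              have h2 : t.1 ^ 2 = 1 := by have := pow_orderOf_eq_one t.1; rwa [t.2] at this
              simp only [Function.mem_fixedPoints, Function.IsFixedPt]
              rw [inv_eq_iff_mul_eq_one, ← pow_two, h2]⟩
        left_inv := by
          intro x
          by_cases h : x.1 = 1
          · simp only [h, dite_true]
            exact Subtype.ext h.symm
          · simp [h]
        right_inv := by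
          intro o
          cases o with
          | none => simp
          | some t =>
            have : t.1 ≠ 1 := by
              intro h
              have := t.2
              rw [h, orderOf_one] at this
              omega
            simp [this] }
    rw [Nat.card_congr e, Nat.card_eq_fintype_card, Fintype.card_option, Nat.card_eq_fintype_card]
  rw [Nat.card_eq_fintype_card] at heven
  rw [h1] at h0
  have h2 : (Nat.card {t : G // orderOf t = 2} + 1) % 2 = 0 := by
    rw [← h0]
    exact Nat.even_iff.mp heven
  rw [Nat.odd_iff]
  omega

end Cfsg.Agent.S0226
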