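import Cfsg.Statements.S0229
import Mathlib
import Cfsg.Agent.Lib.Helper6.Invol
import Cfsg.Agent.Lib.Helper6.ElemAb

set_option autoImplicit false
open Cfsg

namespace Cfsg.Agent.S0229

open Cfsg.Agent.Lib.Helper6

/-- Let t be an involution of a Sylow 2-subgroup S of a finite group G, conjugate in G to no other element of S, and let s be an involution of G not conjugate to t. Then the order of st is twice an odd number. -/
theorem result {G : Type*} [Group G] [Finite G] (S : Sylow 2 G) (t : G) (ht : orderOf t = 2) (htS : t ∈ S) (hiso : ∀ g : G, g * t * g⁻¹ ∈ S → g * t * g⁻¹ = t) (s : G) (hs : orderOf s = 2) (hns : ¬ IsConj s t) : orderOf (s * t) % 4 = 2 := by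
  have hfact : Fact (Nat.Prime 2) := ⟨Nat.prime_two⟩
  have hn0 : 0 < orderOf (s * t) := orderOf_pos _
  rcases Nat.even_or_odd (orderOf (s * t)) with heven | hodd
  swap
  · exact absurd (invol_isConj_of_odd hs ht hodd) hns
  obtain ⟨m, hm⟩ := heven
  rcases Nat.even_or_odd m with hmeven | hmodd
  swap
  · obtain ⟨j, hj⟩ := hmodd
    omega
  exfalso
  obtain ⟨k, hk⟩ := hmeven
  have hm0 : m ≠ 0 := by omega
  have hk0 : k ≠ 0 := by omega
  obtain ⟨hu, -, hut⟩ := invol_central_of_even hs ht (m := m) (by omega) hm0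
  set x := s * t with hx
  set u := x ^ m with hu'
  -- conjugating t by x^k gives u * t
  have hconj : x ^ k * t * (x ^ k)⁻¹ = u * t := by
    have h2 : t * x ^ k * t⁻¹ = (x ^ k)⁻¹ := conj_pow_of_inverts (invol_pair_inverts' hs ht) _
    have h3 : t * (x ^ k)⁻¹ = x ^ k * t := by
      have : t * (x ^ k)⁻¹ * t⁻¹ = x ^ k := by
        have := congrArg (fun y => y⁻¹) h2
        simp only [mul_inv_rev, inv_inv] at this
        rw [← mul_assoc] at this
        exact this
      exact mul_inv_eq_iff_eq_mul.mp this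
    rw [mul_assoc, h3, ← mul_assoc, ← pow_add, hu', hk]
  -- ⟨u, t⟩ is a 2-group
  have hSc : ∀ a ∈ ({u, t} : Set G), ∀ b ∈ ({u, t} : Set G), a * b = b * a := by
    rintro a (rfl | rfl) b (rfl | rfl)
    · rfl
    · exact hut.eq.symm
    · exact hut.eq
    · rfl
  have hS2 : ∀ a ∈ ({u, t} : Set G), a ^ 2 = 1 := by
    rintro a (rfl | rfl)
    · exact invol_sq hu
    · exact invol_sq ht
  obtain ⟨S', hS'⟩ := (isPGroup_of_pow_eq_one 2 _ (closure_pow_eq_one 2 hSc hS2)).exists_le_sylow
  obtain ⟨h, hh⟩ := MulAction.exists_smul_eq G S' S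
  have hmem : ∀ w ∈ (S' : Subgroup G), h * w * h⁻¹ ∈ S := by
    intro w hw
    have : h * w * h⁻¹ ∈ ((h • S' : Sylow 2 G) : Subgroup G) := by
      rw [Sylow.coe_subgroup_smul]
      exact Subgroup.smul_mem_pointwise_smul w (MulAut.conj h) _ hw
    rw [hh] at this
    exact this
  have htS' : t ∈ (S' : Subgroup G) := hS' (Subgroup.subset_closure (Or.inr rfl))
  have huS' : u ∈ (S' : Subgroup G) := hS' (Subgroup.subset_closure (Or.inl rfl))
  have h1 : h * t * h⁻¹ = t := hiso h (hmem t htS')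
  have h2 : (h * x ^ k) * t * (h * x ^ k)⁻¹ = t := by
    apply hiso
    have : (h * x ^ k) * t * (h * x ^ k)⁻¹ = h * (x ^ k * t * (x ^ k)⁻¹) * h⁻¹ := by group
    rw [this, hconj]
    exact hmem _ ((S' : Subgroup G).mul_mem huS' htS')
  have h3 : (h * x ^ k) * t * (h * x ^ k)⁻¹ = h * (u * t) * h⁻¹ := by
    rw [← hconj]; group
  rw [h3] at h2
  have h4 : h * (u * t) * h⁻¹ = h * t * h⁻¹ := by rw [h2, h1]
  have h5 : u * t = t := by
    have := mul_right_cancel h4
    exact mul_left_cancel this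
  exact invol_ne_one hu (mul_eq_right.mp h5)

end Cfsg.Agent.S0229
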