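import Cfsg.Statements.S0230
import Mathlib
import Cfsg.Agent.Lib.Helper6.Invol
import Cfsg.Agent.Lib.Helper6.ElemAb

set_option autoImplicit false
open Cfsg

namespace Cfsg.Agent.S0230

open Cfsg.Agent.Lib.Helper6

/-- Let G be a finite group with two non-conjugate involutions, and let t be an involution whose centralizer has maximal order among centralizers of involutions. Then |G| < |C_G(t)|^3. -/
theorem result {G : Type*} [Group G] [Finite G] (s t : G) (hs : orderOf s = 2) (ht : orderOf t = 2) (hnc : ¬ IsConj s t) (hmax : ∀ u : G, orderOf u = 2 → Nat.card (Subgroup.centralizer ({u} : Set G)) ≤ Nat.card (Subgroup.centralizer ({t} : Set G))) : Nat.card G < Nat.card (Subgroup.centralizer ({t} : Set G)) ^ 3 := by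
  classical
  have := Fintype.ofFinite G
  set m := Nat.card (Subgroup.centralizer ({t} : Set G)) with hm
  have hmpos : 0 < m := Nat.card_pos
  -- the class of t
  let Cl : Finset G := Finset.univ.filter (fun b => IsConj t b)
  let f : G → G := fun b => (s * b) ^ (orderOf (s * b) / 2)
  have hf : ∀ b ∈ Cl, orderOf (f b) = 2 ∧ Commute s (f b) ∧ Commute b (f b) := by
    intro b hb
    have hb' : IsConj t b := (Finset.mem_filter.mp hb).2
    obtain ⟨g, hg⟩ := isConj_iff.mp hb'
    have hb2 : orderOf b = 2 := by rw [← hg]; exact invol_conj ht g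
    have hnsb : ¬ IsConj s b := fun h => hnc (h.trans hb'.symm)
    rcases Nat.even_or_odd (orderOf (s * b)) with heven | hodd
    swap
    · exact absurd (invol_isConj_of_odd hs hb2 hodd) hnsb
    obtain ⟨k, hk⟩ := heven
    have hn0 : 0 < orderOf (s * b) := orderOf_pos _
    have hk2 : orderOf (s * b) / 2 = k := by omega
    simp only [f]
    rw [hk2]
    exact invol_central_of_even hs hb2 (m := k) (by omega) (by omega)
  -- index of the centralizer is at most the size of the class
  have hidx : (Subgroup.centralizer ({t} : Set G)).index ≤ Cl.card := by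
    rw [Subgroup.index]
    let φ : G ⧸ Subgroup.centralizer ({t} : Set G) → {b : G // b ∈ Cl} := fun q =>
      Quotient.liftOn' q (fun g => (⟨g * t * g⁻¹, Finset.mem_filter.mpr ⟨Finset.mem_univ _,
        isConj_iff.mpr ⟨g, rfl⟩⟩⟩ : {b : G // b ∈ Cl})) (by
        intro a b hab
        rw [QuotientGroup.leftRel_apply, Subgroup.mem_centralizer_singleton_iff] at hab
        apply Subtype.ext
        show a * t * a⁻¹ = b * t * b⁻¹
        have : b * t * b⁻¹ = a * ((a⁻¹ * b) * t) * b⁻¹ := by group
        rw [this, hab]; group)
    have hφ : Function.Injective φ := by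
      intro q₁ q₂
      induction q₁ using QuotientGroup.induction_on with
      | H a =>
        induction q₂ using QuotientGroup.induction_on with
        | H b =>
          intro hab
          have h2 : a * t * a⁻¹ = b * t * b⁻¹ := Subtype.ext_iff.mp hab
          rw [QuotientGroup.eq, Subgroup.mem_centralizer_singleton_iff]
          have h3 : b * t = a * t * a⁻¹ * b := by rw [h2]; group
          rw [mul_assoc, h3]; group
    have := Nat.card_le_card_of_injective φ hφ
    rwa [Nat.card_eq_fintype_card (α := {b : G // b ∈ Cl}), Fintype.card_coe] at this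
  -- fibres of f are small
  have hfib : ∀ z ∈ Cl.image f, (Cl.filter (fun b => f b = z)).card ≤ m := by
    intro z hz
    obtain ⟨b₀, hb₀, rfl⟩ := Finset.mem_image.mp hz
    have hz2 := (hf b₀ hb₀).1
    refine le_trans ?_ (hmax _ hz2)
    rw [Nat.card_eq_fintype_card, ← Fintype.card_coe]
    apply Fintype.card_le_of_injective (fun b : {b // b ∈ Cl.filter (fun b => f b = f b₀)} =>
      (⟨b.1, by
        have hb := Finset.mem_filter.mp b.2
        rw [Subgroup.mem_centralizer_singleton_iff]
        have h3 := (hf b.1 hb.1).2.2
        rw [hb.2] at h3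
        exact h3⟩ : Subgroup.centralizer ({f b₀} : Set G)))
    intro a b hab
    have h := Subtype.ext_iff.mp hab
    exact Subtype.ext h
  -- the image of f is small
  have himg : (Cl.image f).card + 1 ≤ m := by
    refine le_trans ?_ (hmax s hs)
    rw [Nat.card_eq_fintype_card, ← Fintype.card_coe, ← Fintype.card_option]
    apply Fintype.card_le_of_injective (fun o : Option {z // z ∈ Cl.image f} =>
      (match o with
      | none => (1 : Subgroup.centralizer ({s} : Set G))
      | some z => ⟨z.1, by
          obtain ⟨b₀, hb₀, hz⟩ := Finset.mem_image.mp z.2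
          rw [Subgroup.mem_centralizer_singleton_iff, ← hz]
          exact (hf b₀ hb₀).2.1.symm⟩))
    intro a b hab
    have hne : ∀ z : {z // z ∈ Cl.image f}, z.1 ≠ 1 := by
      intro z
      obtain ⟨b₀, hb₀, hz⟩ := Finset.mem_image.mp z.2
      rw [← hz]
      exact invol_ne_one (hf b₀ hb₀).1
    rcases a with _ | a <;> rcases b with _ | b
    · rfl
    · exact absurd (Subtype.ext_iff.mp hab).symm (hne b)
    · exact absurd (Subtype.ext_iff.mp hab) (hne a)
    · have h := Subtype.ext_iff.mp hab
      have : a = b := Subtype.ext h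
      rw [this]
  have hCl : Cl.card ≤ m * (Cl.image f).card := Finset.card_le_mul_card_image Cl m hfib
  have hG := (Subgroup.centralizer ({t} : Set G)).card_mul_index
  rw [← hm] at hG
  rw [← hG]
  have h1 : (Subgroup.centralizer ({t} : Set G)).index ≤ m * (m - 1) :=
    le_trans hidx (le_trans hCl (Nat.mul_le_mul_left _ (by omega)))
  have h2 : m * (m - 1) < m * m := Nat.mul_lt_mul_of_pos_left (by omega) hmpos
  calc m * (Subgroup.centralizer ({t} : Set G)).index ≤ m * (m * (m - 1)) :=
        Nat.mul_le_mul_left _ h1
    _ < m * (m * m) := Nat.mul_lt_mul_of_pos_left h2 hmpos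
    _ = m ^ 3 := by ring

end Cfsg.Agent.S0230
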