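import Cfsg.Statements.S0231
import Mathlib
import Cfsg.Agent.Lib.Helper6.Invol
import Cfsg.Agent.Lib.Helper6.ElemAb

set_option autoImplicit false
open scoped Pointwise
open Cfsg

namespace Cfsg.Agent.S0231

open Cfsg.Agent.Lib.Helper6

/-- Let T be a Sylow 2-subgroup of the finite group G which is not normal and which intersects every other Sylow 2-subgroup trivially. Then G has a single conjugacy class of involutions. -/
theorem result {G : Type*} [Group G] [Finite G] (T : Sylow 2 G) (hnn : ¬ (T : Subgroup G).Normal) (hTI : ∀ g : G, MulAut.conj g • (T : Subgroup G) ≠ T → MulAut.conj g • (T : Subgroup G) ⊓ T = ⊥) (s t : G) (hs : orderOf s = 2) (ht : orderOf t = 2) : IsConj s t := by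
  have hfact : Fact (Nat.Prime 2) := ⟨Nat.prime_two⟩
  -- membership in conjugate Sylow subgroups
  have hmem : ∀ (P : Sylow 2 G) (g w : G), w ∈ ((g • P : Sylow 2 G) : Subgroup G) ↔
      g⁻¹ * w * g ∈ (P : Subgroup G) := by
    intro P g w
    rw [Sylow.coe_subgroup_smul, Subgroup.mem_pointwise_smul_iff_inv_smul_mem]
    simp [MulAut.smul_def]
  -- the TI property for arbitrary pairs of Sylow subgroups
  have hTI' : ∀ (P Q : Sylow 2 G) (w : G), w ∈ (P : Subgroup G) → w ∈ (Q : Subgroup G) → w ≠ 1 →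
      P = Q := by
    intro P Q w hwP hwQ hw1
    obtain ⟨g, rfl⟩ := MulAction.exists_smul_eq G T P
    obtain ⟨h, rfl⟩ := MulAction.exists_smul_eq G T Q
    by_contra hne
    have h1 : MulAut.conj (h⁻¹ * g) • (T : Subgroup G) ≠ T := by
      intro heq
      apply hne
      have h2 : ((h⁻¹ * g) • T : Sylow 2 G) = T := by
        apply Sylow.ext
        rw [Sylow.coe_subgroup_smul]; exact heq
      calc g • T = h • ((h⁻¹ * g) • T) := by rw [smul_smul]; simp
        _ = h • T := by rw [h2]
    have h3 := hTI _ h1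
    have h4 : h⁻¹ * w * h ∈ MulAut.conj (h⁻¹ * g) • (T : Subgroup G) ⊓ T := by
      refine ⟨?_, (hmem T h w).mp hwQ⟩
      have h5 := (hmem T g w).mp hwP
      have h6 : h⁻¹ * w * h ∈ (((h⁻¹ * g) • T : Sylow 2 G) : Subgroup G) := by
        rw [hmem]
        convert h5 using 1
        group
      rw [Sylow.coe_subgroup_smul] at h6
      exact h6
    rw [h3, Subgroup.mem_bot] at h4
    apply hw1
    have : w = h * (h⁻¹ * w * h) * h⁻¹ := by group
    rw [this, h4]; group
  -- commuting involutions lie in the same Sylow subgroup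
  have hcomm : ∀ (a b : G), orderOf a = 2 → orderOf b = 2 → Commute a b → ∀ P Q : Sylow 2 G,
      a ∈ (P : Subgroup G) → b ∈ (Q : Subgroup G) → P = Q := by
    intro a b ha hb hab P Q haP hbQ
    have hSc : ∀ c ∈ ({a, b} : Set G), ∀ d ∈ ({a, b} : Set G), c * d = d * c := by
      rintro c (rfl | rfl) d (rfl | rfl)
      · rfl
      · exact hab.eq
      · exact hab.eq.symm
      · rfl
    have hS2 : ∀ c ∈ ({a, b} : Set G), c ^ 2 = 1 := by
      rintro c (rfl | rfl)
      · exact invol_sq ha
      · exact invol_sq hb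
    obtain ⟨R, hR⟩ := (isPGroup_of_pow_eq_one 2 _ (closure_pow_eq_one 2 hSc hS2)).exists_le_sylow
    have haR : a ∈ (R : Subgroup G) := hR (Subgroup.subset_closure (Or.inl rfl))
    have hbR : b ∈ (R : Subgroup G) := hR (Subgroup.subset_closure (Or.inr rfl))
    rw [hTI' P R a haP haR (invol_ne_one ha), hTI' Q R b hbQ hbR (invol_ne_one hb)]
  -- every involution lies in a Sylow subgroup
  have hex : ∀ a : G, orderOf a = 2 → ∃ P : Sylow 2 G, a ∈ (P : Subgroup G) := by
    intro a ha
    have hxp : IsPGroup 2 (Subgroup.zpowers a) := by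
      apply IsPGroup.of_card (n := 1)
      rw [Nat.card_zpowers, ha, pow_one]
    obtain ⟨P, hP⟩ := hxp.exists_le_sylow
    exact ⟨P, hP (Subgroup.mem_zpowers a)⟩
  -- non-conjugate involutions lie in the same Sylow subgroup
  have hnc : ∀ (a b : G), orderOf a = 2 → orderOf b = 2 → ¬ IsConj a b → ∀ P Q : Sylow 2 G,
      a ∈ (P : Subgroup G) → b ∈ (Q : Subgroup G) → P = Q := by
    intro a b ha hb hab P Q haP hbQ
    rcases Nat.even_or_odd (orderOf (a * b)) with heven | hodd
    swap
    · exact absurd (invol_isConj_of_odd ha hb hodd) hab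
    obtain ⟨m, hm⟩ := heven
    have hn0 : 0 < orderOf (a * b) := orderOf_pos _
    obtain ⟨hc, hca, hcb⟩ := invol_central_of_even ha hb (m := m) (by omega) (by omega)
    obtain ⟨R, hR⟩ := hex _ hc
    rw [hcomm a _ ha hc hca P R haP hR, hcomm b _ hb hc hcb Q R hbQ hR]
  by_contra hst
  obtain ⟨P, hP⟩ := hex s hs
  obtain ⟨Q, hQ⟩ := hex t ht
  have hPQ := hnc s t hs ht hst P Q hP hQ
  -- all conjugates of P equal P
  have hall : ∀ g : G, g • P = P := by
    intro g
    have h1 : g * s * g⁻¹ ∈ ((g • P : Sylow 2 G) : Subgroup G) := by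
      rw [hmem]
      convert hP using 1
      group
    have h2 : ¬ IsConj (g * s * g⁻¹) t := by
      intro h
      apply hst
      exact (isConj_iff.mpr ⟨g, rfl⟩ : IsConj s (g * s * g⁻¹)).trans h
    rw [hnc _ t (invol_conj hs g) ht h2 (g • P) Q h1 hQ, hPQ]
  apply hnn
  obtain ⟨g, hg⟩ := MulAction.exists_smul_eq G P T
  rw [hall g] at hg
  rw [← hg]
  constructor
  intro n hn g
  have := (hmem P g (g * n * g⁻¹)).mpr (by convert hn using 1; group)
  rw [hall g] at this
  exact this

end Cfsg.Agent.S0231
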