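import Cfsg.Statements.S0238
import Mathlib
import Cfsg.Agent.Lib.Helper6.Pairs

set_option autoImplicit false
open Cfsg

namespace Cfsg.Agent.S0238

open Cfsg.Agent.Lib.Helper6

/-- For every x in a finite group G, the number c of ordered pairs (u, v) of involutions with uv = x is at most |C_G(x)|; c = 0 when x is not conjugate to x⁻¹; and c + 2 ≤ |C_G(x)| when x is an involution. -/
theorem result {G : Type*} [Group G] [Finite G] (x : G) : Nat.card {p : G × G // orderOf p.1 = 2 ∧ orderOf p.2 = 2 ∧ p.1 * p.2 = x} ≤ Nat.card (Subgroup.centralizer ({x} : Set G)) ∧ (¬ IsConj x x⁻¹ → Nat.card {p : G × G // orderOf p.1 = 2 ∧ orderOf p.2 = 2 ∧ p.1 * p.2 = x} = 0) ∧ (orderOf x = 2 → Nat.card {p : G × G // orderOf p.1 = 2 ∧ orderOf p.2 = 2 ∧ p.1 * p.2 = x} + 2 ≤ Nat.card (Subgroup.centralizer ({x} : Set G))) := by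
  classical
  have key : Nat.card {p : G × G // orderOf p.1 = 2 ∧ orderOf p.2 = 2 ∧ p.1 * p.2 = x} ≤
      Nat.card {g : G // g * x * g⁻¹ = x⁻¹} := by
    rw [Nat.card_congr (pairsEquiv x)]
    apply Nat.card_le_card_of_injective
      (fun t : {t : G // orderOf t = 2 ∧ orderOf (t * x) = 2} =>
        (⟨t.1, inverts_of_invol_mul t.2.1 t.2.2⟩ : {g : G // g * x * g⁻¹ = x⁻¹}))
    intro a b hab
    apply Subtype.ext
    have h := Subtype.ext_iff.mp hab
    exact h
  have hnr : ¬ IsConj x x⁻¹ → Nat.card {g : G // g * x * g⁻¹ = x⁻¹} = 0 := by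
    intro h
    have : IsEmpty {g : G // g * x * g⁻¹ = x⁻¹} := ⟨fun g => h (isConj_iff.mpr ⟨g.1, g.2⟩)⟩
    exact Nat.card_of_isEmpty
  refine ⟨?_, ?_, ?_⟩
  · by_cases hreal : IsConj x x⁻¹
    · obtain ⟨g₀, h0⟩ := isConj_iff.mp hreal
      rw [← Nat.card_congr (invertersEquiv h0)]
      exact key
    · rw [hnr hreal] at key
      omega
  · intro h
    rw [hnr h] at key
    omega
  · intro hx
    rw [Nat.card_congr (pairsEquiv x)]
    have e : Function.Injective (fun o : Option (Option {t : G // orderOf t = 2 ∧ orderOf (t * x) = 2}) =>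
        (match o with
        | none => (1 : Subgroup.centralizer ({x} : Set G))
        | some none => ⟨x, Subgroup.mem_centralizer_singleton_iff.mpr rfl⟩
        | some (some t) => ⟨t.1, Subgroup.mem_centralizer_singleton_iff.mpr
            ((invol_mul_iff_commute t.2.1 hx).mp t.2.2).1⟩)) := by
      intro a b hab
      rcases a with _ | _ | a <;> rcases b with _ | _ | b
      · rfl
      · exact absurd (Subtype.ext_iff.mp hab).symm (invol_ne_one hx)
      · exact absurd (Subtype.ext_iff.mp hab).symm (invol_ne_one b.2.1)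
      · exact absurd (Subtype.ext_iff.mp hab) (invol_ne_one hx)
      · rfl
      · exact absurd (Subtype.ext_iff.mp hab).symm ((invol_mul_iff_commute b.2.1 hx).mp b.2.2).2
      · exact absurd (Subtype.ext_iff.mp hab) (invol_ne_one a.2.1)
      · exact absurd (Subtype.ext_iff.mp hab) ((invol_mul_iff_commute a.2.1 hx).mp a.2.2).2
      · have h := Subtype.ext_iff.mp hab
        have : a = b := Subtype.ext h
        rw [this]
    have := Nat.card_le_card_of_injective _ e
    rw [Finite.card_option, Finite.card_option] at this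
    exact this

end Cfsg.Agent.S0238
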