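import Cfsg.Statements.S0233
import Mathlib
import Cfsg.Agent.Lib.Helper6.ExtCent
import Cfsg.Agent.S0238

set_option autoImplicit false
open Cfsg

namespace Cfsg.Agent.S0233

open Cfsg.Agent.Lib.Helper6

/-- Let G be a finite group of even order with exactly n involutions whose centre has odd order, and put a = |G|/n. Then G has a proper subgroup H with |G : H| = 2 or |G : H| < a(a+1)/2; over ℕ the latter reads 2·|G:H|·n² < |G|·(|G| + n). -/
theorem result {G : Type*} [Group G] [Finite G] (heven : Even (Nat.card G)) (hZ : Odd (Nat.card (Subgroup.center G))) : ∃ H : Subgroup G, H ≠ ⊤ ∧ (H.index = 2 ∨ 2 * H.index * (Nat.card {t : G // orderOf t = 2}) ^ 2 < Nat.card G * (Nat.card G + Nat.card {t : G // orderOf t = 2})) := by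
  classical
  have := Fintype.ofFinite G
  by_contra hcon
  push Not at hcon
  set N := Nat.card G with hN
  set n := Nat.card {t : G // orderOf t = 2} with hn
  have hNpos : 0 < N := Nat.card_pos
  have hnpos : 0 < n := by
    have : Fact (Nat.Prime 2) := ⟨Nat.prime_two⟩
    obtain ⟨t, ht⟩ := exists_prime_orderOf_dvd_card' (G := G) 2 (even_iff_two_dvd.mp heven)
    exact Nat.card_pos_iff.mpr ⟨⟨⟨t, ht⟩⟩, inferInstance⟩
  have hbound : ∀ H : Subgroup G, H ≠ ⊤ → Nat.card H * (N + n) ≤ 2 * n ^ 2 := by
    intro H hH
    have h1 := (hcon H hH).2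
    have h2 : Nat.card H * H.index = N := H.card_mul_index
    have h3 : N * (Nat.card H * (N + n)) ≤ N * (2 * n ^ 2) := by
      calc N * (Nat.card H * (N + n)) = Nat.card H * (N * (N + n)) := by ring
        _ ≤ Nat.card H * (2 * H.index * n ^ 2) := Nat.mul_le_mul_left _ h1
        _ = (Nat.card H * H.index) * (2 * n ^ 2) := by ring
        _ = N * (2 * n ^ 2) := by rw [h2]
    exact Nat.le_of_mul_le_mul_left h3 hNpos
  let c : G → ℕ := fun x =>
    Nat.card {p : G × G // orderOf p.1 = 2 ∧ orderOf p.2 = 2 ∧ p.1 * p.2 = x}
  let I : Finset G := Finset.univ.filter (fun t => orderOf t = 2)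
  have hnI : n = I.card := by
    rw [hn, Nat.card_eq_fintype_card, Fintype.card_subtype]
  have hc : ∀ x, c x = ((I ×ˢ I).filter (fun p => p.1 * p.2 = x)).card := by
    intro x
    simp only [c]
    rw [Nat.card_eq_fintype_card, Fintype.card_subtype]
    congr 1
    ext p
    simp [I, and_assoc]
  have hsum : ∑ x : G, c x = n ^ 2 := by
    simp_rw [hc]
    have h := Finset.card_eq_sum_card_fiberwise (s := I ×ˢ I) (t := (Finset.univ : Finset G))
      (f := fun p => p.1 * p.2) (fun p _ => Finset.mem_coe.mpr (Finset.mem_univ _))
    rw [← h, Finset.card_product, ← hnI, pow_two]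
  have hc1 : c 1 = n := by
    simp only [c]
    rw [Nat.card_congr (pairsEquiv 1)]
    apply Nat.card_congr
    exact Equiv.subtypeEquivRight (fun t => by simp)
  have hpt : ∀ x : G, (N + n) * (2 * c x + 4 * (if orderOf x = 2 then 1 else 0)) ≤
      2 * n ^ 2 * (1 + (if orderOf x = 2 then 1 else 0)) + 2 * n * N * (if x = 1 then 1 else 0) := by
    intro x
    obtain ⟨hle, hnr, hinv⟩ := Cfsg.Agent.S0238.result x
    by_cases hx1 : x = 1
    · subst hx1
      rw [hc1]
      simp only [orderOf_one, OfNat.one_ne_ofNat, if_false, if_true]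
      apply le_of_eq
      ring
    · by_cases hx2 : orderOf x = 2
      · simp only [hx2, hx1, if_true, if_false]
        have hne : Subgroup.centralizer ({x} : Set G) ≠ ⊤ := by
          intro htop
          have hxc : x ∈ Subgroup.center G := by
            rw [Subgroup.mem_center_iff]
            intro g
            have : g ∈ Subgroup.centralizer ({x} : Set G) := by rw [htop]; trivial
            exact (Subgroup.mem_centralizer_singleton_iff.mp this)
          have h1 : orderOf (⟨x, hxc⟩ : Subgroup.center G) ∣ Nat.card (Subgroup.center G) :=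
            orderOf_dvd_natCard _
          have h2 : orderOf (⟨x, hxc⟩ : Subgroup.center G) = orderOf x := by
            rw [← Subgroup.orderOf_coe]
          rw [h2, hx2] at h1
          exact (Nat.not_even_iff_odd.mpr hZ) (even_iff_two_dvd.mpr h1)
        have h3 := hbound _ hne
        have h4 : c x + 2 ≤ Nat.card (Subgroup.centralizer ({x} : Set G)) := hinv hx2
        calc (N + n) * (2 * c x + 4 * 1) = 2 * ((c x + 2) * (N + n)) := by ring
          _ ≤ 2 * (Nat.card (Subgroup.centralizer ({x} : Set G)) * (N + n)) :=
            Nat.mul_le_mul_left _ (Nat.mul_le_mul_right _ h4)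
          _ ≤ 2 * (2 * n ^ 2) := Nat.mul_le_mul_left _ h3
          _ = 2 * n ^ 2 * (1 + 1) + 2 * n * N * 0 := by ring
      · simp only [hx2, hx1, if_false]
        have hxsq : x ^ 2 ≠ 1 := by
          intro h
          apply hx2
          rw [invol_iff]
          exact ⟨by rw [← pow_two]; exact h, hx1⟩
        by_cases hc0 : c x = 0
        · rw [hc0]; simp
        · have hreal : IsConj x x⁻¹ := by
            by_contra h
            exact hc0 (hnr h)
          obtain ⟨g₀, h0⟩ := isConj_iff.mp hreal
          have hcard := card_extCentralizer hxsq h0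
          have hne : extCentralizer x ≠ ⊤ := by
            intro htop
            rw [htop, Subgroup.card_top] at hcard
            have h5 := (Subgroup.centralizer ({x} : Set G)).card_mul_index
            have hCpos : 0 < Nat.card (Subgroup.centralizer ({x} : Set G)) := Nat.card_pos
            have h6 : (Subgroup.centralizer ({x} : Set G)).index = 2 := by
              rw [hcard, mul_comm 2] at h5
              exact Nat.eq_of_mul_eq_mul_left hCpos h5
            have h7 : Subgroup.centralizer ({x} : Set G) ≠ ⊤ := by
              intro h8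
              rw [h8, Subgroup.index_top] at h6
              omega
            exact (hcon _ h7).1 h6
          have h3 := hbound _ hne
          rw [hcard] at h3
          have h4 : c x ≤ Nat.card (Subgroup.centralizer ({x} : Set G)) := hle
          calc (N + n) * (2 * c x + 4 * 0) = 2 * c x * (N + n) := by ring
            _ ≤ 2 * Nat.card (Subgroup.centralizer ({x} : Set G)) * (N + n) :=
              Nat.mul_le_mul_right _ (Nat.mul_le_mul_left _ h4)
            _ ≤ 2 * n ^ 2 := h3
            _ = 2 * n ^ 2 * (1 + 0) + 2 * n * N * 0 := by ring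
  have hS := Finset.sum_le_sum (fun x (_ : x ∈ (Finset.univ : Finset G)) => hpt x)
  have hI : ∑ x : G, (if orderOf x = 2 then 1 else 0) = n := by
    rw [Finset.sum_boole, hnI]
    simp [I]
  have h1 : ∑ x : G, (if x = 1 then 1 else 0) = 1 := by
    simp
  have hcardG : ∑ _x : G, 1 = N := by
    simp [hN, Nat.card_eq_fintype_card]
  rw [← Finset.mul_sum, Finset.sum_add_distrib, Finset.sum_add_distrib, ← Finset.mul_sum,
    ← Finset.mul_sum, ← Finset.mul_sum, ← Finset.mul_sum, Finset.sum_add_distrib, hsum, hI, h1,
    hcardG] at hS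
  nlinarith [Nat.mul_pos hnpos hNpos, Nat.mul_pos hnpos hnpos]

end Cfsg.Agent.S0233
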