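import Cfsg.Statements.S0232
import Mathlib
import Cfsg.Agent.Lib.Helper6.Pairs
import Cfsg.Agent.S0219
import Cfsg.Agent.S0233

set_option autoImplicit false
open Cfsg

namespace Cfsg.Agent.S0232

open Cfsg.Agent.Lib.Helper6

/-- the class of an involution consists of involutions -/
theorem card_le_centralizer_mul {G : Type*} [Group G] [Finite G] (t : G) (ht : orderOf t = 2) :
    Nat.card G ≤ Nat.card (Subgroup.centralizer ({t} : Set G)) * Nat.card {s : G // orderOf s = 2} := by
  have h1 := (Subgroup.centralizer ({t} : Set G)).card_mul_index
  rw [← h1]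
  apply Nat.mul_le_mul_left
  rw [Subgroup.index]
  let φ : G ⧸ Subgroup.centralizer ({t} : Set G) → {s : G // orderOf s = 2} := fun q =>
    Quotient.liftOn' q (fun g => (⟨g * t * g⁻¹, invol_conj ht g⟩ : {s : G // orderOf s = 2})) (by
      intro a b hab
      rw [QuotientGroup.leftRel_apply, Subgroup.mem_centralizer_singleton_iff] at hab
      apply Subtype.ext
      show a * t * a⁻¹ = b * t * b⁻¹
      have : b * t * b⁻¹ = a * ((a⁻¹ * b) * t) * b⁻¹ := by group
      rw [this, hab]; group)
  apply Nat.card_le_card_of_injective φ
  intro q₁ q₂
  induction q₁ using QuotientGroup.induction_on with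
  | H a =>
    induction q₂ using QuotientGroup.induction_on with
    | H b =>
      intro hab
      have h2 : a * t * a⁻¹ = b * t * b⁻¹ := Subtype.ext_iff.mp hab
      rw [QuotientGroup.eq, Subgroup.mem_centralizer_singleton_iff]
      have h3 : b * t = a * t * a⁻¹ * b := by rw [h2]; group
      rw [mul_assoc, h3]; group

theorem arith_aux {N n b c : ℕ} (hb : 0 < b) (hc : 0 < c) (h1 : N ≤ b * n) (h2 : 2 * n ^ 2 < c * (N + n))
    (hb3 : b ^ 3 ≤ N) (hc3 : c ^ 3 ≤ N) : False := by
  obtain ⟨m, hm0, hmb, hmc, hm3⟩ : ∃ m, 0 < m ∧ b ≤ m ∧ c ≤ m ∧ m ^ 3 ≤ N := by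
    rcases le_total b c with h | h
    · exact ⟨c, hc, h, le_refl _, hc3⟩
    · exact ⟨b, hb, le_refl _, h, hb3⟩
  have h3 : N ≤ m * n := le_trans h1 (Nat.mul_le_mul_right _ hmb)
  have h4 : 2 * n ^ 2 < m * (m * n + n) :=
    lt_of_lt_of_le h2 (Nat.mul_le_mul hmc (Nat.add_le_add_right h3 _))
  have hn0 : 0 < n := by
    rcases Nat.eq_zero_or_pos n with h | h
    · subst h; simp at h4
    · exact h
  have h5 : 2 * n < m * (m + 1) := by
    have : n * (2 * n) < n * (m * (m + 1)) := by nlinarith
    exact Nat.lt_of_mul_lt_mul_left this
  have h6 : n < m ^ 2 := by nlinarith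
  have h7 : m * n < m ^ 3 := by
    have : m * n < m * m ^ 2 := Nat.mul_lt_mul_of_pos_left h6 hm0
    calc m * n < m * m ^ 2 := this
      _ = m ^ 3 := by ring
  omega

theorem aux (n : ℕ) : ∀ (G : Type*) [Group G] [Finite G], Nat.card G = n → Even n → 2 < n →
    ∃ H : Subgroup G, H ≠ ⊤ ∧ Nat.card G < (Nat.card H) ^ 3 := by
  induction n using Nat.strong_induction_on with
  | _ n ih =>
    intro G _ _ hG heven hgt
    have hfact : Fact (Nat.Prime 2) := ⟨Nat.prime_two⟩
    by_cases h2 : ∃ H : Subgroup G, H.index = 2
    · obtain ⟨H, hH⟩ := h2
      refine ⟨H, ?_, ?_⟩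
      · intro h
        rw [h, Subgroup.index_top] at hH
        omega
      · have h1 := H.card_mul_index
        rw [hH, hG] at h1
        rw [hG, ← h1]
        have h3 : 2 ≤ Nat.card H := by omega
        nlinarith [Nat.mul_le_mul h3 h3]
    · by_cases hZ : Odd (Nat.card (Subgroup.center G))
      · obtain ⟨H, hH, hH2⟩ := Cfsg.Agent.S0233.result (G := G) (by rw [hG]; exact heven) hZ
        rcases hH2 with hH2 | hH2
        · exact absurd ⟨H, hH2⟩ h2
        · obtain ⟨t, ht⟩ := exists_prime_orderOf_dvd_card' (G := G) 2
            (by rw [hG]; exact even_iff_two_dvd.mp heven)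
          have hne : Subgroup.centralizer ({t} : Set G) ≠ ⊤ := by
            intro htop
            have hxc : t ∈ Subgroup.center G := by
              rw [Subgroup.mem_center_iff]
              intro g
              have : g ∈ Subgroup.centralizer ({t} : Set G) := by rw [htop]; trivial
              exact (Subgroup.mem_centralizer_singleton_iff.mp this)
            have h1 : orderOf (⟨t, hxc⟩ : Subgroup.center G) ∣ Nat.card (Subgroup.center G) :=
              orderOf_dvd_natCard _
            have h3 : orderOf (⟨t, hxc⟩ : Subgroup.center G) = orderOf t := by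
              rw [← Subgroup.orderOf_coe]
            rw [h3, ht] at h1
            exact (Nat.not_even_iff_odd.mpr hZ) (even_iff_two_dvd.mpr h1)
          by_contra hcon
          push Not at hcon
          have hb3 := hcon _ hne
          have hc3 := hcon _ hH
          have h1 := card_le_centralizer_mul t ht
          have h4 := H.card_mul_index
          have hNpos : 0 < Nat.card G := Nat.card_pos
          have h5 : 2 * (Nat.card {t : G // orderOf t = 2}) ^ 2 <
              Nat.card H * (Nat.card G + Nat.card {t : G // orderOf t = 2}) := by
            have h6 : Nat.card G * (2 * (Nat.card {t : G // orderOf t = 2}) ^ 2) <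
                Nat.card G * (Nat.card H * (Nat.card G + Nat.card {t : G // orderOf t = 2})) := by
              calc Nat.card G * (2 * (Nat.card {t : G // orderOf t = 2}) ^ 2)
                  = Nat.card H * (2 * H.index * (Nat.card {t : G // orderOf t = 2}) ^ 2) := by
                    rw [← h4]; ring
                _ < Nat.card H * (Nat.card G * (Nat.card G + Nat.card {t : G // orderOf t = 2})) :=
                    Nat.mul_lt_mul_of_pos_left hH2 Nat.card_pos
                _ = _ := by ring
            exact Nat.lt_of_mul_lt_mul_left h6
          exact arith_aux Nat.card_pos Nat.card_pos h1 h5 hb3 hc3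
      · rw [Nat.not_odd_iff_even] at hZ
        obtain ⟨z, hz⟩ := exists_prime_orderOf_dvd_card' (G := Subgroup.center G) 2
          (even_iff_two_dvd.mp hZ)
        have hz2 : orderOf (z : G) = 2 := by rw [Subgroup.orderOf_coe]; exact hz
        set K : Subgroup G := Subgroup.zpowers (z : G) with hK
        have hKc : K ≤ Subgroup.center G := Subgroup.zpowers_le.mpr z.2
        have hKn : K.Normal := ⟨fun k hk g => by
          have := Subgroup.mem_center_iff.mp (hKc hk) g
          rw [this]; simpa using hk⟩
        have hKcard : Nat.card K = 2 := by rw [hK, Nat.card_zpowers, hz2]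
        have hQ : Nat.card (G ⧸ K) * 2 = n := by
          rw [← hG, ← hKcard]
          exact (Subgroup.card_eq_card_quotient_mul_card_subgroup K).symm
        by_cases hQeven : Even (Nat.card (G ⧸ K))
        · by_cases hQ2 : 2 < Nat.card (G ⧸ K)
          · obtain ⟨H, hH, hH3⟩ := ih (Nat.card (G ⧸ K)) (by omega) (G ⧸ K) rfl hQeven hQ2
            refine ⟨H.comap (QuotientGroup.mk' K), ?_, ?_⟩
            · intro h
              apply hH
              have := Subgroup.map_comap_eq_self_of_surjective (QuotientGroup.mk'_surjective K) H
              rw [← this, h]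
              exact Subgroup.map_top_of_surjective _ (QuotientGroup.mk'_surjective K)
            · have h3 : (H.comap (QuotientGroup.mk' K)).index = H.index :=
                Subgroup.index_comap_of_surjective H (QuotientGroup.mk'_surjective K)
              have h4 := (H.comap (QuotientGroup.mk' K)).card_mul_index
              have h5 := H.card_mul_index
              rw [h3, hG, ← hQ, ← h5] at h4
              have hidx : 0 < H.index := Nat.pos_of_ne_zero Subgroup.index_ne_zero_of_finite
              have h6 : Nat.card (H.comap (QuotientGroup.mk' K)) = Nat.card H * 2 := by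
                have : Nat.card (H.comap (QuotientGroup.mk' K)) * H.index =
                    (Nat.card H * 2) * H.index := by rw [h4]; ring
                exact Nat.eq_of_mul_eq_mul_right hidx this
              rw [h6, hG, ← hQ]
              have hHpos : 0 < Nat.card H := Nat.card_pos
              nlinarith [Nat.pow_pos (n := 3) hHpos]
          · -- the quotient has order 2, so the group has order 4
            have hQpos : 0 < Nat.card (G ⧸ K) := Nat.card_pos
            have hQ2' : Nat.card (G ⧸ K) = 2 := by
              obtain ⟨r, hr⟩ := hQeven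
              omega
            refine ⟨K, ?_, ?_⟩
            · intro h
              rw [h, Subgroup.card_top] at hKcard
              omega
            · rw [hKcard, hG, ← hQ, hQ2']
              norm_num
        · -- Sylow 2-subgroups have order 2, hence are cyclic
          exfalso
          apply h2
          obtain ⟨T⟩ : Nonempty (Sylow 2 G) := inferInstance
          have hT : Nat.card (T : Subgroup G) = 2 := by
            rw [T.card_eq_multiplicity, hG, ← hQ]
            rw [Nat.not_even_iff_odd] at hQeven
            have hQ0 : Nat.card (G ⧸ K) ≠ 0 := Nat.card_pos.ne'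
            rw [Nat.factorization_mul hQ0 (by norm_num)]
            have h7 : (Nat.card (G ⧸ K)).factorization 2 = 0 := by
              apply Nat.factorization_eq_zero_of_not_dvd
              intro h
              exact (Nat.not_even_iff_odd.mpr hQeven) (even_iff_two_dvd.mpr h)
            simp [h7, Nat.Prime.factorization_self Nat.prime_two]
          have hcyc : IsCyclic (T : Subgroup G) := isCyclic_of_prime_card hT
          exact Cfsg.Agent.S0219.result (by rw [hG]; exact heven) T hcyc

/-- A finite group G of even order greater than 2 has a proper subgroup H with |G| < |H|^3. -/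
theorem result {G : Type*} [Group G] [Finite G] (heven : Even (Nat.card G)) (hgt : 2 < Nat.card G) : ∃ H : Subgroup G, H ≠ ⊤ ∧ Nat.card G < (Nat.card H) ^ 3 := by
  exact aux _ G rfl heven hgt

end Cfsg.Agent.S0232
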