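import Cfsg.Statements.S0234
import Mathlib
import Cfsg.Agent.Lib.Helper6.Pairs
import Cfsg.Agent.S0233
import Cfsg.Agent.S0493
import Cfsg.Agent.S0494

set_option autoImplicit false
open Cfsg

namespace Cfsg.Agent.S0234

open Cfsg.Agent.Lib.Helper6

set_option maxRecDepth 100000 in
theorem card_invol_A5 : Fintype.card {t : alternatingGroup (Fin 5) // t * t = 1 ∧ t ≠ 1} = 15 := by
  decide +kernel

theorem card_invol_of_equiv {G H : Type*} [Group G] [Group H] (e : G ≃* H) :
    Nat.card {t : G // orderOf t = 2} = Nat.card {t : H // orderOf t = 2} := by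
  apply Nat.card_congr
  exact e.toEquiv.subtypeEquiv (fun t => by
    show orderOf t = 2 ↔ orderOf (e t) = 2
    rw [MulEquiv.orderOf_eq])

/-- In a finite simple group G of even order greater than 2, the number n of involutions satisfies 3n < |G|. -/
theorem result {G : Type*} [Group G] [Finite G] [IsSimpleGroup G] (heven : Even (Nat.card G)) (hgt : 2 < Nat.card G) : 3 * Nat.card {t : G // orderOf t = 2} < Nat.card G := by
  classical
  by_contra hcon
  push Not at hcon
  set N := Nat.card G with hN
  set n := Nat.card {t : G // orderOf t = 2} with hn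
  -- G is not cyclic
  have hncyc : ¬ IsCyclic G := by
    intro hc
    have : IsMulCommutative G := inferInstance
    have hp : (Nat.card G).Prime := by
      let _ : CommGroup G := hc.commGroup
      exact IsSimpleGroup.prime_card
    rw [← hN] at hp
    have := (Nat.Prime.even_iff hp).mp heven
    omega
  -- the centre is trivial
  have hZ : Subgroup.center G = ⊥ := by
    rcases IsSimpleGroup.eq_bot_or_eq_top_of_normal (Subgroup.center G) inferInstance with h | h
    · exact h
    · exfalso
      let _ : CommGroup G := Group.commGroupOfCenterEqTop h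
      have hp : (Nat.card G).Prime := IsSimpleGroup.prime_card
      rw [← hN] at hp
      have := (Nat.Prime.even_iff hp).mp heven
      omega
  have hZodd : Odd (Nat.card (Subgroup.center G)) := by
    rw [hZ, Subgroup.card_bot]; exact odd_one
  obtain ⟨H, hH, hH2⟩ := Cfsg.Agent.S0233.result (G := G) heven hZodd
  have hidx : H.index ≤ 5 := by
    rcases hH2 with h | h
    · omega
    · rw [← hN, ← hn] at h
      have hn0 : 0 < n := by
        rcases Nat.eq_zero_or_pos n with h0 | h0
        · rw [h0] at hcon; omega
        · exact h0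
      have h1 : N * (N + n) ≤ (3 * n) * (3 * n + n) := Nat.mul_le_mul hcon (by omega)
      have h2 : 2 * H.index * n ^ 2 < 12 * n ^ 2 := by nlinarith
      have h3 : 2 * H.index < 12 := Nat.lt_of_mul_lt_mul_right h2
      omega
  -- the action on cosets is faithful
  let φ : G →* Equiv.Perm (G ⧸ H) := MulAction.toPermHom G (G ⧸ H)
  have hker : φ.ker = ⊥ := by
    rcases IsSimpleGroup.eq_bot_or_eq_top_of_normal φ.ker inferInstance with h | h
    · exact h
    · exfalso
      apply hH
      rw [eq_top_iff]
      intro g _
      have hg : g ∈ φ.ker := by rw [h]; trivial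
      rw [MonoidHom.mem_ker] at hg
      have h1 : φ g ((1 : G) : G ⧸ H) = ((1 : G) : G ⧸ H) := by rw [hg]; rfl
      have h2 : φ g ((1 : G) : G ⧸ H) = ((g * 1 : G) : G ⧸ H) := rfl
      rw [h2, eq_comm, QuotientGroup.eq] at h1
      simpa using h1
  have hinj : Function.Injective φ := (MonoidHom.ker_eq_bot_iff φ).mp hker
  have := Fintype.ofFinite (G ⧸ H)
  -- the image lies in the alternating group
  have hsign : (Equiv.Perm.sign.comp φ).ker = ⊤ := by
    rcases IsSimpleGroup.eq_bot_or_eq_top_of_normal (Equiv.Perm.sign.comp φ).ker inferInstance with h | h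
    · exfalso
      have hi : Function.Injective (Equiv.Perm.sign.comp φ) := (MonoidHom.ker_eq_bot_iff _).mp h
      have := Nat.card_le_card_of_injective _ hi
      rw [Nat.card_eq_fintype_card (α := ℤˣ), Fintype.card_units_int] at this
      omega
    · exact h
  have hle : N ≤ Nat.card (alternatingGroup (G ⧸ H)) := by
    apply Nat.card_le_card_of_injective (fun g : G => (⟨φ g, by
      rw [Equiv.Perm.mem_alternatingGroup]
      have hg : g ∈ (Equiv.Perm.sign.comp φ).ker := by rw [hsign]; trivial
      exact hg⟩ : alternatingGroup (G ⧸ H)))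
    intro a b hab
    exact hinj (Subtype.ext_iff.mp hab)
  have hnt : Nontrivial (G ⧸ H) := by
    rw [← Finite.one_lt_card_iff_nontrivial]
    have h1 : H.index ≠ 1 := fun h => hH (Subgroup.index_eq_one.mp h)
    have h0 : H.index ≠ 0 := Subgroup.index_ne_zero_of_finite
    show 1 < H.index
    omega
  have hA : 2 * Nat.card (alternatingGroup (G ⧸ H)) = (H.index).factorial := by
    have := two_mul_nat_card_alternatingGroup (α := G ⧸ H)
    rw [this, Nat.card_eq_fintype_card, Fintype.card_perm, ← Nat.card_eq_fintype_card]
    rfl
  have hfac : (H.index).factorial ≤ Nat.factorial 5 := Nat.factorial_le hidx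
  have h120 : Nat.factorial 5 = 120 := rfl
  have hN60 : N = 60 := Cfsg.Agent.S0493.result hncyc (by omega)
  obtain ⟨e⟩ := Cfsg.Agent.S0494.result (G := G) hN60
  have hn15 : n = 15 := by
    rw [hn, card_invol_of_equiv e, ← card_invol_A5, ← Nat.card_eq_fintype_card]
    apply Nat.card_congr
    exact Equiv.subtypeEquivRight (fun t => invol_iff)
  omega

end Cfsg.Agent.S0234
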