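import Cfsg.Statements.S0236
import Mathlib
import Cfsg.Agent.Lib.Helper6.Pairs

set_option autoImplicit false
open Cfsg

namespace Cfsg.Agent.S0236

open Cfsg.Agent.Lib.Helper6

/-- If x is an involution, the number of ordered pairs (u, v) of involutions with uv = x, plus one, equals the number of involutions in the centralizer of x. -/
theorem result {G : Type*} [Group G] [Finite G] (x : G) (hx : orderOf x = 2) : Nat.card {p : G × G // orderOf p.1 = 2 ∧ orderOf p.2 = 2 ∧ p.1 * p.2 = x} + 1 = Nat.card {t : G // orderOf t = 2 ∧ Commute t x} := by
  classical
  rw [Nat.card_congr (pairsEquiv x)]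
  have e : {t : G // orderOf t = 2 ∧ Commute t x} ≃ Option {t : G // orderOf t = 2 ∧ orderOf (t * x) = 2} :=
    { toFun := fun t => if h : t.1 = x then none else
        some ⟨t.1, t.2.1, (invol_mul_iff_commute t.2.1 hx).mpr ⟨t.2.2, h⟩⟩
      invFun := fun o => match o with
        | none => ⟨x, hx, Commute.refl x⟩
        | some t => ⟨t.1, t.2.1, ((invol_mul_iff_commute t.2.1 hx).mp t.2.2).1⟩
      left_inv := by
        intro t
        by_cases h : t.1 = x
        · simp only [h, dite_true]
          exact Subtype.ext h.symm
        · simp [h]
      right_inv := by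
        intro o
        cases o with
        | none => simp
        | some t =>
          have : t.1 ≠ x := ((invol_mul_iff_commute t.2.1 hx).mp t.2.2).2
          simp [this] }
  rw [Nat.card_congr e, Finite.card_option]

end Cfsg.Agent.S0236
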