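import Cfsg.Statements.S0240
import Mathlib
import Cfsg.Agent.Lib.Helper6.Pairs

set_option autoImplicit false
open Cfsg

namespace Cfsg.Agent.S0240

open Cfsg.Agent.Lib.Helper6

/-- Let G be a finite group with n involutions and H a subgroup with |H|·(n+1) > |G|. Then some nontrivial h ∈ H is strongly real in G: an involution t of G satisfies t h t⁻¹ = h⁻¹. -/
theorem result {G : Type*} [Group G] [Finite G] (H : Subgroup G) (hH : Nat.card G < Nat.card H * (Nat.card {t : G // orderOf t = 2} + 1)) : ∃ h : G, h ∈ H ∧ h ≠ 1 ∧ ∃ t : G, orderOf t = 2 ∧ t * h * t⁻¹ = h⁻¹ := by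
  classical
  have hHpos : 0 < Nat.card H := Nat.card_pos
  -- the map from involutions plus the identity to cosets is not injective
  let f : Option {t : G // orderOf t = 2} → G ⧸ H := fun o =>
    match o with
    | none => ((1 : G) : G ⧸ H)
    | some t => (t.1 : G ⧸ H)
  have hcard : Nat.card (G ⧸ H) < Nat.card (Option {t : G // orderOf t = 2}) := by
    rw [Finite.card_option]
    have h1 : Nat.card G = Nat.card (G ⧸ H) * Nat.card H := Subgroup.card_eq_card_quotient_mul_card_subgroup H
    rw [h1, mul_comm] at hH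
    exact Nat.lt_of_mul_lt_mul_left hH
  have hninj : ¬ Function.Injective f := fun hi =>
    absurd (Nat.card_le_card_of_injective f hi) (not_le.mpr hcard)
  rw [Function.Injective] at hninj
  push Not at hninj
  obtain ⟨a, b, hf, hab⟩ := hninj
  rcases a with _ | a <;> rcases b with _ | b
  · exact absurd rfl hab
  · have h1 : ((1 : G) : G ⧸ H) = (b.1 : G ⧸ H) := hf
    rw [QuotientGroup.eq] at h1
    simp only [inv_one, one_mul] at h1
    refine ⟨b.1, h1, invol_ne_one b.2, b.1, b.2, ?_⟩
    rw [invol_inv b.2, invol_mul_self b.2, one_mul]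
  · have h1 : (a.1 : G ⧸ H) = ((1 : G) : G ⧸ H) := hf
    rw [eq_comm, QuotientGroup.eq] at h1
    simp only [inv_one, one_mul] at h1
    refine ⟨a.1, h1, invol_ne_one a.2, a.1, a.2, ?_⟩
    rw [invol_inv a.2, invol_mul_self a.2, one_mul]
  · have h1 : (a.1 : G ⧸ H) = (b.1 : G ⧸ H) := hf
    rw [QuotientGroup.eq, invol_inv a.2] at h1
    refine ⟨a.1 * b.1, h1, ?_, a.1, a.2, invol_pair_inverts a.2 b.2⟩
    intro h2
    apply hab
    have : a.1 = b.1 := by
      have : a.1 = b.1⁻¹ := eq_inv_of_mul_eq_one_left h2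
      rw [this, invol_inv b.2]
    rw [Subtype.ext this]

end Cfsg.Agent.S0240
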