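import Cfsg.Statements.S0241
import Mathlib
import Cfsg.Agent.Lib.Helper6.Pairs

set_option autoImplicit false
open Cfsg

namespace Cfsg.Agent.S0241

open Cfsg.Agent.Lib.Helper6

/-- If x ≠ 1 is conjugate to x⁻¹ in a finite group G and |C_G(x)| is odd, then some involution t satisfies t x t⁻¹ = x⁻¹. -/
theorem result {G : Type*} [Group G] [Finite G] (x : G) (hx : x ≠ 1) (hreal : IsConj x x⁻¹) (hodd : Odd (Nat.card (Subgroup.centralizer ({x} : Set G)))) : ∃ t : G, orderOf t = 2 ∧ t * x * t⁻¹ = x⁻¹ := by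
  obtain ⟨g, hg⟩ := isConj_iff.mp hreal
  -- odd powers of g invert x
  have hpow : ∀ n : ℕ, g ^ (2 * n + 1) * x * (g ^ (2 * n + 1))⁻¹ = x⁻¹ := by
    intro n
    induction n with
    | zero => simpa using hg
    | succ n ih =>
      have : g ^ (2 * (n + 1) + 1) = g * g * g ^ (2 * n + 1) := by
        rw [← pow_two, ← pow_add]; congr 1; ring
      rw [this]
      calc g * g * g ^ (2 * n + 1) * x * (g * g * g ^ (2 * n + 1))⁻¹
          = g * (g * (g ^ (2 * n + 1) * x * (g ^ (2 * n + 1))⁻¹) * g⁻¹) * g⁻¹ := by group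
        _ = g * (g * x * g⁻¹)⁻¹ * g⁻¹ := by rw [ih]; group
        _ = x⁻¹ := by rw [hg, inv_inv, hg]
  -- write the order of g as 2^a * m with m odd
  have ho : orderOf g ≠ 0 := (orderOf_pos g).ne'
  obtain ⟨a, m, hm, ham⟩ := Nat.exists_eq_two_pow_mul_odd ho
  obtain ⟨k, hk⟩ := hm
  set t := g ^ m with ht
  have ht1 : t * x * t⁻¹ = x⁻¹ := by rw [ht, hk]; exact hpow k
  have ht2 : t ^ (2 ^ a) = 1 := by
    rw [ht, ← pow_mul, mul_comm, ← ham]; exact pow_orderOf_eq_one g
  -- t^2 centralizes x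
  have ht3 : t ^ 2 ∈ Subgroup.centralizer ({x} : Set G) := by
    rw [Subgroup.mem_centralizer_singleton_iff]
    have h1 : t * x = x⁻¹ * t := mul_inv_eq_iff_eq_mul.mp ht1
    have h2 : t * x⁻¹ = x * t := by
      have : t * x⁻¹ * t⁻¹ = x := by
        have := congrArg (fun y => y⁻¹) ht1
        simp only [mul_inv_rev, inv_inv] at this
        rw [← mul_assoc] at this
        exact this
      exact mul_inv_eq_iff_eq_mul.mp this
    rw [pow_two, mul_assoc, h1, ← mul_assoc, h2, mul_assoc]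
  have ht4 : t ^ 2 = 1 := by
    have h1 : orderOf (⟨t ^ 2, ht3⟩ : Subgroup.centralizer ({x} : Set G)) ∣
        Nat.card (Subgroup.centralizer ({x} : Set G)) := orderOf_dvd_natCard _
    have h2 : orderOf (⟨t ^ 2, ht3⟩ : Subgroup.centralizer ({x} : Set G)) = orderOf (t ^ 2) := by
      rw [← Subgroup.orderOf_coe]
    rw [h2] at h1
    have h3 : orderOf (t ^ 2) ∣ 2 ^ a := by
      apply orderOf_dvd_of_pow_eq_one
      rw [← pow_mul, mul_comm, pow_mul, ht2, one_pow]
    have h4 : Odd (orderOf (t ^ 2)) := Odd.of_dvd_nat hodd h1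
    obtain ⟨j, -, hj⟩ := (Nat.dvd_prime_pow Nat.prime_two).mp h3
    have h5 : j = 0 := by
      by_contra hj0
      rw [hj] at h4
      exact (Nat.not_even_iff_odd.mpr h4) ((Nat.even_pow.mpr ⟨even_two, hj0⟩))
    rw [h5, pow_zero] at hj
    exact orderOf_eq_one_iff.mp hj
  have ht5 : t ≠ 1 := by
    intro h
    rw [h] at ht1
    simp only [one_mul, inv_one, mul_one] at ht1
    -- x = x⁻¹ so x is an involution in its centralizer
    have hx2 : orderOf x = 2 := by
      rw [invol_iff]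
      refine ⟨?_, hx⟩
      nth_rewrite 1 [ht1]
      simp
    have hxc : x ∈ Subgroup.centralizer ({x} : Set G) :=
      Subgroup.mem_centralizer_singleton_iff.mpr rfl
    have h1 : orderOf (⟨x, hxc⟩ : Subgroup.centralizer ({x} : Set G)) ∣
        Nat.card (Subgroup.centralizer ({x} : Set G)) := orderOf_dvd_natCard _
    have h2 : orderOf (⟨x, hxc⟩ : Subgroup.centralizer ({x} : Set G)) = orderOf x := by
      rw [← Subgroup.orderOf_coe]
    rw [h2, hx2] at h1
    exact (Nat.not_even_iff_odd.mpr hodd) (even_iff_two_dvd.mpr h1)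
  exact ⟨t, invol_iff.mpr ⟨by rw [← pow_two]; exact ht4, ht5⟩, ht1⟩

end Cfsg.Agent.S0241
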