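import Cfsg.Statements.S0247
import Cfsg.Agent.S0245

set_option autoImplicit false
open Cfsg

namespace Cfsg.Agent.S0247


open Matrix

def gam : Fin 6 → Fin 2 ⊕ Fin 2 → ZMod 2 :=
  ![Sum.elim ![0,0] ![1,0], Sum.elim ![1,0] ![1,0], Sum.elim ![1,0] ![0,0],
    Sum.elim ![0,0] ![0,1], Sum.elim ![0,1] ![0,1], Sum.elim ![0,1] ![0,0]]

def iu : Fin 2 ⊕ Fin 2 → Fin 6 := Sum.elim ![0, 3] ![1, 4]
def ju : Fin 2 ⊕ Fin 2 → Fin 6 := Sum.elim ![1, 4] ![2, 5]

def MM (σ : Equiv.Perm (Fin 6)) : Matrix (Fin 2 ⊕ Fin 2) (Fin 2 ⊕ Fin 2) (ZMod 2) :=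
  Matrix.of fun r u => gam (σ (iu u)) r + gam (σ (ju u)) r

set_option maxRecDepth 100000 in
theorem coef : ∀ i j : Fin 6, ∃ c : ZMod 2, ∀ k : Fin 6,
    (if k = i then (1 : ZMod 2) else 0) + (if k = j then 1 else 0) =
      ∑ u, (gam i u + gam j u) * ((if k = iu u then 1 else 0) + (if k = ju u then 1 else 0)) + c := by
  decide +kernel

theorem sum_gam : ∑ k, gam k = 0 := by
  decide +kernel

theorem lin (f : Fin 6 → Fin 2 ⊕ Fin 2 → ZMod 2) (hf : ∑ k, f k = 0) (i j : Fin 6) :
    f i + f j = ∑ u, (gam i u + gam j u) • (f (iu u) + f (ju u)) := by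
  obtain ⟨c, hc⟩ := coef i j
  have h1 : f i + f j = ∑ k, ((if k = i then (1 : ZMod 2) else 0) + (if k = j then 1 else 0)) • f k := by
    simp [add_smul, Finset.sum_add_distrib]
  have h2 : ∀ u, f (iu u) + f (ju u) =
      ∑ k, ((if k = iu u then (1 : ZMod 2) else 0) + (if k = ju u then 1 else 0)) • f k := by
    intro u
    simp [add_smul, Finset.sum_add_distrib]
  rw [h1]
  calc ∑ k, ((if k = i then (1 : ZMod 2) else 0) + (if k = j then 1 else 0)) • f k
      = ∑ k, ((∑ u, (gam i u + gam j u) * ((if k = iu u then 1 else 0) + (if k = ju u then 1 else 0))) • f k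
          + c • f k) := by
        refine Finset.sum_congr rfl fun k _ => ?_
        rw [hc k, add_smul]
    _ = ∑ k, ∑ u, ((gam i u + gam j u) * ((if k = iu u then 1 else 0) + (if k = ju u then 1 else 0))) • f k := by
        rw [Finset.sum_add_distrib, ← Finset.smul_sum, hf, smul_zero, add_zero]
        simp_rw [Finset.sum_smul]
    _ = ∑ u, ∑ k, ((gam i u + gam j u) * ((if k = iu u then 1 else 0) + (if k = ju u then 1 else 0))) • f k :=
        Finset.sum_comm
    _ = _ := by
        refine Finset.sum_congr rfl fun u _ => ?_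
        rw [h2 u, Finset.smul_sum]
        simp_rw [smul_smul]

theorem hR (σ : Equiv.Perm (Fin 6)) (i j : Fin 6) :
    MM σ *ᵥ (gam i + gam j) = gam (σ i) + gam (σ j) := by
  have h := lin (fun k => gam (σ k)) (by rw [Equiv.sum_comp σ gam, sum_gam]) i j
  rw [h]
  ext r
  simp [MM, mulVec, dotProduct, mul_comm]
  ring

set_option maxRecDepth 100000 in
theorem form : ∀ a b c d : Fin 6, (gam a + gam b) ⬝ᵥ (J (Fin 2) (ZMod 2) *ᵥ (gam c + gam d)) =
    (if a = c then (1 : ZMod 2) else 0) + (if a = d then 1 else 0) + (if b = c then 1 else 0)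
      + (if b = d then 1 else 0) := by
  decide +kernel

theorem basis : ∀ u, gam (iu u) + gam (ju u) = Pi.single u 1 := by
  decide +kernel

theorem col (σ : Equiv.Perm (Fin 6)) (u : Fin 2 ⊕ Fin 2) :
    (MM σ).col u = gam (σ (iu u)) + gam (σ (ju u)) := by
  ext r
  simp [MM, Matrix.col]

theorem hSp (σ : Equiv.Perm (Fin 6)) : MM σ ∈ symplecticGroup (Fin 2) (ZMod 2) := by
  rw [SymplecticGroup.mem_iff']
  ext u v
  have h1 : ((MM σ)ᵀ * J (Fin 2) (ZMod 2) * MM σ) u v =
      (MM σ).col u ⬝ᵥ (J (Fin 2) (ZMod 2) *ᵥ (MM σ).col v) := by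
    rw [Matrix.mul_assoc, Matrix.mul_apply, dotProduct]
    refine Finset.sum_congr rfl fun r _ => ?_
    rw [Matrix.transpose_apply, Matrix.mul_apply, mulVec, dotProduct]
    rfl
  have h2 : J (Fin 2) (ZMod 2) u v =
      (Pi.single u 1 : Fin 2 ⊕ Fin 2 → ZMod 2) ⬝ᵥ (J (Fin 2) (ZMod 2) *ᵥ Pi.single v 1) := by
    simp
  rw [h1, h2, col, col, ← basis, ← basis, form, form]
  simp only [σ.injective.eq_iff]

theorem MM_one : MM 1 = 1 := by
  ext r u
  have := congrFun (basis u) r
  simp only [Pi.add_apply] at this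
  simp only [MM, Matrix.of_apply, Equiv.Perm.coe_one, id_eq, this, Matrix.one_apply, Pi.single_apply]

theorem MM_mul (σ τ : Equiv.Perm (Fin 6)) : MM (σ * τ) = MM σ * MM τ := by
  ext r u
  have h := congrFun (hR σ (τ (iu u)) (τ (ju u))) r
  have h3 : (MM σ * MM τ) r u = (MM σ *ᵥ (MM τ).col u) r := by
    rw [Matrix.mul_apply, mulVec, dotProduct]
    rfl
  rw [h3, col, h]
  simp [MM]

set_option maxRecDepth 100000 in
theorem sep : ∀ i a b c : Fin 6, gam a + gam b = gam i + gam (i + 1) →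
    gam a + gam c = gam i + gam (i + 2) → a = i := by
  decide +kernel

theorem hinj (σ : Equiv.Perm (Fin 6)) (h : MM σ = 1) : σ = 1 := by
  ext i
  have h1 := hR σ i (i + 1)
  have h2 := hR σ i (i + 2)
  rw [h, one_mulVec] at h1 h2
  rw [sep i (σ i) (σ (i + 1)) (σ (i + 2)) h1.symm h2.symm]
  rfl

/-- Sp_4(2) is isomorphic to the symmetric group S_6. -/
theorem result {F : Type*} [Field F] [Fintype F] (hF : Fintype.card F = 2) : Nonempty (Matrix.symplecticGroup (Fin 2) F ≃* Equiv.Perm (Fin 6)) := by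
  classical
  let e : ZMod 2 →+* F := (ZMod.ringEquivOfPrime F Nat.prime_two hF).toRingHom
  have he : Function.Injective e := e.injective
  let φ : Equiv.Perm (Fin 6) →* Matrix.symplecticGroup (Fin 2) F :=
    { toFun := fun σ => ⟨(MM σ).map e, SymplecticGroup.map_mem (hSp σ) e⟩
      map_one' := by
        apply Subtype.ext
        simp [MM_one]
      map_mul' := fun σ τ => by
        apply Subtype.ext
        simp [MM_mul, Matrix.map_mul] }
  have hφ : Function.Injective φ := by
    rw [injective_iff_map_eq_one]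
    intro σ hσ
    apply hinj
    have h1 : (MM σ).map e = 1 := congrArg Subtype.val hσ
    apply Matrix.map_injective he
    show (MM σ).map e = (1 : Matrix _ _ (ZMod 2)).map e
    rw [h1]
    simp
  have hcard : Nat.card (Matrix.symplecticGroup (Fin 2) F) = Nat.card (Equiv.Perm (Fin 6)) := by
    rw [Cfsg.Agent.S0245.result hF 2, Nat.card_eq_fintype_card, Fintype.card_perm, Fintype.card_fin]
    decide
  have : Finite (Matrix.symplecticGroup (Fin 2) F) := inferInstance
  have hb : Function.Bijective φ :=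
    (Nat.bijective_iff_injective_and_card φ).2 ⟨hφ, hcard.symm⟩
  exact ⟨(MulEquiv.ofBijective φ hb).symm⟩

end Cfsg.Agent.S0247
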