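import Cfsg.Statements.S0250
import Mathlib
import Cfsg.Agent.Lib.Helper6.AltRec

set_option autoImplicit false
open Cfsg

namespace Cfsg.Agent.S0250

open Cfsg.Agent.Lib.Helper6
open scoped LinearAlgebra.Projectivization

/-- SL_2(2) is isomorphic to S_3. -/
theorem result {F : Type*} [Field F] [Fintype F] (hF : Fintype.card F = 2) : Nonempty (Matrix.SpecialLinearGroup (Fin 2) F ≃* Equiv.Perm (Fin 3)) := by
  have hc := card_SL_field (F := F) 2 (by norm_num)
  have hz := card_center_SL_field (F := F) 2 (by norm_num)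
  rw [hF] at hc hz
  simp only [Fin.prod_univ_two] at hc
  norm_num at hc hz
  refine mulEquiv_perm_of_injective
    (MulAction.toPermHom (Matrix.SpecialLinearGroup (Fin 2) F) (ℙ F (Fin 2 → F))) ?_ 3 ?_ ?_
  · rw [← MonoidHom.ker_eq_bot_iff, Projectivization.SL_mulAction_ker]
    exact hz
  · rw [card_projLine, Nat.card_eq_fintype_card, hF]
  · have : Nat.factorial 3 = 6 := rfl
    rw [this]
    omega

end Cfsg.Agent.S0250
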