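import Cfsg.Statements.S0252
import Mathlib
import Cfsg.Agent.Lib.Helper6.AltRec

set_option autoImplicit false
open Cfsg

namespace Cfsg.Agent.S0252

open Cfsg.Agent.Lib.Helper6
open scoped LinearAlgebra.Projectivization

/-- PSL_2(4) is isomorphic to A_5. -/
theorem result {F : Type*} [Field F] [Fintype F] (hF : Fintype.card F = 4) : Nonempty (Matrix.ProjectiveSpecialLinearGroup (Fin 2) F ≃* alternatingGroup (Fin 5)) := by
  have hc := card_PSL_field (F := F) 2 (by norm_num)
  rw [hF] at hc
  simp only [Fin.prod_univ_two] at hc
  norm_num at hc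
  refine mulEquiv_alternatingGroup_of_injective Projectivization.PSLAction.toPermHom
    Matrix.ProjectiveSpecialLinearGroup.toPermHom_injective 5 ?_ ?_
  · rw [card_projLine, Nat.card_eq_fintype_card, hF]
  · have : Nat.factorial 5 = 120 := rfl
    rw [this]
    omega

end Cfsg.Agent.S0252
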