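import Cfsg.Statements.S0257
import Mathlib
import Cfsg.Agent.Lib.Helper6.SLCard
import Cfsg.Agent.Lib.Helper6.SLEquiv

set_option autoImplicit false
open Cfsg

namespace Cfsg.Agent.S0257

open Cfsg.Agent.Lib.Helper6
open Matrix

def X3 : SpecialLinearGroup (Fin 2) (ZMod 3) := ⟨!![0, -1; 1, 0], by decide⟩
def Y3 : SpecialLinearGroup (Fin 2) (ZMod 3) := ⟨!![1, 1; 1, -1], by decide⟩

def f3 : QuaternionGroup 2 → SpecialLinearGroup (Fin 2) (ZMod 3)
  | .a i => X3 ^ i.val
  | .xa i => Y3 * X3 ^ i.val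

set_option maxRecDepth 100000 in
theorem f3_mul : ∀ p q : QuaternionGroup 2, f3 (p * q) = f3 p * f3 q := by decide +kernel

set_option maxRecDepth 100000 in
theorem f3_inj : ∀ p q : QuaternionGroup 2, f3 p = f3 q → p = q := by decide +kernel

set_option maxRecDepth 100000 in
theorem f3_normal : ∀ (g : SpecialLinearGroup (Fin 2) (ZMod 3)) (q : QuaternionGroup 2),
    ∃ q', f3 q' = g * f3 q * g⁻¹ := by decide +kernel

def f3Hom : QuaternionGroup 2 →* SpecialLinearGroup (Fin 2) (ZMod 3) :=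
  MonoidHom.mk' f3 f3_mul

/-- SL_2(3) has a normal subgroup of index 3 isomorphic to the quaternion group of order 8, and its centre has order 2. -/
theorem result {F : Type*} [Field F] [Fintype F] (hF : Fintype.card F = 3) : (∃ Q : Subgroup (Matrix.SpecialLinearGroup (Fin 2) F), Q.Normal ∧ Q.index = 3 ∧ Nonempty (Q ≃* QuaternionGroup 2)) ∧ Nat.card (Subgroup.center (Matrix.SpecialLinearGroup (Fin 2) F)) = 2 := by
  have hc := card_SL_field (F := F) 2 (by norm_num)
  have hz := card_center_SL_field (F := F) 2 (by norm_num)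
  rw [hF] at hc hz
  simp only [Fin.prod_univ_two] at hc
  norm_num at hc hz
  refine ⟨?_, hz⟩
  let e : F ≃+* ZMod 3 := (ZMod.ringEquivOfPrime F Nat.prime_three hF).symm
  let E : SpecialLinearGroup (Fin 2) (ZMod 3) ≃* SpecialLinearGroup (Fin 2) F := (slEquiv e).symm
  have hinj : Function.Injective f3Hom := fun p q h => f3_inj p q h
  have hn : f3Hom.range.Normal := ⟨by
    rintro _ ⟨q, rfl⟩ g
    obtain ⟨q', hq'⟩ := f3_normal g q
    exact ⟨q', hq'⟩⟩
  have e1 : QuaternionGroup 2 ≃* f3Hom.range := MonoidHom.ofInjective hinj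
  have e2 : f3Hom.range ≃* f3Hom.range.map E.toMonoidHom := E.subgroupMap f3Hom.range
  refine ⟨f3Hom.range.map E.toMonoidHom, hn.map _ E.surjective, ?_, ⟨(e1.trans e2).symm⟩⟩
  have h8 : Nat.card (f3Hom.range.map E.toMonoidHom) = 8 := by
    rw [← Nat.card_congr (e1.trans e2).toEquiv, Nat.card_eq_fintype_card, QuaternionGroup.card]
  have h1 := (f3Hom.range.map E.toMonoidHom).card_mul_index
  rw [h8] at h1
  omega

end Cfsg.Agent.S0257
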