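import Cfsg.Statements.S0258
-- import your own Cfsg.Agent.* helpers here
import Mathlib
import Cfsg.Agent.Lib.Helper7.GL2

set_option autoImplicit false
open Cfsg

namespace Cfsg.Agent.S0258

/-- GL_2(q), q a power of the prime p, has exactly q + 1 Sylow p-subgroups. -/
theorem result {F : Type*} [Field F] [Fintype F] {q : ℕ} (hF : Fintype.card F = q) (p : ℕ) [Fact p.Prime] [CharP F p] : Nat.card (Sylow p (Matrix.GeneralLinearGroup (Fin 2) F)) = q + 1 := by
  classical
  obtain ⟨P0, hP0⟩ := Cfsg.Agent.Lib.Helper7.exists_sylow_eq_U2 (F := F) p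
  have h1 : Nat.card (Sylow p (Matrix.GeneralLinearGroup (Fin 2) F)) = (Subgroup.normalizer ((P0 : Subgroup (Matrix.GeneralLinearGroup (Fin 2) F)) : Set (Matrix.GeneralLinearGroup (Fin 2) F))).index := Sylow.card_eq_index_normalizer P0
  have h2 := Subgroup.card_mul_index (Subgroup.normalizer ((P0 : Subgroup (Matrix.GeneralLinearGroup (Fin 2) F)) : Set (Matrix.GeneralLinearGroup (Fin 2) F)))
  rw [← h1, hP0, Cfsg.Agent.Lib.Helper7.card_normalizer_U2, Matrix.card_GL_field, Fin.prod_univ_two, hF] at h2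
  simp only [Fin.val_zero, Fin.val_one, pow_zero, pow_one, Nat.card_eq_fintype_card, Fintype.card_fin] at h2
  have hq : 2 ≤ q := by rw [← hF]; exact Fintype.one_lt_card
  obtain ⟨r, rfl⟩ : ∃ r, q = r + 1 := ⟨q - 1, by omega⟩
  have e1 : (r + 1) ^ 2 - 1 = r * (r + 2) := by
    apply Nat.sub_eq_of_eq_add; ring
  have e2 : (r + 1) ^ 2 - (r + 1) = (r + 1) * r := by
    apply Nat.sub_eq_of_eq_add; ring
  rw [e1, e2, Nat.add_sub_cancel] at h2
  have hr : 0 < r := by omega
  have h3 : (r + 1) * r ^ 2 * Nat.card (Sylow p (Matrix.GeneralLinearGroup (Fin 2) F)) = (r + 1) * r ^ 2 * (r + 1 + 1) := by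
    rw [Nat.card_eq_fintype_card, h2]; ring
  exact Nat.eq_of_mul_eq_mul_left (by positivity) h3

end Cfsg.Agent.S0258
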