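import Cfsg.Statements.S0259
import Mathlib
import Cfsg.Agent.Lib.Helper7.GL2
-- import your own Cfsg.Agent.* helpers here

set_option autoImplicit false
open Cfsg

namespace Cfsg.Agent.S0259

/-- Distinct Sylow p-subgroups of GL_2(q), p the characteristic, intersect trivially. -/
theorem result {F : Type*} [Field F] [Fintype F] (p : ℕ) [Fact p.Prime] [CharP F p] (P Q : Sylow p (Matrix.GeneralLinearGroup (Fin 2) F)) (h : P ≠ Q) : (P : Subgroup (Matrix.GeneralLinearGroup (Fin 2) F)) ⊓ (Q : Subgroup (Matrix.GeneralLinearGroup (Fin 2) F)) = ⊥ := by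
  open Cfsg.Agent.Lib.Helper7 in
  classical
  obtain ⟨P0, g, hP0, rfl⟩ := sylow_eq_smul_U2 p P
  obtain ⟨k, rfl⟩ := MulAction.exists_smul_eq (Matrix.GeneralLinearGroup (Fin 2) F) P0 Q
  rw [eq_bot_iff]
  intro x hx
  rw [Subgroup.mem_bot]
  by_contra hx1
  obtain ⟨hxg, hxk⟩ := Subgroup.mem_inf.1 hx
  have h1 : g⁻¹ * x * g ∈ U2 F := by
    rw [← hP0]; exact (mem_smul_sylow_iff P0 g x).1 hxg
  have h2 : k⁻¹ * x * k ∈ U2 F := by
    rw [← hP0]; exact (mem_smul_sylow_iff P0 k x).1 hxk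
  obtain ⟨b, hb⟩ := mem_U2.1 h1
  obtain ⟨c, hc⟩ := mem_U2.1 h2
  have hb0 : b ≠ 0 := by
    rintro rfl
    rw [uGL_zero] at hb
    apply hx1
    have : x = g * (g⁻¹ * x * g) * g⁻¹ := by group
    rw [this, ← hb]; group
  have h3 : (k⁻¹ * g) * uGL b = uGL c * (k⁻¹ * g) := by
    rw [hb, hc]; group
  have h4 := lower_zero_of_mul_uGL hb0 h3
  have h5 : (k⁻¹ * g) • P0 = P0 := by
    rw [Sylow.smul_eq_iff_mem_normalizer]
    have : k⁻¹ * g ∈ Subgroup.normalizer
        ((P0 : Subgroup (Matrix.GeneralLinearGroup (Fin 2) F)) : Set (Matrix.GeneralLinearGroup (Fin 2) F)) := by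
      rw [hP0]; exact mem_normalizer_U2.2 h4
    exact this
  apply h
  rw [mul_smul, inv_smul_eq_iff] at h5
  exact h5

end Cfsg.Agent.S0259
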