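import Cfsg.Statements.S0264
import Mathlib
import Cfsg.Agent.Lib.Helper7.Basic
-- import your own Cfsg.Agent.* helpers here

set_option autoImplicit false
open Cfsg

namespace Cfsg.Agent.S0264

open Matrix

variable {ι : Type*} [Fintype ι] [DecidableEq ι] {F : Type*} [Field F]

/-- Transvection in `GL`. -/
noncomputable def tG {i j : ι} (hij : i ≠ j) (c : F) : GeneralLinearGroup ι F :=
  Matrix.SpecialLinearGroup.toGL (Matrix.SpecialLinearGroup.transvection hij c)

theorem tG_val {i j : ι} (hij : i ≠ j) (c : F) : (tG hij c).1 = 1 + Matrix.single i j c := rfl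

/-- Diagonal matrix with one nontrivial entry. -/
noncomputable def dG (i : ι) (a : F) (ha : a ≠ 0) : GeneralLinearGroup ι F where
  val := diagonal (Function.update 1 i a)
  inv := diagonal (Function.update 1 i a⁻¹)
  val_inv := by
    rw [diagonal_mul_diagonal, ← diagonal_one]
    congr 1
    funext k
    by_cases hk : k = i
    · subst hk; simp [ha]
    · simp [hk]
  inv_val := by
    rw [diagonal_mul_diagonal, ← diagonal_one]
    congr 1
    funext k
    by_cases hk : k = i
    · subst hk; simp [ha]
    · simp [hk]

theorem dG_val (i : ι) (a : F) (ha : a ≠ 0) : (dG i a ha).1 = diagonal (Function.update 1 i a) := rfl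

theorem tG_add {i j : ι} (hij : i ≠ j) (a b : F) : tG hij (a + b) = tG hij a * tG hij b := by
  rw [tG, Matrix.SpecialLinearGroup.transvection_add, map_mul]; rfl

theorem steinberg {i j k : ι} (hij : i ≠ j) (hik : i ≠ k) (hkj : k ≠ j) (c : F) :
    tG hik c * tG hkj 1 = tG hij c * tG hkj 1 * tG hik c := by
  apply Units.ext
  simp only [Units.val_mul, tG_val, mul_add, add_mul, mul_one, one_mul,
    single_mul_single_same, single_mul_single_of_ne _ _ _ _ hij.symm,
    single_mul_single_of_ne _ _ _ _ hkj.symm, add_zero, zero_mul, mul_zero]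
  abel

theorem dG_tG {i j : ι} (hij : i ≠ j) (a : F) (ha : a ≠ 0) (b : F) :
    dG i a ha * tG hij b = tG hij (a * b) * dG i a ha := by
  apply Units.ext
  simp only [Units.val_mul, tG_val, dG_val, mul_add, add_mul, mul_one, one_mul]
  congr 1
  ext x y
  rw [diagonal_mul, mul_diagonal]
  by_cases hx : x = i
  · subst hx
    by_cases hy : y = j
    · subst hy
      simp [hij.symm]
    · simp [Matrix.single_apply, Ne.symm hy]
  · simp [Matrix.single_apply, Ne.symm hx]

theorem swap_dG {i j : ι} (a : F) (ha : a ≠ 0) :
    GeneralLinearGroup.swap F i j * dG i a ha = dG j a ha * GeneralLinearGroup.swap F i j := by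
  apply Units.ext
  simp only [Units.val_mul, dG_val]
  have hs : (GeneralLinearGroup.swap F i j).1 = Matrix.swap F i j := rfl
  rw [hs, Matrix.ext_iff_mulVec]
  intro v
  rw [← mulVec_mulVec, ← mulVec_mulVec, swap_mulVec, swap_mulVec]
  funext x
  simp only [Function.comp_apply, mulVec_diagonal]
  congr 1
  by_cases hx : x = j
  · subst hx; simp
  · by_cases hx' : x = i
    · subst hx'
      simp [hx, Ne.symm hx]
    · simp [hx, hx', Equiv.swap_apply_of_ne_of_ne hx' hx]

theorem diag2n_eq {i j : ι} (hij : i ≠ j) (a : F) (ha : a ≠ 0) :
    Matrix.SpecialLinearGroup.toGL (Matrix.SpecialLinearGroup.diag2n hij a ha)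
      = dG i a ha * (dG j a ha)⁻¹ := by
  rw [eq_mul_inv_iff_mul_eq]
  apply Units.ext
  rw [Units.val_mul, dG_val, dG_val]
  show (Matrix.SpecialLinearGroup.diag2n hij a ha).1 * _ = _
  rw [Matrix.SpecialLinearGroup.diag2n_coe, diagonal_mul_diagonal]
  congr 1
  funext k
  by_cases hk : k = i
  · subst hk; simp [hij]
  · by_cases hk' : k = j
    · subst hk'; simp [hk, ha]
    · simp [hk, hk']


/-- GL_n(F)' = SL_n(F) (as the kernel of det), for every field F and every n, except n = 2 over the field of two elements. -/
theorem result {F : Type*} [Field F] (n : ℕ) (h : n = 2 → ∃ a : F, a ≠ 0 ∧ a ≠ 1) : commutator (Matrix.GeneralLinearGroup (Fin n) F) = (Matrix.GeneralLinearGroup.det : Matrix.GeneralLinearGroup (Fin n) F →* Fˣ).ker := by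
  apply le_antisymm
  · exact Abelianization.commutator_subset_ker _
  · rw [Cfsg.Agent.Lib.Helper7.ker_det_eq_range_toGL]
    rintro _ ⟨s, rfl⟩
    rw [← Abelianization.ker_of, MonoidHom.mem_ker]
    by_cases hn : n ≤ 1
    · have : Subsingleton (Fin n) := by
        constructor; intro a b; ext; omega
      rw [Subsingleton.elim s 1, map_one, map_one]
    · have : Nontrivial (Fin n) := by
        refine ⟨⟨⟨0, by omega⟩, ⟨1, by omega⟩, by simp [Fin.ext_iff]⟩⟩
      have htv : ∀ (i j : Fin n) (hij : i ≠ j) (c : F), Abelianization.of (tG hij c) = 1 := by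
        intro i j hij c
        by_cases h2 : n = 2
        · obtain ⟨a, ha0, ha1⟩ := h h2
          have h1 := congrArg Abelianization.of (dG_tG hij a ha0 (c / (a - 1)))
          have e : a * (c / (a - 1)) = c + c / (a - 1) := by
            have : a - 1 ≠ 0 := sub_ne_zero.2 ha1
            field_simp
            ring
          rw [e, tG_add, map_mul, map_mul, map_mul, mul_comm, mul_left_inj] at h1
          exact (mul_eq_right.1 h1.symm)
        · obtain ⟨k, hki, hkj⟩ : ∃ k : Fin n, k ≠ i ∧ k ≠ j := by
            by_contra hcon
            push Not at hcon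
            have hsub : (Finset.univ : Finset (Fin n)) ⊆ {i, j} := by
              intro k _
              by_cases hk : k = i
              · simp [hk]
              · simp [hcon k hk]
            have := Finset.card_le_card hsub
            have h3 : ({i, j} : Finset (Fin n)).card ≤ 2 := Finset.card_le_two
            simp at this
            omega
          have h1 := congrArg Abelianization.of (steinberg hij hki.symm hkj c)
          simp only [map_mul] at h1
          rw [mul_assoc, mul_comm (Abelianization.of (tG hkj 1))] at h1
          exact (mul_eq_right.1 h1.symm)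
      refine Matrix.SpecialLinearGroup.diagonal_transvection_induction'
        (fun s => Abelianization.of (Matrix.SpecialLinearGroup.toGL s) = 1) s ?_ ?_ ?_
      · intro i j hij c hc
        have h1 := congrArg Abelianization.of (swap_dG (i := i) (j := j) c hc)
        rw [map_mul, map_mul, mul_comm, mul_left_inj] at h1
        rw [diag2n_eq, map_mul, map_inv, h1, mul_inv_cancel]
      · intro i j hij c
        exact htv i j hij c
      · intro A B hA hB
        rw [map_mul, map_mul, hA, hB, one_mul]

end Cfsg.Agent.S0264
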