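import Cfsg.Statements.S0267
import Mathlib
import Cfsg.Agent.Lib.Helper7.P1
-- import your own Cfsg.Agent.* helpers here

set_option autoImplicit false
open Cfsg

namespace Cfsg.Agent.S0267

open Cfsg.Agent.Lib.Helper7 in
theorem sl_smul_eq {F : Type*} [Field F] (s : Matrix.SpecialLinearGroup (Fin 2) F)
    (p : Projectivization F (Fin 2 → F)) : s • p = (Matrix.SpecialLinearGroup.toGL s) • p := by
  induction p using Projectivization.ind with | _ v hv => ?_
  rfl

/-- An embedding from three distinct points. -/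
def emb3 {α : Type*} (a b c : α) (hab : a ≠ b) (hac : a ≠ c) (hbc : b ≠ c) : Fin 3 ↪ α :=
  ⟨![a, b, c], by
    intro i j hij
    fin_cases i <;> fin_cases j <;> simp_all [Ne.symm]⟩


/-- SL_2(q) is 3-transitive on the q+1 points of the projective line if and only if q is even. -/
theorem result {F : Type*} [Field F] [Fintype F] : MulAction.IsMultiplyPretransitive (Matrix.SpecialLinearGroup (Fin 2) F) (Projectivization F (Fin 2 → F)) 3 ↔ ringChar F = 2 := by
  open Cfsg.Agent.Lib.Helper7 in
  constructor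
  · intro H
    by_contra hchar
    obtain ⟨d, hd⟩ := FiniteField.exists_nonsquare hchar
    have hd0 : d ≠ 0 := by
      rintro rfl; exact hd (IsSquare.zero)
    have hw : (![d, 1] : Fin 2 → F) ≠ 0 := fun h => one_ne_zero (congrFun h 1)
    have h01 : pt0 F ≠ pt1 F := by
      rw [pt0, pt1, Ne, mk_eq_mk_iff_cross]; simp [cross]
    have h02 : pt0 F ≠ pt2 F := by
      rw [pt0, pt2, Ne, mk_eq_mk_iff_cross]; simp [cross]
    have h12 : pt1 F ≠ pt2 F := by
      rw [pt1, pt2, Ne, mk_eq_mk_iff_cross]; simp [cross]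
    have h0w : pt0 F ≠ Projectivization.mk F ![d, 1] hw := by
      rw [pt0, Ne, mk_eq_mk_iff_cross]; simp [cross]
    have h1w : pt1 F ≠ Projectivization.mk F ![d, 1] hw := by
      rw [pt1, Ne, mk_eq_mk_iff_cross]; simp [cross, hd0]
    obtain ⟨s, hs⟩ := (MulAction.isMultiplyPretransitive_iff.1 H) (emb3 _ _ _ h01 h02 h12)
      (emb3 _ _ _ h01 h0w h1w)
    have k0 : s • pt0 F = pt0 F := by
      have := DFunLike.congr_fun hs 0
      rw [Function.Embedding.smul_apply] at this
      exact this
    have k1 : s • pt1 F = pt1 F := by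
      have := DFunLike.congr_fun hs 1
      rw [Function.Embedding.smul_apply] at this
      exact this
    have k2 : s • pt2 F = Projectivization.mk F ![d, 1] hw := by
      have := DFunLike.congr_fun hs 2
      rw [Function.Embedding.smul_apply] at this
      exact this
    rw [sl_smul_eq] at k0 k1 k2
    have e10 := fix_pt0 k0
    have e01 := fix_pt1 k1
    have e := pt2_map e10 e01 _ hw k2
    have hdet : (Matrix.SpecialLinearGroup.toGL s).1.det = 1 := s.2
    rw [Matrix.det_fin_two, e10, mul_zero, sub_zero] at hdet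
    simp only [Matrix.cons_val_one, Matrix.cons_val_zero, Matrix.cons_val_fin_one, mul_one] at e
    apply hd
    refine ⟨(Matrix.SpecialLinearGroup.toGL s).1 0 0, ?_⟩
    nth_rewrite 2 [e]
    rw [← mul_assoc, hdet, one_mul]
  · intro hchar
    rw [MulAction.isMultiplyPretransitive_iff]
    intro x y
    obtain ⟨gx, hx0, hx1, hx2⟩ := exists_frame (x 0) (x 1) (x 2) (x.injective.ne (by decide))
      (x.injective.ne (by decide)) (x.injective.ne (by decide))
    obtain ⟨gy, hy0, hy1, hy2⟩ := exists_frame (y 0) (y 1) (y 2) (y.injective.ne (by decide))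
      (y.injective.ne (by decide)) (y.injective.ne (by decide))
    obtain ⟨r, hr⟩ := FiniteField.isSquare_of_char_two hchar (gy * gx⁻¹).1.det
    have hdet0 : (gy * gx⁻¹).1.det ≠ 0 := Matrix.GeneralLinearGroup.det_ne_zero _
    have hr0 : r ≠ 0 := by
      rintro rfl; apply hdet0; rw [hr, mul_zero]
    have hdet1 : (r⁻¹ • (gy * gx⁻¹).1).det = 1 := by
      rw [Matrix.det_smul, hr, Fintype.card_fin]
      field_simp
    obtain ⟨s', hs'⟩ : ∃ s' : Matrix.SpecialLinearGroup (Fin 2) F,
        (s' : Matrix (Fin 2) (Fin 2) F) = r⁻¹ • (gy * gx⁻¹).1 := ⟨⟨_, hdet1⟩, rfl⟩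
    have key : ∀ p : Projectivization F (Fin 2 → F), s' • p = (gy * gx⁻¹) • p := by
      intro p
      induction p using Projectivization.ind with | _ v hv => ?_
      obtain ⟨h', he⟩ := gl_smul_mk (gy * gx⁻¹) v hv
      rw [he, Projectivization.smul_mk, Projectivization.mk_eq_mk_iff']
      refine ⟨r⁻¹, ?_⟩
      rw [Matrix.SpecialLinearGroup.smul_def, hs']
      exact (Matrix.smul_mulVec _ _ _).symm
    refine ⟨s', ?_⟩
    ext i
    rw [Function.Embedding.smul_apply, key]
    fin_cases i
    · show (gy * gx⁻¹) • x 0 = y 0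
      rw [← hx0, mul_smul, inv_smul_smul, hy0]
    · show (gy * gx⁻¹) • x 1 = y 1
      rw [← hx1, mul_smul, inv_smul_smul, hy1]
    · show (gy * gx⁻¹) • x 2 = y 2
      rw [← hx2, mul_smul, inv_smul_smul, hy2]

end Cfsg.Agent.S0267
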