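import Cfsg.Statements.S0269
import Mathlib
import Cfsg.Agent.Lib.Helper7.Basic
import Cfsg.Agent.Lib.Helper7.SpPerfect
-- import your own Cfsg.Agent.* helpers here

set_option autoImplicit false
open Cfsg

namespace Cfsg.Agent.S0269

theorem exists_sq_ne_one {F : Type*} [Field F] [Fintype F] (h4 : 4 ≤ Fintype.card F) :
    ∃ a : F, a ≠ 0 ∧ a ^ 2 ≠ 1 := by
  classical
  have : ∃ a : F, a ∉ ({0, 1, -1} : Finset F) := by
    by_contra hcon
    push Not at hcon
    have h1 : (Finset.univ : Finset F) ⊆ {0, 1, -1} := fun a _ => hcon a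
    have h2 := Finset.card_le_card h1
    have h3 : ({0, 1, -1} : Finset F).card ≤ 3 := Finset.card_le_three
    rw [Finset.card_univ] at h2
    omega
  obtain ⟨a, ha⟩ := this
  simp only [Finset.mem_insert, Finset.mem_singleton, not_or] at ha
  refine ⟨a, ha.1, fun h => ?_⟩
  have : (a - 1) * (a + 1) = 0 := by linear_combination h
  rcases mul_eq_zero.1 this with h' | h'
  · exact ha.2.1 (sub_eq_zero.1 h')
  · exact ha.2.2 (eq_neg_of_add_eq_zero_left h')


/-- Sp_{2m}(q) is perfect except for Sp_2(2), Sp_2(3) and Sp_4(2): stated as m at least 3, or m = 2 and q at least 3, or q at least 4. -/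
theorem result {F : Type*} [Field F] [Fintype F] (m : ℕ) (h : 3 ≤ m ∨ (m = 2 ∧ 3 ≤ Fintype.card F) ∨ 4 ≤ Fintype.card F) : commutator (Matrix.symplecticGroup (Fin m) F) = ⊤ := by
  open Cfsg.Agent.Lib.Helper7 in
  have caseA : 4 ≤ Fintype.card F → commutator (Matrix.symplecticGroup (Fin m) F) = ⊤ := by
    intro h4
    obtain ⟨a, ha, ha2⟩ := exists_sq_ne_one h4
    exact sp_perfect_of_sq ha ha2
  have hom : ∀ i j : Fin m, om (Fin m) F (eL F i) (eL F j) = 0 := by
    intro i j
    rw [om_eL]; simp [eL]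
  rcases h with h | ⟨rfl, h⟩ | h
  · have h01 : (⟨0, by omega⟩ : Fin m) ≠ ⟨1, by omega⟩ := by simp [Fin.ext_iff]
    have h02 : (⟨0, by omega⟩ : Fin m) ≠ ⟨2, by omega⟩ := by simp [Fin.ext_iff]
    have h12 : (⟨1, by omega⟩ : Fin m) ≠ ⟨2, by omega⟩ := by simp [Fin.ext_iff]
    refine sp_perfect_of_three (u := eL F ⟨0, by omega⟩) (v := eL F ⟨1, by omega⟩)
      (w := eL F ⟨2, by omega⟩) (hom _ _) (hom _ _) (hom _ _) ?_ ?_ ?_ ?_ ?_ ?_ ?_
    · intro h0
      have := congrFun h0 (.inl ⟨0, by omega⟩)
      simp [eL] at this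
    · intro h0
      have := congrFun h0 (.inl ⟨1, by omega⟩)
      simp [eL] at this
    · intro h0
      have := congrFun h0 (.inl ⟨2, by omega⟩)
      simp [eL] at this
    · intro h0
      have := congrFun h0 (.inl ⟨0, by omega⟩)
      simp [eL, h01, h02, h12, h01.symm, h02.symm, h12.symm] at this
    · intro h0
      have := congrFun h0 (.inl ⟨0, by omega⟩)
      simp [eL, h01, h02, h12, h01.symm, h02.symm, h12.symm] at this
    · intro h0
      have := congrFun h0 (.inl ⟨1, by omega⟩)
      simp [eL, h01, h02, h12, h01.symm, h02.symm, h12.symm] at this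
    · intro h0
      have := congrFun h0 (.inl ⟨0, by omega⟩)
      simp [eL, h01, h02, h12, h01.symm, h02.symm, h12.symm] at this
  · by_cases h4 : 4 ≤ Fintype.card F
    · exact caseA h4
    · have h3 : Fintype.card F = 3 := by omega
      have h2 : (2 : F) ≠ 0 := two_ne_zero_of_odd_card (by rw [h3]; decide)
      refine sp_perfect_of_two (u := eL F 0) (v := eL F 1) h2 (hom _ _) ?_ ?_ ?_ ?_
      · intro h0
        have := congrFun h0 (.inl 0)
        simp [eL] at this
      · intro h0
        have := congrFun h0 (.inl 1)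
        simp [eL] at this
      · intro h0
        have := congrFun h0 (.inl 0)
        simp [eL] at this
      · intro h0
        have := congrFun h0 (.inl 0)
        simp [eL] at this
  · exact caseA h

end Cfsg.Agent.S0269
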