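import Cfsg.Statements.S0272
import Mathlib
import Cfsg.Agent.Lib.Helper7.GL2
-- import your own Cfsg.Agent.* helpers here

set_option autoImplicit false
open Cfsg

namespace Cfsg.Agent.S0272

/-- The normaliser in GL_2(q) of a Sylow p-subgroup, p the characteristic, has order q (q-1)^2. -/
theorem result {F : Type*} [Field F] [Fintype F] {q : ℕ} (hF : Fintype.card F = q) (p : ℕ) [Fact p.Prime] [CharP F p] (P : Sylow p (Matrix.GeneralLinearGroup (Fin 2) F)) : Nat.card (Subgroup.normalizer ((P : Subgroup (Matrix.GeneralLinearGroup (Fin 2) F)) : Set (Matrix.GeneralLinearGroup (Fin 2) F))) = q * (q - 1) ^ 2 := by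
  open Cfsg.Agent.Lib.Helper7 in
  classical
  obtain ⟨P0, hP0⟩ := exists_sylow_eq_U2 (F := F) p
  have h1 := Sylow.card_eq_index_normalizer P
  have h2 := Sylow.card_eq_index_normalizer P0
  have h3 := Subgroup.card_mul_index (Subgroup.normalizer
    ((P : Subgroup (Matrix.GeneralLinearGroup (Fin 2) F)) : Set (Matrix.GeneralLinearGroup (Fin 2) F)))
  have h4 := Subgroup.card_mul_index (Subgroup.normalizer
    ((P0 : Subgroup (Matrix.GeneralLinearGroup (Fin 2) F)) : Set (Matrix.GeneralLinearGroup (Fin 2) F)))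
  have h5 : (Subgroup.normalizer
    ((P : Subgroup (Matrix.GeneralLinearGroup (Fin 2) F)) : Set (Matrix.GeneralLinearGroup (Fin 2) F))).index
    = (Subgroup.normalizer
    ((P0 : Subgroup (Matrix.GeneralLinearGroup (Fin 2) F)) : Set (Matrix.GeneralLinearGroup (Fin 2) F))).index :=
    h1.symm.trans h2
  rw [h5, ← h4] at h3
  have hpos : 0 < (Subgroup.normalizer
    ((P0 : Subgroup (Matrix.GeneralLinearGroup (Fin 2) F)) : Set (Matrix.GeneralLinearGroup (Fin 2) F))).index :=
    Nat.pos_of_ne_zero Subgroup.index_ne_zero_of_finite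
  rw [Nat.eq_of_mul_eq_mul_right hpos h3, hP0, card_normalizer_U2, hF]

end Cfsg.Agent.S0272
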