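import Cfsg.Statements.S0273
import Mathlib
import Cfsg.Agent.Lib.Helper7.GL2
-- import your own Cfsg.Agent.* helpers here

set_option autoImplicit false
open Cfsg

namespace Cfsg.Agent.S0273

/-- In GL_2(q) the centraliser of a non-trivial element of a Sylow p-subgroup (p the characteristic) has order q (q-1): the Sylow subgroup times the scalars. -/
theorem result {F : Type*} [Field F] [Fintype F] {q : ℕ} (hF : Fintype.card F = q) (p : ℕ) [Fact p.Prime] [CharP F p] (P : Sylow p (Matrix.GeneralLinearGroup (Fin 2) F)) (a : Matrix.GeneralLinearGroup (Fin 2) F) (ha : a ∈ P) (ha1 : a ≠ 1) : Nat.card (Subgroup.centralizer ({a} : Set (Matrix.GeneralLinearGroup (Fin 2) F))) = q * (q - 1) := by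
  open Cfsg.Agent.Lib.Helper7 in
  classical
  obtain ⟨P0, g, hP0, rfl⟩ := sylow_eq_smul_U2 p P
  have h1 : g⁻¹ * a * g ∈ U2 F := by
    rw [← hP0]; exact (mem_smul_sylow_iff P0 g a).1 ha
  obtain ⟨b, hb⟩ := mem_U2.1 h1
  have hb0 : b ≠ 0 := by
    rintro rfl
    rw [uGL_zero] at hb
    apply ha1
    have : a = g * (g⁻¹ * a * g) * g⁻¹ := by group
    rw [this, ← hb]; group
  rw [← hF, ← card_centralizer_uGL hb0]
  refine Nat.card_congr (Equiv.subtypeEquiv (MulAut.conj g⁻¹).toEquiv fun x => ?_)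
  rw [Subgroup.mem_centralizer_singleton_iff, Subgroup.mem_centralizer_singleton_iff, hb]
  simp only [MulEquiv.toEquiv_eq_coe, EquivLike.coe_coe, MulAut.conj_apply, inv_inv]
  constructor
  · intro h
    calc g⁻¹ * x * g * (g⁻¹ * a * g) = g⁻¹ * (x * a) * g := by group
      _ = g⁻¹ * (a * x) * g := by rw [h]
      _ = _ := by group
  · intro h
    calc x * a = g * (g⁻¹ * x * g * (g⁻¹ * a * g)) * g⁻¹ := by group
      _ = g * (g⁻¹ * a * g * (g⁻¹ * x * g)) * g⁻¹ := by rw [h]
      _ = _ := by group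

end Cfsg.Agent.S0273
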