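import Cfsg.Statements.S0275
import Mathlib
import Cfsg.Agent.Lib.Helper7.SL2Dickson1
import Cfsg.Agent.S0274
import Cfsg.Agent.S0261
import Cfsg.Agent.S0016
-- import your own Cfsg.Agent.* helpers here

set_option autoImplicit false
open Cfsg

namespace Cfsg.Agent.S0275

open Cfsg.Agent.Lib.Helper7 Cfsg.Agent.Lib.Helper46 Matrix

theorem quat_not_comm {k : ℕ} (hk : 1 ≤ k) :
    ¬ Commute (QuaternionGroup.a 1 : QuaternionGroup (2 ^ k)) (QuaternionGroup.xa 0) := by
  intro h
  have h' : (QuaternionGroup.a 1 : QuaternionGroup (2 ^ k)) * QuaternionGroup.xa 0 =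
      QuaternionGroup.xa 0 * QuaternionGroup.a 1 := h
  rw [QuaternionGroup.a_mul_xa, QuaternionGroup.xa_mul_a] at h'
  have h1 : (0 - 1 : ZMod (2 * 2 ^ k)) = 0 + 1 := QuaternionGroup.xa.inj h'
  have h2 : ((2 : ℕ) : ZMod (2 * 2 ^ k)) = 0 := by
    push_cast
    linear_combination -h1
  rw [ZMod.natCast_eq_zero_iff] at h2
  have h3 := Nat.le_of_dvd (by norm_num) h2
  have h4 : 2 ^ 1 ≤ 2 ^ k := Nat.pow_le_pow_right (by norm_num) hk
  omega


/-- If p is odd and H is a subgroup of SL_2(q), q a power of p, with more than one Sylow p-subgroup, then the Sylow 2-subgroups of H are generalised quaternion. -/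
theorem result {F : Type*} [Field F] [Fintype F] (p : ℕ) [Fact p.Prime] [CharP F p] (hp : p ≠ 2) (H : Subgroup (Matrix.SpecialLinearGroup (Fin 2) F)) (hH : 1 < Nat.card (Sylow p H)) (S : Sylow 2 H) : ∃ k : ℕ, 1 ≤ k ∧ Nonempty ((S : Subgroup H) ≃* QuaternionGroup (2 ^ k)) := by
  classical
  have h2 : (2 : F) ≠ 0 := two_ne_zero_of_char p hp
  obtain ⟨K, hKH, ⟨e⟩⟩ := Cfsg.Agent.S0274.result p hp H hH
  -- S is not commutative
  have hnc : ¬ ∀ a b : (S : Subgroup H), a * b = b * a := by
    intro hcomm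
    have hodd : Odd (Fintype.card (ZMod p)) := by
      rw [ZMod.card]; exact (Fact.out : p.Prime).odd_of_ne_two hp
    obtain ⟨P₂⟩ : Nonempty (Sylow 2 (Matrix.SpecialLinearGroup (Fin 2) (ZMod p))) := inferInstance
    obtain ⟨k, hk, ⟨f⟩⟩ := Cfsg.Agent.S0261.result hodd P₂
    let φ : Matrix.SpecialLinearGroup (Fin 2) (ZMod p) →* H :=
      (Subgroup.inclusion hKH).comp e.symm.toMonoidHom
    have hφ : Function.Injective φ :=
      (Subgroup.inclusion_injective hKH).comp e.symm.injective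
    obtain ⟨S', hS'⟩ := (P₂.2.map φ).exists_le_sylow
    obtain ⟨g, hg⟩ := MulAction.exists_smul_eq H S S'
    have hcomm' : ∀ a ∈ S', ∀ b ∈ S', a * b = b * a := by
      intro a ha b hb
      rw [← hg, mem_smul_sylow_iff] at ha hb
      have := hcomm ⟨_, ha⟩ ⟨_, hb⟩
      have h1 : g⁻¹ * a * g * (g⁻¹ * b * g) = g⁻¹ * b * g * (g⁻¹ * a * g) := congrArg Subtype.val this
      have e1 : g⁻¹ * a * g * (g⁻¹ * b * g) = g⁻¹ * (a * b) * g := by group
      have e2 : g⁻¹ * b * g * (g⁻¹ * a * g) = g⁻¹ * (b * a) * g := by group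
      rw [e1, e2] at h1
      exact mul_left_cancel (mul_right_cancel h1)
    apply quat_not_comm hk
    set x₁ := f.symm (QuaternionGroup.a 1) with hx₁
    set x₂ := f.symm (QuaternionGroup.xa 0) with hx₂
    have h1 := hcomm' (φ x₁.1) (hS' ⟨x₁.1, x₁.2, rfl⟩) (φ x₂.1) (hS' ⟨x₂.1, x₂.2, rfl⟩)
    rw [← map_mul, ← map_mul] at h1
    have h3 : x₁ * x₂ = x₂ * x₁ := Subtype.ext (hφ h1)
    have h4 := congrArg f h3
    rw [map_mul, map_mul, hx₁, hx₂, f.apply_symm_apply, f.apply_symm_apply] at h4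
    exact h4
  have huniq : ∀ A B : Subgroup (S : Subgroup H), Nat.card A = 2 → Nat.card B = 2 → A = B := by
    have key : ∀ A : Subgroup (S : Subgroup H), Nat.card A = 2 → ∀ w : (S : Subgroup H),
        w ∈ A ↔ (w = 1 ∨ w.1.1 = negOne) := by
      intro A hA
      have hmem : ∀ w ∈ A, w = 1 ∨ w.1.1 = negOne := by
        intro w hw
        have h1 : (⟨w, hw⟩ : A) ^ 2 = 1 := by
          have := pow_card_eq_one' (x := (⟨w, hw⟩ : A))
          rwa [hA] at this
        have h3 : w.1.1 * w.1.1 = 1 := by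
          have := congrArg (fun t : A => t.1.1.1) h1
          simpa [pow_two] using this
        rcases Cfsg.Agent.Lib.Helper46.eq_one_or_negOne_of_mem_center _
          (mem_center_of_sq_eq_one h2 _ h3) with h4 | h4
        · left; exact Subtype.ext (Subtype.ext h4)
        · right; exact h4
      intro w
      refine ⟨hmem w, ?_⟩
      rintro (rfl | hw)
      · exact A.one_mem
      · obtain ⟨⟨v, hv⟩, hv1⟩ : ∃ v : A, v ≠ 1 := by
          haveI : Nontrivial A := by
            haveI : Finite A := Nat.finite_of_card_ne_zero (by omega)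
            exact Finite.one_lt_card_iff_nontrivial.1 (by omega)
          exact exists_ne 1
        rcases hmem v hv with h5 | h5
        · exact absurd (Subtype.ext h5) hv1
        · have : w = v := Subtype.ext (Subtype.ext (hw.trans h5.symm))
          rw [this]; exact hv
    intro A B hA hB
    ext w
    rw [key A hA, key B hB]
  rcases Cfsg.Agent.S0016.result (G := (S : Subgroup H)) 2 S.2 huniq with hcyc | ⟨-, n, ⟨f⟩⟩
  · exfalso
    apply hnc
    obtain ⟨g, hg⟩ := hcyc.exists_generator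
    intro a b
    obtain ⟨i, rfl⟩ := Subgroup.mem_zpowers_iff.1 (hg a)
    obtain ⟨j, rfl⟩ := Subgroup.mem_zpowers_iff.1 (hg b)
    rw [← _root_.zpow_add, ← _root_.zpow_add, add_comm]
  · refine ⟨n, ?_, ⟨f⟩⟩
    by_contra hn
    have hn0 : n = 0 := by omega
    subst hn0
    apply hnc
    intro a b
    have hcyc : IsCyclic (QuaternionGroup (2 ^ 0)) := by
      rw [pow_zero]; exact QuaternionGroup.quaternionGroup_one_isCyclic
    obtain ⟨g, hg⟩ := hcyc.exists_generator
    apply f.injective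
    rw [map_mul, map_mul]
    obtain ⟨i, hi⟩ := Subgroup.mem_zpowers_iff.1 (hg (f a))
    obtain ⟨j, hj⟩ := Subgroup.mem_zpowers_iff.1 (hg (f b))
    rw [← hi, ← hj, ← _root_.zpow_add, ← _root_.zpow_add, add_comm]

end Cfsg.Agent.S0275
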