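import Cfsg.Statements.S0279
import Cfsg.Agent.Lib.Helper50.SUCenter

set_option autoImplicit false
open Cfsg

namespace Cfsg.Agent.S0279

theorem result {F : Type*} [Field F] [Fintype F] {q : ℕ} (hF : Fintype.card F = q ^ 2) (n : ℕ) (hn : 3 ≤ n) : Nat.card (Subgroup.center (Cfsg.SU n F q)) = Nat.gcd n (q + 1) := by
  exact Cfsg.Agent.Lib.Helper50.Herm.card_center_SU hF n (by omega)

end Cfsg.Agent.S0279
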