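import Cfsg.Statements.S0281
import Mathlib
import Cfsg.Agent.Lib.Helper7.SL2
import Cfsg.Agent.Lib.Helper50.SUCenter
import Cfsg.Agent.Lib.Helper50.FiniteFieldExt
import Cfsg.Agent.S0278
-- import your own Cfsg.Agent.* helpers here

set_option autoImplicit false
open Cfsg

namespace Cfsg.Agent.S0281

open Cfsg.Agent.Lib.Helper7 Cfsg.Agent.Lib.Helper50 Cfsg.Agent.Lib.Helper50.Herm Matrix

set_option linter.unusedSimpArgs false
set_option linter.unusedSectionVars false

theorem exists_P {F : Type*} [Field F] [Fintype F] {q : ℕ} (hF : Fintype.card F = q ^ 2) :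
    ∃ (P : Matrix (Fin 2) (Fin 2) F) (μ : F), μ ≠ 0 ∧ Pᵀ * P.map (frobQ hF) = μ • !![0, 1; -1, 0] := by
  obtain ⟨ζ, hζ, hζ2⟩ := exists_mu hF
  obtain ⟨t, ht0, ht⟩ := exists_norm_eq hF (-1) (by simp) (by
    rw [← frobQ_apply hF, map_neg, map_one])
  have hζ0 : ζ ≠ 0 := by
    rintro rfl
    simp at hζ
  have hqq : ∀ x : F, (x ^ q) ^ q = x := pow_q_sq hF
  have ht' : t * t ^ q = -1 := by rw [← ht, pow_succ']
  have hζ' : ζ * ζ ^ q = 1 := by rw [← hζ, pow_succ']
  refine ⟨!![1, 1 + ζ ^ q; t, (1 + ζ ^ q) * (t * ζ)], ζ - ζ ^ q, ?_, ?_⟩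
  · intro h
    apply hζ2
    have : ζ = ζ ^ q := by linear_combination h
    rw [sq]
    nth_rewrite 2 [this]
    exact hζ'
  · have e : (!![1, 1 + ζ ^ q; t, (1 + ζ ^ q) * (t * ζ)] : Matrix (Fin 2) (Fin 2) F).map (frobQ hF)
        = !![1, 1 + ζ; t ^ q, (1 + ζ) * (t ^ q * ζ ^ q)] := by
      ext i j
      fin_cases i <;> fin_cases j <;> simp [frobQ_apply, hqq, add_pow_q hF, mul_pow]
    have e2 : (!![1, 1 + ζ ^ q; t, (1 + ζ ^ q) * (t * ζ)] : Matrix (Fin 2) (Fin 2) F)ᵀ
        = !![1, t; 1 + ζ ^ q, (1 + ζ ^ q) * (t * ζ)] := by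
      ext i j
      fin_cases i <;> fin_cases j <;> simp
    rw [e, e2, Matrix.mul_fin_two, Matrix.smul_of, Matrix.smul_cons, Matrix.smul_cons]
    simp only [Matrix.smul_cons, Matrix.smul_empty, smul_eq_mul]
    apply mat2_ext
    · linear_combination ht'
    · linear_combination (1 + ζ) * ζ ^ q * ht' - hζ'
    · linear_combination (1 + ζ ^ q) * ζ * ht' - hζ'
    · linear_combination (1 + ζ ^ q) * (1 + ζ) * ((ζ * ζ ^ q) * ht' - hζ')


/-- SU_2(q) is isomorphic to SL_2(q). -/
theorem result {F K : Type*} [Field F] [Fintype F] [Field K] [Fintype K] {q : ℕ} (hF : Fintype.card F = q ^ 2) (hK : Fintype.card K = q) : Nonempty (Cfsg.SU 2 F q ≃* Matrix.SpecialLinearGroup (Fin 2) K) := by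
  classical
  obtain ⟨P, μ, hμ, hP⟩ := exists_P hF
  obtain ⟨alg, -⟩ := exists_algebra_of_card_pow (F := K) (K := F) 2 (by rw [hF, hK])
  set ι : K →+* F := algebraMap K F with hι
  have hιq : ∀ x : K, (ι x) ^ q = ι x := by
    intro x
    rw [← map_pow, ← hK, FiniteField.pow_card]
  have hdetP : IsUnit P.det := by
    have h1 := congrArg Matrix.det hP
    rw [Matrix.det_mul, Matrix.det_transpose, Matrix.det_smul, Matrix.det_fin_two_of] at h1
    have h2 : P.det ≠ 0 := by
      intro h0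
      rw [h0, zero_mul] at h1
      simp at h1
      exact hμ (pow_eq_zero_iff (two_ne_zero) |>.1 h1.symm)
    exact h2.isUnit
  set Q := P⁻¹ with hQ
  have hPQ : P * Q = 1 := Matrix.mul_nonsing_inv P hdetP
  have hQP : Q * P = 1 := Matrix.nonsing_inv_mul P hdetP
  -- the matrix attached to g
  let A : Matrix.SpecialLinearGroup (Fin 2) K → Matrix (Fin 2) (Fin 2) F :=
    fun g => P * (g.1.map ι) * Q
  have hAdet : ∀ g, (A g).det = 1 := by
    intro g
    have h1 : (g.1.map ι).det = 1 := by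
      have := (RingHom.map_det ι g.1).symm
      rw [g.2, map_one] at this
      exact this
    have h2 : P.det * Q.det = 1 := by rw [← Matrix.det_mul, hPQ, Matrix.det_one]
    simp only [A]
    rw [Matrix.det_mul, Matrix.det_mul, h1, mul_one, h2]
  have hJ : ∀ g : Matrix.SpecialLinearGroup (Fin 2) K,
      (g.1.map ι)ᵀ * !![0, 1; -1, 0] * (g.1.map ι) = !![0, 1; -1, 0] := by
    intro g
    have hd : ι (g.1 0 0) * ι (g.1 1 1) - ι (g.1 0 1) * ι (g.1 1 0) = 1 := by
      have := g.2
      rw [Matrix.det_fin_two] at this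
      rw [← map_mul, ← map_mul, ← map_sub, this, map_one]
    have e1 : g.1.map ι = !![ι (g.1 0 0), ι (g.1 0 1); ι (g.1 1 0), ι (g.1 1 1)] := by
      ext i j
      fin_cases i <;> fin_cases j <;> simp
    have e2 : (g.1.map ι)ᵀ = !![ι (g.1 0 0), ι (g.1 1 0); ι (g.1 0 1), ι (g.1 1 1)] := by
      ext i j
      fin_cases i <;> fin_cases j <;> simp
    rw [e2, e1, Matrix.mul_fin_two, Matrix.mul_fin_two]
    apply mat2_ext
    · ring
    · linear_combination hd
    · linear_combination -hd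
    · ring
  have hfix : ∀ g : Matrix.SpecialLinearGroup (Fin 2) K, (g.1.map ι).map (frobQ hF) = g.1.map ι := by
    intro g
    ext i j
    simp [frobQ_apply, hιq]
  have hAgram : ∀ g, (A g)ᵀ * (A g).map (frobQ hF) = 1 := by
    intro g
    simp only [A]
    rw [Matrix.map_mul, Matrix.map_mul, hfix, Matrix.transpose_mul, Matrix.transpose_mul]
    have h1 : Qᵀ * ((g.1.map ι)ᵀ * Pᵀ) * (P.map (frobQ hF) * g.1.map ι * Q.map (frobQ hF))
        = Qᵀ * ((g.1.map ι)ᵀ * (Pᵀ * P.map (frobQ hF)) * g.1.map ι) * Q.map (frobQ hF) := by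
      simp only [Matrix.mul_assoc]
    rw [h1, hP, Matrix.mul_smul, Matrix.smul_mul, hJ, ← hP]
    have h2 : Qᵀ * (Pᵀ * P.map (frobQ hF)) * Q.map (frobQ hF)
        = (P * Q)ᵀ * (P * Q).map (frobQ hF) := by
      rw [Matrix.map_mul, Matrix.transpose_mul]
      simp only [Matrix.mul_assoc]
    rw [h2, hPQ]
    simp
  let Φ : Matrix.SpecialLinearGroup (Fin 2) K →* Cfsg.SU 2 F q :=
    { toFun := fun g => mkSU hF 2 (A g) (hAdet g) (hAgram g)
      map_one' := by
        apply Subtype.ext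
        apply sl_ext
        rw [mkSU_val]
        simp only [A]
        simp [hPQ]
      map_mul' := by
        intro g h
        apply Subtype.ext
        apply sl_ext
        rw [mkSU_val, Subgroup.coe_mul, Matrix.SpecialLinearGroup.coe_mul, mkSU_val, mkSU_val]
        simp only [A]
        rw [Matrix.SpecialLinearGroup.coe_mul, Matrix.map_mul]
        have : P * g.1.map ι * Q * (P * h.1.map ι * Q) = P * g.1.map ι * (Q * P) * h.1.map ι * Q := by
          simp only [Matrix.mul_assoc]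
        rw [this, hQP]
        simp only [Matrix.mul_assoc, Matrix.mul_one] }
  have hinj : Function.Injective Φ := by
    intro g h hgh
    have h1 : A g = A h := by
      have := congrArg (fun s : Cfsg.SU 2 F q => (s.1 : Matrix (Fin 2) (Fin 2) F)) hgh
      exact this
    simp only [A] at h1
    have h2 : Q * (P * g.1.map ι * Q) * P = Q * (P * h.1.map ι * Q) * P := by rw [h1]
    have h3 : ∀ M : Matrix (Fin 2) (Fin 2) F, Q * (P * M * Q) * P = (Q * P) * M * (Q * P) := by
      intro M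
      simp only [Matrix.mul_assoc]
    rw [h3, h3, hQP, Matrix.one_mul, Matrix.mul_one, Matrix.one_mul, Matrix.mul_one] at h2
    apply sl_ext
    ext i j
    have := congrFun (congrFun h2 i) j
    exact ι.injective this
  have hcard : Nat.card (Cfsg.SU 2 F q) = Nat.card (Matrix.SpecialLinearGroup (Fin 2) K) := by
    have h1 := Cfsg.Agent.S0278.result hF 2 (by norm_num)
    rw [card_SL2, hK]
    simp [Finset.prod_range_succ, -Nat.card_eq_fintype_card] at h1
    have h2 : (q + 1) * Nat.card (Cfsg.SU 2 F q) = (q + 1) * (q * (q ^ 2 - 1)) := by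
      rw [h1]; ring
    exact Nat.eq_of_mul_eq_mul_left (Nat.succ_pos q) h2
  have hbij : Function.Bijective Φ := by
    haveI : Finite (Cfsg.SU 2 F q) := inferInstance
    exact (Nat.bijective_iff_injective_and_card Φ).2 ⟨hinj, hcard.symm⟩
  exact ⟨(MulEquiv.ofBijective Φ hbij).symm⟩

end Cfsg.Agent.S0281
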