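import Cfsg.Statements.S0284
import Mathlib
import Cfsg.Agent.Lib.Helper7.Herm
-- import your own Cfsg.Agent.* helpers here

set_option autoImplicit false
open Cfsg

namespace Cfsg.Agent.S0284

/-- The standard Hermitian form on F^n, |F| = q^2, has exactly q^(n-1) (q^n - (-1)^n) vectors of norm 1. -/
theorem result {F : Type*} [Field F] [Fintype F] {q : ℕ} (hF : Fintype.card F = q ^ 2) (n : ℕ) : Nat.card {v : Fin n → F // Cfsg.hermForm n F q v v = 1} = (if Even n then q ^ (n - 1) * (q ^ n - 1) else q ^ (n - 1) * (q ^ n + 1)) := by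
  have h := Cfsg.Agent.Lib.Helper7.card_hermForm_one hF n
  have h2 := Cfsg.Agent.Lib.Helper7.two_le_of_card_sq hF
  have hq1 : 1 ≤ q ^ n := Nat.one_le_pow _ _ (by omega)
  rcases n with _ | k
  · simp at h
    simp [h]
  · have e2 : 2 * (k + 1) - 1 = k + (k + 1) := by omega
    simp only [e2, Nat.add_sub_cancel] at h ⊢
    split_ifs with hev
    · rw [hev.neg_one_pow] at h
      zify [hq1]
      rw [h]; ring
    · rw [(Nat.not_even_iff_odd.1 hev).neg_one_pow] at h
      zify
      rw [h]; ring

end Cfsg.Agent.S0284
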