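import Cfsg.Statements.S0291
import Mathlib
import Cfsg.Agent.Lib.Helper7.CountQuad
-- import your own Cfsg.Agent.* helpers here

set_option autoImplicit false
open Cfsg

namespace Cfsg.Agent.S0291

/-- For q odd, the form x_0^2 + sum_{i<m} x_i y_i on F^(2m+1) has exactly q^(2m) zeros. -/
theorem result {F : Type*} [Field F] [Fintype F] {q : ℕ} (hF : Fintype.card F = q) (hodd : Odd q) (m : ℕ) : Nat.card {v : Unit ⊕ (Fin m ⊕ Fin m) → F // Cfsg.quadFormOdd m F v = 0} = q ^ (2 * m) := by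
  classical
  have hg := Cfsg.Agent.Lib.Helper7.cnt_quadFormPlus (F := F) m
  have e : {v : Unit ⊕ (Fin m ⊕ Fin m) → F // Cfsg.quadFormOdd m F v = 0}
      ≃ {x : F × (Fin m ⊕ Fin m → F) // x.1 ^ 2 + Cfsg.quadFormPlus m F x.2 = 0} :=
    Equiv.subtypeEquiv ((Equiv.sumArrowEquivProdArrow Unit (Fin m ⊕ Fin m) F).trans
      ((Equiv.funUnique Unit F).prodCongr (Equiv.refl _))) (fun v => Iff.rfl)
  have h1 := Cfsg.Agent.Lib.Helper7.Cnt.card_add_left (fun x : F => x ^ 2) hg 0
  have h2 : Nat.card {x : F // x ^ 2 = 0} = 1 := by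
    have : Unique {x : F // x ^ 2 = 0} :=
      { default := ⟨0, by simp⟩
        uniq := fun x => Subtype.ext (by simpa using x.2) }
    exact Nat.card_unique
  have h3 := hg.total
  rw [Nat.card_congr e]
  rw [h2] at h1
  have h4 : (Nat.card (Fin m ⊕ Fin m → F) : ℤ) = (q : ℤ) ^ (2 * m) := by
    rw [Nat.card_eq_fintype_card, Fintype.card_fun, Fintype.card_sum, Fintype.card_fin, hF]
    push_cast
    ring_nf
  zify
  rw [h1, ← h4, h3, Nat.card_eq_fintype_card]
  ring

end Cfsg.Agent.S0291
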