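import Cfsg.Statements.S0293
import Cfsg.Agent.Lib.Helper18.OmegaFrames
import Cfsg.Agent.Lib.Helper18.OrthOmega
import Cfsg.Agent.Lib.Helper49.HypPairs
import Cfsg.Agent.Lib.Helper49.OmegaCrit
import Cfsg.Agent.Lib.Helper49.RankParity
import Cfsg.Agent.S0287
import Cfsg.Agent.S0288
import Cfsg.Agent.S0790
import Cfsg.Agent.S0791

set_option autoImplicit false
open Cfsg
open Cfsg.Agent.Lib.Helper18 Cfsg.Agent.Lib.Helper18.OmegaCenter Cfsg.Agent.Lib.Helper49

namespace Cfsg.Agent.S0293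

/-- gcd(4, q^m - 1) |PΩ^+_{2m}(q)| = q^(m(m-1)) (q^m - 1) prod_{i=1}^{m-1} (q^(2i) - 1), m at least 4 (type D_m). -/
theorem result {F : Type*} [Field F] [Fintype F] {q : ℕ} (hF : Fintype.card F = q) (m : ℕ) (hm : 4 ≤ m) : Nat.gcd 4 (q ^ m - 1) * Nat.card (Cfsg.POmega F (Cfsg.quadFormPlus m F)) = q ^ (m * (m - 1)) * (q ^ m - 1) * ∏ i ∈ Finset.range (m - 1), (q ^ (2 * (i + 1)) - 1) := by
  have hO := Cfsg.Agent.S0287.result hF m (by omega)
  have hneg := fun hodd => Cfsg.Agent.S0790.result hF hodd m (by omega)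
  rw [← plusQF_coe m F] at hO hneg ⊢
  have hQ := plusQF_nondegenerate m F
  have hfr : Frame3 (plusQF m F) _ _ := frame_plus m (by omega)
  have h := card_isometryGroup_eq (plusQF m F)
  have : Nonempty (Fin m ⊕ Fin m) := ⟨Sum.inl ⟨0, by omega⟩⟩
  set X := q ^ (m * (m - 1)) * (q ^ m - 1) * ∏ i ∈ Finset.range (m - 1), (q ^ (2 * (i + 1)) - 1)
    with hX
  have hO' : Nat.card ↥(Cfsg.isometryGroup F ⇑(plusQF m F)) = 2 * X := by
    rw [hO, hX]; ring
  have hq0 : 0 < q := by rw [← hF]; exact Fintype.card_pos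
  have hqm : 0 < q ^ m := pow_pos hq0 m
  by_cases h2 : (2 : F) = 0
  · have hidx : (Cfsg.Omega F ⇑(plusQF m F)).index = 2 :=
      index_Omega_char_two (plusQF m F) h2 hQ (Or.inr (by simp; omega))
    have hZ := card_center_eq_one (plusQF m F) hQ hfr (Or.inl h2)
    rw [hZ, hidx, hO'] at h
    have heven : Even q := by
      rw [← Nat.not_odd_iff_even]
      intro hodd
      exact Cfsg.Agent.S0790.two_ne_zero_of_odd_card (hF ▸ hodd) h2
    have hqe : q ^ m % 2 = 0 := by
      rw [← Nat.even_iff]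
      exact heven.pow_of_ne_zero (by omega)
    have hg : Nat.gcd 4 (q ^ m - 1) = 1 := by
      have h3 : (q ^ m - 1) % 4 = 1 ∨ (q ^ m - 1) % 4 = 3 := by omega
      rw [Nat.gcd_rec]
      rcases h3 with h3 | h3 <;> rw [h3] <;> norm_num
    rw [hg]
    omega
  · have hodd : Odd q := by
      rw [← Nat.not_even_iff_odd]
      intro heven
      apply h2
      have h3 : ringChar F = 2 := FiniteField.even_card_iff_char_two.2 (by
        rw [hF]; exact Nat.even_iff.1 heven)
      have := ringChar.Nat.cast_ringChar (R := F)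
      rw [h3] at this
      exact_mod_cast this
    have hidx : (Cfsg.Omega F ⇑(plusQF m F)).index = 4 :=
      index_commutator (plusQF m F) h2 hQ (by simp; omega)
    have hqo : q ^ m % 2 = 1 := by
      rw [← Nat.odd_iff]
      exact hodd.pow
    by_cases h4 : q ^ m % 4 = 1
    · have hZ := card_center_eq_two (plusQF m F) hQ hfr h2 ((hneg hodd).2 h4)
      rw [hZ, hidx, hO'] at h
      have hg : Nat.gcd 4 (q ^ m - 1) = 4 := by
        have h3 : (q ^ m - 1) % 4 = 0 := by omega
        rw [Nat.gcd_rec, h3]; norm_num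
      rw [hg]
      omega
    · have hZ := card_center_eq_one (plusQF m F) hQ hfr (Or.inr (fun hh => h4 ((hneg hodd).1 hh)))
      rw [hZ, hidx, hO'] at h
      have hg : Nat.gcd 4 (q ^ m - 1) = 2 := by
        have h3 : (q ^ m - 1) % 4 = 2 := by omega
        rw [Nat.gcd_rec, h3]; norm_num
      rw [hg]
      omega

end Cfsg.Agent.S0293
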