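import Cfsg.Statements.S0295
import Cfsg.Agent.Lib.Helper49.SimpleOmega
import Cfsg.Agent.Lib.Helper49.HypPairs

set_option autoImplicit false
open Cfsg Cfsg.Agent.Lib.Helper49

namespace Cfsg.Agent.S0295

/-- PΩ_{2m+1}(q) is simple for q odd and m at least 3. -/
theorem result {F : Type*} [Field F] [Fintype F] (hodd : Odd (Fintype.card F)) (m : ℕ) (hm : 3 ≤ m) : IsSimpleGroup (Cfsg.POmega F (Cfsg.quadFormOdd m F)) := by
  have h2 : (2 : F) ≠ 0 := two_ne_zero_of_odd_card rfl hodd
  have key := isSimpleGroup_POmega (oddQF m F) (oddQF_nondegenerate m F h2) (by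
    simp only [Fintype.card_sum, Fintype.card_unit, Fintype.card_fin]; omega)
  rw [oddQF_coe] at key
  exact key

end Cfsg.Agent.S0295
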