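import Cfsg.Statements.S0296
import Cfsg.Agent.Lib.Helper49.SimpleOmega
import Cfsg.Agent.Lib.Helper49.HypPairs

set_option autoImplicit false
open Cfsg Cfsg.Agent.Lib.Helper49

namespace Cfsg.Agent.S0296

/-- PΩ^+_{2m}(q) is simple for m at least 4. -/
theorem result {F : Type*} [Field F] [Fintype F] (m : ℕ) (hm : 4 ≤ m) : IsSimpleGroup (Cfsg.POmega F (Cfsg.quadFormPlus m F)) := by
  have key := isSimpleGroup_POmega (plusQF m F) (plusQF_nondegenerate m F) (by
    simp only [Fintype.card_sum, Fintype.card_fin]; omega)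
  rw [plusQF_coe] at key
  exact key

end Cfsg.Agent.S0296
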