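import Cfsg.Statements.S0298
import Cfsg.Agent.S0286
import Cfsg.Agent.Lib.Helper6.OmegaIso
import Cfsg.Agent.Lib.Helper6.SLCard
import Cfsg.Agent.Lib.Helper6.IsomTransport
import Cfsg.Agent.Lib.Helper18.OrthOmega
import Cfsg.Agent.Lib.Helper49.HypPairs

set_option autoImplicit false
open Cfsg

namespace Cfsg.Agent.S0298


open Matrix Cfsg.Agent.Lib.Helper6

section
variable {F : Type*} [Field F]

abbrev I3 := Unit ⊕ (Fin 1 ⊕ Fin 1)

/-- trace zero matrices -/
def X (v : I3 → F) : Matrix (Fin 2) (Fin 2) F :=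
  !![v (.inl ()), v (.inr (.inl 0)); v (.inr (.inr 0)), - v (.inl ())]

/-- the matrix of conjugation by `A` on trace zero matrices -/
def MM (A : Matrix (Fin 2) (Fin 2) F) : Matrix I3 I3 F :=
  Matrix.of fun r c => match r, c with
  | .inl _, .inl _ => A 0 0 * A 1 1 + A 0 1 * A 1 0
  | .inl _, .inr (.inl _) => -(A 0 0 * A 1 0)
  | .inl _, .inr (.inr _) => A 0 1 * A 1 1
  | .inr (.inl _), .inl _ => -(2 * A 0 0 * A 0 1)
  | .inr (.inl _), .inr (.inl _) => A 0 0 ^ 2
  | .inr (.inl _), .inr (.inr _) => -(A 0 1 ^ 2)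
  | .inr (.inr _), .inl _ => 2 * A 1 0 * A 1 1
  | .inr (.inr _), .inr (.inl _) => -(A 1 0 ^ 2)
  | .inr (.inr _), .inr (.inr _) => A 1 1 ^ 2

theorem X_MM (A : Matrix (Fin 2) (Fin 2) F) (v : I3 → F) :
    X (MM A *ᵥ v) = A * X v * A.adjugate := by
  ext i j
  fin_cases i <;> fin_cases j <;>
    simp [X, MM, Matrix.mulVec, dotProduct, Fintype.sum_sum_type, Matrix.adjugate_fin_two,
      Matrix.mul_apply, Fin.sum_univ_two] <;> ring

theorem X_inj : Function.Injective (X : (I3 → F) → Matrix (Fin 2) (Fin 2) F) := by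
  intro u v h
  have h00 := congrFun (congrFun h 0) 0
  have h01 := congrFun (congrFun h 0) 1
  have h10 := congrFun (congrFun h 1) 0
  simp [X] at h00 h01 h10
  funext r
  rcases r with r | r | r
  · exact h00
  · rw [Subsingleton.elim r 0]; exact h01
  · rw [Subsingleton.elim r 0]; exact h10

theorem Q_eq (v : I3 → F) : Cfsg.quadFormOdd 1 F v = - (X v).det := by
  simp [Cfsg.quadFormOdd, X, Matrix.det_fin_two]
  ring

theorem ext_mulVec {A B : Matrix I3 I3 F} (h : ∀ v, A *ᵥ v = B *ᵥ v) : A = B := by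
  ext i j
  simpa using congrFun (h (Pi.single j 1)) i

theorem adj_mul (g : Matrix.SpecialLinearGroup (Fin 2) F) :
    (g : Matrix (Fin 2) (Fin 2) F).adjugate * (g : Matrix (Fin 2) (Fin 2) F) = 1 := by
  rw [Matrix.adjugate_mul, g.2, one_smul]

theorem mul_adj (g : Matrix.SpecialLinearGroup (Fin 2) F) :
    (g : Matrix (Fin 2) (Fin 2) F) * (g : Matrix (Fin 2) (Fin 2) F).adjugate = 1 := by
  rw [Matrix.mul_adjugate, g.2, one_smul]

theorem MM_pres (g : Matrix.SpecialLinearGroup (Fin 2) F) (v : I3 → F) :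
    Cfsg.quadFormOdd 1 F (MM (g : Matrix (Fin 2) (Fin 2) F) *ᵥ v) = Cfsg.quadFormOdd 1 F v := by
  rw [Q_eq, Q_eq, X_MM, Matrix.det_mul, Matrix.det_mul, mul_right_comm, ← Matrix.det_mul, mul_adj,
    Matrix.det_one, one_mul]

theorem MM_one : MM (1 : Matrix (Fin 2) (Fin 2) F) = 1 := by
  apply ext_mulVec
  intro v
  apply X_inj
  rw [X_MM]
  simp

theorem MM_mul (A B : Matrix (Fin 2) (Fin 2) F) : MM (A * B) = MM A * MM B := by
  apply ext_mulVec
  intro v
  apply X_inj
  rw [← mulVec_mulVec, X_MM, X_MM, X_MM, Matrix.adjugate_mul_distrib]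
  simp only [Matrix.mul_assoc]

/-- the representation as a hom to matrices -/
def rho0 : Matrix.SpecialLinearGroup (Fin 2) F →* Matrix I3 I3 F where
  toFun g := MM (g : Matrix (Fin 2) (Fin 2) F)
  map_one' := by rw [Matrix.SpecialLinearGroup.coe_one, MM_one]
  map_mul' g h := by rw [Matrix.SpecialLinearGroup.coe_mul, MM_mul]

theorem MM_eq_one_iff (g : Matrix.SpecialLinearGroup (Fin 2) F) :
    MM (g : Matrix (Fin 2) (Fin 2) F) = 1 ↔
      g ∈ Subgroup.center (Matrix.SpecialLinearGroup (Fin 2) F) := by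
  constructor
  · intro h
    have hc : ∀ v : I3 → F, (g : Matrix (Fin 2) (Fin 2) F) * X v = X v * g := by
      intro v
      have h1 := X_MM (g : Matrix (Fin 2) (Fin 2) F) v
      rw [h, one_mulVec] at h1
      calc (g : Matrix (Fin 2) (Fin 2) F) * X v
          = (g : Matrix (Fin 2) (Fin 2) F) * X v * ((g : Matrix (Fin 2) (Fin 2) F).adjugate * g) := by
            rw [adj_mul, mul_one]
        _ = X v * g := by rw [← Matrix.mul_assoc, ← h1]
    apply SL2_mem_center_of_commute_up_to
    · refine ⟨1, ?_⟩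
      have h2 : Matrix.transvection (0 : Fin 2) 1 (1 : F) = 1 + X (Pi.single (.inr (.inl 0)) 1) := by
        ext i j
        fin_cases i <;> fin_cases j <;> simp [Matrix.transvection, X, Matrix.single_apply]
      rw [h2, one_smul, mul_add, add_mul, hc, mul_one, one_mul]
    · refine ⟨1, ?_⟩
      have h2 : Matrix.transvection (1 : Fin 2) 0 (1 : F) = 1 + X (Pi.single (.inr (.inr 0)) 1) := by
        ext i j
        fin_cases i <;> fin_cases j <;> simp [Matrix.transvection, X, Matrix.single_apply]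
      rw [h2, one_smul, mul_add, add_mul, hc, mul_one, one_mul]
  · intro h
    obtain ⟨r, _, hr⟩ := Matrix.SpecialLinearGroup.mem_center_iff.1 h
    apply ext_mulVec
    intro v
    apply X_inj
    rw [X_MM, one_mulVec]
    have h3 : (g : Matrix (Fin 2) (Fin 2) F) * X v = X v * g := by
      rw [← hr]
      simp [Matrix.scalar_apply, ← Matrix.smul_one_eq_diagonal]
    rw [h3, Matrix.mul_assoc, mul_adj, mul_one]

end

/-- PΩ_3(q) is isomorphic to PSL_2(q) for q odd. -/
theorem result {F : Type*} [Field F] [Fintype F] (hodd : Odd (Fintype.card F)) : Nonempty (Cfsg.POmega F (Cfsg.quadFormOdd 1 F) ≃* Matrix.ProjectiveSpecialLinearGroup (Fin 2) F) := by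
  classical
  set q := Fintype.card F with hq
  have h2 : (2 : F) ≠ 0 := by
    intro h
    have hc : ringChar F = 2 := by
      have := ringChar.dvd (R := F) (x := 2) (by exact_mod_cast h)
      rcases (Nat.dvd_prime Nat.prime_two).1 this with h1 | h1
      · exact absurd h1 (CharP.ringChar_ne_one)
      · exact h1
    have := FiniteField.even_card_of_char_two hc
    rw [← hq] at this
    rcases hodd with ⟨k, hk⟩
    omega
  have h4 : (4 : F) ≠ 0 := by
    have : (4 : F) = 2 * 2 := by norm_num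
    rw [this]
    exact mul_ne_zero h2 h2
  -- the hom to the isometry group
  let ρ : Matrix.SpecialLinearGroup (Fin 2) F →* Cfsg.isometryGroup F (Cfsg.quadFormOdd 1 F) :=
    homIsometry (RingEquiv.refl F) (Cfsg.quadFormOdd 1 F) (Cfsg.quadFormOdd 1 F) (fun _ => rfl) rho0
      MM_pres
  have hρ : ∀ g, ((ρ g : Matrix.GeneralLinearGroup I3 F) : Matrix I3 I3 F) =
      MM (g : Matrix (Fin 2) (Fin 2) F) := fun g => rfl
  have hindex : (Cfsg.Omega F (Cfsg.quadFormOdd 1 F)).index = 4 := by
    have := Cfsg.Agent.Lib.Helper18.index_commutator (Cfsg.Agent.Lib.Helper49.oddQF 1 F) h2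
      (Cfsg.Agent.Lib.Helper49.oddQF_nondegenerate 1 F h2) (by simp)
    rw [Cfsg.Agent.Lib.Helper49.oddQF_coe] at this
    exact this
  have hmem : ∀ g, ρ g ∈ Cfsg.Omega F (Cfsg.quadFormOdd 1 F) := by
    intro g
    induction g using SL_transvection_induction with
    | htransvec i j h c =>
      have h5 : Matrix.SpecialLinearGroup.transvection h c =
          (Matrix.SpecialLinearGroup.transvection h (c / 4)) ^ 4 := by
        rw [pow_succ, pow_succ, pow_succ, pow_one, ← Matrix.SpecialLinearGroup.transvection_add,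
          ← Matrix.SpecialLinearGroup.transvection_add, ← Matrix.SpecialLinearGroup.transvection_add]
        congr 1
        field_simp
        ring
      rw [h5, map_pow, ← hindex]
      exact Subgroup.pow_index_mem _ _
    | hmul A B hA hB =>
      rw [map_mul]
      exact mul_mem hA hB
  let π : Matrix.SpecialLinearGroup (Fin 2) F →* Cfsg.Omega F (Cfsg.quadFormOdd 1 F) :=
    ρ.codRestrict _ hmem
  have hπ1 : ∀ g, π g = 1 ↔ g ∈ Subgroup.center (Matrix.SpecialLinearGroup (Fin 2) F) := by
    intro g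
    rw [← MM_eq_one_iff, ← hρ]
    constructor
    · intro h
      have : ρ g = 1 := congrArg Subtype.val h
      rw [this]
      rfl
    · intro h
      apply Subtype.ext
      apply Subtype.ext
      apply Units.ext
      exact h
  have hker : π.ker = Subgroup.center (Matrix.SpecialLinearGroup (Fin 2) F) := by
    ext g
    rw [MonoidHom.mem_ker, hπ1]
  have hsurj : Function.Surjective π := by
    apply surjective_of_card
    rw [hker, card_center_SL_field 2 (by norm_num)]
    have hO := Cfsg.Agent.S0286.result (F := F) rfl hodd 1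
    have hΩ := Subgroup.card_mul_index (Cfsg.Omega F (Cfsg.quadFormOdd 1 F))
    rw [hindex, hO] at hΩ
    have hS := card_SL_field (F := F) 2 (by norm_num)
    simp only [Fin.prod_univ_two, Finset.prod_range_one] at hS hΩ
    rw [← hq] at hS hΩ ⊢
    obtain ⟨k, hk⟩ := hodd
    have hq1 : 1 < q := Fintype.one_lt_card
    clear_value q
    subst hk
    have hk0 : 0 < k := by omega
    have e1 : (2 * k + 1) ^ 2 - 1 = 4 * k ^ 2 + 4 * k := by
      have : (2 * k + 1) ^ 2 = 4 * k ^ 2 + 4 * k + 1 := by ring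
      omega
    have e2 : (2 * k + 1) ^ 2 - (2 * k + 1) = 4 * k ^ 2 + 2 * k := by
      have : (2 * k + 1) ^ 2 = 4 * k ^ 2 + 2 * k + (2 * k + 1) := by ring
      omega
    simp only [Fin.val_zero, Fin.val_one, pow_zero, pow_one, one_pow, zero_add, mul_one, e1, e2,
      Nat.add_sub_cancel] at hS hΩ ⊢
    rw [Nat.gcd_eq_left (dvd_mul_right 2 k)]
    have hS' : Nat.card (Matrix.SpecialLinearGroup (Fin 2) F) = (4 * k ^ 2 + 4 * k) * (2 * k + 1) := by
      apply Nat.eq_of_mul_eq_mul_left (show 0 < 2 * k by omega)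
      rw [hS]
      ring
    have hΩ' : Nat.card ↥(Cfsg.Omega F (Cfsg.quadFormOdd 1 F)) * 4 =
        2 * ((4 * k ^ 2 + 4 * k) * (2 * k + 1)) := by
      rw [hΩ]
      ring
    omega
  refine quotient_center_equiv π hsurj _ (fun a => ⟨fun ha a' => ?_, fun ha => ?_⟩)
  · rw [Subgroup.mem_center_iff.1 ha a']
  · have key : ∀ t : Matrix.SpecialLinearGroup (Fin 2) F, ∃ r : F,
        (a : Matrix (Fin 2) (Fin 2) F) * (t : Matrix (Fin 2) (Fin 2) F) =
          r • ((t : Matrix (Fin 2) (Fin 2) F) * (a : Matrix (Fin 2) (Fin 2) F)) := by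
      intro t
      have h6 : π ((t * a)⁻¹ * (a * t)) = 1 := by
        rw [map_mul, map_inv, ha t, inv_mul_cancel]
      obtain ⟨r, _, hr⟩ := Matrix.SpecialLinearGroup.mem_center_iff.1 ((hπ1 _).1 h6)
      refine ⟨r, ?_⟩
      have h7 : a * t = (t * a) * ((t * a)⁻¹ * (a * t)) := by group
      rw [← Matrix.SpecialLinearGroup.coe_mul, ← Matrix.SpecialLinearGroup.coe_mul, h7,
        Matrix.SpecialLinearGroup.coe_mul (t * a), ← hr]
      simp [Matrix.scalar_apply, ← Matrix.smul_one_eq_diagonal]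
    exact SL2_mem_center_of_commute_up_to a
      (key (Matrix.SpecialLinearGroup.transvection (by decide : (0 : Fin 2) ≠ 1) 1))
      (key (Matrix.SpecialLinearGroup.transvection (by decide : (1 : Fin 2) ≠ 0) 1))

end Cfsg.Agent.S0298
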