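import Cfsg.Statements.S0299
import Cfsg.Agent.S0287
import Cfsg.Agent.Lib.Helper6.OmegaIso2
import Cfsg.Agent.Lib.Helper6.IsomTransport
import Cfsg.Agent.Lib.Helper18.OrthOmega
import Cfsg.Agent.Lib.Helper49.HypPairs
import Cfsg.Agent.Lib.Helper49.OmegaCrit

set_option autoImplicit false
open Cfsg

namespace Cfsg.Agent.S0299


open Matrix Cfsg.Agent.Lib.Helper6

section
variable {F : Type*} [Field F]

abbrev I4 := Fin 2 ⊕ Fin 2

/-- all 2 x 2 matrices, with `det (X v) = quadFormPlus 2 F v` -/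
def X (v : I4 → F) : Matrix (Fin 2) (Fin 2) F :=
  !![v (.inl 0), - v (.inl 1); v (.inr 1), v (.inr 0)]

def co (Y : Matrix (Fin 2) (Fin 2) F) : I4 → F :=
  Sum.elim ![Y 0 0, - Y 0 1] ![Y 1 1, Y 1 0]

theorem X_co (Y : Matrix (Fin 2) (Fin 2) F) : X (co Y) = Y := by
  ext i j
  fin_cases i <;> fin_cases j <;> simp [X, co]

/-- the matrix of `Y ↦ A Y adj(B)` -/
def MM (A B : Matrix (Fin 2) (Fin 2) F) : Matrix I4 I4 F :=
  Matrix.of fun r c => co (A * X (Pi.single c 1) * B.adjugate) r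

theorem X_MM (A B : Matrix (Fin 2) (Fin 2) F) (v : I4 → F) :
    X (MM A B *ᵥ v) = A * X v * B.adjugate := by
  ext i j
  fin_cases i <;> fin_cases j <;>
    simp [X, MM, co, Matrix.mulVec, dotProduct, Fintype.sum_sum_type, Matrix.adjugate_fin_two,
      Matrix.mul_apply, Fin.sum_univ_two, Pi.single_apply] <;> ring

theorem X_inj : Function.Injective (X : (I4 → F) → Matrix (Fin 2) (Fin 2) F) := by
  intro u v h
  have h00 := congrFun (congrFun h 0) 0
  have h01 := congrFun (congrFun h 0) 1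
  have h10 := congrFun (congrFun h 1) 0
  have h11 := congrFun (congrFun h 1) 1
  simp [X] at h00 h01 h10 h11
  funext r
  rcases r with r | r <;> fin_cases r
  · exact h00
  · exact h01
  · exact h11
  · exact h10

theorem Q_eq (v : I4 → F) : Cfsg.quadFormPlus 2 F v = (X v).det := by
  simp [Cfsg.quadFormPlus, X, Matrix.det_fin_two, Fin.sum_univ_two]

theorem ext_mulVec {A B : Matrix I4 I4 F} (h : ∀ v, A *ᵥ v = B *ᵥ v) : A = B := by
  ext i j
  simpa using congrFun (h (Pi.single j 1)) i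

theorem adj_mul (g : Matrix.SpecialLinearGroup (Fin 2) F) :
    (g : Matrix (Fin 2) (Fin 2) F).adjugate * (g : Matrix (Fin 2) (Fin 2) F) = 1 := by
  rw [Matrix.adjugate_mul, g.2, one_smul]

theorem mul_adj (g : Matrix.SpecialLinearGroup (Fin 2) F) :
    (g : Matrix (Fin 2) (Fin 2) F) * (g : Matrix (Fin 2) (Fin 2) F).adjugate = 1 := by
  rw [Matrix.mul_adjugate, g.2, one_smul]

theorem MM_pres (x : Matrix.SpecialLinearGroup (Fin 2) F × Matrix.SpecialLinearGroup (Fin 2) F)
    (v : I4 → F) :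
    Cfsg.quadFormPlus 2 F (MM (x.1 : Matrix (Fin 2) (Fin 2) F) (x.2 : Matrix (Fin 2) (Fin 2) F) *ᵥ v)
      = Cfsg.quadFormPlus 2 F v := by
  rw [Q_eq, Q_eq, X_MM, Matrix.det_mul, Matrix.det_mul, Matrix.det_adjugate, x.1.2, x.2.2]
  simp

theorem MM_one : MM (1 : Matrix (Fin 2) (Fin 2) F) 1 = 1 := by
  apply ext_mulVec
  intro v
  apply X_inj
  rw [X_MM]
  simp

theorem MM_mul (A B A' B' : Matrix (Fin 2) (Fin 2) F) :
    MM (A * A') (B * B') = MM A B * MM A' B' := by
  apply ext_mulVec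
  intro v
  apply X_inj
  rw [← mulVec_mulVec, X_MM, X_MM, X_MM, Matrix.adjugate_mul_distrib]
  simp only [Matrix.mul_assoc]

/-- the representation as a hom to matrices -/
def rho0 : Matrix.SpecialLinearGroup (Fin 2) F × Matrix.SpecialLinearGroup (Fin 2) F →*
    Matrix I4 I4 F where
  toFun x := MM (x.1 : Matrix (Fin 2) (Fin 2) F) (x.2 : Matrix (Fin 2) (Fin 2) F)
  map_one' := by
    rw [Prod.fst_one, Prod.snd_one, Matrix.SpecialLinearGroup.coe_one, MM_one]
  map_mul' g h := by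
    rw [Prod.fst_mul, Prod.snd_mul, Matrix.SpecialLinearGroup.coe_mul,
      Matrix.SpecialLinearGroup.coe_mul, MM_mul]

theorem MM_eq_one_iff (g h : Matrix.SpecialLinearGroup (Fin 2) F) :
    MM (g : Matrix (Fin 2) (Fin 2) F) (h : Matrix (Fin 2) (Fin 2) F) = 1 ↔
      g = h ∧ g ∈ Subgroup.center (Matrix.SpecialLinearGroup (Fin 2) F) := by
  constructor
  · intro hM
    have hc : ∀ Y : Matrix (Fin 2) (Fin 2) F, (g : Matrix (Fin 2) (Fin 2) F) * Y = Y * h := by
      intro Y
      have h1 := X_MM (g : Matrix (Fin 2) (Fin 2) F) (h : Matrix (Fin 2) (Fin 2) F) (co Y)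
      rw [hM, one_mulVec, X_co] at h1
      calc (g : Matrix (Fin 2) (Fin 2) F) * Y
          = (g : Matrix (Fin 2) (Fin 2) F) * Y * ((h : Matrix (Fin 2) (Fin 2) F).adjugate * h) := by
            rw [adj_mul, mul_one]
        _ = Y * h := by rw [← Matrix.mul_assoc, ← h1]
    have hgh : g = h := by
      apply Subtype.ext
      have := hc 1
      rwa [mul_one, one_mul] at this
    refine ⟨hgh, ?_⟩
    rw [Subgroup.mem_center_iff]
    intro k
    apply Subtype.ext
    rw [Matrix.SpecialLinearGroup.coe_mul, Matrix.SpecialLinearGroup.coe_mul, hc, hgh]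
  · rintro ⟨rfl, hz⟩
    obtain ⟨r, _, hr⟩ := Matrix.SpecialLinearGroup.mem_center_iff.1 hz
    apply ext_mulVec
    intro v
    apply X_inj
    rw [X_MM, one_mulVec]
    have h3 : (g : Matrix (Fin 2) (Fin 2) F) * X v = X v * g := by
      rw [← hr]
      simp [Matrix.scalar_apply, ← Matrix.smul_one_eq_diagonal]
    rw [h3, Matrix.mul_assoc, mul_adj, mul_one]

end

/-- PΩ^+_4(q) is isomorphic to PSL_2(q) x PSL_2(q) for q at least 3. -/
theorem result {F : Type*} [Field F] [Fintype F] (hF : 3 ≤ Fintype.card F) : Nonempty (Cfsg.POmega F (Cfsg.quadFormPlus 2 F) ≃* Matrix.ProjectiveSpecialLinearGroup (Fin 2) F × Matrix.ProjectiveSpecialLinearGroup (Fin 2) F) := by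
  classical
  set q := Fintype.card F with hq
  let ρ : Matrix.SpecialLinearGroup (Fin 2) F × Matrix.SpecialLinearGroup (Fin 2) F →*
      Cfsg.isometryGroup F (Cfsg.quadFormPlus 2 F) :=
    homIsometry (RingEquiv.refl F) (Cfsg.quadFormPlus 2 F) (Cfsg.quadFormPlus 2 F) (fun _ => rfl) rho0
      MM_pres
  have hρ : ∀ x, ((ρ x : Matrix.GeneralLinearGroup I4 F) : Matrix I4 I4 F) =
      MM (x.1 : Matrix (Fin 2) (Fin 2) F) (x.2 : Matrix (Fin 2) (Fin 2) F) := fun x => rfl
  have hindex4 : (2 : F) ≠ 0 → (Cfsg.Omega F (Cfsg.quadFormPlus 2 F)).index = 4 := by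
    intro h2
    have := Cfsg.Agent.Lib.Helper18.index_commutator (Cfsg.Agent.Lib.Helper49.plusQF 2 F) h2
      (Cfsg.Agent.Lib.Helper49.plusQF_nondegenerate 2 F) (by simp)
    rw [Cfsg.Agent.Lib.Helper49.plusQF_coe] at this
    exact this
  have hindex2 : (2 : F) = 0 → (Cfsg.Omega F (Cfsg.quadFormPlus 2 F)).index = 2 := by
    intro h2
    have := Cfsg.Agent.Lib.Helper49.index_Omega_char_two (Cfsg.Agent.Lib.Helper49.plusQF 2 F) h2
      (Cfsg.Agent.Lib.Helper49.plusQF_nondegenerate 2 F) (Or.inl (by omega))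
    rw [Cfsg.Agent.Lib.Helper49.plusQF_coe] at this
    exact this
  have hmem : ∀ x, ρ x ∈ Cfsg.Omega F (Cfsg.quadFormPlus 2 F) := by
    intro x
    have hx : x = (MonoidHom.inl _ _ x.1) * (MonoidHom.inr _ _ x.2) := by
      ext <;> simp
    rw [hx, map_mul]
    exact mul_mem (hom_SL2_mem_commutator hF (ρ.comp (MonoidHom.inl _ _)) hindex4 x.1)
      (hom_SL2_mem_commutator hF (ρ.comp (MonoidHom.inr _ _)) hindex4 x.2)
  let π : Matrix.SpecialLinearGroup (Fin 2) F × Matrix.SpecialLinearGroup (Fin 2) F →*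
      Cfsg.Omega F (Cfsg.quadFormPlus 2 F) := ρ.codRestrict _ hmem
  have hπ1 : ∀ x, π x = 1 ↔
      x.1 = x.2 ∧ x.1 ∈ Subgroup.center (Matrix.SpecialLinearGroup (Fin 2) F) := by
    intro x
    rw [← MM_eq_one_iff, ← hρ]
    constructor
    · intro h
      have : ρ x = 1 := congrArg Subtype.val h
      rw [this]
      rfl
    · intro h
      apply Subtype.ext
      apply Subtype.ext
      apply Units.ext
      exact h
  have hkercard : Nat.card π.ker = Nat.gcd 2 (q - 1) := by
    rw [hq, ← card_center_SL_field 2 (by norm_num)]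
    refine Nat.card_congr ⟨fun x => ⟨x.1.1, ((hπ1 _).1 (MonoidHom.mem_ker.1 x.2)).2⟩,
      fun z => ⟨(z.1, z.1), MonoidHom.mem_ker.2 ((hπ1 _).2 ⟨rfl, z.2⟩)⟩, ?_, ?_⟩
    · intro x
      apply Subtype.ext
      exact Prod.ext rfl ((hπ1 _).1 (MonoidHom.mem_ker.1 x.2)).1
    · intro z
      rfl
  have hsurj : Function.Surjective π := by
    apply surjective_of_card
    rw [hkercard, Nat.card_prod, card_SL2, ← hq]
    have hO := Cfsg.Agent.S0287.result (F := F) rfl 2 (by norm_num)
    have hΩ := Subgroup.card_mul_index (Cfsg.Omega F (Cfsg.quadFormPlus 2 F))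
    rw [hO, ← hq] at hΩ
    simp only [Finset.prod_range_one, Nat.add_one_sub_one, Nat.reduceSub, zero_add, mul_one] at hΩ
    by_cases h2 : (2 : F) = 0
    · rw [hindex2 h2] at hΩ
      have heven : Even q := by
        by_contra hne
        exact two_ne_zero_of_odd_card (Nat.not_even_iff_odd.1 hne) h2
      obtain ⟨k, hk⟩ := heven
      have hg : Nat.gcd 2 (q - 1) = 1 := by
        have : q - 1 = 2 * (k - 1) + 1 := by omega
        rw [this]
        simp
      rw [hg, one_mul]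
      have : Nat.card ↥(Cfsg.Omega F (Cfsg.quadFormPlus 2 F)) * 2 =
          ((q ^ 2 - 1) * q * ((q ^ 2 - 1) * q)) * 2 := by
        rw [hΩ]
        ring
      omega
    · rw [hindex4 h2] at hΩ
      obtain ⟨k, hk⟩ := odd_card_of_two_ne_zero h2
      have hg : Nat.gcd 2 (q - 1) = 2 := by
        have : q - 1 = 2 * k := by omega
        rw [this]
        exact Nat.gcd_eq_left (dvd_mul_right 2 k)
      rw [hg]
      have : Nat.card ↥(Cfsg.Omega F (Cfsg.quadFormPlus 2 F)) * 4 =
          ((q ^ 2 - 1) * q * ((q ^ 2 - 1) * q)) * 2 := by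
        rw [hΩ]
        ring
      omega
  let ψ : Matrix.SpecialLinearGroup (Fin 2) F × Matrix.SpecialLinearGroup (Fin 2) F →*
      Matrix.ProjectiveSpecialLinearGroup (Fin 2) F × Matrix.ProjectiveSpecialLinearGroup (Fin 2) F :=
    MonoidHom.prodMap (QuotientGroup.mk' _) (QuotientGroup.mk' _)
  have hψ : Function.Surjective ψ :=
    Function.Surjective.prodMap (QuotientGroup.mk'_surjective _) (QuotientGroup.mk'_surjective _)
  have hψ1 : ∀ a, ψ a = 1 ↔ a.1 ∈ Subgroup.center (Matrix.SpecialLinearGroup (Fin 2) F) ∧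
      a.2 ∈ Subgroup.center (Matrix.SpecialLinearGroup (Fin 2) F) := by
    intro a
    rw [← QuotientGroup.eq_one_iff, ← QuotientGroup.eq_one_iff]
    exact Prod.ext_iff
  refine quotient_center_equiv' π hsurj ψ hψ (fun a => ?_)
  rw [hψ1]
  constructor
  · rintro ⟨h1, h2⟩ a'
    congr 1
    exact Prod.ext (Subgroup.mem_center_iff.1 h1 a'.1).symm (Subgroup.mem_center_iff.1 h2 a'.2).symm
  · intro ha
    constructor
    · rw [Subgroup.mem_center_iff]
      intro t
      have h6 : π (((t, 1) * a)⁻¹ * (a * (t, 1))) = 1 := by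
        rw [map_mul, map_inv, ha (t, 1), inv_mul_cancel]
      have h7 := ((hπ1 _).1 h6).1
      simp only [Prod.fst_mul, Prod.snd_mul, Prod.fst_inv, Prod.snd_inv, one_mul, mul_one,
        inv_mul_cancel] at h7
      exact (inv_mul_eq_one.1 h7)
    · rw [Subgroup.mem_center_iff]
      intro t
      have h6 : π (((1, t) * a)⁻¹ * (a * (1, t))) = 1 := by
        rw [map_mul, map_inv, ha (1, t), inv_mul_cancel]
      have h7 := ((hπ1 _).1 h6).1
      simp only [Prod.fst_mul, Prod.snd_mul, Prod.fst_inv, Prod.snd_inv, one_mul, mul_one,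
        inv_mul_cancel] at h7
      exact (inv_mul_eq_one.1 h7.symm)

end Cfsg.Agent.S0299
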