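import Cfsg.Statements.S0300
import Cfsg.Agent.S0288
import Cfsg.Agent.S0824
import Cfsg.Agent.Lib.Helper6.OmegaIso2
import Cfsg.Agent.Lib.Helper6.SLEquiv
import Cfsg.Agent.Lib.Helper6.IsomTransport
import Cfsg.Agent.Lib.Helper18.OrthOmega
import Cfsg.Agent.Lib.Helper49.HypPairs
import Cfsg.Agent.Lib.Helper49.OmegaCrit

set_option autoImplicit false
open Cfsg

namespace Cfsg.Agent.S0300


open Matrix Cfsg.Agent.Lib.Helper6

section
variable {F : Type*} [Field F] {a b : F}

abbrev I4 := (Fin 1 ⊕ Fin 1) ⊕ Fin 2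

/-- Hermitian matrices -/
def X (v : I4 → F) : Matrix (Fin 2) (Fin 2) (QuadraticAlgebra F (-b) a) :=
  !![⟨v (.inl (.inl 0)), 0⟩, ⟨v (.inr 0), v (.inr 1)⟩;
     star (⟨v (.inr 0), v (.inr 1)⟩ : QuadraticAlgebra F (-b) a), ⟨- v (.inl (.inr 0)), 0⟩]

def co (Y : Matrix (Fin 2) (Fin 2) (QuadraticAlgebra F (-b) a)) : I4 → F :=
  Sum.elim (Sum.elim (fun _ => (Y 0 0).re) (fun _ => - (Y 1 1).re)) ![(Y 0 1).re, (Y 0 1).im]

def Xl : (I4 → F) →ₗ[F] Matrix (Fin 2) (Fin 2) (QuadraticAlgebra F (-b) a) where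
  toFun := X
  map_add' u v := by
    ext i j <;> fin_cases i <;> fin_cases j <;> simp [X] <;> ring
  map_smul' c v := by
    ext i j <;> fin_cases i <;> fin_cases j <;> simp [X] <;> ring

def col : Matrix (Fin 2) (Fin 2) (QuadraticAlgebra F (-b) a) →ₗ[F] (I4 → F) where
  toFun := co
  map_add' u v := by
    funext r
    rcases r with (r | r) | r
    · simp [co]
    · simp [co]; ring
    · fin_cases r <;> simp [co]
  map_smul' c v := by
    funext r
    rcases r with (r | r) | r
    · simp [co]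
    · simp [co]
    · fin_cases r <;> simp [co]

/-- the linear map `Y ↦ A Y Aᴴ` in coordinates -/
def TT (A : Matrix (Fin 2) (Fin 2) (QuadraticAlgebra F (-b) a)) : (I4 → F) →ₗ[F] (I4 → F) :=
  col ∘ₗ LinearMap.mulLeft F A ∘ₗ LinearMap.mulRight F Aᴴ ∘ₗ Xl

theorem TT_apply (A : Matrix (Fin 2) (Fin 2) (QuadraticAlgebra F (-b) a)) (v : I4 → F) :
    TT A v = co (A * (X v * Aᴴ)) := rfl

noncomputable def MM (A : Matrix (Fin 2) (Fin 2) (QuadraticAlgebra F (-b) a)) : Matrix I4 I4 F :=
  LinearMap.toMatrix' (TT A)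

theorem entry (A Y : Matrix (Fin 2) (Fin 2) (QuadraticAlgebra F (-b) a)) (i j : Fin 2) :
    (A * (Y * Aᴴ)) i j = A i 0 * Y 0 0 * star (A j 0) + A i 0 * Y 0 1 * star (A j 1) +
      A i 1 * Y 1 0 * star (A j 0) + A i 1 * Y 1 1 * star (A j 1) := by
  simp only [Matrix.mul_apply, Fin.sum_univ_two, Matrix.conjTranspose_apply]
  ring

theorem X_co_of (Z : Matrix (Fin 2) (Fin 2) (QuadraticAlgebra F (-b) a)) (h0 : (Z 0 0).im = 0)
    (h1 : (Z 1 1).im = 0) (h2 : Z 1 0 = star (Z 0 1)) : X (co Z) = Z := by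
  ext i j
  · fin_cases i <;> fin_cases j <;> simp [X, co, h2]
  · fin_cases i <;> fin_cases j <;> simp [X, co, h0, h1, h2]

theorem X_co_conj (A : Matrix (Fin 2) (Fin 2) (QuadraticAlgebra F (-b) a)) (v : I4 → F) :
    X (co (A * (X v * Aᴴ))) = A * (X v * Aᴴ) := by
  apply X_co_of
  · rw [entry]
    simp [X]
    ring
  · rw [entry]
    simp [X]
    ring
  · rw [entry, entry]
    simp only [star_add, star_mul', star_star]
    have h00 : star ((X v : Matrix (Fin 2) (Fin 2) (QuadraticAlgebra F (-b) a)) 0 0) = X v 0 0 := by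
      ext <;> simp [X]
    have h11 : star ((X v : Matrix (Fin 2) (Fin 2) (QuadraticAlgebra F (-b) a)) 1 1) = X v 1 1 := by
      ext <;> simp [X]
    have h01 : star ((X v : Matrix (Fin 2) (Fin 2) (QuadraticAlgebra F (-b) a)) 0 1) = X v 1 0 := by
      simp [X]
    have h10 : star ((X v : Matrix (Fin 2) (Fin 2) (QuadraticAlgebra F (-b) a)) 1 0) = X v 0 1 := by
      simp [X]
    rw [h00, h11, h01, h10]
    ring

theorem X_MM (A : Matrix (Fin 2) (Fin 2) (QuadraticAlgebra F (-b) a)) (v : I4 → F) :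
    X (MM A *ᵥ v) = A * X v * Aᴴ := by
  rw [MM, LinearMap.toMatrix'_mulVec, TT_apply, X_co_conj, Matrix.mul_assoc]

theorem X_inj : Function.Injective
    (X : (I4 → F) → Matrix (Fin 2) (Fin 2) (QuadraticAlgebra F (-b) a)) := by
  intro u v h
  have h00 := congrArg QuadraticAlgebra.re (congrFun (congrFun h 0) 0)
  have h01 := congrArg QuadraticAlgebra.re (congrFun (congrFun h 0) 1)
  have h01' := congrArg QuadraticAlgebra.im (congrFun (congrFun h 0) 1)
  have h11 := congrArg QuadraticAlgebra.re (congrFun (congrFun h 1) 1)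
  simp [X] at h00 h01 h01' h11
  funext r
  rcases r with (r | r) | r
  · rw [Subsingleton.elim r 0]; exact h00
  · rw [Subsingleton.elim r 0]; exact h11
  · fin_cases r
    · exact h01
    · exact h01'

theorem Q_eq (v : I4 → F) : (⟨Cfsg.quadFormMinus 1 F a b v, 0⟩ : QuadraticAlgebra F (-b) a) =
    - (X v).det := by
  rw [Matrix.det_fin_two]
  ext
  · simp [Cfsg.quadFormMinus, X]
    ring
  · simp [Cfsg.quadFormMinus, X]
    ring

theorem ext_mulVec {A B : Matrix I4 I4 F} (h : ∀ v, A *ᵥ v = B *ᵥ v) : A = B := by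
  ext i j
  simpa using congrFun (h (Pi.single j 1)) i

theorem MM_pres (g : Matrix.SpecialLinearGroup (Fin 2) (QuadraticAlgebra F (-b) a)) (v : I4 → F) :
    Cfsg.quadFormMinus 1 F a b
      (MM (g : Matrix (Fin 2) (Fin 2) (QuadraticAlgebra F (-b) a)) *ᵥ v) =
      Cfsg.quadFormMinus 1 F a b v := by
  have h1 := Q_eq (a := a) (b := b) (MM (g : Matrix (Fin 2) (Fin 2) (QuadraticAlgebra F (-b) a)) *ᵥ v)
  rw [X_MM, Matrix.det_mul, Matrix.det_mul, Matrix.det_conjTranspose, g.2, star_one, one_mul, mul_one,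
    ← Q_eq] at h1
  exact congrArg QuadraticAlgebra.re h1

theorem MM_one : MM (1 : Matrix (Fin 2) (Fin 2) (QuadraticAlgebra F (-b) a)) = 1 := by
  apply ext_mulVec
  intro v
  apply X_inj (a := a) (b := b)
  rw [X_MM]
  simp

theorem MM_mul (A B : Matrix (Fin 2) (Fin 2) (QuadraticAlgebra F (-b) a)) :
    MM (A * B) = MM A * MM B := by
  apply ext_mulVec
  intro v
  apply X_inj (a := a) (b := b)
  rw [← mulVec_mulVec, X_MM, X_MM, X_MM, Matrix.conjTranspose_mul]
  simp only [Matrix.mul_assoc]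

/-- the representation as a hom to matrices -/
noncomputable def rho0 : Matrix.SpecialLinearGroup (Fin 2) (QuadraticAlgebra F (-b) a) →*
    Matrix I4 I4 F where
  toFun g := MM (g : Matrix (Fin 2) (Fin 2) (QuadraticAlgebra F (-b) a))
  map_one' := by rw [Matrix.SpecialLinearGroup.coe_one, MM_one]
  map_mul' g h := by rw [Matrix.SpecialLinearGroup.coe_mul, MM_mul]

theorem MM_eq_one_iff [Fact (∀ r : F, r ^ 2 ≠ -b + a * r)]
    (g : Matrix.SpecialLinearGroup (Fin 2) (QuadraticAlgebra F (-b) a)) :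
    MM (g : Matrix (Fin 2) (Fin 2) (QuadraticAlgebra F (-b) a)) = 1 ↔
      g ∈ Subgroup.center (Matrix.SpecialLinearGroup (Fin 2) (QuadraticAlgebra F (-b) a)) := by
  constructor
  · intro h
    have hc : ∀ v : I4 → F, (g : Matrix (Fin 2) (Fin 2) (QuadraticAlgebra F (-b) a)) *
        (X v * (g : Matrix (Fin 2) (Fin 2) (QuadraticAlgebra F (-b) a))ᴴ) = X v := by
      intro v
      have h1 := X_MM (g : Matrix (Fin 2) (Fin 2) (QuadraticAlgebra F (-b) a)) v
      rw [h, one_mulVec] at h1
      rw [← Matrix.mul_assoc, ← h1]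
    have hdet : (g : Matrix (Fin 2) (Fin 2) (QuadraticAlgebra F (-b) a)) 0 0 * g 1 1 -
        g 0 1 * g 1 0 = 1 := by
      rw [← Matrix.det_fin_two]
      exact g.2
    have e1 := congrFun (congrFun (hc (Pi.single (.inl (.inl 0)) 1)) 1) 1
    have e2 := congrFun (congrFun (hc (Pi.single (.inl (.inr 0)) 1)) 0) 0
    have e3 := congrFun (congrFun (hc (Pi.single (.inl (.inr 0)) 1)) 1) 1
    have e4 := congrFun (congrFun (hc (Pi.single (.inr 0) 1)) 0) 1
    rw [entry] at e1 e2 e3 e4
    simp [X] at e1 e2 e3 e4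
    have h_one : (⟨1, 0⟩ : QuadraticAlgebra F (-b) a) = 1 := rfl
    have h_zero : (⟨0, 0⟩ : QuadraticAlgebra F (-b) a) = 0 := rfl
    have h_neg : (⟨-1, 0⟩ : QuadraticAlgebra F (-b) a) = -1 :=
      QuadraticAlgebra.ext rfl (neg_zero (G := F)).symm
    rw [h_one, h_zero] at e1 e4
    rw [h_neg, h_zero] at e2 e3
    simp only [mul_zero, zero_mul, add_zero, zero_add, mul_one, mul_neg, neg_mul, neg_eq_zero,
      neg_inj] at e1 e2 e3 e4
    have g10 : (g : Matrix (Fin 2) (Fin 2) (QuadraticAlgebra F (-b) a)) 1 0 = 0 := by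
      rcases mul_eq_zero.1 e1 with h | h
      · exact h
      · exact star_eq_zero.1 h
    have g01 : (g : Matrix (Fin 2) (Fin 2) (QuadraticAlgebra F (-b) a)) 0 1 = 0 := by
      rcases mul_eq_zero.1 e2 with h | h
      · exact h
      · exact star_eq_zero.1 h
    rw [g01, zero_mul, add_zero] at e4
    rw [g01, zero_mul, sub_zero] at hdet
    have g00ne : (g : Matrix (Fin 2) (Fin 2) (QuadraticAlgebra F (-b) a)) 0 0 ≠ 0 := by
      intro h0
      rw [h0, zero_mul] at hdet
      exact zero_ne_one hdet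
    have hs : star ((g : Matrix (Fin 2) (Fin 2) (QuadraticAlgebra F (-b) a)) 1 1) = g 1 1 :=
      mul_left_cancel₀ g00ne (e4.trans hdet.symm)
    rw [hs] at e3
    have g00 : (g : Matrix (Fin 2) (Fin 2) (QuadraticAlgebra F (-b) a)) 0 0 = g 1 1 := by
      calc (g : Matrix (Fin 2) (Fin 2) (QuadraticAlgebra F (-b) a)) 0 0
          = g 0 0 * (g 1 1 * g 1 1) := by rw [e3, mul_one]
        _ = g 1 1 := by rw [← mul_assoc, hdet, one_mul]
    rw [Matrix.SpecialLinearGroup.mem_center_iff]
    refine ⟨g 1 1, ?_, ?_⟩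
    · rw [Fintype.card_fin, pow_two, e3]
    · ext i j <;> fin_cases i <;> fin_cases j <;> simp [g00, g01, g10]
  · intro h
    obtain ⟨r, hr2, hr⟩ := Matrix.SpecialLinearGroup.mem_center_iff.1 h
    rw [Fintype.card_fin] at hr2
    have hsr : star r = r := by
      have h1 : (r - 1) * (r + 1) = 0 := by linear_combination hr2
      rcases mul_eq_zero.1 h1 with h2 | h2
      · rw [sub_eq_zero.1 h2, star_one]
      · rw [eq_neg_of_add_eq_zero_left h2, star_neg, star_one]
    apply ext_mulVec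
    intro v
    apply X_inj (a := a) (b := b)
    rw [X_MM, one_mulVec, ← hr]
    simp only [Matrix.scalar_apply, ← Matrix.smul_one_eq_diagonal, Matrix.conjTranspose_smul,
      Matrix.conjTranspose_one, hsr, Matrix.smul_mul, Matrix.mul_smul, one_mul, mul_one, smul_smul]
    rw [← pow_two, hr2, one_smul]

end

/-- PΩ^-_4(q) is isomorphic to PSL_2(q^2). -/
theorem result {F K : Type*} [Field F] [Fintype F] [Field K] [Fintype K] {q : ℕ} (hF : Fintype.card F = q) (hK : Fintype.card K = q ^ 2) (a b : F) (hab : ∀ z₁ z₂ : F, z₁ ^ 2 + a * z₁ * z₂ + b * z₂ ^ 2 = 0 → z₁ = 0 ∧ z₂ = 0) : Nonempty (Cfsg.POmega F (Cfsg.quadFormMinus 1 F a b) ≃* Matrix.ProjectiveSpecialLinearGroup (Fin 2) K) := by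
  classical
  subst hF
  set q := Fintype.card F with hq
  have hq1 : 1 < q := Fintype.one_lt_card
  have hfact : Fact (∀ r : F, r ^ 2 ≠ -b + a * r) := ⟨fun r hr => by
    have := hab (-r) 1 (by linear_combination hr)
    exact one_ne_zero this.2⟩
  letI : Fintype (QuadraticAlgebra F (-b) a) :=
    Fintype.ofEquiv _ (QuadraticAlgebra.equivProd (-b) a).symm
  have hL : Fintype.card (QuadraticAlgebra F (-b) a) = q ^ 2 := by
    rw [Fintype.card_congr (QuadraticAlgebra.equivProd (-b) a), Fintype.card_prod, pow_two]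
  have hne : 4 * b - a ^ 2 ≠ 0 := by
    intro h
    by_cases h2 : (2 : F) = 0
    · have h4 : (4 : F) = 0 := by
        have : (4 : F) = 2 * 2 := by norm_num
        rw [this, h2, mul_zero]
      have ha : a = 0 := by
        have : a ^ 2 = 0 := by linear_combination b * h4 - h
        exact pow_eq_zero_iff (two_ne_zero) |>.1 this
      obtain ⟨s, hs⟩ := Cfsg.Agent.Lib.Helper49.isSquare_of_two_eq_zero h2 b
      have := hab s 1 (by rw [ha, hs]; linear_combination s * s * h2)
      exact one_ne_zero this.2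
    · have := hab (-a) 2 (by linear_combination h)
      exact h2 this.2
  have h2L : (2 : QuadraticAlgebra F (-b) a) ≠ 0 → (2 : F) ≠ 0 := by
    intro h h2
    apply h
    have : (2 : QuadraticAlgebra F (-b) a) = algebraMap F _ 2 := (map_ofNat _ 2).symm
    rw [this, h2, map_zero]
  let ρ : Matrix.SpecialLinearGroup (Fin 2) (QuadraticAlgebra F (-b) a) →*
      Cfsg.isometryGroup F (Cfsg.quadFormMinus 1 F a b) :=
    homIsometry (RingEquiv.refl F) (Cfsg.quadFormMinus 1 F a b) (Cfsg.quadFormMinus 1 F a b)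
      (fun _ => rfl) rho0 MM_pres
  have hρ : ∀ g, ((ρ g : Matrix.GeneralLinearGroup I4 F) : Matrix I4 I4 F) =
      MM (g : Matrix (Fin 2) (Fin 2) (QuadraticAlgebra F (-b) a)) := fun g => rfl
  have hindex4 : (2 : F) ≠ 0 → (Cfsg.Omega F (Cfsg.quadFormMinus 1 F a b)).index = 4 := by
    intro h2
    have := Cfsg.Agent.Lib.Helper18.index_commutator (Cfsg.Agent.Lib.Helper49.minusQF 1 F a b) h2
      (Cfsg.Agent.Lib.Helper49.minusQF_nondegenerate 1 F a b hne) (by simp)
    rw [Cfsg.Agent.Lib.Helper49.minusQF_coe] at this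
    exact this
  have hindex2 : (2 : F) = 0 → (Cfsg.Omega F (Cfsg.quadFormMinus 1 F a b)).index = 2 := by
    intro h2
    by_cases hq2 : q = 2
    · have h01 : ∀ x : F, x = 0 ∨ x = 1 := by
        intro x
        obtain ⟨y, rfl⟩ := (ZMod.ringEquivOfPrime F Nat.prime_two hq2).surjective x
        fin_cases y
        · left; exact map_zero _
        · right; exact map_one _
      have hb : b = 1 := by
        rcases h01 b with h | h
        · have := hab 0 1 (by rw [h]; ring)
          exact absurd this.2 one_ne_zero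
        · exact h
      have ha : a = 1 := by
        rcases h01 a with h | h
        · have := hab 1 1 (by rw [h, hb]; linear_combination h2)
          exact absurd this.2 one_ne_zero
        · exact h
      subst ha hb
      obtain ⟨e⟩ := Cfsg.Agent.S0824.result (F := F) hq2
      have h5 := Cfsg.Agent.Lib.Helper49.index_eq_of_mulEquiv e
      rw [alternatingGroup.commutator_perm_eq (by simp), alternatingGroup.index_eq_two] at h5
      exact h5
    · have := Cfsg.Agent.Lib.Helper49.index_Omega_char_two (Cfsg.Agent.Lib.Helper49.minusQF 1 F a b) h2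
        (Cfsg.Agent.Lib.Helper49.minusQF_nondegenerate 1 F a b hne) (Or.inl hq2)
      rw [Cfsg.Agent.Lib.Helper49.minusQF_coe] at this
      exact this
  have hmem : ∀ x, ρ x ∈ Cfsg.Omega F (Cfsg.quadFormMinus 1 F a b) := by
    intro x
    refine hom_SL2_mem_commutator ?_ ρ (fun h => hindex4 (h2L h)) x
    rw [hL]
    nlinarith
  let π : Matrix.SpecialLinearGroup (Fin 2) (QuadraticAlgebra F (-b) a) →*
      Cfsg.Omega F (Cfsg.quadFormMinus 1 F a b) := ρ.codRestrict _ hmem
  have hπ1 : ∀ g, π g = 1 ↔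
      g ∈ Subgroup.center (Matrix.SpecialLinearGroup (Fin 2) (QuadraticAlgebra F (-b) a)) := by
    intro g
    rw [← MM_eq_one_iff, ← hρ]
    constructor
    · intro h
      have : ρ g = 1 := congrArg Subtype.val h
      rw [this]
      rfl
    · intro h
      apply Subtype.ext
      apply Subtype.ext
      apply Units.ext
      exact h
  have hker : π.ker =
      Subgroup.center (Matrix.SpecialLinearGroup (Fin 2) (QuadraticAlgebra F (-b) a)) := by
    ext g
    rw [MonoidHom.mem_ker, hπ1]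
  have hsurj : Function.Surjective π := by
    apply surjective_of_card
    rw [hker, card_center_SL_field 2 (by norm_num), card_SL2, hL]
    have hO := Cfsg.Agent.S0288.result (F := F) rfl 2 (by norm_num) a b hab
    have hΩ := Subgroup.card_mul_index (Cfsg.Omega F (Cfsg.quadFormMinus 1 F a b))
    have hO' : Nat.card ↥(Cfsg.isometryGroup F (Cfsg.quadFormMinus 1 F a b)) =
        2 * q ^ 2 * (q ^ 2 + 1) * (q ^ 2 - 1) := by
      refine hO.trans ?_
      simp [← hq]
    rw [hO'] at hΩ
    have hsq : (q ^ 2) ^ 2 - 1 = (q ^ 2 + 1) * (q ^ 2 - 1) := by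
      have := Nat.sq_sub_sq (q ^ 2) 1
      simpa using this
    rw [hsq]
    by_cases h2 : (2 : F) = 0
    · rw [hindex2 h2] at hΩ
      have heven : Even q := by
        by_contra hne'
        exact two_ne_zero_of_odd_card (Nat.not_even_iff_odd.1 hne') h2
      obtain ⟨k, hk⟩ := heven
      have hg : Nat.gcd 2 (q ^ 2 - 1) = 1 := by
        have : q ^ 2 - 1 = 2 * (2 * k * k - 1) + 1 := by
          have h1 : q ^ 2 = 4 * (k * k) := by rw [hk]; ring
          have h3 : 0 < k * k := by
            have : 0 < k := by omega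
            positivity
          have h4 : 2 * k * k = 2 * (k * k) := by ring
          omega
        rw [this]
        simp
      rw [hg, one_mul]
      have : Nat.card ↥(Cfsg.Omega F (Cfsg.quadFormMinus 1 F a b)) * 2 =
          ((q ^ 2 + 1) * (q ^ 2 - 1) * q ^ 2) * 2 := by
        rw [hΩ]
        ring
      omega
    · rw [hindex4 h2] at hΩ
      obtain ⟨k, hk⟩ := odd_card_of_two_ne_zero h2
      have hg : Nat.gcd 2 (q ^ 2 - 1) = 2 := by
        have : q ^ 2 - 1 = 2 * (2 * (k * k) + 2 * k) := by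
          have h1 : q ^ 2 = 4 * (k * k) + 4 * k + 1 := by rw [hq, hk]; ring
          omega
        rw [this]
        exact Nat.gcd_eq_left (dvd_mul_right 2 _)
      rw [hg]
      have : Nat.card ↥(Cfsg.Omega F (Cfsg.quadFormMinus 1 F a b)) * 4 =
          ((q ^ 2 + 1) * (q ^ 2 - 1) * q ^ 2) * 2 := by
        rw [hΩ]
        ring
      omega
  obtain ⟨e1⟩ := quotient_center_equiv π hsurj
    (Subgroup.center (Matrix.SpecialLinearGroup (Fin 2) (QuadraticAlgebra F (-b) a)))
    (fun x => ⟨fun hx x' => by rw [Subgroup.mem_center_iff.1 hx x'], fun hx => by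
      have key : ∀ t : Matrix.SpecialLinearGroup (Fin 2) (QuadraticAlgebra F (-b) a),
          ∃ r : QuadraticAlgebra F (-b) a,
          (x : Matrix (Fin 2) (Fin 2) (QuadraticAlgebra F (-b) a)) *
            (t : Matrix (Fin 2) (Fin 2) (QuadraticAlgebra F (-b) a)) =
          r • ((t : Matrix (Fin 2) (Fin 2) (QuadraticAlgebra F (-b) a)) *
            (x : Matrix (Fin 2) (Fin 2) (QuadraticAlgebra F (-b) a))) := by
        intro t
        have h6 : π ((t * x)⁻¹ * (x * t)) = 1 := by
          rw [map_mul, map_inv, hx t, inv_mul_cancel]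
        obtain ⟨r, _, hr⟩ := Matrix.SpecialLinearGroup.mem_center_iff.1 ((hπ1 _).1 h6)
        refine ⟨r, ?_⟩
        have h7 : x * t = (t * x) * ((t * x)⁻¹ * (x * t)) := by group
        rw [← Matrix.SpecialLinearGroup.coe_mul, ← Matrix.SpecialLinearGroup.coe_mul, h7,
          Matrix.SpecialLinearGroup.coe_mul (t * x), ← hr]
        simp [Matrix.scalar_apply, ← Matrix.smul_one_eq_diagonal]
      exact SL2_mem_center_of_commute_up_to x
        (key (Matrix.SpecialLinearGroup.transvection (by decide : (0 : Fin 2) ≠ 1) 1))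
        (key (Matrix.SpecialLinearGroup.transvection (by decide : (1 : Fin 2) ≠ 0) 1))⟩)
  exact ⟨e1.trans (pslEquiv (FiniteField.ringEquivOfCardEq (hL.trans hK.symm)))⟩

end Cfsg.Agent.S0300
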