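import Cfsg.Statements.S0301
import Cfsg.Agent.S0245
import Cfsg.Agent.S0286
import Cfsg.Agent.Lib.Helper6.OmegaIso2
import Cfsg.Agent.Lib.Helper6.OmegaIso4
import Cfsg.Agent.Lib.Helper6.Klein5
import Cfsg.Agent.Lib.Helper6.IsomTransport
import Cfsg.Agent.Lib.Helper18.OrthOmega
import Cfsg.Agent.Lib.Helper49.HypPairs

set_option autoImplicit false
open Cfsg

namespace Cfsg.Agent.S0301

open Cfsg.Agent.Lib.Helper6 Cfsg.Agent.Lib.Helper6.Klein5

noncomputable def rho0 {F : Type*} [Field F] (h2 : (2 : F) ≠ 0) :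
    Matrix.symplecticGroup (Fin 2) F →* Matrix I5 I5 F where
  toFun g := M5 (g : Matrix I4 I4 F)
  map_one' := M5_one h2
  map_mul' g h := M5_mul h2 g.2 h.2

/-- PΩ_5(q) is isomorphic to PSp_4(q) for q odd. -/
theorem result {F : Type*} [Field F] [Fintype F] (hodd : Odd (Fintype.card F)) : Nonempty (Cfsg.POmega F (Cfsg.quadFormOdd 2 F) ≃* Cfsg.PSp 2 F) := by
  classical
  set q := Fintype.card F with hq
  have hq1 : 1 < q := Fintype.one_lt_card
  have h2 : (2 : F) ≠ 0 := two_ne_zero_of_odd_card hodd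
  let ρ : Matrix.symplecticGroup (Fin 2) F →*
      Cfsg.isometryGroup F (Cfsg.quadFormOdd 2 F) :=
    homIsometry (RingEquiv.refl F) (Cfsg.quadFormOdd 2 F) (Cfsg.quadFormOdd 2 F)
      (fun _ => rfl) (rho0 h2) (fun g v => M5_pres h2 g.2 v)
  have hρ : ∀ g, ((ρ g : Matrix.GeneralLinearGroup I5 F) : Matrix I5 I5 F) =
      M5 (g : Matrix I4 I4 F) := fun g => rfl
  have hindex4 : (Cfsg.Omega F (Cfsg.quadFormOdd 2 F)).index = 4 := by
    have := Cfsg.Agent.Lib.Helper18.index_commutator (Cfsg.Agent.Lib.Helper49.oddQF 2 F) h2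
      (Cfsg.Agent.Lib.Helper49.oddQF_nondegenerate 2 F h2) (by simp)
    rw [Cfsg.Agent.Lib.Helper49.oddQF_coe] at this
    exact this
  have hmem : ∀ x, ρ x ∈ Cfsg.Omega F (Cfsg.quadFormOdd 2 F) := by
    intro x
    exact hom_Sp_mem_of_index_four h2 2 ρ _ hindex4 x
  let π : Matrix.symplecticGroup (Fin 2) F →*
      Cfsg.Omega F (Cfsg.quadFormOdd 2 F) := ρ.codRestrict _ hmem
  have hπ1 : ∀ g, π g = 1 → (g : Matrix I4 I4 F) = 1 ∨ (g : Matrix I4 I4 F) = -1 := by
    intro g h
    have h1 : ρ g = 1 := congrArg Subtype.val h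
    have h3 : M5 (g : Matrix I4 I4 F) = 1 := by
      rw [← hρ, h1]
      rfl
    exact eq_one_or_neg_one5 h2 g.2 h3
  have hker : Nat.card π.ker ≤ 2 := by
    have h11 : (1 : F) ≠ -1 := by
      intro h
      apply h2
      linear_combination h
    refine le_of_le_of_eq ?_ (Finset.card_pair h11)
    rw [← Fintype.card_coe, ← Nat.card_eq_fintype_card]
    have hk : ∀ g : π.ker, ((g : Matrix.symplecticGroup (Fin 2) F) : Matrix I4 I4 F) = 1 ∨
        ((g : Matrix.symplecticGroup (Fin 2) F) : Matrix I4 I4 F) = -1 :=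
      fun g => hπ1 _ g.2
    refine Nat.card_le_card_of_injective (fun g : π.ker =>
      (⟨((g : Matrix.symplecticGroup (Fin 2) F) : Matrix I4 I4 F) (.inl 0) (.inl 0), ?_⟩ :
        ({1, -1} : Finset F))) ?_
    · rcases hk g with h | h <;> rw [h] <;> simp
    · intro g g' hgg
      have h0 : ((g : Matrix.symplecticGroup (Fin 2) F) : Matrix I4 I4 F) (.inl 0) (.inl 0) =
          ((g' : Matrix.symplecticGroup (Fin 2) F) : Matrix I4 I4 F) (.inl 0) (.inl 0) :=
        congrArg Subtype.val hgg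
      apply Subtype.ext
      apply Subtype.ext
      rcases hk g with h | h <;> rcases hk g' with h' | h' <;> rw [h, h'] at h0 ⊢
      · exact absurd (by simpa using h0) h11
      · exact absurd (by simpa using h0.symm) h11
  have hsurj : Function.Surjective π := by
    apply surjective_of_card_le π _ hker
    have hS := Cfsg.Agent.S0245.result (F := F) rfl 2
    have hO := Cfsg.Agent.S0286.result (F := F) rfl hodd 2
    have hΩ := Subgroup.card_mul_index (Cfsg.Omega F (Cfsg.quadFormOdd 2 F))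
    rw [hindex4, hO, mul_assoc] at hΩ
    rw [hS]
    generalize Fintype.card F ^ 2 ^ 2 * ∏ i ∈ Finset.range 2, (Fintype.card F ^ (2 * (i + 1)) - 1) = N at *
    omega
  obtain ⟨e1⟩ := quotient_center_equiv π hsurj
    (Subgroup.center (Matrix.symplecticGroup (Fin 2) F))
    (fun x => ⟨fun hx x' => by rw [Subgroup.mem_center_iff.1 hx x'], fun hx => by
      apply Sp_mem_center_of_commute_up_to 2 (by norm_num)
      intro w c
      let t : Matrix.symplecticGroup (Fin 2) F :=
        ⟨Cfsg.sympTransvection 2 w c, Cfsg.Agent.Lib.Helper17.sympTransvection_mem 2 w _⟩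
      have h6 : π ((t * x)⁻¹ * (x * t)) = 1 := by
        rw [map_mul, map_inv, hx, inv_mul_cancel]
      have h7 : x * t = (t * x) * ((t * x)⁻¹ * (x * t)) := by group
      have h7' : (x : Matrix I4 I4 F) * (t : Matrix I4 I4 F) =
          ((t : Matrix I4 I4 F) * (x : Matrix I4 I4 F)) *
            (((t * x)⁻¹ * (x * t) : Matrix.symplecticGroup (Fin 2) F) : Matrix I4 I4 F) :=
        congrArg Subtype.val h7
      show ∃ r : F, (x : Matrix I4 I4 F) * (t : Matrix I4 I4 F) =
        r • ((t : Matrix I4 I4 F) * (x : Matrix I4 I4 F))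
      rw [h7']
      rcases hπ1 _ h6 with h8 | h8
      · exact ⟨1, by rw [h8, mul_one, one_smul]⟩
      · refine ⟨-1, ?_⟩
        rw [h8]
        simp⟩)
  exact ⟨e1⟩

end Cfsg.Agent.S0301
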