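import Cfsg.Statements.S0302
import Cfsg.Agent.S0287
import Cfsg.Agent.Lib.Helper6.OmegaIso2
import Cfsg.Agent.Lib.Helper6.OmegaIso3
import Cfsg.Agent.Lib.Helper6.Klein
import Cfsg.Agent.Lib.Helper6.SLCard
import Cfsg.Agent.Lib.Helper6.IsomTransport
import Cfsg.Agent.Lib.Helper18.OrthOmega
import Cfsg.Agent.Lib.Helper49.HypPairs
import Cfsg.Agent.Lib.Helper49.OmegaCrit

set_option autoImplicit false
open Cfsg

namespace Cfsg.Agent.S0302

open Cfsg.Agent.Lib.Helper6 Cfsg.Agent.Lib.Helper6.Klein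

noncomputable def rho0 {F : Type*} [Field F] :
    Matrix.SpecialLinearGroup (Fin 4) F →* Matrix I6 I6 F where
  toFun g := MM (g : Matrix (Fin 4) (Fin 4) F)
  map_one' := by rw [Matrix.SpecialLinearGroup.coe_one, MM_one]
  map_mul' g h := by rw [Matrix.SpecialLinearGroup.coe_mul, MM_mul]

theorem card_SL4 {F : Type*} [Field F] [Fintype F] :
    Nat.card (Matrix.SpecialLinearGroup (Fin 4) F) =
      Fintype.card F ^ 6 * (Fintype.card F ^ 4 - 1) * (Fintype.card F ^ 3 - 1) *
        (Fintype.card F ^ 2 - 1) := by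
  have hS := card_SL_field (F := F) 4 (by norm_num)
  have hq1 : 1 < Fintype.card F := Fintype.one_lt_card
  set q := Fintype.card F
  simp only [Fin.prod_univ_four, Fin.val_zero, Fin.val_one, pow_zero, pow_one] at hS
  apply Nat.eq_of_mul_eq_mul_left (show 0 < q - 1 by omega)
  rw [hS]
  have e1 : q ^ 4 - q = q * (q ^ 3 - 1) := by
    rw [Nat.mul_sub, mul_one]; congr 1; ring
  have e2 : q ^ 4 - q ^ ((2 : Fin 4) : ℕ) = q ^ 2 * (q ^ 2 - 1) := by
    rw [Nat.mul_sub, mul_one]; congr 1; ring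
  have e3 : q ^ 4 - q ^ ((3 : Fin 4) : ℕ) = q ^ 3 * (q - 1) := by
    rw [Nat.mul_sub, mul_one]; congr 1
  rw [e1, e2, e3]
  ring

/-- PΩ^+_6(q) is isomorphic to PSL_4(q). -/
theorem result {F : Type*} [Field F] [Fintype F] : Nonempty (Cfsg.POmega F (Cfsg.quadFormPlus 3 F) ≃* Matrix.ProjectiveSpecialLinearGroup (Fin 4) F) := by
  classical
  set q := Fintype.card F with hq
  have hq1 : 1 < q := Fintype.one_lt_card
  let ρ : Matrix.SpecialLinearGroup (Fin 4) F →*
      Cfsg.isometryGroup F (Cfsg.quadFormPlus 3 F) :=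
    homIsometry (RingEquiv.refl F) (Cfsg.quadFormPlus 3 F) (Cfsg.quadFormPlus 3 F)
      (fun _ => rfl) rho0 MM_pres
  have hρ : ∀ g, ((ρ g : Matrix.GeneralLinearGroup I6 F) : Matrix I6 I6 F) =
      MM (g : Matrix (Fin 4) (Fin 4) F) := fun g => rfl
  have hindex4 : (2 : F) ≠ 0 → (Cfsg.Omega F (Cfsg.quadFormPlus 3 F)).index = 4 := by
    intro h2
    have := Cfsg.Agent.Lib.Helper18.index_commutator (Cfsg.Agent.Lib.Helper49.plusQF 3 F) h2
      (Cfsg.Agent.Lib.Helper49.plusQF_nondegenerate 3 F) (by simp)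
    rw [Cfsg.Agent.Lib.Helper49.plusQF_coe] at this
    exact this
  have hindex2 : (2 : F) = 0 → (Cfsg.Omega F (Cfsg.quadFormPlus 3 F)).index = 2 := by
    intro h2
    have := Cfsg.Agent.Lib.Helper49.index_Omega_char_two (Cfsg.Agent.Lib.Helper49.plusQF 3 F) h2
      (Cfsg.Agent.Lib.Helper49.plusQF_nondegenerate 3 F) (Or.inr (by simp))
    rw [Cfsg.Agent.Lib.Helper49.plusQF_coe] at this
    exact this
  have hmem : ∀ x, ρ x ∈ Cfsg.Omega F (Cfsg.quadFormPlus 3 F) := by
    intro x
    apply map_mem_commutator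
    rw [commutator_SL_eq_top (by simp)]
    trivial
  let π : Matrix.SpecialLinearGroup (Fin 4) F →*
      Cfsg.Omega F (Cfsg.quadFormPlus 3 F) := ρ.codRestrict _ hmem
  have hπ1 : ∀ g, π g = 1 → (g : Matrix (Fin 4) (Fin 4) F) = 1 ∨
      (g : Matrix (Fin 4) (Fin 4) F) = -1 := by
    intro g h
    have h1 : ρ g = 1 := congrArg Subtype.val h
    have h2 : MM (g : Matrix (Fin 4) (Fin 4) F) = 1 := by
      rw [← hρ, h1]
      rfl
    exact eq_one_or_neg_one _ h2
  have hker : Nat.card π.ker ≤ ({1, -1} : Finset F).card := by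
    rw [← Fintype.card_coe, ← Nat.card_eq_fintype_card]
    have hk : ∀ g : π.ker, ((g : Matrix.SpecialLinearGroup (Fin 4) F) : Matrix (Fin 4) (Fin 4) F) = 1 ∨
        ((g : Matrix.SpecialLinearGroup (Fin 4) F) : Matrix (Fin 4) (Fin 4) F) = -1 :=
      fun g => hπ1 _ g.2
    refine Nat.card_le_card_of_injective (fun g : π.ker =>
      (⟨((g : Matrix.SpecialLinearGroup (Fin 4) F) : Matrix (Fin 4) (Fin 4) F) 0 0, ?_⟩ :
        ({1, -1} : Finset F))) ?_
    · rcases hk g with h | h <;> rw [h] <;> simp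
    · intro g g' hgg
      have h0 : ((g : Matrix.SpecialLinearGroup (Fin 4) F) : Matrix (Fin 4) (Fin 4) F) 0 0 =
          ((g' : Matrix.SpecialLinearGroup (Fin 4) F) : Matrix (Fin 4) (Fin 4) F) 0 0 :=
        congrArg Subtype.val hgg
      apply Subtype.ext
      apply Subtype.ext
      rcases hk g with h | h <;> rcases hk g' with h' | h' <;> rw [h, h'] at h0 ⊢
      · have h11 : (-1 : F) = 1 := by simpa using h0.symm
        rw [← neg_one_smul F (1 : Matrix (Fin 4) (Fin 4) F), h11, one_smul]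
      · have h11 : (-1 : F) = 1 := by simpa using h0
        rw [← neg_one_smul F (1 : Matrix (Fin 4) (Fin 4) F), h11, one_smul]
  have hsurj : Function.Surjective π := by
    apply surjective_of_card_le π _ hker
    rw [card_SL4, ← hq]
    have hO := Cfsg.Agent.S0287.result (F := F) rfl 3 (by norm_num)
    have hΩ := Subgroup.card_mul_index (Cfsg.Omega F (Cfsg.quadFormPlus 3 F))
    have hO' : Nat.card ↥(Cfsg.isometryGroup F (Cfsg.quadFormPlus 3 F)) =
        2 * q ^ 6 * (q ^ 3 - 1) * ((q ^ 2 - 1) * (q ^ 4 - 1)) := by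
      refine hO.trans ?_
      simp [← hq, Finset.prod_range_succ]
    rw [hO'] at hΩ
    by_cases h2 : (2 : F) = 0
    · rw [hindex2 h2] at hΩ
      have h11 : (-1 : F) = 1 := by linear_combination -h2
      rw [h11]
      simp only [Finset.mem_singleton, Finset.insert_eq_of_mem, Finset.card_singleton, one_mul]
      have : Nat.card ↥(Cfsg.Omega F (Cfsg.quadFormPlus 3 F)) * 2 =
          (q ^ 6 * (q ^ 4 - 1) * (q ^ 3 - 1) * (q ^ 2 - 1)) * 2 := by
        rw [hΩ]
        ring
      omega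
    · rw [hindex4 h2] at hΩ
      have h11 : (1 : F) ≠ -1 := by
        intro h
        apply h2
        linear_combination h
      rw [Finset.card_pair h11]
      have : Nat.card ↥(Cfsg.Omega F (Cfsg.quadFormPlus 3 F)) * 4 =
          (q ^ 6 * (q ^ 4 - 1) * (q ^ 3 - 1) * (q ^ 2 - 1)) * 2 := by
        rw [hΩ]
        ring
      omega
  obtain ⟨e1⟩ := quotient_center_equiv π hsurj
    (Subgroup.center (Matrix.SpecialLinearGroup (Fin 4) F))
    (fun x => ⟨fun hx x' => by rw [Subgroup.mem_center_iff.1 hx x'], fun hx => by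
      apply SL_mem_center_of_commute_up_to
      intro i j hij c
      have h6 : π ((Matrix.SpecialLinearGroup.transvection hij c * x)⁻¹ *
          (x * Matrix.SpecialLinearGroup.transvection hij c)) = 1 := by
        rw [map_mul, map_inv, hx, inv_mul_cancel]
      have h7 : x * Matrix.SpecialLinearGroup.transvection hij c =
          (Matrix.SpecialLinearGroup.transvection hij c * x) *
            ((Matrix.SpecialLinearGroup.transvection hij c * x)⁻¹ *
          (x * Matrix.SpecialLinearGroup.transvection hij c)) := by group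
      have h9 : Matrix.transvection i j c =
        ((Matrix.SpecialLinearGroup.transvection hij c : Matrix.SpecialLinearGroup (Fin 4) F) :
          Matrix (Fin 4) (Fin 4) F) := rfl
      rw [h9, ← Matrix.SpecialLinearGroup.coe_mul, ← Matrix.SpecialLinearGroup.coe_mul, h7,
        Matrix.SpecialLinearGroup.coe_mul (Matrix.SpecialLinearGroup.transvection hij c * x)]
      rcases hπ1 _ h6 with h8 | h8
      · exact ⟨1, by rw [h8, mul_one, one_smul]⟩
      · refine ⟨-1, ?_⟩
        rw [h8]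
        simp⟩)
  exact ⟨e1⟩

end Cfsg.Agent.S0302
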