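import Cfsg.Statements.S0304
import Cfsg.Agent.S0245
import Cfsg.Agent.S0286
import Cfsg.Agent.Lib.Helper50.QuadReindex

set_option autoImplicit false
open Cfsg
open Matrix QuadraticMap Cfsg.Agent.Lib.Helper50 Cfsg.Agent.Lib.Helper50.Quad
open Cfsg.Agent.S0286 (T T_apply)
open Cfsg.Agent.S0245 (stdB stdB_apply gram_entry)

namespace Cfsg.Agent.S0304

variable {F : Type*} [Field F] [CharP F 2]

/-- the index type -/
abbrev I (m : ℕ) : Type := (Fin m ⊕ Fin m) ⊕ Unit

theorem polarT (u v : Unit → F) : polar (T F) u v = 0 := by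
  simp only [polar, T_apply, Pi.add_apply]
  linear_combination (u () * v ()) * (CharTwo.two_eq_zero (R := F))

theorem stdB_eq (m : ℕ) (x y : Fin m ⊕ Fin m → F) :
    stdB m x y = ∑ i : Fin m, (x (.inl i) * y (.inr i) + y (.inl i) * x (.inr i)) := by
  rw [stdB_apply]
  simp only [dotProduct, mulVec, J, Fintype.sum_sum_type, fromBlocks_apply₁₁, fromBlocks_apply₁₂,
    fromBlocks_apply₂₁, fromBlocks_apply₂₂, Matrix.zero_apply, zero_mul, Finset.sum_const_zero, zero_add, add_zero,
    Matrix.neg_apply, one_apply, ite_mul, one_mul, Finset.sum_ite_eq,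
    Finset.mem_univ, if_true, CharTwo.neg_eq]
  rw [← Finset.sum_add_distrib]
  exact Finset.sum_congr rfl (fun i _ => by ring)

theorem polarQ (m : ℕ) (u v : (Fin m ⊕ Fin m) ⊕ Unit → F) :
    polar (Qgen m (T F)) u v = stdB m (fun s => u (.inl s)) (fun s => v (.inl s)) := by
  rw [Qgen_polar, polarT, add_zero, stdB_eq]

omit [CharP F 2] in
theorem polar_pres (m : ℕ) (g : Matrix.GeneralLinearGroup ((Fin m ⊕ Fin m) ⊕ Unit) F)
    (hg : g ∈ Cfsg.isometryGroup F (fun v => Qgen m (T F) v)) (u v : (Fin m ⊕ Fin m) ⊕ Unit → F) :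
    polar (Qgen m (T F)) ((g : Matrix (I m) (I m) F) *ᵥ u) ((g : Matrix (I m) (I m) F) *ᵥ v) = polar (Qgen m (T F)) u v := by
  rw [mem_isometryGroup_iff] at hg
  simp only [polar]
  rw [← mulVec_add, hg, hg, hg]

/-- an isometry fixes the radical vector -/
theorem col_inr (m : ℕ) (g : Matrix.GeneralLinearGroup ((Fin m ⊕ Fin m) ⊕ Unit) F)
    (hg : g ∈ Cfsg.isometryGroup F (fun v => Qgen m (T F) v)) :
    (g : Matrix (I m) (I m) F) *ᵥ Pi.single (Sum.inr ()) 1 = Pi.single (Sum.inr ()) 1 := by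
  set w := (g : Matrix (I m) (I m) F) *ᵥ Pi.single (Sum.inr ()) 1 with hw
  have h1 : ∀ v', polar (Qgen m (T F)) w v' = 0 := by
    intro v'
    have h2 : v' = (g : Matrix (I m) (I m) F) *ᵥ (((g⁻¹ : Matrix.GeneralLinearGroup (I m) F) : Matrix (I m) (I m) F) *ᵥ v') := by
      rw [mulVec_mulVec, ← Units.val_mul, mul_inv_cancel, Units.val_one, one_mulVec]
    rw [h2, hw, polar_pres m g hg, polar_comm, Qgen_polar_inr, polarT]
  have h3 : ∀ s : Fin m ⊕ Fin m, w (.inl s) = 0 := by
    rintro (i | i)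
    · rw [← Qgen_polar_inl_inr m (T F) w i, h1]
    · rw [← Qgen_polar_inl_inl m (T F) w i, h1]
  have h4 : Qgen m (T F) w = 1 := by
    rw [mem_isometryGroup_iff] at hg
    rw [hw, hg, Qgen_single_inr, T_apply]
    simp
  rw [Qgen_apply, T_apply] at h4
  simp only [h3, mul_zero, Finset.sum_const_zero, zero_add] at h4
  have h5 : w (.inr ()) = 1 := by
    have : (w (.inr ()) - 1) ^ 2 = 0 := by
      linear_combination h4 - (w (.inr ()) - 1) * (CharTwo.two_eq_zero (R := F))
    exact sub_eq_zero.1 (pow_eq_zero_iff two_ne_zero |>.1 this)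
  ext r
  rcases r with s | u
  · rw [h3]; simp
  · rw [h5]; simp

theorem entry_inr (m : ℕ) (g : Matrix.GeneralLinearGroup ((Fin m ⊕ Fin m) ⊕ Unit) F)
    (hg : g ∈ Cfsg.isometryGroup F (fun v => Qgen m (T F) v)) (s : Fin m ⊕ Fin m) (u : Unit) :
    (g : Matrix (I m) (I m) F) (.inl s) (.inr u) = 0 := by
  have := congrFun (col_inr m g hg) (.inl s)
  rw [mulVec_single_one] at this
  simpa using this

omit [CharP F 2] in
theorem mem_sp_iff (m : ℕ) (A : Matrix (Fin m ⊕ Fin m) (Fin m ⊕ Fin m) F) :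
    A ∈ symplecticGroup (Fin m) F ↔ ∀ s t, stdB m (fun r => A r s) (fun r => A r t) =
      stdB m (Pi.single s 1) (Pi.single t 1) := by
  have hJ : ∀ s t, J (Fin m) F s t = stdB m (Pi.single s 1) (Pi.single t 1) := by
    intro s t
    have := gram_entry m (1 : Matrix (Fin m ⊕ Fin m) (Fin m ⊕ Fin m) F) s t
    rw [transpose_one, one_mul, mul_one] at this
    rw [this]
    have e1 : ∀ c : Fin m ⊕ Fin m, (fun r => (1 : Matrix (Fin m ⊕ Fin m) (Fin m ⊕ Fin m) F) r c) = Pi.single c 1 := by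
      intro c; ext r; simp [one_apply, Pi.single_apply]
    rw [e1, e1]
  rw [SymplecticGroup.mem_iff']
  constructor
  · intro h s t
    rw [← gram_entry, h, hJ]
  · intro h
    ext s t
    rw [gram_entry, h, hJ]

omit [CharP F 2] in
theorem inl_single_inl (m : ℕ) (s : Fin m ⊕ Fin m) :
    (fun r : Fin m ⊕ Fin m => (Pi.single (Sum.inl s) (1 : F) : (Fin m ⊕ Fin m) ⊕ Unit → F) (.inl r)) =
      Pi.single s 1 := by
  ext r; simp [Pi.single_apply]

theorem block_mem (m : ℕ) (g : Matrix.GeneralLinearGroup ((Fin m ⊕ Fin m) ⊕ Unit) F)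
    (hg : g ∈ Cfsg.isometryGroup F (fun v => Qgen m (T F) v)) :
    (g : Matrix (I m) (I m) F).toBlocks₁₁ ∈ symplecticGroup (Fin m) F := by
  rw [mem_sp_iff]
  intro s t
  have h := polar_pres m g hg (Pi.single (.inl s) 1) (Pi.single (.inl t) 1)
  rw [polarQ, polarQ, mulVec_single_one, mulVec_single_one, inl_single_inl, inl_single_inl] at h
  exact h

/-- the homomorphism onto the symplectic group -/
def Φ (m : ℕ) : Cfsg.isometryGroup F (fun v => Qgen m (T F) v) →* symplecticGroup (Fin m) F where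
  toFun g := ⟨((g : Matrix.GeneralLinearGroup (I m) F) : Matrix (I m) (I m) F).toBlocks₁₁, block_mem m g.1 g.2⟩
  map_one' := by
    apply Subtype.ext
    ext r c
    simp [toBlocks₁₁, one_apply]
  map_mul' g g' := by
    apply Subtype.ext
    ext r c
    simp only [toBlocks₁₁, Subgroup.coe_mul, Units.val_mul, Matrix.mul_apply, Fintype.sum_sum_type, of_apply,
      Submonoid.coe_mul, entry_inr m g.1 g.2, zero_mul, Finset.sum_const_zero, add_zero]

omit [CharP F 2] in
theorem row_sq (m : ℕ) (g : Matrix.GeneralLinearGroup (I m) F)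
    (hg : g ∈ Cfsg.isometryGroup F (fun v => Qgen m (T F) v)) (c : Fin m ⊕ Fin m) :
    ∑ i : Fin m, (g : Matrix (I m) (I m) F) (.inl (.inl i)) (.inl c) * (g : Matrix (I m) (I m) F) (.inl (.inr i)) (.inl c)
      + (g : Matrix (I m) (I m) F) (.inr ()) (.inl c) * (g : Matrix (I m) (I m) F) (.inr ()) (.inl c) = 0 := by
  rw [mem_isometryGroup_iff] at hg
  have h := hg (Pi.single (.inl c) 1)
  rw [mulVec_single_one, Qgen_single_inl, Qgen_apply, T_apply] at h
  exact h

theorem Φ_injective (m : ℕ) : Function.Injective (Φ (F := F) m) := by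
  intro g g' h
  have hb : ∀ r c, ((g : Matrix.GeneralLinearGroup (I m) F) : Matrix (I m) (I m) F) (.inl r) (.inl c) =
      ((g' : Matrix.GeneralLinearGroup (I m) F) : Matrix (I m) (I m) F) (.inl r) (.inl c) := by
    intro r c
    exact congrFun (congrFun (congrArg Subtype.val h) r) c
  apply Subtype.ext
  apply Units.ext
  ext r c
  rcases c with c | u
  · rcases r with r | u
    · exact hb r c
    · have h1 := row_sq m g.1 g.2 c
      have h2 := row_sq m g'.1 g'.2 c
      simp only [hb] at h1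
      set x := ((g : Matrix.GeneralLinearGroup (I m) F) : Matrix (I m) (I m) F) (.inr ()) (.inl c)
      set y := ((g' : Matrix.GeneralLinearGroup (I m) F) : Matrix (I m) (I m) F) (.inr ()) (.inl c)
      have h3 : (x - y) ^ 2 = 0 := by
        linear_combination h1 - h2 + (y * y - x * y) * (CharTwo.two_eq_zero (R := F))
      exact sub_eq_zero.1 (pow_eq_zero_iff two_ne_zero |>.1 h3)
  · have h1 := congrFun (col_inr m g.1 g.2) r
    have h2 := congrFun (col_inr m g'.1 g'.2) r
    rw [mulVec_single_one] at h1 h2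
    exact h1.trans h2.symm

theorem Φ_surjective [Fintype F] (m : ℕ) : Function.Surjective (Φ (F := F) m) := by
  rintro ⟨A, hA⟩
  have hsq : ∀ c : Fin m ⊕ Fin m, ∃ l : F, l * l = ∑ i : Fin m, A (.inl i) c * A (.inr i) c := by
    intro c
    obtain ⟨l, hl⟩ := FiniteField.isSquare_of_char_two (ringChar.eq F 2) (∑ i : Fin m, A (.inl i) c * A (.inr i) c)
    exact ⟨l, hl.symm⟩
  choose l hl using hsq
  let G : Matrix (I m) (I m) F := fromBlocks A 0 (Matrix.of (fun _ c => l c)) 1
  let x : I m → (I m → F) := fun c r => G r c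
  have hx0 : x (.inr ()) = Pi.single (.inr ()) 1 := by
    ext r
    rcases r with r | u
    · have : x (.inr ()) (.inl r) = 0 := rfl
      rw [this]; simp
    · have : x (.inr ()) (.inr u) = 1 := rfl
      rw [this]; simp
  have hxl : ∀ c, (fun r => x (.inl c) (.inl r)) = fun r => A r c := by
    intro c; rfl
  have hx1 : ∀ s, Qgen m (T F) (x s) = Qgen m (T F) (Pi.single s 1) := by
    rintro (c | u)
    · rw [Qgen_single_inl, Qgen_apply, T_apply]
      change ∑ i : Fin m, A (.inl i) c * A (.inr i) c + l c * l c = 0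
      rw [hl]
      linear_combination (∑ i : Fin m, A (.inl i) c * A (.inr i) c) * (CharTwo.two_eq_zero (R := F))
    · rw [hx0]
  have hx2 : ∀ s t, polar (Qgen m (T F)) (x s) (x t) = polar (Qgen m (T F)) (Pi.single s 1) (Pi.single t 1) := by
    rw [mem_sp_iff] at hA
    rintro (c | u) (c' | u')
    · rw [polarQ, polarQ, hxl, hxl, hA, inl_single_inl, inl_single_inl]
    · rw [hx0, Qgen_polar_inr, Qgen_polar_inr, polarT, polarT]
    · rw [hx0, polar_comm, polar_comm _ (Pi.single (Sum.inr ()) 1), Qgen_polar_inr, Qgen_polar_inr, polarT, polarT]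
    · rw [hx0]
  have hpres : ∀ u, Qgen m (T F) (G *ᵥ u) = Qgen m (T F) u := by
    intro u
    rw [Quad.mulVec_eq_sum]
    conv_rhs => rw [eq_sum_single u]
    exact map_sum_eq _ _ x (fun s => Pi.single s 1) hx1 hx2 u Finset.univ
  have hu : IsUnit G := by
    rw [Matrix.isUnit_iff_isUnit_det]
    simp only [G]
    rw [Matrix.det_fromBlocks_zero₁₂, det_one, mul_one]
    exact SymplecticGroup.symplectic_det hA
  refine ⟨⟨hu.unit, ?_⟩, ?_⟩
  · rw [mem_isometryGroup_iff]
    exact hpres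
  · apply Subtype.ext
    exact toBlocks_fromBlocks₁₁ _ _ _ _

/-- In characteristic 2, O_{2m+1}(q) is isomorphic to Sp_{2m}(q). -/
theorem result {F : Type*} [Field F] [Fintype F] [CharP F 2] (m : ℕ) : Nonempty (Cfsg.isometryGroup F (Cfsg.quadFormOdd m F) ≃* Matrix.symplecticGroup (Fin m) F) := by
  let R : Cfsg.isometryGroup F (Cfsg.quadFormOdd m F) ≃* Cfsg.isometryGroup F (fun v => Qgen m (T F) v) :=
    isoReindex (Equiv.sumComm Unit (Fin m ⊕ Fin m)) (Cfsg.quadFormOdd m F) (fun v => Qgen m (T F) v)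
    (fun v => by
      rw [Qgen_apply, T_apply, add_comm, ← _root_.sq]
      rfl)
  exact ⟨R.trans (MulEquiv.ofBijective (Φ m) ⟨Φ_injective m, Φ_surjective m⟩)⟩

end Cfsg.Agent.S0304
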