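import Cfsg.Statements.S0305
import Cfsg.Agent.S0287
import Cfsg.Agent.Lib.Helper50.QuadReindex
import Cfsg.Agent.Lib.Helper59.TwoGroupRecog

set_option autoImplicit false
open Cfsg
open Matrix Cfsg.Agent.Lib.Helper50 Cfsg.Agent.Lib.Helper50.Quad

namespace Cfsg.Agent.S0305

variable {F : Type*} [Field F]

/-- the hyperbolic form on `Fin 2 → F` -/
def N (s : Fin 2 → F) : F := s 0 * s 1

def Dm (x y : F) : Matrix (Fin 2) (Fin 2) F := !![x, 0; 0, y]

theorem Dm_mul (x y x' y' : F) : Dm x y * Dm x' y' = Dm (x * x') (y * y') := by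
  ext i j
  fin_cases i <;> fin_cases j <;> simp [Dm, Matrix.mul_apply, Fin.sum_univ_two]

theorem Dm_one : Dm (1 : F) 1 = 1 := by
  ext i j
  fin_cases i <;> fin_cases j <;> simp [Dm]

/-- the torus -/
def δ : Fˣ →* Cfsg.isometryGroup F (N (F := F)) where
  toFun l := ⟨⟨Dm (l : F) ((l⁻¹ : Fˣ) : F), Dm ((l⁻¹ : Fˣ) : F) (l : F), by
      rw [Dm_mul, ← Dm_one]; simp, by rw [Dm_mul, ← Dm_one]; simp⟩, by
    rw [mem_isometryGroup_iff]
    intro s
    change N (Dm (l : F) ((l⁻¹ : Fˣ) : F) *ᵥ s) = _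
    simp only [N, Dm, Matrix.mulVec, dotProduct, Fin.sum_univ_two]
    simp
    field_simp⟩
  map_one' := by
    apply Subtype.ext
    apply Units.ext
    simp [Dm_one]
  map_mul' l l' := by
    apply Subtype.ext
    apply Units.ext
    simp [Dm_mul, mul_comm]

theorem δ_coe (l : Fˣ) : (((δ l : Cfsg.isometryGroup F (N (F := F))) : Matrix.GeneralLinearGroup (Fin 2) F) :
    Matrix (Fin 2) (Fin 2) F) = Dm (l : F) ((l⁻¹ : Fˣ) : F) := rfl

theorem δ_injective : Function.Injective (δ (F := F)) := by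
  intro l l' h
  have h1 : Dm (l : F) ((l⁻¹ : Fˣ) : F) = Dm (l' : F) ((l'⁻¹ : Fˣ) : F) := by
    rw [← δ_coe, ← δ_coe, h]
  have h00 := congrFun (congrFun h1 0) 0
  simp [Dm] at h00
  exact Units.ext h00

def Bm : Matrix (Fin 2) (Fin 2) F := !![0, 1; 1, 0]

theorem Bm_mul : Bm * Bm = (1 : Matrix (Fin 2) (Fin 2) F) := by
  ext i j
  fin_cases i <;> fin_cases j <;> simp [Bm, Matrix.mul_apply, Fin.sum_univ_two]

def swp : Cfsg.isometryGroup F (N (F := F)) := ⟨⟨Bm, Bm, Bm_mul, Bm_mul⟩, by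
    rw [mem_isometryGroup_iff]
    intro s
    change N (Bm *ᵥ s) = _
    simp only [N, Bm, Matrix.mulVec, dotProduct, Fin.sum_univ_two]
    simp [mul_comm]⟩

/-- GO^+_2(q) is dihedral of order 2(q-1). -/
theorem result {F : Type*} [Field F] [Fintype F] {q : ℕ} (hF : Fintype.card F = q) : Nonempty (Cfsg.isometryGroup F (Cfsg.quadFormPlus 1 F) ≃* DihedralGroup (q - 1)) := by
  classical
  have hq2 : 1 < q := by rw [← hF]; exact Fintype.one_lt_card
  let R : Cfsg.isometryGroup F (Cfsg.quadFormPlus 1 F) ≃* Cfsg.isometryGroup F (N (F := F)) :=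
    isoReindex (finSumFinEquiv (m := 1) (n := 1)) _ _ (fun v => by
      simp only [N, Cfsg.quadFormPlus, Finset.univ_unique, Finset.sum_singleton]
      rfl)
  have hcard : Nat.card (Cfsg.isometryGroup F (N (F := F))) = 2 * (q - 1) := by
    rw [← Nat.card_congr R.toEquiv]
    have := Cfsg.Agent.S0287.result hF 1 le_rfl
    simpa using this
  obtain ⟨g, hg⟩ := IsCyclic.exists_ofOrder_eq_natCard (α := Fˣ)
  rw [Nat.card_eq_fintype_card, Fintype.card_units, hF] at hg
  let A : Cfsg.isometryGroup F (N (F := F)) := δ g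
  let B : Cfsg.isometryGroup F (N (F := F)) := swp
  have hA : orderOf A = q - 1 := by
    rw [← hg]
    exact orderOf_injective δ δ_injective g
  have hB : B * B = 1 := by
    apply Subtype.ext
    apply Units.ext
    exact Bm_mul
  have hBinv : B⁻¹ = B := (eq_inv_of_mul_eq_one_left hB).symm
  have hc : B * A * B⁻¹ = A⁻¹ := by
    rw [hBinv]
    apply eq_inv_of_mul_eq_one_left
    apply Subtype.ext
    apply Units.ext
    change Bm * Dm (g : F) ((g⁻¹ : Fˣ) : F) * Bm * Dm (g : F) ((g⁻¹ : Fˣ) : F) = 1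
    ext i j
    fin_cases i <;> fin_cases j <;> simp [Bm, Dm, Matrix.mul_apply, Fin.sum_univ_two]
  have hBA : B ∉ Subgroup.zpowers A := by
    intro hmem
    obtain ⟨k, hk⟩ := hmem
    have h1 : δ (g ^ k) = B := by rw [map_zpow]; exact hk
    have h2 : Dm ((g ^ k : Fˣ) : F) (((g ^ k)⁻¹ : Fˣ) : F) = Bm := by
      rw [← δ_coe, h1]; rfl
    have h00 := congrFun (congrFun h2 0) 0
    simp only [Dm, Bm, Matrix.of_apply, Matrix.cons_val_zero] at h00
    exact (g ^ k).ne_zero h00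
  have : Finite (Cfsg.isometryGroup F (N (F := F))) := Nat.finite_of_card_ne_zero (by rw [hcard]; omega)
  obtain ⟨D⟩ := Cfsg.Agent.Lib.Helper59.dihedral_recog (q - 1) (by omega) A B hA hB hc hBA hcard
  exact ⟨R.trans D⟩

end Cfsg.Agent.S0305
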