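import Cfsg.Statements.S0306
import Cfsg.Agent.S0288
import Cfsg.Agent.Lib.Helper50.QuadReindex
import Cfsg.Agent.Lib.Helper59.TwoGroupRecog

set_option autoImplicit false
open Cfsg
open Matrix Cfsg.Agent.Lib.Helper50 Cfsg.Agent.Lib.Helper50.Quad

namespace Cfsg.Agent.S0306

variable {F : Type*} [Field F]

/-- the binary form on `Fin 2 → F` -/
def N (a b : F) (s : Fin 2 → F) : F := s 0 ^ 2 + a * s 0 * s 1 + b * s 1 ^ 2

/-- multiplication matrix -/
def M (a b u v : F) : Matrix (Fin 2) (Fin 2) F := !![u, -b * v; v, u + a * v]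

theorem M_mul (a b u v u' v' : F) :
    M a b u v * M a b u' v' = M a b (u * u' - b * v * v') (u * v' + v * u' + a * v * v') := by
  ext i j
  fin_cases i <;> fin_cases j <;> simp [M, Matrix.mul_apply, Fin.sum_univ_two] <;> ring

theorem M_one (a b : F) : M a b 1 0 = 1 := by
  ext i j
  fin_cases i <;> fin_cases j <;> simp [M]

theorem N_M (a b u v : F) (s : Fin 2 → F) :
    N a b (M a b u v *ᵥ s) = (u ^ 2 + a * u * v + b * v ^ 2) * N a b s := by
  simp only [N, M, Matrix.mulVec, dotProduct, Fin.sum_univ_two]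
  simp
  ring

/-- rotation -/
def rot (a b u v : F) (h : u ^ 2 + a * u * v + b * v ^ 2 = 1) : Matrix.GeneralLinearGroup (Fin 2) F :=
  ⟨M a b u v, M a b (u + a * v) (-v), by
    rw [M_mul, ← M_one a b]; congr 1 <;> first | linear_combination h | ring, by
    rw [M_mul, ← M_one a b]; congr 1 <;> first | linear_combination h | ring⟩

theorem rot_mem (a b u v : F) (h : u ^ 2 + a * u * v + b * v ^ 2 = 1) :
    rot a b u v h ∈ Cfsg.isometryGroup F (N a b) := by
  rw [mem_isometryGroup_iff]
  intro s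
  change N a b (M a b u v *ᵥ s) = _
  rw [N_M, h, one_mul]

/-- the reflection matrix -/
def Bm (a : F) : Matrix (Fin 2) (Fin 2) F := !![1, a; 0, -1]

theorem Bm_mul (a : F) : Bm a * Bm a = 1 := by
  ext i j
  fin_cases i <;> fin_cases j <;> simp [Bm, Matrix.mul_apply, Fin.sum_univ_two]

def refl (a : F) : Matrix.GeneralLinearGroup (Fin 2) F := ⟨Bm a, Bm a, Bm_mul a, Bm_mul a⟩

theorem refl_mem (a b : F) : refl a ∈ Cfsg.isometryGroup F (N a b) := by
  rw [mem_isometryGroup_iff]
  intro s
  change N a b (Bm a *ᵥ s) = _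
  simp only [N, Bm, Matrix.mulVec, dotProduct, Fin.sum_univ_two]
  simp
  ring

theorem BMBM (a b u v : F) (h : u ^ 2 + a * u * v + b * v ^ 2 = 1) :
    Bm a * M a b u v * Bm a * M a b u v = 1 := by
  ext i j
  fin_cases i <;> fin_cases j <;> simp [Bm, M, Matrix.mul_apply, Fin.sum_univ_two] <;> first | linear_combination h | ring

theorem exists_rot_order [Fintype F] (a b : F)
    (hab : ∀ z₁ z₂ : F, z₁ ^ 2 + a * z₁ * z₂ + b * z₂ ^ 2 = 0 → z₁ = 0 ∧ z₂ = 0) :
    ∃ u v : F, u ^ 2 + a * u * v + b * v ^ 2 = 1 ∧ orderOf (M a b u v) = Fintype.card F + 1 := by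
  obtain ⟨K, _, _, _, h2⟩ := exists_quadratic_ext F
  obtain ⟨θ, hθ, hs, hp⟩ := exists_root_conj (K := K) h2 a b hab
  have hK := card_K h2
  have hθ2 : θ ^ 2 = - algebraMap F K a * θ - algebraMap F K b := by linear_combination θ * hs - hp
  let E := coordEquiv h2 θ hθ
  let f : K →* Matrix (Fin 2) (Fin 2) F :=
    { toFun := fun κ => M a b (E.symm κ).1 (E.symm κ).2
      map_one' := by
        have : E.symm 1 = (1, 0) := by
          rw [Equiv.symm_apply_eq]
          simp [E, coordEquiv_apply]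
        rw [this, M_one]
      map_mul' := by
        intro κ κ'
        rw [M_mul]
        have : E.symm (κ * κ') = ((E.symm κ).1 * (E.symm κ').1 - b * (E.symm κ).2 * (E.symm κ').2,
            (E.symm κ).1 * (E.symm κ').2 + (E.symm κ).2 * (E.symm κ').1 + a * (E.symm κ).2 * (E.symm κ').2) := by
          rw [Equiv.symm_apply_eq]
          have e1 : κ = algebraMap F K (E.symm κ).1 - algebraMap F K (E.symm κ).2 * θ := by
            rw [← coordEquiv_apply h2 θ hθ]; exact (E.apply_symm_apply κ).symm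
          have e2 : κ' = algebraMap F K (E.symm κ').1 - algebraMap F K (E.symm κ').2 * θ := by
            rw [← coordEquiv_apply h2 θ hθ]; exact (E.apply_symm_apply κ').symm
          simp only [E, coordEquiv_apply, map_sub, map_add, map_mul]
          simp only [E] at e1 e2
          conv_lhs => rw [e1, e2]
          linear_combination (algebraMap F K ((coordEquiv h2 θ hθ).symm κ).2 *
            algebraMap F K ((coordEquiv h2 θ hθ).symm κ').2) * hθ2
        rw [this] }
  have hf : Function.Injective f := by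
    intro κ κ' h
    have h00 := congrFun (congrFun h 0) 0
    have h10 := congrFun (congrFun h 1) 0
    simp [f, M] at h00 h10
    exact E.symm.injective (Prod.ext h00 h10)
  obtain ⟨g, hg⟩ := IsCyclic.exists_ofOrder_eq_natCard (α := Kˣ)
  rw [card_units_K hK] at hg
  have hq1 : Fintype.card F - 1 ≠ 0 := by
    have : 1 < Fintype.card F := Fintype.one_lt_card
    omega
  have hζ : orderOf (g ^ (Fintype.card F - 1)) = Fintype.card F + 1 := by
    rw [orderOf_pow_of_dvd hq1 (by rw [hg]; exact dvd_mul_right _ _), hg,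
      Nat.mul_div_cancel_left _ (Nat.pos_of_ne_zero hq1)]
  set ζ : K := ((g ^ (Fintype.card F - 1) : Kˣ) : K) with hζdef
  have hζ' : orderOf ζ = Fintype.card F + 1 := by rw [hζdef, orderOf_units, hζ]
  refine ⟨(E.symm ζ).1, (E.symm ζ).2, ?_, ?_⟩
  · have h3 := coordEquiv_norm h2 θ hθ a b hs hp (E.symm ζ)
    have h4 : coordEquiv h2 θ hθ (E.symm ζ) = ζ := E.apply_symm_apply ζ
    rw [h4, ← pow_succ', ← hζ', pow_orderOf_eq_one] at h3
    apply (algebraMap F K).injective
    rw [← h3, map_one]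
  · rw [← hζ']
    exact orderOf_injective f hf ζ

/-- GO^-_2(q) is dihedral of order 2(q+1). -/
theorem result {F : Type*} [Field F] [Fintype F] {q : ℕ} (hF : Fintype.card F = q) (a b : F) (hab : ∀ z₁ z₂ : F, z₁ ^ 2 + a * z₁ * z₂ + b * z₂ ^ 2 = 0 → z₁ = 0 ∧ z₂ = 0) : Nonempty (Cfsg.isometryGroup F (Cfsg.quadFormMinus 0 F a b) ≃* DihedralGroup (q + 1)) := by
  have hq2 : 1 < q := by rw [← hF]; exact Fintype.one_lt_card
  let e : (Fin 0 ⊕ Fin 0) ⊕ Fin 2 ≃ Fin 2 :=
    (Equiv.sumCongr (Equiv.sumEmpty (Fin 0) (Fin 0)) (Equiv.refl _)).trans (Equiv.emptySum (Fin 0) (Fin 2))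
  let R : Cfsg.isometryGroup F (Cfsg.quadFormMinus 0 F a b) ≃* Cfsg.isometryGroup F (N a b) :=
    isoReindex e _ _ (fun v => by
      simp only [N, Cfsg.quadFormMinus, Finset.univ_eq_empty, Finset.sum_empty, zero_add]
      rfl)
  have hcard : Nat.card (Cfsg.isometryGroup F (N a b)) = 2 * (q + 1) := by
    rw [← Nat.card_congr R.toEquiv]
    have := Cfsg.Agent.S0288.result hF 1 le_rfl a b hab
    simpa using this
  obtain ⟨u, v, huv, hord⟩ := exists_rot_order a b hab
  let A : Cfsg.isometryGroup F (N a b) := ⟨rot a b u v huv, rot_mem a b u v huv⟩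
  let B : Cfsg.isometryGroup F (N a b) := ⟨refl a, refl_mem a b⟩
  have hA : orderOf A = q + 1 := by
    rw [← hF, ← hord, ← Subgroup.orderOf_coe, ← orderOf_units]
    rfl
  have hB : B * B = 1 := by
    apply Subtype.ext
    apply Units.ext
    exact Bm_mul a
  have hBinv : B⁻¹ = B := (eq_inv_of_mul_eq_one_left hB).symm
  have hc : B * A * B⁻¹ = A⁻¹ := by
    rw [hBinv]
    apply eq_inv_of_mul_eq_one_left
    apply Subtype.ext
    apply Units.ext
    exact BMBM a b u v huv
  have hBA : B ∉ Subgroup.zpowers A := by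
    intro hmem
    obtain ⟨k, hk⟩ := hmem
    have hcomm : B * A = A * B := by
      rw [← hk]
      simp only
      rw [← _root_.zpow_add_one, ← _root_.zpow_one_add, add_comm]
    have h1 : A = A⁻¹ := by
      rw [← hc, hcomm, mul_inv_cancel_right]
    have h2 : A ^ 2 = 1 := by
      rw [pow_two]
      nth_rewrite 1 [h1]
      exact inv_mul_cancel A
    have h3 := orderOf_dvd_of_pow_eq_one h2
    rw [hA] at h3
    have := Nat.le_of_dvd (by norm_num) h3
    omega
  have : Finite (Cfsg.isometryGroup F (N a b)) := Nat.finite_of_card_ne_zero (by rw [hcard]; omega)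
  obtain ⟨D⟩ := Cfsg.Agent.Lib.Helper59.dihedral_recog (q + 1) (by omega) A B hA hB hc hBA hcard
  exact ⟨R.trans D⟩

end Cfsg.Agent.S0306
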