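import Cfsg.Statements.S0307
-- import your own Cfsg.Agent.* helpers here

set_option autoImplicit false
open Cfsg

namespace Cfsg.Agent.S0307

/-- PSL_n(q) is normal in PGL_n(q) with cyclic quotient of order gcd(n, q-1): the image of the natural map PSL_n → PGL_n is the kernel of a surjective homomorphism onto the cyclic group of that order. -/
theorem result {F : Type*} [Field F] [Fintype F] {q : ℕ} (hF : Fintype.card F = q) (n : ℕ) (hn : 1 ≤ n) : ∃ g : Matrix.ProjGenLinGroup (Fin n) F →* Multiplicative (ZMod (Nat.gcd n (q - 1))), Function.Surjective g ∧ g.ker = (Matrix.ProjectiveSpecialLinearGroup.toPGL : Matrix.ProjectiveSpecialLinearGroup (Fin n) F →* Matrix.ProjGenLinGroup (Fin n) F).range := by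
  classical
  have hne : Nonempty (Fin n) := ⟨⟨0, by omega⟩⟩
  let P : Subgroup Fˣ := (powMonoidHom n : Fˣ →* Fˣ).range
  let f : Matrix.GeneralLinearGroup (Fin n) F →* Fˣ ⧸ P :=
    (QuotientGroup.mk' P).comp Matrix.GeneralLinearGroup.det
  have hf : f.comp (Matrix.GeneralLinearGroup.scalar (Fin n)) = 1 := by
    ext u
    change (QuotientGroup.mk' P) (Matrix.GeneralLinearGroup.det
      (Matrix.GeneralLinearGroup.scalar (Fin n) u)) = 1
    rw [Matrix.GeneralLinearGroup.det_scalar, Fintype.card_fin, QuotientGroup.mk'_apply,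
      QuotientGroup.eq_one_iff]
    exact ⟨u, rfl⟩
  have hcyc : IsCyclic (Fˣ ⧸ P) :=
    isCyclic_of_surjective (QuotientGroup.mk' P) (QuotientGroup.mk'_surjective P)
  have hcard : Nat.card (Fˣ ⧸ P) = Nat.card (Multiplicative (ZMod (Nat.gcd n (q - 1)))) := by
    have h1 : Nat.card (Fˣ ⧸ P) = P.index := rfl
    rw [h1, IsCyclic.index_powMonoidHom_range, Nat.card_eq_fintype_card, Fintype.card_units, hF,
      Nat.gcd_comm]
    exact (Nat.card_zmod _).symm
  let e : Fˣ ⧸ P ≃* Multiplicative (ZMod (Nat.gcd n (q - 1))) := mulEquivOfCyclicCardEq hcard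
  refine ⟨e.toMonoidHom.comp (Matrix.ProjGenLinGroup.lift f hf), ?_, ?_⟩
  · apply e.surjective.comp
    intro y
    obtain ⟨u, rfl⟩ := QuotientGroup.mk'_surjective P y
    obtain ⟨A, rfl⟩ := Matrix.GeneralLinearGroup.det_surjective (n := Fin n) u
    exact ⟨Matrix.ProjGenLinGroup.mk A, rfl⟩
  · ext x
    induction x using Matrix.ProjGenLinGroup.induction_on with | mk A =>
    rw [MonoidHom.mem_ker]
    change e (Matrix.ProjGenLinGroup.lift f hf (Matrix.ProjGenLinGroup.mk A)) = 1 ↔ _
    rw [map_eq_one_iff e e.injective, Matrix.ProjGenLinGroup.lift_mk]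
    change (QuotientGroup.mk' P) (Matrix.GeneralLinearGroup.det A) = 1 ↔ _
    rw [QuotientGroup.mk'_apply, QuotientGroup.eq_one_iff]
    constructor
    · rintro ⟨u, hu⟩
      have hu' : u ^ n = Matrix.GeneralLinearGroup.det A := hu
      have hdet : Matrix.GeneralLinearGroup.det
          (A * Matrix.GeneralLinearGroup.scalar (Fin n) u⁻¹) = 1 := by
        rw [map_mul, Matrix.GeneralLinearGroup.det_scalar, Fintype.card_fin, ← hu', inv_pow,
          mul_inv_cancel]
      have hdet' : (A * Matrix.GeneralLinearGroup.scalar (Fin n) u⁻¹ :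
          Matrix.GeneralLinearGroup (Fin n) F).1.det = 1 := by
        have := congrArg Units.val hdet
        simpa using this
      obtain ⟨S, hS⟩ : ∃ S : Matrix.SpecialLinearGroup (Fin n) F,
          (S : Matrix (Fin n) (Fin n) F) = (A * Matrix.GeneralLinearGroup.scalar (Fin n) u⁻¹ :
          Matrix.GeneralLinearGroup (Fin n) F).1 := ⟨⟨_, hdet'⟩, rfl⟩
      refine ⟨QuotientGroup.mk S, ?_⟩
      rw [Matrix.ProjectiveSpecialLinearGroup.toPGL_mk, Matrix.ProjGenLinGroup.mk_eq_mk_iff]
      refine ⟨u, ?_⟩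
      apply Units.ext
      have h3 : ((A * Matrix.GeneralLinearGroup.scalar (Fin n) u⁻¹ *
          Matrix.GeneralLinearGroup.scalar (Fin n) u : Matrix.GeneralLinearGroup (Fin n) F) :
          Matrix (Fin n) (Fin n) F) = A := by
        rw [mul_assoc, ← map_mul, inv_mul_cancel, map_one, mul_one]
      rw [← h3, Units.val_mul, Units.val_mul (A * _), ← hS]
      rfl
    · rintro ⟨X, hX⟩
      induction X using QuotientGroup.induction_on with | H S =>
      rw [Matrix.ProjectiveSpecialLinearGroup.toPGL_mk, Matrix.ProjGenLinGroup.mk_eq_mk_iff] at hX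
      obtain ⟨u, hu⟩ := hX
      have h1 := congrArg Matrix.GeneralLinearGroup.det hu
      rw [map_mul, Matrix.GeneralLinearGroup.det_scalar, Fintype.card_fin] at h1
      have h2 : Matrix.GeneralLinearGroup.det (Matrix.SpecialLinearGroup.toGL S) = 1 := by
        ext
        simp
      rw [h2, one_mul] at h1
      exact ⟨u, h1⟩

end Cfsg.Agent.S0307
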