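import Cfsg.Statements.S0321
import Cfsg.Agent.Lib.Helper8.BNPar

set_option autoImplicit false
open Cfsg

namespace Cfsg.Agent.S0321

/-- For `n ∈ N` not in `B`, the union `B ∪ B n B` is (the underlying set of) a subgroup exactly when `n` agrees
modulo `B ⊓ N` with one of the distinguished representatives; thus the distinguished involutions are
determined by `B` and `N`. -/
theorem result {G : Type*} [Group G] (P : Cfsg.BNPair G) {n : G}
    (hn : n ∈ P.N) (hnB : n ∉ P.B) :
    (∃ H : Subgroup G, (H : Set G) = (P.B : Set G) ∪ DoubleCoset.doubleCoset n (P.B : Set G) P.B) ↔ ∃ s ∈ P.S, s⁻¹ * n ∈ P.B := by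
  constructor
  · rintro ⟨H, hH⟩
    have hBH : P.B ≤ H := by
      intro b hb
      have : b ∈ (H : Set G) := by rw [hH]; exact Or.inl hb
      exact this
    have hnH : n ∈ H := by
      have : n ∈ (H : Set G) := by rw [hH]; exact Or.inr (Cfsg.Agent.Lib.Helper8.DC_self n)
      exact this
    have h1 := Cfsg.Agent.Lib.Helper8.eq_parabolic_of_le hBH
    by_cases hemp : (P.S ∩ (H : Set G)).Nonempty
    · obtain ⟨s, hs, hsH⟩ := hemp
      refine ⟨s, hs, ?_⟩
      have h2 : s ∈ (P.B : Set G) ∪ DoubleCoset.doubleCoset n (P.B : Set G) P.B := by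
        rw [← hH]; exact hsH
      rcases h2 with h2 | h2
      · exact absurd h2 (Cfsg.Agent.Lib.Helper8.S_not_mem_B hs)
      · exact (Cfsg.Agent.Lib.Helper8.DC_eq_iff (P.subset hs) hn).1
          (Cfsg.Agent.Lib.Helper8.DC_eq_of_mem h2)
    · exfalso
      rw [Set.not_nonempty_iff_eq_empty] at hemp
      rw [hemp] at h1
      apply hnB
      have : n ∈ P.parabolic ∅ := h1 ▸ hnH
      simpa [Cfsg.BNPair.parabolic] using this
  · rintro ⟨s, hs, hsn⟩
    refine ⟨P.parabolic {s}, ?_⟩
    have hDC : DoubleCoset.doubleCoset n (P.B : Set G) P.B = DoubleCoset.doubleCoset s (P.B : Set G) P.B :=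
      (Cfsg.Agent.Lib.Helper8.DC_eq_of_inv_mul_mem hsn).symm
    rw [hDC]
    ext g
    have hJ : ({s} : Set G) ⊆ P.S := Set.singleton_subset_iff.2 hs
    constructor
    · intro hg
      obtain ⟨m, hm, hgm⟩ := (Cfsg.Agent.Lib.Helper8.mem_parabolic_iff hJ g).1 hg
      have key : ∀ m ∈ Subgroup.closure ({s} : Set G), m ∈ P.B ∨ s⁻¹ * m ∈ P.B := by
        intro m hm
        induction hm using Subgroup.closure_induction_left with
        | one => exact Or.inl P.B.one_mem
        | mul_left x hx y _ ih =>
          rw [Set.mem_singleton_iff] at hx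
          subst hx
          rcases ih with ih | ih
          · right; simpa using ih
          · left
            have e : x * y = (x * x) * (x⁻¹ * y) := by group
            rw [e]; exact P.B.mul_mem (P.sq_mem x hs) ih
        | inv_mul_cancel x hx y _ ih =>
          rw [Set.mem_singleton_iff] at hx
          subst hx
          rcases ih with ih | ih
          · right
            have e : x⁻¹ * (x⁻¹ * y) = (x * x)⁻¹ * y := by group
            rw [e]; exact P.B.mul_mem (P.B.inv_mem (P.sq_mem x hs)) ih
          · left; exact ih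
      rcases key m hm with h1 | h1
      · left
        exact (Cfsg.Agent.Lib.Helper8.mem_DC_of_mem_B h1).1 hgm
      · right
        have e : DoubleCoset.doubleCoset s (P.B : Set G) P.B = DoubleCoset.doubleCoset m (P.B : Set G) P.B :=
          Cfsg.Agent.Lib.Helper8.DC_eq_of_inv_mul_mem h1
        rw [e]
        exact hgm
    · rintro (hg | hg)
      · exact Cfsg.Agent.Lib.Helper8.B_le_parabolic _ hg
      · exact (Cfsg.Agent.Lib.Helper8.mem_parabolic_iff hJ g).2
          ⟨s, Subgroup.subset_closure rfl, hg⟩

end Cfsg.Agent.S0321
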