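import Cfsg.Statements.S0322
import Cfsg.Agent.Lib.Helper8.BNBasic

set_option autoImplicit false
open Cfsg

namespace Cfsg.Agent.S0322

open Cfsg.Agent.Lib.Helper8

lemma closure_single {G : Type*} [Group G] (P : Cfsg.BNPair G) {s : G} (hs : s ∈ P.S) :
    ∀ m ∈ Subgroup.closure ({s} : Set G), m ∈ P.B ∨ s⁻¹ * m ∈ P.B := by
  intro m hm
  induction hm using Subgroup.closure_induction_left with
  | one => exact Or.inl P.B.one_mem
  | mul_left x hx y _ ih =>
    rw [Set.mem_singleton_iff] at hx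
    subst hx
    rcases ih with ih | ih
    · right; simpa using ih
    · left
      have e : x * y = (x * x) * (x⁻¹ * y) := by group
      rw [e]; exact P.B.mul_mem (P.sq_mem x hs) ih
  | inv_mul_cancel x hx y _ ih =>
    rw [Set.mem_singleton_iff] at hx
    subst hx
    rcases ih with ih | ih
    · right
      have e : x⁻¹ * (x⁻¹ * y) = (x * x)⁻¹ * y := by group
      rw [e]; exact P.B.mul_mem (P.B.inv_mem (P.sq_mem x hs)) ih
    · left; exact ih


/-- A group with a (B,N)-pair of rank one acts doubly transitively on the left cosets of `B`. -/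
theorem result {G : Type*} [Group G] (P : Cfsg.BNPair G) (h : P.rank = 1) : MulAction.IsMultiplyPretransitive G (G ⧸ P.B) 2 := by
  have hcard : Nat.card P.S = 1 := h
  rw [Nat.card_eq_one_iff_unique] at hcard
  obtain ⟨hsub, ⟨s⟩⟩ := hcard
  have hS : P.S = {(s : G)} := by
    ext t
    constructor
    · intro ht
      have : (⟨t, ht⟩ : P.S) = s := Subsingleton.elim _ _
      exact congrArg Subtype.val this
    · rintro rfl; exact s.2
  have key : ∀ g : G, g ∉ P.B → g ∈ DC P (s : G) := by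
    intro g hg
    obtain ⟨n, hn, hgn⟩ := bruhat_exists (P := P) g
    rw [hS] at hn
    rcases closure_single P s.2 n hn with h1 | h1
    · exact absurd ((mem_DC_of_mem_B h1).1 hgn) hg
    · rw [DC_eq_of_inv_mul_mem h1]; exact hgn
  rw [MulAction.is_two_pretransitive_iff]
  intro a b c d hab hcd
  induction a using QuotientGroup.induction_on with
  | H x =>
  induction b using QuotientGroup.induction_on with
  | H y =>
  induction c using QuotientGroup.induction_on with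
  | H z =>
  induction d using QuotientGroup.induction_on with
  | H u =>
  have h1 : x⁻¹ * y ∉ P.B := fun hh => hab (QuotientGroup.eq.2 hh)
  have h2 : z⁻¹ * u ∉ P.B := fun hh => hcd (QuotientGroup.eq.2 hh)
  obtain ⟨b₁, hb₁, b₂, hb₂, e₁⟩ := mem_DC.1 (key _ h1)
  obtain ⟨c₁, hc₁, c₂, hc₂, e₂⟩ := mem_DC.1 (key _ h2)
  refine ⟨z * c₁ * b₁⁻¹ * x⁻¹, ?_, ?_⟩
  · show ((z * c₁ * b₁⁻¹ * x⁻¹ * x : G) : G ⧸ P.B) = z
    rw [QuotientGroup.eq]
    have e : (z * c₁ * b₁⁻¹ * x⁻¹ * x)⁻¹ * z = b₁ * c₁⁻¹ := by group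
    rw [e]; exact P.B.mul_mem hb₁ (P.B.inv_mem hc₁)
  · show ((z * c₁ * b₁⁻¹ * x⁻¹ * y : G) : G ⧸ P.B) = u
    rw [QuotientGroup.eq]
    have e : (z * c₁ * b₁⁻¹ * x⁻¹ * y)⁻¹ * u = (x⁻¹ * y)⁻¹ * b₁ * c₁⁻¹ * (z⁻¹ * u) := by group
    rw [e, e₁, e₂]
    have e' : (b₁ * (s : G) * b₂)⁻¹ * b₁ * c₁⁻¹ * (c₁ * (s : G) * c₂) = b₂⁻¹ * c₂ := by group
    rw [e']; exact P.B.mul_mem (P.B.inv_mem hb₂) hc₂

end Cfsg.Agent.S0322
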