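import Cfsg.Statements.S0323
import Mathlib

set_option autoImplicit false
open scoped Pointwise
open Cfsg

namespace Cfsg.Agent.S0323

lemma mem_stab_pair {G Ω : Type*} [Group G] [MulAction G Ω] {x y : Ω} {g : G} :
    g ∈ MulAction.stabilizer G ({x, y} : Set Ω) ↔
      (g • x = x ∧ g • y = y) ∨ (g • x = y ∧ g • y = x) := by
  rw [MulAction.mem_stabilizer_iff, Set.smul_set_insert, Set.smul_set_singleton,
    Set.pair_eq_pair_iff]


/-- A doubly transitive action on a set with at least three points yields a (B,N)-pair of rank one: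
`B` is the stabiliser of a point `x`, `N` the setwise stabiliser of a pair `{x, y}`. -/
theorem result {G Ω : Type*} [Group G] [MulAction G Ω]
    (h2 : MulAction.IsMultiplyPretransitive G Ω 2) {x y z : Ω} (hxy : x ≠ y) (hyz : y ≠ z) (hxz : x ≠ z) :
    ∃ P : Cfsg.BNPair G, P.B = MulAction.stabilizer G x ∧
      P.N = MulAction.stabilizer G ({x, y} : Set Ω) ∧ P.rank = 1 := by
  have h2' : ∀ {a b c d : Ω} (_ : a ≠ b) (_ : c ≠ d), ∃ g : G, g • a = c ∧ g • b = d :=
    (MulAction.is_two_pretransitive_iff (G := G) (α := Ω)).1 h2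
  obtain ⟨s, hsx, hsy⟩ := h2' hxy hxy.symm
  have hsN : s ∈ MulAction.stabilizer G ({x, y} : Set Ω) := mem_stab_pair.2 (Or.inr ⟨hsx, hsy⟩)
  have hsix : s⁻¹ • x = y := by rw [inv_smul_eq_iff, hsy]
  refine ⟨{ B := MulAction.stabilizer G x
            N := MulAction.stabilizer G ({x, y} : Set Ω)
            S := {s}
            sup_eq_top := ?_
            conj_mem := ?_
            subset := ?_
            sq_mem := ?_
            inj := ?_
            closure_sup := ?_
            mul_mem_union := ?_
            conj_ne := ?_ }, rfl, rfl, ?_⟩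
  · rw [eq_top_iff]
    intro g _
    by_cases hg : g • x = x
    · exact (le_sup_left : MulAction.stabilizer G x ≤ _) hg
    · obtain ⟨b, hbx, hbg⟩ := h2' (Ne.symm hg) hxy
      have h3 : s * b * g ∈ MulAction.stabilizer G x := by
        rw [MulAction.mem_stabilizer_iff, mul_smul, mul_smul, hbg, hsy]
      have e : g = b⁻¹ * s⁻¹ * (s * b * g) := by group
      rw [e]
      refine Subgroup.mul_mem _ (Subgroup.mul_mem _ ?_ ?_) ?_
      · exact (le_sup_left : MulAction.stabilizer G x ≤ _) (Subgroup.inv_mem _ hbx)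
      · exact (le_sup_right : MulAction.stabilizer G ({x, y} : Set Ω) ≤ _) (Subgroup.inv_mem _ hsN)
      · exact (le_sup_left : MulAction.stabilizer G x ≤ _) h3
  · rintro n hn t ⟨htB, htN⟩
    have htx : t • x = x := htB
    have hty : t • y = y := by
      rcases mem_stab_pair.1 htN with h | h
      · exact h.2
      · exact absurd (htx.symm.trans h.1) hxy
    have key : t • (n⁻¹ • x) = n⁻¹ • x := by
      rcases mem_stab_pair.1 (Subgroup.inv_mem _ hn) with h | h
      · rw [h.1, htx]
      · rw [h.1, hty]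
    rw [MulAction.mem_stabilizer_iff, mul_smul, mul_smul, key, smul_inv_smul]
  · intro s' hs'
    rw [Set.mem_singleton_iff] at hs'
    rw [hs']
    exact hsN
  · intro s' hs'
    rw [Set.mem_singleton_iff] at hs'
    rw [hs']
    rw [MulAction.mem_stabilizer_iff, mul_smul, hsx, hsy]
  · intro s' hs' s'' hs'' _
    rw [Set.mem_singleton_iff] at hs' hs''
    rw [hs', hs'']
  · apply le_antisymm
    · exact sup_le ((Subgroup.closure_le _).2 (Set.singleton_subset_iff.2 hsN)) inf_le_right
    · intro n hn
      rcases mem_stab_pair.1 hn with h | h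
      · exact (le_sup_right : MulAction.stabilizer G x ⊓ MulAction.stabilizer G ({x, y} : Set Ω) ≤ _)
          ⟨h.1, hn⟩
      · have e : n = s⁻¹ * (s * n) := by group
        rw [e]
        refine Subgroup.mul_mem _ ?_ ?_
        · exact (le_sup_left : Subgroup.closure {s} ≤ _)
            (Subgroup.inv_mem _ (Subgroup.subset_closure rfl))
        · refine (le_sup_right : MulAction.stabilizer G x ⊓ MulAction.stabilizer G ({x, y} : Set Ω) ≤ _)
            ⟨?_, Subgroup.mul_mem _ hsN hn⟩
          show s * n ∈ MulAction.stabilizer G x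
          rw [MulAction.mem_stabilizer_iff, mul_smul, h.1, hsy]
  · intro s' hs' n hn b hb
    rw [Set.mem_singleton_iff] at hs'
    rw [hs']
    have hbx : b • x = x := hb
    rcases mem_stab_pair.1 hn with h | h
    · left
      refine DoubleCoset.mem_doubleCoset.2 ⟨1, Subgroup.one_mem _, n⁻¹ * b * n, ?_, by group⟩
      show n⁻¹ * b * n ∈ MulAction.stabilizer G x
      rw [MulAction.mem_stabilizer_iff, mul_smul, mul_smul, h.1, hbx, inv_smul_eq_iff, h.1]
    · by_cases hg : (s * b * n) • x = x
      · left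
        refine DoubleCoset.mem_doubleCoset.2 ⟨(s * b * n) * (s * n)⁻¹, ?_, 1, Subgroup.one_mem _, by group⟩
        show (s * b * n) * (s * n)⁻¹ ∈ MulAction.stabilizer G x
        have h3 : (s * n) • x = x := by rw [mul_smul, h.1, hsy]
        rw [MulAction.mem_stabilizer_iff, mul_smul, inv_smul_eq_iff.2 h3.symm, hg]
      · right
        obtain ⟨b₁, hb₁x, hb₁y⟩ := h2' hxy (Ne.symm hg)
        refine DoubleCoset.mem_doubleCoset.2 ⟨b₁, hb₁x, (b₁ * n)⁻¹ * (s * b * n), ?_, by group⟩
        show (b₁ * n)⁻¹ * (s * b * n) ∈ MulAction.stabilizer G x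
        rw [MulAction.mem_stabilizer_iff, mul_smul, inv_smul_eq_iff, mul_smul b₁ n x, h.1, hb₁y]
  · intro s' hs' himg
    rw [Set.mem_singleton_iff] at hs'
    rw [hs'] at himg
    obtain ⟨b, hbx, hby⟩ := h2' hxy hxz
    have h3 : s * b * s ∈ ((MulAction.stabilizer G x : Subgroup G) : Set G) := by
      rw [← himg]; exact ⟨b, hbx, rfl⟩
    have h4 : (s * b * s) • x = x := h3
    rw [mul_smul, mul_smul, hsx, hby] at h4
    have h5 : z = s⁻¹ • x := by rw [← h4, inv_smul_smul]
    rw [hsix] at h5
    exact hyz h5.symm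
  · simp [Cfsg.BNPair.rank]

end Cfsg.Agent.S0323
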