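import Cfsg.Statements.S0333
import Cfsg.Agent.Lib.Helper8.SzTori

set_option autoImplicit false
open Cfsg

namespace Cfsg.Agent.S0333

/-- With `q = 2^(2m+1)` and `r = 2^m`, the Suzuki group has cyclic subgroups of orders `q + 2r + 1` and
`q - 2r + 1`; each is the centraliser of each of its non-identity elements and has index `4` in its normaliser. -/
theorem result {F : Type*} [Field F] [Fintype F] {m : ℕ} (hm : 1 ≤ m)
    (hF : Fintype.card F = 2 ^ (2 * m + 1)) :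
    ∀ k ∈ ({2 ^ (2 * m + 1) + 2 ^ (m + 1) + 1, 2 ^ (2 * m + 1) - 2 ^ (m + 1) + 1} : Set ℕ),
      ∃ U : Subgroup (Cfsg.Sz F m), IsCyclic U ∧ Nat.card U = k ∧
        (∀ u ∈ U, u ≠ 1 → Subgroup.centralizer {u} = U) ∧ Nat.card (Subgroup.normalizer (U : Set (Cfsg.Sz F m))) = 4 * k := by
  have := Cfsg.Agent.Lib.Helper8.charP_two_of_card hF
  obtain ⟨u₁, u₂, h₁, h₂, c₁, c₂, n₁, n₂, -⟩ := Cfsg.Agent.Lib.Helper8.tori_main hF hm
  rintro k (rfl | rfl)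
  · exact ⟨_, Cfsg.Agent.Lib.Helper8.cent_cyclic_fpf hF hm h₁, c₁,
      Cfsg.Agent.Lib.Helper8.isTor_of_fpf hF hm h₁, by rw [n₁, c₁]⟩
  · exact ⟨_, Cfsg.Agent.Lib.Helper8.cent_cyclic_fpf hF hm h₂, c₂,
      Cfsg.Agent.Lib.Helper8.isTor_of_fpf hF hm h₂, by rw [n₂, c₂]⟩

end Cfsg.Agent.S0333
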