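import Cfsg.Statements.S0354
import Cfsg.Agent.Lib.Helper10.Steiner2

set_option autoImplicit false
open Cfsg

namespace Cfsg.Agent.S0354

/-- In an S(5, 8, 24), each block is disjoint from exactly 30 blocks. -/
theorem result {α : Type*} [Fintype α] [DecidableEq α] (hα : Fintype.card α = 24) {B : Set (Finset α)} (hB : Cfsg.IsSteinerSystem 5 8 B) {b : Finset α} (hb : b ∈ B) : {c : Finset α | c ∈ B ∧ Disjoint b c}.ncard = 30 := by
  open Cfsg.Agent.Lib.Helper10 Finset in
  have hb8 : b.card = 8 := hB.1 b hb
  have m0 := momZ hα hB b 0 (by norm_num) 759 (by decide) (by decide)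
  have m1 := momZ hα hB b 1 (by norm_num) 253 (by decide) (by decide)
  have m2 := momZ hα hB b 2 (by norm_num) 77 (by decide) (by decide)
  have m3 := momZ hα hB b 3 (by norm_num) 21 (by decide) (by decide)
  have m4 := momZ hα hB b 4 (by norm_num) 5 (by decide) (by decide)
  rw [hb8] at m0 m1 m2 m3 m4
  have key := card_filter_eq_sum (blocksThrough B ∅) (fun d => Disjoint b d)
    (fun d => ((((d ∩ b).card).choose 0 : ℕ) : ℤ) - ((((d ∩ b).card).choose 1 : ℕ) : ℤ)
      + ((((d ∩ b).card).choose 2 : ℕ) : ℤ) - ((((d ∩ b).card).choose 3 : ℕ) : ℤ)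
      + ((((d ∩ b).card).choose 4 : ℕ) : ℤ) - (if d = b then 35 else 0))
    (by
      intro d hd
      by_cases hdb : d = b
      · subst hdb
        have : ¬ Disjoint d d := by
          rw [disjoint_self]
          intro h
          rw [bot_eq_empty] at h
          rw [h] at hb8; simp at hb8
        simp only [this, if_false, if_true, inter_self, hb8]
        decide
      · have h3 := steiner_inter_lt hB (mem_blocksThrough_empty.1 hd) hb hdb
        simp only [hdb, if_false, disjoint_iff_card_inter b d]
        generalize (d ∩ b).card = j at h3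
        interval_cases j <;> decide)
  rw [sum_sub_distrib, sum_add_distrib, sum_sub_distrib, sum_add_distrib, sum_sub_distrib,
    m0, m1, m2, m3, m4,
    sum_ite_eq' (blocksThrough B ∅) b (fun _ => (35 : ℤ)),
    if_pos (mem_blocksThrough_empty.2 hb)] at key
  rw [ncard_sep_eq_card_filter]
  have key2 : (((blocksThrough B ∅).filter (fun d => Disjoint b d)).card : ℤ) = 30 := by
    rw [key]; decide
  exact_mod_cast key2

end Cfsg.Agent.S0354
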