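import Cfsg.Statements.S0368
import Cfsg.Agent.Lib.Helper33.DodData
-- import your own Cfsg.Agent.* helpers here

set_option autoImplicit false
open scoped Pointwise
open Cfsg

namespace Cfsg.Agent.S0368

/-- The permutation group preserving the length-24 code is transitive on dodecads. -/
theorem result (d d' : Finset Cfsg.GolayPt) (hd : d ∈ Cfsg.dodecads) (hd' : d' ∈ Cfsg.dodecads) : ∃ g : Cfsg.M24, g • d = d' := by
  obtain ⟨a, ha⟩ := Cfsg.Agent.Lib.Helper33.dod_rank.trans d hd
  obtain ⟨b, hb⟩ := Cfsg.Agent.Lib.Helper33.dod_rank.trans d' hd'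
  exact ⟨b⁻¹ * a, by rw [mul_smul, ha, ← hb, inv_smul_smul]⟩

end Cfsg.Agent.S0368
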