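import Cfsg.Statements.S0375
import Cfsg.Agent.Lib.Helper10.Design24
import Cfsg.Agent.Lib.Helper10.Golay
import Cfsg.Agent.Lib.Helper9.GolayFacts
import Cfsg.Agent.Lib.Helper94.AbstractGolay
import Cfsg.Agent.S5622

set_option autoImplicit false
open Cfsg

namespace Cfsg.Agent.S0375

/-- A doubly even self-dual binary code of length 24 with no words of weight 4 is equivalent to the length-24 code built from the squares modulo 23. -/
theorem result (C : Submodule (ZMod 2) (Fin 24 → ZMod 2)) (hdim : Module.finrank (ZMod 2) C = 12) (horth : ∀ v ∈ C, ∀ w ∈ C, ∑ i, v i * w i = 0) (h4 : ∀ w ∈ C, 4 ∣ hammingNorm w) (hno4 : ∀ w ∈ C, hammingNorm w ≠ 4) : ∃ e : Fin 24 ≃ Cfsg.GolayPt, ∀ w : Cfsg.GolayPt → ZMod 2, w ∈ Cfsg.golayCode ↔ (fun i => w (e i)) ∈ C := by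
  have hmin : ∀ w ∈ C, w ≠ 0 → 8 ≤ hammingNorm w := by
    intro w hw hw0
    have h1 := h4 w hw
    have h2 := hno4 w hw
    have h3 : hammingNorm w ≠ 0 := by
      rw [Ne, hammingNorm_eq_zero]; exact hw0
    omega
  have hS := (Cfsg.Agent.S5622.result C hdim horth hmin).2
  obtain ⟨f, hf, hfo⟩ := Cfsg.Agent.Lib.Helper10.labelled24' (by simp) hS
  have hbij : Function.Bijective f := by
    rw [Fintype.bijective_iff_injective_and_card]
    exact ⟨hf, by simp [Cfsg.GolayPt]⟩
  let e : Fin 24 ≃ Cfsg.GolayPt := Equiv.ofBijective f hbij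
  let Φ : (Cfsg.GolayPt → ZMod 2) ≃ₗ[ZMod 2] (Fin 24 → ZMod 2) :=
    LinearEquiv.funCongrLeft (ZMod 2) (ZMod 2) e
  have hle : C.map (Φ.symm : (Fin 24 → ZMod 2) →ₗ[ZMod 2] (Cfsg.GolayPt → ZMod 2)) ≤
      Cfsg.golayCode := by
    rw [Submodule.map_le_iff_le_comap]
    conv_lhs => rw [← Cfsg.Agent.Lib.Helper94.span_octads C hdim hmin]
    rw [Submodule.span_le]
    rintro o ⟨ho, ho8⟩
    show Φ.symm o ∈ Cfsg.golayCode
    have hb : Cfsg.support₂ o ∈ Cfsg.wordsOfWeight (C : Set (Fin 24 → ZMod 2)) 8 := by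
      refine ⟨⟨o, ho, rfl⟩, ?_⟩
      rw [← ho8, Cfsg.Agent.Lib.Helper94.hammingNorm_eq_card_sp]
      rfl
    have h1 := (hfo _ hb).1
    rw [Cfsg.Agent.Lib.Helper10.mem_supports_iff] at h1
    have h2 : Cfsg.Agent.Lib.Helper10.ind ((Cfsg.support₂ o).image f) = Φ.symm o := by
      funext q
      obtain ⟨i, rfl⟩ := hbij.2 q
      have h3 : Φ.symm o (f i) = o i := by
        show o (e.symm (f i)) = o i
        congr 1
        exact e.symm_apply_apply i
      rw [h3]
      unfold Cfsg.Agent.Lib.Helper10.ind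
      by_cases hi : o i = 0
      · rw [if_neg, hi]
        intro hmem
        obtain ⟨j, hj, hji⟩ := Finset.mem_image.1 hmem
        rw [hf hji] at hj
        simp [Cfsg.support₂, hi] at hj
      · rw [if_pos]
        · exact ((Cfsg.Agent.Lib.Helper10.zmod2_ne_zero_iff _).1 hi).symm
        · apply Finset.mem_image_of_mem
          simp [Cfsg.support₂, hi]
    rw [← h2]
    exact h1
  have heq : C.map (Φ.symm : (Fin 24 → ZMod 2) →ₗ[ZMod 2] (Cfsg.GolayPt → ZMod 2)) =
      Cfsg.golayCode := by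
    apply Submodule.eq_of_le_of_finrank_eq hle
    rw [LinearEquiv.finrank_map_eq, hdim, Cfsg.Agent.Lib.Helper9.finrank_golayCode]
  refine ⟨e, ?_⟩
  intro w
  rw [← heq]
  constructor
  · rintro ⟨c, hc, rfl⟩
    have : (fun i => (Φ.symm c) (e i)) = c := by
      funext i
      show c (e.symm (e i)) = c i
      rw [e.symm_apply_apply]
    show (fun i => (Φ.symm c) (e i)) ∈ C
    rw [this]
    exact hc
  · intro hw
    refine ⟨_, hw, ?_⟩
    funext q
    show w (e (e.symm q)) = w q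
    rw [e.apply_symm_apply]

end Cfsg.Agent.S0375
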