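import Cfsg.Statements.S0380
import Cfsg.Agent.Lib.Helper34.M21Iso

set_option autoImplicit false
open Cfsg

namespace Cfsg.Agent.S0380

/-- A three-point stabiliser in the group of the length-24 code is isomorphic to PSL(3, F) for the field F with 4 elements. -/
theorem result (p q r : Cfsg.GolayPt) (hpq : p ≠ q) (hpr : p ≠ r) (hqr : q ≠ r) (F : Type) [Field F] [Fintype F] (hF : Fintype.card F = 4) : Nonempty (↥(MulAction.stabilizer Cfsg.M24 p ⊓ MulAction.stabilizer Cfsg.M24 q ⊓ MulAction.stabilizer Cfsg.M24 r) ≃* Matrix.ProjectiveSpecialLinearGroup (Fin 3) F) := by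
  obtain ⟨x, _, hx⟩ := Cfsg.Agent.Lib.Helper34.exists_emb Finset.univ 5
    (by rw [Finset.card_univ, ← Nat.card_eq_fintype_card, Cfsg.Agent.Lib.Helper9.natCard_golayPt]; norm_num)
    [p, q, r] (by simp [hpq, hpr, hqr]) (by simp) (by simp)
  obtain ⟨u, hu, hux⟩ := Cfsg.Agent.Lib.Helper9.m24_to_base x
  have e23 : u p = Cfsg.Agent.Lib.Helper33.pt 23 := by
    have h1 := hux 0
    have h2 := hx 0 (by simp)
    rw [h2] at h1; exact h1
  have e0 : u q = Cfsg.Agent.Lib.Helper33.pt 0 := by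
    have h1 := hux 1
    have h2 := hx 1 (by simp)
    rw [h2] at h1; exact h1
  have e1 : u r = Cfsg.Agent.Lib.Helper33.pt 1 := by
    have h1 := hux 2
    have h2 := hx 2 (by simp)
    rw [h2] at h1; exact h1
  have key : ∀ g : ↥Cfsg.M24, g ∈ (MulAction.stabilizer Cfsg.M24 p ⊓ MulAction.stabilizer Cfsg.M24 q ⊓
      MulAction.stabilizer Cfsg.M24 r) ↔
      u * g.1 * u⁻¹ ∈ Cfsg.Agent.Lib.Helper9.fixL Cfsg.M24 [1, 0, 23] := by
    intro g
    rw [Cfsg.Agent.Lib.Helper9.mem_fixL]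
    constructor
    · rintro ⟨⟨h1, h2⟩, h3⟩
      refine ⟨Cfsg.M24.mul_mem (Cfsg.M24.mul_mem hu g.2) (Cfsg.M24.inv_mem hu), ?_⟩
      intro i hi
      simp only [List.mem_cons, List.not_mem_nil, or_false] at hi
      rcases hi with rfl | rfl | rfl
      · rw [← e1, Cfsg.Agent.Lib.Helper34.conj_apply_iff]; exact h3
      · rw [← e0, Cfsg.Agent.Lib.Helper34.conj_apply_iff]; exact h2
      · rw [← e23, Cfsg.Agent.Lib.Helper34.conj_apply_iff]; exact h1
    · rintro ⟨_, h2⟩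
      have a1 := h2 1 (by simp)
      have a0 := h2 0 (by simp)
      have a23 := h2 23 (by simp)
      rw [← e1, Cfsg.Agent.Lib.Helper34.conj_apply_iff] at a1
      rw [← e0, Cfsg.Agent.Lib.Helper34.conj_apply_iff] at a0
      rw [← e23, Cfsg.Agent.Lib.Helper34.conj_apply_iff] at a23
      exact ⟨⟨a23, a0⟩, a1⟩
  have hle : Cfsg.Agent.Lib.Helper9.fixL Cfsg.M24 [1, 0, 23] ≤ Cfsg.M24 := fun g hg => hg.1
  have hc : Nat.card (Cfsg.Agent.Lib.Helper9.fixL Cfsg.M24 [1, 0, 23]) = 20160 := by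
    rw [← Nat.card_congr (Cfsg.Agent.Lib.Helper34.conjEquiv hle hu key).toEquiv]
    exact Cfsg.Agent.Lib.Helper9.card_stabilizer_three p q r hpq hpr hqr
  obtain ⟨E⟩ := Cfsg.Agent.Lib.Helper34.m21b_equiv hc
  exact ⟨(Cfsg.Agent.Lib.Helper34.conjEquiv hle hu key).trans (E.trans
    (Cfsg.Agent.Lib.Helper6.pslEquiv (FiniteField.ringEquivOfCardEq
      (by rw [hF, Cfsg.Agent.Lib.Helper34.F4c.card]))))⟩

end Cfsg.Agent.S0380
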