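import Cfsg.Statements.S0412
import Cfsg.Agent.Lib.Helper10.AutTransport
import Cfsg.Agent.S0407
import Cfsg.Agent.S0364
import Cfsg.Agent.S0365
import Cfsg.Agent.S0366
import Cfsg.Agent.S0369

set_option autoImplicit false
open Cfsg

namespace Cfsg.Agent.S0412

/-- Aut of an S(5, 8, 24) is simple of order 244823040 and 5-transitive on points. -/
theorem result {α : Type*} [Fintype α] [DecidableEq α] (hα : Fintype.card α = 24) {B : Set (Finset α)} (hB : Cfsg.IsSteinerSystem 5 8 B) : Cfsg.IsM24 (Cfsg.setSystemAut B) ∧ MulAction.IsMultiplyPretransitive (Cfsg.setSystemAut B) α 5 := by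
  have hG : Fintype.card Cfsg.GolayPt = 24 := by decide
  obtain ⟨e, he⟩ := Cfsg.Agent.S0407.result hG hα Cfsg.Agent.Lib.Helper9.octads_steiner hB
  have h1 : IsSimpleGroup (Cfsg.setSystemAut Cfsg.octads) := by
    rw [← Cfsg.Agent.S0369.result]; exact Cfsg.Agent.S0365.result
  have h2 : Nat.card (Cfsg.setSystemAut Cfsg.octads) = 244823040 := by
    rw [← Cfsg.Agent.S0369.result]; exact Cfsg.Agent.S0364.result
  have h3 : MulAction.IsMultiplyPretransitive (Cfsg.setSystemAut Cfsg.octads) Cfsg.GolayPt 5 := by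
    rw [← Cfsg.Agent.S0369.result]; exact Cfsg.Agent.S0366.result
  exact ⟨⟨Cfsg.Agent.Lib.Helper10.aut_simple_of_iso e he h1,
    (Cfsg.Agent.Lib.Helper10.aut_card_of_iso e he).trans h2⟩,
    Cfsg.Agent.Lib.Helper10.aut_pretransitive_of_iso e he 5 h3⟩

end Cfsg.Agent.S0412
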