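import Cfsg.Statements.S0413
import Cfsg.Agent.Lib.Helper10.DerivedAut24
import Cfsg.Agent.Lib.Helper9.GolaySteiner
import Cfsg.Agent.S0351
import Cfsg.Agent.S0409
import Cfsg.Agent.S0366
import Cfsg.Agent.S0369
import Cfsg.Agent.S0376
import Cfsg.Agent.S0377

set_option autoImplicit false
open Cfsg

namespace Cfsg.Agent.S0413

/-- Aut of an S(4, 7, 23) is simple of order 10200960 and 4-transitive. -/
theorem result {α : Type*} [Fintype α] [DecidableEq α] (hα : Fintype.card α = 23) {B : Set (Finset α)} (hB : Cfsg.IsSteinerSystem 4 7 B) : Cfsg.IsM23 (Cfsg.setSystemAut B) ∧ MulAction.IsMultiplyPretransitive (Cfsg.setSystemAut B) α 4 := by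
  have hG : Fintype.card Cfsg.GolayPt = 24 := by decide
  have hst := Cfsg.Agent.Lib.Helper9.octads_steiner
  have hD : Cfsg.IsSteinerSystem 4 7 (Cfsg.Agent.Lib.Helper10.derived Cfsg.octads none) :=
    Cfsg.Agent.S0351.result (t := 4) (k := 7) hst none
  have hcard : Fintype.card {a : Cfsg.GolayPt // a ≠ none} = 23 := by
    rw [Fintype.card_subtype_compl, hG]
    simp
  obtain ⟨e, he⟩ := Cfsg.Agent.S0409.result hcard hα hD hB
  have E := Cfsg.Agent.Lib.Helper10.resEquiv (Cfsg.Agent.Lib.Helper10.ext24 hG hst none)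
  have h1 : IsSimpleGroup (MulAction.stabilizer (Cfsg.setSystemAut Cfsg.octads)
      (none : Cfsg.GolayPt)) := by
    rw [← Cfsg.Agent.S0369.result]; exact Cfsg.Agent.S0377.result none
  have h2 : Nat.card (MulAction.stabilizer (Cfsg.setSystemAut Cfsg.octads)
      (none : Cfsg.GolayPt)) = 10200960 := by
    rw [← Cfsg.Agent.S0369.result]; exact Cfsg.Agent.S0376.result none
  have h3 : MulAction.IsMultiplyPretransitive (Cfsg.setSystemAut Cfsg.octads) Cfsg.GolayPt 5 := by
    rw [← Cfsg.Agent.S0369.result]; exact Cfsg.Agent.S0366.result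
  have h4 := Cfsg.Agent.Lib.Helper10.derived_pretransitive Cfsg.octads none 4
    (by rw [hG]; norm_num) h3
  exact ⟨⟨Cfsg.Agent.Lib.Helper10.aut_simple_of_iso e he (E.isSimpleGroup_congr.mp h1),
    (Cfsg.Agent.Lib.Helper10.aut_card_of_iso e he).trans
      ((Nat.card_congr E.toEquiv).symm.trans h2)⟩,
    Cfsg.Agent.Lib.Helper10.aut_pretransitive_of_iso e he 4 h4⟩

end Cfsg.Agent.S0413
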