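import Cfsg.Statements.S0414
import Cfsg.Agent.Lib.Helper10.Aut22Model
import Cfsg.Agent.S0410

set_option autoImplicit false
open Cfsg

namespace Cfsg.Agent.S0414

/-- Aut of an S(3, 6, 22) has order 887040, is 3-transitive, and contains a simple subgroup of index 2. -/
theorem result {α : Type*} [Fintype α] [DecidableEq α] (hα : Fintype.card α = 22) {B : Set (Finset α)} (hB : Cfsg.IsSteinerSystem 3 6 B) : Nat.card (Cfsg.setSystemAut B) = 887040 ∧ MulAction.IsMultiplyPretransitive (Cfsg.setSystemAut B) α 3 ∧ ∃ H : Subgroup (Cfsg.setSystemAut B), H.index = 2 ∧ Cfsg.IsM22 H := by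
  obtain ⟨e, he⟩ := Cfsg.Agent.S0410.result Cfsg.Agent.Lib.Helper10.card22 hα
    Cfsg.Agent.Lib.Helper10.D22_steiner hB
  obtain ⟨h1, h2, H, hH, hHs, hHc⟩ := Cfsg.Agent.Lib.Helper10.model22
  let E := Cfsg.Agent.Lib.Helper10.autCongr e he
  refine ⟨(Cfsg.Agent.Lib.Helper10.aut_card_of_iso e he).trans h1,
    Cfsg.Agent.Lib.Helper10.aut_pretransitive_of_iso e he 3 h2,
    H.map (E : _ →* _), ?_, ?_, ?_⟩
  · rw [Subgroup.index_map_equiv]; exact hH
  · exact (E.subgroupMap H).isSimpleGroup_congr.mp hHs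
  · exact (Nat.card_congr (E.subgroupMap H).toEquiv).symm.trans hHc

end Cfsg.Agent.S0414
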