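import Cfsg.Statements.S0427
import Cfsg.Agent.Lib.Helper10.Steiner22

set_option autoImplicit false
open Cfsg

namespace Cfsg.Agent.S0427

theorem card_set_eq {α : Type*} {B : Set (Finset α)} (s : Set B)
    [Fintype s] (F : Finset (Finset α))
    (h : ∀ d, d ∈ F ↔ ∃ hd : d ∈ B, (⟨d, hd⟩ : B) ∈ s) : Fintype.card s = F.card := by
  rw [← Nat.card_eq_fintype_card, Nat.card_coe_set_eq,
    ← Set.ncard_image_of_injective s Subtype.val_injective]
  have : Subtype.val '' s = ↑F := by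
    ext d
    simp [h]
  rw [this, Set.ncard_coe_finset]

theorem adj_iff {α : Type*} {B : Set (Finset α)} (hB : Cfsg.IsSteinerSystem 3 6 B) (b c : B) :
    (Cfsg.blockGraph B).Adj b c ↔ Disjoint (b : Finset α) (c : Finset α) := by
  unfold Cfsg.blockGraph
  rw [SimpleGraph.fromRel_adj]
  constructor
  · rintro ⟨_, h | h⟩
    · exact h
    · exact h.symm
  · intro h
    refine ⟨?_, Or.inl h⟩
    rintro rfl
    rw [disjoint_self, Finset.bot_eq_empty] at h
    have := hB.1 b b.2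
    rw [h] at this
    simp at this

/-- The block graph (adjacent = disjoint) of an S(3, 6, 22) is strongly regular with parameters (77, 16, 0, 4). -/
theorem result {α : Type*} [Fintype α] (hα : Fintype.card α = 22) {B : Set (Finset α)} (hB : Cfsg.IsSteinerSystem 3 6 B) [Fintype B] [DecidableRel (Cfsg.blockGraph B).Adj] : (Cfsg.blockGraph B).IsSRGWith 77 16 0 4 := by
  classical
  open Cfsg.Agent.Lib.Helper10 in
  refine ⟨?_, ?_, ?_, ?_⟩
  · rw [← lam22_0 hα hB]
    exact Fintype.card_of_subtype _ (fun x => mem_blocksThrough_empty)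
  · intro v
    rw [← SimpleGraph.card_neighborSet_eq_degree, ← disj22_card hα hB v.2]
    apply card_set_eq
    intro d
    rw [Finset.mem_filter, mem_blocksThrough_empty]
    constructor
    · rintro ⟨h1, h2⟩
      exact ⟨h1, (adj_iff hB v ⟨d, h1⟩).2 h2⟩
    · rintro ⟨h1, h2⟩
      exact ⟨h1, (adj_iff hB v ⟨d, h1⟩).1 h2⟩
  · intro v w hvw
    rw [← disj22_pair_disjoint hα hB v.2 w.2 ((adj_iff hB v w).1 hvw)]
    apply card_set_eq
    intro d
    rw [Finset.mem_filter, mem_blocksThrough_empty]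
    constructor
    · rintro ⟨h1, h2, h3⟩
      exact ⟨h1, (adj_iff hB v ⟨d, h1⟩).2 h2, (adj_iff hB w ⟨d, h1⟩).2 h3⟩
    · rintro ⟨h1, h2, h3⟩
      exact ⟨h1, (adj_iff hB v ⟨d, h1⟩).1 h2, (adj_iff hB w ⟨d, h1⟩).1 h3⟩
  · intro v w hne hvw
    rw [← disj22_pair_meet hα hB v.2 w.2 (fun h => hne (Subtype.ext h))
      (fun h => hvw ((adj_iff hB v w).2 h))]
    apply card_set_eq
    intro d
    rw [Finset.mem_filter, mem_blocksThrough_empty]
    constructor
    · rintro ⟨h1, h2, h3⟩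
      exact ⟨h1, (adj_iff hB v ⟨d, h1⟩).2 h2, (adj_iff hB w ⟨d, h1⟩).2 h3⟩
    · rintro ⟨h1, h2, h3⟩
      exact ⟨h1, (adj_iff hB v ⟨d, h1⟩).1 h2, (adj_iff hB w ⟨d, h1⟩).1 h3⟩

end Cfsg.Agent.S0427
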