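import Cfsg.Statements.S0430
import Cfsg.Agent.Lib.Helper10.SRG100b
import Cfsg.Agent.Lib.Helper10.PBGIso
import Cfsg.Agent.S0410

set_option autoImplicit false
open Cfsg

namespace Cfsg.Agent.S0430

/-- Uniqueness of the strongly regular graph with parameters (100, 22, 0, 6). -/
theorem result {V W : Type*} [Fintype V] [Fintype W] {G : SimpleGraph V} {H : SimpleGraph W} [DecidableRel G.Adj] [DecidableRel H.Adj] (hG : G.IsSRGWith 100 22 0 6) (hH : H.IsSRGWith 100 22 0 6) : Nonempty (G ≃g H) := by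
  classical
  have hV : Nonempty V := Fintype.card_pos_iff.1 (by rw [hG.card]; norm_num)
  have hW : Nonempty W := Fintype.card_pos_iff.1 (by rw [hH.card]; norm_num)
  obtain ⟨v0⟩ := hV
  obtain ⟨w0⟩ := hW
  obtain ⟨φ, _⟩ := Cfsg.Agent.Lib.Helper10.srg100_iso (v0 := v0) hG
  obtain ⟨ψ, _⟩ := Cfsg.Agent.Lib.Helper10.srg100_iso (v0 := w0) hH
  obtain ⟨e, he⟩ := Cfsg.Agent.S0410.result (Cfsg.Agent.Lib.Helper10.card_pts hG)
    (Cfsg.Agent.Lib.Helper10.card_pts hH) (Cfsg.Agent.Lib.Helper10.blkSys_steiner (v0 := v0) hG)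
    (Cfsg.Agent.Lib.Helper10.blkSys_steiner (v0 := w0) hH)
  exact ⟨(φ.trans (Cfsg.Agent.Lib.Helper10.pbgIso e he)).trans ψ.symm⟩

end Cfsg.Agent.S0430
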