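import Cfsg.Statements.S0432


set_option autoImplicit false
open Cfsg

namespace Cfsg.Agent.S0432

open scoped Pointwise in
theorem aux (σ : Equiv.Perm Cfsg.GolayPt) (hσ : σ ∈ Cfsg.M24) (x : Cfsg.GolayPt → ℤ) (hx : x ∈ Cfsg.leechLattice) : (fun i => x (σ i)) ∈ Cfsg.leechLattice := by
  have hinv : σ⁻¹ ∈ Cfsg.M24 := Subgroup.inv_mem _ hσ
  have hmem : ∀ b ∈ Cfsg.supports (Cfsg.golayCode : Set (Cfsg.GolayPt → ZMod 2)),
      σ⁻¹ • b ∈ Cfsg.supports (Cfsg.golayCode : Set (Cfsg.GolayPt → ZMod 2)) := by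
    intro b hb
    have h1 : σ⁻¹ • Cfsg.supports (Cfsg.golayCode : Set (Cfsg.GolayPt → ZMod 2))
        = Cfsg.supports (Cfsg.golayCode : Set (Cfsg.GolayPt → ZMod 2)) := hinv
    rw [← h1]
    exact Set.smul_mem_smul_set hb
  induction hx using AddSubgroup.closure_induction with
  | mem x hx =>
    apply AddSubgroup.subset_closure
    obtain ⟨m, h1, h2, h3⟩ := hx
    refine ⟨m, fun i => h1 (σ i), ?_, fun k => ?_⟩
    · rw [Equiv.sum_comp σ x]; exact h2
    · have h4 : (Finset.univ.filter fun i => x (σ i) ≡ k [ZMOD 4])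
          = σ⁻¹ • (Finset.univ.filter fun i => x i ≡ k [ZMOD 4]) := by
        ext i
        rw [← Finset.inv_smul_mem_iff]
        simp
      rw [h4]
      exact hmem _ (h3 k)
  | zero => exact AddSubgroup.zero_mem _
  | add x y _ _ hx hy => exact AddSubgroup.add_mem _ hx hy
  | neg x _ hx => exact AddSubgroup.neg_mem _ hx

/-- Coordinate permutations from the code's group preserve the lattice. -/
theorem result (σ : Equiv.Perm Cfsg.GolayPt) (hσ : σ ∈ Cfsg.M24) (x : Cfsg.GolayPt → ℤ) (hx : x ∈ Cfsg.leechLattice) : (fun i => x (σ i)) ∈ Cfsg.leechLattice := by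
  exact aux σ hσ x hx

end Cfsg.Agent.S0432
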