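import Cfsg.Statements.S0433
import Cfsg.Agent.Lib.Helper10.Golay

set_option autoImplicit false
open Cfsg

namespace Cfsg.Agent.S0433

open Cfsg.Agent.Lib.Helper10 in
theorem aux_sum (c : Finset Cfsg.GolayPt)
    (hc : c ∈ Cfsg.supports (Cfsg.golayCode : Set (Cfsg.GolayPt → ZMod 2)))
    (x : Cfsg.GolayPt → ℤ) (m : ℤ) (h1 : ∀ i, x i ≡ m [ZMOD 2])
    (h3 : ∀ k : ℤ, (Finset.univ.filter fun i => x i ≡ k [ZMOD 4]) ∈
      Cfsg.supports (Cfsg.golayCode : Set (Cfsg.GolayPt → ZMod 2))) :
    (4 : ℤ) ∣ ∑ i ∈ c, x i := by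
  set r : ℤ := m % 2 with hr
  set T : Finset Cfsg.GolayPt := Finset.univ.filter fun i => x i ≡ r + 2 [ZMOD 4] with hT
  have hTm : T ∈ Cfsg.supports (Cfsg.golayCode : Set (Cfsg.GolayPt → ZMod 2)) := h3 (r + 2)
  have hx : ∀ i, x i = r + 2 * (if i ∈ T then 1 else 0) +
      4 * ((x i - r - 2 * (if i ∈ T then 1 else 0)) / 4) := by
    intro i
    have h := h1 i
    unfold Int.ModEq at h
    by_cases hi : i ∈ T
    · have hi' : x i % 4 = (r + 2) % 4 := by
        have := (Finset.mem_filter.1 hi).2
        exact this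
      simp only [hi, if_true]
      omega
    · have hi' : ¬ (x i % 4 = (r + 2) % 4) := by
        intro h'
        exact hi (Finset.mem_filter.2 ⟨Finset.mem_univ _, h'⟩)
      simp only [hi, if_false]
      omega
  have hsum : ∑ i ∈ c, x i = r * (c.card : ℤ) + 2 * ((c ∩ T).card : ℤ) +
      4 * ∑ i ∈ c, ((x i - r - 2 * (if i ∈ T then 1 else 0)) / 4) := by
    conv_lhs => rw [Finset.sum_congr rfl (fun i _ => hx i)]
    rw [Finset.sum_add_distrib, Finset.sum_add_distrib, ← Finset.mul_sum, ← Finset.mul_sum,
      Finset.sum_const, Finset.sum_ite_mem, Finset.sum_const]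
    simp only [nsmul_eq_mul, mul_one]
    ring
  obtain ⟨a, ha⟩ := golay_doubly_even hc
  obtain ⟨b, hb⟩ := golay_inter_even hc hTm
  rw [hsum, ha, hb]
  push_cast
  refine ⟨r * a + b + ∑ i ∈ c, ((x i - r - 2 * (if i ∈ T then 1 else 0)) / 4), ?_⟩
  ring

open Cfsg.Agent.Lib.Helper10 in
theorem aux_set (c : Finset Cfsg.GolayPt)
    (hc : c ∈ Cfsg.supports (Cfsg.golayCode : Set (Cfsg.GolayPt → ZMod 2)))
    (x : Cfsg.GolayPt → ℤ) (hx : x ∈ Cfsg.leechSet) :
    (fun i => if i ∈ c then -x i else x i) ∈ Cfsg.leechSet := by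
  obtain ⟨m, h1, h2, h3⟩ := hx
  refine ⟨m, fun i => ?_, ?_, fun k => ?_⟩
  · have h := h1 i
    unfold Int.ModEq at h ⊢
    by_cases hi : i ∈ c
    · simp only [hi, if_true]; omega
    · simp only [hi, if_false]; exact h
  · have hs : ∑ i, (if i ∈ c then -x i else x i) = ∑ i, x i - 2 * ∑ i ∈ c, x i := by
      have : ∀ i, (if i ∈ c then -x i else x i) = x i - 2 * (if i ∈ c then x i else 0) := by
        intro i
        by_cases hi : i ∈ c
        · simp only [hi, if_true]; ring
        · simp only [hi, if_false]; ring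
      simp only [this]
      rw [Finset.sum_sub_distrib, ← Finset.mul_sum, Finset.sum_ite_mem, Finset.univ_inter]
    obtain ⟨a, ha⟩ := aux_sum c hc x m h1 h3
    rw [hs, ha]
    unfold Int.ModEq at h2 ⊢
    omega
  · by_cases hcase : m % 2 = 1 ∧ k % 2 = 1
    · have : (Finset.univ.filter fun i => (if i ∈ c then -x i else x i) ≡ k [ZMOD 4])
          = symmDiff (Finset.univ.filter fun i => x i ≡ k [ZMOD 4]) c := by
        ext i
        have h := h1 i
        unfold Int.ModEq at h
        rw [Finset.mem_symmDiff, Finset.mem_filter, Finset.mem_filter]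
        unfold Int.ModEq
        by_cases hi : i ∈ c
        · simp only [hi, if_true, not_true, and_false, true_and, false_or, Finset.mem_univ]
          omega
        · simp only [hi, if_false, not_false_iff, and_true, false_and, or_false]
      rw [this]
      exact golay_symmDiff (h3 k) hc
    · have : (Finset.univ.filter fun i => (if i ∈ c then -x i else x i) ≡ k [ZMOD 4])
          = (Finset.univ.filter fun i => x i ≡ k [ZMOD 4]) := by
        ext i
        have h := h1 i
        unfold Int.ModEq at h
        rw [Finset.mem_filter, Finset.mem_filter]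
        unfold Int.ModEq
        by_cases hi : i ∈ c
        · simp only [hi, if_true, Finset.mem_univ, true_and]
          omega
        · simp only [hi, if_false]
      rw [this]
      exact h3 k

/-- Sign changes on the support of a codeword preserve the lattice. -/
theorem result (c : Finset Cfsg.GolayPt) (hc : c ∈ Cfsg.supports (Cfsg.golayCode : Set (Cfsg.GolayPt → ZMod 2))) (x : Cfsg.GolayPt → ℤ) (hx : x ∈ Cfsg.leechLattice) : (fun i => if i ∈ c then -x i else x i) ∈ Cfsg.leechLattice := by
  induction hx using AddSubgroup.closure_induction with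
  | mem x hx => exact AddSubgroup.subset_closure (aux_set c hc x hx)
  | zero =>
    have : (fun i => if i ∈ c then -(0 : Cfsg.GolayPt → ℤ) i else (0 : Cfsg.GolayPt → ℤ) i) = 0 := by
      funext i; simp
    rw [this]; exact AddSubgroup.zero_mem _
  | add x y _ _ hx hy =>
    have : (fun i => if i ∈ c then -(x + y) i else (x + y) i)
        = (fun i => if i ∈ c then -x i else x i) + (fun i => if i ∈ c then -y i else y i) := by
      funext i
      by_cases hi : i ∈ c
      · simp only [hi, if_true, Pi.add_apply]; ring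
      · simp only [hi, if_false, Pi.add_apply]
    rw [this]; exact AddSubgroup.add_mem _ hx hy
  | neg x _ hx =>
    have : (fun i => if i ∈ c then -(-x) i else (-x) i)
        = -(fun i => if i ∈ c then -x i else x i) := by
      funext i
      by_cases hi : i ∈ c
      · simp only [hi, if_true, Pi.neg_apply]
      · simp only [hi, if_false, Pi.neg_apply]
    rw [this]; exact AddSubgroup.neg_mem _ hx

end Cfsg.Agent.S0433
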