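import Cfsg.Statements.S0439
import Cfsg.Agent.Lib.Helper10.ThreeTransp

set_option autoImplicit false
open Cfsg

namespace Cfsg.Agent.S0439

open Cfsg.Agent.Lib.Helper10 in
theorem swap_pair {α : Type*} [DecidableEq α] {a b c d : α} (hab : a ≠ b) (hcd : c ≠ d) :
    (Equiv.swap a b * Equiv.swap c d) ^ 2 = 1 ∨ (Equiv.swap a b * Equiv.swap c d) ^ 3 = 1 := by
  have key : ∀ {x y z : α}, x ≠ y → x ≠ z → y ≠ z →
      (Equiv.swap x y * Equiv.swap x z) ^ 3 = 1 := by
    intro x y z hxy hxz hyz
    apply mul_cube_of_braid (Equiv.swap_mul_self _ _) (Equiv.swap_mul_self _ _)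
    have h1 := Equiv.swap_mul_swap_mul_swap (x := z) (y := x) (z := y) hxz.symm hyz.symm
    have h2 := Equiv.swap_mul_swap_mul_swap (x := y) (y := x) (z := z) hxy.symm hyz
    rw [Equiv.swap_comm z x] at h1
    rw [Equiv.swap_comm y x] at h2
    rw [h1, h2, Equiv.swap_comm]
  by_cases hac : a = c
  · subst hac
    by_cases hbd : b = d
    · subst hbd
      left; rw [Equiv.swap_mul_self, one_pow]
    · right; exact key hab hcd hbd
  by_cases had : a = d
  · subst had
    by_cases hbc : b = c
    · subst hbc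
      left; rw [Equiv.swap_comm b a, Equiv.swap_mul_self, one_pow]
    · right; rw [Equiv.swap_comm c a]; exact key hab hcd.symm hbc
  by_cases hbc : b = c
  · subst hbc
    right; rw [Equiv.swap_comm a b]; exact key hab.symm hcd had
  by_cases hbd : b = d
  · subst hbd
    right; rw [Equiv.swap_comm a b, Equiv.swap_comm c b]; exact key hab.symm hcd.symm hac
  left
  apply mul_sq_of_commute (Equiv.swap_mul_self _ _) (Equiv.swap_mul_self _ _)
  have : Equiv.Perm.Disjoint (Equiv.swap a b) (Equiv.swap c d) := by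
    intro x
    by_cases hxa : x = a
    · right; subst hxa; exact Equiv.swap_apply_of_ne_of_ne hac had
    by_cases hxb : x = b
    · right; subst hxb; exact Equiv.swap_apply_of_ne_of_ne hbc hbd
    left; exact Equiv.swap_apply_of_ne_of_ne hxa hxb
  exact this.commute

/-- In the symmetric group of degree n ≥ 2, the set of transpositions is a conjugacy class of 3-transpositions which generates the group. -/
theorem result (n : ℕ) (hn : 2 ≤ n) : Cfsg.IsThreeTranspositionClass {σ : Equiv.Perm (Fin n) | σ.IsSwap} := by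
  refine ⟨⟨?_, ?_⟩, ?_, Equiv.Perm.closure_isSwap⟩
  · intro d hd
    exact Equiv.Perm.IsSwap.orderOf hd
  · rintro d ⟨a, b, hab, rfl⟩ e ⟨c, d', hcd, rfl⟩
    exact swap_pair hab hcd
  · have h01 : (⟨0, by omega⟩ : Fin n) ≠ ⟨1, by omega⟩ := by
      intro h; simpa using congrArg Fin.val h
    refine ⟨Equiv.swap ⟨0, by omega⟩ ⟨1, by omega⟩, ⟨_, _, h01, rfl⟩, ?_⟩
    ext σ
    change σ.IsSwap ↔ IsConj _ σ
    constructor
    · rintro ⟨a, b, hab, rfl⟩
      exact Equiv.Perm.isConj_swap h01 hab
    · intro h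
      rw [isConj_iff] at h
      obtain ⟨c, hc⟩ := h
      rw [← hc]
      refine ⟨c ⟨0, by omega⟩, c ⟨1, by omega⟩, fun h => h01 (c.injective h), ?_⟩
      rw [Equiv.swap_apply_apply]

end Cfsg.Agent.S0439
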