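import Cfsg.Statements.S0440
import Cfsg.Agent.Lib.Helper7.SpGen
import Cfsg.Agent.Lib.Helper10.ThreeTransp

set_option autoImplicit false
open Cfsg

namespace Cfsg.Agent.S0440

open Matrix Cfsg.Agent.Lib.Helper7

section
variable {n : ℕ}

theorem z2_eq_one {c : ZMod 2} (h : c ≠ 0) : c = 1 := by
  revert c; decide

theorem z2_cases (c : ZMod 2) : c = 0 ∨ c = 1 := by
  revert c; decide

theorem exists_om_eq_one {u : Fin n ⊕ Fin n → ZMod 2} (hu : u ≠ 0) :
    ∃ x, om (Fin n) (ZMod 2) x u = 1 := by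
  obtain ⟨z, hz⟩ := exists_om_ne_zero hu
  refine ⟨z, z2_eq_one ?_⟩
  rw [om_swap]
  exact neg_ne_zero.2 hz

theorem tv_sub_one_mulVec (u x : Fin n ⊕ Fin n → ZMod 2) :
    ((tv u 1).1 - 1) *ᵥ x = (om (Fin n) (ZMod 2) x u) • u := by
  rw [Matrix.sub_mulVec, tv_mulVec, Matrix.one_mulVec, one_mul, add_sub_cancel_left]

theorem rank_tv {u : Fin n ⊕ Fin n → ZMod 2} (hu : u ≠ 0) : ((tv u 1).1 - 1).rank = 1 := by
  have h1 : LinearMap.range ((tv u 1).1 - 1).mulVecLin = Submodule.span (ZMod 2) {u} := by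
    apply le_antisymm
    · rintro _ ⟨x, rfl⟩
      rw [Matrix.mulVecLin_apply, tv_sub_one_mulVec]
      exact Submodule.smul_mem _ _ (Submodule.mem_span_singleton_self u)
    · rw [Submodule.span_singleton_le_iff_mem]
      obtain ⟨x, hx⟩ := exists_om_eq_one hu
      refine ⟨x, ?_⟩
      rw [Matrix.mulVecLin_apply, tv_sub_one_mulVec, hx, one_smul]
  unfold Matrix.rank
  rw [h1]
  exact finrank_span_singleton hu

theorem eq_tv_of_rank {g : symplecticGroup (Fin n) (ZMod 2)} (hg : (g.1 - 1).rank = 1) :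
    ∃ u : Fin n ⊕ Fin n → ZMod 2, u ≠ 0 ∧ g = tv u 1 := by
  unfold Matrix.rank at hg
  rw [finrank_eq_one_iff'] at hg
  obtain ⟨⟨u, hu⟩, hu0, hspan⟩ := hg
  have hu0' : u ≠ 0 := fun h => hu0 (Subtype.ext h)
  have hc : ∀ x, ∃ c : ZMod 2, g.1 *ᵥ x = x + c • u := by
    intro x
    obtain ⟨c, hc⟩ := hspan ⟨(g.1 - 1).mulVecLin x, LinearMap.mem_range_self _ x⟩
    refine ⟨c, ?_⟩
    have h1 : c • u = (g.1 - 1) *ᵥ x := congrArg Subtype.val hc
    rw [h1, Matrix.sub_mulVec, Matrix.one_mulVec]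
    abel
  choose c hc using hc
  obtain ⟨y0, hy0⟩ := hu
  have hcy0 : c y0 = 1 := by
    apply z2_eq_one
    intro h
    apply hu0'
    rw [← hy0, Matrix.mulVecLin_apply, Matrix.sub_mulVec, Matrix.one_mulVec, hc, h]
    simp
  have key : ∀ x y, c y * om (Fin n) (ZMod 2) x u + c x * om (Fin n) (ZMod 2) u y = 0 := by
    intro x y
    have h1 := sp_om g x y
    rw [hc x, hc y] at h1
    simp only [map_add, map_smul, LinearMap.add_apply, LinearMap.smul_apply, smul_eq_mul,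
      om_self, mul_zero, add_zero] at h1
    linear_combination h1
  obtain ⟨x1, hx1⟩ := exists_om_eq_one hu0'
  have h2 : om (Fin n) (ZMod 2) u y0 = 1 := by
    apply z2_eq_one
    intro h
    have := key x1 y0
    rw [hcy0, hx1, h] at this
    simp at this
  refine ⟨u, hu0', ?_⟩
  apply sp_ext
  intro x
  rw [hc, tv_mulVec, one_mul]
  congr 2
  have h3 := key x y0
  rw [hcy0, h2, one_mul, mul_one] at h3
  have h4 : ∀ a b : ZMod 2, a + b = 0 → b = a := by decide
  exact h4 _ _ h3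

theorem tv_sq (u : Fin n ⊕ Fin n → ZMod 2) : tv u (1 : ZMod 2) * tv u 1 = 1 := by
  rw [tv_mul]
  have : (1 : ZMod 2) + 1 = 0 := by decide
  rw [this, tv_zero]

theorem tv_ne_one {u : Fin n ⊕ Fin n → ZMod 2} (hu : u ≠ 0) : tv u (1 : ZMod 2) ≠ 1 := by
  intro h
  obtain ⟨x, hx⟩ := exists_om_eq_one hu
  have h1 := tv_mulVec u 1 x
  rw [h, sp_one_mulVec, hx] at h1
  apply hu
  simpa using h1

theorem tv_pair (u w : Fin n ⊕ Fin n → ZMod 2) :
    (tv u (1 : ZMod 2) * tv w 1) ^ 2 = 1 ∨ (tv u (1 : ZMod 2) * tv w 1) ^ 3 = 1 := by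
  have hinv : ∀ v : Fin n ⊕ Fin n → ZMod 2, (tv v (1 : ZMod 2))⁻¹ = tv v 1 :=
    fun v => inv_eq_of_mul_eq_one_left (tv_sq v)
  have h1 := tv_conj (tv u (1 : ZMod 2)) w 1
  have h2 := tv_conj (tv w (1 : ZMod 2)) u 1
  rw [hinv, tv_mulVec, one_mul] at h1 h2
  rcases z2_cases (om (Fin n) (ZMod 2) w u) with h | h
  · left
    rw [h, zero_smul, add_zero] at h1
    apply Cfsg.Agent.Lib.Helper10.mul_sq_of_commute (tv_sq u) (tv_sq w)
    have : tv u (1 : ZMod 2) * tv w 1 = tv w 1 * tv u 1 := by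
      calc tv u (1 : ZMod 2) * tv w 1 = tv u 1 * tv w 1 * (tv u 1 * tv u 1) := by
            rw [tv_sq, mul_one]
        _ = (tv u 1 * tv w 1 * tv u 1) * tv u 1 := by simp only [mul_assoc]
        _ = tv w 1 * tv u 1 := by rw [h1]
    exact this
  · right
    have h' : om (Fin n) (ZMod 2) u w = 1 := by
      rw [om_swap, h]; decide
    rw [h, one_smul] at h1
    rw [h', one_smul] at h2
    apply Cfsg.Agent.Lib.Helper10.mul_cube_of_braid (tv_sq u) (tv_sq w)
    rw [h1, h2, add_comm]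

end

/-- In the symplectic group in dimension 2n ≥ 2 over the field with two elements, the elements g for which g - 1 has rank one (the symplectic transvections) form a conjugacy class of 3-transpositions generating the group. -/
theorem result (n : ℕ) (hn : 1 ≤ n) : Cfsg.IsThreeTranspositionClass {g : Matrix.symplecticGroup (Fin n) (ZMod 2) | ((g : Matrix (Fin n ⊕ Fin n) (Fin n ⊕ Fin n) (ZMod 2)) - 1).rank = 1} := by
  have hD : ∀ g : Matrix.symplecticGroup (Fin n) (ZMod 2),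
      g ∈ {g : Matrix.symplecticGroup (Fin n) (ZMod 2) |
        ((g : Matrix (Fin n ⊕ Fin n) (Fin n ⊕ Fin n) (ZMod 2)) - 1).rank = 1} ↔
      ∃ u : Fin n ⊕ Fin n → ZMod 2, u ≠ 0 ∧ g = tv u 1 := by
    intro g
    constructor
    · intro hg
      exact eq_tv_of_rank hg
    · rintro ⟨u, hu, rfl⟩
      exact rank_tv hu
  refine ⟨⟨?_, ?_⟩, ?_, ?_⟩
  · intro d hd
    obtain ⟨u, hu, rfl⟩ := (hD d).1 hd
    have : Fact (Nat.Prime 2) := ⟨Nat.prime_two⟩
    exact orderOf_eq_prime (by rw [pow_two]; exact tv_sq u) (tv_ne_one hu)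
  · intro d hd e he
    obtain ⟨u, _, rfl⟩ := (hD d).1 hd
    obtain ⟨w, _, rfl⟩ := (hD e).1 he
    exact tv_pair u w
  · set u0 : Fin n ⊕ Fin n → ZMod 2 := Pi.single (Sum.inl ⟨0, by omega⟩) 1 with hu0
    have hu0ne : u0 ≠ 0 := by
      intro h
      have := congrFun h (Sum.inl ⟨0, by omega⟩)
      simp [hu0] at this
    refine ⟨tv u0 1, (hD _).2 ⟨u0, hu0ne, rfl⟩, ?_⟩
    ext g
    rw [hD]
    change _ ↔ IsConj _ g
    rw [isConj_iff]
    constructor
    · rintro ⟨u, hu, rfl⟩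
      obtain ⟨t, _, ht⟩ := TW_transitive (W := ⊤)
        (fun v _ hv => by
          obtain ⟨z, hz⟩ := exists_om_ne_zero hv
          exact ⟨z, trivial, hz⟩)
        (v := u0) (w := u) trivial trivial hu0ne hu
      exact ⟨t, by rw [tv_conj, ht]⟩
    · rintro ⟨c, rfl⟩
      refine ⟨c.1 *ᵥ u0, ?_, tv_conj c u0 1⟩
      intro h
      apply hu0ne
      rw [← sp_inv_mulVec c u0, h, Matrix.mulVec_zero]
  · rw [eq_top_iff, ← TW_top]
    unfold TW
    rw [Subgroup.closure_le]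
    rintro t ⟨u, _, c, rfl⟩
    rcases z2_cases c with rfl | rfl
    · rw [tv_zero]; exact Subgroup.one_mem _
    · by_cases hu : u = 0
      · have : tv u (1 : ZMod 2) = 1 := by
          apply sp_ext
          intro x
          rw [tv_mulVec, hu, sp_one_mulVec]
          simp
        rw [this]; exact Subgroup.one_mem _
      · exact Subgroup.subset_closure ((hD _).2 ⟨u, hu, rfl⟩)

end Cfsg.Agent.S0440
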