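import Cfsg.Statements.S0442
import Cfsg.Agent.Lib.Helper10.ThreeTransp

set_option autoImplicit false
open Cfsg

namespace Cfsg.Agent.S0442

theorem inv_conj {G : Type*} [Group G] {a c : G} (ha : a * a = 1) (hc : c * c = 1) (k : ℕ) :
    a * (a * c) ^ k * a = ((a * c) ^ k)⁻¹ := by
  have hai : a⁻¹ = a := inv_eq_of_mul_eq_one_left ha
  have hci : c⁻¹ = c := inv_eq_of_mul_eq_one_left hc
  have h1 : a * (a * c) * a⁻¹ = (a * c)⁻¹ := by
    rw [mul_inv_rev, hai, hci, ← mul_assoc, ha, one_mul]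
  have h2 := conj_pow (a := a) (b := a * c) (i := k)
  rw [h1, hai] at h2
  rw [← h2, inv_pow]

theorem inv_conj' {G : Type*} [Group G] {a c : G} (ha : a * a = 1) (hc : c * c = 1) (k : ℕ) :
    c * (a * c) ^ k * c = ((a * c) ^ k)⁻¹ := by
  have hai : a⁻¹ = a := inv_eq_of_mul_eq_one_left ha
  have hci : c⁻¹ = c := inv_eq_of_mul_eq_one_left hc
  have h1 : c * (a * c) * c⁻¹ = (a * c)⁻¹ := by
    rw [mul_inv_rev, hai, hci, mul_assoc, mul_assoc, hc, mul_one]
  have h2 := conj_pow (a := c) (b := a * c) (i := k)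
  rw [h1, hci] at h2
  rw [← h2, inv_pow]

theorem comm_of_even {G : Type*} [Group G] {a c : G} (ha : a * a = 1) (hc : c * c = 1) (m : ℕ)
    (h : (a * c) ^ (2 * m) = 1) : Commute ((a * c) ^ m) a := by
  have h1 := inv_conj ha hc m
  have h2 : ((a * c) ^ m)⁻¹ = (a * c) ^ m := by
    apply inv_eq_of_mul_eq_one_left
    rw [← pow_add, ← two_mul]; exact h
  rw [h2] at h1
  have : (a * c) ^ m * a = a * (a * c) ^ m := by
    calc (a * c) ^ m * a = (a * a) * (a * c) ^ m * a := by rw [ha, one_mul]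
      _ = a * (a * (a * c) ^ m * a) := by simp only [mul_assoc]
      _ = a * (a * c) ^ m := by rw [h1]
  exact this

/-- A standard trick for producing elements of an involution centraliser: for an involution a and an element g, let b be the conjugate g⁻¹ * a * g. If a * b has odd order 2m + 1 then g * (a * b) ^ m commutes with a; if a * b has even order 2m then (a * b) ^ m and (a * (g * a * g⁻¹)) ^ m commute with a. -/
theorem result {G : Type*} [Group G] (a g : G) (ha : orderOf a = 2) : (∀ m : ℕ, orderOf (a * (g⁻¹ * a * g)) = 2 * m + 1 → Commute (g * (a * (g⁻¹ * a * g)) ^ m) a) ∧ (∀ m : ℕ, orderOf (a * (g⁻¹ * a * g)) = 2 * m → Commute ((a * (g⁻¹ * a * g)) ^ m) a ∧ Commute ((a * (g * a * g⁻¹)) ^ m) a) := by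
  have ha2 := Cfsg.Agent.Lib.Helper10.sq_one_of_orderOf_two ha
  have hb2 : (g⁻¹ * a * g) * (g⁻¹ * a * g) = 1 := by
    calc (g⁻¹ * a * g) * (g⁻¹ * a * g) = g⁻¹ * a * (g * g⁻¹) * a * g := by simp only [mul_assoc]
      _ = g⁻¹ * (a * a) * g := by rw [mul_inv_cancel]; simp only [mul_assoc, mul_one]
      _ = 1 := by rw [ha2, mul_one, inv_mul_cancel]
  have hb2' : (g * a * g⁻¹) * (g * a * g⁻¹) = 1 := by
    calc (g * a * g⁻¹) * (g * a * g⁻¹) = g * a * (g⁻¹ * g) * a * g⁻¹ := by simp only [mul_assoc]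
      _ = g * (a * a) * g⁻¹ := by rw [inv_mul_cancel]; simp only [mul_assoc, mul_one]
      _ = 1 := by rw [ha2, mul_one, mul_inv_cancel]
  constructor
  · intro m hm
    set b := g⁻¹ * a * g with hb
    set t := a * b with ht
    have h1 : t ^ (2 * m + 1) = 1 := by rw [← hm]; exact pow_orderOf_eq_one t
    have h2 : b * t ^ m * b = (t ^ m)⁻¹ := inv_conj' ha2 hb2 m
    have h3 : a * g = g * b := by rw [hb]; simp only [← mul_assoc, mul_inv_cancel, one_mul]
    have h4 : b * t ^ m = (t ^ m)⁻¹ * b := by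
      calc b * t ^ m = b * t ^ m * (b * b) := by rw [hb2, mul_one]
        _ = (b * t ^ m * b) * b := by simp only [mul_assoc]
        _ = (t ^ m)⁻¹ * b := by rw [h2]
    have h5 : t ^ m * (t ^ m * a) = b := by
      have h6 : t ^ m * t ^ m * t = 1 := by
        rw [← pow_add, ← pow_succ, ← two_mul]; exact h1
      have h7 : t ^ m * t ^ m = t⁻¹ := eq_inv_of_mul_eq_one_left h6
      have hai : a⁻¹ = a := inv_eq_of_mul_eq_one_left ha2
      have hbi : b⁻¹ = b := inv_eq_of_mul_eq_one_left hb2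
      rw [← mul_assoc, h7, ht, mul_inv_rev, hai, hbi, mul_assoc, ha2, mul_one]
    have h8 : t ^ m * a = (t ^ m)⁻¹ * b := by
      rw [eq_inv_mul_iff_mul_eq]; exact h5
    change g * t ^ m * a = a * (g * t ^ m)
    rw [← mul_assoc, h3, mul_assoc, mul_assoc, h4, h8]
  · intro m hm
    have h1 : (a * (g⁻¹ * a * g)) ^ (2 * m) = 1 := by rw [← hm]; exact pow_orderOf_eq_one _
    refine ⟨comm_of_even ha2 hb2 m h1, comm_of_even ha2 hb2' m ?_⟩
    have hai : a⁻¹ = a := inv_eq_of_mul_eq_one_left ha2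
    have h2 : a * (g * a * g⁻¹) = g * (a * (g⁻¹ * a * g))⁻¹ * g⁻¹ := by
      simp only [mul_inv_rev, inv_inv, hai, mul_assoc, mul_inv_cancel_left]
    rw [h2, conj_pow, inv_pow, h1, inv_one, mul_one, mul_inv_cancel]

end Cfsg.Agent.S0442
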