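import Cfsg.Statements.S0443


set_option autoImplicit false
open Cfsg

namespace Cfsg.Agent.S0443

/-- Two definitions of a 2-central involution agree: an element t of order 2 of a finite group lies in the centre of some Sylow 2-subgroup if and only if its centraliser contains some Sylow 2-subgroup. -/
theorem result {G : Type*} [Group G] [Finite G] (t : G) (ht : orderOf t = 2) : Cfsg.IsTwoCentralInvolution t ↔ ∃ P : Sylow 2 G, (P : Subgroup G) ≤ Subgroup.centralizer ({t} : Set G) := by
  constructor
  · rintro ⟨-, P, -, hP⟩
    refine ⟨P, fun x hx => ?_⟩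
    rw [Subgroup.mem_centralizer_singleton_iff]
    exact hP x hx
  · rintro ⟨P, hP⟩
    have hcomm : ∀ x ∈ P, x * t = t * x := by
      intro x hx
      have := hP hx
      rwa [Subgroup.mem_centralizer_singleton_iff] at this
    refine ⟨ht, P, ?_, hcomm⟩
    have hz : IsPGroup 2 (Subgroup.zpowers t) := by
      apply IsPGroup.of_card (n := 1)
      rw [Nat.card_zpowers, ht, pow_one]
    have hn : Subgroup.zpowers t ≤ Subgroup.normalizer ((P : Subgroup G) : Set G) := by
      rw [Subgroup.zpowers_le, Subgroup.mem_normalizer_iff]
      intro h
      constructor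
      · intro hh
        have h1 : t * h * t⁻¹ = h := by
          rw [← hcomm h hh, mul_assoc, mul_inv_cancel, mul_one]
        rw [h1]; exact hh
      · intro hh
        have h1 := hcomm _ hh
        have h2 : t * h * t⁻¹ = h := by
          have h3 : t * h = t * (t * h * t⁻¹) := by
            rw [← h1]; simp only [mul_assoc, inv_mul_cancel, mul_one]
          exact (mul_left_cancel h3).symm
        rw [h2] at hh; exact hh
    have hs := P.isPGroup'.to_sup_of_normal_left' hz hn
    have := P.is_maximal' hs le_sup_left
    have h4 : Subgroup.zpowers t ≤ (P : Subgroup G) := by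
      calc Subgroup.zpowers t ≤ (P : Subgroup G) ⊔ Subgroup.zpowers t := le_sup_right
        _ = P := this
    exact h4 (Subgroup.mem_zpowers t)

end Cfsg.Agent.S0443
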