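import Cfsg.Statements.S2572
import Cfsg.Agent.Lib.Helper48.TransvCent
import Cfsg.Agent.Lib.Helper48.GLTransfer

set_option autoImplicit false
open Cfsg

namespace Cfsg.Agent.S2572

theorem prod_identity (q k : ℕ) :
    ∏ i : Fin (k + 2), (q ^ (k + 2) - q ^ (i : ℕ)) =
      ((q ^ (k + 2) - 1) * (q ^ (k + 1) - 1)) *
        (q ^ (2 * k + 1) * ∏ i : Fin k, (q ^ k - q ^ (i : ℕ))) := by
  rw [Fin.prod_univ_succ, Fin.prod_univ_succ]
  simp only [Fin.val_zero, Fin.val_succ, pow_zero, zero_add, pow_one]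
  have h1 : q ^ (k + 2) - q = q * (q ^ (k + 1) - 1) := by
    rw [Nat.mul_sub, mul_one]; congr 1; ring
  have h2 : ∀ i : Fin k, q ^ (k + 2) - q ^ ((i : ℕ) + 1 + 1) = q ^ 2 * (q ^ k - q ^ (i : ℕ)) := by
    intro i
    rw [Nat.mul_sub]; congr 1 <;> ring
  rw [h1, Finset.prod_congr rfl (fun i _ => h2 i), Finset.prod_mul_distrib, Finset.prod_const,
    Finset.card_univ, Fintype.card_fin]
  ring

/-- Centraliser of a transvection in GL_n(q), n ≥ 2: if t − 1 has rank one and square zero, the centraliser of t in GL_n(q) has order q^(2n−3) (q − 1) |GL_(n−2)(q)| (a group of order q^(2n−3) extended by GL_1(q) × GL_(n−2)(q)). -/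
theorem result {F : Type*} [Field F] [Fintype F] {q n : ℕ} (hF : Fintype.card F = q) (hn : 2 ≤ n) (t : GL (Fin n) F) (ht : Cfsg.IsTransvection (t : Matrix (Fin n) (Fin n) F)) : Nat.card ↥(Subgroup.centralizer ({t} : Set (GL (Fin n) F))) = q ^ (2 * n - 3) * (q - 1) * ∏ i : Fin (n - 2), (q ^ (n - 2) - q ^ (i : ℕ)) := by
  classical
  obtain ⟨ht1, ht2⟩ := ht
  have h1 : Module.finrank F (LinearMap.range
      (Matrix.mulVecLin ((t : Matrix (Fin n) (Fin n) F) - 1))) = 1 := ht1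
  have h2 : (Matrix.mulVecLin ((t : Matrix (Fin n) (Fin n) F) - 1) : Module.End F (Fin n → F)) *
      Matrix.mulVecLin ((t : Matrix (Fin n) (Fin n) F) - 1) = 0 := by
    rw [Module.End.mul_eq_comp, ← Matrix.mulVecLin_mul, ht2]; simp
  have key := Cfsg.Agent.Lib.Helper48.card_commute_mul (K := F) (V := Fin n → F) _ h1 h2
  rw [← Cfsg.Agent.Lib.Helper48.card_centralizer_GL, Module.finrank_fin_fun,
    ← Nat.card_congr (Cfsg.Agent.Lib.Helper48.glEquivEnd (F := F) (ι := Fin n)).toEquiv,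
    Matrix.card_GL_field, Nat.card_eq_fintype_card (α := F), Nat.card_eq_fintype_card (α := Fˣ),
    Fintype.card_units, hF] at key
  obtain ⟨k, rfl⟩ : ∃ k, n = k + 2 := ⟨n - 2, by omega⟩
  rw [prod_identity] at key
  have hq : 2 ≤ q := by rw [← hF]; exact Fintype.one_lt_card
  have e1 : k + 2 - 1 = k + 1 := by omega
  have e2 : k + 2 - 2 = k := by omega
  have e3 : 2 * (k + 2) - 3 = 2 * k + 1 := by omega
  rw [e1] at key
  change Nat.card _ = q ^ (2 * (k + 2) - 3) * (q - 1) * ∏ i : Fin k, (q ^ k - q ^ (i : ℕ))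
  rw [e3]
  have hpos : 0 < (q ^ (k + 2) - 1) * (q ^ (k + 1) - 1) := by
    apply Nat.mul_pos
    · have : 1 < q ^ (k + 2) := Nat.one_lt_pow (by omega) (by omega)
      omega
    · have : 1 < q ^ (k + 1) := Nat.one_lt_pow (by omega) (by omega)
      omega
  apply Nat.eq_of_mul_eq_mul_right hpos
  rw [key]
  ring

end Cfsg.Agent.S2572
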