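import Cfsg.Statements.S0445
import Cfsg.Agent.S2572

set_option autoImplicit false
open Cfsg

namespace Cfsg.Agent.S0445

theorem rank_single_aux : (Matrix.single (0 : Fin 5) (1 : Fin 5) (1 : ZMod 2)).rank = 1 := by
  have h1 : Matrix.single (0 : Fin 5) (1 : Fin 5) (1 : ZMod 2)
      = Matrix.vecMulVec (Pi.single 0 1) (Pi.single 1 1) := by decide
  apply le_antisymm
  · rw [h1]; exact Matrix.rank_vecMulVec_le _ _
  · rw [Nat.one_le_iff_ne_zero]
    intro h0
    have h2 : LinearMap.range (Matrix.single (0 : Fin 5) (1 : Fin 5) (1 : ZMod 2)).mulVecLin = ⊥ := by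
      rw [← Submodule.finrank_eq_zero]
      exact h0
    rw [LinearMap.range_eq_bot] at h2
    have h3 := congrArg (fun f => f (Pi.single 1 1) 0) h2
    revert h3
    simp [Matrix.mulVec, dotProduct, Matrix.single]

theorem toGL_surj : Function.Surjective
    (Matrix.SpecialLinearGroup.toGL : Matrix.SpecialLinearGroup (Fin 5) (ZMod 2) →* _) := by
  intro A
  have hdet : (A : Matrix (Fin 5) (Fin 5) (ZMod 2)).det = 1 := by
    have h1 : IsUnit (A : Matrix (Fin 5) (Fin 5) (ZMod 2)).det :=
      (Matrix.isUnit_iff_isUnit_det _).1 A.isUnit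
    generalize (A : Matrix (Fin 5) (Fin 5) (ZMod 2)).det = d at h1
    revert d
    decide
  refine ⟨⟨A, hdet⟩, ?_⟩
  ext i j
  rfl

/-- In the special linear group of dimension 5 over the field with two elements, the centraliser of a transvection has order 21504 = 2 ^ 7 · 168 (it is an extension of an extraspecial group of order 2 ^ 7 by the simple group of order 168). -/
theorem result (s : Matrix.SpecialLinearGroup (Fin 5) (ZMod 2)) (hs : (s : Matrix (Fin 5) (Fin 5) (ZMod 2)) = Matrix.transvection 0 1 1) : Nat.card (Subgroup.centralizer ({s} : Set (Matrix.SpecialLinearGroup (Fin 5) (ZMod 2)))) = 21504 := by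
  have hinj := Matrix.SpecialLinearGroup.toGL_injective (n := Fin 5) (R := ZMod 2)
  have hmap : (Subgroup.centralizer ({s} : Set (Matrix.SpecialLinearGroup (Fin 5) (ZMod 2)))).map
      Matrix.SpecialLinearGroup.toGL
      = Subgroup.centralizer ({Matrix.SpecialLinearGroup.toGL s} : Set (GL (Fin 5) (ZMod 2))) := by
    ext h
    rw [Subgroup.mem_map, Subgroup.mem_centralizer_singleton_iff]
    constructor
    · rintro ⟨g, hg, rfl⟩
      rw [Subgroup.mem_centralizer_singleton_iff] at hg
      rw [← map_mul, ← map_mul, hg]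
    · intro hh
      obtain ⟨g, rfl⟩ := toGL_surj h
      refine ⟨g, ?_, rfl⟩
      rw [Subgroup.mem_centralizer_singleton_iff]
      apply hinj
      rw [map_mul, map_mul, hh]
  rw [← Subgroup.card_map_of_injective hinj, hmap]
  have ht : Cfsg.IsTransvection
      ((Matrix.SpecialLinearGroup.toGL s : GL (Fin 5) (ZMod 2)) : Matrix (Fin 5) (Fin 5) (ZMod 2)) := by
    have h1 : ((Matrix.SpecialLinearGroup.toGL s : GL (Fin 5) (ZMod 2)) :
        Matrix (Fin 5) (Fin 5) (ZMod 2)) - 1 = Matrix.single 0 1 1 := by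
      rw [Matrix.SpecialLinearGroup.coe_GL_coe_matrix, hs, Matrix.transvection, add_sub_cancel_left]
    unfold Cfsg.IsTransvection
    rw [h1]
    exact ⟨rank_single_aux, by decide⟩
  rw [Cfsg.Agent.S2572.result (q := 2) (ZMod.card 2) (by norm_num) _ ht]
  decide

end Cfsg.Agent.S0445
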