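import Cfsg.Statements.S0458
import Cfsg.Agent.Lib.Helper88.J3Rel0
import Cfsg.Agent.Lib.Helper88.J3Rel1
import Cfsg.Agent.Lib.Helper88.J3Rel2
import Cfsg.Agent.Lib.Helper88.J3L0
import Cfsg.Agent.Lib.Helper88.J3L1
import Cfsg.Agent.Lib.Helper88.J3L2
import Cfsg.Agent.Lib.Helper88.J3Simp

set_option autoImplicit false
open Cfsg

namespace Cfsg.Agent.S0458

/-- Janko's third group exists as a transitive permutation group of degree 6156 with point stabiliser of order 8160: a simple group of order 50232960. -/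
theorem result : ∃ H : Subgroup (Equiv.Perm (Fin 6156)), Cfsg.IsJ3 H ∧ MulAction.IsPretransitive H (Fin 6156) ∧ Nat.card (MulAction.stabilizer H (0 : Fin 6156)) = 8160 := by
  have hn := Lib.Helper88.J3.nets_ok
  have hrel : ∀ W ∈ Lib.Helper88.J3.rels,
      Lib.Helper88.TC.ev (Lib.Helper88.TC.gens 6156 Lib.Helper88.J3.nets) W = 1 := by
    intro W hW
    rw [Lib.Helper88.J3.rels_eq, List.mem_append, List.mem_append] at hW
    rcases hW with (hW | hW) | hW
    · exact Lib.Helper88.TC.relsOK_spec hn Lib.Helper88.J3.sep_ok Lib.Helper88.J3.rel0_ok W hW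
    · exact Lib.Helper88.TC.relsOK_spec hn Lib.Helper88.J3.sep_ok Lib.Helper88.J3.rel1_ok W hW
    · exact Lib.Helper88.TC.relsOK_spec hn Lib.Helper88.J3.sep_ok Lib.Helper88.J3.rel2_ok W hW
  have c0 := Lib.Helper88.TC.level_eq' hn hrel Lib.Helper88.J3.par0 Lib.Helper88.J3.fin0
    (b := ⟨0, by norm_num⟩) Lib.Helper88.J3.fix0 Lib.Helper88.J3.orb0
  have c1 := Lib.Helper88.TC.level_eq' hn hrel Lib.Helper88.J3.par1 Lib.Helper88.J3.fin1
    (b := ⟨1, by norm_num⟩) Lib.Helper88.J3.fix1 Lib.Helper88.J3.orb1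
  have c2 := Lib.Helper88.TC.level_eq' hn hrel Lib.Helper88.J3.par2 Lib.Helper88.J3.fin2
    (b := ⟨2, by norm_num⟩) Lib.Helper88.J3.fix2 Lib.Helper88.J3.orb2
  rw [Lib.Helper88.TC.card_Kd_self] at c2
  rw [c2] at c1
  rw [c1] at c0
  have hcard : Nat.card (Lib.Helper88.TC.Kd (Lib.Helper88.TC.gens 6156 Lib.Helper88.J3.nets) 5 0) = 50232960 := by
    rw [c0]
  have hprim : MulAction.IsPreprimitive (Lib.Helper88.TC.Kd (Lib.Helper88.TC.gens 6156 Lib.Helper88.J3.nets) 5 0)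
      (Fin 6156) :=
    Lib.Helper88.TC.prim_perm hn (b := ⟨0, by norm_num⟩) Lib.Helper88.J3.fix0 Lib.Helper88.J3.tr_ok
      Lib.Helper88.J3.prim_ok
  have : Fact (Nat.Prime 19) := ⟨by norm_num⟩
  have hsimp : IsSimpleGroup (Lib.Helper88.TC.Kd (Lib.Helper88.TC.gens 6156 Lib.Helper88.J3.nets) 5 0) :=
    Lib.Helper88.TC.simple_perm hn Lib.Helper88.J3.sep_ok (b := ⟨0, by norm_num⟩) Lib.Helper88.J3.fix0
      Lib.Helper88.J3.tr_ok Lib.Helper88.J3.prim_ok (p := 19) (by norm_num) (by rw [hcard]; norm_num)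
      (by rw [hcard]; norm_num) Lib.Helper88.J3.simp_ok
  refine ⟨_, ⟨hsimp, hcard⟩, hprim.toIsPretransitive, ?_⟩
  have := hprim.toIsPretransitive
  have h1 := Lib.Helper88.TC.stab_card
    (Lib.Helper88.TC.Kd (Lib.Helper88.TC.gens 6156 Lib.Helper88.J3.nets) 5 0) (0 : Fin 6156)
  rw [hcard] at h1
  omega

end Cfsg.Agent.S0458
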