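import Cfsg.Statements.S0459
import Cfsg.Agent.Lib.Helper35.SubPres
import Cfsg.Agent.Lib.Helper35.RuPOrd.Main
import Cfsg.Agent.Lib.Helper35.TitsPOrd.Main

set_option autoImplicit false
open Cfsg

namespace Cfsg.Agent.S0459

open Cfsg.Agent.Lib.Helper35 in
set_option maxRecDepth 100000 in
/-- The Rudvalis group exists as a transitive permutation group of degree 4060: simple of order 145926144000, with point stabiliser of order 35942400 containing a simple subgroup of order 17971200 (the order of the Tits group). -/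
theorem result : ∃ H : Subgroup (Equiv.Perm (Fin 4060)), Cfsg.IsRu H ∧ MulAction.IsPretransitive H (Fin 4060) ∧ Nat.card (MulAction.stabilizer H (0 : Fin 4060)) = 35942400 ∧ ∃ T : Subgroup (MulAction.stabilizer H (0 : Fin 4060)), Cfsg.IsTits T := by
  obtain ⟨Φ, hΦ⟩ := exists_perm_hom RuPOrd.I RuP4060.permData
  obtain ⟨_, _, hinj⟩ := card_eq_and_injective RuPOrd.I RuP4060.permData.pv Φ hΦ 145926144000
    (by norm_num) RuPOrd.up0 RuPOrd.lo0
  haveI := RuPOrd.main.1
  obtain ⟨hs, hc⟩ := range_simple_card Φ hinj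
  rw [RuPOrd.main.2] at hc
  refine ⟨Φ.range, ⟨hs, hc⟩, range_pretransitive RuPOrd.I RuP4060.permData Φ hΦ, ?_, ?_⟩
  · have h := range_card_stabilizer RuPOrd.I RuP4060.permData Φ hΦ 0
    rw [hc] at h
    have h2 : (145926144000 : Nat) = 35942400 * (4059 + 1) := by norm_num
    rw [h2] at h
    exact Nat.eq_of_mul_eq_mul_right (by norm_num) h
  · haveI := TitsPOrd.main.1
    obtain ⟨L, h1, h2⟩ := exists_simple_in_stabilizer RuPOrd.I RuP4060.permData Φ hΦ hinj TitsPOrd.I
      (by decide +kernel)
      (fun c hc => (by decide +kernel : ∀ c ∈ List.range 6, PresTitsP.cc.inv c = PresRuP.cc.inv c) c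
        (List.mem_range.mpr hc))
      PresTitsP.hinvC PresTitsP.hinvE PresTitsP.hRC
      (by decide +kernel : ∀ b ∈ PresTitsP.R, b ∈ PresRuP.R)
      (fun c hc => (by decide +kernel : ∀ c ∈ List.range 6, pwalk RuP4060.permData.pt [c] 0 = 0) c
        (List.mem_range.mpr hc))
      5 1 (by decide +kernel) (by norm_num) (by decide +kernel)
    exact ⟨L, h1, h2.trans TitsPOrd.main.2⟩

end Cfsg.Agent.S0459
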