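import Cfsg.Statements.S0460
import Cfsg.Agent.Lib.Helper35.PermReal
import Cfsg.Agent.Lib.Helper35.ONOrd.Main
import Cfsg.Agent.Lib.Helper35.J1POrd.Main
import Cfsg.Agent.Lib.Helper35.M11POrd.Main
import Cfsg.Agent.Lib.Helper35.ONJ1.Fin
import Cfsg.Agent.Lib.Helper35.ONM11.Fin

set_option autoImplicit false
open Cfsg

namespace Cfsg.Agent.S0460

open Cfsg.Agent.Lib.Helper35 in
set_option maxRecDepth 100000 in
/-- The O'Nan group exists as a transitive permutation group of degree 122760: simple of order 460815505920, point stabiliser of order 3753792, and containing simple subgroups of orders 175560 and 7920. -/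
theorem result : ∃ H : Subgroup (Equiv.Perm (Fin 122760)), Cfsg.IsON H ∧ MulAction.IsPretransitive H (Fin 122760) ∧ Nat.card (MulAction.stabilizer H (0 : Fin 122760)) = 3753792 ∧ (∃ K : Subgroup H, Cfsg.IsJ1 K) ∧ (∃ K : Subgroup H, Cfsg.IsM11 K) := by
  obtain ⟨Φ, hΦ⟩ := exists_perm_hom ONOrd.I ON122760.permData
  obtain ⟨_, _, hinj⟩ := card_eq_and_injective ONOrd.I ON122760.permData.pv Φ hΦ 460815505920
    (by norm_num) ONOrd.up0 ONOrd.lo0
  haveI := ONOrd.main.1
  obtain ⟨hs, hc⟩ := range_simple_card Φ hinj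
  rw [ONOrd.main.2] at hc
  refine ⟨Φ.range, ⟨hs, hc⟩, range_pretransitive ONOrd.I ON122760.permData Φ hΦ, ?_, ?_, ?_⟩
  · have h := range_card_stabilizer ONOrd.I ON122760.permData Φ hΦ 0
    rw [hc] at h
    have h2 : (460815505920 : Nat) = 3753792 * (122759 + 1) := by norm_num
    rw [h2] at h
    exact Nat.eq_of_mul_eq_mul_right (by norm_num) h
  · haveI := J1POrd.main.1
    obtain ⟨L, h1, h2⟩ := exists_simple_of_subTab ONOrd.I ON122760.permData Φ hΦ J1POrd.I ONJ1.subTab rfl
      PresJ1P.hinvC PresJ1P.hinvE PresJ1P.hRC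
      (fun c hc i hi => ONJ1.hrel _
        ((by decide +kernel : ∀ c ∈ List.range 3, [PresJ1P.cc.inv c, c] ∈ ONJ1.rls.map PLeaf.W) c
          (List.mem_range.mpr hc)) i hi)
      (fun b hb i hi => ONJ1.hrel b
        ((by decide +kernel : ∀ b ∈ PresJ1P.R, b ∈ ONJ1.rls.map PLeaf.W) b hb) i hi)
      0 1 (by norm_num) (by decide +kernel)
    exact ⟨L, h1, h2.trans J1POrd.main.2⟩
  · haveI := M11POrd.main.1
    obtain ⟨L, h1, h2⟩ := exists_simple_of_subTab ONOrd.I ON122760.permData Φ hΦ M11POrd.I ONM11.subTab rfl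
      PresM11P.hinvC PresM11P.hinvE PresM11P.hRC
      (fun c hc i hi => ONM11.hrel _
        ((by decide +kernel : ∀ c ∈ List.range 3, [PresM11P.cc.inv c, c] ∈ ONM11.rls.map PLeaf.W) c
          (List.mem_range.mpr hc)) i hi)
      (fun b hb i hi => ONM11.hrel b
        ((by decide +kernel : ∀ b ∈ PresM11P.R, b ∈ ONM11.rls.map PLeaf.W) b hb) i hi)
      0 5 (by norm_num) (by decide +kernel)
    exact ⟨L, h1, h2.trans M11POrd.main.2⟩

end Cfsg.Agent.S0460
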