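import Cfsg.Statements.S0462
import Cfsg.Agent.Lib.Helper88.HeSp4

set_option autoImplicit false
open Cfsg

namespace Cfsg.Agent.S0462

/-- The Held group exists as a transitive permutation group of degree 2058: simple of order 4030387200, with point stabiliser containing, with index 2, a copy of the 4-dimensional symplectic group over the field with four elements. -/
theorem result : ∃ H : Subgroup (Equiv.Perm (Fin 2058)), Cfsg.IsHe H ∧ MulAction.IsPretransitive H (Fin 2058) ∧ ∃ (F : Type) (_ : Field F) (_ : Fintype F), Fintype.card F = 4 ∧ ∃ N : Subgroup (MulAction.stabilizer H (0 : Fin 2058)), N.index = 2 ∧ Nonempty (N ≃* Matrix.symplecticGroup (Fin 2) F) := by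
  refine ⟨Lib.Helper88.HeP.rho.range, Lib.Helper88.HeP.isHe_range, Lib.Helper88.HeP.trans_range,
    Lib.Helper34.F4c, inferInstance, inferInstance, Lib.Helper34.F4c.card, ?_⟩
  have hle : (Lib.Helper88.HeP.N0.subgroupOf Lib.Helper88.HeP.rho.range) ≤
      MulAction.stabilizer Lib.Helper88.HeP.rho.range (0 : Fin 2058) := by
    intro x hx
    rw [MulAction.mem_stabilizer_iff]
    exact Lib.Helper88.HeP.N0_fix x.1 (Subgroup.mem_subgroupOf.1 hx)
  have e1 := Subgroup.subgroupOfEquivOfLe hle
  have e2 := Subgroup.subgroupOfEquivOfLe Lib.Helper88.HeP.N0_le_range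
  obtain ⟨e3⟩ := Lib.Helper88.HeP.N0_iso
  refine ⟨(Lib.Helper88.HeP.N0.subgroupOf Lib.Helper88.HeP.rho.range).subgroupOf
    (MulAction.stabilizer Lib.Helper88.HeP.rho.range (0 : Fin 2058)), ?_, ⟨(e1.trans e2).trans e3⟩⟩
  have c1 := Nat.card_congr (e1.trans e2).toEquiv
  rw [Lib.Helper88.HeP.card_N0] at c1
  have c2 := Subgroup.card_mul_index ((Lib.Helper88.HeP.N0.subgroupOf Lib.Helper88.HeP.rho.range).subgroupOf
    (MulAction.stabilizer Lib.Helper88.HeP.rho.range (0 : Fin 2058)))
  have c3 := Lib.Helper88.TC.stab_card Lib.Helper88.HeP.rho.range (0 : Fin 2058)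
  rw [Lib.Helper88.HeP.isHe_range.2] at c3
  rw [c1] at c2
  have c4 : Nat.card (MulAction.stabilizer Lib.Helper88.HeP.rho.range (0 : Fin 2058)) = 1958400 := by omega
  rw [c4] at c2
  omega

end Cfsg.Agent.S0462
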