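import Cfsg.Statements.S0471
import Cfsg.Agent.S1684
import Cfsg.Agent.Lib.Helper35.Fi22Tr.Main
import Cfsg.Agent.Lib.Helper35.CoverEquiv

set_option autoImplicit false
open Cfsg

namespace Cfsg.Agent.S0471

open Cfsg.Agent.Lib.Helper35 in
/-- The Fischer group of order 64561751654400 exists as a 3-transposition group: a simple group of that order generated by a conjugacy class of 3510 3-transpositions, the centraliser of each being a non-split double cover of PSU(6, 2). -/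
theorem result : ∃ (G : Type) (_ : Group G) (_ : Finite G), Cfsg.IsFi22 G ∧ ∃ D : Set G, Cfsg.IsThreeTranspositionClass D ∧ Nat.card D = 3510 ∧ ∀ d ∈ D, ∃ (F : Type) (_ : Field F) (_ : Fintype F), Fintype.card F = 4 ∧ Cfsg.IsNonsplitDoubleCover (Subgroup.centralizer ({d} : Set G)) (Cfsg.PSU 6 F 2) := by
  obtain ⟨Φ, hΦ, hinj⟩ := Fi22Tr.exists_faithful
  haveI := Fi22Ord.main.1
  obtain ⟨hcen, hset⟩ := Fi22Tr.key Φ hΦ hinj
  have hz1 : wval Fi22Ord.I.val Fi22Tr.zW ≠ 1 := by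
    intro h
    have h2 := hset.1 _ mem_conjugatesOf_self
    rw [h, orderOf_one] at h2
    exact absurd h2 (by decide)
  have hH : (((Subgroup.closure ({Cfsg.Spor.Fi22.a, Cfsg.Spor.Fi22.c, Cfsg.Spor.Fi22.d, Cfsg.Spor.Fi22.e, Cfsg.Spor.Fi22.f, Cfsg.Spor.Fi22.g, Cfsg.Spor.Fi22.h, Cfsg.Spor.Fi22.i, (Cfsg.Spor.Fi22.a * Cfsg.Spor.Fi22.b * Cfsg.Spor.Fi22.c * Cfsg.Spor.Fi22.d * Cfsg.Spor.Fi22.e * Cfsg.Spor.Fi22.h) ^ 5} : Set (FreeGroup Cfsg.Spor.Fi22.Gen))).map (PresentedGroup.mk (Cfsg.Spor.coxRelators Cfsg.Spor.Fi22.edges ∪ {r | r ∈ Cfsg.Spor.Fi22.extra})))) = wsub Fi22Ord.I.val Fi22a.S := by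
    rw [Fi22a.hS]
    exact cox_map_closure Cfsg.Spor.Fi22.edges Cfsg.Spor.Fi22.extra PresFi22.cc PresFi22.extraL
      PresFi22.R PresFi22.allGens PresFi22.hall PresFi22.hOK PresFi22.hextra _ Fi22a.SL (by
        have h : Fi22a.SL.map FreeGroup.mk = [Cfsg.Spor.Fi22.a, Cfsg.Spor.Fi22.c, Cfsg.Spor.Fi22.d, Cfsg.Spor.Fi22.e, Cfsg.Spor.Fi22.f, Cfsg.Spor.Fi22.g, Cfsg.Spor.Fi22.h, Cfsg.Spor.Fi22.i, (Cfsg.Spor.Fi22.a * Cfsg.Spor.Fi22.b * Cfsg.Spor.Fi22.c * Cfsg.Spor.Fi22.d * Cfsg.Spor.Fi22.e * Cfsg.Spor.Fi22.h) ^ 5] := rfl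
        rw [h]; ext x; simp)
  refine ⟨Cfsg.Spor.Fi22, inferInstance, Fi22Tr.finFi22, Fi22Ord.main,
    conjugatesOf (wval Fi22Ord.I.val Fi22Tr.zW),
    ⟨hset, ⟨_, mem_conjugatesOf_self, rfl⟩, closure_conjugatesOf_eq_top _ hz1⟩, ?_, ?_⟩
  · have h1 := card_conjugatesOf_mul (wval Fi22Ord.I.val Fi22Tr.zW)
    have h2 := Subgroup.card_mul_index (wsub Fi22Ord.I.val Fi22a.S)
    rw [Fi22Tr.hidx] at h2
    rw [hcen, ← h2, mul_comm] at h1
    have hpos : 0 < Nat.card (wsub Fi22Ord.I.val Fi22a.S) := by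
      haveI := Fi22Tr.finFi22
      exact Nat.card_pos
    exact Nat.eq_of_mul_eq_mul_left hpos h1
  · intro d hd
    obtain ⟨c, rfl⟩ := isConj_iff.mp (show IsConj _ d from hd)
    obtain ⟨K, iF, iFt, hK, hcov⟩ := Cfsg.Agent.S1684.result
    refine ⟨K, iF, iFt, hK, ?_⟩
    rw [hH, ← hcen] at hcov
    exact nonsplitDoubleCover_congr (centralizerConjEquiv c _) hcov

end Cfsg.Agent.S0471
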