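import Cfsg.Statements.S0478
import Cfsg.Agent.Lib.Helper10.J3.Unitary

set_option autoImplicit false
open Cfsg

namespace Cfsg.Agent.S0478

theorem exists_omega {F : Type*} [Field F] [Fintype F] (hF : Fintype.card F = 4) :
    ∃ ω : F, ω ^ 2 + ω + 1 = 0 := by
  classical
  have hex : ∃ c : F, c ≠ 0 ∧ c ≠ 1 := by
    by_contra hcon
    push Not at hcon
    have hsub : (Finset.univ : Finset F) ⊆ {0, 1} := by
      intro c _
      by_cases hc : c = 0
      · simp [hc]
      · simp [hcon c hc]
    have := Finset.card_le_card hsub
    rw [Finset.card_univ, hF] at this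
    have h2 : ({0, 1} : Finset F).card ≤ 2 := Finset.card_le_two
    omega
  obtain ⟨c, hc0, hc1⟩ := hex
  refine ⟨c, ?_⟩
  have h3 : c ^ 3 = 1 := by
    have := FiniteField.pow_card_sub_one_eq_one c hc0
    rwa [hF] at this
  have hprod : (c - 1) * (c ^ 2 + c + 1) = 0 := by linear_combination h3
  exact (mul_eq_zero.1 hprod).resolve_left (sub_ne_zero.2 hc1)

/-- A triple cover of Janko's third group inside a unitary group: for a field F with four elements, the special unitary group of dimension 9 (with respect to the form with q = 2) has a subgroup whose centre has order 3 and whose quotient by its centre is simple of order 50232960. -/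
theorem result : ∃ (F : Type) (_ : Field F) (_ : Fintype F), Fintype.card F = 4 ∧ ∃ H : Subgroup (Cfsg.SU 9 F 2), Nat.card (Subgroup.center H) = 3 ∧ Cfsg.IsJ3 (H ⧸ Subgroup.center H) := by
  classical
  haveI : Fact (Nat.Prime 2) := ⟨Nat.prime_two⟩
  letI : Fintype (GaloisField 2 2) := Fintype.ofFinite _
  have hcard : Fintype.card (GaloisField 2 2) = 4 := by
    rw [← Nat.card_eq_fintype_card, GaloisField.card 2 2 (by norm_num)]
    norm_num
  obtain ⟨ω, hω⟩ := exists_omega hcard
  exact ⟨GaloisField 2 2, inferInstance, inferInstance, hcard,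
    Cfsg.Agent.Lib.Helper10.J3.exists_in_SU hcard ω hω⟩

end Cfsg.Agent.S0478
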