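import Cfsg.Statements.S0481

set_option autoImplicit false
open Cfsg

namespace Cfsg.Agent.S0481

/-- Large extraspecial subgroups: let z be an involution of a finite group G whose centraliser C contains a normal 2-subgroup Q with centre of order 2 and all squares central, such that every element of G centralising Q lies in Q. Then C contains a Sylow 2-subgroup of G, and any involution of G whose centraliser contains a Sylow 2-subgroup of G is conjugate to z. -/
theorem result {G : Type*} [Group G] [Finite G] (z : G) (hz : orderOf z = 2) (Q : Subgroup G) (hQC : Q ≤ Subgroup.centralizer ({z} : Set G)) (hQn : ∀ g ∈ Subgroup.centralizer ({z} : Set G), ∀ q ∈ Q, g * q * g⁻¹ ∈ Q) (hQ2 : IsPGroup 2 Q) (hZ : Nat.card (Subgroup.center Q) = 2) (hsq : ∀ x : Q, x ^ 2 ∈ Subgroup.center Q) (hlarge : Subgroup.centralizer (Q : Set G) ≤ Q) : (∃ P : Sylow 2 G, (P : Subgroup G) ≤ Subgroup.centralizer ({z} : Set G)) ∧ ∀ u : G, orderOf u = 2 → (∃ P : Sylow 2 G, (P : Subgroup G) ≤ Subgroup.centralizer ({u} : Set G)) → IsConj z u := by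
  classical
  have : Fact (Nat.Prime 2) := ⟨Nat.prime_two⟩
  have hz1 : z ≠ 1 := by
    rintro rfl
    simp at hz
  -- z centralizes Q
  have hzcent : z ∈ Subgroup.centralizer (Q : Set G) := by
    rw [Subgroup.mem_centralizer_iff]
    intro q hq
    have := hQC hq
    rw [Subgroup.mem_centralizer_singleton_iff] at this
    exact this
  have hzQ : z ∈ Q := hlarge hzcent
  -- any element of G centralizing Q is 1 or z
  have key : ∀ g : G, g ∈ Subgroup.centralizer (Q : Set G) → g = 1 ∨ g = z := by
    intro g hg
    have hgQ : g ∈ Q := hlarge hg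
    have hgc : (⟨g, hgQ⟩ : Q) ∈ Subgroup.center Q := by
      rw [Subgroup.mem_center_iff]
      intro q
      apply Subtype.ext
      have := (Subgroup.mem_centralizer_iff.mp hg) q q.2
      exact this
    have hzc : (⟨z, hzQ⟩ : Q) ∈ Subgroup.center Q := by
      rw [Subgroup.mem_center_iff]
      intro q
      apply Subtype.ext
      have := (Subgroup.mem_centralizer_iff.mp hzcent) q q.2
      exact this
    by_contra hcon
    push Not at hcon
    have hcard : 2 < Nat.card (Subgroup.center Q) := by
      have hfin : Finite (Subgroup.center Q) := inferInstance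
      let a : Subgroup.center Q := 1
      let b : Subgroup.center Q := ⟨⟨z, hzQ⟩, hzc⟩
      let c : Subgroup.center Q := ⟨⟨g, hgQ⟩, hgc⟩
      have hab : a ≠ b := by
        intro h
        apply hz1
        have := congrArg (fun x : Subgroup.center Q => ((x : Q) : G)) h
        simpa [a, b] using this.symm
      have hac : a ≠ c := by
        intro h
        apply hcon.1
        have := congrArg (fun x : Subgroup.center Q => ((x : Q) : G)) h
        simpa [a, c] using this.symm
      have hbc : b ≠ c := by
        intro h
        apply hcon.2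
        have := congrArg (fun x : Subgroup.center Q => ((x : Q) : G)) h
        simpa [b, c] using this.symm
      have : Fintype (Subgroup.center Q) := Fintype.ofFinite _
      rw [Nat.card_eq_fintype_card]
      exact Fintype.two_lt_card_iff.mpr ⟨a, b, c, hab, hac, hbc⟩
    omega
  -- a Sylow 2-subgroup containing Q
  obtain ⟨P, hQP⟩ := hQ2.exists_le_sylow
  have hPp : IsPGroup 2 (P : Subgroup G) := P.isPGroup'
  have hPnt : Nontrivial (P : Subgroup G) := ⟨⟨⟨z, hQP hzQ⟩, 1, by
    intro h
    exact hz1 (congrArg Subtype.val h)⟩⟩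
  have hZP : Nontrivial (Subgroup.center (P : Subgroup G)) := hPp.center_nontrivial
  -- central elements of P are 1 or z
  have hcenP : ∀ g : G, g ∈ (P : Subgroup G) → (∀ x ∈ (P : Subgroup G), x * g = g * x) → g = 1 ∨ g = z := by
    intro g _ hg
    apply key
    rw [Subgroup.mem_centralizer_iff]
    intro q hq
    exact hg q (hQP hq)
  have hzP : ∀ x ∈ (P : Subgroup G), x * z = z * x := by
    obtain ⟨w, hw⟩ := exists_ne (1 : Subgroup.center (P : Subgroup G))
    have h1 : ((w : (P : Subgroup G)) : G) ≠ 1 := by
      intro h
      apply hw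
      apply Subtype.ext
      apply Subtype.ext
      exact h
    have h2 : ∀ x ∈ (P : Subgroup G), x * ((w : (P : Subgroup G)) : G) = ((w : (P : Subgroup G)) : G) * x := by
      intro x hx
      have := Subgroup.mem_center_iff.mp w.2 ⟨x, hx⟩
      exact congrArg Subtype.val this
    rcases hcenP _ (w : (P : Subgroup G)).2 h2 with h | h
    · exact absurd h h1
    · rw [← h]; exact h2
  refine ⟨⟨P, ?_⟩, ?_⟩
  · intro x hx
    rw [Subgroup.mem_centralizer_singleton_iff]
    exact hzP x hx
  · rintro u hu ⟨P', hP'⟩
    obtain ⟨g, hg⟩ := MulAction.exists_smul_eq G P' P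
    -- u' = g u g⁻¹ centralizes P
    have hu1 : u ≠ 1 := by
      rintro rfl
      simp at hu
    set u' := g * u * g⁻¹ with hu'
    have hu'1 : u' ≠ 1 := by
      intro h
      apply hu1
      have : u = g⁻¹ * u' * g := by rw [hu']; group
      rw [this, h]; group
    have hcent : ∀ x ∈ (P : Subgroup G), x * u' = u' * x := by
      intro x hx
      rw [← hg] at hx
      rw [Sylow.coe_subgroup_smul, Subgroup.mem_pointwise_smul_iff_inv_smul_mem] at hx
      have h1 := hP' hx
      rw [Subgroup.mem_centralizer_singleton_iff] at h1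
      simp only [MulAut.smul_def, MulAut.conj_inv_apply] at h1
      have h2 : g * (g⁻¹ * x * g * u) * g⁻¹ = g * (u * (g⁻¹ * x * g)) * g⁻¹ := by rw [h1]
      calc x * u' = g * (g⁻¹ * x * g * u) * g⁻¹ := by rw [hu']; group
        _ = g * (u * (g⁻¹ * x * g)) * g⁻¹ := h2
        _ = u' * x := by rw [hu']; group
    have hu'cent : u' ∈ Subgroup.centralizer (Q : Set G) := by
      rw [Subgroup.mem_centralizer_iff]
      intro q hq
      exact hcent q (hQP hq)
    rcases key u' hu'cent with h | h
    · exact absurd h hu'1
    · rw [isConj_comm, isConj_iff]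
      exact ⟨g, h⟩

end Cfsg.Agent.S0481
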