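import Cfsg.Statements.S0499
import Cfsg.Agent.S0071
import Cfsg.Agent.Lib.Helper11.SimpleOrder

set_option autoImplicit false
open Cfsg

namespace Cfsg.Agent.S0499

open Cfsg.Agent.Lib.Helper11

/-- an automorphism of odd prime order `r` of a group of order `2 ^ i`, `i ≤ 3` -/
theorem aut_small {Q : Type*} [Group Q] [Finite Q] {i : ℕ} (hi : i ≤ 3) (hQ : Nat.card Q = 2 ^ i)
    (τ : MulAut Q) {r : ℕ} (hr : r.Prime) (hr2 : r ≠ 2) (hτ : orderOf τ = r) :
    (r = 3 ∧ 4 ∣ Nat.card Q) ∨ (r = 7 ∧ 8 ∣ Nat.card Q) := by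
  classical
  have : Fintype Q := Fintype.ofFinite Q
  have : Fact r.Prime := ⟨hr⟩
  let F : Subgroup Q :=
    { carrier := {x | τ x = x}
      one_mem' := map_one τ
      mul_mem' := by
        intro a b ha hb
        show τ (a * b) = a * b
        rw [map_mul, ha, hb]
      inv_mem' := by
        intro a ha
        show τ a⁻¹ = a⁻¹
        rw [map_inv, ha] }
  have hFtop : F ≠ ⊤ := by
    intro h
    have : τ = 1 := by
      ext x
      exact (h ▸ Subgroup.mem_top x : x ∈ F)
    rw [this, orderOf_one] at hτ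
    exact hr.one_lt.ne hτ
  let f : Function.End Q := fun x => τ x
  have hfpow : ∀ k : ℕ, ∀ x, (f ^ k) x = (τ ^ k) x := by
    intro k
    induction k with
    | zero => intro x; rfl
    | succ k ih =>
      intro x
      rw [pow_succ, pow_succ]
      show (f ^ k) (f x) = (τ ^ k) (τ x)
      exact ih _
  have hf : f ^ r ^ 1 = 1 := by
    funext x
    rw [pow_one, hfpow, ← hτ, pow_orderOf_eq_one]
    rfl
  have hmod := Equiv.Perm.card_fixedPoints_modEq hf
  have hfix : Fintype.card (Function.fixedPoints f) = Nat.card F := by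
    rw [← Nat.card_eq_fintype_card]
    rfl
  rw [hfix, ← Nat.card_eq_fintype_card] at hmod
  have hdvd : Nat.card F ∣ Nat.card Q := Subgroup.card_subgroup_dvd_card F
  rw [hQ] at hdvd hmod
  obtain ⟨j, hj, hFj⟩ := (Nat.dvd_prime_pow Nat.prime_two).mp hdvd
  have hjlt : j ≠ i := by
    rintro rfl
    exact hFtop (Subgroup.eq_top_of_card_eq F (by rw [hFj, hQ]))
  rw [hFj] at hmod
  have hle : 2 ^ j ≤ 2 ^ i := Nat.pow_le_pow_right (by norm_num) hj
  have hd : r ∣ 2 ^ i - 2 ^ j := (Nat.modEq_iff_dvd' hle).mp hmod.symm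
  rw [hQ]
  have hr1 := hr.one_lt
  have hjlt' : j < i := lt_of_le_of_ne hj hjlt
  clear hmod hdvd hFj hQ hle hjlt hj hfix hf hfpow hFtop
  interval_cases i <;> interval_cases j
  all_goals
    have hle7 : r ≤ 7 := le_trans (Nat.le_of_dvd (by norm_num) hd) (by norm_num)
    interval_cases r <;>
      first
        | (exfalso; revert hd; decide)
        | (exfalso; revert hr; decide)
        | (exfalso; exact hr2 rfl)
        | decide

/-- A non-abelian finite simple group of even order has order divisible by 12, 16 or 56. -/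
theorem result {G : Type*} [Group G] [Finite G] [IsSimpleGroup G]
    (hG : ¬ IsMulCommutative G) (h2 : Even (Nat.card G)) :
    12 ∣ Nat.card G ∨ 16 ∣ Nat.card G ∨ 56 ∣ Nat.card G := by
  classical
  have hp2 : Fact (Nat.Prime 2) := ⟨Nat.prime_two⟩
  have hcyc : ¬ IsCyclic G := by
    intro h
    exact hG ⟨⟨IsCyclic.commGroup.mul_comm⟩⟩
  by_contra hcon
  push Not at hcon
  obtain ⟨h12, h16, h56⟩ := hcon
  obtain ⟨P⟩ : Nonempty (Sylow 2 G) := inferInstance
  obtain ⟨k, hk⟩ := IsPGroup.iff_card.mp P.isPGroup'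
  have hPdvd : Nat.card (P : Subgroup G) ∣ Nat.card G := Subgroup.card_subgroup_dvd_card _
  have hk3 : k ≤ 3 := by
    by_contra hlt
    apply h16
    have : (2 : ℕ) ^ 4 ∣ 2 ^ k := pow_dvd_pow 2 (by omega)
    exact (by norm_num : (16 : ℕ) = 2 ^ 4) ▸ (this.trans (hk ▸ hPdvd))
  have hfrob : ∀ Q : Subgroup G, Q ≤ (P : Subgroup G) → ∀ g ∈ Subgroup.normalizer (Q : Set G),
      Nat.Coprime (orderOf g) 2 → g ∈ Subgroup.centralizer (Q : Set G) := by
    intro Q hQP g hg hodd
    by_contra hnot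
    have hQdvd : Nat.card Q ∣ 2 ^ k := hk ▸ Subgroup.card_dvd_of_le hQP
    obtain ⟨i, hik, hQi⟩ := (Nat.dvd_prime_pow Nat.prime_two).mp hQdvd
    set σ : MulAut Q := Q.normalizerMonoidHom ⟨g, hg⟩ with hσ
    have hσ1 : σ ≠ 1 := by
      intro h
      have h1 : (⟨g, hg⟩ : Subgroup.normalizer (Q : Set G)) ∈ Q.normalizerMonoidHom.ker := h
      rw [Subgroup.normalizerMonoidHom_ker, Subgroup.mem_subgroupOf] at h1
      exact hnot h1
    have hσord : orderOf σ ∣ orderOf g := by
      have := orderOf_map_dvd Q.normalizerMonoidHom (⟨g, hg⟩ : Subgroup.normalizer (Q : Set G))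
      rwa [Subgroup.orderOf_mk] at this
    have hne1 : orderOf σ ≠ 1 := by
      rw [Ne, orderOf_eq_one_iff]; exact hσ1
    obtain ⟨r, hr, hrd⟩ := Nat.exists_prime_and_dvd hne1
    have hpos : 0 < orderOf σ := Nat.pos_of_dvd_of_pos hσord (orderOf_pos g)
    have hτ : orderOf (σ ^ (orderOf σ / r)) = r := orderOf_pow_orderOf_div hpos.ne' hrd
    have hrg : r ∣ orderOf g := hrd.trans hσord
    have hr2 : r ≠ 2 := by
      rintro rfl
      have := Nat.Coprime.coprime_dvd_left hrg hodd
      norm_num at this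
    have hrG : r ∣ Nat.card G := hrg.trans (orderOf_dvd_natCard g)
    have hQG : Nat.card Q ∣ Nat.card G := Subgroup.card_subgroup_dvd_card Q
    rcases aut_small (hik.trans hk3) hQi _ hr hr2 hτ with ⟨rfl, h4⟩ | ⟨rfl, h8⟩
    · apply h12
      have : Nat.Coprime 3 4 := by norm_num
      exact (by norm_num : (12 : ℕ) = 3 * 4) ▸ this.mul_dvd_of_dvd_of_dvd hrG (h4.trans hQG)
    · apply h56
      have : Nat.Coprime 7 8 := by norm_num
      exact (by norm_num : (56 : ℕ) = 7 * 8) ▸ this.mul_dvd_of_dvd_of_dvd hrG (h8.trans hQG)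
  obtain ⟨N, hN, hc⟩ := (Cfsg.Agent.S0071.result P).mpr hfrob
  have hcard := hc.card_mul_card
  rcases hN.eq_bot_or_eq_top with h1 | h1
  · rw [h1, Subgroup.card_bot, one_mul] at hcard
    apply not_isPGroup_of_simple hcyc 2
    have h3 : (P : Subgroup G) = ⊤ := Subgroup.eq_top_of_card_eq _ hcard
    have := P.isPGroup'
    rw [h3] at this
    exact this.of_equiv Subgroup.topEquiv
  · rw [h1, Subgroup.card_top] at hcard
    have h3 : Nat.card (P : Subgroup G) = 1 := by
      have hpos : 0 < Nat.card G := Nat.card_pos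
      exact Nat.eq_of_mul_eq_mul_left hpos (by rw [hcard, mul_one])
    have := P.dvd_card_of_dvd_card h2.two_dvd
    rw [h3] at this
    norm_num at this

end Cfsg.Agent.S0499
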