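import Cfsg.Statements.S0502
import Cfsg.Agent.Lib.Helper11.Four

set_option autoImplicit false
open Cfsg

namespace Cfsg.Agent.S0502

open Cfsg.Agent.Lib.Helper11

/-- a nontrivial normal subgroup of a finite 2-group contains a nontrivial central element -/
theorem exists_central {P : Type*} [Group P] [Finite P] (hP : IsPGroup 2 P)
    (E : Subgroup P) [E.Normal] (hE8 : 8 ≤ Nat.card E) :
    ∃ e ∈ E, e ≠ 1 ∧ ∀ x : P, x * e = e * x := by
  classical
  have : Fact (Nat.Prime 2) := ⟨Nat.prime_two⟩
  have hEp : IsPGroup 2 E := hP.to_subgroup E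
  obtain ⟨n, hn⟩ := IsPGroup.iff_card.mp hEp
  have h2 : 2 ∣ Nat.card E := by
    rw [hn]
    have : n ≠ 0 := by
      rintro rfl
      omega
    exact dvd_pow_self 2 this
  have h1 : (1 : E) ∈ MulAction.fixedPoints (ConjAct P) E := by
    intro g
    exact smul_one g
  obtain ⟨b, hb, hne⟩ :=
    (hP.of_equiv ConjAct.toConjAct).exists_fixed_point_of_prime_dvd_card_of_fixed_point E h2 h1
  refine ⟨b, b.2, ?_, ?_⟩
  · intro h
    exact hne (Subtype.ext h.symm)
  · intro x
    have := hb (ConjAct.toConjAct x)
    have h3 := congrArg Subtype.val this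
    rw [ConjAct.Subgroup.val_conj_smul, ConjAct.toConjAct_smul] at h3
    calc x * b = x * b * x⁻¹ * x := by group
      _ = b * x := by rw [h3]

/-- the centralizer in `E` of an element squaring to one has at least three elements -/
theorem card_centralizer_ge {P : Type*} [Group P] [Finite P]
    (E : Subgroup P) [hn : E.Normal] (hE : IsMulCommutative E) (hE2 : ∀ e ∈ E, e ^ 2 = 1)
    (hE8 : 8 ≤ Nat.card E) (u : P) (hu : u * u = 1) :
    3 ≤ Nat.card (E ⊓ Subgroup.centralizer ({u} : Set P) : Subgroup P) := by
  classical
  have hui : u⁻¹ = u := inv_eq_of_mul_eq_one_left hu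
  have hcomm : ∀ x ∈ E, ∀ y ∈ E, x * y = y * x := by
    intro x hx y hy
    exact congrArg Subtype.val (hE.is_comm.comm ⟨x, hx⟩ ⟨y, hy⟩)
  have hconj : ∀ x ∈ E, u * x * u ∈ E := by
    intro x hx
    have := hn.conj_mem x hx u
    rwa [hui] at this
  set C : Subgroup P := E ⊓ Subgroup.centralizer ({u} : Set P) with hC
  have hmemC : ∀ x ∈ E, x * (u * x * u) ∈ C := by
    intro x hx
    refine Subgroup.mem_inf.mpr ⟨E.mul_mem hx (hconj x hx), ?_⟩
    rw [Subgroup.mem_centralizer_singleton_iff]
    have h1 := hcomm x hx _ (hconj x hx)
    calc x * (u * x * u) * u = x * (u * x) * (u * u) := by group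
      _ = x * (u * x) := by rw [hu, mul_one]
      _ = (x * (u * x * u)) * u := by
          have : x * (u * x * u) * u = x * (u * x) * (u * u) := by group
          rw [this, hu, mul_one]
      _ = (u * x * u * x) * u := by rw [h1]
      _ = u * (x * (u * x * u)) := by group
  let φ : E →* C :=
    { toFun := fun x => ⟨x * (u * x * u), hmemC x x.2⟩
      map_one' := by
        apply Subtype.ext
        simp [hu]
      map_mul' := by
        intro x y
        apply Subtype.ext
        show (x : P) * y * (u * (x * y) * u) = (x * (u * x * u)) * (y * (u * y * u))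
        have h1 := hcomm y y.2 _ (hconj x x.2)
        calc (x : P) * y * (u * (x * y) * u) = x * y * (u * x * (u * u) * y * u) := by
              rw [hu]; group
          _ = x * (y * (u * x * u)) * (u * y * u) := by group
          _ = x * ((u * x * u) * y) * (u * y * u) := by rw [h1]
          _ = (x * (u * x * u)) * (y * (u * y * u)) := by group }
  have hker : Nat.card φ.ker ≤ Nat.card C := by
    apply Nat.card_le_card_of_injective
      (fun x : φ.ker => (⟨((x : E) : P), by
        refine Subgroup.mem_inf.mpr ⟨(x : E).2, ?_⟩
        rw [Subgroup.mem_centralizer_singleton_iff]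
        have h1 : φ (x : E) = 1 := x.2
        have h2 : (((x : E) : P)) * (u * ((x : E) : P) * u) = 1 := congrArg Subtype.val h1
        have h3 : ((x : E) : P) * ((x : E) : P) = 1 := by
          have := hE2 _ (x : E).2
          rwa [pow_two] at this
        have h4 : u * ((x : E) : P) * u = ((x : E) : P) := by
          have : ((x : E) : P) * (u * ((x : E) : P) * u) = ((x : E) : P) * ((x : E) : P) := by
            rw [h2, h3]
          exact mul_left_cancel this
        calc ((x : E) : P) * u = (u * ((x : E) : P) * u) * u := by rw [h4]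
          _ = u * ((x : E) : P) * (u * u) := by group
          _ = u * ((x : E) : P) := by rw [hu, mul_one]⟩ : C))
    intro x y hxy
    apply Subtype.ext
    apply Subtype.ext
    exact congrArg (fun z : C => (z : P)) hxy
  have hrange : Nat.card φ.range ≤ Nat.card C := by
    exact Nat.card_le_card_of_injective (fun x : φ.range => (x : C)) Subtype.val_injective
  have hmul : Nat.card φ.ker * Nat.card φ.range = Nat.card E := by
    rw [← Subgroup.index_ker]
    exact Subgroup.card_mul_index _
  by_contra hlt
  have hlt' : Nat.card C ≤ 2 := by omega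
  have : Nat.card E ≤ 2 * 2 := by
    rw [← hmul]
    exact Nat.mul_le_mul (hker.trans hlt') (hrange.trans hlt')
  omega

/-- If a finite 2-group has a normal elementary abelian subgroup of order at least 8, then any two of its Klein
four-subgroups are joined by a chain of Klein four-subgroups with consecutive members commuting elementwise. -/
theorem result {P : Type*} [Group P] [Finite P] (hP : IsPGroup 2 P)
    (E : Subgroup P) [E.Normal] (hE : IsMulCommutative E) (hE2 : ∀ e ∈ E, e ^ 2 = 1) (hE8 : 8 ≤ Nat.card E) :
    Cfsg.IsFourConnected P := by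
  classical
  obtain ⟨e, heE, he1, hec⟩ := exists_central hP E hE8
  have hee : e * e = 1 := by
    have := hE2 e heE
    rwa [pow_two] at this
  have hcomm : ∀ x ∈ E, ∀ y ∈ E, x * y = y * x := by
    intro x hx y hy
    exact congrArg Subtype.val (hE.is_comm.comm ⟨x, hx⟩ ⟨y, hy⟩)
  -- every four-group is joined to a four-group inside E
  have key : ∀ U : Subgroup P, IsKleinFour U →
      ∃ W : Subgroup P, W ≤ E ∧ IsKleinFour W ∧ Relation.ReflTransGen FourRel U W := by
    intro U hU
    obtain ⟨u, huU, hu1, hue⟩ := exists_mem_ne_ne U (by rw [hU.card_four]; norm_num) 1 e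
    have huu : u * u = 1 := kleinFour_mul_self hU huU
    obtain ⟨w, hwC, hw1, hwe⟩ := exists_mem_ne_ne _ (card_centralizer_ge E hE hE2 hE8 u huu) 1 e
    have hwE : w ∈ E := (Subgroup.mem_inf.mp hwC).1
    have hwu : w * u = u * w := by
      have := (Subgroup.mem_inf.mp hwC).2
      rwa [Subgroup.mem_centralizer_singleton_iff] at this
    have hww : w * w = 1 := by
      have := hE2 w hwE
      rwa [pow_two] at this
    have hA : IsKleinFour (fourSub u e (hec u) huu hee) :=
      isKleinFour_fourSub u e (hec u) huu hee hu1 he1 hue
    have hW : IsKleinFour (fourSub w e (hec w) hww hee) :=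
      isKleinFour_fourSub w e (hec w) hww hee hw1 he1 hwe
    refine ⟨fourSub w e (hec w) hww hee, ?_, hW, ?_⟩
    · rintro x (rfl | rfl | rfl | rfl)
      · exact E.one_mem
      · exact hwE
      · exact heE
      · exact E.mul_mem hwE heE
    · have h1 : FourRel U (fourSub u e (hec u) huu hee) := by
        refine ⟨hU, hA, ?_⟩
        intro a ha b hb
        have hau : a * u = u * a := kleinFour_comm hU ha huU
        rcases hb with rfl | rfl | rfl | rfl
        · simp
        · exact hau
        · exact hec a
        · rw [← mul_assoc, hau, mul_assoc, hec a, mul_assoc]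
      have h2 : FourRel (fourSub u e (hec u) huu hee) (fourSub w e (hec w) hww hee) := by
        refine ⟨hA, hW, ?_⟩
        have hb : ∀ b ∈ fourSub w e (hec w) hww hee, u * b = b * u := by
          rintro b (rfl | rfl | rfl | rfl)
          · simp
          · exact hwu.symm
          · exact hec u
          · rw [← mul_assoc, ← hwu, mul_assoc, hec u, mul_assoc]
        intro a ha b hbm
        rcases ha with rfl | rfl | rfl | rfl
        · simp
        · exact hb b hbm
        · exact (hec b).symm
        · rw [mul_assoc, ← hec b, ← mul_assoc, hb b hbm, mul_assoc]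
      exact Relation.ReflTransGen.tail (Relation.ReflTransGen.single h1) h2
  rw [isFourConnected_iff]
  intro U V hU hV
  obtain ⟨W, hWE, hW, hUW⟩ := key U hU
  obtain ⟨W', hWE', hW', hVW'⟩ := key V hV
  have hWW' : FourRel W W' := ⟨hW, hW', fun a ha b hb => hcomm a (hWE ha) b (hWE' hb)⟩
  exact (hUW.tail hWW').trans (fourRel_reflTransGen_symm hVW')

end Cfsg.Agent.S0502
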