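import Cfsg.Statements.S0505
import Cfsg.Agent.Lib.Helper11.AxB
import Cfsg.Agent.Lib.Helper11.Constrained

set_option autoImplicit false
open Cfsg

namespace Cfsg.Agent.S0505

open Cfsg.Agent.Lib.Helper11

variable {G : Type*} [Group G]

theorem exists_central_involution [Finite G] (T : Subgroup G) (hT : IsPGroup 2 T) (hT1 : T ≠ ⊥) :
    ∃ t ∈ T, orderOf t = 2 ∧ ∀ x ∈ T, x * t = t * x := by
  classical
  have : Fact (Nat.Prime 2) := ⟨Nat.prime_two⟩
  have : Nontrivial T := (Subgroup.nontrivial_iff_ne_bot T).mpr hT1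
  have hZ : Nontrivial (Subgroup.center T) := hT.center_nontrivial
  have hZp : IsPGroup 2 (Subgroup.center T) := hT.to_subgroup _
  obtain ⟨n, hn⟩ := IsPGroup.iff_card.mp hZp
  have h2Z : 2 ∣ Nat.card (Subgroup.center T) := by
    rw [hn]
    have : n ≠ 0 := by
      rintro rfl
      have h1 : 1 < Nat.card (Subgroup.center T) := Finite.one_lt_card
      omega
    exact dvd_pow_self 2 this
  obtain ⟨z, hz⟩ := exists_prime_orderOf_dvd_card' 2 h2Z
  refine ⟨((z : T) : G), (z : T).2, ?_, ?_⟩
  · rw [Subgroup.orderOf_coe, Subgroup.orderOf_coe]; exact hz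
  · intro x hx
    have := Subgroup.mem_center_iff.mp z.2 ⟨x, hx⟩
    exact congrArg Subtype.val this

theorem eq_one_of_mem_of_mem [Finite G] {p : ℕ} {Q D : Subgroup G} (hQ : IsPGroup p Q)
    (hD : (Nat.card D).Coprime p) {x : G} (hxQ : x ∈ Q) (hxD : x ∈ D) : x = 1 := by
  obtain ⟨k, hk⟩ := hQ ⟨x, hxQ⟩
  have h1 : x ^ p ^ k = 1 := congrArg Subtype.val hk
  have h2 : orderOf x ∣ Nat.card D := by
    have := orderOf_dvd_natCard (⟨x, hxD⟩ : D)
    rwa [Subgroup.orderOf_mk] at this
  have h3 : orderOf x ∣ Nat.gcd (Nat.card D) (p ^ k) :=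
    Nat.dvd_gcd h2 (orderOf_dvd_of_pow_eq_one h1)
  rw [Nat.Coprime.pow_right k hD] at h3
  exact orderOf_eq_one_iff.mp (Nat.dvd_one.mp h3)

theorem le_normalizer_of_conj_mem (N D : Subgroup G) (h : ∀ y ∈ N, ∀ d ∈ D, y * d * y⁻¹ ∈ D) :
    N ≤ Subgroup.normalizer (D : Set G) := by
  intro y hy
  rw [Subgroup.mem_normalizer_iff]
  intro x
  refine ⟨h y hy x, fun hx => ?_⟩
  have := h y⁻¹ (N.inv_mem hy) _ hx
  have e : y⁻¹ * (y * x * y⁻¹) * y⁻¹⁻¹ = x := by group
  rwa [e] at this

theorem map_subtype_normalized (N : Subgroup G) (D' : Subgroup N) [hD' : D'.Normal] :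
    N ≤ Subgroup.normalizer ((D'.map N.subtype : Subgroup G) : Set G) := by
  apply le_normalizer_of_conj_mem
  rintro y hy _ ⟨d, hd, rfl⟩
  exact ⟨⟨y, hy⟩ * d * ⟨y, hy⟩⁻¹, hD'.conj_mem d hd ⟨y, hy⟩, rfl⟩

theorem comm_of_disjoint [Finite G] {p : ℕ} {Q D : Subgroup G} (hQ : IsPGroup p Q)
    (hD : (Nat.card D).Coprime p) {d y : G} (hd : d ∈ D) (hy : y ∈ Q)
    (h1 : d * y * d⁻¹ ∈ Q) (h2 : y * d⁻¹ * y⁻¹ ∈ D) : y * d = d * y := by
  have hc : d * y * d⁻¹ * y⁻¹ = 1 := by
    apply eq_one_of_mem_of_mem hQ hD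
    · exact Q.mul_mem h1 (Q.inv_mem hy)
    · have e : d * y * d⁻¹ * y⁻¹ = d * (y * d⁻¹ * y⁻¹) := by group
      rw [e]
      exact D.mul_mem hd h2
  have : d * y = (d * y * d⁻¹ * y⁻¹) * (y * d) := by group
  rw [this, hc, one_mul]

/-- Let G be a finite group of even order in which the centralizer of every involution is solvable and has trivial
core (no nontrivial normal subgroup of odd order). Then G is of characteristic 2 type. -/
theorem result {G : Type*} [Group G] [Finite G]
    (h2 : Even (Nat.card G))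
    (hs : ∀ t : G, orderOf t = 2 → Group.IsSolvable (Subgroup.centralizer ({t} : Set G)))
    (hc : ∀ t : G, orderOf t = 2 → Cfsg.oddCore (Subgroup.centralizer ({t} : Set G)) = ⊥) :
    Cfsg.IsCharacteristicTwoType G := by
  classical
  have hp2 : Fact (Nat.Prime 2) := ⟨Nat.prime_two⟩
  refine ⟨h2, fun T hT hT1 => ?_⟩
  obtain ⟨t, htT, ht2, htc⟩ := exists_central_involution T hT hT1
  set N := Subgroup.normalizer (T : Set G) with hN
  set H := Subgroup.centralizer ({t} : Set G) with hH
  have hHsol : Group.IsSolvable H := hs t ht2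
  have hTN : T ≤ N := Subgroup.le_normalizer
  have hTH : T ≤ H := by
    intro x hx
    rw [hH, Subgroup.mem_centralizer_singleton_iff]
    exact htc x hx
  have hCTH : Subgroup.centralizer (T : Set G) ≤ H := by
    intro x hx
    rw [hH, Subgroup.mem_centralizer_singleton_iff]
    exact ((Subgroup.mem_centralizer_iff.mp hx) t htT).symm
  unfold Cfsg.IsOfCharacteristicTwo
  apply centralizer_pCore_le (p := 2)
  · -- the odd core of N is trivial
    apply pPrimeCore_eq_bot_of_forall
    intro D' hD'n hD'c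
    set D := D'.map N.subtype with hD
    have hDN : D ≤ N := Subgroup.map_subtype_le D'
    have hND : N ≤ Subgroup.normalizer (D : Set G) := map_subtype_normalized N D'
    have hDc : (Nat.card D).Coprime 2 := by
      rw [hD, Nat.card_congr (D'.equivMapOfInjective N.subtype Subtype.val_injective).symm.toEquiv]
      exact hD'c
    have hconjD : ∀ y ∈ N, ∀ d ∈ D, y * d * y⁻¹ ∈ D := by
      intro y hy d hd
      exact (Subgroup.mem_normalizer_iff.mp (hND hy) d).mp hd
    have hDT : D ≤ Subgroup.centralizer (T : Set G) := by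
      intro d hd
      rw [Subgroup.mem_centralizer_iff]
      intro x hx
      apply comm_of_disjoint hT hDc hd hx
      · exact (Subgroup.mem_normalizer_iff.mp (hDN hd) x).mp hx
      · exact hconjD x (hTN hx) _ (D.inv_mem hd)
    have hDH : D ≤ H := hDT.trans hCTH
    set Q := (Cfsg.pCore 2 H).map H.subtype with hQ
    have hQp : IsPGroup 2 Q := (isPGroup_pCore' (G := H) (p := 2)).map _
    have hHQ : H ≤ Subgroup.normalizer (Q : Set G) := map_subtype_normalized H (Cfsg.pCore 2 H)
    have hX : Subgroup.centralizer (Cfsg.pCore 2 H : Set H) ≤ Cfsg.pCore 2 H :=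
      centralizer_pCore_le (p := 2) (hc t ht2) inferInstance
    have hAB : D ≤ Subgroup.centralizer (Q : Set G) := by
      apply thompson_AxB (p := 2) T D hT hDc hDT Q hQp (hTH.trans hHQ) (hDH.trans hHQ)
      intro d hd
      rw [Subgroup.mem_centralizer_iff]
      intro y hy
      have hyQ : y ∈ Q := (Subgroup.mem_inf.mp hy).1
      have hyN : y ∈ N := (Subgroup.centralizer_le_normalizer (T : Set G)) (Subgroup.mem_inf.mp hy).2
      apply comm_of_disjoint hQp hDc hd hyQ
      · exact (Subgroup.mem_normalizer_iff.mp (hHQ (hDH hd)) y).mp hyQ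
      · exact hconjD y hyN _ (D.inv_mem hd)
    have hDbot : D = ⊥ := by
      rw [eq_bot_iff]
      intro d hd
      rw [Subgroup.mem_bot]
      have h1 : (⟨d, hDH hd⟩ : H) ∈ Subgroup.centralizer (Cfsg.pCore 2 H : Set H) := by
        rw [Subgroup.mem_centralizer_iff]
        intro y hy
        apply Subtype.ext
        exact (Subgroup.mem_centralizer_iff.mp (hAB hd)) y ⟨y, hy, rfl⟩
      have h3 : d ∈ Q := ⟨⟨d, hDH hd⟩, hX h1, rfl⟩
      exact eq_one_of_mem_of_mem hQp hDc h3 hd
    exact (Subgroup.map_eq_bot_iff_of_injective D' Subtype.val_injective).mp hDbot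
  · -- the centralizer of O_2(N) is solvable
    have hT'n : (T.subgroupOf N).Normal := Subgroup.normal_in_normalizer
    have hT'p : IsPGroup 2 (T.subgroupOf N) := hT.comap_subtype
    have hT'le : T.subgroupOf N ≤ Cfsg.pCore 2 N := le_pCore' _ hT'n hT'p
    have hmem : ∀ x : Subgroup.centralizer (Cfsg.pCore 2 N : Set N), ((x : N) : G) ∈ H := by
      intro x
      rw [hH, Subgroup.mem_centralizer_singleton_iff]
      have h1 : (⟨t, hTN htT⟩ : N) ∈ Cfsg.pCore 2 N := hT'le (Subgroup.mem_subgroupOf.mpr htT)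
      have h3 := (Subgroup.mem_centralizer_iff.mp x.2) _ h1
      exact (congrArg Subtype.val h3).symm
    let f : Subgroup.centralizer (Cfsg.pCore 2 N : Set N) →* H :=
      { toFun := fun x => ⟨((x : N) : G), hmem x⟩
        map_one' := rfl
        map_mul' := fun _ _ => rfl }
    apply Group.isSolvable_of_isSolvable_injective (f := f)
    intro x y hxy
    apply Subtype.ext
    apply Subtype.ext
    exact congrArg (fun z : H => (z : G)) hxy

end Cfsg.Agent.S0505
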