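import Cfsg.Statements.S0520
import Cfsg.Agent.Lib.Helper11.Four
import Cfsg.Agent.Lib.Helper11.SylowAux

set_option autoImplicit false
open Cfsg

namespace Cfsg.Agent.S0520

open Cfsg.Agent.Lib.Helper11
open scoped Pointwise

variable {G : Type*} [Group G]

theorem isKleinFour_of_mulEquiv {A B : Type*} [Group A] [Group B] (e : A ≃* B) (h : IsKleinFour A) :
    IsKleinFour B :=
  ⟨by rw [← Nat.card_congr e.toEquiv]; exact h.card_four,
   by rw [← Monoid.exponent_eq_of_mulEquiv e]; exact h.exponent_two⟩

theorem isKleinFour_map {H : Type*} [Group H] (f : G →* H) (hf : Function.Injective f)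
    {U : Subgroup G} (hU : IsKleinFour U) : IsKleinFour (U.map f) :=
  isKleinFour_of_mulEquiv (U.equivMapOfInjective f hf) hU

theorem isKleinFour_smul (g : G) {U : Subgroup G} (hU : IsKleinFour U) :
    IsKleinFour (MulAut.conj g • U : Subgroup G) :=
  isKleinFour_map _ (MulAut.conj g).injective hU

theorem isKleinFour_subgroupOf {U Q : Subgroup G} (h : U ≤ Q) (hU : IsKleinFour U) :
    IsKleinFour (U.subgroupOf Q) :=
  isKleinFour_of_mulEquiv (Subgroup.subgroupOfEquivOfLe h).symm hU

theorem isPGroup_kleinFour {U : Subgroup G} (hU : IsKleinFour U) : IsPGroup 2 U := by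
  have : Fact (Nat.Prime 2) := ⟨Nat.prime_two⟩
  exact IsPGroup.of_card (n := 2) (by rw [hU.card_four]; norm_num)

/-- rank at least two means there is a four-subgroup -/
theorem exists_four_of_not_rank (h : ¬ Cfsg.PRankLE 2 1 G) : ∃ U : Subgroup G, IsKleinFour U := by
  classical
  unfold Cfsg.PRankLE at h
  push Not at h
  obtain ⟨A, hA, hA2, hcard⟩ := h
  have hfin : Finite A := by
    apply Nat.finite_of_card_ne_zero
    omega
  have hsq : ∀ a ∈ A, a * a = 1 := fun a ha => by
    have := hA2 a ha
    rwa [pow_two] at this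
  have hcomm : ∀ x ∈ A, ∀ y ∈ A, x * y = y * x := by
    intro x hx y hy
    exact congrArg Subtype.val (hA.is_comm.comm ⟨x, hx⟩ ⟨y, hy⟩)
  have h3 : 3 ≤ Nat.card (⊤ : Subgroup A) := by
    rw [Subgroup.card_top]
    omega
  obtain ⟨a, -, ha1, -⟩ := exists_mem_ne_ne (⊤ : Subgroup A) h3 1 1
  obtain ⟨b, -, hb1, hba⟩ := exists_mem_ne_ne (⊤ : Subgroup A) h3 1 a
  refine ⟨fourSub (a : G) b (hcomm a a.2 b b.2) (hsq a a.2) (hsq b b.2), ?_⟩
  apply isKleinFour_fourSub
  · exact fun h => ha1 (Subtype.ext h)
  · exact fun h => hb1 (Subtype.ext h)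
  · exact fun h => hba (Subtype.ext h.symm)

theorem not_rank_of_four {U : Subgroup G} (hU : IsKleinFour U) : ¬ Cfsg.PRankLE 2 1 G := by
  intro h
  have := h U IsKleinFour.isMulCommutative (fun a ha => by
    rw [pow_two]; exact kleinFour_mul_self hU ha)
  rw [hU.card_four] at this
  omega

theorem not_rank_subgroup_iff (Q : Subgroup G) :
    ¬ Cfsg.PRankLE 2 1 Q ↔ ∃ U : Subgroup G, U ≤ Q ∧ IsKleinFour U := by
  constructor
  · intro h
    obtain ⟨U, hU⟩ := exists_four_of_not_rank h
    exact ⟨U.map Q.subtype, Subgroup.map_subtype_le U, isKleinFour_map _ Subtype.val_injective hU⟩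
  · rintro ⟨U, hUQ, hU⟩
    exact not_rank_of_four (isKleinFour_subgroupOf hUQ hU)

theorem fourRel_smul (g : G) {A B : Subgroup G} (h : FourRel A B) :
    FourRel (MulAut.conj g • A) (MulAut.conj g • B) := by
  refine ⟨isKleinFour_smul g h.1, isKleinFour_smul g h.2.1, ?_⟩
  intro a ha b hb
  rw [mem_conj_smul_iff] at ha hb
  have := h.2.2 _ ha _ hb
  calc a * b = g * ((g⁻¹ * a * g) * (g⁻¹ * b * g)) * g⁻¹ := by group
    _ = g * ((g⁻¹ * b * g) * (g⁻¹ * a * g)) * g⁻¹ := by rw [this]
    _ = b * a := by group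

theorem conn_smul (g : G) {A B : Subgroup G} (h : Relation.ReflTransGen FourRel A B) :
    Relation.ReflTransGen FourRel (MulAut.conj g • A) (MulAut.conj g • B) :=
  Relation.ReflTransGen.lift (fun A => MulAut.conj g • A) (fun _ _ h => fourRel_smul g h) _ _ h

theorem fourRel_map {H : Type*} [Group H] (f : G →* H) (hf : Function.Injective f)
    {A B : Subgroup G} (h : FourRel A B) : FourRel (A.map f) (B.map f) := by
  refine ⟨isKleinFour_map f hf h.1, isKleinFour_map f hf h.2.1, ?_⟩
  rintro _ ⟨a, ha, rfl⟩ _ ⟨b, hb, rfl⟩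
  rw [← map_mul, ← map_mul, h.2.2 a ha b hb]

/-- four-subgroups of a four-connected subgroup are joined in the big group -/
theorem conn_of_le {S : Subgroup G} (hS : Cfsg.IsFourConnected S) {U V : Subgroup G}
    (hUS : U ≤ S) (hVS : V ≤ S) (hU : IsKleinFour U) (hV : IsKleinFour V) :
    Relation.ReflTransGen FourRel U V := by
  have h := (isFourConnected_iff.mp hS) _ _ (isKleinFour_subgroupOf hUS hU)
    (isKleinFour_subgroupOf hVS hV)
  have h2 := Relation.ReflTransGen.lift (fun A : Subgroup S => A.map S.subtype)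
    (fun _ _ h => fourRel_map S.subtype Subtype.val_injective h) _ _ h
  simp only [Function.onFun, Subgroup.subgroupOf_map_subtype] at h2
  rwa [inf_eq_left.mpr hUS, inf_eq_left.mpr hVS] at h2

theorem smul_smul_inv (g : G) (U : Subgroup G) : MulAut.conj g • (MulAut.conj g⁻¹ • U) = U := by
  rw [smul_smul, ← map_mul, mul_inv_cancel, map_one, one_smul]

theorem inv_smul_smul' (g : G) (U : Subgroup G) : MulAut.conj g⁻¹ • (MulAut.conj g • U) = U := by
  rw [smul_smul, ← map_mul, inv_mul_cancel, map_one, one_smul]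

theorem exists_conj_le [Finite G] (S : Sylow 2 G) {U : Subgroup G} (hU : IsKleinFour U) :
    ∃ g : G, MulAut.conj g • U ≤ (S : Subgroup G) := by
  have : Fact (Nat.Prime 2) := ⟨Nat.prime_two⟩
  obtain ⟨k, -, hk⟩ := exists_conj_le_sylow_of_le (⊤ : Subgroup G) S le_top U
    (isPGroup_kleinFour hU) le_top
  exact ⟨k, hk⟩

theorem smul_eq_of_mem_normalizer {g : G} {Q : Subgroup G}
    (hg : g ∈ Subgroup.normalizer (Q : Set G)) : MulAut.conj g • Q = Q := by
  ext x
  rw [mem_conj_smul_iff]
  exact ((Subgroup.mem_normalizer_iff''.mp hg) x).symm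

/-- Let G be a finite group of 2-rank at least 2 and S a Sylow 2-subgroup whose commuting graph of Klein four-subgroups is
connected. Then the commuting graph of Klein four-subgroups of G is disconnected if and only if the 2-generated core — the
subgroup generated by the normalizers N_G(Q) of the subgroups Q of S that contain a Klein four-group — is a proper
subgroup of G. -/
theorem result {G : Type*} [Group G] [Finite G] (h2 : ¬ Cfsg.PRankLE 2 1 G)
    (S : Sylow 2 G) (hS : Cfsg.IsFourConnected (S : Subgroup G)) :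
    ¬ Cfsg.IsFourConnected G ↔
      (⨆ Q : {Q : Subgroup G // Q ≤ (S : Subgroup G) ∧ ¬ Cfsg.PRankLE 2 1 Q},
          Subgroup.normalizer ((Q : Subgroup G) : Set G)) ≠ ⊤ := by
  classical
  have hp2 : Fact (Nat.Prime 2) := ⟨Nat.prime_two⟩
  set Γ : Subgroup G := (⨆ Q : {Q : Subgroup G // Q ≤ (S : Subgroup G) ∧ ¬ Cfsg.PRankLE 2 1 Q},
          Subgroup.normalizer ((Q : Subgroup G) : Set G)) with hΓ
  have hNΓ : ∀ Q : Subgroup G, Q ≤ (S : Subgroup G) → (∃ U : Subgroup G, U ≤ Q ∧ IsKleinFour U) →
      Subgroup.normalizer (Q : Set G) ≤ Γ := by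
    intro Q hQS hQ
    exact le_iSup (fun Q : {Q : Subgroup G // Q ≤ (S : Subgroup G) ∧ ¬ Cfsg.PRankLE 2 1 Q} =>
      Subgroup.normalizer ((Q : Subgroup G) : Set G)) ⟨Q, hQS, (not_rank_subgroup_iff Q).mpr hQ⟩
  -- a four-subgroup of S
  obtain ⟨U', hU'⟩ := exists_four_of_not_rank h2
  obtain ⟨g0, hg0⟩ := exists_conj_le S hU'
  set U0 : Subgroup G := MulAut.conj g0 • U' with hU0def
  have hU0 : IsKleinFour U0 := isKleinFour_smul g0 hU'
  have hNS : Subgroup.normalizer ((S : Subgroup G) : Set G) ≤ Γ := hNΓ S le_rfl ⟨U0, hg0, hU0⟩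
  have hSΓ : (S : Subgroup G) ≤ Γ := Subgroup.le_normalizer.trans hNS
  rw [not_iff_comm, not_not]
  constructor
  · -- Γ = ⊤ implies connectivity
    intro htop
    let T : Subgroup G :=
      { carrier := {g | ∀ V : Subgroup G, Relation.ReflTransGen FourRel U0 V ↔
          Relation.ReflTransGen FourRel U0 (MulAut.conj g • V)}
        one_mem' := by
          intro V
          rw [map_one, one_smul]
        mul_mem' := by
          intro a b ha hb V
          rw [map_mul, mul_smul]
          exact (hb V).trans (ha _)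
        inv_mem' := by
          intro a ha V
          have := ha (MulAut.conj a⁻¹ • V)
          rw [smul_smul_inv] at this
          exact this.symm }
    have hT : Γ ≤ T := by
      apply iSup_le
      rintro ⟨Q, hQS, hQ⟩
      obtain ⟨U1, hU1Q, hU1⟩ := (not_rank_subgroup_iff Q).mp hQ
      have one_dir : ∀ g ∈ Subgroup.normalizer (Q : Set G), ∀ V : Subgroup G,
          Relation.ReflTransGen FourRel U0 V →
          Relation.ReflTransGen FourRel U0 (MulAut.conj g • V) := by
        intro g hg V hV
        have h1 : MulAut.conj g • U1 ≤ (S : Subgroup G) := by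
          have : MulAut.conj g • U1 ≤ MulAut.conj g • Q :=
            Subgroup.pointwise_smul_le_pointwise_smul_iff.mpr hU1Q
          rw [smul_eq_of_mem_normalizer hg] at this
          exact this.trans hQS
        have c1 : Relation.ReflTransGen FourRel U0 (MulAut.conj g • U1) :=
          conn_of_le hS hg0 h1 hU0 (isKleinFour_smul g hU1)
        have c2 : Relation.ReflTransGen FourRel U1 U0 :=
          conn_of_le hS (hU1Q.trans hQS) hg0 hU1 hU0
        exact c1.trans ((conn_smul g c2).trans (conn_smul g hV))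
      intro g hg V
      refine ⟨one_dir g hg V, fun h => ?_⟩
      have := one_dir g⁻¹ (Subgroup.inv_mem _ hg) _ h
      rwa [inv_smul_smul'] at this
    have hTtop : ∀ g : G, g ∈ T := fun g => hT (htop ▸ Subgroup.mem_top g)
    have hconn : ∀ V : Subgroup G, IsKleinFour V → Relation.ReflTransGen FourRel U0 V := by
      intro V hV
      obtain ⟨g, hg⟩ := exists_conj_le S hV
      have c1 : Relation.ReflTransGen FourRel U0 (MulAut.conj g • V) :=
        conn_of_le hS hg0 hg hU0 (isKleinFour_smul g hV)
      exact ((hTtop g) V).mpr c1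
    rw [isFourConnected_iff]
    intro U V hU hV
    exact (fourRel_reflTransGen_symm (hconn U hU)).trans (hconn V hV)
  · -- connectivity implies Γ = ⊤
    intro hconn
    rw [isFourConnected_iff] at hconn
    -- key lemma
    have key : ∀ R : Subgroup G, IsPGroup 2 R → (∃ U : Subgroup G, U ≤ R ⊓ Γ ∧ IsKleinFour U) →
        R ≤ Γ := by
      rintro R hR ⟨U, hUR, hU⟩
      have hR0 : IsPGroup 2 (R ⊓ Γ : Subgroup G) := hR.to_inf_left
      obtain ⟨k, hkΓ, hk⟩ := exists_conj_le_sylow_of_le Γ S hSΓ (R ⊓ Γ) hR0 inf_le_right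
      have hNQ : Subgroup.normalizer ((MulAut.conj k • (R ⊓ Γ) : Subgroup G) : Set G) ≤ Γ :=
        hNΓ _ hk ⟨MulAut.conj k • U, Subgroup.pointwise_smul_le_pointwise_smul_iff.mpr hUR,
          isKleinFour_smul k hU⟩
      have heq : R ⊓ Γ = R := by
        apply eq_of_normalizer_inf_le (p := 2) R (R ⊓ Γ) hR inf_le_left
        intro x hxR hxN
        refine Subgroup.mem_inf.mpr ⟨hxR, ?_⟩
        have h1 : k * x * k⁻¹ ∈
            Subgroup.normalizer ((MulAut.conj k • (R ⊓ Γ) : Subgroup G) : Set G) := by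
          rw [Subgroup.mem_normalizer_iff]
          intro h
          rw [mem_conj_smul_iff, mem_conj_smul_iff]
          have := (Subgroup.mem_normalizer_iff.mp hxN) (k⁻¹ * h * k)
          have e : k⁻¹ * (k * x * k⁻¹ * h * (k * x * k⁻¹)⁻¹) * k = x * (k⁻¹ * h * k) * x⁻¹ := by
            group
          rw [e]
          exact this
        have h2 := hNQ h1
        have e : x = k⁻¹ * (k * x * k⁻¹) * k := by group
        rw [e]
        exact Γ.mul_mem (Γ.mul_mem (Γ.inv_mem hkΓ) h2) hkΓ
      exact inf_eq_left.mp heq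
    have step : ∀ U V : Subgroup G, U ≤ Γ → FourRel U V → V ≤ Γ := by
      intro U V hUΓ hUV
      have hUn : U ≤ Subgroup.normalizer (V : Set G) := by
        intro u hu
        rw [Subgroup.mem_normalizer_iff]
        intro v
        constructor
        · intro hv
          have : u * v * u⁻¹ = v := by rw [hUV.2.2 u hu v hv]; group
          rwa [this]
        · intro hv
          have h1 := hUV.2.2 u hu _ hv
          have : u * v * u⁻¹ = v := by
            have h2 : u * (u * v * u⁻¹) = u * v := by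
              rw [h1]; group
            exact mul_left_cancel h2
          rwa [this] at hv
      have hR : IsPGroup 2 (U ⊔ V : Subgroup G) :=
        (isPGroup_kleinFour hUV.1).to_sup_of_normal_right' (isPGroup_kleinFour hUV.2.1) hUn
      exact le_sup_right.trans (key _ hR ⟨U, le_inf le_sup_left hUΓ, hUV.1⟩)
    have chain : ∀ V : Subgroup G, Relation.ReflTransGen FourRel U0 V → V ≤ Γ := by
      intro V hV
      induction hV with
      | refl => exact hg0.trans hSΓ
      | tail _ h2 ih => exact step _ _ ih h2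
    rw [eq_top_iff]
    intro g _
    have h1 : MulAut.conj g • U0 ≤ Γ := chain _ (hconn _ _ hU0 (isKleinFour_smul g hU0))
    have h2 : ((g • S : Sylow 2 G) : Subgroup G) ≤ Γ := by
      apply key _ (g • S).isPGroup'
      refine ⟨MulAut.conj g • U0, le_inf ?_ h1, isKleinFour_smul g hU0⟩
      rw [Sylow.coe_subgroup_smul]
      exact Subgroup.pointwise_smul_le_pointwise_smul_iff.mpr hg0
    obtain ⟨k, hkΓ, hk⟩ := exists_conj_le_sylow_of_le Γ S hSΓ _ (g • S).isPGroup' h2
    have h3 : (k * g) • S = S := by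
      rw [mul_smul]
      apply Sylow.ext
      have h4 : ((k • (g • S) : Sylow 2 G) : Subgroup G) ≤ (S : Subgroup G) := by
        rw [Sylow.coe_subgroup_smul]
        exact hk
      exact (k • (g • S)).is_maximal' S.isPGroup' h4 |>.symm
    have h5 : k * g ∈ Γ := hNS (Sylow.smul_eq_iff_mem_normalizer.mp h3)
    have e : g = k⁻¹ * (k * g) := by group
    rw [e]
    exact Γ.mul_mem (Γ.inv_mem hkΓ) h5

end Cfsg.Agent.S0520
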