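import Cfsg.Statements.S0521
import Cfsg.Agent.Lib.Helper30.PStable2
import Cfsg.Agent.Lib.Helper1.Coprime2
import Cfsg.Agent.Lib.Helper3.PGroup
import Cfsg.Agent.Lib.Helper60.Cores
import Cfsg.Agent.Lib.Helper40.Cores

set_option autoImplicit false
open Cfsg
open scoped commutatorElement

namespace Cfsg.Agent.S0521

universe u

/-- a `p`-element normalising a cyclic `p`-group `⟨w⟩` moves `w` by a `p`-th power. -/
theorem conj_comm_eq_pow {M : Type*} [Group M] {p : ℕ} [hp : Fact p.Prime] (a w : M) (k m j : ℕ)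
    (ha : a ^ p ^ k = 1) (hw : w ^ p ^ m = 1) (hj : a * w * a⁻¹ = w ^ j) :
    ∃ l : ℕ, a * w * a⁻¹ * w⁻¹ = (w ^ l) ^ p := by
  by_cases hw1 : w = 1
  · subst hw1; exact ⟨0, by simp⟩
  have hit : ∀ n : ℕ, a ^ n * w * (a ^ n)⁻¹ = w ^ (j ^ n) := by
    intro n
    induction n with
    | zero => simp
    | succ n ih =>
      have h1 : a ^ (n+1) * w * (a ^ (n+1))⁻¹ = a * (a ^ n * w * (a ^ n)⁻¹) * a⁻¹ := by
        rw [pow_succ']; group
      rw [h1, ih, ← conj_pow, hj, ← pow_mul, pow_succ, mul_comm]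
  have h1 := hit (p ^ k)
  rw [ha] at h1
  simp only [one_mul, inv_one, mul_one] at h1
  have hp_dvd : p ∣ orderOf w := by
    obtain ⟨i, _, hi⟩ := (Nat.dvd_prime_pow hp.out).1 (orderOf_dvd_of_pow_eq_one hw)
    rcases Nat.eq_zero_or_pos i with h0 | h0
    · rw [h0, pow_zero, orderOf_eq_one_iff] at hi
      exact absurd hi hw1
    · rw [hi]; exact dvd_pow_self p h0.ne'
  have h2 : j ^ p ^ k ≡ 1 [MOD orderOf w] := pow_eq_pow_iff_modEq.1 (by rw [pow_one]; exact h1.symm)
  have h3 : j ^ p ^ k ≡ 1 [MOD p] := h2.of_dvd hp_dvd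
  have h4 : (j : ZMod p) = 1 := by
    have := (ZMod.natCast_eq_natCast_iff _ _ _).2 h3
    push_cast at this
    rwa [ZMod.pow_card_pow] at this
  have h5 : j ≡ 1 [MOD p] := (ZMod.natCast_eq_natCast_iff _ _ _).1 (by simpa using h4)
  have hj1 : 1 ≤ j := by
    rcases Nat.eq_zero_or_pos j with h0 | h0
    · exfalso
      rw [h0] at h4
      simp at h4
    · exact h0
  obtain ⟨l, hl⟩ : p ∣ j - 1 := (Nat.modEq_iff_dvd' hj1).1 h5.symm
  refine ⟨l, ?_⟩
  rw [hj, ← pow_mul, mul_comm l p, ← hl, mul_inv_eq_iff_eq_mul, ← pow_succ, Nat.sub_add_cancel hj1]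

theorem core {G : Type u} [Group G] [Finite G] [Group.IsSolvable G] (hodd : Odd (Nat.card G))
    (p : ℕ) [hpf : Fact p.Prime] (hO : pPrimeCore p G = ⊥) (S : Sylow p G)
    (hS : IsCyclic (commutator (S : Subgroup G))) : (S : Subgroup G) ≤ pCore p G := by
  by_cases hp : p = 2
  · subst hp
    obtain ⟨k, hk⟩ := S.2.exists_card_eq
    have h1 : Nat.card (S : Subgroup G) ∣ Nat.card G := Subgroup.card_subgroup_dvd_card _
    have h2 : Odd (Nat.card (S : Subgroup G)) := Odd.of_dvd_nat hodd h1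
    have h3 : k = 0 := by
      by_contra h
      rw [hk] at h2
      exact (Nat.not_even_iff_odd.2 h2) ((Nat.even_pow.2 ⟨even_two, h⟩))
    rw [h3, pow_zero] at hk
    rw [Subgroup.card_eq_one.1 hk]
    exact bot_le
  set P : Subgroup G := pCore p G with hPdef
  have hPn : P.Normal := Cfsg.Agent.Lib.Helper30.pCore_normal' p G
  have hP : IsPGroup p P := Cfsg.Agent.Lib.Helper14.isPGroup_pCore
  have hCP : Subgroup.centralizer (P : Set G) ≤ P :=
    Cfsg.Agent.Lib.Helper30.centralizer_pCore_le_of_solvable hO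
  have hPS : P ≤ S := Cfsg.Agent.Lib.Helper14.pCore_le_sylow S
  set Φ : Subgroup G := (frattini P).map P.subtype with hΦ
  have hΦn : Φ.Normal := inferInstance
  set π := QuotientGroup.mk' Φ with hπ
  have hπs : Function.Surjective π := QuotientGroup.mk'_surjective Φ
  have hmem : ∀ x : G, π x = 1 ↔ x ∈ Φ := fun x => QuotientGroup.eq_one_iff x
  have hPbn : (P.map π).Normal := hPn.map π hπs
  have hPb : IsPGroup p (P.map π) := hP.map π
  have hoddb : Odd (Nat.card (G ⧸ Φ)) := Odd.of_dvd_nat hodd (Subgroup.card_quotient_dvd_card Φ)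
  have hΦp : IsPGroup p (frattini P) := hP.to_subgroup _
  have hC : IsPGroup p (Subgroup.centralizer ((P.map π : Subgroup (G ⧸ Φ)) : Set (G ⧸ Φ))) := by
    rintro ⟨xb, hxb⟩
    obtain ⟨x, rfl⟩ := hπs xb
    obtain ⟨k, m, hm, hkm⟩ := Nat.exists_eq_pow_mul_and_not_dvd (orderOf_pos x).ne' p
      hpf.out.ne_one
    refine ⟨k, ?_⟩
    apply Subtype.ext
    simp only [Subgroup.coe_pow, Subgroup.coe_one]
    rw [← map_pow]
    set y := x ^ p ^ k with hy
    have hyord : orderOf y = m := by
      rw [hy, orderOf_pow_of_dvd (pow_ne_zero _ hpf.out.ne_zero) ⟨m, hkm⟩, hkm]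
      exact Nat.mul_div_cancel_left _ (pow_pos hpf.out.pos _)
    have hcop : (orderOf y).Coprime p := by
      rw [hyord, Nat.coprime_comm]
      exact (Nat.Prime.coprime_iff_not_dvd hpf.out).2 hm
    have hA : Subgroup.zpowers y ≤ Subgroup.centralizer (P : Set G) := by
      apply Cfsg.Agent.Lib.Helper1.coprime_trivial_on_frattini_quotient
      · rw [Subgroup.normalizer_eq_top]; exact le_top
      · obtain ⟨e, he⟩ := hΦp.exists_card_eq
        rw [Nat.card_zpowers, he]
        exact Nat.Coprime.pow_right _ hcop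
      · intro a ha u hu
        rw [← hΦ, ← hmem]
        have haC : π a ∈ Subgroup.centralizer ((P.map π : Subgroup (G ⧸ Φ)) : Set (G ⧸ Φ)) := by
          obtain ⟨i, rfl⟩ := Subgroup.mem_zpowers_iff.1 ha
          rw [hy, map_zpow, map_pow]
          exact Subgroup.zpow_mem _ (Subgroup.pow_mem _ hxb _) _
        have := (Subgroup.mem_centralizer_iff.1 haC) (π u) (Subgroup.mem_map_of_mem π hu)
        rw [map_mul, map_mul, map_mul, map_inv, map_inv, ← this]
        group
    have hyP : y ∈ P := hCP (hA (Subgroup.mem_zpowers y))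
    obtain ⟨e, he⟩ := hP ⟨y, hyP⟩
    have he' : y ^ p ^ e = 1 := by
      have := congrArg Subtype.val he
      simpa using this
    rw [Cfsg.Agent.Lib.Helper40.eq_one_of_pow_eq_one_of_coprime he' hcop, map_one]
  intro a haS
  have hquad : Cfsg.Agent.Lib.Helper30.Quad (P.map π) (π a) := by
    rintro _ ⟨u, hu, rfl⟩
    set w := a * u * a⁻¹ * u⁻¹ with hw
    have hwP : w ∈ P := P.mul_mem (hPn.conj_mem u hu a) (P.inv_mem hu)
    have hgoal : a * w * a⁻¹ * w⁻¹ ∈ Φ := by
      obtain ⟨c, hc⟩ := hS.exists_generator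
      set a' : (S : Subgroup G) := ⟨a, haS⟩ with ha'
      set u' : (S : Subgroup G) := ⟨u, hPS hu⟩ with hu'
      have hw'mem : a' * u' * a'⁻¹ * u'⁻¹ ∈ commutator (S : Subgroup G) := by
        have : a' * u' * a'⁻¹ * u'⁻¹ = ⁅a', u'⁆ := rfl
        rw [this]
        exact Subgroup.commutator_mem_commutator (Subgroup.mem_top _) (Subgroup.mem_top _)
      have hcn : (commutator (S : Subgroup G)).Normal := inferInstance
      have hcmem : a' * (c : (S : Subgroup G)) * a'⁻¹ ∈ commutator (S : Subgroup G) :=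
        hcn.conj_mem _ c.2 _
      obtain ⟨i, hi⟩ := (mem_powers_iff_mem_zpowers (x := c)).2 (hc ⟨_, hw'mem⟩)
      obtain ⟨j, hj⟩ := (mem_powers_iff_mem_zpowers (x := c)).2 (hc ⟨_, hcmem⟩)
      have hi' : ((c : (S : Subgroup G)) : G) ^ i = w := by
        have := congrArg (fun z : commutator (S : Subgroup G) => ((z : (S : Subgroup G)) : G)) hi
        simpa using this
      have hj' : ((c : (S : Subgroup G)) : G) ^ j = a * ((c : (S : Subgroup G)) : G) * a⁻¹ := by
        have := congrArg (fun z : commutator (S : Subgroup G) => ((z : (S : Subgroup G)) : G)) hj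
        simpa using this
      have hconj : a * w * a⁻¹ = w ^ j := by
        rw [← hi', ← conj_pow, ← hj', ← pow_mul, ← pow_mul, mul_comm]
      obtain ⟨k, hk⟩ := S.2 a'
      have hk' : a ^ p ^ k = 1 := by
        have := congrArg Subtype.val hk
        simpa using this
      obtain ⟨m, hm⟩ := hP ⟨w, hwP⟩
      have hm' : w ^ p ^ m = 1 := by
        have := congrArg Subtype.val hm
        simpa using this
      obtain ⟨l, hl⟩ := conj_comm_eq_pow a w k m j hk' hm' hconj
      rw [hl]
      refine ⟨(⟨w ^ l, P.pow_mem hwP l⟩ : P) ^ p,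
        Cfsg.Agent.Lib.Helper3.pow_p_mem_frattini hP _, ?_⟩
      simp
    have h1 := (hmem _).2 hgoal
    rw [map_mul, map_inv, mul_inv_eq_one, map_mul, map_mul, map_inv, hw, map_mul, map_mul,
      map_mul, map_inv, map_inv] at h1
    exact h1
  have h1 := Cfsg.Agent.Lib.Helper30.pstable_mem_pCore hp hoddb (P.map π) hPb hC (π a) hquad
  have hDn : ((pCore p (G ⧸ Φ)).comap π).Normal :=
    (Cfsg.Agent.Lib.Helper30.pCore_normal' p (G ⧸ Φ)).comap π
  have hDp : IsPGroup p ((pCore p (G ⧸ Φ)).comap π) := by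
    apply IsPGroup.comap_of_ker_isPGroup Cfsg.Agent.Lib.Helper14.isPGroup_pCore
    rw [hπ, QuotientGroup.ker_mk']
    exact hΦp.map _
  exact Cfsg.Agent.Lib.Helper14.le_pCore hDn hDp (Subgroup.mem_comap.2 h1)

/-- Let X be a finite solvable group of odd order, p a prime and S a Sylow p-subgroup of X whose commutator subgroup is
cyclic. Then the product of the largest normal subgroup of X of order prime to p with S is a normal subgroup of X. -/
theorem result {X : Type*} [Group X] [Finite X] [Group.IsSolvable X]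
    (hX : Odd (Nat.card X)) (p : ℕ) [Fact p.Prime] (S : Sylow p X) (hS : IsCyclic (commutator (S : Subgroup X))) :
    (Cfsg.pPrimeCore p X ⊔ (S : Subgroup X)).Normal := by
  have hOn : (pPrimeCore p X).Normal := (Cfsg.Agent.Lib.Helper40.pPrimeCore_mem p X).1
  set π := QuotientGroup.mk' (pPrimeCore p X) with hπ
  have hπs : Function.Surjective π := QuotientGroup.mk'_surjective _
  set Sb : Sylow p (X ⧸ pPrimeCore p X) := S.mapSurjective hπs with hSb
  have hSbc : (Sb : Subgroup (X ⧸ pPrimeCore p X)) = (S : Subgroup X).map π := Sylow.coe_mapSurjective _ _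
  have hodd : Odd (Nat.card (X ⧸ pPrimeCore p X)) :=
    Odd.of_dvd_nat hX (Subgroup.card_quotient_dvd_card _)
  have hcyc : IsCyclic (commutator (Sb : Subgroup (X ⧸ pPrimeCore p X))) := by
    -- the surjection `S → Sb`
    let f : (S : Subgroup X) →* (Sb : Subgroup (X ⧸ pPrimeCore p X)) :=
      (π.comp (S : Subgroup X).subtype).codRestrict _ (fun s => by
        rw [hSbc]; exact ⟨s, s.2, rfl⟩)
    have hf : Function.Surjective f := by
      rintro ⟨y, hy⟩
      rw [hSbc] at hy
      obtain ⟨s, hs, rfl⟩ := hy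
      exact ⟨⟨s, hs⟩, rfl⟩
    have hmap : (commutator (S : Subgroup X)).map f = commutator (Sb : Subgroup (X ⧸ pPrimeCore p X)) := by
      rw [commutator_def, commutator_def, Subgroup.map_commutator,
        ← MonoidHom.range_eq_map, MonoidHom.range_eq_top.2 hf]
    rw [← hmap]
    exact isCyclic_of_surjective (f.subgroupMap (commutator (S : Subgroup X)))
      (f.subgroupMap_surjective _)
  have h1 := core hodd p (Cfsg.Agent.Lib.Helper60.pPrimeCore_quotient p) Sb hcyc
  have h2 : (Sb : Subgroup (X ⧸ pPrimeCore p X)) = pCore p (X ⧸ pPrimeCore p X) :=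
    le_antisymm h1 (Cfsg.Agent.Lib.Helper14.pCore_le_sylow Sb)
  have h3 : pPrimeCore p X ⊔ (S : Subgroup X) = (pCore p (X ⧸ pPrimeCore p X)).comap π := by
    rw [← h2, hSbc, Subgroup.comap_map_eq, hπ, QuotientGroup.ker_mk', sup_comm]
  rw [h3]
  exact (Cfsg.Agent.Lib.Helper30.pCore_normal' p _).comap π

end Cfsg.Agent.S0521
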