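import Cfsg.Statements.S1480
import Cfsg.Agent.Lib.Helper29.ThompsonTrans

set_option autoImplicit false
open Cfsg

namespace Cfsg.Agent.S1480

/-- Let G be a finite group and p a prime such that the normalizer of every nontrivial p-subgroup of G is p-constrained; if p = 2 assume also that the Sylow 2-subgroups of G have nilpotency class at most 2. Let E be an abelian p-subgroup containing an elementary abelian subgroup of order p ^ 3 and containing every element of p-power order of C_G(E). Then for every prime q ≠ p, any two maximal E-invariant q-subgroups of G are conjugate by an element of O_{p'}(C_G(E)). -/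
theorem result {G : Type*} [Group G] [Finite G] (p : ℕ) [Fact p.Prime]
    (hloc : ∀ T : Subgroup G, IsPGroup p T → T ≠ ⊥ → Cfsg.IsPConstrained p ↥(Subgroup.normalizer (T : Set G)))
    (h2 : p = 2 → ∀ S : Sylow p G, Group.IsNilpotent (S : Subgroup G) ∧ Group.nilpotencyClass (S : Subgroup G) ≤ 2)
    (E : Subgroup G) (hEp : IsPGroup p E) (hEc : IsMulCommutative E) (hE3 : ¬ Cfsg.PRankLE p 2 E)
    (hEfull : ∀ x ∈ Subgroup.centralizer (E : Set G), IsPGroup p (Subgroup.zpowers x) → x ∈ E)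
    (q : ℕ) [Fact q.Prime] (hqp : q ≠ p) :
    ∀ Q₁ ∈ Cfsg.maxInvSubgroups ⊤ E {q}, ∀ Q₂ ∈ Cfsg.maxInvSubgroups ⊤ E {q},
        ∃ k ∈ Cfsg.piCoreOf (Cfsg.primesNotDvd p) (Subgroup.centralizer (E : Set G)), Q₂ = Q₁.map (MulAut.conj k).toMonoidHom := by
  unfold Cfsg.PRankLE at hE3
  push Not at hE3
  obtain ⟨A', hA'c, hA'p, hA'k⟩ := hE3
  have hA : Cfsg.IsElementaryAbelian p (A'.map E.subtype) := by
    refine ⟨⟨⟨?_⟩⟩, ?_⟩
    · rintro ⟨_, a, ha, rfl⟩ ⟨_, b, hb, rfl⟩
      apply Subtype.ext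
      have := hA'c.is_comm.comm ⟨a, ha⟩ ⟨b, hb⟩
      have h2 := congrArg (fun z : A' => ((z : E) : G)) this
      simpa using h2
    · rintro _ ⟨a, ha, rfl⟩
      have := hA'p a ha
      have h2 := congrArg (fun z : E => (z : G)) this
      simpa using h2
  have hA3 : p ^ 3 ≤ Nat.card (A'.map E.subtype) := by
    rw [Subgroup.card_map_of_injective E.subtype_injective]
    obtain ⟨n, hn⟩ := IsPGroup.iff_card.1 (hEp.to_subgroup A')
    rw [hn] at hA'k ⊢
    have h1 : 2 < n := (Nat.pow_lt_pow_iff_right (Fact.out : p.Prime).one_lt).1 hA'k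
    exact Nat.pow_le_pow_right (Fact.out : p.Prime).pos h1
  have hEc' : ∀ a ∈ E, ∀ b ∈ E, a * b = b * a := by
    intro a ha b hb
    exact congrArg Subtype.val (hEc.is_comm.comm ⟨a, ha⟩ ⟨b, hb⟩)
  intro Q₁ h₁ Q₂ h₂
  exact Cfsg.Agent.Lib.Helper29.thompson_transitivity hloc h2 hEp hEc' hEfull
    (Subgroup.map_subtype_le A') hA hA3 hqp _ Q₁ Q₂ h₁ h₂ le_rfl

end Cfsg.Agent.S1480
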