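import Cfsg.Statements.S0522
import Cfsg.Agent.S1480
import Cfsg.Agent.S0629
import Cfsg.Agent.Lib.Helper31.PSolv
import Cfsg.Agent.Lib.Helper73.PSolvSub
import Cfsg.Agent.Lib.Helper11.SylowAux
import Cfsg.Agent.Lib.Helper11.NPC

set_option autoImplicit false
open Cfsg

namespace Cfsg.Agent.S0522

open Cfsg.Agent.Lib.Helper11
open scoped Pointwise

theorem mem_maxInv {X : Type*} [Group X] [Finite X] (B : Subgroup X) (q : ℕ) [hq : Fact q.Prime]
    (Q : Subgroup X)
    (h : IsPGroup q Q ∧ B ≤ Subgroup.normalizer (Q : Set X) ∧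
      ∀ R : Subgroup X, IsPGroup q R → B ≤ Subgroup.normalizer (R : Set X) → Q ≤ R → R = Q) :
    Q ∈ Cfsg.maxInvSubgroups ⊤ B {q} := by
  refine ⟨⟨le_top, ?_, h.2.1⟩, ?_⟩
  · intro r hr hrd
    obtain ⟨k, hk⟩ := IsPGroup.iff_card.1 h.1
    rw [hk] at hrd
    exact (Nat.prime_dvd_prime_iff_eq hr hq.out).1 (hr.dvd_of_dvd_pow hrd)
  · rintro R ⟨-, hR, hBR⟩ hQR
    apply h.2.2 R _ hBR hQR
    have := Nat.eq_prime_pow_of_unique_prime_dvd (n := Nat.card R) (p := q) Nat.card_pos.ne'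
      (fun {d} hd hdd => hR d hd hdd)
    exact IsPGroup.of_card this

/-- Transitivity Theorem (odd-order setting). Let X be a finite group of odd order in which the normalizer of every
nontrivial p-subgroup is solvable, P a Sylow p-subgroup, and B an abelian subgroup of P, normalized by P, with
C_P(B) = B and containing an elementary abelian subgroup of order p^3. Then for every prime q ≠ p, any two q-subgroups
that are maximal among the q-subgroups normalized by B are conjugate by an element of the centralizer of B. -/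
theorem result {X : Type*} [Group X] [Finite X] (hX : Odd (Nat.card X)) (p : ℕ)
    [Fact p.Prime] (hloc : ∀ T : Subgroup X, IsPGroup p T → T ≠ ⊥ → Group.IsSolvable (Subgroup.normalizer (T : Set X)))
    (P : Sylow p X) (B : Subgroup X) (hBP : B ≤ (P : Subgroup X))
    (hBn : ∀ x ∈ (P : Subgroup X), ∀ b ∈ B, x * b * x⁻¹ ∈ B) (hBa : IsMulCommutative B)
    (hBc : (P : Subgroup X) ⊓ Subgroup.centralizer (B : Set X) = B)
    (hB3 : ∃ E : Subgroup X, E ≤ B ∧ (∀ e ∈ E, e ^ p = 1) ∧ p ^ 3 ≤ Nat.card E)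
    (q : ℕ) [Fact q.Prime] (hqp : q ≠ p) (Q₁ Q₂ : Subgroup X)
    (h₁ : IsPGroup q Q₁ ∧ B ≤ Subgroup.normalizer (Q₁ : Set X) ∧
      ∀ R : Subgroup X, IsPGroup q R → B ≤ Subgroup.normalizer (R : Set X) → Q₁ ≤ R → R = Q₁)
    (h₂ : IsPGroup q Q₂ ∧ B ≤ Subgroup.normalizer (Q₂ : Set X) ∧
      ∀ R : Subgroup X, IsPGroup q R → B ≤ Subgroup.normalizer (R : Set X) → Q₂ ≤ R → R = Q₂) :
    ∃ c ∈ Subgroup.centralizer (B : Set X), Q₂ = Q₁.map (MulAut.conj c).toMonoidHom := by
  have hpp : p.Prime := Fact.out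
  have hBp : IsPGroup p B := P.2.to_le hBP
  obtain ⟨E, hEB, hEp, hE3⟩ := hB3
  have hp2 : p ≠ 2 := by
    intro hp
    obtain ⟨k, hk⟩ := IsPGroup.iff_card.1 (hBp.to_le hEB)
    have hk0 : k ≠ 0 := by
      rintro rfl
      rw [hk, pow_zero] at hE3
      have := Nat.one_lt_pow (n := 3) (by norm_num) hpp.one_lt
      omega
    have h2 : 2 ∣ Nat.card X := by
      have h3 : p ∣ Nat.card E := by rw [hk]; exact dvd_pow_self p hk0
      rw [hp] at h3
      exact h3.trans (Subgroup.card_subgroup_dvd_card E)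
    rw [← Nat.not_even_iff_odd] at hX
    exact hX (even_iff_two_dvd.2 h2)
  have hloc' : ∀ T : Subgroup X, IsPGroup p T → T ≠ ⊥ →
      Cfsg.IsPConstrained p ↥(Subgroup.normalizer (T : Set X)) := by
    intro T hT hne
    have := hloc T hT hne
    obtain ⟨P0⟩ : Nonempty (Sylow p ↥(Cfsg.pPrimePCore p ↥(Subgroup.normalizer (T : Set X)))) :=
      inferInstance
    apply Cfsg.Agent.S0629.result P0
    exact Cfsg.Agent.Lib.Helper73.isPSolvable_subgroup
      (Cfsg.Agent.Lib.Helper31.isPSolvable_of_isSolvable p _) _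
  have hrank : ¬ Cfsg.PRankLE p 2 B := by
    intro h
    have h1 := h (E.subgroupOf B) ?_ ?_
    · rw [Nat.card_congr (Subgroup.subgroupOfEquivOfLe hEB).toEquiv] at h1
      have := Nat.pow_lt_pow_right hpp.one_lt (show 2 < 3 by norm_num)
      omega
    · exact ⟨⟨fun a b => Subtype.ext (hBa.is_comm.comm a.1 b.1)⟩⟩
    · intro a ha
      exact Subtype.ext (hEp a.1 ha)
  have hPN : (P : Subgroup X) ≤ Subgroup.normalizer (B : Set X) := by
    intro x hx
    exact mem_normalizer_of_conj_mem B x (hBn x hx)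
  have hfull : ∀ x ∈ Subgroup.centralizer (B : Set X), IsPGroup p (Subgroup.zpowers x) → x ∈ B := by
    intro x hx hxp
    have hxN : Subgroup.zpowers x ≤ Subgroup.normalizer (B : Set X) := by
      rw [Subgroup.zpowers_le]
      exact Subgroup.centralizer_le_normalizer _ hx
    obtain ⟨k, hkN, hk⟩ := exists_conj_le_sylow_of_le _ P hPN (Subgroup.zpowers x) hxp hxN
    have h1 : k * x * k⁻¹ ∈ (P : Subgroup X) := hk (conj_mem_conj_smul (Subgroup.mem_zpowers x))
    have h2 : k * x * k⁻¹ ∈ Subgroup.centralizer (B : Set X) := by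
      rw [Subgroup.mem_centralizer_iff]
      intro b hb
      have hb' : k⁻¹ * b * k⁻¹⁻¹ ∈ B :=
        (Subgroup.mem_normalizer_iff.1 (Subgroup.inv_mem _ hkN) b).1 hb
      have h3 := Subgroup.mem_centralizer_iff.1 hx _ hb'
      calc b * (k * x * k⁻¹) = k * ((k⁻¹ * b * k⁻¹⁻¹) * x) * k⁻¹ := by group
        _ = k * (x * (k⁻¹ * b * k⁻¹⁻¹)) * k⁻¹ := by rw [h3]
        _ = k * x * k⁻¹ * b := by group
    have h4 : k * x * k⁻¹ ∈ B := hBc.le ⟨h1, h2⟩
    have h5 := (Subgroup.mem_normalizer_iff.1 (Subgroup.inv_mem _ hkN) _).1 h4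
    have e : k⁻¹ * (k * x * k⁻¹) * k⁻¹⁻¹ = x := by group
    rwa [e] at h5
  obtain ⟨c, hc, hcQ⟩ := Cfsg.Agent.S1480.result p hloc' (fun h => absurd h hp2) B hBp hBa hrank
    hfull q hqp Q₁ (mem_maxInv B q Q₁ h₁) Q₂ (mem_maxInv B q Q₂ h₂)
  exact ⟨c, Subgroup.map_subtype_le _ hc, hcQ⟩

end Cfsg.Agent.S0522
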