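import Cfsg.Statements.S0534
import Cfsg.Agent.S0003
import Mathlib

set_option autoImplicit false
open Cfsg

namespace Cfsg.Agent.S0534

universe u

theorem comm_clt_aux (n : ℕ) : ∀ (A : Type u) [CommGroup A] [Finite A], Nat.card A = n →
    ∀ e : ℕ, e ∣ Nat.card A → ∃ B : Subgroup A, Nat.card B = e := by
  induction n using Nat.strong_induction_on with
  | _ n ih =>
    intro A _ _ hcard e he
    by_cases he1 : e = 1
    · exact ⟨⊥, by rw [he1, Subgroup.card_bot]⟩
    obtain ⟨p, hp, hpe⟩ := Nat.exists_prime_and_dvd he1
    have := Fact.mk hp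
    obtain ⟨x, hx⟩ := exists_prime_orderOf_dvd_card' p (hpe.trans he)
    set Z := Subgroup.zpowers x with hZ
    have hZc : Nat.card Z = p := by rw [hZ, Nat.card_zpowers, hx]
    have h1 := Subgroup.card_mul_index Z
    rw [Subgroup.index_eq_card, hZc] at h1
    have hlt : Nat.card (A ⧸ Z) < n := by
      rw [← hcard, ← h1]
      have h3 : 0 < Nat.card (A ⧸ Z) := Nat.card_pos
      have := hp.one_lt
      nlinarith
    obtain ⟨e', rfl⟩ := hpe
    have he' : e' ∣ Nat.card (A ⧸ Z) := by
      rw [← h1] at he
      exact Nat.dvd_of_mul_dvd_mul_left hp.pos he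
    obtain ⟨Bb, hBb⟩ := ih _ hlt (A ⧸ Z) rfl e' he'
    refine ⟨Bb.comap (QuotientGroup.mk' Z), ?_⟩
    have h2 := Subgroup.card_mul_index (Bb.comap (QuotientGroup.mk' Z))
    rw [Subgroup.index_comap_of_surjective _ (QuotientGroup.mk'_surjective Z), ← h1,
      ← Subgroup.card_mul_index Bb, hBb, ← mul_assoc] at h2
    exact Nat.eq_of_mul_eq_mul_right (Nat.pos_of_ne_zero Subgroup.index_ne_zero_of_finite) h2

theorem arith (N M d : ℕ) (hN : N ≠ 0) (hM : M ≠ 0) (hd : d ∣ N * M)
    (hA : ∀ p : ℕ, p.Prime → p ∣ M → p ∣ N)
    (hexp : ∀ p : ℕ, p.Prime → p ∣ N → M.factorization p + 1 = N.factorization p) :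
    ∃ m n e : ℕ, N = m * n ∧ m.Coprime n ∧ e ∣ M ∧ d = m * e := by
  classical
  have hd0 : d ≠ 0 := by
    rintro rfl
    exact (mul_ne_zero hN hM) (Nat.eq_zero_of_zero_dvd hd)
  set f : ℕ →₀ ℕ := N.factorization.filter (fun p => N.factorization p ≤ d.factorization p) with hf
  have hfle : f ≤ N.factorization := by
    intro p
    rw [hf, Finsupp.filter_apply]
    split_ifs
    · exact le_rfl
    · exact Nat.zero_le _
  have hfp : ∀ p ∈ f.support, p.Prime := by
    intro p hp
    have : p ∈ N.factorization.support := Finsupp.support_mono hfle hp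
    rw [Nat.support_factorization] at this
    exact Nat.prime_of_mem_primeFactors this
  set m := f.prod (· ^ ·) with hm
  have hmf : m.factorization = f := Nat.prod_pow_factorization_eq_self hfp
  have hm0 : m ≠ 0 := by
    rw [hm, Finsupp.prod]
    apply Finset.prod_ne_zero_iff.2
    intro p hp
    exact pow_ne_zero _ (hfp p hp).ne_zero
  have hmN : m ∣ N := by
    rw [← Nat.factorization_le_iff_dvd hm0 hN, hmf]; exact hfle
  have hfapp : ∀ p, f p = if N.factorization p ≤ d.factorization p then N.factorization p else 0 := by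
    intro p
    rw [hf, Finsupp.filter_apply]
  have hmd : m ∣ d := by
    rw [← Nat.factorization_le_iff_dvd hm0 hd0, hmf]
    intro p
    rw [hfapp]
    split_ifs with h
    · exact h
    · exact Nat.zero_le _
  obtain ⟨n, hn⟩ := hmN
  obtain ⟨e, he⟩ := hmd
  have hn0 : n ≠ 0 := by rintro rfl; simp at hn; exact hN hn
  have he0 : e ≠ 0 := by rintro rfl; simp at he; exact hd0 he
  have hNf : ∀ p, N.factorization p = f p + n.factorization p := by
    intro p
    rw [hn, Nat.factorization_mul hm0 hn0, Finsupp.add_apply, hmf]
  have hdf : ∀ p, d.factorization p = f p + e.factorization p := by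
    intro p
    rw [he, Nat.factorization_mul hm0 he0, Finsupp.add_apply, hmf]
  refine ⟨m, n, e, hn, ?_, ?_, he⟩
  · apply Nat.coprime_of_dvd
    intro p hp hpm hpn
    have h1 : 0 < m.factorization p := hp.factorization_pos_of_dvd hm0 hpm
    have h2 : 0 < n.factorization p := hp.factorization_pos_of_dvd hn0 hpn
    rw [hmf] at h1
    have h3 := hNf p
    have h4 := hfapp p
    split_ifs at h4 with h
    · omega
    · omega
  · rw [← Nat.factorization_le_iff_dvd he0 hM]
    intro p
    by_cases hp : p.Prime
    · have hdle : d.factorization p ≤ N.factorization p + M.factorization p := by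
        have := (Nat.factorization_le_iff_dvd hd0 (mul_ne_zero hN hM)).2 hd p
        rwa [Nat.factorization_mul hN hM, Finsupp.add_apply] at this
      have h3 := hdf p
      have h4 := hfapp p
      by_cases hpN : p ∣ N
      · have h5 := hexp p hp hpN
        split_ifs at h4 with h
        · omega
        · omega
      · have h5 : N.factorization p = 0 := Nat.factorization_eq_zero_of_not_dvd hpN
        have h6 : M.factorization p = 0 :=
          Nat.factorization_eq_zero_of_not_dvd (fun h => hpN (hA p hp h))
        omega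
    · rw [Nat.factorization_eq_zero_of_not_prime _ hp]; exact Nat.zero_le _

/-- Let G be a finite solvable group and A a finite abelian group such that every prime dividing the order of A divides the order of G and, for each prime p dividing the order of G, the exponent of p in the order of A is one less than its exponent in the order of G. Then G × A has a subgroup of every order dividing its order. -/
theorem result {G A : Type*} [Group G] [CommGroup A] [Finite G] [Finite A] [Group.IsSolvable G] (hA : ∀ p : ℕ, p.Prime → p ∣ Nat.card A → p ∣ Nat.card G) (hexp : ∀ p : ℕ, p.Prime → p ∣ Nat.card G → (Nat.card A).factorization p + 1 = (Nat.card G).factorization p) : Cfsg.HasSubgroupOfEveryOrder (G × A) := by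
  intro d hd
  rw [Nat.card_prod] at hd
  obtain ⟨m, n, e, hN, hmn, heM, rfl⟩ := arith (Nat.card G) (Nat.card A) d Nat.card_pos.ne'
    Nat.card_pos.ne' hd hA hexp
  obtain ⟨H, hH⟩ := Cfsg.Agent.S0003.result m n hN hmn
  obtain ⟨B, hB⟩ := comm_clt_aux _ A rfl e heM
  refine ⟨H.prod B, ?_⟩
  rw [Nat.card_congr (Subgroup.prodEquiv H B).toEquiv, Nat.card_prod, hH, hB]

end Cfsg.Agent.S0534
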