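import Cfsg.Statements.S0535
import Cfsg.Agent.S0006

set_option autoImplicit false
open Cfsg

namespace Cfsg.Agent.S0535

theorem descend {G : Type*} [Group G] [Finite G] (h : ∀ H : Subgroup G, H ≠ ⊥ → ∀ p : ℕ, p.Prime → p ∣ Nat.card H → ∃ K : Subgroup H, K ≠ ⊤ ∧ ∃ k : ℕ, K.index = p ^ k)
    (p : ℕ) (hp : p.Prime) (H : Subgroup G) :
    ∃ K : Subgroup G, K ≤ H ∧ ¬ p ∣ Nat.card K ∧ ∃ k : ℕ, K.relIndex H = p ^ k := by
  induction H using (wellFounded_lt (α := Subgroup G)).induction with
  | _ H ih =>
    by_cases hd : p ∣ Nat.card H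
    · have hne : H ≠ ⊥ := by
        rintro rfl
        rw [Subgroup.card_bot] at hd
        exact hp.one_lt.ne' (Nat.dvd_one.1 hd)
      obtain ⟨K', hK', k, hk⟩ := h H hne p hp hd
      have hle : K'.map H.subtype ≤ H := Subgroup.map_subtype_le K'
      have hlt : K'.map H.subtype < H := by
        refine lt_of_le_of_ne hle ?_
        intro heq
        apply hK'
        rw [eq_top_iff]
        intro x _
        have hx : (x : G) ∈ K'.map H.subtype := by rw [heq]; exact x.2
        obtain ⟨y, hy, hyx⟩ := hx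
        have : y = x := Subtype.ext hyx
        exact this ▸ hy
      obtain ⟨K, hKle, hKp, j, hj⟩ := ih _ hlt
      refine ⟨K, hKle.trans hle, hKp, j + k, ?_⟩
      rw [← Subgroup.relIndex_mul_relIndex K _ H hKle hle, hj, pow_add]
      congr 1
      rw [Subgroup.relIndex, Subgroup.subgroupOf, Subgroup.comap_map_eq_self_of_injective H.subtype_injective, hk]
    · exact ⟨H, le_rfl, hd, 0, by simp⟩

/-- Suppose that for every nontrivial subgroup H of a finite group and every prime p dividing the order of H there is a proper subgroup of H whose index in H is a power of p. Then the group is solvable. -/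
theorem result {G : Type*} [Group G] [Finite G] (h : ∀ H : Subgroup G, H ≠ ⊥ → ∀ p : ℕ, p.Prime → p ∣ Nat.card H → ∃ K : Subgroup H, K ≠ ⊤ ∧ ∃ k : ℕ, K.index = p ^ k) : Group.IsSolvable G := by
  apply Cfsg.Agent.S0006.result
  intro p hp
  obtain ⟨K, -, hKp, k, hk⟩ := descend h p hp ⊤
  refine ⟨K, ?_⟩
  rw [Subgroup.relIndex_top_right] at hk
  rw [hk]
  congr 1
  rw [← K.card_mul_index, hk, Nat.factorization_mul Nat.card_pos.ne' (pow_ne_zero _ hp.ne_zero)]
  simp [Nat.factorization_eq_zero_of_not_dvd hKp, hp.factorization_pow]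

end Cfsg.Agent.S0535
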