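import Cfsg.Statements.S0537
-- import your own Cfsg.Agent.* helpers here
import Cfsg.Agent.Lib.Helper13.Schmidt
import Cfsg.Agent.Lib.Helper1.Coprime2
import Cfsg.Agent.Lib.Helper3.PGroup

set_option autoImplicit false
open Cfsg

namespace Cfsg.Agent.S0537


theorem comm_of_mem {G : Type*} [Group G] {H : Subgroup G} (hH : IsMulCommutative H) {a b : G}
    (ha : a ∈ H) (hb : b ∈ H) : a * b = b * a :=
  congrArg Subtype.val (hH.is_comm.comm (⟨a, ha⟩ : H) ⟨b, hb⟩)

theorem nil_of_comm {H : Type*} [Group H] (hH : IsMulCommutative H) : Group.IsNilpotent H := by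
  let _ : CommGroup H := { (inferInstance : Group H) with mul_comm := hH.is_comm.comm }
  exact CommGroup.isNilpotent

/-- nilpotent case -/
theorem nil_case {G : Type*} [Group G] [Finite G] (hna : ¬ IsMulCommutative G)
    (h : ∀ H : Subgroup G, H ≠ ⊤ → IsMulCommutative H) (hnil : Group.IsNilpotent G) :
    ∃ p : ℕ, p.Prime ∧ IsPGroup p G := by
  by_contra hcon
  push Not at hcon
  apply hna
  obtain ⟨e⟩ := ((Group.isNilpotent_of_finite_tfae (G := G)).out 0 4).mp hnil
  refine ⟨⟨fun a b => ?_⟩⟩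
  obtain ⟨a, rfl⟩ := e.surjective a
  obtain ⟨b, rfl⟩ := e.surjective b
  rw [← map_mul, ← map_mul]
  congr 1
  funext p P
  have hp : (p : ℕ).Prime := Nat.prime_of_mem_primeFactors p.2
  have hP : (P : Subgroup G) ≠ ⊤ := by
    intro htop
    apply hcon p hp
    have := P.isPGroup'
    rw [htop] at this
    exact IsPGroup.of_surjective this (Subgroup.topEquiv (G := G)).toMonoidHom
      (Subgroup.topEquiv (G := G)).surjective
  exact (h P hP).is_comm.comm _ _

theorem centralizes {G : Type*} [Group G] (h : ∀ H : Subgroup G, H ≠ ⊤ → IsMulCommutative H)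
    (P Q R : Subgroup G) (hPQ : P ⊓ Q = ⊥) (hR : R.Normal) (hRQ : R ≤ Q) (hne : R ≠ Q) :
    ∀ u ∈ P, ∀ r ∈ R, u * r = r * u := by
  have hne' : R ⊔ P ≠ ⊤ := by
    intro htop
    apply hne
    apply le_antisymm hRQ
    intro y hy
    have hy' : y ∈ R ⊔ P := by rw [htop]; trivial
    rw [Subgroup.mem_sup_of_normal_left] at hy'
    obtain ⟨r, hr, u, hu, rfl⟩ := hy'
    have hu' : u ∈ P ⊓ Q := ⟨hu, by
      have := Q.mul_mem (Q.inv_mem (hRQ hr)) hy
      simpa using this⟩
    rw [hPQ, Subgroup.mem_bot] at hu'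
    rw [hu', mul_one]
    exact hr
  intro u hu r hr
  exact comm_of_mem (h _ hne') (Subgroup.mem_sup_right hu) (Subgroup.mem_sup_left hr)

/-- A finite non-abelian group in which every proper subgroup is abelian is either of prime-power order, or is generated by a cyclic Sylow p-subgroup and a normal Sylow q-subgroup that is elementary abelian, for distinct primes p and q. -/
theorem result {G : Type*} [Group G] [Finite G] (hna : ¬ IsMulCommutative G) (h : ∀ H : Subgroup G, H ≠ ⊤ → IsMulCommutative H) : (∃ p : ℕ, p.Prime ∧ IsPGroup p G) ∨ ∃ p q : ℕ, p.Prime ∧ q.Prime ∧ p ≠ q ∧ ∃ (P : Sylow p G) (Q : Sylow q G), IsCyclic P ∧ (Q : Subgroup G).Normal ∧ Cfsg.IsElementaryAbelian q (Q : Subgroup G) ∧ (P : Subgroup G) ⊔ Q = ⊤ := by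
  by_cases hnil : Group.IsNilpotent G
  · exact Or.inl (nil_case hna h hnil)
  obtain ⟨p, q, hp, hq, hpq, P, Q, hcyc, hQn, htop⟩ :=
    Cfsg.Agent.Lib.Helper13.schmidt (G := G) ⟨hnil, fun H hH => nil_of_comm (h H hH)⟩
  have : Fact p.Prime := ⟨hp⟩
  have : Fact q.Prime := ⟨hq⟩
  have hQtop : (Q : Subgroup G) ≠ ⊤ := by
    intro h1
    apply hnil
    have h2 := Q.isPGroup'
    rw [h1] at h2
    exact (IsPGroup.of_surjective h2 (Subgroup.topEquiv (G := G)).toMonoidHom
      (Subgroup.topEquiv (G := G)).surjective).isNilpotent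
  have hPtop : (P : Subgroup G) ≠ ⊤ := by
    intro h1
    apply hnil
    have h2 := P.isPGroup'
    rw [h1] at h2
    exact (IsPGroup.of_surjective h2 (Subgroup.topEquiv (G := G)).toMonoidHom
      (Subgroup.topEquiv (G := G)).surjective).isNilpotent
  have hQc := h Q hQtop
  have hPc := h P hPtop
  have hPQ : (P : Subgroup G) ⊓ Q = ⊥ :=
    (IsPGroup.disjoint_of_ne p q hpq _ _ P.isPGroup' Q.isPGroup').eq_bot
  refine Or.inr ⟨p, q, hp, hq, hpq, P, Q, hcyc, hQn, ⟨hQc, ?_⟩, htop⟩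
  -- the Frattini subgroup of Q is centralized by P
  have hΦn : ((frattini ↥(Q : Subgroup G)).map (Q : Subgroup G).subtype).Normal := by
    rw [← Subgroup.normalizer_eq_top_iff, eq_top_iff]
    refine le_trans ?_ (Cfsg.Agent.Lib.Helper1.normalizer_le_normalizer_map_of_characteristic
      (Q : Subgroup G) (frattini ↥(Q : Subgroup G)))
    rw [Subgroup.normalizer_eq_top]
  have hΦne : (frattini ↥(Q : Subgroup G)).map (Q : Subgroup G).subtype ≠ Q := by
    intro h1
    have h2 : frattini ↥(Q : Subgroup G) = ⊤ := by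
      apply Subgroup.map_injective (Q : Subgroup G).subtype_injective
      rw [h1, ← MonoidHom.range_eq_map, Subgroup.range_subtype]
    have h3 : (⊥ : Subgroup ↥(Q : Subgroup G)) = ⊤ :=
      frattini_nongenerating (by rw [h2, bot_sup_eq])
    apply hPtop
    have h4 : (Q : Subgroup G) = ⊥ := by
      have := Subgroup.subsingleton_iff.mp (subsingleton_of_bot_eq_top h3)
      exact Subgroup.eq_bot_of_subsingleton _
    rw [h4, sup_bot_eq] at htop
    exact htop
  have hΦ := centralizes h P Q _ hPQ hΦn (Subgroup.map_subtype_le _) hΦne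
  have hpow : ∀ u ∈ (P : Subgroup G), ∀ y ∈ (Q : Subgroup G), u * y ^ q = y ^ q * u := by
    intro u hu y hy
    apply hΦ u hu
    exact ⟨(⟨y, hy⟩ : (Q : Subgroup G)) ^ q, Cfsg.Agent.Lib.Helper3.pow_p_mem_frattini Q.isPGroup' _, rfl⟩
  -- the commutator [Q,P]
  have hWn : (⁅(Q : Subgroup G), (P : Subgroup G)⁆).Normal := by
    rw [← Subgroup.normalizer_eq_top_iff, eq_top_iff, ← htop, sup_comm]
    exact Cfsg.Agent.Lib.Helper1.sup_le_normalizer_commutator _ _
  have hPN : (P : Subgroup G) ≤ Subgroup.normalizer ((Q : Subgroup G) : Set G) := by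
    rw [Subgroup.normalizer_eq_top]; exact le_top
  have hWQ : ⁅(Q : Subgroup G), (P : Subgroup G)⁆ ≤ Q :=
    Cfsg.Agent.Lib.Helper1.commutator_le_left_of_le_normalizer hPN
  have hcop : (Nat.card (P : Subgroup G)).Coprime (Nat.card (Q : Subgroup G)) := by
    obtain ⟨i, hi⟩ := P.isPGroup'.exists_card_eq
    obtain ⟨j, hj⟩ := Q.isPGroup'.exists_card_eq
    rw [hi, hj]
    exact Nat.Coprime.pow _ _ ((Nat.coprime_primes hp hq).mpr hpq)
  have hW : ⁅(Q : Subgroup G), (P : Subgroup G)⁆ = Q := by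
    by_contra hne
    have hc := centralizes h P Q _ hPQ hWn hWQ hne
    have h1 : ⁅⁅(Q : Subgroup G), (P : Subgroup G)⁆, (P : Subgroup G)⁆ = ⊥ := by
      rw [Subgroup.commutator_eq_bot_iff_le_centralizer]
      intro w hw
      rw [Subgroup.mem_centralizer_iff]
      intro u hu
      exact hc u hu w hw
    rw [Cfsg.Agent.Lib.Helper1.coprime_commutator_commutator _ _ hPN hcop
      (Or.inl (have := IsPGroup.isNilpotent P.isPGroup'; inferInstance)),
      Subgroup.commutator_eq_bot_iff_le_centralizer] at h1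
    apply hna
    refine ⟨⟨fun a b => ?_⟩⟩
    have ha : a ∈ (P : Subgroup G) ⊔ Q := by rw [htop]; trivial
    have hb : b ∈ (P : Subgroup G) ⊔ Q := by rw [htop]; trivial
    rw [Subgroup.mem_sup_of_normal_right] at ha hb
    obtain ⟨u₁, hu₁, y₁, hy₁, rfl⟩ := ha
    obtain ⟨u₂, hu₂, y₂, hy₂, rfl⟩ := hb
    have c1 : Commute u₁ u₂ := comm_of_mem hPc hu₁ hu₂
    have c2 : Commute y₁ y₂ := comm_of_mem hQc hy₁ hy₂
    have c3 : Commute u₂ y₁ := (Subgroup.mem_centralizer_iff.mp (h1 hy₁)) u₂ hu₂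
    have c4 : Commute u₁ y₂ := (Subgroup.mem_centralizer_iff.mp (h1 hy₂)) u₁ hu₁
    rw [c3.symm.mul_mul_mul_comm, c4.symm.mul_mul_mul_comm, c1.eq, c2.eq]
  let Ω : Subgroup G :=
    { carrier := {y | y ∈ (Q : Subgroup G) ∧ y ^ q = 1}
      mul_mem' := by
        rintro a b ⟨ha, ha'⟩ ⟨hb, hb'⟩
        refine ⟨Subgroup.mul_mem _ ha hb, ?_⟩
        have c : Commute a b := comm_of_mem hQc ha hb
        rw [c.mul_pow, ha', hb', one_mul]
      one_mem' := ⟨Subgroup.one_mem _, one_pow _⟩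
      inv_mem' := by
        rintro a ⟨ha, ha'⟩
        exact ⟨Subgroup.inv_mem _ ha, by rw [inv_pow, ha', inv_one]⟩ }
  have hΩ : ⁅(Q : Subgroup G), (P : Subgroup G)⁆ ≤ Ω := by
    rw [Subgroup.commutator_le]
    intro y hy u hu
    have h1 : u * y⁻¹ * u⁻¹ ∈ (Q : Subgroup G) := hQn.conj_mem _ (Subgroup.inv_mem _ hy) u
    have h2 : y * u * y⁻¹ * u⁻¹ = y * (u * y⁻¹ * u⁻¹) := by group
    refine ⟨hWQ (Subgroup.commutator_mem_commutator hy hu), ?_⟩
    have c : Commute y (u * y⁻¹ * u⁻¹) := comm_of_mem hQc hy h1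
    rw [commutatorElement_def, h2, c.mul_pow, conj_pow, inv_pow, mul_assoc u, ← mul_inv_rev, hpow u hu y hy, mul_inv_rev,
      mul_inv_cancel_left, mul_inv_cancel]
  intro a ha
  rw [← hW] at ha
  exact (hΩ ha).2

end Cfsg.Agent.S0537
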