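import Cfsg.Statements.S0541
import Cfsg.Agent.Lib.Helper12.SubnormalRel

set_option autoImplicit false
open Pointwise
open Cfsg

namespace Cfsg.Agent.S0541

open Cfsg.Agent.Lib.Helper12

theorem isSubnormal_of_isNilpotent {G : Type*} [Group G] [Finite G] [Group.IsNilpotent G]
    (H : Subgroup G) : H.IsSubnormal := by
  induction H using (wellFounded_gt (α := Subgroup G)).induction with
  | _ H ih =>
    by_cases hH : H = ⊤
    · rw [hH]; exact Subgroup.IsSubnormal.top
    · have hlt : H < Subgroup.normalizer (H : Set G) :=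
        Group.normalizerCondition_of_isNilpotent H (lt_top_iff_ne_top.2 hH)
      exact Subgroup.IsSubnormal.step H _ hlt.le (ih _ hlt) inferInstance

theorem normalizer_conj_smul {G : Type*} [Group G] (H : Subgroup G) (g : G) :
    Subgroup.normalizer ((MulAut.conj g • H : Subgroup G) : Set G)
      = MulAut.conj g • Subgroup.normalizer (H : Set G) :=
  (Subgroup.map_equiv_normalizer_eq H (MulAut.conj g)).symm

/-- Let Z and Y be subgroups of a finite group G and p a prime. Suppose that for every g in G the subgroup generated by the conjugates of g Z g⁻¹ under Y is a p-group. Then there is a Sylow p-subgroup P of G such that Y normalizes the subgroup generated by all conjugates of Z contained in P. -/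
theorem result {G : Type*} [Group G] [Finite G] (p : ℕ) [Fact p.Prime] (Z Y : Subgroup G) (h : ∀ g : G, IsPGroup p ↥(⨆ y ∈ Y, MulAut.conj (y * g) • Z)) : ∃ P : Sylow p G, Y ≤ Subgroup.normalizer ((⨆ g ∈ {g : G | MulAut.conj g • Z ≤ (P : Subgroup G)}, MulAut.conj g • Z : Subgroup G) : Set G) := by
  let Q : Set (Subgroup G) → Prop := fun T =>
    (∀ U ∈ T, ∃ g : G, U = MulAut.conj g • Z) ∧ (∀ U ∈ T, ∀ y ∈ Y, MulAut.conj y • U ∈ T) ∧
      IsPGroup p (sSup T : Subgroup G)
  have hQ0 : Q ∅ := by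
    refine ⟨by simp, by simp, ?_⟩
    rw [sSup_empty]; exact IsPGroup.of_bot
  obtain ⟨T₀, hT₀⟩ := exists_maximal_of_wellFoundedGT Q ⟨∅, hQ0⟩
  obtain ⟨hTa, hTb, hTc⟩ := hT₀.1
  obtain ⟨P, hP⟩ := hTc.exists_le_sylow
  have hYD : Y ≤ Subgroup.normalizer ((sSup T₀ : Subgroup G) : Set G) := by
    intro y hy
    exact Cfsg.Agent.S0539.mem_normalizer_sSup T₀ y (fun U hU => hTb U hU y hy)
  set SP : Set (Subgroup G) := {U | (∃ g : G, U = MulAut.conj g • Z) ∧ U ≤ (P : Subgroup G)} with hSP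
  have hsub : T₀ ⊆ SP := fun U hU => ⟨hTa U hU, (le_sSup hU).trans hP⟩
  have heq : T₀ = SP := by
    by_contra hne
    have hss : T₀ ⊂ SP := ⟨hsub, fun h' => hne (Set.Subset.antisymm hsub h')⟩
    have hnil : Group.IsNilpotent (P : Subgroup G) := P.isPGroup'.isNilpotent
    obtain ⟨X, hX, hX0, hXn⟩ := exists_normalizes_sSup_rel (P : Subgroup G) SP T₀
      (fun U hU => hU.2) (fun U _ => isSubnormal_of_isNilpotent _)
      (by
        rintro U ⟨⟨g, rfl⟩, hU⟩ x hx
        exact ⟨⟨x * g, by rw [map_mul, mul_smul]⟩, Subgroup.conj_smul_le_of_le hU ⟨x, hx⟩⟩) hss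
    obtain ⟨⟨g, rfl⟩, hXP⟩ := hX
    set T₁ : Set (Subgroup G) := T₀ ∪ {U | ∃ y ∈ Y, U = MulAut.conj (y * g) • Z} with hT₁
    have hE : (⨆ y ∈ Y, MulAut.conj (y * g) • Z) ≤
        Subgroup.normalizer ((sSup T₀ : Subgroup G) : Set G) := by
      apply iSup₂_le
      intro y hy
      have h1 : MulAut.conj y • (sSup T₀ : Subgroup G) = sSup T₀ :=
        (mem_normalizer_iff_smul _ _).1 (hYD hy)
      rw [← h1, normalizer_conj_smul, map_mul, mul_smul]
      exact Subgroup.pointwise_smul_le_pointwise_smul_iff.2 hXn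
    have hsup : sSup T₁ = (⨆ y ∈ Y, MulAut.conj (y * g) • Z) ⊔ sSup T₀ := by
      rw [hT₁, sSup_union, sup_comm]
      congr 1
      apply le_antisymm
      · apply sSup_le
        rintro U ⟨y, hy, rfl⟩
        exact le_iSup₂_of_le y hy le_rfl
      · apply iSup₂_le
        intro y hy
        exact le_sSup ⟨y, hy, rfl⟩
    have hQ1 : Q T₁ := by
      refine ⟨?_, ?_, ?_⟩
      · rintro U (hU | ⟨y, hy, rfl⟩)
        · exact hTa U hU
        · exact ⟨_, rfl⟩
      · rintro U (hU | ⟨y, hy, rfl⟩) y' hy'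
        · exact Or.inl (hTb U hU y' hy')
        · exact Or.inr ⟨y' * y, mul_mem hy' hy, by rw [← mul_smul, ← map_mul, mul_assoc]⟩
      · rw [hsup]
        exact (h g).to_sup_of_normal_right' hTc hE
    have hle : T₁ ⊆ T₀ := hT₀.2 hQ1 Set.subset_union_left
    apply hX0
    apply hle
    exact Or.inr ⟨1, one_mem _, by rw [one_mul]⟩
  refine ⟨P, ?_⟩
  have hfin : (⨆ g ∈ {g : G | MulAut.conj g • Z ≤ (P : Subgroup G)}, MulAut.conj g • Z : Subgroup G)
      = sSup T₀ := by
    rw [heq]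
    apply le_antisymm
    · apply iSup₂_le
      intro g hg
      exact le_sSup ⟨⟨g, rfl⟩, hg⟩
    · apply sSup_le
      rintro U ⟨⟨g, rfl⟩, hU⟩
      exact le_iSup₂_of_le g hU le_rfl
  rw [hfin]
  exact hYD

end Cfsg.Agent.S0541
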