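import Cfsg.Statements.S0542
import Cfsg.Agent.Lib.Helper12.ComplSys

set_option autoImplicit false
open Cfsg

namespace Cfsg.Agent.S0542

open Cfsg.Agent.Lib.Helper12

theorem not_dvd_relIndex {G : Type*} [Group G] [Finite G] (p : ℕ) [Fact p.Prime] (H : Subgroup G) (hH : H.IsSubnormal) (S : Sylow p G) :
    ¬ p ∣ (S : Subgroup G).relIndex H := by
  induction hH with
  | top => rw [Subgroup.relIndex_top_right]; exact S.not_dvd_index
  | step H K hle _ hN ih =>
    intro hd
    apply ih
    have h1 := relIndex_dvd_index_of_normal' ((S : Subgroup G).subgroupOf K) (H.subgroupOf K)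
    rw [Subgroup.relIndex_subgroupOf hle] at h1
    exact hd.trans h1

/-- A Sylow p-subgroup of a finite group meets every subnormal subgroup H in a Sylow p-subgroup of H. -/
theorem result {G : Type*} [Group G] [Finite G] (p : ℕ) [Fact p.Prime] (H : Subgroup G) (hH : H.IsSubnormal) (S : Sylow p G) : ∃ Q : Sylow p H, (Q : Subgroup H) = (S : Subgroup G).subgroupOf H := by
  have hp : IsPGroup p ((S : Subgroup G).subgroupOf H) :=
    S.2.comap_of_injective H.subtype H.subtype_injective
  exact ⟨hp.toSylow (not_dvd_relIndex p H hH S), rfl⟩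

end Cfsg.Agent.S0542
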