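import Cfsg.Statements.S0548
import Cfsg.Agent.Lib.Helper12.PrimSolv

set_option autoImplicit false
open Cfsg

namespace Cfsg.Agent.S0548

open Cfsg.Agent.Lib.Helper12

/-- Let a finite solvable group G act faithfully and primitively on a set, let M be a minimal normal subgroup and H the stabilizer of a point. Then H is a complement to M, no non-identity element of H centralizes M, and the only subgroups of M normalized by H are the trivial subgroup and M. -/
theorem result {G : Type*} [Group G] [Finite G] [Group.IsSolvable G] {Ω : Type*} [MulAction G Ω] [FaithfulSMul G Ω] (hprim : MulAction.IsPreprimitive G Ω) (M : Subgroup G) [M.Normal] (hM : M ≠ ⊥) (hmin : ∀ K : Subgroup G, K.Normal → K ≤ M → K = ⊥ ∨ K = M) (ω : Ω) : Subgroup.IsComplement' M (MulAction.stabilizer G ω) ∧ MulAction.stabilizer G ω ⊓ Subgroup.centralizer (M : Set G) = ⊥ ∧ ∀ K : Subgroup G, K ≤ M → MulAction.stabilizer G ω ≤ Subgroup.normalizer (K : Set G) → K = ⊥ ∨ K = M := by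
  have hMt := prim_pretransitive hprim M hM
  have hMin : IsMinNormal M := ⟨inferInstance, hM, hmin⟩
  have hcomm := hMin.comm
  have hMc : M ≤ Subgroup.centralizer (M : Set G) := Subgroup.le_centralizer_iff_isMulCommutative.2 hcomm
  have hc : MulAction.stabilizer G ω ⊓ Subgroup.centralizer (M : Set G) = ⊥ := by
    rw [eq_bot_iff]
    intro x hx
    rw [Subgroup.mem_bot]
    exact eq_one_of_centralizes M hMt ω x hx.1 hx.2
  open Pointwise in
  have hmul : (M : Set G) * (MulAction.stabilizer G ω : Set G) = Set.univ := by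
    rw [Set.eq_univ_iff_forall]
    intro g
    obtain ⟨m, hm⟩ := MulAction.exists_smul_eq M ω (g • ω)
    refine ⟨m, m.2, (m : G)⁻¹ * g, ?_, by group⟩
    rw [SetLike.mem_coe, MulAction.mem_stabilizer_iff, mul_smul, ← hm, Subgroup.smul_def, inv_smul_smul]
  refine ⟨?_, hc, ?_⟩
  · apply Subgroup.isComplement'_of_disjoint_and_mul_eq_univ _ hmul
    rw [disjoint_iff, eq_bot_iff, ← hc]
    intro x hx
    exact ⟨hx.2, hMc hx.1⟩
  · intro K hK hn
    apply hmin K _ hK
    rw [← Subgroup.normalizer_eq_top_iff, eq_top_iff]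
    intro g _
    open Pointwise in
    have hg : g ∈ (M : Set G) * (MulAction.stabilizer G ω : Set G) := by rw [hmul]; trivial
    obtain ⟨m, hm, u, hu, rfl⟩ := hg
    apply Subgroup.mul_mem _ _ (hn hu)
    have h1 : M ≤ Subgroup.centralizer (K : Set G) := hMc.trans (Subgroup.centralizer_le hK)
    exact Subgroup.centralizer_le_normalizer _ (h1 hm)

end Cfsg.Agent.S0548
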