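import Cfsg.Statements.S0550
import Cfsg.Agent.Lib.Helper12.CoreFree

set_option autoImplicit false
open Cfsg

namespace Cfsg.Agent.S0550

open Cfsg.Agent.Lib.Helper12

theorem equiv_of_complements {G : Type*} [Group G] (N X Y : Subgroup G) [N.Normal]
    (hX : X ⊓ N = ⊥) (hY : Y ⊓ N = ⊥) (h : X ⊔ N = Y ⊔ N) : Nonempty (X ≃* Y) := by
  let f : X →* G ⧸ N := (QuotientGroup.mk' N).comp X.subtype
  let g : Y →* G ⧸ N := (QuotientGroup.mk' N).comp Y.subtype
  have hf : Function.Injective f := by
    rw [injective_iff_map_eq_one]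
    intro a ha
    have h1 : (a : G) ∈ N := by
      simpa [f] using ha
    have h2 : (a : G) ∈ X ⊓ N := ⟨a.2, h1⟩
    rw [hX, Subgroup.mem_bot] at h2
    exact Subtype.ext h2
  have hg : Function.Injective g := by
    rw [injective_iff_map_eq_one]
    intro a ha
    have h1 : (a : G) ∈ N := by
      simpa [g] using ha
    have h2 : (a : G) ∈ Y ⊓ N := ⟨a.2, h1⟩
    rw [hY, Subgroup.mem_bot] at h2
    exact Subtype.ext h2
  have hmap : ∀ Z : Subgroup G, Z.map (QuotientGroup.mk' N) = (Z ⊔ N).map (QuotientGroup.mk' N) := by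
    intro Z
    rw [Subgroup.map_sup, QuotientGroup.map_mk'_self, sup_bot_eq]
  have hr : f.range = g.range := by
    have h1 : f.range = X.map (QuotientGroup.mk' N) := by
      rw [MonoidHom.range_comp, Subgroup.range_subtype]
    have h2 : g.range = Y.map (QuotientGroup.mk' N) := by
      rw [MonoidHom.range_comp, Subgroup.range_subtype]
    rw [h1, h2, hmap X, hmap Y, h]
  exact ⟨(MonoidHom.ofInjective hf).trans ((MulEquiv.subgroupCongr hr).trans (MonoidHom.ofInjective hg).symm)⟩

theorem half {G : Type*} [Group G] (U : Subgroup G) (hU : IsCoatom U) (hcore : U.normalCore = ⊥) (A B : Subgroup G) [A.Normal] [B.Normal] (hA : A ≠ ⊥) (hB : B ≠ ⊥) (hAmin : ∀ K : Subgroup G, K.Normal → K ≤ A → K = ⊥ ∨ K = A) (hBmin : ∀ K : Subgroup G, K.Normal → K ≤ B → K = ⊥ ∨ K = B) (hAB : A ≠ B) : Subgroup.centralizer (B : Set G) = A ∧ Subgroup.IsComplement' A U ∧ A ⊓ B = ⊥ ∧ Nonempty (A ≃* ↥((A ⊔ B) ⊓ U)) := by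
  have hdisj : A ⊓ B = ⊥ := by
    rcases hAmin (A ⊓ B) inferInstance inf_le_left with h | h
    · exact h
    · exfalso
      have hle : A ≤ B := by rw [← h]; exact inf_le_right
      rcases hBmin A inferInstance hle with h' | h'
      · exact hA h'
      · exact hAB h'
  have hAc : A ≤ Subgroup.centralizer (B : Set G) := by
    intro a ha b hb
    exact (Subgroup.commute_of_normal_of_disjoint A B inferInstance inferInstance
      (disjoint_iff.2 hdisj) a b ha hb).symm
  have hcB : Subgroup.centralizer (B : Set G) = A := by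
    rcases centralizer_minimal U hU hcore B hB A inferInstance hAc with h | h
    · exact absurd h hA
    · exact h.symm
  have hAU : A ⊓ U = ⊥ := by
    rw [← hcB]; exact centralizer_inf_eq_bot U hU hcore B hB
  have hBc : B ≤ Subgroup.centralizer (A : Set G) := Subgroup.le_centralizer_iff.1 hAc
  have hBU : B ⊓ U = ⊥ := by
    rw [eq_bot_iff, ← centralizer_inf_eq_bot U hU hcore A hA]
    exact inf_le_inf_right _ hBc
  refine ⟨hcB, ?_, hdisj, ?_⟩
  · apply Subgroup.isComplement'_of_disjoint_and_mul_eq_univ (disjoint_iff.2 hAU)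
    rw [← Subgroup.normal_mul, sup_comm, sup_eq_top_of_core_eq_bot hU hcore hA]
    rfl
  · apply equiv_of_complements B
    · exact hdisj
    · rw [eq_bot_iff, ← hBU, inf_comm B U]
      exact inf_le_inf_right _ inf_le_right
    · apply le_antisymm
      · apply sup_le _ le_sup_right
        intro a ha
        have h1 : a ∈ U ⊔ B := by rw [sup_eq_top_of_core_eq_bot hU hcore hB]; trivial
        obtain ⟨u, hu, b, hb, rfl⟩ := Subgroup.mem_sup_of_normal_right.1 h1
        apply Subgroup.mul_mem_sup _ hb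
        refine ⟨?_, hu⟩
        have : u = (u * b) * b⁻¹ := by group
        rw [this]
        exact Subgroup.mul_mem_sup ha (inv_mem hb)
      · exact sup_le inf_le_left le_sup_right

/-- Let U be a maximal subgroup with trivial normal core in a finite group G, and A ≠ B two minimal normal subgroups. Then A is the centralizer of B and B that of A, U complements each of them, A and B are non-abelian, and A, B and (A ⊔ B) ∩ U are pairwise isomorphic. -/
theorem result {G : Type*} [Group G] [Finite G] (U : Subgroup G) (hU : IsCoatom U) (hcore : U.normalCore = ⊥) (A B : Subgroup G) [A.Normal] [B.Normal] (hA : A ≠ ⊥) (hB : B ≠ ⊥) (hAmin : ∀ K : Subgroup G, K.Normal → K ≤ A → K = ⊥ ∨ K = A) (hBmin : ∀ K : Subgroup G, K.Normal → K ≤ B → K = ⊥ ∨ K = B) (hAB : A ≠ B) : Subgroup.centralizer (B : Set G) = A ∧ Subgroup.centralizer (A : Set G) = B ∧ Subgroup.IsComplement' A U ∧ Subgroup.IsComplement' B U ∧ ¬ IsMulCommutative A ∧ Nonempty (A ≃* B) ∧ Nonempty (A ≃* ↥((A ⊔ B) ⊓ U)) := by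
  obtain ⟨h1, h2, h3, ⟨e1⟩⟩ := half U hU hcore A B hA hB hAmin hBmin hAB
  obtain ⟨k1, k2, k3, ⟨e2⟩⟩ := half U hU hcore B A hB hA hBmin hAmin hAB.symm
  refine ⟨h1, k1, h2, k2, ?_, ?_, ⟨e1⟩⟩
  · intro hc
    have : A ≤ Subgroup.centralizer (A : Set G) := Subgroup.le_centralizer_iff_isMulCommutative.2 hc
    rw [k1] at this
    rcases hBmin A inferInstance this with h' | h'
    · exact hA h'
    · exact hAB h'
  · have hcomm : (B ⊔ A) ⊓ U = (A ⊔ B) ⊓ U := by rw [sup_comm]
    exact ⟨e1.trans ((MulEquiv.subgroupCongr hcomm).symm.trans e2.symm)⟩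

end Cfsg.Agent.S0550
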