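import Cfsg.Statements.S0551
import Cfsg.Agent.Lib.Helper12.CoreFree
import Cfsg.Agent.Lib.Helper12.MinNormal
import Cfsg.Agent.Lib.Helper12.Card

set_option autoImplicit false
open Pointwise
open Cfsg

namespace Cfsg.Agent.S0551

open Cfsg.Agent.Lib.Helper12

theorem normalizer_conj_smul {G : Type*} [Group G] (H : Subgroup G) (g : G) :
    Subgroup.normalizer ((MulAut.conj g • H : Subgroup G) : Set G)
      = MulAut.conj g • Subgroup.normalizer (H : Set G) :=
  (Subgroup.map_equiv_normalizer_eq H (MulAut.conj g)).symm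

/-- In a finite solvable group all core-free maximal subgroups are conjugate. -/
theorem result {G : Type*} [Group G] [Finite G] [Group.IsSolvable G] (U V : Subgroup G) (hU : IsCoatom U) (hV : IsCoatom V) (hUc : U.normalCore = ⊥) (hVc : V.normalCore = ⊥) : ∃ g : G, MulAut.conj g • U = V := by
  have hnt : Nontrivial G := by
    by_contra h
    rw [not_nontrivial_iff_subsingleton] at h
    exact hU.1 (Subsingleton.elim _ _)
  obtain ⟨N, hN⟩ := exists_minNormal (G := G)
  obtain ⟨p, hp, hNp, hNc⟩ := hN.exists_isPGroup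
  have hNn : N.Normal := hN.1
  have hNne := hN.2.1
  have hCN : Subgroup.centralizer (N : Set G) = N := by
    rcases centralizer_minimal U hU hUc N hNne N hNn (Subgroup.le_centralizer N) with h | h
    · exact absurd h hNne
    · exact h.symm
  have hWN : ∀ W : Subgroup G, IsCoatom W → W.normalCore = ⊥ → N ⊓ W = ⊥ := by
    intro W hW hWc
    have := centralizer_inf_eq_bot W hW hWc N hNne
    rwa [hCN] at this
  by_cases hNtop : N = ⊤
  · have h1 := hWN U hU hUc
    have h2 := hWN V hV hVc
    rw [hNtop, top_inf_eq] at h1 h2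
    exact ⟨1, by rw [h1, h2]; simp⟩
  have hntq : Nontrivial (G ⧸ N) := QuotientGroup.nontrivial_iff.2 hNtop
  obtain ⟨Rb, hRb⟩ := exists_minNormal (G := G ⧸ N)
  obtain ⟨q, hq, hRq, -⟩ := hRb.exists_isPGroup
  have hRbn : Rb.Normal := hRb.1
  set R := Rb.comap (QuotientGroup.mk' N) with hR
  have hRn : R.Normal := inferInstance
  have hNR : N ≤ R := by
    intro x hx
    rw [hR, Subgroup.mem_comap]
    have : (QuotientGroup.mk' N) x = 1 := by simpa using hx
    rw [this]; exact one_mem _
  have hRN : ¬ R ≤ N := by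
    intro h
    apply hRb.2.1
    rw [eq_bot_iff]
    intro y hy
    obtain ⟨x, rfl⟩ := QuotientGroup.mk'_surjective N y
    have : x ∈ N := h hy
    simpa using this
  have := Fact.mk hp
  have := Fact.mk hq
  have hqp : q ≠ p := by
    rintro rfl
    have hRp : IsPGroup q R := by
      apply hRq.comap_of_ker_isPGroup
      rw [QuotientGroup.ker_mk']
      exact hNp
    have h1 := hN.le_centralizer_of_isPGroup R hRp hNR
    rw [Subgroup.le_centralizer_iff, hCN] at h1
    exact hRN h1
  have key : ∀ W : Subgroup G, IsCoatom W → W.normalCore = ⊥ →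
      IsPGroup q (R ⊓ W : Subgroup G) ∧ ¬ q ∣ (R ⊓ W).relIndex R ∧
        Subgroup.normalizer ((R ⊓ W : Subgroup G) : Set G) = W := by
    intro W hW hWc
    have hd := hWN W hW hWc
    have hsup := sup_eq_top_of_core_eq_bot hW hWc hNne
    have hded : (R ⊓ W) ⊔ N = R := by
      apply le_antisymm (sup_le inf_le_left hNR)
      intro r hr
      have h1 : r ∈ W ⊔ N := by rw [hsup]; trivial
      obtain ⟨w, hw, n, hn, rfl⟩ := Subgroup.mem_sup_of_normal_right.1 h1
      apply Subgroup.mul_mem_sup _ hn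
      refine Subgroup.mem_inf.2 ⟨?_, hw⟩
      have : w = (w * n) * n⁻¹ := by group
      rw [this]
      exact mul_mem hr (inv_mem (hNR hn))
    have hd' : (R ⊓ W) ⊓ N = ⊥ := by
      rw [eq_bot_iff, ← hd, inf_comm N W]
      exact inf_le_inf_right _ inf_le_right
    refine ⟨?_, ?_, ?_⟩
    · intro x
      have hx : (QuotientGroup.mk' N) (x : G) ∈ Rb := x.2.1
      obtain ⟨k, hk⟩ := hRq ⟨_, hx⟩
      refine ⟨k, ?_⟩
      have h1 : (QuotientGroup.mk' N) ((x : G) ^ q ^ k) = 1 := by
        rw [map_pow]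
        exact congrArg Subtype.val hk
      have h2 : (x : G) ^ q ^ k ∈ N := by
        rwa [QuotientGroup.mk'_apply, QuotientGroup.eq_one_iff] at h1
      have h3 : (x : G) ^ q ^ k ∈ (R ⊓ W) ⊓ N := ⟨pow_mem x.2 _, h2⟩
      rw [hd', Subgroup.mem_bot] at h3
      exact Subtype.ext (by simpa using h3)
    · have h1 := card_sup_mul_card_inf (R ⊓ W) N
      rw [hded, hd', Subgroup.card_bot, mul_one] at h1
      have h2 := relIndex_mul_card' (inf_le_left : R ⊓ W ≤ R)
      rw [h1, mul_comm] at h2
      have h3 : (R ⊓ W).relIndex R = Nat.card N :=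
        Nat.eq_of_mul_eq_mul_left Nat.card_pos h2
      rw [h3]
      obtain ⟨k, hk⟩ := (IsPGroup.iff_card).1 hNp
      rw [hk]
      intro hdvd
      exact hqp ((Nat.prime_dvd_prime_iff_eq hq hp).1 (hq.dvd_of_dvd_pow hdvd))
    · have hle : W ≤ Subgroup.normalizer ((R ⊓ W : Subgroup G) : Set G) := by
        refine le_trans ?_ Subgroup.inf_normalizer_le_normalizer_inf
        exact le_inf Subgroup.le_normalizer_of_normal Subgroup.le_normalizer
      by_contra hne
      have htop := hW.2 _ (lt_of_le_of_ne hle (Ne.symm hne))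
      rw [Subgroup.normalizer_eq_top_iff] at htop
      have hbot : R ⊓ W = ⊥ := by
        rw [eq_bot_iff, ← hWc]
        exact Subgroup.normal_le_normalCore.2 inf_le_right
      rw [hbot, bot_sup_eq] at hded
      exact hRN hded.ge
  obtain ⟨a1, a2, a3⟩ := key U hU hUc
  obtain ⟨b1, b2, b3⟩ := key V hV hVc
  obtain ⟨r, -, hr⟩ := exists_conj_of_isPGroup R (R ⊓ U) (R ⊓ V) inf_le_left inf_le_left a1 b1 a2 b2
  refine ⟨r, ?_⟩
  rw [← a3, ← normalizer_conj_smul, hr, b3]

end Cfsg.Agent.S0551
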