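import Cfsg.Statements.S0552
import Cfsg.Agent.S0044

set_option autoImplicit false
open Cfsg

namespace Cfsg.Agent.S0552

/-- Let σ be an automorphism of a finite solvable group G fixing every element of the Fitting subgroup. If σ is not the identity then the order of σ and the order of G have a common prime factor. -/
theorem result {G : Type*} [Group G] [Finite G] [Group.IsSolvable G] (σ : G ≃* G) (hσ : ∀ x ∈ Cfsg.fittingSubgroup G, σ x = x) (hne : σ ≠ MulEquiv.refl G) : ¬ (orderOf σ).Coprime (Nat.card G) := by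
  intro hcop
  apply hne
  have hFn : (Cfsg.fittingSubgroup G).Normal := Subgroup.sSup_normal _ (fun H hH => hH.1)
  ext g
  rw [MulEquiv.refl_apply]
  set c := g⁻¹ * σ g with hc
  have hcF : c ∈ Cfsg.fittingSubgroup G := by
    apply Cfsg.Agent.S0044.result
    rw [Subgroup.mem_centralizer_iff]
    intro x hx
    have h1 : σ (g * x * g⁻¹) = g * x * g⁻¹ := hσ _ (hFn.conj_mem x hx g)
    rw [map_mul, map_mul, map_inv, hσ x hx] at h1
    rw [hc]
    calc x * (g⁻¹ * σ g) = g⁻¹ * (g * x * g⁻¹) * σ g := by group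
      _ = g⁻¹ * (σ g * x * (σ g)⁻¹) * σ g := by rw [h1]
      _ = g⁻¹ * σ g * x := by group
  have hσg : σ g = g * c := by rw [hc]; group
  have hpow : ∀ k : ℕ, (σ ^ k) g = g * c ^ k := by
    intro k
    induction k with
    | zero => simp
    | succ k ih =>
      rw [pow_succ', MulAut.mul_apply, ih, map_mul, map_pow, hσ c hcF, hσg, pow_succ', mul_assoc]
  have h1 := hpow (orderOf σ)
  rw [pow_orderOf_eq_one, MulAut.one_apply] at h1
  have h2 : c ^ orderOf σ = 1 := by
    have : g * 1 = g * c ^ orderOf σ := by rw [mul_one]; exact h1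
    exact (mul_left_cancel this).symm
  have h3 : orderOf c ∣ 1 := by
    rw [← Nat.coprime_iff_gcd_eq_one.1 hcop]
    exact Nat.dvd_gcd (orderOf_dvd_of_pow_eq_one h2) (orderOf_dvd_natCard c)
  have h4 : c = 1 := orderOf_eq_one_iff.1 (Nat.dvd_one.1 h3)
  rw [hσg, h4, mul_one]

end Cfsg.Agent.S0552
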