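import Cfsg.Statements.S0553
import Cfsg.Agent.Lib.Helper12.MinNormal
import Cfsg.Agent.Lib.Helper12.Card

set_option autoImplicit false
open Cfsg

namespace Cfsg.Agent.S0553

open Cfsg.Agent.Lib.Helper12

universe u

theorem isCoatom_comap {G H : Type*} [Group G] [Group H] {f : G →* H}
    (hf : Function.Surjective f) {M : Subgroup H} (hM : IsCoatom M) : IsCoatom (M.comap f) := by
  constructor
  · intro h
    apply hM.1
    rw [← Subgroup.map_comap_eq_self_of_surjective hf M, h, Subgroup.map_top_of_surjective f hf]
  · intro K hK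
    have h1 : M ≤ K.map f := by
      rw [← Subgroup.map_comap_eq_self_of_surjective hf M]
      exact Subgroup.map_mono hK.le
    have h2 : M ≠ K.map f := by
      intro h
      apply hK.not_ge
      rw [h]
      exact Subgroup.le_comap_map _ _
    have h3 := hM.2 _ (lt_of_le_of_ne h1 h2)
    have h4 : (K.map f).comap f = ⊤ := by rw [h3, Subgroup.comap_top]
    rw [Subgroup.comap_map_eq] at h4
    rw [← h4, eq_comm, sup_eq_left]
    exact (Subgroup.ker_le_comap f M).trans hK.le

theorem all_normal_of_normal {G : Type*} [Group G] [Finite G] {p : ℕ} [Fact p.Prime]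
    (Q : Sylow p G) (hQ : (Q : Subgroup G).Normal) (P : Sylow p G) : (P : Subgroup G).Normal := by
  obtain ⟨g, rfl⟩ := MulAction.exists_smul_eq G Q P
  rw [Sylow.smul_eq_of_normal]
  exact hQ

theorem aux (n : ℕ) : ∀ (G : Type u) [Group G] [Finite G] [Group.IsSolvable G] [Nontrivial G],
    Nat.card G = n → (∀ M : Subgroup G, IsCoatom M → (Nat.card M).Coprime M.index) →
    ∃ p : ℕ, p.Prime ∧ p ∣ Nat.card G ∧ ∀ P : Sylow p G, (P : Subgroup G).Normal := by
  induction n using Nat.strong_induction_on with
  | _ n ih =>
    intro G _ _ _ _ hcard h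
    obtain ⟨N, hN⟩ := exists_minNormal (G := G)
    obtain ⟨p, hp, hNp, -⟩ := hN.exists_isPGroup
    have hNn : N.Normal := hN.1
    have := Fact.mk hp
    by_cases hA : ∃ M : Subgroup G, IsCoatom M ∧ ¬ N ≤ M
    · obtain ⟨M, hM, hNM⟩ := hA
      have hsup : M ⊔ N = ⊤ := by
        apply hM.2
        exact lt_of_le_of_ne le_sup_left (fun h' => hNM (by rw [h']; exact le_sup_right))
      have hprod := card_sup_mul_card_inf M N
      rw [hsup, Subgroup.card_top] at hprod
      obtain ⟨k, hk⟩ := (IsPGroup.iff_card).1 hNp
      -- index of M divides card N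
      have hidx : M.index * Nat.card (M ⊓ N : Subgroup G) = Nat.card N := by
        have h1 := Subgroup.card_mul_index M
        rw [← h1, mul_assoc] at hprod
        exact Nat.eq_of_mul_eq_mul_left Nat.card_pos hprod
      have hidx1 : M.index ≠ 1 := by
        rw [Ne, Subgroup.index_eq_one]; exact hM.1
      have hpidx : p ∣ M.index := by
        have : M.index ∣ p ^ k := by rw [← hk, ← hidx]; exact dvd_mul_right _ _
        obtain ⟨j, -, hj⟩ := (Nat.dvd_prime_pow hp).1 this
        rw [hj] at hidx1 ⊢
        apply dvd_pow_self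
        rintro rfl
        exact hidx1 (pow_zero p)
      have hpM : ¬ p ∣ Nat.card M := by
        intro hd
        have := Nat.dvd_gcd hd hpidx
        rw [(h M hM)] at this
        exact hp.one_lt.ne' (Nat.dvd_one.1 this)
      have hinf : Nat.card (M ⊓ N : Subgroup G) = 1 := by
        have h1 : Nat.card (M ⊓ N : Subgroup G) ∣ Nat.card M := Subgroup.card_dvd_of_le inf_le_left
        have h2 : Nat.card (M ⊓ N : Subgroup G) ∣ p ^ k := hk ▸ Subgroup.card_dvd_of_le inf_le_right
        obtain ⟨j, -, hj⟩ := (Nat.dvd_prime_pow hp).1 h2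
        rcases Nat.eq_zero_or_pos j with rfl | hjpos
        · rw [hj, pow_zero]
        · exfalso
          apply hpM
          exact (dvd_pow_self p hjpos.ne').trans (hj ▸ h1)
      rw [hinf, mul_one] at hprod
      have hNidx : ¬ p ∣ N.index := by
        have h1 := Subgroup.card_mul_index N
        rw [hprod, mul_comm (Nat.card M)] at h1
        have h2 := Nat.eq_of_mul_eq_mul_left Nat.card_pos h1
        rw [h2]; exact hpM
      refine ⟨p, hp, ?_, ?_⟩
      · have hk0 : k ≠ 0 := by
          rintro rfl
          rw [pow_zero, Subgroup.card_eq_one] at hk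
          exact hN.2.1 hk
        exact (dvd_pow_self p hk0).trans (hk ▸ Subgroup.card_subgroup_dvd_card N)
      · exact all_normal_of_normal (hNp.toSylow hNidx) hNn
    · push Not at hA
      obtain ⟨M₀, hM₀, -⟩ := (eq_top_or_exists_le_coatom (⊥ : Subgroup G)).resolve_left bot_ne_top
      have hNtop : N ≠ ⊤ := by
        rintro rfl
        exact hM₀.1 (top_le_iff.1 (hA M₀ hM₀))
      have hntq : Nontrivial (G ⧸ N) := QuotientGroup.nontrivial_iff.2 hNtop
      have hcardq : Nat.card (G ⧸ N) < n := by
        rw [← hcard]
        have h1 := Subgroup.card_mul_index N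
        rw [Subgroup.index_eq_card] at h1
        have h2 : 1 < Nat.card N := by
          rw [Subgroup.one_lt_card_iff_ne_bot]; exact hN.2.1
        have h3 : 0 < Nat.card (G ⧸ N) := Nat.card_pos
        nlinarith
      have hsurj := QuotientGroup.mk'_surjective N
      obtain ⟨q, hq, hqd, hqn⟩ := ih _ hcardq (G ⧸ N) rfl (by
        intro Mb hMb
        have h1 := h _ (isCoatom_comap hsurj hMb)
        rw [Subgroup.index_comap_of_surjective _ hsurj] at h1
        refine Nat.Coprime.coprime_dvd_left ?_ h1
        have := Subgroup.card_map_dvd (Mb.comap (QuotientGroup.mk' N)) (QuotientGroup.mk' N)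
        rwa [Subgroup.map_comap_eq_self_of_surjective hsurj] at this)
      have := Fact.mk hq
      refine ⟨q, hq, hqd.trans (Subgroup.card_quotient_dvd_card N), ?_⟩
      intro Q
      have hQb := hqn (Q.mapSurjective hsurj)
      rw [Sylow.coe_mapSurjective] at hQb
      have hL : (((Q : Subgroup G).map (QuotientGroup.mk' N)).comap (QuotientGroup.mk' N)).Normal :=
        hQb.comap _
      rw [Subgroup.comap_map_eq, QuotientGroup.ker_mk'] at hL
      have hfr := Sylow.normalizer_sup_eq_top' Q (le_sup_left : (Q : Subgroup G) ≤ (Q : Subgroup G) ⊔ N)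
      rw [← Subgroup.normalizer_eq_top_iff]
      by_contra hne
      obtain ⟨M, hM, hle⟩ := (eq_top_or_exists_le_coatom _).resolve_left hne
      apply hM.1
      rw [eq_top_iff, ← hfr]
      exact sup_le hle (sup_le (Subgroup.le_normalizer.trans hle) (hA M hM))

/-- Let G be a nontrivial finite solvable group in which every maximal subgroup has order coprime to its index. Then for some prime p dividing the order of G the Sylow p-subgroups of G are normal. -/
theorem result {G : Type*} [Group G] [Finite G] [Group.IsSolvable G] [Nontrivial G] (h : ∀ M : Subgroup G, IsCoatom M → (Nat.card M).Coprime M.index) : ∃ p : ℕ, p.Prime ∧ p ∣ Nat.card G ∧ ∀ P : Sylow p G, (P : Subgroup G).Normal := by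
  exact aux _ G rfl h

end Cfsg.Agent.S0553
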