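import Cfsg.Statements.S0554
import Cfsg.Agent.Lib.Helper12.MinNormal

set_option autoImplicit false
open Cfsg

namespace Cfsg.Agent.S0554

open Cfsg.Agent.Lib.Helper12

open Pointwise in
theorem set_mul_normal {G : Type*} [Group G] (N : Subgroup G) [hN : N.Normal] (A : Set G) :
    A * (N : Set G) = (N : Set G) * A := by
  ext x
  constructor
  · rintro ⟨a, ha, n, hn, rfl⟩
    exact ⟨a * n * a⁻¹, hN.conj_mem n hn a, a, ha, by group⟩
  · rintro ⟨n, hn, a, ha, rfl⟩
    exact ⟨a, ha, a⁻¹ * n * a, by simpa using hN.conj_mem n hn a⁻¹, by group⟩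

open Pointwise in
theorem list_prod_mul {G : Type*} [Group G] (N : Subgroup G) [hN : N.Normal] (L : List (Set G))
    (h : ∃ X ∈ L, X * (N : Set G) = X) : L.prod * (N : Set G) = L.prod := by
  induction L with
  | nil => obtain ⟨X, hX, -⟩ := h; simp at hX
  | cons Y L ih =>
    obtain ⟨X, hX, hXN⟩ := h
    rw [List.prod_cons]
    rcases List.mem_cons.1 hX with rfl | hX'
    · rw [mul_assoc, set_mul_normal N, ← mul_assoc, hXN]
    · rw [mul_assoc, ih ⟨X, hX', hXN⟩]

open Pointwise in
theorem main (t : ℕ) (p : Fin t → ℕ) : ∀ (n : ℕ) (G : Type*) [Group G] [Finite G]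
    [Group.IsSolvable G], Nat.card G = n → (∀ q : ℕ, q.Prime → q ∣ Nat.card G → ∃ i, p i = q) →
    ∀ S : Fin t → Subgroup G, (∀ i, IsPGroup (p i) (S i)) → (∀ i, ¬ p i ∣ (S i).index) →
    (List.ofFn (fun i => (S i : Set G))).prod = Set.univ := by
  intro n
  induction n using Nat.strong_induction_on with
  | _ n ih =>
    intro G _ _ _ hn hall S hS hSi
    rcases subsingleton_or_nontrivial G with hsub | hnt
    · rw [Set.eq_univ_iff_forall]
      intro x
      rw [Set.mem_prod_list_ofFn]
      refine ⟨fun i => ⟨1, (S i).one_mem⟩, Subsingleton.elim _ _⟩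
    · obtain ⟨N, hN⟩ := exists_minNormal (G := G)
      obtain ⟨q, hq, hqN, -⟩ := hN.exists_isPGroup
      obtain ⟨hNn, hNne, -⟩ := hN
      have hqd : q ∣ Nat.card G := by
        have : Fact q.Prime := ⟨hq⟩
        obtain ⟨c, hc⟩ := IsPGroup.iff_card.1 hqN
        have hc0 : c ≠ 0 := by
          rintro rfl
          rw [pow_zero] at hc
          exact hNne (Subgroup.card_eq_one.1 hc)
        exact (dvd_pow_self q hc0).trans (hc ▸ Subgroup.card_subgroup_dvd_card N)
      obtain ⟨j, rfl⟩ := hall q hq hqd
      have : Fact (p j).Prime := ⟨hq⟩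
      have hNS : N ≤ S j := by
        have h1 : IsPGroup (p j) (S j ⊔ N : Subgroup G) := (hS j).to_sup_of_normal_right hqN
        have h2 := ((hS j).toSylow (hSi j)).is_maximal' h1 le_sup_left
        have h3 : S j ⊔ N = S j := h2
        rw [← h3]; exact le_sup_right
      have hlt : Nat.card (G ⧸ N) < n := by
        rw [← hn, ← Subgroup.index_eq_card, ← Subgroup.index_mul_card N]
        have h1 : 1 < Nat.card N := (Subgroup.one_lt_card_iff_ne_bot N).2 hNne
        have h2 : 0 < N.index := Nat.pos_of_ne_zero Subgroup.index_ne_zero_of_finite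
        nlinarith
      have hsurj := QuotientGroup.mk'_surjective N
      have key := ih _ hlt (G ⧸ N) rfl
        (fun r hr hrd => hall r hr (hrd.trans (Subgroup.card_quotient_dvd_card N)))
        (fun i => (S i).map (QuotientGroup.mk' N))
        (fun i => (hS i).map _)
        (fun i hd => hSi i (hd.trans (Subgroup.index_map_dvd _ hsurj)))
      have himg : (QuotientGroup.mk' N : G → G ⧸ N) '' (List.ofFn (fun i => (S i : Set G))).prod
          = Set.univ := by
        rw [Set.image_list_prod, List.map_ofFn, ← key]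
        rfl
      have hmul := list_prod_mul N (List.ofFn (fun i => (S i : Set G)))
        ⟨(S j : Set G), by rw [List.mem_ofFn]; exact ⟨j, rfl⟩, by
          ext x
          constructor
          · rintro ⟨a, ha, b, hb, rfl⟩
            exact (S j).mul_mem ha (hNS hb)
          · intro hx
            exact ⟨x, hx, 1, N.one_mem, mul_one x⟩⟩
      rw [Set.eq_univ_iff_forall]
      intro g
      have hg : QuotientGroup.mk' N g ∈ (QuotientGroup.mk' N : G → G ⧸ N) '' (List.ofFn (fun i => (S i : Set G))).prod := by
        rw [himg]; trivial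
      obtain ⟨x, hx, hxg⟩ := hg
      rw [← hmul]
      refine ⟨x, hx, x⁻¹ * g, ?_, by group⟩
      exact QuotientGroup.eq.1 hxg

/-- Let G be a finite solvable group and let S assign to each of t distinct primes, including every prime divisor of the order of G, a Sylow subgroup of G. Then every element of G is a product s_0 s_1 ⋯ s_(t-1) with s_i in S i, the factors taken in the given order. -/
theorem result {G : Type*} [Group G] [Finite G] [Group.IsSolvable G] (t : ℕ) (p : Fin t → ℕ) (hp : ∀ i, (p i).Prime) (hinj : Function.Injective p) (hall : ∀ q : ℕ, q.Prime → q ∣ Nat.card G → ∃ i, p i = q) (S : (i : Fin t) → Sylow (p i) G) : ∀ g : G, ∃ s : (i : Fin t) → G, (∀ i, s i ∈ (S i : Subgroup G)) ∧ g = (List.ofFn s).prod := by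
  intro g
  have h := main t p _ G rfl hall (fun i => (S i : Subgroup G)) (fun i => (S i).2)
    (fun i => by have : Fact (p i).Prime := ⟨hp i⟩; exact (S i).not_dvd_index)
  open Pointwise in
  have hg : g ∈ (List.ofFn (fun i => (((S i : Subgroup G)) : Set G))).prod := by rw [h]; trivial
  rw [Set.mem_prod_list_ofFn] at hg
  obtain ⟨f, hf⟩ := hg
  exact ⟨fun i => (f i : G), fun i => (f i).2, hf.symm⟩

end Cfsg.Agent.S0554
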