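import Cfsg.Statements.S0555

set_option autoImplicit false
open Cfsg

namespace Cfsg.Agent.S0555

theorem commutator_le_centralizer_of_isCyclic {Γ : Type*} [Group Γ] (N : Subgroup Γ) [N.Normal]
    (hN : IsCyclic N) : commutator Γ ≤ Subgroup.centralizer (N : Set Γ) := by
  let _ := (hN.mulAutMulEquiv _).toMonoidHom.commGroupOfInjective (hN.mulAutMulEquiv _).injective
  have h := Abelianization.commutator_subset_ker N.normalizerMonoidHom
  rwa [Subgroup.normalizerMonoidHom_ker, Subgroup.normalizer_eq_top,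
    ← Subgroup.map_subtype_le_map_subtype, Subgroup.map_subtype_commutator,
    Subgroup.map_subgroupOf_eq_of_le le_top, ← commutator_def] at h

theorem exists_gen {G : Type*} [Group G] (B C : Subgroup G) [(C.subgroupOf B).Normal]
    (h : IsCyclic (B ⧸ C.subgroupOf B)) : ∃ b ∈ B, ∀ y ∈ B, ∃ n : ℤ, (b ^ n)⁻¹ * y ∈ C := by
  obtain ⟨g, hg⟩ := h.exists_generator
  obtain ⟨b, rfl⟩ := QuotientGroup.mk_surjective g
  refine ⟨b, b.2, fun y hy => ?_⟩
  obtain ⟨n, hn⟩ := Subgroup.mem_zpowers_iff.1 (hg (QuotientGroup.mk (⟨y, hy⟩ : B)))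
  refine ⟨n, ?_⟩
  rw [← QuotientGroup.mk_zpow, QuotientGroup.eq, Subgroup.mem_subgroupOf] at hn
  simpa using hn

theorem key {Γ : Type*} [Group Γ] (i : ℕ) (hi : 1 ≤ i) (hB : IsCyclic (derivedSeries Γ (i + 1)))
    (hA : ∃ a ∈ derivedSeries Γ i, ∀ y ∈ derivedSeries Γ i, ∃ n : ℤ,
      (a ^ n)⁻¹ * y ∈ derivedSeries Γ (i + 1)) : derivedSeries Γ (i + 1) = ⊥ := by
  have h1 : derivedSeries Γ i ≤ Subgroup.centralizer (derivedSeries Γ (i + 1) : Set Γ) := by
    refine le_trans ?_ (commutator_le_centralizer_of_isCyclic _ hB)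
    have := derivedSeries_antitone Γ hi
    rwa [derivedSeries_one] at this
  have hBA : derivedSeries Γ (i + 1) ≤ derivedSeries Γ i := derivedSeries_antitone Γ (Nat.le_succ i)
  obtain ⟨a, ha, hgen⟩ := hA
  have hcomm : ∀ x ∈ derivedSeries Γ (i + 1), ∀ y ∈ derivedSeries Γ i, x * y = y * x := by
    intro x hx y hy
    exact (Subgroup.mem_centralizer_iff.1 (h1 hy) x hx)
  conv_lhs => rw [derivedSeries_succ]
  rw [Subgroup.commutator_eq_bot_iff_le_centralizer]
  intro x hx
  rw [Subgroup.mem_centralizer_iff]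
  intro y hy
  obtain ⟨m, hm⟩ := hgen x hx
  obtain ⟨n, hn⟩ := hgen y hy
  set b1 := (a ^ m)⁻¹ * x with hb1
  set b2 := (a ^ n)⁻¹ * y with hb2
  have hx' : x = a ^ m * b1 := by rw [hb1]; group
  have hy' : y = a ^ n * b2 := by rw [hb2]; group
  have e1 : b1 * a ^ n = a ^ n * b1 := hcomm b1 hm _ (Subgroup.zpow_mem _ ha n)
  have e2 : b2 * a ^ m = a ^ m * b2 := hcomm b2 hn _ (Subgroup.zpow_mem _ ha m)
  have e3 : b1 * b2 = b2 * b1 := hcomm b1 hm _ (hBA hn)
  have e4 : a ^ m * a ^ n = a ^ n * a ^ m := by rw [← zpow_add, ← zpow_add, add_comm]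
  rw [hx', hy']
  calc a ^ n * b2 * (a ^ m * b1) = a ^ n * (b2 * a ^ m) * b1 := by group
    _ = a ^ n * (a ^ m * b2) * b1 := by rw [e2]
    _ = (a ^ n * a ^ m) * (b2 * b1) := by group
    _ = (a ^ m * a ^ n) * (b1 * b2) := by rw [e4, e3]
    _ = a ^ m * (a ^ n * b1) * b2 := by group
    _ = a ^ m * (b1 * a ^ n) * b2 := by rw [e1]
    _ = a ^ m * b1 * (a ^ n * b2) := by group

/-- Let i ≥ 1. If in the derived series of a group the quotient of the i-th term by the (i+1)-st and the quotient of the (i+1)-st by the (i+2)-nd are both cyclic, then the (i+1)-st and (i+2)-nd terms coincide. -/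
theorem result {G : Type*} [Group G] (i : ℕ) (hi : 1 ≤ i) (h₁ : IsCyclic (↥(derivedSeries G i) ⧸ (derivedSeries G (i + 1)).subgroupOf (derivedSeries G i))) (h₂ : IsCyclic (↥(derivedSeries G (i + 1)) ⧸ (derivedSeries G (i + 2)).subgroupOf (derivedSeries G (i + 1)))) : derivedSeries G (i + 1) = derivedSeries G (i + 2) := by
  apply le_antisymm _ (derivedSeries_antitone G (Nat.le_succ (i + 1)))
  obtain ⟨a, ha, hagen⟩ := exists_gen _ _ h₁
  obtain ⟨b, hb, hbgen⟩ := exists_gen _ _ h₂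
  set C := derivedSeries G (i + 2) with hC
  have hsurj : Function.Surjective (QuotientGroup.mk' C) := QuotientGroup.mk'_surjective C
  have hmap : ∀ n, (derivedSeries G n).map (QuotientGroup.mk' C) = derivedSeries (G ⧸ C) n :=
    fun n => map_derivedSeries_eq hsurj n
  have hk : derivedSeries (G ⧸ C) (i + 1) = ⊥ := by
    apply key i hi
    · rw [Subgroup.isCyclic_iff_exists_zpowers_eq_top]
      refine ⟨QuotientGroup.mk' C b, ?_⟩
      apply le_antisymm
      · rw [Subgroup.zpowers_le, ← hmap]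
        exact Subgroup.mem_map_of_mem _ hb
      · rw [← hmap]
        rintro _ ⟨y, hy, rfl⟩
        obtain ⟨n, hn⟩ := hbgen y hy
        rw [Subgroup.mem_zpowers_iff]
        refine ⟨n, ?_⟩
        rw [← map_zpow]
        exact QuotientGroup.eq.2 hn
    · refine ⟨QuotientGroup.mk' C a, ?_, ?_⟩
      · rw [← hmap]; exact Subgroup.mem_map_of_mem _ ha
      · rw [← hmap, ← hmap]
        rintro _ ⟨y, hy, rfl⟩
        obtain ⟨n, hn⟩ := hagen y hy
        refine ⟨n, ?_⟩
        rw [← map_zpow, ← map_inv, ← map_mul]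
        exact Subgroup.mem_map_of_mem _ hn
  rw [← hmap, Subgroup.map_eq_bot_iff, QuotientGroup.ker_mk'] at hk
  exact hk

end Cfsg.Agent.S0555
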