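import Cfsg.Statements.S0556
import Cfsg.Agent.Lib.Helper12.FrobAbelMax

set_option autoImplicit false
open Cfsg

namespace Cfsg.Agent.S0556

open Cfsg.Agent.Lib.Helper12
open Pointwise

theorem normal_case {G : Type*} [Group G] (A : Subgroup G) (hA : IsCoatom A)
    [hAc : IsMulCommutative A] (hn : A.Normal) : derivedSeries G 2 = ⊥ := by
  have hex : ∃ g, g ∉ A := by
    by_contra h
    push Not at h
    exact hA.1 (eq_top_iff.2 fun x _ => h x)
  obtain ⟨g, hg⟩ := hex
  have hsup : A ⊔ Subgroup.zpowers g = ⊤ := by
    apply hA.2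
    refine lt_of_le_of_ne le_sup_left ?_
    intro h
    apply hg
    rw [h]
    exact (le_sup_right : Subgroup.zpowers g ≤ _) (Subgroup.mem_zpowers g)
  have hcyc : IsCyclic (G ⧸ A) := by
    refine ⟨QuotientGroup.mk' A g, fun y => ?_⟩
    have h1 : (A ⊔ Subgroup.zpowers g).map (QuotientGroup.mk' A) = ⊤ := by
      rw [hsup, Subgroup.map_top_of_surjective _ (QuotientGroup.mk'_surjective A)]
    rw [Subgroup.map_sup, MonoidHom.map_zpowers,
      (Subgroup.map_eq_bot_iff A).2 (by rw [QuotientGroup.ker_mk']), bot_sup_eq] at h1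
    have hy : y ∈ Subgroup.zpowers ((QuotientGroup.mk' A) g) := by rw [h1]; trivial
    exact hy
  have hcomm : commutator G ≤ A := by
    rw [← Subgroup.Normal.quotient_commutative_iff_commutator_le]
    exact ⟨⟨fun a b => hcyc.commGroup.mul_comm a b⟩⟩
  have hAc' : A ≤ Subgroup.centralizer (A : Set G) := Subgroup.le_centralizer_iff_isMulCommutative.2 hAc
  rw [derivedSeries_succ, derivedSeries_one, eq_bot_iff,
    ← (Subgroup.commutator_eq_bot_iff_le_centralizer).2 hAc']
  exact Subgroup.commutator_mono hcomm hcomm

theorem nonnormal_case {G : Type*} [Group G] [Finite G] (A : Subgroup G) (hA : IsCoatom A)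
    [hAc : IsMulCommutative A] (hn : ¬ A.Normal) : derivedSeries G 2 ≤ Subgroup.center G := by
  have hAc' : A ≤ Subgroup.centralizer (A : Set G) := Subgroup.le_centralizer_iff_isMulCommutative.2 hAc
  have hNA : Subgroup.normalizer (A : Set G) = A := by
    by_contra h
    have h1 := hA.2 _ (lt_of_le_of_ne Subgroup.le_normalizer (Ne.symm h))
    exact hn (Subgroup.normalizer_eq_top_iff.1 h1)
  have hZA : Subgroup.center G ≤ A := by
    rw [← hNA]
    exact (Subgroup.center_le_centralizer _).trans (Subgroup.centralizer_le_normalizer _)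
  have hint : ∀ g : G, g ∉ A → A ⊓ MulAut.conj g • A ≤ Subgroup.center G := by
    intro g hg x hx
    have hnle : ¬ MulAut.conj g • A ≤ A := by
      intro hle
      apply hg
      rw [← hNA, mem_normalizer_iff_smul]
      exact Subgroup.eq_of_le_of_card_ge hle (by rw [card_conj_smul])
    have hsup : A ⊔ MulAut.conj g • A = ⊤ := by
      apply hA.2
      refine lt_of_le_of_ne le_sup_left ?_
      intro h
      apply hnle
      exact le_sup_right.trans h.ge
    have h1 : A ≤ Subgroup.centralizer {x} := by
      intro a ha
      rw [Subgroup.mem_centralizer_singleton_iff]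
      exact (Subgroup.mem_centralizer_iff.1 (hAc' ha) x hx.1).symm
    have h2 : MulAut.conj g • A ≤ Subgroup.centralizer {x} := by
      intro a ha
      rw [Subgroup.mem_centralizer_singleton_iff]
      obtain ⟨a', ha', rfl⟩ := ha
      obtain ⟨x', hx', hxx⟩ := hx.2
      rw [← hxx]
      have h3 : a' * x' = x' * a' := (Subgroup.mem_centralizer_iff.1 (hAc' ha') x' hx').symm
      change (MulAut.conj g) a' * (MulAut.conj g) x' = (MulAut.conj g) x' * (MulAut.conj g) a'
      rw [← map_mul, ← map_mul, h3]
    have h3 : Subgroup.centralizer {x} = ⊤ := by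
      rw [eq_top_iff, ← hsup]; exact sup_le h1 h2
    rw [Subgroup.mem_center_iff]
    intro y
    have hy : y ∈ Subgroup.centralizer {x} := by rw [h3]; trivial
    exact Subgroup.mem_centralizer_singleton_iff.1 hy
  set Z := Subgroup.center G with hZ
  set π := QuotientGroup.mk' Z with hπ
  have hsurj : Function.Surjective π := QuotientGroup.mk'_surjective Z
  have hcomap : (A.map π).comap π = A := by
    rw [Subgroup.comap_map_eq, hπ, QuotientGroup.ker_mk', sup_eq_left]; exact hZA
  have hcoatom : IsCoatom (A.map π) := by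
    constructor
    · intro h
      apply hA.1
      rw [← hcomap, h, Subgroup.comap_top]
    · intro L hL
      have h1 : A < L.comap π := by
        rw [← hcomap]
        refine lt_of_le_of_ne (Subgroup.comap_mono hL.le) ?_
        intro h
        have := congrArg (Subgroup.map π) h
        rw [Subgroup.map_comap_eq_self_of_surjective hsurj, Subgroup.map_comap_eq_self_of_surjective hsurj] at this
        exact hL.ne this
      have h2 := hA.2 _ h1
      rw [← Subgroup.map_comap_eq_self_of_surjective hsurj L, h2, Subgroup.map_top_of_surjective _ hsurj]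
  have hF : Cfsg.IsFrobeniusComplement (A.map π) := by
    refine ⟨?_, hcoatom.1, ?_⟩
    · intro h
      apply hn
      rw [Subgroup.map_eq_bot_iff, hπ, QuotientGroup.ker_mk'] at h
      rw [le_antisymm h hZA]
      infer_instance
    · intro gb hgb
      obtain ⟨g, rfl⟩ := hsurj gb
      have hg : g ∉ A := fun h => hgb (Subgroup.mem_map_of_mem _ h)
      rw [eq_bot_iff]
      rintro _ ⟨⟨a, ha, rfl⟩, hx2⟩
      obtain ⟨_, ⟨b, hb, rfl⟩, hbx⟩ := hx2
      rw [Subgroup.mem_bot]
      have h1 : π (g * b * g⁻¹) = π a := by
        rw [← hbx]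
        simp [MulAut.conj_apply]
      have h2 : (g * b * g⁻¹)⁻¹ * a ∈ Z := QuotientGroup.eq.1 h1
      set z := (g * b * g⁻¹)⁻¹ * a with hz
      have h3 : a = g * (b * z) * g⁻¹ := by
        have hzc : z * g⁻¹ = g⁻¹ * z := (Subgroup.mem_center_iff.1 h2 g⁻¹).symm
        calc a = g * b * g⁻¹ * z := by rw [hz]; group
          _ = g * b * (g⁻¹ * z) := by group
          _ = g * b * (z * g⁻¹) := by rw [hzc]
          _ = g * (b * z) * g⁻¹ := by group
      have h4 : a ∈ A ⊓ MulAut.conj g • A :=
        Subgroup.mem_inf.2 ⟨ha, ⟨b * z, A.mul_mem hb (hZA h2), by rw [h3]; rfl⟩⟩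
      exact (QuotientGroup.eq_one_iff a).2 (hint g hg h4)
  have hcommMap : IsMulCommutative (A.map π) := inferInstance
  have key := derivedSeries_two_of_frobenius (A.map π) hcoatom hF
  rw [← map_derivedSeries_eq hsurj, Subgroup.map_eq_bot_iff, hπ, QuotientGroup.ker_mk'] at key
  exact key

/-- If a finite group has a maximal subgroup that is abelian, then the third term of its derived series is trivial (so the group is solvable of derived length at most three). -/
theorem result {G : Type*} [Group G] [Finite G] (A : Subgroup G) (hA : IsCoatom A) [IsMulCommutative A] : derivedSeries G 3 = ⊥ := by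
  have h : derivedSeries G 2 ≤ Subgroup.center G := by
    by_cases hn : A.Normal
    · rw [normal_case A hA hn]; exact bot_le
    · exact nonnormal_case A hA hn
  rw [derivedSeries_succ, Subgroup.commutator_eq_bot_iff_le_centralizer]
  exact h.trans (Subgroup.center_le_centralizer _)

end Cfsg.Agent.S0556
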