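import Cfsg.Statements.S0557
import Cfsg.Agent.Lib.Helper12.Card

set_option autoImplicit false
open Cfsg

namespace Cfsg.Agent.S0557

open Cfsg.Agent.Lib.Helper12
open scoped commutatorElement

theorem mem_of_coprime_index {L : Type*} [Group L] [Finite L] (M : Subgroup L) [M.Normal] (x : L)
    (h : (M.index).Coprime (orderOf x)) : x ∈ M := by
  obtain ⟨m, hm⟩ := exists_pow_eq_self_of_coprime h
  rw [← hm]
  exact M.pow_mem (Subgroup.pow_index_mem M x) m

theorem map_focal_le {G : Type*} [Group G] (L : Subgroup G) (K' : Subgroup L) (K : Subgroup G)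
    (h : K'.map L.subtype ≤ K) : (K'.focalSubgroup).map L.subtype ≤ K.focalSubgroup := by
  rw [Subgroup.focalSubgroup_def, Subgroup.focalSubgroup_def, MonoidHom.map_closure]
  apply Subgroup.closure_mono
  rintro _ ⟨g, ⟨hg, x, hx, u, hgu⟩, rfl⟩
  refine ⟨h ⟨g, hg, rfl⟩, x, h ⟨x, hx, rfl⟩, u, ?_⟩
  rw [hgu]
  simp [commutatorElement_def]

theorem map_iter_focal_le {G : Type*} [Group G] (L : Subgroup G) (k : ℕ) :
    ∀ (K' : Subgroup L) (K : Subgroup G), K'.map L.subtype ≤ K →
    ((fun K : Subgroup L => Subgroup.focalSubgroup K)^[k] K').map L.subtype ≤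
      (fun K : Subgroup G => Subgroup.focalSubgroup K)^[k] K := by
  induction k with
  | zero => intro K' K h; exact h
  | succ k ih =>
    intro K' K h
    rw [Function.iterate_succ_apply, Function.iterate_succ_apply]
    exact ih _ _ (map_focal_le L K' K h)

theorem transferFocal_surj {G : Type*} [Group G] [Finite G] (H : Subgroup G)
    (hHall : (Nat.card H).Coprime H.index) : Function.Surjective H.transferFocal := by
  intro y
  have hcop : (Nat.card (H ⧸ H.focalSubgroupOf)).Coprime H.index :=
    Nat.Coprime.coprime_dvd_left (Subgroup.card_quotient_dvd_card _) hHall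
  obtain ⟨z, hz⟩ := (powCoprime hcop).surjective y
  obtain ⟨x, rfl⟩ := QuotientGroup.mk_surjective z
  exact ⟨x, (H.transferFocal_eq_pow x).trans hz⟩

theorem focal_le_ker {G : Type*} [Group G] [Finite G] (H : Subgroup G) :
    H.focalSubgroup ≤ H.transferFocal.ker := by
  intro x hx
  have hxH : x ∈ H := H.focalSubgroup_le hx
  rw [MonoidHom.mem_ker]
  have h1 := H.transferFocal_eq_pow ⟨x, hxH⟩
  have h2 : ((⟨x, hxH⟩ : H) : H ⧸ H.focalSubgroupOf) = 1 := by
    rw [QuotientGroup.eq_one_iff, Subgroup.focalSubgroupOf_def, Subgroup.mem_subgroupOf]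
    exact hx
  rw [h2, one_pow] at h1
  exact h1

theorem card_ker {G : Type*} [Group G] [Finite G] (H : Subgroup G)
    (hHall : (Nat.card H).Coprime H.index) :
    Nat.card H.transferFocal.ker = H.index * Nat.card H.focalSubgroup := by
  have h1 : H.transferFocal.ker.index = H.focalSubgroupOf.index := by
    rw [Subgroup.index_ker, MonoidHom.range_eq_top.2 (transferFocal_surj H hHall), Subgroup.card_top,
      Subgroup.index_eq_card]
  have h2 := Subgroup.index_mul_card H.transferFocal.ker
  have h3 := Subgroup.index_mul_card H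
  have h4 : H.focalSubgroupOf.index * Nat.card H.focalSubgroup = Nat.card H :=
    relIndex_mul_card' H.focalSubgroup_le
  have hpos : 0 < H.focalSubgroupOf.index := Nat.pos_of_ne_zero Subgroup.index_ne_zero_of_finite
  apply Nat.eq_of_mul_eq_mul_left hpos
  rw [← h1, h2, ← h3, ← h4, h1]
  ring

theorem main (n : ℕ) : ∀ (G : Type*) [Group G] [Finite G] (H : Subgroup G),
    (Nat.card H).Coprime H.index → (fun K : Subgroup G => Subgroup.focalSubgroup K)^[n] H = ⊥ →
    ∃ N : Subgroup G, N.Normal ∧ Subgroup.IsComplement' N H := by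
  induction n with
  | zero =>
    intro G _ _ H _ h
    have hH : H = ⊥ := h
    subst hH
    exact ⟨⊤, inferInstance, Subgroup.isComplement'_top_bot⟩
  | succ n ih =>
    intro G _ _ H hHall h
    rw [Function.iterate_succ_apply] at h
    set N₁ := H.transferFocal.ker with hN₁
    have hle : H.focalSubgroup ≤ N₁ := focal_le_ker H
    have hcardN := card_ker H hHall
    set H' : Subgroup N₁ := H.focalSubgroup.subgroupOf N₁ with hH'
    have hcardH' : Nat.card H' = Nat.card H.focalSubgroup :=
      Nat.card_congr (Subgroup.subgroupOfEquivOfLe hle).toEquiv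
    have hidx : H'.index = H.index := by
      have h1 : H'.index * Nat.card H.focalSubgroup = Nat.card N₁ := relIndex_mul_card' hle
      rw [hcardN] at h1
      exact Nat.eq_of_mul_eq_mul_right Nat.card_pos h1
    have hdvd : Nat.card H.focalSubgroup ∣ Nat.card H := Subgroup.card_dvd_of_le H.focalSubgroup_le
    have hHall' : (Nat.card H').Coprime H'.index := by
      rw [hcardH', hidx]
      exact Nat.Coprime.coprime_dvd_left hdvd hHall
    have hfoc' : (fun K : Subgroup N₁ => Subgroup.focalSubgroup K)^[n] H' = ⊥ := by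
      have h1 := map_iter_focal_le N₁ n H' H.focalSubgroup (by
        rw [hH', Subgroup.map_subgroupOf_eq_of_le hle])
      rw [h, le_bot_iff] at h1
      exact (Subgroup.map_eq_bot_iff_of_injective _ N₁.subtype_injective).1 h1
    obtain ⟨M', hM'n, hM'c⟩ := ih N₁ H' hHall' hfoc'
    have hcardM' : Nat.card M' = H.index := by rw [← hM'c.index_eq_card, hidx]
    have hM'idx : M'.index = Nat.card H.focalSubgroup := by
      rw [← hcardH', ← hM'c.symm.index_eq_card]
    have hcardM : Nat.card (M'.map N₁.subtype) = H.index := by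
      rw [Subgroup.card_map_of_injective N₁.subtype_injective, hcardM']
    refine ⟨M'.map N₁.subtype, ⟨?_⟩, ?_⟩
    · rintro _ ⟨m, hm, rfl⟩ g
      have hmem : g * (m : G) * g⁻¹ ∈ N₁ := (inferInstance : N₁.Normal).conj_mem _ m.2 g
      refine ⟨⟨_, hmem⟩, ?_, rfl⟩
      apply mem_of_coprime_index
      have ho : orderOf (⟨_, hmem⟩ : N₁) = orderOf m := by
        rw [← Subgroup.orderOf_coe, ← Subgroup.orderOf_coe]
        exact ((MulAut.conj g).orderOf_eq (m : G))
      rw [ho, hM'idx]
      have h1 : orderOf m ∣ H.index := by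
        rw [← hcardM']
        have := orderOf_dvd_natCard (⟨m, hm⟩ : M')
        rwa [← Subgroup.orderOf_coe] at this
      exact (Nat.Coprime.coprime_dvd_left hdvd hHall).coprime_dvd_right h1
    · apply Subgroup.isComplement'_of_coprime
      · rw [hcardM]; exact Subgroup.index_mul_card H
      · rw [hcardM]; exact hHall.symm

/-- Let H be a subgroup of a finite group G with order coprime to its index. If iterating the focal-subgroup construction starting from H reaches the trivial subgroup after finitely many steps, then H has a normal complement in G. -/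
theorem result {G : Type*} [Group G] [Finite G] (H : Subgroup G) (hHall : (Nat.card H).Coprime H.index) (n : ℕ) (hfoc : (fun K : Subgroup G => Subgroup.focalSubgroup K)^[n] H = ⊥) : ∃ N : Subgroup G, N.Normal ∧ Subgroup.IsComplement' N H := by
  exact main n G H hHall hfoc

end Cfsg.Agent.S0557
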