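import Cfsg.Statements.S0563
import Cfsg.Agent.Lib.Helper12.KW7

set_option autoImplicit false
open Pointwise
open Cfsg

namespace Cfsg.Agent.S0563

open Cfsg.Agent.Lib.Helper12

theorem sylow_data {G : Type*} [Group G] [Finite G] (A B : Subgroup G) (hA : Group.IsNilpotent A)
    (hcop : (Nat.card A).Coprime (Nat.card B)) (hidx : A.index = Nat.card B)
    (p : ℕ) [Fact p.Prime] (P : Sylow p A) :
    (((P : Subgroup A).map A.subtype).subgroupOf A).Normal ∧
      (Nat.card ((P : Subgroup A).map A.subtype)).Coprime ((P : Subgroup A).map A.subtype).index := by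
  constructor
  · have h1 : ((P : Subgroup A).map A.subtype).subgroupOf A = (P : Subgroup A) :=
      Subgroup.comap_map_eq_self_of_injective A.subtype_injective _
    rw [h1]
    infer_instance
  · rw [Subgroup.card_map_of_injective A.subtype_injective, Subgroup.index_map_subtype, hidx]
    exact Nat.Coprime.mul_right P.card_coprime_index
      (Nat.Coprime.coprime_dvd_left (Subgroup.card_subgroup_dvd_card _) hcop)

/-- If a finite group G is the product AB of two nilpotent subgroups of coprime orders, then G is solvable, and for every Sylow p-subgroup P of A and Sylow q-subgroup Q of B the product set PQ is a subgroup. -/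
theorem result {G : Type*} [Group G] [Finite G] (A B : Subgroup G) (hA : Group.IsNilpotent A) (hB : Group.IsNilpotent B) (hcop : (Nat.card A).Coprime (Nat.card B)) (hAB : ∀ g : G, ∃ a ∈ A, ∃ b ∈ B, g = a * b) : Group.IsSolvable G ∧ ∀ (p q : ℕ) [Fact p.Prime] [Fact q.Prime] (P : Sylow p A) (Q : Sylow q B), ∃ S : Subgroup G, (S : Set G) = (((P : Subgroup A).map A.subtype : Subgroup G) : Set G) * (((Q : Subgroup B).map B.subtype : Subgroup G) : Set G) := by
  have hsolv := solvable_of_coprime_nilpotent A B hA hB hcop hAB
  refine ⟨hsolv, ?_⟩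
  intro p q _ _ P Q
  have hcard := fact_card A B hcop hAB
  have hAi : A.index = Nat.card B := by
    have h := Subgroup.card_mul_index A
    rw [← hcard] at h
    exact Nat.eq_of_mul_eq_mul_left Nat.card_pos h
  have hBi : B.index = Nat.card A := by
    have h := Subgroup.index_mul_card B
    rw [← hcard] at h
    exact Nat.eq_of_mul_eq_mul_right Nat.card_pos h
  obtain ⟨h1, h2⟩ := sylow_data A B hA hcop hAi p P
  obtain ⟨h3, h4⟩ := sylow_data B A hB hcop.symm hBi q Q
  obtain ⟨S, hS⟩ := Cfsg.Agent.S0561.result A B _ _ hAB (Subgroup.map_subtype_le _) h1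
    (Subgroup.map_subtype_le _) h3 h2 h4 1 1
  rw [map_one, one_smul, one_smul] at hS
  exact ⟨S, hS⟩

end Cfsg.Agent.S0563
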