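import Cfsg.Statements.S0565
import Cfsg.Agent.S0564

set_option autoImplicit false
open Cfsg

namespace Cfsg.Agent.S0565

open Cfsg.Agent.Lib.Helper12

universe u

structure MinK (G : Type u) [Group G] [Finite G] (A B : Subgroup G) : Prop where
  nilA : Group.IsNilpotent A
  nilB : Group.IsNilpotent B
  fact : ∀ g : G, ∃ a ∈ A, ∃ b ∈ B, g = a * b
  ih : ∀ (G' : Type u) [Group G'] [Finite G'] (A' B' : Subgroup G'), Nat.card G' < Nat.card G →
    Group.IsNilpotent A' → Group.IsNilpotent B' →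
    (∀ g : G', ∃ a ∈ A', ∃ b ∈ B', g = a * b) → (A' ≠ ⊤ ∨ B' ≠ ⊤) →
    ∃ N : Subgroup G', N.Normal ∧ N ≠ ⊤ ∧ (A' ≤ N ∨ B' ≤ N)
  none : ∀ N : Subgroup G, N.Normal → N ≠ ⊤ → ¬ (A ≤ N ∨ B ≤ N)
  proper : A ≠ ⊤ ∨ B ≠ ⊤

namespace MinK

variable {G : Type u} [Group G] [Finite G] {A B : Subgroup G}

theorem symm (hG : MinK G A B) : MinK G B A where
  nilA := hG.nilB
  nilB := hG.nilA
  fact := by
    intro g
    obtain ⟨h, hh, k, hk, hg⟩ := hG.fact g⁻¹
    refine ⟨k⁻¹, B.inv_mem hk, h⁻¹, A.inv_mem hh, ?_⟩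
    rw [← mul_inv_rev, ← hg, inv_inv]
  ih := hG.ih
  none := fun N hN hne h => hG.none N hN hne h.symm
  proper := hG.proper.symm

theorem sup_eq_top (hG : MinK G A B) (N : Subgroup G) [hN : N.Normal] (hne : N ≠ ⊥) :
    A ⊔ N = ⊤ := by
  by_contra h
  have hmap : A.map (QuotientGroup.mk' N) ≠ ⊤ := by
    intro h1
    apply h
    have h2 := congrArg (Subgroup.comap (QuotientGroup.mk' N)) h1
    rwa [Subgroup.comap_map_eq, QuotientGroup.ker_mk', Subgroup.comap_top] at h2
  obtain ⟨Nb, hNbn, hNbne, hNb⟩ := hG.ih (G ⧸ N) (A.map (QuotientGroup.mk' N))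
    (B.map (QuotientGroup.mk' N))
    (by
      rw [← Subgroup.index_eq_card, ← Subgroup.index_mul_card N]
      have h1 : 1 < Nat.card N := (Subgroup.one_lt_card_iff_ne_bot N).2 hne
      have h2 : 0 < N.index := Nat.pos_of_ne_zero Subgroup.index_ne_zero_of_finite
      nlinarith)
    (by
      have := hG.nilA
      exact Group.nilpotent_of_surjective ((QuotientGroup.mk' N).subgroupMap A)
        ((QuotientGroup.mk' N).subgroupMap_surjective A))
    (by
      have := hG.nilB
      exact Group.nilpotent_of_surjective ((QuotientGroup.mk' N).subgroupMap B)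
        ((QuotientGroup.mk' N).subgroupMap_surjective B))
    (by
      intro g
      obtain ⟨g, rfl⟩ := QuotientGroup.mk'_surjective N g
      obtain ⟨h, hh, k, hk, rfl⟩ := hG.fact g
      exact ⟨_, Subgroup.mem_map_of_mem _ hh, _, Subgroup.mem_map_of_mem _ hk, map_mul _ _ _⟩)
    (Or.inl hmap)
  apply hG.none (Nb.comap (QuotientGroup.mk' N)) (hNbn.comap _)
  · intro h1
    apply hNbne
    rw [← Subgroup.map_comap_eq_self_of_surjective (QuotientGroup.mk'_surjective N) Nb, h1,
      Subgroup.map_top_of_surjective _ (QuotientGroup.mk'_surjective N)]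
  · rcases hNb with h1 | h1
    · exact Or.inl (Subgroup.map_le_iff_le_comap.1 h1)
    · exact Or.inr (Subgroup.map_le_iff_le_comap.1 h1)

theorem not_nilpotent (hG : MinK G A B) : ¬ Group.IsNilpotent G := by
  intro hnil
  have key : ∀ X : Subgroup G, X ≠ ⊤ → ∃ M : Subgroup G, M.Normal ∧ M ≠ ⊤ ∧ X ≤ M := by
    intro X hX
    obtain ⟨M, hM, hXM⟩ := (eq_top_or_exists_le_coatom X).resolve_left hX
    exact ⟨M, Subgroup.NormalizerCondition.normal_of_coatom M Group.normalizerCondition_of_isNilpotent hM, hM.1, hXM⟩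
  rcases hG.proper with h | h
  · obtain ⟨M, hMn, hMne, hle⟩ := key A h
    exact hG.none M hMn hMne (Or.inl hle)
  · obtain ⟨M, hMn, hMne, hle⟩ := key B h
    exact hG.none M hMn hMne (Or.inr hle)

theorem A_ne_top (hG : MinK G A B) : A ≠ ⊤ := by
  intro h
  apply hG.not_nilpotent
  have h1 := hG.nilA
  rw [h] at h1
  exact Group.nilpotent_of_mulEquiv Subgroup.topEquiv

theorem eq_bot_of_normal_le (hG : MinK G A B) (D : Subgroup G) [D.Normal] (hD : D ≤ A) : D = ⊥ := by
  by_contra h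
  apply hG.A_ne_top
  rw [← hG.sup_eq_top D h, sup_eq_left.2 hD]

theorem not_dvd_card (hG : MinK G A B) {N : Subgroup G} (hN : IsMinNormal N) {p : ℕ}
    [hp : Fact p.Prime] (hNp : IsPGroup p N) (hNc : IsMulCommutative N) : ¬ p ∣ Nat.card A := by
  intro hpA
  obtain ⟨hNn, hNne, hNmin⟩ := hN
  have hsup := hG.sup_eq_top N hNne
  have hNcent : N ≤ Subgroup.centralizer (N : Set G) := Subgroup.le_centralizer_iff_isMulCommutative.2 hNc
  obtain ⟨Ap, Ap', hs⟩ := exists_split A hG.nilA p
  have hApne := hs.Q_ne_bot hpA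
  -- `A ⊓ C(N)` is trivial
  have hD : A ⊓ Subgroup.centralizer (N : Set G) = ⊥ := by
    have hDn : (A ⊓ Subgroup.centralizer (N : Set G)).Normal := by
      apply normal_of_sup_eq_top hsup
      · intro a ha
        apply mem_normalizer_of_conj_mem'
        intro d hd
        exact ⟨A.mul_mem (A.mul_mem ha hd.1) (A.inv_mem ha),
          (inferInstance : (Subgroup.centralizer (N : Set G)).Normal).conj_mem d hd.2 a⟩
      · intro n hn
        apply mem_normalizer_of_conj_mem'
        intro d hd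
        have h1 : n * d = d * n := Subgroup.mem_centralizer_iff.1 hd.2 n hn
        have h2 : n * d * n⁻¹ = d := by rw [h1]; group
        rw [h2]; exact hd
    exact hG.eq_bot_of_normal_le _ inf_le_left
  have hPstar : IsPGroup p (Ap ⊔ N : Subgroup G) := hs.isPGroup.to_sup_of_normal_right hNp
  have h7 := inf_centralizer_ne_bot _ hPstar N le_sup_right Subgroup.le_normalizer_of_normal hNne
  have hZne : N ⊓ Subgroup.centralizer (Ap : Set G) ≠ ⊥ := by
    intro h
    apply h7
    rw [eq_bot_iff, ← h]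
    exact inf_le_inf_left _ (Subgroup.centralizer_le (SetLike.coe_subset_coe.2 le_sup_left))
  have hZn : (N ⊓ Subgroup.centralizer (Ap : Set G)).Normal := by
    apply normal_of_sup_eq_top hsup
    · intro a ha
      apply mem_normalizer_of_conj_mem'
      intro d hd
      refine Subgroup.mem_inf.2 ⟨hNn.conj_mem d hd.1 a, ?_⟩
      rw [Subgroup.mem_centralizer_iff]
      intro y hy
      have hy' : a⁻¹ * y * a⁻¹⁻¹ ∈ Ap :=
        conj_mem_of_mem_normalizer (hs.le_normalizer_Q (A.inv_mem ha)) hy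
      have h1 := Subgroup.mem_centralizer_iff.1 hd.2 _ hy'
      calc y * (a * d * a⁻¹) = a * ((a⁻¹ * y * a⁻¹⁻¹) * d) * a⁻¹ := by group
        _ = a * (d * (a⁻¹ * y * a⁻¹⁻¹)) * a⁻¹ := by rw [h1]
        _ = a * d * a⁻¹ * y := by group
    · intro n hn
      apply mem_normalizer_of_conj_mem'
      intro d hd
      have h1 : d * n = n * d := Subgroup.mem_centralizer_iff.1 (hNcent hn) d hd.1
      have h2 : n * d * n⁻¹ = d := by rw [← h1]; group
      rw [h2]; exact hd
  have hZ := (hNmin _ hZn inf_le_left).resolve_left hZne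
  apply hApne
  rw [eq_bot_iff, ← hD]
  intro x hx
  refine Subgroup.mem_inf.2 ⟨hs.Q_le hx, ?_⟩
  rw [Subgroup.mem_centralizer_iff]
  intro n hn
  have hn' : n ∈ N ⊓ Subgroup.centralizer (Ap : Set G) := by rw [hZ]; exact hn
  exact (Subgroup.mem_centralizer_iff.1 hn'.2 x hx).symm

theorem false (hG : MinK G A B) : False := by
  have hsolv : Group.IsSolvable G := Cfsg.Agent.S0564.result A B hG.nilA hG.nilB hG.fact
  have hnt : Nontrivial G := by
    by_contra h
    rw [not_nontrivial_iff_subsingleton] at h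
    exact hG.not_nilpotent inferInstance
  obtain ⟨N, hN⟩ := exists_minNormal (G := G)
  obtain ⟨p, hp, hNp, hNc⟩ := hN.exists_isPGroup
  have := Fact.mk hp
  have h1 := hG.not_dvd_card hN hNp hNc
  have h2 := hG.symm.not_dvd_card hN hNp hNc
  have h3 : p ∣ Nat.card N := by
    obtain ⟨n, hn⟩ := IsPGroup.iff_card.1 hNp
    rw [hn]
    apply dvd_pow_self
    rintro rfl
    rw [pow_zero] at hn
    exact hN.2.1 (Subgroup.card_eq_one.1 hn)
  have h4 : p ∣ Nat.card A * Nat.card B := by
    have h5 := card_mul_set_mul_card_inf A B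
    open Pointwise in
    have h6 : (A : Set G) * (B : Set G) = Set.univ :=
      Set.eq_univ_iff_forall.2 (fun g => by
        obtain ⟨h, hh, k, hk, rfl⟩ := hG.fact g
        exact ⟨h, hh, k, hk, rfl⟩)
    rw [h6, Nat.card_univ] at h5
    rw [← h5]
    exact Dvd.dvd.mul_right (h3.trans (Subgroup.card_subgroup_dvd_card N)) _
  rcases (Nat.Prime.dvd_mul hp).1 h4 with h | h
  · exact h1 h
  · exact h2 h

end MinK

theorem aux (n : ℕ) : ∀ (G : Type u) [Group G] [Finite G] (A B : Subgroup G), Nat.card G = n →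
    Group.IsNilpotent A → Group.IsNilpotent B → (∀ g : G, ∃ a ∈ A, ∃ b ∈ B, g = a * b) →
    (A ≠ ⊤ ∨ B ≠ ⊤) → ∃ N : Subgroup G, N.Normal ∧ N ≠ ⊤ ∧ (A ≤ N ∨ B ≤ N) := by
  induction n using Nat.strong_induction_on with
  | _ n ih =>
    intro G _ _ A B hn hA hB hf hp
    by_contra hno
    exact MinK.false (G := G) (A := A) (B := B)
      ⟨hA, hB, hf, fun G' _ _ A' B' hlt hA' hB' hf' hp' =>
        ih (Nat.card G') (hn ▸ hlt) G' A' B' rfl hA' hB' hf' hp',
        fun N hN hne h => hno ⟨N, hN, hne, h⟩, hp⟩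

/-- Let the finite group G be the product AB of nilpotent subgroups A and B, not both equal to G. Then there is a proper normal subgroup of G containing A or containing B. -/
theorem result {G : Type*} [Group G] [Finite G] (A B : Subgroup G) (hA : Group.IsNilpotent A) (hB : Group.IsNilpotent B) (hAB : ∀ g : G, ∃ a ∈ A, ∃ b ∈ B, g = a * b) (hproper : A ≠ ⊤ ∨ B ≠ ⊤) : ∃ N : Subgroup G, N.Normal ∧ N ≠ ⊤ ∧ (A ≤ N ∨ B ≤ N) := by
  exact aux _ G A B rfl hA hB hAB hproper

end Cfsg.Agent.S0565
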