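import Cfsg.Statements.S0567
-- import your own Cfsg.Agent.* helpers here
import Mathlib

set_option autoImplicit false
open Cfsg

namespace Cfsg.Agent.S0567

open scoped commutatorElement in
theorem le_normalizer_aux {G : Type*} [Group G] (K H : Subgroup G) :
    K ⊔ H ≤ Subgroup.normalizer ((⁅K, H⁆ ⊔ H : Subgroup G) : Set G) := by
  apply sup_le
  · have hsup : ⁅K, H⁆ ⊔ H = Subgroup.closure (((⁅K, H⁆ : Subgroup G) : Set G) ∪ H) := by
      rw [Subgroup.closure_union, Subgroup.closure_eq, Subgroup.closure_eq]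
    rw [hsup, Subgroup.le_normalizer_closure_iff]
    rintro k hk x (hx | hx)
    · apply Subgroup.subset_closure
      left
      exact (Subgroup.le_normalizer_iff.mp (Subgroup.normalizer_commutator_ge_left K H)) k hk x hx
    · rw [← hsup]
      have : k * x * k⁻¹ = ⁅k, x⁆ * x := by
        rw [commutatorElement_def]
        group
      rw [this]
      exact Subgroup.mul_mem_sup (Subgroup.commutator_mem_commutator hk hx) hx
  · exact le_sup_right.trans Subgroup.le_normalizer

theorem iter_mono {G : Type*} [Group G] {H K : Subgroup G} (h : H ≤ K) (m : ℕ) :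
    (fun L : Subgroup G => ⁅L, H⁆)^[m] ⊤ ≤ (fun L : Subgroup G => ⁅L, K⁆)^[m] ⊤ := by
  induction m with
  | zero => exact le_rfl
  | succ m ih =>
    rw [Function.iterate_succ_apply', Function.iterate_succ_apply']
    exact Subgroup.commutator_mono ih h

theorem subnormal_aux {G : Type*} [Group G] (H : Subgroup G) (m : ℕ) :
    ((fun L : Subgroup G => ⁅L, H⁆)^[m] ⊤ ⊔ H).IsSubnormal := by
  induction m with
  | zero =>
    have : (fun L : Subgroup G => ⁅L, H⁆)^[0] ⊤ ⊔ H = ⊤ := by simp
    rw [this]
    exact Subgroup.IsSubnormal.top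
  | succ m ih =>
    rw [Function.iterate_succ_apply']
    have hle : ⁅(fun L : Subgroup G => ⁅L, H⁆)^[m] ⊤, H⁆ ⊔ H ≤
        (fun L : Subgroup G => ⁅L, H⁆)^[m] ⊤ ⊔ H := by
      apply sup_le _ le_sup_right
      rw [Subgroup.commutator_le]
      intro k hk h hh
      rw [commutatorElement_def]
      have hk' := (le_sup_left : _ ≤ (fun L : Subgroup G => ⁅L, H⁆)^[m] ⊤ ⊔ H) hk
      have hh' := (le_sup_right : _ ≤ (fun L : Subgroup G => ⁅L, H⁆)^[m] ⊤ ⊔ H) hh
      exact Subgroup.mul_mem _ (Subgroup.mul_mem _ (Subgroup.mul_mem _ hk' hh')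
        (Subgroup.inv_mem _ hk')) (Subgroup.inv_mem _ hh')
    exact Subgroup.IsSubnormal.step _ _ hle ih
      ((Subgroup.normal_subgroupOf_iff_le_normalizer hle).mpr (le_normalizer_aux _ H))

/-- A subgroup H of a group G is subnormal exactly when, for some m, the subgroup obtained from G by taking the commutator with H m times in succession is contained in H. -/
theorem result {G : Type*} [Group G] (H : Subgroup G) : H.IsSubnormal ↔ ∃ m : ℕ, (fun K : Subgroup G => ⁅K, H⁆)^[m] ⊤ ≤ H := by
  constructor
  · intro h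
    induction h with
    | top => exact ⟨0, le_rfl⟩
    | step H K h_le hSubn hN ih =>
      obtain ⟨m, hm⟩ := ih
      refine ⟨m + 1, ?_⟩
      rw [Function.iterate_succ_apply']
      have h1 : (fun L : Subgroup G => ⁅L, H⁆)^[m] ⊤ ≤ K := (iter_mono h_le m).trans hm
      have h2 : K ≤ Subgroup.normalizer (H : Set G) :=
        (Subgroup.normal_subgroupOf_iff_le_normalizer h_le).mp hN
      exact (Subgroup.commutator_mono h1 le_rfl).trans
        (Subgroup.le_normalizer_iff_commutator_le_right.mp h2)
  · rintro ⟨m, hm⟩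
    have := subnormal_aux H m
    rwa [sup_of_le_right hm] at this

end Cfsg.Agent.S0567
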