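import Cfsg.Statements.S0568
-- import your own Cfsg.Agent.* helpers here
import Cfsg.Agent.S0545
import Cfsg.Agent.Lib.Helper12.MinNormal
import Cfsg.Agent.Lib.Helper12.ComplSys
import Cfsg.Agent.Lib.Helper13.PAction
import Cfsg.Agent.Lib.Lead.Hall

set_option autoImplicit false
open Cfsg

namespace Cfsg.Agent.S0568


open Cfsg.Agent.Lib.Helper12 Cfsg.Agent.Lib.Helper13

/-- A normal subgroup acting as a `p`-group on a minimal normal `p`-subgroup centralizes it. -/
theorem le_centralizer_of_pAction {G : Type*} [Group G] [Finite G] {p : ℕ} [Fact p.Prime]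
    {N : Subgroup G} (hN : IsMinNormal N) (hNp : IsPGroup p N) (L : Subgroup G) [L.Normal]
    (hL : ∀ a ∈ L, ∃ k : ℕ, a ^ (p ^ k) ∈ Subgroup.centralizer (N : Set G)) :
    L ≤ Subgroup.centralizer (N : Set G) := by
  obtain ⟨hn, hne, hmin⟩ := hN
  have hle : ⁅N, L⁆ ≤ N := Subgroup.commutator_le_left N L
  rcases hmin ⁅N, L⁆ inferInstance hle with h | h
  · rw [Subgroup.commutator_eq_bot_iff_le_centralizer] at h
    exact Subgroup.le_centralizer_iff.mp h
  · exfalso
    apply hne
    exact eq_bot_of_le_commutator_of_pAction N L N hNp Subgroup.le_normalizer_of_normal hL le_rfl h.ge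

theorem avoid {G : Type*} [Group G] [Finite G] [Group.IsSolvable G] (K : Nat.Primes → Subgroup G)
    (hK : Cfsg.IsComplementSystem K) {N : Subgroup G} (hN : IsMinNormal N)
    (hNZ : ¬ N ≤ Subgroup.center G) : N ⊓ Cfsg.systemNormalizer K = ⊥ := by
  obtain ⟨p, hp, hNp, hNc⟩ := hN.exists_isPGroup
  have hN' := hN
  obtain ⟨hn, hne, hmin⟩ := hN
  have : Fact p.Prime := ⟨hp⟩
  set pp : Nat.Primes := ⟨p, hp⟩ with hpp
  -- N meets K_p trivially
  have hNK : N ⊓ K pp = ⊥ := by
    rw [eq_bot_iff]
    rintro x ⟨hxN, hxK⟩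
    obtain ⟨k, hk⟩ := (IsPGroup.iff_orderOf.mp hNp) ⟨x, hxN⟩
    rw [Subgroup.orderOf_mk] at hk
    have h1 : orderOf x ∣ Nat.card (K pp) := by
      have := orderOf_dvd_natCard (⟨x, hxK⟩ : K pp)
      rwa [Subgroup.orderOf_mk] at this
    have h2 : (Nat.card (K pp)).Coprime p :=
      ((Nat.Prime.coprime_iff_not_dvd hp).2 (cs_not_dvd_card hK pp)).symm
    have h3 : orderOf x = 1 := Nat.eq_one_of_dvd_coprimes (h2.pow_right k) h1 (by rw [hk])
    rw [Subgroup.mem_bot]
    exact orderOf_eq_one_iff.mp h3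
  -- elements of N ⊓ D centralize K_p
  have hM : N ⊓ Cfsg.systemNormalizer K ≤ Subgroup.centralizer (K pp : Set G) := by
    intro m hm
    obtain ⟨hmN, hmD⟩ := Subgroup.mem_inf.mp hm
    have hmn : m ∈ Subgroup.normalizer (K pp : Set G) := by
      have := hmD
      unfold Cfsg.systemNormalizer at this
      rw [Subgroup.mem_iInf] at this
      exact this pp
    rw [Subgroup.mem_centralizer_iff]
    intro k hk
    have h1 : m * k * m⁻¹ * k⁻¹ ∈ N ⊓ K pp := by
      apply Subgroup.mem_inf.mpr
      constructor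
      · have : m * k * m⁻¹ * k⁻¹ = m * (k * m⁻¹ * k⁻¹) := by group
        rw [this]
        exact N.mul_mem hmN (hn.conj_mem _ (N.inv_mem hmN) k)
      · exact (K pp).mul_mem ((Subgroup.mem_normalizer_iff.mp hmn k).mp hk) ((K pp).inv_mem hk)
    rw [hNK, Subgroup.mem_bot] at h1
    have h2 : k * m = (m * k * m⁻¹ * k⁻¹)⁻¹ * (m * k) := by group
    rw [h2, h1, inv_one, one_mul]
  set C := Subgroup.centralizer (N : Set G) with hC
  have hCtop : C ≠ ⊤ := by
    intro h
    apply hNZ
    rw [← Subgroup.centralizer_univ, ← Subgroup.coe_top, Subgroup.le_centralizer_iff, ← h]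
  have : Nontrivial (G ⧸ C) := by
    rw [← Finite.one_lt_card_iff_nontrivial, ← Subgroup.index_eq_card]
    have h1 : C.index ≠ 1 := fun h => hCtop (Subgroup.index_eq_one.mp h)
    have h2 : C.index ≠ 0 := Subgroup.index_ne_zero_of_finite
    omega
  obtain ⟨Lb, hLbn, hLb⟩ := Cfsg.Agent.Lib.Lead.exists_normal_primePow (G := G ⧸ C)
  obtain ⟨r, k, hr, hk, hrk⟩ := hLb
  have hr' : r.Prime := Nat.prime_iff.mpr hr
  set L := Lb.comap (QuotientGroup.mk' C) with hL
  have hLn : L.Normal := hLbn.comap _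
  have hLC : ¬ L ≤ C := by
    intro h
    have h1 : Lb = ⊥ := by
      rw [← Subgroup.map_comap_eq_self_of_surjective (QuotientGroup.mk'_surjective C) Lb, ← hL,
        Subgroup.map_eq_bot_iff, QuotientGroup.ker_mk']
      exact h
    rw [h1, Subgroup.card_bot] at hrk
    exact (Nat.one_lt_pow hk.ne' hr'.one_lt).ne' hrk
  have hpow : ∀ a ∈ L, a ^ (r ^ k) ∈ C := by
    intro a ha
    rw [← QuotientGroup.eq_one_iff, QuotientGroup.mk_pow]
    have h1 : (⟨(a : G ⧸ C), ha⟩ : Lb) ^ Nat.card Lb = 1 := pow_card_eq_one'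
    rw [← hrk] at h1
    exact congrArg Subtype.val h1
  have hrp : r ≠ p := by
    rintro rfl
    exact hLC (le_centralizer_of_pAction hN' hNp L (fun a ha => ⟨k, hpow a ha⟩))
  have hCL : C ≤ L := by
    intro c hc
    rw [hL, Subgroup.mem_comap, QuotientGroup.mk'_apply, (QuotientGroup.eq_one_iff c).mpr hc]
    exact Subgroup.one_mem _
  have hLK : L ≤ K pp ⊔ C := by
    rw [← Subgroup.relIndex_eq_one]
    have h1 : (K pp ⊔ C).relIndex L ∣ p ^ (Nat.card G).factorization p := by
      have h2 : (K pp ⊔ C).index ∣ (K pp).index := Subgroup.index_dvd_of_le le_sup_left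
      rw [hK pp] at h2
      exact (relIndex_dvd_index_of_normal' _ L).trans h2
    have h3 : (K pp ⊔ C).relIndex L ∣ r ^ k := by
      have h4 : (K pp ⊔ C).relIndex L ∣ C.relIndex L := Subgroup.relIndex_dvd_of_le_left L le_sup_right
      have h5 : C.relIndex L = Nat.card Lb := by
        have h6 : ((⊥ : Subgroup (G ⧸ C)).comap (QuotientGroup.mk' C)).relIndex L = Nat.card Lb := by
          rw [Subgroup.relIndex_comap, hL,
            Subgroup.map_comap_eq_self_of_surjective (QuotientGroup.mk'_surjective C),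
            Subgroup.relIndex_bot_left]
        rw [MonoidHom.comap_bot, QuotientGroup.ker_mk'] at h6
        exact h6
      rw [h5, ← hrk] at h4
      exact h4
    exact Nat.eq_one_of_dvd_coprimes
      (Nat.Coprime.pow _ _ ((Nat.coprime_primes hp hr').mpr hrp.symm)) h1 h3
  -- conclude
  have h1 : K pp ⊔ C ≤ Subgroup.centralizer ((N ⊓ Cfsg.systemNormalizer K : Subgroup G) : Set G) := by
    apply sup_le
    · exact Subgroup.le_centralizer_iff.mp hM
    · exact Subgroup.centralizer_le (fun x hx => (Subgroup.mem_inf.mp hx).1)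
  have h2 : N ⊓ Cfsg.systemNormalizer K ≤ N ⊓ Subgroup.centralizer (L : Set G) :=
    le_inf inf_le_left (Subgroup.le_centralizer_iff.mp (hLK.trans h1))
  rcases hmin (N ⊓ Subgroup.centralizer (L : Set G)) inferInstance inf_le_left with h | h
  · rw [h] at h2
    exact le_bot_iff.mp h2
  · exfalso
    apply hLC
    have h3 : N ≤ Subgroup.centralizer (L : Set G) := h ▸ inf_le_right
    exact Subgroup.le_centralizer_iff.mp h3

/-- Let D be the system normalizer of a Hall complement system of a finite solvable group G, and let A < B be normal subgroups with no normal subgroup of G strictly between them (a chief factor). If G centralizes B modulo A then B ≤ A ⊔ D (D covers the factor); otherwise B ∩ D ≤ A (D avoids it). -/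
theorem result {G : Type*} [Group G] [Finite G] [Group.IsSolvable G] (K : Nat.Primes → Subgroup G) (hK : Cfsg.IsComplementSystem K) (A B : Subgroup G) [A.Normal] [B.Normal] (hAB : A < B) (hchief : ∀ N : Subgroup G, N.Normal → A ≤ N → N ≤ B → N = A ∨ N = B) : (⁅B, (⊤ : Subgroup G)⁆ ≤ A → B ≤ A ⊔ Cfsg.systemNormalizer K) ∧ (¬ ⁅B, (⊤ : Subgroup G)⁆ ≤ A → B ⊓ Cfsg.systemNormalizer K ≤ A) := by
  obtain ⟨hK', hD'⟩ := Cfsg.Agent.S0545.result K hK A
  have hsurj := QuotientGroup.mk'_surjective A
  have hcm : ∀ X : Subgroup G, A ≤ X → (X.map (QuotientGroup.mk' A)).comap (QuotientGroup.mk' A) = X := by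
    intro X hX
    rw [Subgroup.comap_map_eq, QuotientGroup.ker_mk', sup_eq_left.mpr hX]
  have hN : Cfsg.Agent.Lib.Helper12.IsMinNormal (B.map (QuotientGroup.mk' A)) := by
    refine ⟨Subgroup.Normal.map inferInstance _ hsurj, ?_, ?_⟩
    · intro h
      rw [Subgroup.map_eq_bot_iff, QuotientGroup.ker_mk'] at h
      exact absurd h (not_le_of_gt hAB)
    · intro X hXn hX
      have h1 : A ≤ X.comap (QuotientGroup.mk' A) := by
        intro a ha
        rw [Subgroup.mem_comap, QuotientGroup.mk'_apply, (QuotientGroup.eq_one_iff a).mpr ha]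
        exact Subgroup.one_mem _
      have h2 : X.comap (QuotientGroup.mk' A) ≤ B := by
        rw [← hcm B hAB.le]
        exact Subgroup.comap_mono hX
      rcases hchief _ (hXn.comap _) h1 h2 with h | h
      · left
        rw [← Subgroup.map_comap_eq_self_of_surjective hsurj X, h, Subgroup.map_eq_bot_iff,
          QuotientGroup.ker_mk']
      · right
        rw [← Subgroup.map_comap_eq_self_of_surjective hsurj X, h]
  have hcen : B.map (QuotientGroup.mk' A) ≤ Subgroup.center (G ⧸ A) ↔ ⁅B, (⊤ : Subgroup G)⁆ ≤ A := by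
    rw [Subgroup.commutator_le]
    constructor
    · intro h b hb g _
      have h1 := Subgroup.mem_center_iff.mp (h ⟨b, hb, rfl⟩) (QuotientGroup.mk' A g)
      rw [← QuotientGroup.eq_one_iff, commutatorElement_def]
      simp only [QuotientGroup.mk_mul, QuotientGroup.mk_inv]
      simp only [QuotientGroup.mk'_apply] at h1
      rw [← h1]
      group
    · rintro h _ ⟨b, hb, rfl⟩
      rw [Subgroup.mem_center_iff]
      intro g
      obtain ⟨g, rfl⟩ := hsurj g
      have h1 := h b hb g (Subgroup.mem_top g)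
      rw [← QuotientGroup.eq_one_iff, commutatorElement_def] at h1
      simp only [QuotientGroup.mk_mul, QuotientGroup.mk_inv] at h1
      simp only [QuotientGroup.mk'_apply]
      have h2 : (b : G ⧸ A) * g = ((b : G ⧸ A) * g * (b : G ⧸ A)⁻¹ * (g : G ⧸ A)⁻¹) * (g * b) := by group
      rw [h2, h1, one_mul]
  constructor
  · intro h
    have h1 : B.map (QuotientGroup.mk' A) ≤
        Cfsg.systemNormalizer (fun p => (K p).map (QuotientGroup.mk' A)) := by
      intro x hx
      have hx' := hcen.mpr h hx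
      unfold Cfsg.systemNormalizer
      rw [Subgroup.mem_iInf]
      intro p
      exact Subgroup.center_le_normalizer _ hx'
    rw [hD'] at h1
    have h2 := Subgroup.comap_mono (f := QuotientGroup.mk' A) h1
    rw [hcm B hAB.le, Subgroup.comap_map_eq, QuotientGroup.ker_mk', sup_comm] at h2
    exact h2
  · intro h
    have h1 := avoid _ hK' hN (fun h' => h (hcen.mp h'))
    rw [hD'] at h1
    intro x hx
    obtain ⟨hxB, hxD⟩ := Subgroup.mem_inf.mp hx
    have h2 : QuotientGroup.mk' A x ∈ B.map (QuotientGroup.mk' A) ⊓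
        (Cfsg.systemNormalizer K).map (QuotientGroup.mk' A) :=
      Subgroup.mem_inf.mpr ⟨⟨x, hxB, rfl⟩, ⟨x, hxD, rfl⟩⟩
    rw [h1, Subgroup.mem_bot, QuotientGroup.mk'_apply, QuotientGroup.eq_one_iff] at h2
    exact h2

end Cfsg.Agent.S0568
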