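import Cfsg.Statements.S0570
-- import your own Cfsg.Agent.* helpers here
import Cfsg.Agent.Lib.Helper13.Carter

set_option autoImplicit false
open Cfsg

namespace Cfsg.Agent.S0570

/-- Let G be a finite group with a nilpotent normal subgroup F such that G modulo F is nilpotent (nilpotent length at most two). Then a subgroup of G is a Carter subgroup if and only if it is the system normalizer of some Hall complement system. -/
theorem result {G : Type*} [Group G] [Finite G] (F : Subgroup G) [F.Normal] (hF : Group.IsNilpotent F) (hGF : Group.IsNilpotent (G ⧸ F)) (C : Subgroup G) : Cfsg.IsCarterSubgroup C ↔ ∃ K : Nat.Primes → Subgroup G, Cfsg.IsComplementSystem K ∧ C = Cfsg.systemNormalizer K := by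
  have hsol : Group.IsSolvable G :=
    Cfsg.Agent.Lib.Helper13.isSolvable_of_nilpotent_by_nilpotent F hF hGF
  constructor
  · intro hC
    have h1 := Cfsg.Agent.Lib.Helper13.carter_sup_eq_top F hF hGF C hC
    exact ⟨_, Cfsg.Agent.Lib.Helper13.isComplementSystem_pcPart F hF C hC.1 h1,
      Cfsg.Agent.Lib.Helper13.carter_eq_systemNormalizer_of_sup F hF C hC h1⟩
  · rintro ⟨K, hK, rfl⟩
    exact Cfsg.Agent.Lib.Helper13.systemNormalizer_isCarter F hF hGF K hK

end Cfsg.Agent.S0570
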