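import Cfsg.Statements.S0572
-- import your own Cfsg.Agent.* helpers here
import Mathlib

set_option autoImplicit false
open Cfsg

namespace Cfsg.Agent.S0572

open scoped commutatorElement

section
variable {G : Type*} [Group G] (A B : Subgroup G) [IsMulCommutative A] [IsMulCommutative B]

theorem comm_right {A : Subgroup G} [IsMulCommutative A] {a a₂ : G} (b₂ : G) (ha : a ∈ A)
    (ha₂ : a₂ ∈ A) : ⁅a, b₂ * a₂⁆ = ⁅a, b₂⁆ := by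
  have h : a₂ * a⁻¹ = a⁻¹ * a₂ := setLike_mul_comm ha₂ (A.inv_mem ha)
  rw [commutatorElement_def, commutatorElement_def]
  calc a * (b₂ * a₂) * a⁻¹ * (b₂ * a₂)⁻¹ = a * b₂ * (a₂ * a⁻¹) * a₂⁻¹ * b₂⁻¹ := by group
    _ = a * b₂ * (a⁻¹ * a₂) * a₂⁻¹ * b₂⁻¹ := by rw [h]
    _ = a * b₂ * a⁻¹ * b₂⁻¹ := by group

theorem comm_left {B : Subgroup G} [IsMulCommutative B] {b₂ b₃ : G} (a₃ : G) (hb₂ : b₂ ∈ B)
    (hb₃ : b₃ ∈ B) : ⁅a₃ * b₃, b₂⁆ = ⁅a₃, b₂⁆ := by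
  have h : b₃ * b₂ = b₂ * b₃ := setLike_mul_comm hb₃ hb₂
  rw [commutatorElement_def, commutatorElement_def]
  calc a₃ * b₃ * b₂ * (a₃ * b₃)⁻¹ * b₂⁻¹ = a₃ * (b₃ * b₂) * b₃⁻¹ * a₃⁻¹ * b₂⁻¹ := by group
    _ = a₃ * (b₂ * b₃) * b₃⁻¹ * a₃⁻¹ * b₂⁻¹ := by rw [h]
    _ = a₃ * b₂ * a₃⁻¹ * b₂⁻¹ := by group

theorem conj_comm (g x y : G) : g * ⁅x, y⁆ * g⁻¹ = ⁅g * x * g⁻¹, g * y * g⁻¹⁆ := by
  simp only [commutatorElement_def]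
  group

include A B in
theorem key (hAB : ∀ g : G, ∃ a ∈ A, ∃ b ∈ B, g = a * b) {a a₁ b b₁ : G} (ha : a ∈ A)
    (ha₁ : a₁ ∈ A) (hb : b ∈ B) (hb₁ : b₁ ∈ B) :
    b₁ * (a₁ * ⁅a, b⁆ * a₁⁻¹) * b₁⁻¹ = a₁ * (b₁ * ⁅a, b⁆ * b₁⁻¹) * a₁⁻¹ := by
  obtain ⟨a₂', ha₂', b₂', hb₂', h2⟩ := hAB (a₁ * b * a₁⁻¹)⁻¹
  obtain ⟨a₃, ha₃, b₃, hb₃, h3⟩ := hAB (b₁ * a * b₁⁻¹)
  have h2' : a₁ * b * a₁⁻¹ = b₂'⁻¹ * a₂'⁻¹ := by
    rw [← mul_inv_rev, ← h2, inv_inv]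
  have e1 : a₁ * a * a₁⁻¹ = a := by
    have : a₁ * a = a * a₁ := setLike_mul_comm ha₁ ha
    rw [this]; group
  have e1' : a₁ * a₃ * a₁⁻¹ = a₃ := by
    have : a₁ * a₃ = a₃ * a₁ := setLike_mul_comm ha₁ ha₃
    rw [this]; group
  have e2 : b₁ * b * b₁⁻¹ = b := by
    have : b₁ * b = b * b₁ := setLike_mul_comm hb₁ hb
    rw [this]; group
  have e2' : b₁ * b₂'⁻¹ * b₁⁻¹ = b₂'⁻¹ := by
    have : b₁ * b₂'⁻¹ = b₂'⁻¹ * b₁ := setLike_mul_comm hb₁ (B.inv_mem hb₂')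
    rw [this]; group
  rw [conj_comm a₁, e1, h2', comm_right _ ha (A.inv_mem ha₂'), conj_comm b₁, e2', h3,
    comm_left _ (B.inv_mem hb₂') hb₃, conj_comm b₁, e2, h3, comm_left _ hb hb₃, conj_comm a₁, e1',
    h2', comm_right _ ha₃ (A.inv_mem ha₂')]

include A B in
theorem comm_comm (hAB : ∀ g : G, ∃ a ∈ A, ∃ b ∈ B, g = a * b) {a a₁ b b₁ : G} (ha : a ∈ A)
    (ha₁ : a₁ ∈ A) (hb : b ∈ B) (hb₁ : b₁ ∈ B) : ⁅a, b⁆ * ⁅a₁, b₁⁆ = ⁅a₁, b₁⁆ * ⁅a, b⁆ := by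
  have h := key A B hAB ha (A.inv_mem ha₁) hb (B.inv_mem hb₁)
  rw [inv_inv, inv_inv] at h
  have h' : ⁅a₁, b₁⁆ * ⁅a, b⁆ * ⁅a₁, b₁⁆⁻¹ = ⁅a, b⁆ := by
    calc ⁅a₁, b₁⁆ * ⁅a, b⁆ * ⁅a₁, b₁⁆⁻¹
        = a₁ * b₁ * (a₁⁻¹ * (b₁⁻¹ * ⁅a, b⁆ * b₁) * a₁) * b₁⁻¹ * a₁⁻¹ := by
          rw [commutatorElement_def a₁ b₁]; group
      _ = a₁ * b₁ * (b₁⁻¹ * (a₁⁻¹ * ⁅a, b⁆ * a₁) * b₁) * b₁⁻¹ * a₁⁻¹ := by rw [h]
      _ = ⁅a, b⁆ := by group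
  calc ⁅a, b⁆ * ⁅a₁, b₁⁆ = (⁅a₁, b₁⁆ * ⁅a, b⁆ * ⁅a₁, b₁⁆⁻¹) * ⁅a₁, b₁⁆ := by rw [h']
    _ = _ := by group

include A B in
theorem commAB_comm (hAB : ∀ g : G, ∃ a ∈ A, ∃ b ∈ B, g = a * b) :
    IsMulCommutative (⁅A, B⁆ : Subgroup G) := by
  rw [Subgroup.commutator_def]
  apply Subgroup.isMulCommutative_closure
  rintro _ ⟨a, ha, b, hb, rfl⟩ _ ⟨a₁, ha₁, b₁, hb₁, rfl⟩
  exact comm_comm A B hAB ha ha₁ hb hb₁

include A B in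
theorem commAB_normal (hAB : ∀ g : G, ∃ a ∈ A, ∃ b ∈ B, g = a * b) :
    (⁅A, B⁆ : Subgroup G).Normal := by
  rw [← Subgroup.normalizer_eq_top_iff, eq_top_iff]
  intro g _
  obtain ⟨a, ha, b, hb, rfl⟩ := hAB g
  exact Subgroup.mul_mem _ (Subgroup.normalizer_commutator_ge_left A B ha)
    (Subgroup.normalizer_commutator_ge_right A B hb)

include A B in
theorem comm_le (hAB : ∀ g : G, ∃ a ∈ A, ∃ b ∈ B, g = a * b) :
    ⁅(⊤ : Subgroup G), (⊤ : Subgroup G)⁆ ≤ ⁅A, B⁆ := by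
  have hn := commAB_normal A B hAB
  rw [Subgroup.commutator_le]
  intro x _ y _
  obtain ⟨a, ha, b, hb, rfl⟩ := hAB x
  obtain ⟨a', ha', b', hb', rfl⟩ := hAB y
  rw [← QuotientGroup.eq_one_iff, ← QuotientGroup.mk'_apply, map_commutatorElement,
    commutatorElement_eq_one_iff_commute, map_mul, map_mul]
  have haa : Commute (QuotientGroup.mk' ⁅A, B⁆ a) (QuotientGroup.mk' ⁅A, B⁆ a') :=
    (show Commute a a' from setLike_mul_comm ha ha').map _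
  have hbb : Commute (QuotientGroup.mk' ⁅A, B⁆ b) (QuotientGroup.mk' ⁅A, B⁆ b') :=
    (show Commute b b' from setLike_mul_comm hb hb').map _
  have hab : ∀ a ∈ A, ∀ b ∈ B, Commute (QuotientGroup.mk' ⁅A, B⁆ a) (QuotientGroup.mk' ⁅A, B⁆ b) := by
    intro a ha b hb
    rw [← commutatorElement_eq_one_iff_commute, ← map_commutatorElement, QuotientGroup.mk'_apply,
      QuotientGroup.eq_one_iff]
    exact Subgroup.commutator_mem_commutator ha hb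
  exact Commute.mul_left (Commute.mul_right haa (hab a ha b' hb'))
    (Commute.mul_right (hab a' ha' b hb).symm hbb)

end

/-- Itô's Theorem: if a group G is the product AB of two abelian subgroups, then the commutator subgroup of G is abelian, i.e. the second term of the derived series is trivial. -/
theorem result {G : Type*} [Group G] (A B : Subgroup G) [IsMulCommutative A] [IsMulCommutative B] (hAB : ∀ g : G, ∃ a ∈ A, ∃ b ∈ B, g = a * b) : derivedSeries G 2 = ⊥ := by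
  have h1 := comm_le A B hAB
  have h2 := commAB_comm A B hAB
  rw [derivedSeries_succ, derivedSeries_succ, derivedSeries_zero, eq_bot_iff]
  refine (Subgroup.commutator_mono h1 h1).trans ?_
  rw [le_bot_iff, Subgroup.commutator_eq_bot_iff_le_centralizer]
  exact Subgroup.le_centralizer _

end Cfsg.Agent.S0572
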