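import Cfsg.Statements.S0573
-- import your own Cfsg.Agent.* helpers here
import Mathlib
import Cfsg.Agent.S0572
import Cfsg.Agent.Lib.Helper13.PAction
import Cfsg.Agent.Lib.Helper12.Card

set_option autoImplicit false
open Cfsg

namespace Cfsg.Agent.S0573

open Subgroup
open scoped commutatorElement Pointwise

universe u

section
variable {G : Type*} [Group G] {A B : Subgroup G}

theorem swap (hAB : ∀ g : G, ∃ a ∈ A, ∃ b ∈ B, g = a * b) :
    ∀ g : G, ∃ b ∈ B, ∃ a ∈ A, g = b * a := by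
  intro g
  obtain ⟨a, ha, b, hb, h⟩ := hAB g⁻¹
  refine ⟨b⁻¹, B.inv_mem hb, a⁻¹, A.inv_mem ha, ?_⟩
  rw [← mul_inv_rev, ← h, inv_inv]

theorem normal_of_le_center {N : Subgroup G} (h : N ≤ center G) : N.Normal := by
  constructor
  intro x hx g
  have := mem_center_iff.mp (h hx) g
  rw [this]
  simpa using hx

theorem mem_center_of [IsMulCommutative A] (hAB : ∀ g : G, ∃ a ∈ A, ∃ b ∈ B, g = a * b) {x : G}
    (hxA : ∀ a ∈ A, a * x = x * a) (hxB : ∀ b ∈ B, b * x = x * b) : x ∈ center G := by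
  rw [mem_center_iff]
  intro g
  obtain ⟨a, ha, b, hb, rfl⟩ := hAB g
  rw [mul_assoc, hxB b hb, ← mul_assoc, hxA a ha, mul_assoc]

theorem center_eq_bot [IsMulCommutative A] [IsMulCommutative B]
    (hAB : ∀ g : G, ∃ a ∈ A, ∃ b ∈ B, g = a * b)
    (hnoA : ∀ N : Subgroup G, N.Normal → N ≤ A → N = ⊥)
    (hnoB : ∀ N : Subgroup G, N.Normal → N ≤ B → N = ⊥) : center G = ⊥ := by
  have hA0 : A ⊓ center G = ⊥ := hnoA _ (normal_of_le_center inf_le_right) inf_le_left
  have hB0 : B ⊓ center G = ⊥ := hnoB _ (normal_of_le_center inf_le_right) inf_le_left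
  rw [eq_bot_iff]
  intro z hz
  obtain ⟨a, ha, b, hb, rfl⟩ := hAB z
  have hac : a ∈ center G := by
    apply mem_center_of hAB
    · intro a' ha'
      exact setLike_mul_comm ha' ha
    · intro b' hb'
      have h1 := mem_center_iff.mp hz b'
      have h2 : b * b' = b' * b := setLike_mul_comm hb hb'
      calc b' * a = (b' * (a * b)) * b⁻¹ := by group
        _ = (a * b * b') * b⁻¹ := by rw [h1]
        _ = a * (b * b') * b⁻¹ := by group
        _ = a * (b' * b) * b⁻¹ := by rw [h2]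
        _ = a * b' := by group
  have ha1 : a ∈ A ⊓ center G := ⟨ha, hac⟩
  rw [hA0, mem_bot] at ha1
  rw [ha1, one_mul] at hz ⊢
  have hb1 : b ∈ B ⊓ center G := ⟨hb, hz⟩
  rwa [hB0] at hb1

theorem lemQ [IsMulCommutative A] [IsMulCommutative B]
    (hAB : ∀ g : G, ∃ a ∈ A, ∃ b ∈ B, g = a * b) (hZ : center G = ⊥)
    (hnoA : ∀ N : Subgroup G, N.Normal → N ≤ A → N = ⊥) (N₀ : Subgroup G) (hN : N₀.Normal)
    (hc : N₀ ≤ centralizer (A : Set G)) : N₀ = ⊥ := by
  apply hnoA _ hN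
  intro n hn
  obtain ⟨a, ha, b, hb, rfl⟩ := hAB n
  have hbc : b ∈ center G := by
    apply mem_center_of hAB
    · intro a' ha'
      have h1 := mem_centralizer_iff.mp (hc hn) a' ha'
      have h2 : a' * a = a * a' := setLike_mul_comm ha' ha
      calc a' * b = a⁻¹ * ((a * a') * b) := by group
        _ = a⁻¹ * ((a' * a) * b) := by rw [h2]
        _ = a⁻¹ * (a' * (a * b)) := by group
        _ = a⁻¹ * (a * b * a') := by rw [h1]
        _ = b * a' := by group
    · intro b' hb'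
      exact setLike_mul_comm hb' hb
  rw [hZ, mem_bot] at hbc
  rw [hbc, mul_one]
  exact ha

theorem inv_normal (K S : Subgroup G) (hK : K.Normal)
    (hGK : ⁅(⊤ : Subgroup G), (⊤ : Subgroup G)⁆ ≤ centralizer (K : Set G)) :
    (K ⊓ centralizer (S : Set G)).Normal := by
  constructor
  intro x hx g
  refine ⟨hK.conj_mem x hx.1 g, ?_⟩
  apply mem_centralizer_iff.mpr
  intro a ha
  have h1 : a * x = x * a := mem_centralizer_iff.mp hx.2 a ha
  have hc : ⁅a⁻¹, g⁻¹⁆ ∈ ⁅(⊤ : Subgroup G), (⊤ : Subgroup G)⁆ :=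
    commutator_mem_commutator (mem_top _) (mem_top _)
  have h2 := mem_centralizer_iff.mp (hGK hc) x hx.1
  rw [commutatorElement_def] at h2
  calc a * (g * x * g⁻¹) = g * (a * ((a⁻¹ * g⁻¹ * a⁻¹⁻¹ * g⁻¹⁻¹) * x)) * g⁻¹ := by group
    _ = g * (a * (x * (a⁻¹ * g⁻¹ * a⁻¹⁻¹ * g⁻¹⁻¹))) * g⁻¹ := by rw [h2]
    _ = g * ((a * x) * (a⁻¹ * g⁻¹ * a⁻¹⁻¹ * g⁻¹⁻¹)) * g⁻¹ := by group
    _ = g * ((x * a) * (a⁻¹ * g⁻¹ * a⁻¹⁻¹ * g⁻¹⁻¹)) * g⁻¹ := by rw [h1]
    _ = g * x * g⁻¹ * a := by group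

theorem s5 [IsMulCommutative A] [IsMulCommutative B]
    (hAB : ∀ g : G, ∃ a ∈ A, ∃ b ∈ B, g = a * b) (hZ : center G = ⊥)
    (hnoA : ∀ N : Subgroup G, N.Normal → N ≤ A → N = ⊥) (W : Subgroup G) (hWn : W.Normal)
    (hGW : ⁅(⊤ : Subgroup G), (⊤ : Subgroup G)⁆ ≤ W) :
    centralizer (W : Set G) ⊓ centralizer (A : Set G) = ⊥ := by
  apply lemQ hAB hZ hnoA _ _ inf_le_right
  apply inv_normal _ _ inferInstance
  refine hGW.trans ?_
  rw [le_centralizer_iff]

theorem normal_of_commutator_le {M : Subgroup G}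
    (h : ⁅(⊤ : Subgroup G), (⊤ : Subgroup G)⁆ ≤ M) : M.Normal := by
  constructor
  intro x hx g
  have hc : ⁅g, x⁆ ∈ M := h (commutator_mem_commutator (mem_top _) (mem_top _))
  have : g * x * g⁻¹ = ⁅g, x⁆ * x := by rw [commutatorElement_def]; group
  rw [this]
  exact M.mul_mem hc hx

theorem s7 [Finite G] {p : ℕ} [Fact p.Prime] [IsMulCommutative A] [IsMulCommutative B]
    (hAB : ∀ g : G, ∃ a ∈ A, ∃ b ∈ B, g = a * b) (W : Subgroup G) (hWn : W.Normal)
    (hWp : IsPGroup p W) (hBW : W ⊔ B = ⊤) (hWA : W ≤ ⁅W, A⁆) : W = ⊥ := by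
  have hAB' : (A : Set G) * (B : Set G) = Set.univ := by
    rw [Set.eq_univ_iff_forall]
    intro g
    obtain ⟨a, ha, b, hb, rfl⟩ := hAB g
    exact Set.mul_mem_mul ha hb
  have hWB' : (W : Set G) * (B : Set G) = Set.univ := by
    rw [← normal_mul, hBW]
    rfl
  have e1 := Cfsg.Agent.Lib.Helper12.card_mul_set A B
  have e2 := Cfsg.Agent.Lib.Helper12.card_mul_set W B
  rw [hAB'] at e1
  rw [hWB', e1] at e2
  have e3 : B.relIndex A = B.relIndex W := Nat.eq_of_mul_eq_mul_right Nat.card_pos e2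
  obtain ⟨j, hj⟩ := IsPGroup.iff_card.mp hWp
  have e4 : B.relIndex A ∣ p ^ j := by
    rw [e3, ← hj]
    exact relIndex_dvd_card B W
  obtain ⟨i, -, hi⟩ := (Nat.dvd_prime_pow Fact.out).mp e4
  apply Cfsg.Agent.Lib.Helper13.eq_bot_of_le_commutator_of_pAction W A W hWp
    le_normalizer_of_normal _ le_rfl hWA
  intro a ha
  refine ⟨i, ?_⟩
  rw [← hi]
  have hn : (B.subgroupOf A).Normal := inferInstance
  have h1 : (⟨a, ha⟩ : A) ^ (B.subgroupOf A).index ∈ B.subgroupOf A := pow_index_mem _ _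
  rw [mem_subgroupOf] at h1
  have h2 : a ^ B.relIndex A ∈ B := h1
  have h3 : a ^ B.relIndex A ∈ center G := by
    apply mem_center_of hAB
    · intro a' ha'
      exact setLike_mul_comm ha' (A.pow_mem ha _)
    · intro b' hb'
      exact setLike_mul_comm hb' h2
  exact center_le_centralizer _ h3


theorem exists_R [Finite G] (W : Subgroup G) (hWn : W.Normal) [IsMulCommutative W] (hW : W ≠ ⊥) :
    ∃ p : ℕ, p.Prime ∧ ∃ R : Subgroup G, R.Normal ∧ (∀ w ∈ W, w ^ p ∈ R) ∧ ¬ W ≤ R := by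
  have hc1 : Nat.card W ≠ 1 := fun h => hW (card_eq_one.mp h)
  refine ⟨(Nat.card W).minFac, Nat.minFac_prime hc1, ?_⟩
  set p := (Nat.card W).minFac with hp
  have : Fact p.Prime := ⟨Nat.minFac_prime hc1⟩
  let R : Subgroup G :=
    { carrier := {x | ∃ w ∈ W, w ^ p = x}
      mul_mem' := by
        rintro _ _ ⟨w₁, h₁, rfl⟩ ⟨w₂, h₂, rfl⟩
        refine ⟨w₁ * w₂, W.mul_mem h₁ h₂, ?_⟩
        have : Commute w₁ w₂ := setLike_mul_comm h₁ h₂
        exact this.mul_pow p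
      one_mem' := ⟨1, W.one_mem, one_pow p⟩
      inv_mem' := by
        rintro _ ⟨w, h, rfl⟩
        exact ⟨w⁻¹, W.inv_mem h, inv_pow w p⟩ }
  refine ⟨R, ?_, fun w hw => ⟨w, hw, rfl⟩, ?_⟩
  · constructor
    rintro _ ⟨w, h, rfl⟩ g
    exact ⟨g * w * g⁻¹, hWn.conj_mem w h g, conj_pow⟩
  · intro hle
    have hsurj : Function.Surjective (fun w : W => w ^ p) := by
      intro y
      obtain ⟨w, hw, hwy⟩ := hle y.2
      exact ⟨⟨w, hw⟩, Subtype.ext hwy⟩
    have hinj := Finite.injective_iff_surjective.mpr hsurj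
    obtain ⟨x, hx⟩ := exists_prime_orderOf_dvd_card' (G := W) p (Nat.minFac_dvd _)
    have h1 : x ^ p = (1 : W) ^ p := by
      rw [one_pow, ← hx]
      exact pow_orderOf_eq_one x
    have h2 : x = 1 := hinj h1
    rw [h2, orderOf_one] at hx
    exact (Fact.out : p.Prime).one_lt.ne hx

end

/-- the statement, for induction -/
def Goal (G : Type u) [Group G] (A B : Subgroup G) : Prop :=
  ∃ N : Subgroup G, N.Normal ∧ N ≠ ⊥ ∧ (N ≤ A ∨ N ≤ B)

theorem s6 {G : Type u} [Group G] [Finite G] {A B : Subgroup G} [IsMulCommutative A]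
    [IsMulCommutative B]
    (ih : ∀ (G' : Type u) [Group G'] [Finite G'] [Nontrivial G'] (A' B' : Subgroup G')
      [IsMulCommutative A'] [IsMulCommutative B'], Nat.card G' < Nat.card G →
      (∀ g : G', ∃ a ∈ A', ∃ b ∈ B', g = a * b) → Goal G' A' B')
    (hAB : ∀ g : G, ∃ a ∈ A, ∃ b ∈ B, g = a * b) (W : Subgroup G) (hWn : W.Normal)
    [IsMulCommutative W] (hGW : ⁅(⊤ : Subgroup G), (⊤ : Subgroup G)⁆ ≤ W) (hW : W ≠ ⊥)
    (hA5 : centralizer (W : Set G) ⊓ centralizer (A : Set G) = ⊥)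
    (hB5 : centralizer (W : Set G) ⊓ centralizer (B : Set G) = ⊥) : A ⊔ W = ⊤ := by
  by_contra hne
  have hlt : Nat.card (A ⊔ W : Subgroup G) < Nat.card G := by
    by_contra hcon
    exact hne (eq_top_of_le_card _ (not_lt.mp hcon))
  have hMne : (A ⊔ W : Subgroup G) ≠ ⊥ := fun h => hW (eq_bot_iff.mpr (h ▸ le_sup_right))
  have : Nontrivial (A ⊔ W : Subgroup G) := (nontrivial_iff_ne_bot _).mpr hMne
  have hfact : ∀ g : (A ⊔ W : Subgroup G), ∃ a ∈ A.subgroupOf (A ⊔ W), ∃ b ∈ B.subgroupOf (A ⊔ W),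
      g = a * b := by
    intro g
    obtain ⟨a, ha, b, hb, hg⟩ := hAB g
    have haM : a ∈ A ⊔ W := (le_sup_left : A ≤ A ⊔ W) ha
    have hbM : b ∈ A ⊔ W := by
      have : b = a⁻¹ * g := by rw [hg]; group
      rw [this]
      exact Subgroup.mul_mem _ (Subgroup.inv_mem _ haM) g.2
    exact ⟨⟨a, haM⟩, by simpa [mem_subgroupOf] using ha, ⟨b, hbM⟩,
      by simpa [mem_subgroupOf] using hb, Subtype.ext hg⟩
  obtain ⟨N', hN'n, hN'ne, hN'⟩ := ih (A ⊔ W : Subgroup G) (A.subgroupOf (A ⊔ W))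
    (B.subgroupOf (A ⊔ W)) hlt hfact
  have hN₁ne : N'.map (A ⊔ W).subtype ≠ ⊥ := by
    rw [Ne, map_eq_bot_iff_of_injective _ (subtype_injective _)]
    exact hN'ne
  have hnorm : A ⊔ W ≤ normalizer ((N'.map (A ⊔ W).subtype : Subgroup G) : Set G) := by
    rw [le_normalizer_iff]
    rintro m hm _ ⟨x, hx, rfl⟩
    exact ⟨(⟨m, hm⟩ : (A ⊔ W : Subgroup G)) * x * (⟨m, hm⟩ : (A ⊔ W : Subgroup G))⁻¹,
      hN'n.conj_mem x hx ⟨m, hm⟩, rfl⟩
  have hcomm : ⁅N'.map (A ⊔ W).subtype, W⁆ ≤ N'.map (A ⊔ W).subtype ⊓ W :=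
    le_inf (le_normalizer_iff_commutator_le_left.mp (le_sup_right.trans hnorm))
      (commutator_le_right _ _)
  have key : ∀ C : Subgroup G, IsMulCommutative C →
      centralizer (W : Set G) ⊓ centralizer (C : Set G) = ⊥ → N'.map (A ⊔ W).subtype ≤ C → False := by
    intro C hC h5 hle
    have hCW : C ⊓ W = ⊥ := by
      rw [eq_bot_iff, ← h5]
      exact le_inf (inf_le_right.trans (le_centralizer W)) (inf_le_left.trans (le_centralizer C))
    have h1 : ⁅N'.map (A ⊔ W).subtype, W⁆ = ⊥ := by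
      rw [eq_bot_iff, ← hCW]
      exact hcomm.trans (inf_le_inf hle le_rfl)
    rw [commutator_eq_bot_iff_le_centralizer] at h1
    apply hN₁ne
    rw [eq_bot_iff, ← h5]
    exact le_inf h1 (hle.trans (le_centralizer C))
  rcases hN' with h | h
  · apply key A inferInstance hA5
    rintro _ ⟨x, hx, rfl⟩
    exact h hx
  · apply key B inferInstance hB5
    rintro _ ⟨x, hx, rfl⟩
    exact h hx

theorem main (n : ℕ) : ∀ (G : Type u) [Group G] [Finite G] [Nontrivial G] (A B : Subgroup G)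
    [IsMulCommutative A] [IsMulCommutative B], Nat.card G = n →
    (∀ g : G, ∃ a ∈ A, ∃ b ∈ B, g = a * b) → Goal G A B := by
  induction n using Nat.strong_induction_on with
  | _ n ih =>
    intro G _ _ _ A B _ _ hn hAB
    by_contra hcon
    have hnoA : ∀ N : Subgroup G, N.Normal → N ≤ A → N = ⊥ := by
      intro N hN hle
      by_contra hne
      exact hcon ⟨N, hN, hne, Or.inl hle⟩
    have hnoB : ∀ N : Subgroup G, N.Normal → N ≤ B → N = ⊥ := by
      intro N hN hle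
      by_contra hne
      exact hcon ⟨N, hN, hne, Or.inr hle⟩
    have hBA := swap hAB
    have hZ := center_eq_bot hAB hnoA hnoB
    have hWn : (⁅A, B⁆ : Subgroup G).Normal := Cfsg.Agent.S0572.commAB_normal A B hAB
    have hWc : IsMulCommutative (⁅A, B⁆ : Subgroup G) := Cfsg.Agent.S0572.commAB_comm A B hAB
    have hGW := Cfsg.Agent.S0572.comm_le A B hAB
    have hA5 := s5 hAB hZ hnoA ⁅A, B⁆ hWn hGW
    have hB5 := s5 hBA hZ hnoB ⁅A, B⁆ hWn hGW
    have hW : (⁅A, B⁆ : Subgroup G) ≠ ⊥ := by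
      intro hbot
      have htop : centralizer ((⁅A, B⁆ : Subgroup G) : Set G) = ⊤ := by
        rw [hbot, eq_top_iff, le_centralizer_iff]
        exact bot_le
      rw [htop, top_inf_eq] at hA5 hB5
      have hA0 : A = ⊥ := eq_bot_iff.mpr (hA5 ▸ le_centralizer A)
      have hB0 : B = ⊥ := eq_bot_iff.mpr (hB5 ▸ le_centralizer B)
      obtain ⟨g, hg⟩ := exists_ne (1 : G)
      obtain ⟨a, ha, b, hb, rfl⟩ := hAB g
      rw [hA0, mem_bot] at ha
      rw [hB0, mem_bot] at hb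
      rw [ha, hb, one_mul] at hg
      exact hg rfl
    have ih' : ∀ (G' : Type u) [Group G'] [Finite G'] [Nontrivial G'] (A' B' : Subgroup G')
        [IsMulCommutative A'] [IsMulCommutative B'], Nat.card G' < Nat.card G →
        (∀ g : G', ∃ a ∈ A', ∃ b ∈ B', g = a * b) → Goal G' A' B' := by
      intro G' _ _ _ A' B' _ _ hlt hfact
      exact ih _ (hn ▸ hlt) G' A' B' rfl hfact
    have hAW := s6 ih' hAB ⁅A, B⁆ hWn hGW hW hA5 hB5
    have hBW := s6 ih' hBA ⁅A, B⁆ hWn hGW hW hB5 hA5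
    obtain ⟨p, hp, R, hRn, hRpow, hRW⟩ := exists_R ⁅A, B⁆ hWn hW
    have : Fact p.Prime := ⟨hp⟩
    have hsurj := QuotientGroup.mk'_surjective R
    have hWA : (⁅A, B⁆ : Subgroup G) ≤ ⁅⁅A, B⁆, A⁆ := by
      have hfact : ∀ g : G, ∃ w ∈ (⁅A, B⁆ : Subgroup G), ∃ a ∈ A, g = w * a := by
        intro g
        have hg : g ∈ ⁅A, B⁆ ⊔ A := by rw [sup_comm, hAW]; trivial
        rw [mem_sup_of_normal_left] at hg
        obtain ⟨w, hw, a, ha, rfl⟩ := hg
        exact ⟨w, hw, a, ha, rfl⟩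
      exact (commutator_mono le_top le_top).trans (Cfsg.Agent.S0572.comm_le ⁅A, B⁆ A hfact)
    have hbot := s7 (G := G ⧸ R) (A := A.map (QuotientGroup.mk' R)) (B := B.map (QuotientGroup.mk' R))
      (p := p) (by
        intro g
        obtain ⟨g, rfl⟩ := hsurj g
        obtain ⟨a, ha, b, hb, rfl⟩ := hAB g
        exact ⟨_, ⟨a, ha, rfl⟩, _, ⟨b, hb, rfl⟩, map_mul _ a b⟩)
      ((⁅A, B⁆ : Subgroup G).map (QuotientGroup.mk' R)) (hWn.map _ hsurj)
      (by
        rintro ⟨_, w, hw, rfl⟩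
        refine ⟨1, ?_⟩
        apply Subtype.ext
        rw [pow_one]
        change (QuotientGroup.mk' R w) ^ p = 1
        rw [← map_pow, QuotientGroup.mk'_apply, QuotientGroup.eq_one_iff]
        exact hRpow w hw)
      (by rw [← Subgroup.map_sup, sup_comm, hBW, Subgroup.map_top_of_surjective _ hsurj])
      (by
        rw [← map_commutator]
        exact map_mono hWA)
    rw [Subgroup.map_eq_bot_iff, QuotientGroup.ker_mk'] at hbot
    exact hRW hbot

/-- If a nontrivial finite group G is the product AB of abelian subgroups A and B, then some nontrivial normal subgroup of G is contained in A or in B. -/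
theorem result {G : Type*} [Group G] [Finite G] [Nontrivial G] (A B : Subgroup G) [IsMulCommutative A] [IsMulCommutative B] (hAB : ∀ g : G, ∃ a ∈ A, ∃ b ∈ B, g = a * b) : ∃ N : Subgroup G, N.Normal ∧ N ≠ ⊥ ∧ (N ≤ A ∨ N ≤ B) := by
  exact main _ G A B rfl hAB

end Cfsg.Agent.S0573
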