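import Cfsg.Statements.S0571
-- import your own Cfsg.Agent.* helpers here
import Cfsg.Agent.S0573
import Cfsg.Agent.Lib.Helper42.Supersolvable

set_option autoImplicit false
open Cfsg

namespace Cfsg.Agent.S0571

universe u

open Cfsg.Agent.Lib.Helper42 in
theorem main : ∀ (n : ℕ) (G : Type u) [Group G] [Finite G] (A B : Subgroup G) [IsCyclic A] [IsCyclic B],
    Nat.card G = n → (∀ g : G, ∃ a ∈ A, ∃ b ∈ B, g = a * b) → Cfsg.IsSupersolvable G := by
  intro n
  induction n using Nat.strong_induction_on with
  | _ n ih =>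
    intro G _ _ A B _ _ hn hAB
    rcases subsingleton_or_nontrivial G with hs | hs
    · exact ss_of_subsingleton
    haveI : IsMulCommutative A := ⟨⟨fun a b => IsCyclic.commGroup.mul_comm a b⟩⟩
    haveI : IsMulCommutative B := ⟨⟨fun a b => IsCyclic.commGroup.mul_comm a b⟩⟩
    obtain ⟨N, hNn, hN, hNAB⟩ := Cfsg.Agent.S0573.result A B hAB
    haveI : IsCyclic N := by
      rcases hNAB with h | h
      · exact isCyclic_of_injective (Subgroup.inclusion h) (Subgroup.inclusion_injective h)
      · exact isCyclic_of_injective (Subgroup.inclusion h) (Subgroup.inclusion_injective h)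
    apply ss_of_cyclic_normal N
    have hlt : Nat.card (G ⧸ N) < n := hn ▸ card_quotient_lt N hN
    haveI : IsCyclic (A.map (QuotientGroup.mk' N)) :=
      isCyclic_of_surjective ((QuotientGroup.mk' N).subgroupMap A) ((QuotientGroup.mk' N).subgroupMap_surjective A)
    haveI : IsCyclic (B.map (QuotientGroup.mk' N)) :=
      isCyclic_of_surjective ((QuotientGroup.mk' N).subgroupMap B) ((QuotientGroup.mk' N).subgroupMap_surjective B)
    refine ih _ hlt (G ⧸ N) (A.map (QuotientGroup.mk' N)) (B.map (QuotientGroup.mk' N)) rfl ?_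
    intro g
    obtain ⟨g, rfl⟩ := QuotientGroup.mk'_surjective N g
    obtain ⟨a, ha, b, hb, rfl⟩ := hAB g
    exact ⟨_, ⟨a, ha, rfl⟩, _, ⟨b, hb, rfl⟩, map_mul _ a b⟩

/-- If a finite group G is the product AB of two cyclic subgroups (every element is a product ab), then G is supersolvable. -/
theorem result {G : Type*} [Group G] [Finite G] (A B : Subgroup G) [IsCyclic A] [IsCyclic B] (hAB : ∀ g : G, ∃ a ∈ A, ∃ b ∈ B, g = a * b) : Cfsg.IsSupersolvable G := by
  exact main _ G A B rfl hAB

end Cfsg.Agent.S0571
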