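import Cfsg.Statements.S0575
-- import your own Cfsg.Agent.* helpers here
import Cfsg.Agent.Lib.Helper13.Frattini

set_option autoImplicit false
open Cfsg

namespace Cfsg.Agent.S0575

/-- If H is a normal subgroup of a finite group G, then the Frattini subgroup of H, viewed in G, lies in the Frattini subgroup of G. -/
theorem result {G : Type*} [Group G] [Finite G] (H : Subgroup G) [H.Normal] : (frattini ↥H).map H.subtype ≤ frattini G := by
  have hn : ((frattini ↥H).map H.subtype).Normal := inferInstance
  apply Cfsg.Agent.Lib.Helper13.le_frattini_of_le_frattini_subgroup _ H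
  · intro x hx
    rw [Subgroup.mem_subgroupOf] at hx
    obtain ⟨y, hy, hxy⟩ := hx
    have : y = x := Subtype.ext hxy
    exact this ▸ hy
  · exact Subgroup.map_subtype_le _

end Cfsg.Agent.S0575
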