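import Cfsg.Statements.S0576
-- import your own Cfsg.Agent.* helpers here

set_option autoImplicit false
open Cfsg

namespace Cfsg.Agent.S0576

/-- Let H be a normal subgroup of a finite group G with H contained in the Frattini subgroup of G. Then the group of inner automorphisms of H is contained in the Frattini subgroup of the automorphism group of H. -/
theorem result {G : Type*} [Group G] [Finite G] (H : Subgroup G) [H.Normal] (hH : H ≤ frattini G) : (MulAut.conj : ↥H →* MulAut ↥H).range ≤ frattini (MulAut ↥H) := by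
  classical
  rw [frattini, Order.radical, le_iInf₂_iff]
  intro U hU
  by_contra hcon
  let τ : G →* MulAut ↥H := MulAut.conjNormal
  have hτ : ∀ h : H, τ (h : G) = MulAut.conj h := by
    intro h
    ext x
    simp [τ]
  have hInn : ((MulAut.conj : ↥H →* MulAut ↥H).range).Normal := by
    constructor
    rintro _ ⟨h, rfl⟩ φ
    refine ⟨φ h, ?_⟩
    ext x
    simp
  have hsup : (MulAut.conj : ↥H →* MulAut ↥H).range ⊔ U = ⊤ := by
    apply hU.2
    exact lt_of_le_of_ne le_sup_right (fun h => hcon (h ▸ le_sup_left))
  have hW : U.comap τ ⊔ frattini G = ⊤ := by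
    rw [eq_top_iff]
    intro g _
    have hg : τ g ∈ (MulAut.conj : ↥H →* MulAut ↥H).range ⊔ U := by rw [hsup]; trivial
    rw [Subgroup.mem_sup_of_normal_left] at hg
    obtain ⟨i, ⟨h, rfl⟩, u, hu, hiu⟩ := hg
    have : g = ((h : G)⁻¹ * g) * (((h : G)⁻¹ * g)⁻¹ * (h : G) * ((h : G)⁻¹ * g)) := by group
    rw [this]
    apply Subgroup.mul_mem_sup
    · rw [Subgroup.mem_comap, map_mul, map_inv, hτ, ← hiu]
      simpa using hu
    · apply hH
      have := (inferInstance : H.Normal).conj_mem (h : G) h.2 ((h : G)⁻¹ * g)⁻¹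
      simpa using this
  have htop := frattini_nongenerating hW
  apply hcon
  rintro _ ⟨h, rfl⟩
  have : (h : G) ∈ U.comap τ := by rw [htop]; trivial
  rw [Subgroup.mem_comap, hτ] at this
  exact this

end Cfsg.Agent.S0576
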