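import Cfsg.Statements.S0577
-- import your own Cfsg.Agent.* helpers here
import Cfsg.Agent.Lib.Helper13.Schmidt
import Cfsg.Agent.Lib.Helper13.Basic
import Cfsg.Agent.Lib.Helper1.Coprime2

set_option autoImplicit false
open Cfsg

namespace Cfsg.Agent.S0577


open Cfsg.Agent.Lib.Helper13 Cfsg.Agent.Lib.Helper31 in
theorem key {G : Type*} [Group G] [Finite G] (q : ℕ) [Fact q.Prime] (Q : Sylow q G)
    (hQ : (Q : Subgroup G).Normal) (hab : ∀ a b : G, a * b * a⁻¹ * b⁻¹ ∈ (Q : Subgroup G))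
    (D : Subgroup G) [D.Normal] (hD : ∀ a ∈ (Q : Subgroup G), ∀ b ∈ (Q : Subgroup G), (a * b : G ⧸ D) = b * a)
    (H : Subgroup G) (hH : Group.IsNilpotent H) (h₁ h₂ : G) (hh₁ : h₁ ∈ H) (hh₂ : h₂ ∈ H) :
    ((h₁ * h₂ : G) : G ⧸ D) = ((h₂ * h₁ : G) : G ⧸ D) := by
  have hq : q.Prime := Fact.out
  obtain ⟨a₁, ha₁, b₁, hb₁, e₁, hao₁, hbo₁⟩ := exists_prime_decomp q h₁ (isOfFinOrder_of_finite _)
  obtain ⟨a₂, ha₂, b₂, hb₂, e₂, hao₂, hbo₂⟩ := exists_prime_decomp q h₂ (isOfFinOrder_of_finite _)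
  have hz₁ : Subgroup.zpowers h₁ ≤ H := by rw [Subgroup.zpowers_le]; exact hh₁
  have hz₂ : Subgroup.zpowers h₂ ≤ H := by rw [Subgroup.zpowers_le]; exact hh₂
  have haQ₁ : a₁ ∈ (Q : Subgroup G) := mem_sylow_of_normal Q a₁ hao₁
  have haQ₂ : a₂ ∈ (Q : Subgroup G) := mem_sylow_of_normal Q a₂ hao₂
  have hcomm : ∀ a b : G, a ∈ H → b ∈ H → (∃ k : ℕ, orderOf a = q ^ k) → (orderOf b).Coprime q →
      Commute a b := by
    intro a b ha hb ⟨k, hk⟩ hbo
    have := commute_of_coprime_orderOf H ⟨a, ha⟩ ⟨b, hb⟩ (by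
      rw [Subgroup.orderOf_mk, Subgroup.orderOf_mk, hk]
      exact hbo.symm.pow_left k)
    exact congrArg Subtype.val this
  have hbb : Commute b₁ b₂ := by
    obtain ⟨N, hNn, hNc, j, hj⟩ :=
      Cfsg.Agent.Lib.Helper2.hasNormalPComplement_iff_exists.mp (hnpc_of_nilpotent hH q)
    have hN₁ : (⟨b₁, hz₁ hb₁⟩ : H) ∈ N :=
      Cfsg.Agent.Lib.Helper58.mem_of_coprime_order N j hj _ (by rw [Subgroup.orderOf_mk]; exact hbo₁)
    have hN₂ : (⟨b₂, hz₂ hb₂⟩ : H) ∈ N :=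
      Cfsg.Agent.Lib.Helper58.mem_of_coprime_order N j hj _ (by rw [Subgroup.orderOf_mk]; exact hbo₂)
    have hc : (⟨b₁, hz₁ hb₁⟩ * ⟨b₂, hz₂ hb₂⟩ * ⟨b₁, hz₁ hb₁⟩⁻¹ * ⟨b₂, hz₂ hb₂⟩⁻¹ : H) ∈ N :=
      N.mul_mem (N.mul_mem (N.mul_mem hN₁ hN₂) (N.inv_mem hN₁)) (N.inv_mem hN₂)
    have ho1 : orderOf (b₁ * b₂ * b₁⁻¹ * b₂⁻¹) ∣ Nat.card N := by
      have := orderOf_dvd_natCard (⟨_, hc⟩ : N)
      rw [Subgroup.orderOf_mk, ← Subgroup.orderOf_coe] at this
      exact this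
    obtain ⟨k, hk⟩ := (IsPGroup.iff_orderOf.mp Q.isPGroup') ⟨_, hab b₁ b₂⟩
    rw [Subgroup.orderOf_mk] at hk
    have ho2 : orderOf (b₁ * b₂ * b₁⁻¹ * b₂⁻¹) = 1 :=
      Nat.eq_one_of_dvd_coprimes (hNc.pow_right k) ho1 (by rw [hk])
    rw [orderOf_eq_one_iff] at ho2
    have : b₁ * b₂ = b₂ * b₁ := by
      have h3 : b₁ * b₂ = (b₁ * b₂ * b₁⁻¹ * b₂⁻¹) * (b₂ * b₁) := by group
      rw [h3, ho2, one_mul]
    exact this
  have h12 : Commute b₁ a₂ := (hcomm a₂ b₁ (hz₂ ha₂) (hz₁ hb₁) hao₂ hbo₁).symm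
  have h21 : Commute b₂ a₁ := (hcomm a₁ b₂ (hz₁ ha₁) (hz₂ hb₂) hao₁ hbo₂).symm
  rw [e₁, e₂, h12.mul_mul_mul_comm, h21.mul_mul_mul_comm, hbb.eq]
  simp only [QuotientGroup.mk_mul]
  rw [hD a₁ haQ₁ a₂ haQ₂]

/-- Let G be a finite minimal non-nilpotent group and Q a normal Sylow q-subgroup of G, and let D be the commutator subgroup of Q regarded in G (a normal subgroup). Then G modulo D is non-abelian and all its proper subgroups are abelian. -/
theorem result {G : Type*} [Group G] [Finite G] (hG : Cfsg.IsMinimalNonNilpotent G) (q : ℕ) [Fact q.Prime] (hq : q ∣ Nat.card G) (Q : Sylow q G) (hQ : (Q : Subgroup G).Normal) (D : Subgroup G) [D.Normal] (hD : D = (commutator ↥(Q : Subgroup G)).map (Q : Subgroup G).subtype) : ¬ IsMulCommutative (G ⧸ D) ∧ ∀ K : Subgroup (G ⧸ D), K ≠ ⊤ → IsMulCommutative K := by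
  have hqp : q.Prime := Fact.out
  have hQne : (Q : Subgroup G) ≠ ⊥ := Q.ne_bot_of_dvd_card hq
  obtain ⟨p, x, k, hp, hpq, hxo, hxC, htop, hxp⟩ :=
    Cfsg.Agent.Lib.Helper13.mnn_structure hG q Q hQ hQne
  have hDc : ∀ a ∈ (Q : Subgroup G), ∀ b ∈ (Q : Subgroup G), a * b * a⁻¹ * b⁻¹ ∈ D := by
    intro a ha b hb
    rw [hD]
    refine ⟨(⟨a, ha⟩ : (Q : Subgroup G)) * ⟨b, hb⟩ * ⟨a, ha⟩⁻¹ * ⟨b, hb⟩⁻¹, ?_, rfl⟩
    exact Subgroup.commutator_mem_commutator (Subgroup.mem_top _) (Subgroup.mem_top _)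
  have hDF : D ≤ (frattini ↥(Q : Subgroup G)).map (Q : Subgroup G).subtype := by
    rw [hD]
    apply Subgroup.map_mono
    rw [commutator_def, Subgroup.commutator_le]
    intro a _ b _
    exact Cfsg.Agent.Lib.Helper13.commutator_mem_frattini_of_nilpotent Q.isPGroup'.isNilpotent a b
  constructor
  · intro hc
    apply hxC
    have h1 := Cfsg.Agent.Lib.Helper1.coprime_trivial_on_frattini_quotient (Subgroup.zpowers x)
      (Q : Subgroup G) (by rw [Subgroup.normalizer_eq_top]; exact le_top) (by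
        rw [Nat.card_zpowers, hxo]
        obtain ⟨j, hj⟩ := (Q.isPGroup'.to_subgroup (frattini ↥(Q : Subgroup G))).exists_card_eq
        rw [hj]
        exact Nat.Coprime.pow _ _ ((Nat.coprime_primes hp hqp).mpr hpq)) (by
        intro a _ b _
        apply hDF
        rw [← QuotientGroup.eq_one_iff]
        have h2 : ((a : G ⧸ D)) * (b : G ⧸ D) = (b : G ⧸ D) * (a : G ⧸ D) := hc.is_comm.comm _ _
        rw [QuotientGroup.mk_mul, QuotientGroup.mk_mul, QuotientGroup.mk_mul, h2, QuotientGroup.mk_inv,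
          QuotientGroup.mk_inv]
        group)
    exact h1 (Subgroup.mem_zpowers x)
  · intro K hK
    have hH : K.comap (QuotientGroup.mk' D) ≠ ⊤ := by
      intro h
      apply hK
      rw [← Subgroup.map_comap_eq_self_of_surjective (QuotientGroup.mk'_surjective D) K, h,
        Subgroup.map_top_of_surjective _ (QuotientGroup.mk'_surjective D)]
    have hnil := hG.2 _ hH
    have hcyc := Cfsg.Agent.Lib.Helper13.isCyclic_quotient_of_sup_zpowers (Q : Subgroup G) x htop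
    refine ⟨⟨?_⟩⟩
    rintro ⟨a, ha⟩ ⟨b, hb⟩
    obtain ⟨a, rfl⟩ := QuotientGroup.mk'_surjective D a
    obtain ⟨b, rfl⟩ := QuotientGroup.mk'_surjective D b
    apply Subtype.ext
    exact key q Q hQ (by
      intro a b
      rw [← QuotientGroup.eq_one_iff]
      have h2 : ((a : G ⧸ (Q : Subgroup G))) * (b : G ⧸ (Q : Subgroup G)) = b * a :=
        IsCyclic.commGroup.mul_comm _ _
      rw [QuotientGroup.mk_mul, QuotientGroup.mk_mul, QuotientGroup.mk_mul, h2, QuotientGroup.mk_inv,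
          QuotientGroup.mk_inv]
      group) D (by
      intro a ha b hb
      have := hDc a ha b hb
      rw [← QuotientGroup.eq_one_iff, QuotientGroup.mk_mul, QuotientGroup.mk_mul, QuotientGroup.mk_mul,
        QuotientGroup.mk_inv, QuotientGroup.mk_inv] at this
      have h3 : (a : G ⧸ D) * b = ((a : G ⧸ D) * b * (a : G ⧸ D)⁻¹ * (b : G ⧸ D)⁻¹) * (b * a) := by group
      rw [h3, this, one_mul]) _ hnil a b ha hb

end Cfsg.Agent.S0577
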