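import Cfsg.Statements.S0578
-- import your own Cfsg.Agent.* helpers here
import Mathlib

set_option autoImplicit false
open Cfsg

namespace Cfsg.Agent.S0578

theorem isMulCommutative_sup {G : Type*} [Group G] {A B : Subgroup G} [IsMulCommutative A]
    [IsMulCommutative B] (hAB : B ≤ Subgroup.centralizer (A : Set G)) :
    IsMulCommutative (A ⊔ B : Subgroup G) := by
  have hcomm : ∀ x ∈ (A : Set G) ∪ B, ∀ y ∈ (A : Set G) ∪ B, x * y = y * x := by
    rintro x (hx | hx) y (hy | hy)
    · exact setLike_mul_comm hx hy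
    · exact (Subgroup.mem_centralizer_iff.mp (hAB hy) x hx)
    · exact (Subgroup.mem_centralizer_iff.mp (hAB hx) y hy).symm
    · exact setLike_mul_comm hx hy
  have hsup : A ⊔ B = Subgroup.closure ((A : Set G) ∪ B) := by
    rw [Subgroup.closure_union, Subgroup.closure_eq, Subgroup.closure_eq]
  rw [hsup]
  exact Subgroup.isMulCommutative_closure hcomm

theorem comm_of_nilpotent {G : Type*} [Group G] [Finite G]
    (h : ∀ A : Subgroup G, IsMulCommutative A →
      Subgroup.normalizer (A : Set G) = Subgroup.centralizer (A : Set G))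
    (P : Subgroup G) (hP : Group.IsNilpotent P) : IsMulCommutative P := by
  classical
  have hne : ({A : Subgroup G | A ≤ P ∧ IsMulCommutative A} : Set (Subgroup G)).Nonempty :=
    ⟨⊥, bot_le, inferInstance⟩
  obtain ⟨A, hA⟩ := (Set.toFinite {A : Subgroup G | A ≤ P ∧ IsMulCommutative A}).exists_maximal hne
  obtain ⟨⟨hAP, hAc⟩, hAmax⟩ := hA
  by_cases hAeq : A = P
  · rw [← hAeq]
    exact hAc
  · exfalso
    have hlt : A.subgroupOf P < ⊤ := by
      rw [lt_top_iff_ne_top, Ne, Subgroup.subgroupOf_eq_top]
      exact fun hle => hAeq (le_antisymm hAP hle)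
    have hnc := Group.normalizerCondition_of_isNilpotent (G := P) _ hlt
    obtain ⟨y, hyN, hyA⟩ := SetLike.exists_of_lt hnc
    rw [← Subgroup.subgroupOf_normalizer_eq hAP, Subgroup.mem_subgroupOf, h A hAc] at hyN
    rw [Subgroup.mem_subgroupOf] at hyA
    have hz : Subgroup.zpowers (y : G) ≤ Subgroup.centralizer (A : Set G) := by
      rw [Subgroup.zpowers_le]
      exact hyN
    have hc := isMulCommutative_sup hz
    have hle : A ⊔ Subgroup.zpowers (y : G) ≤ P :=
      sup_le hAP (by rw [Subgroup.zpowers_le]; exact y.2)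
    have := hAmax ⟨hle, hc⟩ le_sup_left
    exact hyA (this ((le_sup_right : Subgroup.zpowers (y : G) ≤ A ⊔ Subgroup.zpowers (y : G))
      (Subgroup.mem_zpowers _)))

open scoped commutatorElement in
theorem aux {G : Type*} [Group G] [Finite G]
    (h : ∀ A : Subgroup G, IsMulCommutative A →
      Subgroup.normalizer (A : Set G) = Subgroup.centralizer (A : Set G)) (x y : G) :
    ⁅x, y⁆ = 1 := by
  by_contra hne
  have h1 : orderOf ⁅x, y⁆ ≠ 1 := by
    rwa [Ne, orderOf_eq_one_iff]
  obtain ⟨p, hp, hpd⟩ := Nat.exists_prime_and_dvd h1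
  have : Fact p.Prime := ⟨hp⟩
  obtain ⟨P⟩ : Nonempty (Sylow p G) := inferInstance
  have hPc : IsMulCommutative (P : Subgroup G) := comm_of_nilpotent h P P.2.isNilpotent
  have hP : Subgroup.normalizer ((P : Subgroup G) : Set G) ≤
      Subgroup.centralizer ((P : Subgroup G) : Set G) := (h P hPc).le
  have hker : ⁅x, y⁆ ∈ (MonoidHom.transferSylow P hP).ker := by
    rw [MonoidHom.mem_ker, map_commutatorElement, commutatorElement_eq_one_iff_mul_comm]
    exact mul_comm' _ _
  have h2 : orderOf ⁅x, y⁆ ∣ Nat.card (MonoidHom.transferSylow P hP).ker := by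
    have := orderOf_dvd_natCard (⟨⁅x, y⁆, hker⟩ : (MonoidHom.transferSylow P hP).ker)
    rwa [← Subgroup.orderOf_coe] at this
  exact MonoidHom.not_dvd_card_ker_transferSylow P hP (hpd.trans h2)

/-- If in a finite group the normalizer of each abelian subgroup coincides with its centralizer, then the group is abelian. -/
theorem result {G : Type*} [Group G] [Finite G] (h : ∀ A : Subgroup G, IsMulCommutative A → Subgroup.normalizer (A : Set G) = Subgroup.centralizer (A : Set G)) : IsMulCommutative G := by
  apply IsMulCommutative.of_comm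
  intro a b
  exact commutatorElement_eq_one_iff_mul_comm.mp (aux h a b)

end Cfsg.Agent.S0578
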