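import Cfsg.Statements.S0579
import Cfsg.Agent.Lib.Helper76.SuperChain2
import Cfsg.Agent.Lib.Helper13.MaxPrime
import Cfsg.Agent.Lib.Helper1.Coprime2
import Cfsg.Agent.Lib.Helper11.AxB
import Cfsg.Agent.Lib.Helper74.MaxSolvable

set_option autoImplicit false
open Cfsg

namespace Cfsg.Agent.S0579

open scoped commutatorElement
open Cfsg.Agent.Lib.Helper76 Cfsg.Agent.Lib.Helper1

universe u

theorem inf_normalizer_le_normalizer_sup {G : Type*} [Group G] (A B : Subgroup G) :
    Subgroup.normalizer (A : Set G) ⊓ Subgroup.normalizer (B : Set G) ≤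
      Subgroup.normalizer ((A ⊔ B : Subgroup G) : Set G) := by
  intro g hg
  obtain ⟨h1, h2⟩ := Subgroup.mem_inf.mp hg
  rw [Subgroup.mem_normalizer_iff_map_conj_eq] at h1 h2 ⊢
  rw [Subgroup.map_sup, h1, h2]

/-- The key step: the part of the residual lying in a complement of the normal Sylow subgroup `Q`
centralizes `Q`. -/
theorem centralizes {G : Type*} [Group G] [Finite G]
    (h : ∀ M : Subgroup G, IsCoatom M → M.index.Prime) {q : ℕ} [Fact q.Prime]
    (Q H : Subgroup G) (hQn : Q.Normal) (hQp : IsPGroup q Q) (hsup : Q ⊔ H = ⊤)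
    (hcop : (Nat.card H).Coprime (Nat.card Q)) :
    resid q G ⊓ H ≤ Subgroup.centralizer (Q : Set G) := by
  obtain ⟨K, hKdef⟩ : ∃ K : Subgroup G, K = resid q G ⊓ H := ⟨_, rfl⟩
  rw [← hKdef]
  have hKH : K ≤ H := by rw [hKdef]; exact inf_le_right
  have hKR : K ≤ resid q G := by rw [hKdef]; exact inf_le_left
  have hnQ : Subgroup.normalizer (Q : Set G) = ⊤ := Subgroup.normalizer_eq_top_iff.mpr hQn
  have hKn : K ≤ Subgroup.normalizer (Q : Set G) := by rw [hnQ]; exact le_top
  have hcopK : (Nat.card K).Coprime (Nat.card Q) :=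
    Nat.Coprime.coprime_dvd_left (Subgroup.card_dvd_of_le hKH) hcop
  have hsolv : Group.IsSolvable K ∨ Group.IsSolvable Q := by
    right
    have : Group.IsNilpotent Q := hQp.isNilpotent
    infer_instance
  obtain ⟨Q₀, hQ₀def⟩ : ∃ Q₀ : Subgroup G, Q₀ = ⁅Q, K⁆ := ⟨_, rfl⟩
  rw [← Subgroup.commutator_eq_bot_iff_le_centralizer, Subgroup.commutator_comm, ← hQ₀def]
  by_contra hne
  have hQ₀Q : Q₀ ≤ Q := by rw [hQ₀def]; exact commutator_le_left_of_le_normalizer hKn
  have hHK : H ≤ Subgroup.normalizer (K : Set G) := by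
    rw [Subgroup.le_normalizer_iff]
    intro a ha k hk
    rw [hKdef]
    exact ⟨(resid_normal q G).conj_mem _ (hKR hk) a,
      H.mul_mem (H.mul_mem ha (hKH hk)) (H.inv_mem ha)⟩
  have hQ₀n : Q₀.Normal := by
    rw [← Subgroup.normalizer_eq_top_iff, eq_top_iff, ← hsup, hQ₀def]
    refine sup_le (le_sup_left.trans (sup_le_normalizer_commutator Q K)) ?_
    intro a ha
    exact Cfsg.Agent.Lib.Helper11.mem_normalizer_commutator (by rw [hnQ]; trivial) (hHK ha)
  have hnQ₀ : Subgroup.normalizer (Q₀ : Set G) = ⊤ := Subgroup.normalizer_eq_top_iff.mpr hQ₀n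
  have hlt : ⁅Q₀, Q⁆ < Q₀ := Cfsg.Agent.Lib.Helper11.commutator_lt_of_isPGroup Q₀ Q
    (hQp.to_le hQ₀Q) hQp (by rw [hnQ₀]; exact le_top) hne
  obtain ⟨M₀, hM₀⟩ := (Set.toFinite {M : Subgroup G | M.Normal ∧ ⁅Q₀, Q⁆ ≤ M ∧ M < Q₀}).exists_maximal
    ⟨⁅Q₀, Q⁆, inferInstance, le_rfl, hlt⟩
  have hM₀n : M₀.Normal := hM₀.prop.1
  have hM₀c : ⁅Q₀, Q⁆ ≤ M₀ := hM₀.prop.2.1
  have hM₀lt : M₀ < Q₀ := hM₀.prop.2.2
  have hM₀max : ∀ X : Subgroup G, X.Normal → M₀ ≤ X → X ≤ Q₀ → X ≠ Q₀ → X = M₀ := by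
    intro X hXn h1 h2 h3
    exact (hM₀.eq_of_le ⟨hXn, hM₀c.trans h1, lt_of_le_of_ne h2 h3⟩ h1).symm
  have hdec : Q₀ ⊔ (Q ⊓ Subgroup.centralizer (K : Set G)) = Q := by
    rw [hQ₀def]; exact coprime_commutator_sup_centralizer K Q hKn hcopK hsolv
  have hcc : ⁅Q₀, K⁆ = Q₀ := by
    rw [hQ₀def]; exact coprime_commutator_commutator K Q hKn hcopK hsolv
  obtain ⟨C, hCdef⟩ : ∃ C : Subgroup G, C = Q ⊓ Subgroup.centralizer (K : Set G) := ⟨_, rfl⟩
  rw [← hCdef] at hdec
  have hCQ : C ≤ Q := by rw [hCdef]; exact inf_le_left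
  have hCK : ∀ c ∈ C, ∀ k ∈ K, k * c = c * k := by
    intro c hc k hk
    rw [hCdef] at hc
    exact (Subgroup.mem_centralizer_iff.mp hc.2) k hk
  have hHC : H ≤ Subgroup.normalizer (C : Set G) := by
    rw [Subgroup.le_normalizer_iff]
    intro a ha c hc
    rw [hCdef]
    refine ⟨hQn.conj_mem _ (hCQ hc) a, ?_⟩
    show _ ∈ Subgroup.centralizer (K : Set G)
    rw [Subgroup.mem_centralizer_iff]
    intro k hk
    have hk' : a⁻¹ * k * a ∈ K := by
      have := (Subgroup.le_normalizer_iff.mp hHK) a⁻¹ (H.inv_mem ha) k hk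
      rwa [inv_inv] at this
    have h1 := hCK c hc _ hk'
    calc k * (a * c * a⁻¹) = a * ((a⁻¹ * k * a) * c) * a⁻¹ := by group
      _ = a * (c * (a⁻¹ * k * a)) * a⁻¹ := by rw [h1]
      _ = a * c * a⁻¹ * k := by group
  have hHD : H ≤ Subgroup.normalizer ((C ⊔ M₀ : Subgroup G) : Set G) := by
    intro a ha
    apply inf_normalizer_le_normalizer_sup
    exact ⟨hHC ha, by rw [Subgroup.normalizer_eq_top_iff.mpr hM₀n]; trivial⟩
  have hDQ : C ⊔ M₀ ≤ Q := sup_le hCQ (hM₀lt.le.trans hQ₀Q)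
  by_cases hL : H ⊔ (C ⊔ M₀) = ⊤
  · -- then `Q = C M₀`
    have hc1 := card_sup_of_coprime_le_normalizer hHD
      (Nat.Coprime.coprime_dvd_right (Subgroup.card_dvd_of_le hDQ) hcop)
    have hc2 := card_sup_of_coprime_le_normalizer (H := H) (N := Q) (by rw [hnQ]; exact le_top) hcop
    rw [hL] at hc1
    rw [sup_comm, hsup, hc1] at hc2
    have hHpos : 0 < Nat.card H := Nat.card_pos
    have hc3 : Nat.card (C ⊔ M₀ : Subgroup G) = Nat.card Q := Nat.eq_of_mul_eq_mul_left hHpos hc2
    have hD : C ⊔ M₀ = Q := Subgroup.eq_of_le_of_card_ge hDQ hc3.ge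
    have hle : Q₀ ≤ M₀ := by
      rw [hQ₀def, Subgroup.commutator_le]
      intro x hx k hk
      rw [← hD] at hx
      obtain ⟨c, hc, m, hm, rfl⟩ := Subgroup.mem_sup_of_normal_right.mp hx
      have h1 := hCK c hc k hk
      have h2 : ⁅c * m, k⁆ = c * (m * (k * m⁻¹ * k⁻¹)) * c⁻¹ := by
        rw [commutatorElement_def]
        calc c * m * k * (c * m)⁻¹ * k⁻¹ = c * m * k * m⁻¹ * (c⁻¹ * k⁻¹) := by group
          _ = c * m * k * m⁻¹ * (k * c)⁻¹ := by group
          _ = c * m * k * m⁻¹ * (c * k)⁻¹ := by rw [h1]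
          _ = c * (m * (k * m⁻¹ * k⁻¹)) * c⁻¹ := by group
      rw [h2]
      exact hM₀n.conj_mem _ (M₀.mul_mem hm (hM₀n.conj_mem _ (M₀.inv_mem hm) k)) c
    exact absurd hle (not_le_of_gt hM₀lt)
  · obtain ⟨M, hM, hLM⟩ := (eq_top_or_exists_le_coatom _).resolve_left hL
    have hHM : H ≤ M := le_sup_left.trans hLM
    have hCM : C ≤ M := (le_sup_left.trans le_sup_right).trans hLM
    have hM₀M : M₀ ≤ M := (le_sup_right.trans le_sup_right).trans hLM
    have hMQ₀ : M ⊔ Q₀ = ⊤ := by
      rw [eq_top_iff, ← hsup, ← hdec]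
      exact sup_le (sup_le le_sup_right (hCM.trans le_sup_left)) (hHM.trans le_sup_left)
    have hQ₀M : ¬ Q₀ ≤ M := by
      intro hle
      apply hM.1
      rw [← hMQ₀]
      exact (sup_eq_left.mpr hle).symm
    have hXn : (M ⊓ Q₀).Normal := by
      rw [← Subgroup.normalizer_eq_top_iff, eq_top_iff, ← hMQ₀]
      refine sup_le ?_ ?_
      · rw [Subgroup.le_normalizer_iff]
        intro a ha x hx
        exact ⟨M.mul_mem (M.mul_mem ha hx.1) (M.inv_mem ha), hQ₀n.conj_mem _ hx.2 a⟩
      · rw [Subgroup.le_normalizer_iff]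
        intro a ha x hx
        have h1 : ⁅a, x⁆ ∈ M₀ :=
          hM₀c (Subgroup.commutator_mem_commutator ha (hQ₀Q hx.2))
        have h2 : a * x * a⁻¹ = ⁅a, x⁆ * x := by rw [commutatorElement_def]; group
        rw [h2]
        exact ⟨M.mul_mem (hM₀M h1) hx.1, Q₀.mul_mem (hM₀lt.le h1) hx.2⟩
    have hX : M ⊓ Q₀ = M₀ := by
      apply hM₀max _ hXn (le_inf hM₀M hM₀lt.le) inf_le_right
      intro heq
      exact hQ₀M (heq ▸ inf_le_left)
    have hidx : M₀.relIndex Q₀ = M.index := by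
      have h1 := Cfsg.Agent.Lib.Helper74.relIndex_mul_index_sup_of_normal M Q₀
      rw [hMQ₀, Subgroup.index_top, mul_one, ← Subgroup.inf_relIndex_right, hX] at h1
      exact h1
    have hpr : (M₀.relIndex Q₀).Prime := by rw [hidx]; exact h M hM
    have hq : M₀.relIndex Q₀ = q := by
      obtain ⟨n, hn⟩ := IsPGroup.iff_card.mp (hQp.to_le hQ₀Q)
      have h1 : M₀.relIndex Q₀ ∣ q ^ n := by rw [← hn]; exact Subgroup.relIndex_dvd_card _ _
      exact (Nat.prime_dvd_prime_iff_eq hpr Fact.out).mp (hpr.dvd_of_dvd_pow h1)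
    have hle : Q₀ ≤ M₀ := by
      rw [← hcc, Subgroup.commutator_le]
      intro u hu k hk
      have h1 := resid_section M₀ Q₀ hM₀n hQ₀n hq k (hKR hk) u hu
      have h2 : ⁅u, k⁆ = (k * u * k⁻¹ * u⁻¹)⁻¹ := by rw [commutatorElement_def]; group
      rw [h2]
      exact M₀.inv_mem h1
    exact absurd hle (not_le_of_gt hM₀lt)

theorem th_of_prime_index {G : Type*} [Group G] [Finite G]
    (h : ∀ M : Subgroup G, IsCoatom M → M.index.Prime) {q : ℕ} [Fact q.Prime]
    (Q : Sylow q G) (hQn : (Q : Subgroup G).Normal) :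
    TH q (Q : Subgroup G) (resid q G) where
  hQn := hQn
  hQp := Q.2
  hRn := inferInstance
  hcomm := comm_mem_resid q
  hpow := pow_mem_resid q
  hact := by
    intro y hy
    obtain ⟨H, hH⟩ := Subgroup.exists_right_complement'_of_coprime Q.card_coprime_index
    have hcard : Nat.card H = (Q : Subgroup G).index := hH.symm.index_eq_card.symm
    have hcop : (Nat.card H).Coprime (Nat.card (Q : Subgroup G)) := by
      rw [hcard]; exact Q.card_coprime_index.symm
    have hcen := centralizes h (Q : Subgroup G) H hQn Q.2 hH.sup_eq_top hcop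
    have h1 : (Subgroup.centralizer ((Q : Subgroup G) : Set G)).relIndex (resid q G) ∣
        H.relIndex (resid q G) := by
      rw [← Subgroup.inf_relIndex_right H, inf_comm]
      exact Subgroup.relIndex_dvd_of_le_left _ hcen
    have h2 : H.relIndex (resid q G) ∣ H.index :=
      Dvd.intro _ (Cfsg.Agent.Lib.Helper74.relIndex_mul_index_sup_of_normal H (resid q G))
    rw [hH.index_eq_card] at h2
    obtain ⟨n, hn⟩ := IsPGroup.iff_card.mp Q.2
    rw [hn] at h2
    obtain ⟨k, -, hk⟩ := (Nat.dvd_prime_pow Fact.out).mp (h1.trans h2)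
    refine ⟨k, ?_⟩
    have h3 := Subgroup.pow_index_mem
      ((Subgroup.centralizer ((Q : Subgroup G) : Set G)).subgroupOf (resid q G)) ⟨y, hy⟩
    rw [Subgroup.mem_subgroupOf] at h3
    have h4 : ((Subgroup.centralizer ((Q : Subgroup G) : Set G)).subgroupOf (resid q G)).index
        = q ^ k := hk
    rw [h4] at h3
    exact h3

theorem aux (n : ℕ) : ∀ (G : Type u) [Group G] [Finite G], Nat.card G = n →
    (∀ M : Subgroup G, IsCoatom M → M.index.Prime) → Cfsg.IsSupersolvable G := by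
  induction n using Nat.strong_induction_on with
  | _ n ih =>
    intro G _ _ hn h
    by_cases h1 : Nat.card G = 1
    · have : Subsingleton G := (Nat.card_eq_one_iff_unique.mp h1).1
      exact Cfsg.Agent.Lib.Helper42.ss_of_subsingleton
    · have hne : (Nat.card G).primeFactors.Nonempty := by
        rw [Nat.nonempty_primeFactors]
        have : 0 < Nat.card G := Nat.card_pos
        omega
      obtain ⟨p, hp, hpmax⟩ := Finset.exists_max_image (Nat.card G).primeFactors id hne
      have hpp : p.Prime := Nat.prime_of_mem_primeFactors hp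
      have hpd : p ∣ Nat.card G := Nat.dvd_of_mem_primeFactors hp
      have : Fact p.Prime := ⟨hpp⟩
      obtain ⟨P⟩ : Nonempty (Sylow p G) := inferInstance
      have hPn : (P : Subgroup G).Normal :=
        Cfsg.Agent.Lib.Helper13.sylow_normal_of_prime_index (p := p) h
          (fun q hq hqd => hpmax q (Nat.mem_primeFactors.mpr ⟨hq, hqd, Nat.card_pos.ne'⟩)) P
      have hPne : (P : Subgroup G) ≠ ⊥ := P.ne_bot_of_dvd_card hpd
      have hlt : Nat.card (G ⧸ (P : Subgroup G)) < n := by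
        rw [← hn, ← Subgroup.index_eq_card, ← Subgroup.card_mul_index (P : Subgroup G)]
        have h5 : 1 < Nat.card (P : Subgroup G) := by
          rw [Subgroup.one_lt_card_iff_ne_bot]
          exact hPne
        have h6 : 0 < (P : Subgroup G).index := Nat.pos_of_ne_zero Subgroup.index_ne_zero_of_finite
        nlinarith
      have hquot : Cfsg.IsSupersolvable (G ⧸ (P : Subgroup G)) := by
        apply ih _ hlt (G ⧸ (P : Subgroup G)) rfl
        intro M hM
        have hc := Subgroup.isCoatom_comap_of_surjective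
          (QuotientGroup.mk'_surjective (P : Subgroup G)) hM
        have := h _ hc
        rwa [Subgroup.index_comap_of_surjective _ (QuotientGroup.mk'_surjective _)] at this
      exact (th_of_prime_index h P hPn).isSupersolvable hquot

/-- Huppert's supersolvability criterion: if every maximal subgroup of a finite group has prime index, then the group is supersolvable. -/
theorem result {G : Type*} [Group G] [Finite G] (h : ∀ M : Subgroup G, IsCoatom M → M.index.Prime) : Cfsg.IsSupersolvable G := by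
  exact aux _ G rfl h

end Cfsg.Agent.S0579
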