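import Cfsg.Statements.S0582
-- import your own Cfsg.Agent.* helpers here
import Mathlib
import Cfsg.Agent.Lib.Helper13.MaxPrime
import Cfsg.Agent.Lib.Helper30.SZ
import Cfsg.Agent.Lib.Helper1.Coprime

set_option autoImplicit false
open Pointwise
open Cfsg

namespace Cfsg.Agent.S0582

open Subgroup Cfsg.Agent.Lib.Helper30 Cfsg.Agent.Lib.Helper42 Cfsg.Agent.Lib.Helper13

theorem ss_cj {G : Type*} [Group G] (g : G) {H : Subgroup G} (hH : Cfsg.IsSupersolvable H) :
    Cfsg.IsSupersolvable (cj g H) :=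
  ss_of_equiv (H.equivMapOfInjective _ (MulAut.conj g).injective) hH

theorem ss_le {G : Type*} [Group G] {H₁ H : Subgroup G} (h : H₁ ≤ H)
    (hH : Cfsg.IsSupersolvable H) : Cfsg.IsSupersolvable H₁ :=
  ss_of_equiv (subgroupOfEquivOfLe h) (ss_subgroup hH (H₁.subgroupOf H))

theorem card_mul_relIndex' {G : Type*} [Group G] {H K : Subgroup G} (h : H ≤ K) :
    Nat.card H * H.relIndex K = Nat.card K := by
  rw [← relIndex_bot_left, ← relIndex_bot_left, relIndex_mul_relIndex _ _ _ bot_le h]

theorem rel {G : Type*} [Group G] [Finite G] (n : ℕ) : ∀ (L H K : Subgroup G), H ≤ L → K ≤ L →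
    Cfsg.IsSupersolvable H → Cfsg.IsSupersolvable K → Nat.card H = n → Nat.card K = n →
    n.Coprime (H.relIndex L) → ∃ x ∈ L, cj x H = K := by
  induction n using Nat.strong_induction_on with
  | _ n ih =>
    intro L H K hHL hKL hH hK hcH hcK hcop
    by_cases h1 : n = 1
    · refine ⟨1, L.one_mem, ?_⟩
      rw [h1] at hcH hcK
      rw [card_eq_one.mp hcH, card_eq_one.mp hcK, cj_one]
    · have hnpos : 0 < n := hcH ▸ Nat.card_pos
      have hne : n.primeFactors.Nonempty := by
        rw [Nat.nonempty_primeFactors]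
        omega
      obtain ⟨p, hp, hpmax⟩ := Finset.exists_max_image n.primeFactors id hne
      have hpp : p.Prime := Nat.prime_of_mem_primeFactors hp
      have hpd : p ∣ n := Nat.dvd_of_mem_primeFactors hp
      have : Fact p.Prime := ⟨hpp⟩
      have hmax : ∀ q : ℕ, q.Prime → q ∣ n → q ≤ p := fun q hq hqd =>
        hpmax q (Nat.mem_primeFactors.mpr ⟨hq, hqd, hnpos.ne'⟩)
      obtain ⟨P₁, hP₁H, hP₁p, hP₁i, hP₁n, hP₁ne⟩ :=
        ss_exists_normal_sylow H hH (hcH ▸ hpd) (hcH ▸ hmax)
      obtain ⟨P₂, hP₂K, hP₂p, hP₂i, hP₂n, hP₂ne⟩ :=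
        ss_exists_normal_sylow K hK (hcK ▸ hpd) (hcK ▸ hmax)
      have hrelK : K.relIndex L = H.relIndex L := by
        have e1 := card_mul_relIndex' hHL
        have e2 := card_mul_relIndex' hKL
        rw [hcH] at e1
        rw [hcK, ← e1] at e2
        exact Nat.eq_of_mul_eq_mul_left hnpos e2
      have hpL : ¬ p ∣ H.relIndex L := by
        intro hd
        have := Nat.dvd_gcd hpd hd
        rw [hcop] at this
        exact hpp.one_lt.ne' (Nat.dvd_one.mp this)
      have hP₁L : ¬ p ∣ P₁.relIndex L := by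
        rw [← relIndex_mul_relIndex _ _ _ hP₁H hHL]
        exact hpp.not_dvd_mul hP₁i hpL
      have hP₂L : ¬ p ∣ P₂.relIndex L := by
        rw [← relIndex_mul_relIndex _ _ _ hP₂K hKL, hrelK]
        exact hpp.not_dvd_mul hP₂i hpL
      obtain ⟨l, hl, hP₂eq⟩ := sylow_conj_rel p (hP₁H.trans hHL) (hP₂K.trans hKL) hP₁p hP₂p hP₁L hP₂L
      -- replace H by its conjugate
      have hH'L : cj l H ≤ L := by
        have := cj_mono l hHL
        rwa [cj_eq_of_mem hl] at this
      have hH'ss := ss_cj l hH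
      have hH'c : Nat.card (cj l H) = n := by rw [card_cj, hcH]
      have hP₂H' : P₂ ≤ cj l H := hP₂eq ▸ cj_mono l hP₁H
      have hH'n : cj l H ≤ normalizer (P₂ : Set G) := by
        rw [le_normalizer_iff]
        intro h hh x hx
        rw [hP₂eq] at hx ⊢
        rw [mem_cj] at hh hx ⊢
        have := (le_normalizer_iff.mp hP₁n) _ hh _ hx
        have e : l⁻¹ * (h * x * h⁻¹) * l = l⁻¹ * h * l * (l⁻¹ * x * l) * (l⁻¹ * h * l)⁻¹ := by group
        rw [e]
        exact this
      have hrelH' : (cj l H).relIndex L = H.relIndex L := by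
        have := relIndex_cj l H L
        rwa [cj_eq_of_mem hl] at this
      -- orders
      obtain ⟨k, hk⟩ := IsPGroup.iff_card.mp hP₂p
      have hP₂card : 1 < Nat.card P₂ := by
        rw [one_lt_card_iff_ne_bot]
        exact hP₂ne
      set m := P₂.relIndex K with hm
      have hnm : n = m * Nat.card P₂ := by
        rw [← hcK, ← card_mul_relIndex' hP₂K, mul_comm]
      have hmcop : m.Coprime (Nat.card P₂) := by
        rw [hk]
        apply Nat.Coprime.pow_right
        exact ((Nat.Prime.coprime_iff_not_dvd hpp).mpr hP₂i).symm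
      have hmpos : 0 < m := by
        rcases Nat.eq_zero_or_pos m with h0 | h0
        · rw [h0, zero_mul] at hnm
          omega
        · exact h0
      have hmlt : m < n := by
        rw [hnm]
        nlinarith
      obtain ⟨H₁, hH₁, hH₁c⟩ := Cfsg.Agent.Lib.Helper1.exists_complement_rel' P₂ (cj l H) hP₂H' hH'n m
        (by rw [hH'c, hnm]) hmcop
      obtain ⟨K₁, hK₁, hK₁c⟩ := Cfsg.Agent.Lib.Helper1.exists_complement_rel' P₂ K hP₂K hP₂n m
        (by rw [hcK, hnm]) hmcop
      have hsup : ∀ (X X₁ : Subgroup G), P₂ ≤ X → X₁ ≤ X → Nat.card X = n → Nat.card X₁ = m →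
          P₂ ⊔ X₁ = X := by
        intro X X₁ h1 h2 h3 h4
        apply eq_of_le_of_card_ge (sup_le h1 h2)
        rw [h3, hnm]
        apply Nat.le_of_dvd Nat.card_pos
        apply Nat.Coprime.mul_dvd_of_dvd_of_dvd hmcop
        · rw [← h4]
          exact card_dvd_of_le le_sup_right
        · exact card_dvd_of_le le_sup_left
      have hH₁L' : H₁ ≤ L ⊓ normalizer (P₂ : Set G) := le_inf (hH₁.trans hH'L) (hH₁.trans hH'n)
      have hK₁L' : K₁ ≤ L ⊓ normalizer (P₂ : Set G) := le_inf (hK₁.trans hKL) (hK₁.trans hP₂n)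
      have hcop' : m.Coprime (H₁.relIndex (L ⊓ normalizer (P₂ : Set G))) := by
        rw [← relIndex_mul_relIndex _ _ _ hH₁ (le_inf hH'L hH'n)]
        apply Nat.Coprime.mul_right
        · have e := card_mul_relIndex' hH₁
          rw [hH₁c, hH'c, hnm] at e
          rw [Nat.eq_of_mul_eq_mul_left hmpos e]
          exact hmcop
        · have hd : (cj l H).relIndex (L ⊓ normalizer (P₂ : Set G)) ∣ H.relIndex L := by
            rw [← hrelH', ← relIndex_mul_relIndex _ _ _ (le_inf hH'L hH'n) inf_le_left]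
            exact Dvd.intro _ rfl
          have hmn : m ∣ n := Dvd.intro _ hnm.symm
          exact Nat.Coprime.of_dvd hmn hd hcop
      obtain ⟨x, hx, hxeq⟩ := ih m hmlt _ H₁ K₁ hH₁L' hK₁L' (ss_le hH₁ hH'ss) (ss_le hK₁ hK)
        hH₁c hK₁c hcop'
      refine ⟨x * l, L.mul_mem hx.1 hl, ?_⟩
      rw [cj_mul, ← hsup (cj l H) H₁ hP₂H' hH₁ hH'c hH₁c, cj_sup, hxeq,
        cj_eq_of_mem_normalizer hx.2]
      exact hsup K K₁ hP₂K hK₁ hcK hK₁c

/-- Let H and K be supersolvable subgroups of a finite group G of the same order, that order being coprime to their index. Then H and K are conjugate in G. -/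
theorem result {G : Type*} [Group G] [Finite G] (H K : Subgroup G) (hH : Cfsg.IsSupersolvable H) (hK : Cfsg.IsSupersolvable K) (hcard : Nat.card H = Nat.card K) (hHall : (Nat.card H).Coprime H.index) : ∃ x : G, MulAut.conj x • H = K := by
  obtain ⟨x, -, hx⟩ := rel (Nat.card H) ⊤ H K le_top le_top hH hK rfl hcard.symm
    (by rw [Subgroup.relIndex_top_right]; exact hHall)
  exact ⟨x, hx⟩

end Cfsg.Agent.S0582
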