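import Cfsg.Statements.S0583
-- import your own Cfsg.Agent.* helpers here

set_option autoImplicit false
open Cfsg

namespace Cfsg.Agent.S0583

/-- In a finite group the Fitting subgroup is contained in the centralizer of each minimal normal subgroup. -/
theorem result {G : Type*} [Group G] [Finite G] (M : Subgroup G) [M.Normal] (hM : M ≠ ⊥) (hmin : ∀ K : Subgroup G, K.Normal → K ≤ M → K = ⊥ ∨ K = M) : Cfsg.fittingSubgroup G ≤ Subgroup.centralizer (M : Set G) := by
  apply sSup_le
  rintro N ⟨hNn, hNnil⟩
  rw [← Subgroup.commutator_eq_bot_iff_le_centralizer, Subgroup.commutator_comm]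
  have hnorm : (⁅M, N⁆).Normal := Subgroup.commutator_normal M N
  have hle : ⁅M, N⁆ ≤ M ⊓ N := Subgroup.commutator_le_inf M N
  rcases hmin _ hnorm (hle.trans inf_le_left) with h | h
  · exact h
  · exfalso
    have hMN : M ≤ N := by
      rw [← h]
      exact hle.trans inf_le_right
    have key : ∀ i : ℕ, M ≤ N.lowerCentralSeries i := by
      intro i
      induction i with
      | zero => exact hMN
      | succ i ih =>
        rw [Subgroup.lowerCentralSeries_succ]
        calc M = ⁅M, N⁆ := h.symm
          _ ≤ _ := Subgroup.commutator_mono ih le_rfl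
    obtain ⟨n, hn⟩ := (Subgroup.isNilpotent_iff_lowerCentralSeries N).mp hNnil
    have := key n
    rw [hn, le_bot_iff] at this
    exact hM this

end Cfsg.Agent.S0583
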