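import Cfsg.Statements.S0584
-- import your own Cfsg.Agent.* helpers here

set_option autoImplicit false
open Cfsg

namespace Cfsg.Agent.S0584

open scoped Pointwise in
theorem aux {G : Type*} [Group G] [Finite G] (A B : Subgroup G) [A.Normal] [B.Normal] (hBA : B ≤ A) (hB : B ≤ frattini G) (h : Group.IsNilpotent (↥A ⧸ B.subgroupOf A)) : Group.IsNilpotent A := by
  classical
  have q := (Group.isNilpotent_of_finite_tfae (G := A)).out 0 3
  rw [q]; clear q
  intro p hp P
  have hπ : Function.Surjective (QuotientGroup.mk' (B.subgroupOf A)) :=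
    QuotientGroup.mk'_surjective _
  have hsub : Subsingleton (Sylow p (↥A ⧸ B.subgroupOf A)) := by
    have hn : ((P.mapSurjective hπ : Sylow p (↥A ⧸ B.subgroupOf A)) :
        Subgroup (↥A ⧸ B.subgroupOf A)).Normal := inferInstance
    exact (Sylow.unique_of_normal _ hn).instSubsingleton
  have hconj : ∀ g : G, ((MulAut.conjNormal g : MulAut A) • (P : Subgroup A)) ≤
      (P : Subgroup A) ⊔ B.subgroupOf A := by
    intro g
    have h1 : ((MulAut.conjNormal g : MulAut A) • P).mapSurjective hπ = P.mapSurjective hπ :=
      Subsingleton.elim _ _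
    have h2 : (((MulAut.conjNormal g : MulAut A) • P : Sylow p A) : Subgroup A).map
        (QuotientGroup.mk' (B.subgroupOf A)) =
        (P : Subgroup A).map (QuotientGroup.mk' (B.subgroupOf A)) := by
      have := congrArg (fun Q : Sylow p (↥A ⧸ B.subgroupOf A) =>
        (Q : Subgroup (↥A ⧸ B.subgroupOf A))) h1
      simpa using this
    have h3 : ((MulAut.conjNormal g : MulAut A) • (P : Subgroup A)) ≤
        ((P : Subgroup A).map (QuotientGroup.mk' (B.subgroupOf A))).comap
          (QuotientGroup.mk' (B.subgroupOf A)) := by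
      rw [← Subgroup.map_le_iff_le_comap]
      exact h2.le
    rw [QuotientGroup.comap_map_mk'] at h3
    rw [sup_comm]
    exact h3
  have hCn : ((P : Subgroup A).map A.subtype ⊔ B).Normal := by
    constructor
    intro x hx g
    have : ((P : Subgroup A).map A.subtype ⊔ B).map (MulAut.conj g).toMonoidHom ≤
        (P : Subgroup A).map A.subtype ⊔ B := by
      rw [Subgroup.map_sup]
      apply sup_le
      · rintro _ ⟨_, ⟨y, hy, rfl⟩, rfl⟩
        have h4 : (MulAut.conjNormal g : MulAut A) y ∈ (P : Subgroup A) ⊔ B.subgroupOf A :=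
          hconj g ⟨y, hy, rfl⟩
        have h5 : ((P : Subgroup A) ⊔ B.subgroupOf A).map A.subtype ≤
            (P : Subgroup A).map A.subtype ⊔ B := by
          rw [Subgroup.map_sup]
          exact sup_le_sup le_rfl (by simp [Subgroup.subgroupOf_map_subtype])
        exact h5 ⟨_, h4, by simp⟩
      · rintro _ ⟨b, hb, rfl⟩
        exact (le_sup_right : B ≤ (P : Subgroup A).map A.subtype ⊔ B)
          ((inferInstance : B.Normal).conj_mem b hb g)
    exact this ⟨x, hx, rfl⟩
  have hCA : (P : Subgroup A).map A.subtype ⊔ B ≤ A := sup_le (Subgroup.map_subtype_le _) hBA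
  have hQp : IsPGroup p (((P : Subgroup A).map A.subtype).subgroupOf
      ((P : Subgroup A).map A.subtype ⊔ B)) :=
    (P.2.map A.subtype).comap_of_injective _ (Subgroup.subtype_injective _)
  have hQi : ¬ p ∣ (((P : Subgroup A).map A.subtype).subgroupOf
      ((P : Subgroup A).map A.subtype ⊔ B)).index := by
    intro hdvd
    apply P.not_dvd_index
    have h6 : ((P : Subgroup A).map A.subtype).relIndex A = (P : Subgroup A).index := by
      rw [Subgroup.relIndex, Subgroup.subgroupOf,
        Subgroup.comap_map_eq_self_of_injective (Subgroup.subtype_injective _)]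
    rw [← h6, ← Subgroup.relIndex_mul_relIndex _ _ _ le_sup_left hCA]
    exact Dvd.dvd.mul_right hdvd _
  have hfr := Sylow.normalizer_sup_eq_top (hQp.toSylow hQi)
  rw [IsPGroup.toSylow_coe, Subgroup.subgroupOf_map_subtype, inf_of_le_left le_sup_left] at hfr
  have hfr2 : Subgroup.normalizer (((P : Subgroup A).map A.subtype : Subgroup G) : Set G) ⊔
      frattini G = ⊤ := by
    rw [eq_top_iff, ← hfr]
    apply sup_le le_sup_left
    apply sup_le
    · exact Subgroup.le_normalizer.trans le_sup_left
    · exact hB.trans le_sup_right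
  have hnorm := frattini_nongenerating hfr2
  have hPn : ((P : Subgroup A).map A.subtype).Normal := Subgroup.normalizer_eq_top_iff.mp hnorm
  exact hPn.of_map_subtype

/-- Let B ≤ A be normal subgroups of a finite group G with B contained in the Frattini subgroup of G. If A modulo B is nilpotent then A is nilpotent. -/
theorem result {G : Type*} [Group G] [Finite G] (A B : Subgroup G) [A.Normal] [B.Normal] (hBA : B ≤ A) (hB : B ≤ frattini G) (h : Group.IsNilpotent (↥A ⧸ B.subgroupOf A)) : Group.IsNilpotent A := by
  exact aux A B hBA hB h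

end Cfsg.Agent.S0584
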