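import Cfsg.Statements.S0585
-- import your own Cfsg.Agent.* helpers here
import Cfsg.Agent.Lib.Helper13.Frattini

set_option autoImplicit false
open Cfsg

namespace Cfsg.Agent.S0585

/-- If the Frattini subgroup of a finite group G is trivial, then every abelian normal subgroup of G has a complement in G. -/
theorem result {G : Type*} [Group G] [Finite G] (hΦ : frattini G = ⊥) (A : Subgroup G) [A.Normal] [IsMulCommutative A] : ∃ H : Subgroup G, Subgroup.IsComplement' A H := by
  classical
  -- a minimal supplement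
  have hfin : (Set.univ : Set (Subgroup G)).Finite := Set.toFinite _
  obtain ⟨H, hHsup, hHmin⟩ : ∃ H : Subgroup G, A ⊔ H = ⊤ ∧
      ∀ K : Subgroup G, A ⊔ K = ⊤ → K ≤ H → K = H := by
    have hne : ({K : Subgroup G | A ⊔ K = ⊤} : Set (Subgroup G)).Nonempty := ⟨⊤, by simp⟩
    obtain ⟨H, hH⟩ := (Set.toFinite {K : Subgroup G | A ⊔ K = ⊤}).exists_minimal hne
    refine ⟨H, hH.1, fun K hK hKH => le_antisymm hKH (hH.2 hK hKH)⟩
  have hcomm : ∀ a ∈ A, ∀ b ∈ A, a * b = b * a := by
    intro a ha b hb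
    exact setLike_mul_comm ha hb
  have hnorm : (A ⊓ H).Normal := by
    constructor
    intro x hx g
    have hg : g ∈ A ⊔ H := by rw [hHsup]; trivial
    rw [Subgroup.mem_sup_of_normal_left] at hg
    obtain ⟨a, ha, h, hh, rfl⟩ := hg
    have h1 : h * x * h⁻¹ ∈ A ⊓ H :=
      ⟨(inferInstance : A.Normal).conj_mem x hx.1 h, H.mul_mem (H.mul_mem hh hx.2) (H.inv_mem hh)⟩
    have h2 : a * h * x * (a * h)⁻¹ = h * x * h⁻¹ := by
      have := hcomm a ha _ h1.1
      calc a * h * x * (a * h)⁻¹ = (a * (h * x * h⁻¹)) * a⁻¹ := by group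
        _ = ((h * x * h⁻¹) * a) * a⁻¹ := by rw [this]
        _ = h * x * h⁻¹ := by group
    rw [h2]
    exact h1
  have hfr : (A ⊓ H).subgroupOf H ≤ frattini ↥H := by
    rw [frattini, Order.radical, le_iInf₂_iff]
    intro M hM
    by_contra hcon
    have hsup : (A ⊓ H).subgroupOf H ⊔ M = ⊤ := by
      apply hM.2
      exact lt_of_le_of_ne le_sup_right (fun h => hcon (h ▸ le_sup_left))
    have hAM : A ⊔ M.map H.subtype = ⊤ := by
      rw [eq_top_iff, ← hHsup]
      apply sup_le le_sup_left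
      intro h hh
      have hmem : (⟨h, hh⟩ : H) ∈ (A ⊓ H).subgroupOf H ⊔ M := by rw [hsup]; trivial
      have hle : (A ⊓ H).subgroupOf H ⊔ M ≤ (A ⊔ M.map H.subtype).subgroupOf H := by
        apply sup_le
        · intro y hy
          rw [Subgroup.mem_subgroupOf] at hy ⊢
          exact (le_sup_left : A ≤ A ⊔ M.map H.subtype) hy.1
        · intro y hy
          rw [Subgroup.mem_subgroupOf]
          exact (le_sup_right : M.map H.subtype ≤ A ⊔ M.map H.subtype) ⟨y, hy, rfl⟩
      exact hle hmem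
    have := hHmin _ hAM (Subgroup.map_subtype_le _)
    apply hM.1
    rw [eq_top_iff]
    intro y _
    have hy : (y : G) ∈ M.map H.subtype := by rw [this]; exact y.2
    obtain ⟨z, hz, hzy⟩ := hy
    have : z = y := Subtype.ext hzy
    exact this ▸ hz
  have hbot : A ⊓ H = ⊥ := by
    rw [eq_bot_iff, ← hΦ]
    exact Cfsg.Agent.Lib.Helper13.le_frattini_of_le_frattini_subgroup _ H hfr inf_le_right
  refine ⟨H, Subgroup.isComplement'_of_disjoint_and_mul_eq_univ (disjoint_iff.mpr hbot) ?_⟩
  rw [← Subgroup.normal_mul, hHsup]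
  rfl

end Cfsg.Agent.S0585
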