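import Cfsg.Statements.S0586
-- import your own Cfsg.Agent.* helpers here
import Cfsg.Agent.Lib.Helper13.Basic
import Cfsg.Agent.S0575
import Cfsg.Agent.S0585

set_option autoImplicit false
open Cfsg

namespace Cfsg.Agent.S0586

open scoped commutatorElement in
theorem comm_of_nilpotent_normal {G : Type*} [Group G] [Finite G] (hΦ : frattini G = ⊥)
    (K : Subgroup G) [K.Normal] (hK : Group.IsNilpotent K) : IsMulCommutative K := by
  have hfrK : frattini ↥K = ⊥ := by
    have := Cfsg.Agent.S0575.result K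
    rw [hΦ, le_bot_iff] at this
    exact (Subgroup.map_eq_bot_iff_of_injective _ K.subtype_injective).mp this
  apply IsMulCommutative.of_comm
  intro a b
  rw [← commutatorElement_eq_one_iff_mul_comm]
  have := Cfsg.Agent.Lib.Helper13.commutator_mem_frattini_of_nilpotent hK a b
  rw [hfrK] at this
  exact this

theorem le_socle_of_comm_normal {G : Type*} [Group G] [Finite G] (hΦ : frattini G = ⊥)
    (K : Subgroup G) [K.Normal] [IsMulCommutative K] :
    K ≤ sSup {N : Subgroup G | N.Normal ∧ N ≠ ⊥ ∧ IsMulCommutative N ∧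
      ∀ K : Subgroup G, K.Normal → K ≤ N → K = ⊥ ∨ K = N} := by
  classical
  set T : Set (Subgroup G) := {N : Subgroup G | N.Normal ∧ N ≠ ⊥ ∧ IsMulCommutative N ∧
      ∀ K : Subgroup G, K.Normal → K ≤ N → K = ⊥ ∨ K = N} with hT
  set NK : Subgroup G := sSup {N : Subgroup G | N ∈ T ∧ N ≤ K} with hNK
  have hNKle : NK ≤ K := sSup_le fun N hN => hN.2
  have hNKT : NK ≤ sSup T := sSup_le_sSup fun N hN => hN.1
  have hNKn : NK.Normal := Subgroup.sSup_normal _ fun N hN => hN.1.1
  have hNKc : IsMulCommutative NK :=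
    IsMulCommutative.of_setLike_mul_comm fun a ha b hb => setLike_mul_comm (hNKle ha) (hNKle hb)
  obtain ⟨H, hH⟩ := Cfsg.Agent.S0585.result hΦ NK
  have hsup : NK ⊔ H = ⊤ := hH.sup_eq_top
  have hdisj : NK ⊓ H = ⊥ := disjoint_iff.mp hH.disjoint
  have hLn : (K ⊓ H).Normal := by
    constructor
    intro x hx g
    have hg : g ∈ NK ⊔ H := by rw [hsup]; trivial
    rw [Subgroup.mem_sup_of_normal_left] at hg
    obtain ⟨a, ha, h, hh, rfl⟩ := hg
    have h1 : h * x * h⁻¹ ∈ K ⊓ H :=
      ⟨(inferInstance : K.Normal).conj_mem x hx.1 h, H.mul_mem (H.mul_mem hh hx.2) (H.inv_mem hh)⟩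
    have h2 : a * h * x * (a * h)⁻¹ = h * x * h⁻¹ := by
      have : a * (h * x * h⁻¹) = (h * x * h⁻¹) * a := setLike_mul_comm (hNKle ha) h1.1
      calc a * h * x * (a * h)⁻¹ = (a * (h * x * h⁻¹)) * a⁻¹ := by group
        _ = ((h * x * h⁻¹) * a) * a⁻¹ := by rw [this]
        _ = h * x * h⁻¹ := by group
    rw [h2]
    exact h1
  have hLbot : K ⊓ H = ⊥ := by
    by_contra hne
    obtain ⟨M, hMn, hMne, hMle, hMmin⟩ :=
      Cfsg.Agent.Lib.Helper13.exists_minimal_normal_le (K ⊓ H) hne
    have hMK : M ≤ K := hMle.trans inf_le_left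
    have hMc : IsMulCommutative M :=
      IsMulCommutative.of_setLike_mul_comm fun a ha b hb => setLike_mul_comm (hMK ha) (hMK hb)
    have hMT : M ∈ T := ⟨hMn, hMne, hMc, hMmin⟩
    have hMNK : M ≤ NK := le_sSup ⟨hMT, hMK⟩
    have : M ≤ NK ⊓ H := le_inf hMNK (hMle.trans inf_le_right)
    rw [hdisj, le_bot_iff] at this
    exact hMne this
  refine le_trans ?_ hNKT
  intro k hk
  have hg : k ∈ NK ⊔ H := by rw [hsup]; trivial
  rw [Subgroup.mem_sup_of_normal_left] at hg
  obtain ⟨a, ha, h, hh, rfl⟩ := hg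
  have hhK : h ∈ K := by
    have : h = a⁻¹ * (a * h) := by group
    rw [this]
    exact K.mul_mem (K.inv_mem (hNKle ha)) hk
  have : h ∈ K ⊓ H := ⟨hhK, hh⟩
  rw [hLbot, Subgroup.mem_bot] at this
  rw [this, mul_one]
  exact ha

/-- If the Frattini subgroup of a finite group G is trivial, then the Fitting subgroup of G equals the join of all abelian minimal normal subgroups of G. -/
theorem result {G : Type*} [Group G] [Finite G] (hΦ : frattini G = ⊥) : Cfsg.fittingSubgroup G = sSup {N : Subgroup G | N.Normal ∧ N ≠ ⊥ ∧ IsMulCommutative N ∧ ∀ K : Subgroup G, K.Normal → K ≤ N → K = ⊥ ∨ K = N} := by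
  apply le_antisymm
  · apply sSup_le
    rintro K ⟨hKn, hKnil⟩
    have := comm_of_nilpotent_normal hΦ K hKnil
    exact le_socle_of_comm_normal hΦ K
  · apply sSup_le
    rintro N ⟨hNn, -, hNc, -⟩
    apply le_sSup
    refine ⟨hNn, ?_⟩
    let _ : CommGroup N := { (inferInstance : Group N) with mul_comm := fun a b => mul_comm' a b }
    infer_instance

end Cfsg.Agent.S0586
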