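import Cfsg.Statements.S0587
-- import your own Cfsg.Agent.* helpers here
import Mathlib

set_option autoImplicit false
open Cfsg

namespace Cfsg.Agent.S0587

open Subgroup

section
variable {G : Type*} [Group G] [Finite G] {p : ℕ} [Fact p.Prime] {L M : Subgroup G}

omit [Finite G] in
theorem eq_bot_of_normal_le (hcore : M.normalCore = ⊥) {X : Subgroup G} (hX : X.Normal)
    (hXM : X ≤ M) : X = ⊥ := by
  rw [eq_bot_iff, ← hcore]
  exact normal_le_normalCore.mpr hXM

omit [Finite G] in
theorem sup_eq_top_of_normal (hM : IsCoatom M) (hcore : M.normalCore = ⊥) {K : Subgroup G}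
    (hK : K.Normal) (hKne : K ≠ ⊥) : K ⊔ M = ⊤ := by
  apply hM.2
  refine lt_of_le_of_ne le_sup_right (fun h => hKne ?_)
  apply eq_bot_of_normal_le hcore hK
  rw [h]
  exact le_sup_left

omit [Finite G] in
theorem normal_of_le_normalizer (hLM : L ⊔ M = ⊤) {X : Subgroup G}
    (h1 : L ≤ normalizer (X : Set G)) (h2 : M ≤ normalizer (X : Set G)) : X.Normal := by
  rw [← normalizer_eq_top_iff, eq_top_iff, ← hLM]
  exact sup_le h1 h2

theorem inf_eq_bot (hLn : L.Normal) (hLp : IsPGroup p L) (hLne : L ≠ ⊥) (hM : IsCoatom M)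
    (hcore : M.normalCore = ⊥) : L ⊓ M = ⊥ := by
  have hLM := sup_eq_top_of_normal hM hcore hLn hLne
  have hnle : ¬ L ≤ M := fun h => hLne (eq_bot_of_normal_le hcore hLn h)
  have hnil : Group.IsNilpotent L := hLp.isNilpotent
  have hlt : (L ⊓ M).subgroupOf L < ⊤ := by
    rw [lt_top_iff_ne_top, Ne, subgroupOf_eq_top]
    exact fun hle => hnle (hle.trans inf_le_right)
  have hnc := Group.normalizerCondition_of_isNilpotent (G := L) _ hlt
  obtain ⟨y, hyN, hyA⟩ := SetLike.exists_of_lt hnc
  rw [← subgroupOf_normalizer_eq inf_le_left, mem_subgroupOf] at hyN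
  rw [mem_subgroupOf] at hyA
  have hyM : (y : G) ∉ M := fun h => hyA ⟨y.2, h⟩
  have hMN : M ≤ normalizer ((L ⊓ M : Subgroup G) : Set G) := by
    rw [le_normalizer_iff]
    intro m hm x hx
    exact ⟨hLn.conj_mem x hx.1 m, M.mul_mem (M.mul_mem hm hx.2) (M.inv_mem hm)⟩
  have htop : normalizer ((L ⊓ M : Subgroup G) : Set G) = ⊤ := by
    apply hM.2
    exact lt_of_le_of_ne hMN (fun h => hyM (h ▸ hyN))
  exact eq_bot_of_normal_le hcore (normalizer_eq_top_iff.mp htop) inf_le_right

theorem minimal (hLn : L.Normal) (hLp : IsPGroup p L) (hLne : L ≠ ⊥) (hM : IsCoatom M)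
    (hcore : M.normalCore = ⊥) (K : Subgroup G) (hK : K.Normal) (hKL : K ≤ L) :
    K = ⊥ ∨ K = L := by
  by_cases hKne : K = ⊥
  · exact Or.inl hKne
  · right
    apply le_antisymm hKL
    have hKM := sup_eq_top_of_normal hM hcore hK hKne
    have hinf := inf_eq_bot hLn hLp hLne hM hcore
    intro l hl
    have hg : l ∈ K ⊔ M := by rw [hKM]; trivial
    rw [mem_sup_of_normal_left] at hg
    obtain ⟨k, hk, m, hm, rfl⟩ := hg
    have hmL : m ∈ L := by
      have : m = k⁻¹ * (k * m) := by group
      rw [this]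
      exact L.mul_mem (L.inv_mem (hKL hk)) hl
    have : m ∈ L ⊓ M := ⟨hmL, hm⟩
    rw [hinf, mem_bot] at this
    rw [this, mul_one]
    exact hk

theorem comm (hLn : L.Normal) (hLp : IsPGroup p L) (hLne : L ≠ ⊥) (hM : IsCoatom M)
    (hcore : M.normalCore = ⊥) : IsMulCommutative L := by
  have hnorm : (⁅L, L⁆).Normal := commutator_normal L L
  have hle : ⁅L, L⁆ ≤ L := (commutator_le_inf L L).trans inf_le_left
  rcases minimal hLn hLp hLne hM hcore _ hnorm hle with h | h
  · rw [commutator_eq_bot_iff_le_centralizer] at h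
    exact le_centralizer_iff_isMulCommutative.mp h
  · exfalso
    have hnil : Group.IsNilpotent L := hLp.isNilpotent
    have key : ∀ i : ℕ, L ≤ L.lowerCentralSeries i := by
      intro i
      induction i with
      | zero => exact le_rfl
      | succ i ih =>
        rw [Subgroup.lowerCentralSeries_succ]
        calc L = ⁅L, L⁆ := h.symm
          _ ≤ _ := commutator_mono ih le_rfl
    obtain ⟨n, hn⟩ := (isNilpotent_iff_lowerCentralSeries L).mp hnil
    have := key n
    rw [hn, le_bot_iff] at this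
    exact hLne this

theorem isEA (hLn : L.Normal) (hLp : IsPGroup p L) (hLne : L ≠ ⊥) (hM : IsCoatom M)
    (hcore : M.normalCore = ⊥) : Cfsg.IsElementaryAbelian p L := by
  have hc := comm hLn hLp hLne hM hcore
  refine ⟨hc, ?_⟩
  let K : Subgroup G :=
    { carrier := {x | x ∈ L ∧ x ^ p = 1}
      mul_mem' := by
        rintro x y ⟨hx, hxp⟩ ⟨hy, hyp⟩
        refine ⟨L.mul_mem hx hy, ?_⟩
        have : Commute x y := setLike_mul_comm hx hy
        rw [this.mul_pow, hxp, hyp, one_mul]
      one_mem' := ⟨L.one_mem, one_pow p⟩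
      inv_mem' := by
        rintro x ⟨hx, hxp⟩
        exact ⟨L.inv_mem hx, by rw [inv_pow, hxp, inv_one]⟩ }
  have hKn : K.Normal := by
    constructor
    rintro x ⟨hx, hxp⟩ g
    exact ⟨hLn.conj_mem x hx g, by rw [conj_pow, hxp]; group⟩
  have hKL : K ≤ L := fun x hx => hx.1
  have hKne : K ≠ ⊥ := by
    have hpd : p ∣ Nat.card L := by
      obtain ⟨n, hn⟩ := IsPGroup.iff_card.mp hLp
      rw [hn]
      apply dvd_pow_self
      rintro rfl
      rw [pow_zero] at hn
      exact hLne (card_eq_one.mp hn)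
    obtain ⟨x, hx⟩ := exists_prime_orderOf_dvd_card' (G := L) p hpd
    intro hbot
    have hxK : (x : G) ∈ K := by
      refine ⟨x.2, ?_⟩
      have := pow_orderOf_eq_one x
      rw [hx] at this
      exact congrArg Subtype.val this
    rw [hbot, mem_bot] at hxK
    have : x = 1 := Subtype.ext hxK
    rw [this, orderOf_one] at hx
    exact (Fact.out : p.Prime).one_lt.ne hx
  rcases minimal hLn hLp hLne hM hcore K hKn hKL with h | h
  · exact absurd h hKne
  · intro a ha
    rw [← h] at ha
    exact ha.2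

theorem centralizer_eq (hLn : L.Normal) (hLp : IsPGroup p L) (hLne : L ≠ ⊥) (hM : IsCoatom M)
    (hcore : M.normalCore = ⊥) : centralizer (L : Set G) = L := by
  have hc := comm hLn hLp hLne hM hcore
  have hLM := sup_eq_top_of_normal hM hcore hLn hLne
  have hLC : L ≤ centralizer (L : Set G) := le_centralizer L
  have hCn : (centralizer (L : Set G)).Normal := inferInstance
  have hX : (centralizer (L : Set G) ⊓ M).Normal := by
    apply normal_of_le_normalizer hLM
    · rw [le_normalizer_iff]
      intro l hl x hx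
      have : l * x = x * l := mem_centralizer_iff.mp hx.1 l hl
      rw [this]
      simpa using hx
    · rw [le_normalizer_iff]
      intro m hm x hx
      exact ⟨hCn.conj_mem x hx.1 m, M.mul_mem (M.mul_mem hm hx.2) (M.inv_mem hm)⟩
  have hXbot := eq_bot_of_normal_le hcore hX inf_le_right
  apply le_antisymm _ hLC
  intro c hcC
  have hg : c ∈ L ⊔ M := by rw [hLM]; trivial
  rw [mem_sup_of_normal_left] at hg
  obtain ⟨l, hl, m, hm, rfl⟩ := hg
  have hmC : m ∈ centralizer (L : Set G) := by
    have : m = l⁻¹ * (l * m) := by group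
    rw [this]
    exact Subgroup.mul_mem _ (Subgroup.inv_mem _ (hLC hl)) hcC
  have : m ∈ centralizer (L : Set G) ⊓ M := ⟨hmC, hm⟩
  rw [hXbot, mem_bot] at this
  rw [this, mul_one]
  exact hl

theorem card_mod (hLn : L.Normal) (hLp : IsPGroup p L) (hLne : L ≠ ⊥) (hM : IsCoatom M)
    (hcore : M.normalCore = ⊥) (q : ℕ) [Fact q.Prime] (Q : Subgroup G) (hQM : Q ≤ M)
    (hMQ : M ≤ normalizer (Q : Set G)) (hQq : IsPGroup q Q) (hQne : Q ≠ ⊥) :
    Nat.card L % q = 1 % q := by
  have hc := comm hLn hLp hLne hM hcore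
  have hLM := sup_eq_top_of_normal hM hcore hLn hLne
  have hinf := inf_eq_bot hLn hLp hLne hM hcore
  have hF : (L ⊓ centralizer (Q : Set G)).Normal := by
    apply normal_of_le_normalizer hLM
    · rw [le_normalizer_iff]
      intro l hl x hx
      have : l * x = x * l := setLike_mul_comm hl hx.1
      rw [this]
      simpa using hx
    · rw [le_normalizer_iff]
      intro m hm x hx
      refine ⟨hLn.conj_mem x hx.1 m, ?_⟩
      apply mem_centralizer_iff.mpr
      intro y hy
      have hy' : m⁻¹ * y * m ∈ Q := by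
        have := (le_normalizer_iff.mp hMQ) m⁻¹ (M.inv_mem hm) y hy
        simpa using this
      have h1 := mem_centralizer_iff.mp hx.2 _ hy'
      calc y * (m * x * m⁻¹) = m * ((m⁻¹ * y * m) * x) * m⁻¹ := by group
        _ = m * (x * (m⁻¹ * y * m)) * m⁻¹ := by rw [h1]
        _ = m * x * m⁻¹ * y := by group
  have hFbot : L ⊓ centralizer (Q : Set G) = ⊥ := by
    rcases minimal hLn hLp hLne hM hcore _ hF inf_le_left with h | h
    · exact h
    · exfalso
      have h1 : L ≤ centralizer (Q : Set G) := by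
        rw [← h]
        exact inf_le_right
      rw [le_centralizer_iff, centralizer_eq hLn hLp hLne hM hcore] at h1
      apply hQne
      rw [eq_bot_iff, ← hinf]
      exact le_inf h1 hQM
  let _ : MulAction Q L := MulAction.compHom L ((MulAut.conjNormal : G →* MulAut L).comp Q.subtype)
  have hmod := hQq.card_modEq_card_fixedPoints (α := L)
  have hfix : Nat.card (MulAction.fixedPoints Q L) = 1 := by
    rw [Nat.card_eq_one_iff_unique]
    refine ⟨⟨?_⟩, ⟨⟨1, ?_⟩⟩⟩
    · rintro ⟨x, hx⟩ ⟨y, hy⟩
      have key : ∀ z : L, z ∈ MulAction.fixedPoints Q L → z = 1 := by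
        intro z hz
        have : (z : G) ∈ L ⊓ centralizer (Q : Set G) := by
          refine ⟨z.2, ?_⟩
          apply mem_centralizer_iff.mpr
          intro y hy
          have h2 : (⟨y, hy⟩ : Q) • z = z := hz ⟨y, hy⟩
          have h3 : y * (z : G) * y⁻¹ = z := congrArg Subtype.val h2
          calc y * (z : G) = (y * z * y⁻¹) * y := by group
            _ = z * y := by rw [h3]
        rw [hFbot, mem_bot] at this
        exact Subtype.ext this
      apply Subtype.ext
      exact (key x hx).trans (key y hy).symm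
    · intro y
      apply Subtype.ext
      change (y : G) * 1 * (y : G)⁻¹ = 1
      group
  rw [hfix] at hmod
  exact hmod

end

theorem pCore_isPGroup {G : Type*} [Group G] {p : ℕ} : IsPGroup p (Cfsg.pCore p G) :=
  Sylow.sSup_of_normal _ (fun _ h => h.2) (fun _ h => h.1)

theorem pCore_normal {G : Type*} [Group G] {p : ℕ} : (Cfsg.pCore p G).Normal :=
  Subgroup.sSup_normal _ (fun _ h => h.1)

/-- Let G be a finite group whose largest normal p-subgroup L is nontrivial, and M a maximal subgroup of G with trivial normal core. Then L is elementary abelian, M is a complement to L, L is a minimal normal subgroup of G, the centralizer of L is L, and for every prime q such that the largest normal q-subgroup of M is nontrivial, the order of L is congruent to 1 modulo q and q ≠ p. -/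
theorem result {G : Type*} [Group G] [Finite G] (p : ℕ) [Fact p.Prime] (hL : Cfsg.pCore p G ≠ ⊥) (M : Subgroup G) (hM : IsCoatom M) (hcore : M.normalCore = ⊥) : Cfsg.IsElementaryAbelian p (Cfsg.pCore p G) ∧ Subgroup.IsComplement' (Cfsg.pCore p G) M ∧ (∀ K : Subgroup G, K.Normal → K ≤ Cfsg.pCore p G → K = ⊥ ∨ K = Cfsg.pCore p G) ∧ Subgroup.centralizer ((Cfsg.pCore p G : Subgroup G) : Set G) = Cfsg.pCore p G ∧ ∀ (q : ℕ) [Fact q.Prime], Cfsg.pCore q ↥M ≠ ⊥ → Nat.card (Cfsg.pCore p G) % q = 1 % q ∧ q ≠ p := by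
  have hLn := pCore_normal (G := G) (p := p)
  have hLp := pCore_isPGroup (G := G) (p := p)
  have hinf := inf_eq_bot hLn hLp hL hM hcore
  have hLM := sup_eq_top_of_normal hM hcore hLn hL
  refine ⟨isEA hLn hLp hL hM hcore, ?_, minimal hLn hLp hL hM hcore,
    centralizer_eq hLn hLp hL hM hcore, ?_⟩
  · apply Subgroup.isComplement'_of_disjoint_and_mul_eq_univ (disjoint_iff.mpr hinf)
    rw [← Subgroup.normal_mul, hLM]
    rfl
  · intro q hq hQ
    have hQn := pCore_normal (G := M) (p := q)
    have hQq := pCore_isPGroup (G := M) (p := q)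
    have hQM : (Cfsg.pCore q ↥M).map M.subtype ≤ M := Subgroup.map_subtype_le _
    have hQne : (Cfsg.pCore q ↥M).map M.subtype ≠ ⊥ := by
      rw [Ne, Subgroup.map_eq_bot_iff_of_injective _ M.subtype_injective]
      exact hQ
    have hMQ : M ≤ Subgroup.normalizer (((Cfsg.pCore q ↥M).map M.subtype : Subgroup G) : Set G) := by
      rw [Subgroup.le_normalizer_iff]
      rintro m hm _ ⟨x, hx, rfl⟩
      exact ⟨(⟨m, hm⟩ : M) * x * (⟨m, hm⟩ : M)⁻¹, hQn.conj_mem x hx ⟨m, hm⟩, rfl⟩
    refine ⟨card_mod hLn hLp hL hM hcore q _ hQM hMQ (hQq.map _) hQne, ?_⟩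
    rintro rfl
    have hsupn : (Cfsg.pCore q G ⊔ (Cfsg.pCore q ↥M).map M.subtype).Normal := by
      apply normal_of_le_normalizer hLM
      · exact le_sup_left.trans Subgroup.le_normalizer
      · refine le_trans ?_ (Subgroup.normalizer_inf_normalizer_le_normalizer_sup _ _)
        exact le_inf Subgroup.le_normalizer_of_normal hMQ
    have hsupp : IsPGroup q (Cfsg.pCore q G ⊔ (Cfsg.pCore q ↥M).map M.subtype : Subgroup G) :=
      hLp.to_sup_of_normal_left (hQq.map _)
    have hle : Cfsg.pCore q G ⊔ (Cfsg.pCore q ↥M).map M.subtype ≤ Cfsg.pCore q G :=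
      le_sSup ⟨hsupn, hsupp⟩
    apply hQne
    rw [eq_bot_iff, ← hinf]
    exact le_inf (le_sup_right.trans hle) hQM

end Cfsg.Agent.S0587
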