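import Cfsg.Statements.S0588
-- import your own Cfsg.Agent.* helpers here
import Mathlib

set_option autoImplicit false
open Cfsg

namespace Cfsg.Agent.S0588

/-- If a subgroup H of a finite group G contains the centralizer of every non-identity element of H, then the order of H is coprime to its index. -/
theorem result {G : Type*} [Group G] [Finite G] (H : Subgroup G) (h : ∀ x ∈ H, x ≠ 1 → Subgroup.centralizer ({x} : Set G) ≤ H) : (Nat.card H).Coprime H.index := by
  apply Nat.coprime_of_dvd
  intro p hp hpH hpI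
  have : Fact p.Prime := ⟨hp⟩
  obtain ⟨x, hx⟩ := exists_prime_orderOf_dvd_card' (G := H) p hpH
  have hx1 : (x : G) ≠ 1 := by
    intro h1
    have : x = 1 := Subtype.ext h1
    rw [this, orderOf_one] at hx
    exact hp.one_lt.ne hx
  have hxp : IsPGroup p (Subgroup.zpowers (x : G)) := by
    apply IsPGroup.of_card (n := 1)
    rw [Nat.card_zpowers, Subgroup.orderOf_coe, hx, pow_one]
  obtain ⟨S, hS⟩ := hxp.exists_le_sylow
  have hxS : (x : G) ∈ S := hS (Subgroup.mem_zpowers _)
  have : Nontrivial S := ⟨⟨⟨x, hxS⟩, 1, fun h => hx1 (congrArg Subtype.val h)⟩⟩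
  have := S.2.center_nontrivial
  obtain ⟨z, hz⟩ := exists_ne (1 : Subgroup.center S)
  have hz1 : ((z : S) : G) ≠ 1 := by
    intro h1
    apply hz
    apply Subtype.ext
    apply Subtype.ext
    exact h1
  have hzc : ∀ s : S, (s : G) * ((z : S) : G) = ((z : S) : G) * (s : G) := by
    intro s
    have := Subgroup.mem_center_iff.mp z.2 s
    exact congrArg Subtype.val this
  have hzH : ((z : S) : G) ∈ H := by
    apply h x x.2 hx1
    rw [Subgroup.mem_centralizer_iff]
    rintro _ rfl
    exact hzc ⟨x, hxS⟩
  have hSH : (S : Subgroup G) ≤ H := by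
    intro s hs
    apply h _ hzH hz1
    rw [Subgroup.mem_centralizer_iff]
    rintro _ rfl
    exact (hzc ⟨s, hs⟩).symm
  exact S.not_dvd_index (hpI.trans (Subgroup.index_dvd_of_le hSH))

end Cfsg.Agent.S0588
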