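import Cfsg.Statements.S0591
-- import your own Cfsg.Agent.* helpers here

set_option autoImplicit false
open Cfsg

namespace Cfsg.Agent.S0591

theorem mem_centralizer_zpowers_iff {G : Type*} [Group G] (a g : G) :
    g ∈ Subgroup.centralizer (Subgroup.zpowers a : Set G) ↔ a * g = g * a := by
  rw [Subgroup.mem_centralizer_iff]
  constructor
  · intro h
    exact h a (Subgroup.mem_zpowers a)
  · rintro h _ ⟨i, rfl⟩
    have : Commute a g := h
    exact (this.zpow_left i).eq

open scoped commutatorElement in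
theorem aux {G : Type*} [Group G] [Finite G] {p : ℕ} (V : Subgroup G)
    (hV : Cfsg.IsElementaryAbelian p V) (a : G) (ha : a ∈ Subgroup.normalizer (V : Set G))
    (hq : ⁅⁅V, Subgroup.zpowers a⁆, Subgroup.zpowers a⁆ = ⊥) :
    Nat.card V ≤ Nat.card ↥(V ⊓ Subgroup.centralizer (Subgroup.zpowers a : Set G)) ^ 2 := by
  classical
  have hVc := hV.1
  have hle : Subgroup.zpowers a ≤ Subgroup.normalizer (V : Set G) := by
    rw [Subgroup.zpowers_le]
    exact ha
  have hcV : ∀ v ∈ V, ⁅v, a⁆ ∈ V := fun v hv =>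
    (Subgroup.le_normalizer_iff_commutator_le_left.mp hle)
      (Subgroup.commutator_mem_commutator hv (Subgroup.mem_zpowers a))
  have hcc : ∀ v ∈ V, a * ⁅v, a⁆ = ⁅v, a⁆ * a := by
    intro v hv
    have : ⁅⁅v, a⁆, a⁆ ∈ ⁅⁅V, Subgroup.zpowers a⁆, Subgroup.zpowers a⁆ :=
      Subgroup.commutator_mem_commutator
        (Subgroup.commutator_mem_commutator hv (Subgroup.mem_zpowers a)) (Subgroup.mem_zpowers a)
    rw [hq, Subgroup.mem_bot] at this
    exact (commutatorElement_eq_one_iff_mul_comm.mp this).symm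
  let φ : V →* V := MonoidHom.mk' (fun v => ⟨⁅(v : G), a⁆, hcV v v.2⟩) (by
    intro v w
    apply Subtype.ext
    change ⁅(v : G) * (w : G), a⁆ = ⁅(v : G), a⁆ * ⁅(w : G), a⁆
    have h1 : (v : G) * ⁅(w : G), a⁆ = ⁅(w : G), a⁆ * (v : G) :=
      setLike_mul_comm v.2 (hcV w w.2)
    have h2 : ⁅(w : G), a⁆ * ⁅(v : G), a⁆ = ⁅(v : G), a⁆ * ⁅(w : G), a⁆ :=
      setLike_mul_comm (hcV w w.2) (hcV v v.2)
    calc ⁅(v : G) * (w : G), a⁆ = ((v : G) * ⁅(w : G), a⁆) * (v : G)⁻¹ * ⁅(v : G), a⁆ := by
          simp only [commutatorElement_def]; group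
      _ = ⁅(w : G), a⁆ * ⁅(v : G), a⁆ := by rw [h1]; group
      _ = _ := h2)
  have hcard : Nat.card φ.ker * Nat.card φ.range = Nat.card V := by
    rw [← Subgroup.index_ker, Subgroup.card_mul_index]
  have hker : Nat.card φ.ker ≤
      Nat.card ↥(V ⊓ Subgroup.centralizer (Subgroup.zpowers a : Set G)) := by
    apply Nat.card_le_card_of_injective
      (fun x : φ.ker => (⟨((x : V) : G), ⟨(x : V).2, by
        apply (mem_centralizer_zpowers_iff a _).mpr
        have hx : φ (x : V) = 1 := x.2
        have hx' : ⁅((x : V) : G), a⁆ = 1 := congrArg Subtype.val hx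
        exact (commutatorElement_eq_one_iff_mul_comm.mp hx').symm⟩⟩ :
        ↥(V ⊓ Subgroup.centralizer (Subgroup.zpowers a : Set G))))
    intro x y hxy
    apply Subtype.ext
    apply Subtype.ext
    exact congrArg (fun z : ↥(V ⊓ Subgroup.centralizer (Subgroup.zpowers a : Set G)) => (z : G)) hxy
  have hrange : Nat.card φ.range ≤
      Nat.card ↥(V ⊓ Subgroup.centralizer (Subgroup.zpowers a : Set G)) := by
    apply Nat.card_le_card_of_injective
      (fun x : φ.range => (⟨((x : V) : G), ⟨(x : V).2, by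
        apply (mem_centralizer_zpowers_iff a _).mpr
        obtain ⟨v, hv⟩ := x.2
        have : ((x : V) : G) = ⁅(v : G), a⁆ := by rw [← hv]; rfl
        rw [this]
        exact hcc v v.2⟩⟩ :
        ↥(V ⊓ Subgroup.centralizer (Subgroup.zpowers a : Set G))))
    intro x y hxy
    apply Subtype.ext
    apply Subtype.ext
    exact congrArg (fun z : ↥(V ⊓ Subgroup.centralizer (Subgroup.zpowers a : Set G)) => (z : G)) hxy
  rw [← hcard, sq]
  exact Nat.mul_le_mul hker hrange

/-- For a quadratically acting element a on an elementary abelian p-group V, the fixed points C_V(a) have order at least the square root of the order of V. -/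
theorem result {G : Type*} [Group G] [Finite G] {p : ℕ} [Fact p.Prime] (V : Subgroup G) (hV : Cfsg.IsElementaryAbelian p V) (a : G) (ha : a ∈ Subgroup.normalizer (V : Set G)) (hq : ⁅⁅V, Subgroup.zpowers a⁆, Subgroup.zpowers a⁆ = ⊥) : Nat.card V ≤ Nat.card ↥(V ⊓ Subgroup.centralizer (Subgroup.zpowers a : Set G)) ^ 2 := by
  exact aux V hV a ha hq

end Cfsg.Agent.S0591
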