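import Cfsg.Statements.S0592
import Cfsg.Agent.Lib.Helper14.QuadPair

set_option autoImplicit false
open Cfsg

namespace Cfsg.Agent.S0592

/-- Two quadratically acting generators of a linear group that is not a p-group, with the p'-part of the order of their product dividing q - 1, give a homomorphism onto a subgroup of SL(2, q) that is not a p-group. -/
theorem result {K : Type*} [Field K] [Fintype K] {p : ℕ} [Fact p.Prime] [CharP K p] {W : Type*} [AddCommGroup W] [Module K W] [FiniteDimensional K W] [Finite W] [Nontrivial W] (H : Subgroup (W ≃ₗ[K] W)) (a b : W ≃ₗ[K] W) (hH : H = Subgroup.closure {a, b}) (ha : ∀ w : W, a (a w - w) = a w - w) (hb : ∀ w : W, b (b w - w) = b w - w) (hnp : ¬ IsPGroup p H) (hk : ∃ e k : ℕ, orderOf (a * b) = p ^ e * k ∧ k ∣ Fintype.card K - 1) : ∃ φ : H →* Matrix.SpecialLinearGroup (Fin 2) K, ¬ IsPGroup p φ.range := by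
  classical
  have haH : a ∈ H := hH ▸ Subgroup.subset_closure (by simp)
  have hbH : b ∈ H := hH ▸ Subgroup.subset_closure (by simp)
  let x : ↥H := ⟨a, haH⟩
  let y : ↥H := ⟨b, hbH⟩
  have hxy : Subgroup.closure {x, y} = ⊤ := by
    apply Subgroup.map_injective H.subtype_injective
    rw [MonoidHom.map_closure, ← MonoidHom.range_eq_map, Subgroup.range_subtype]
    have : (H.subtype '' {x, y} : Set (W ≃ₗ[K] W)) = {a, b} := by simp [Set.image_pair, x, y]
    rw [this, ← hH]
  let ρ : ↥H →* Module.End K W :=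
    (LinearEquiv.automorphismGroup.toLinearMapMonoidHom (R := K) (M := W)).comp H.subtype
  have hρ : ∀ (g : ↥H) (w : W), ρ g w = (g : W ≃ₗ[K] W) w := fun g w => rfl
  have hA : (ρ x - 1) * (ρ x - 1) = 0 := by
    ext w
    rw [Module.End.mul_apply, LinearMap.sub_apply, LinearMap.sub_apply, Module.End.one_apply,
      Module.End.one_apply]
    show a (a w - w) - (a w - w) = 0
    rw [ha, sub_self]
  have hB : (ρ y - 1) * (ρ y - 1) = 0 := by
    ext w
    rw [Module.End.mul_apply, LinearMap.sub_apply, LinearMap.sub_apply, Module.End.one_apply,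
      Module.End.one_apply]
    show b (b w - w) - (b w - w) = 0
    rw [hb, sub_self]
  have hinj : ∀ g : ↥H, ρ g = 1 → g = 1 := by
    intro g hg
    apply Subtype.ext
    ext w
    have := congrArg (fun f : Module.End K W => f w) hg
    exact this
  have ht : ¬ IsNilpotent ((ρ x - 1) * (ρ y - 1) + (ρ y - 1) * (ρ x - 1)) := by
    intro ht
    apply hnp
    obtain ⟨L, hL⟩ := Lib.Helper14.exists_sub_one_pow_eq_zero ρ x y hxy hA hB ht
    intro g
    refine ⟨L, hinj _ ?_⟩
    rw [map_pow]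
    exact Lib.Helper14.pow_char_pow_eq_one_of_sub_one_pow_eq_zero p (ρ g) (hL g)
  have hc : ¬ IsNilpotent (ρ (x * y) - 1) :=
    fun h => ht (Lib.Helper14.quad_t_isNilpotent ρ x y hA hB h)
  obtain ⟨e, k, hek, hk⟩ := hk
  have hpow : ρ (x * y) ^ (p ^ e * (Fintype.card K - 1)) = 1 := by
    rw [← map_pow]
    have : (x * y) ^ (p ^ e * (Fintype.card K - 1)) = 1 := by
      apply Subtype.ext
      show (a * b) ^ (p ^ e * (Fintype.card K - 1)) = 1
      apply orderOf_dvd_iff_pow_eq_one.mp
      rw [hek]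
      exact Nat.mul_dvd_mul_left _ hk
    rw [this, map_one]
  obtain ⟨ν, hν, hev⟩ := Lib.Helper14.exists_hasEigenvalue_ne_one p (ρ (x * y)) e hpow hc
  obtain ⟨m, hm⟩ := hev.exists_hasEigenvector
  obtain ⟨hθ, hmt⟩ := Lib.Helper14.quad_t_eigen ρ x y hA hB hm.2 hm.apply_eq_smul hν
  obtain ⟨φ, hφx, hφy⟩ := Lib.Helper14.exists_hom_SL2_of_eigen ρ x y hxy hA hB _ hθ m hm.2 hmt
  exact ⟨φ, Lib.Helper14.not_isPGroup_range p φ hθ hφx hφy⟩

end Cfsg.Agent.S0592
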