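import Cfsg.Statements.S0594
import Cfsg.Agent.Lib.Helper14.QuadConseq2
import Cfsg.Agent.S0274

set_option autoImplicit false
open Cfsg

namespace Cfsg.Agent.S0594

/-- For odd p, two quadratic generators of a faithful group that is not a p-group, one of which acts nontrivially on a normal subgroup of order prime to p, force p = 3 and a section isomorphic to SL(2,3). -/
theorem result {G : Type*} [Group G] [Finite G] {p : ℕ} [Fact p.Prime] (hp : p ≠ 2) (V H : Subgroup G) (hV : Cfsg.IsElementaryAbelian p V) (hHV : H ≤ Subgroup.normalizer (V : Set G)) (hf : H ⊓ Subgroup.centralizer (V : Set G) = ⊥) (a b : G) (hab : H = Subgroup.closure {a, b}) (ha : ⁅⁅V, Subgroup.zpowers a⁆, Subgroup.zpowers a⁆ = ⊥) (hb : ⁅⁅V, Subgroup.zpowers b⁆, Subgroup.zpowers b⁆ = ⊥) (hnp : ¬ IsPGroup p H) (Q : Subgroup G) (hQH : Q ≤ H) (hQn : H ≤ Subgroup.normalizer (Q : Set G)) (hQ : (Nat.card Q).Coprime p) (hQa : ⁅Q, Subgroup.zpowers a⁆ ≠ ⊥) : p = 3 ∧ ∃ (K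 L : Subgroup G) (hL : (L.subgroupOf K).Normal), K ≤ H ∧ Nonempty ((K ⧸ L.subgroupOf K) ≃* Matrix.SpecialLinearGroup (Fin 2) (ZMod 3)) := by
  have hD : Lib.Helper14.DicksonLite p := fun F _ _ _ R hR => Cfsg.Agent.S0274.result p hp R hR
  have haH : a ∈ H := hab ▸ Subgroup.subset_closure (by simp)
  have hzaH : Subgroup.zpowers a ≤ H := by rw [Subgroup.zpowers_le]; exact haH
  have haQ : a ∈ Subgroup.normalizer (Q : Set G) := hQn haH
  have hpa : IsPGroup p (Subgroup.zpowers a) :=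
    Lib.Helper14.isPGroup_zpowers_of_quadratic V hV a (hHV haH)
      (le_bot_iff.mp (hf ▸ inf_le_inf_right _ hzaH)) ha
  have hH₁H : Q ⊔ Subgroup.zpowers a ≤ H := sup_le hQH hzaH
  have hinv := Lib.Helper14.involves_SL2_of_quadratic_not_mem_pCore hD V (Q ⊔ Subgroup.zpowers a)
    hV (hH₁H.trans hHV) (le_bot_iff.mp (hf ▸ inf_le_inf_right _ hH₁H)) a
    ((le_sup_right : Subgroup.zpowers a ≤ _) (Subgroup.mem_zpowers a)) ha
    (Lib.Helper14.not_mem_pCore_sup_zpowers Q a haQ hQ hQa)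
  have h3 : p = 3 := Lib.Helper14.eq_three_of_isPSolvable_of_involves hp _
    (Lib.Helper14.isPSolvable_sup_zpowers Q a haQ hQ hpa) hinv
  subst h3
  exact ⟨rfl, hinv.mono hH₁H⟩

end Cfsg.Agent.S0594
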