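import Cfsg.Statements.S0600
-- import your own Cfsg.Agent.* helpers here
import Mathlib

set_option autoImplicit false
open Cfsg

namespace Cfsg.Agent.S0600

/-- A normal elementary abelian p-subgroup generated by the fixed points of the Sylow p-subgroups admits no nontrivial normal p-subgroup of G modulo its centralizer. -/
theorem result {G : Type*} [Group G] [Finite G] {p : ℕ} [Fact p.Prime] (V : Subgroup G) [V.Normal] (hV : Cfsg.IsElementaryAbelian p V) (hgen : V = ⨆ S : Sylow p G, V ⊓ Subgroup.centralizer ((S : Subgroup G) : Set G)) : Cfsg.pCore p (G ⧸ Subgroup.centralizer (V : Set G)) = ⊥ := by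
  rw [eq_bot_iff]
  apply sSup_le
  rintro N ⟨hNn, hNp⟩
  intro x hx
  obtain ⟨d, rfl⟩ := QuotientGroup.mk_surjective x
  rw [Subgroup.mem_bot, QuotientGroup.eq_one_iff]
  have hle : V ≤ Subgroup.centralizer {d} := by
    rw [hgen]
    apply iSup_le
    intro S v hv
    have hsurj := QuotientGroup.mk'_surjective (Subgroup.centralizer (V : Set G))
    have h1 : N ≤ (S.mapSurjective hsurj : Sylow p (G ⧸ Subgroup.centralizer (V : Set G))) :=
      hNp.le_sylow_of_normal _
    obtain ⟨s, hs, hsd⟩ := h1 hx
    have h2 : s⁻¹ * d ∈ Subgroup.centralizer (V : Set G) := QuotientGroup.eq.mp hsd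
    have h3 : v * (s⁻¹ * d) = (s⁻¹ * d) * v := Subgroup.mem_centralizer_iff.mp h2 v hv.1
    have h4 : s * v = v * s := Subgroup.mem_centralizer_iff.mp hv.2 s hs
    rw [Subgroup.mem_centralizer_singleton_iff]
    symm
    calc d * v = s * ((s⁻¹ * d) * v) := by group
      _ = s * (v * (s⁻¹ * d)) := by rw [h3]
      _ = (s * v) * s⁻¹ * d := by group
      _ = (v * s) * s⁻¹ * d := by rw [h4]
      _ = v * d := by group
  rw [Subgroup.mem_centralizer_iff]
  intro v hv
  have := Subgroup.mem_centralizer_iff.mp (hle hv) d rfl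
  exact this.symm

end Cfsg.Agent.S0600
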