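import Cfsg.Statements.S0601
-- import your own Cfsg.Agent.* helpers here
import Mathlib
import Cfsg.Agent.Lib.Helper13.Thompson
import Cfsg.Agent.S0600

set_option autoImplicit false
open Cfsg

namespace Cfsg.Agent.S0601

theorem isEA_closure {G : Type*} [Group G] {p : ℕ} (s : Set G)
    (hcomm : ∀ x ∈ s, ∀ y ∈ s, x * y = y * x) (hp : ∀ x ∈ s, x ^ p = 1) :
    Cfsg.IsElementaryAbelian p (Subgroup.closure s) := by
  have hc : IsMulCommutative (Subgroup.closure s) := Subgroup.isMulCommutative_closure hcomm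
  refine ⟨hc, ?_⟩
  intro x hx
  induction hx using Subgroup.closure_induction with
  | mem x hx => exact hp x hx
  | one => exact one_pow p
  | mul x y hx hy hx' hy' =>
    have : Commute x y := setLike_mul_comm hx hy
    rw [this.mul_pow, hx', hy', one_mul]
  | inv x hx hx' => rw [inv_pow, hx', inv_one]

/-- the subgroup in question -/
def ww (p : ℕ) (G : Type*) [Group G] : Subgroup G :=
  ⨆ S : Sylow p G, Cfsg.omegaOne p (((S : Subgroup G)) ⊓ Subgroup.centralizer ((S : Subgroup G) : Set G))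

open scoped Pointwise in
theorem ww_normal {G : Type*} [Group G] [Finite G] {p : ℕ} [Fact p.Prime] : (ww p G).Normal := by
  constructor
  intro x hx g
  have hle : ww p G ≤ (ww p G).comap (MulAut.conj g).toMonoidHom := by
    apply iSup_le
    intro S
    unfold Cfsg.omegaOne
    rw [Subgroup.closure_le]
    rintro y ⟨⟨hyS, hyC⟩, hyp⟩
    rw [SetLike.mem_coe, Subgroup.mem_comap]
    apply (le_iSup (fun S : Sylow p G => Cfsg.omegaOne p (((S : Subgroup G)) ⊓
      Subgroup.centralizer ((S : Subgroup G) : Set G))) (g • S))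
    apply Subgroup.subset_closure
    refine ⟨⟨?_, ?_⟩, ?_⟩
    · rw [Sylow.coe_subgroup_smul]
      exact Subgroup.smul_mem_pointwise_smul y (MulAut.conj g) _ hyS
    · apply Subgroup.mem_centralizer_iff.mpr
      intro z hz
      rw [Sylow.coe_subgroup_smul] at hz
      obtain ⟨s, hs, rfl⟩ := hz
      have h1 : s * y = y * s := Subgroup.mem_centralizer_iff.mp hyC s hs
      change (g * s * g⁻¹) * (g * y * g⁻¹) = (g * y * g⁻¹) * (g * s * g⁻¹)
      calc (g * s * g⁻¹) * (g * y * g⁻¹) = g * (s * y) * g⁻¹ := by group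
        _ = g * (y * s) * g⁻¹ := by rw [h1]
        _ = _ := by group
    · change (g * y * g⁻¹) ^ p = 1
      rw [conj_pow, hyp]
      group
  exact hle hx

theorem pCore_isPGroup {G : Type*} [Group G] {p : ℕ} : IsPGroup p (Cfsg.pCore p G) :=
  Sylow.sSup_of_normal _ (fun _ h => h.2) (fun _ h => h.1)

theorem pCore_normal {G : Type*} [Group G] {p : ℕ} : (Cfsg.pCore p G).Normal :=
  Subgroup.sSup_normal _ (fun _ h => h.1)

theorem ww_isEA {G : Type*} [Group G] [Finite G] {p : ℕ} [Fact p.Prime]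
    (hc : Subgroup.centralizer (Cfsg.pCore p G : Set G) ≤ Cfsg.pCore p G) :
    Cfsg.IsElementaryAbelian p (ww p G) := by
  have hE := isEA_closure (p := p) {x : G | x ∈ Cfsg.pCore p G ∧
    x ∈ Subgroup.centralizer (Cfsg.pCore p G : Set G) ∧ x ^ p = 1}
    (fun x hx y hy => Subgroup.mem_centralizer_iff.mp hy.2.1 x hx.1) (fun x hx => hx.2.2)
  apply Cfsg.Agent.Lib.Helper13.isEA_mono hE
  apply iSup_le
  intro S
  unfold Cfsg.omegaOne
  apply Subgroup.closure_mono
  rintro y ⟨⟨hyS, hyC⟩, hyp⟩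
  have := pCore_normal (G := G) (p := p)
  have hOS : Cfsg.pCore p G ≤ S := pCore_isPGroup.le_sylow_of_normal S
  have h1 : y ∈ Subgroup.centralizer (Cfsg.pCore p G : Set G) :=
    Subgroup.centralizer_le (by exact_mod_cast hOS) hyC
  exact ⟨hc h1, h1, hyp⟩

theorem ww_gen {G : Type*} [Group G] [Finite G] {p : ℕ} [Fact p.Prime] :
    ww p G = ⨆ S : Sylow p G, ww p G ⊓ Subgroup.centralizer ((S : Subgroup G) : Set G) := by
  apply le_antisymm
  · apply iSup_le
    intro S
    refine le_trans ?_ (le_iSup (fun S : Sylow p G => ww p G ⊓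
      Subgroup.centralizer ((S : Subgroup G) : Set G)) S)
    apply le_inf
    · exact le_iSup (fun S : Sylow p G => Cfsg.omegaOne p (((S : Subgroup G)) ⊓
        Subgroup.centralizer ((S : Subgroup G) : Set G))) S
    · unfold Cfsg.omegaOne
      rw [Subgroup.closure_le]
      rintro y ⟨⟨-, hyC⟩, -⟩
      exact hyC
  · exact iSup_le fun S => inf_le_left

theorem ww_third {G : Type*} [Group G] [Finite G] {p : ℕ} [Fact p.Prime]
    (hc : Subgroup.centralizer (Cfsg.pCore p G : Set G) ≤ Cfsg.pCore p G)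
    (D : Subgroup G) (hD : D.Normal) (hCD : Subgroup.centralizer (ww p G : Set G) ≤ D)
    (hk : ∃ k : ℕ, (Subgroup.centralizer (ww p G : Set G)).relIndex D = p ^ k) :
    D = Subgroup.centralizer (ww p G : Set G) := by
  have hn := ww_normal (G := G) (p := p)
  have h0 := Cfsg.Agent.S0600.result (ww p G) (ww_isEA hc) ww_gen
  apply le_antisymm _ hCD
  obtain ⟨k, hk⟩ := hk
  have h1 : IsPGroup p (D.map (QuotientGroup.mk' (Subgroup.centralizer (ww p G : Set G)))) := by
    apply IsPGroup.of_card (n := k)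
    rw [← hk, ← Subgroup.relIndex_ker, QuotientGroup.ker_mk']
  have h2 : (D.map (QuotientGroup.mk' (Subgroup.centralizer (ww p G : Set G)))).Normal :=
    hD.map _ (QuotientGroup.mk'_surjective _)
  have h3 : D.map (QuotientGroup.mk' (Subgroup.centralizer (ww p G : Set G))) ≤
      Cfsg.pCore p (G ⧸ Subgroup.centralizer (ww p G : Set G)) := le_sSup ⟨h2, h1⟩
  rw [h0, le_bot_iff, Subgroup.map_eq_bot_iff, QuotientGroup.ker_mk'] at h3
  exact h3

/-- When O_p(G) contains its centralizer, the normal closure of Ω₁(Z(S)) is elementary abelian and G has no nontrivial normal p-subgroup modulo its centralizer. -/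
theorem result {G : Type*} [Group G] [Finite G] {p : ℕ} [Fact p.Prime] (hc : Subgroup.centralizer (Cfsg.pCore p G : Set G) ≤ Cfsg.pCore p G) : (⨆ S : Sylow p G, Cfsg.omegaOne p (((S : Subgroup G)) ⊓ Subgroup.centralizer ((S : Subgroup G) : Set G))).Normal ∧ Cfsg.IsElementaryAbelian p (⨆ S : Sylow p G, Cfsg.omegaOne p (((S : Subgroup G)) ⊓ Subgroup.centralizer ((S : Subgroup G) : Set G))) ∧ ∀ D : Subgroup G, D.Normal → Subgroup.centralizer ((⨆ S : Sylow p G, Cfsg.omegaOne p (((S : Subgroup G)) ⊓ Subgroup.centralizer ((S : Subgroup G) : Set G)) : Subgroup G) : Set G) ≤ D → (∃ k : ℕ, (Subgroup.centralizer ((⨆ S : Sylow p G, Cfsg.omegaOne p (((S : Subgroup G)) ⊓ Subgroup.centralizer ((S : Subgroup G) : Set G)) : Subgroup G) : Set G)).relIndex D = p ^ k) → D = Subgroup.centralizer ((⨆ S : Sylow p G, Cfsg.omegaOne p (((S : Subgroup G)) ⊓ Subgroup.centralizer ((S : Subgroup G) : Set G)) : Subgroup G) : Set G) := by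
  exact ⟨ww_normal, ww_isEA hc, fun D hD hCD hk => ww_third hc D hD hCD hk⟩

end Cfsg.Agent.S0601
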