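import Cfsg.Statements.S0602
-- import your own Cfsg.Agent.* helpers here
import Cfsg.Agent.Lib.Helper13.Thompson

set_option autoImplicit false
open Cfsg

namespace Cfsg.Agent.S0602

/-- The Thompson subgroup is characteristic, and nontrivial as soon as p divides the group order. -/
theorem result {G : Type*} [Group G] [Finite G] {p : ℕ} [Fact p.Prime] : (Cfsg.thompsonSubgroup p G).Characteristic ∧ (p ∣ Nat.card G → Cfsg.thompsonSubgroup p G ≠ ⊥) := by
  constructor
  · rw [Subgroup.characteristic_iff_map_le]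
    intro φ
    rw [Subgroup.map_le_iff_le_comap]
    apply sSup_le
    intro A hA
    rw [← Subgroup.map_le_iff_le_comap]
    apply le_sSup
    refine ⟨Cfsg.Agent.Lib.Helper13.isEA_map hA.1 _, fun B hB => ?_⟩
    rw [Subgroup.card_map_of_injective φ.injective]
    exact hA.2 B hB
  · intro hp
    obtain ⟨x, hx⟩ := exists_prime_orderOf_dvd_card' p hp
    obtain ⟨A, hA⟩ := Cfsg.Agent.Lib.Helper13.exists_maxElementaryAbelian (G := G) p
    have h1 : Cfsg.IsElementaryAbelian p (Subgroup.zpowers x) :=
      Cfsg.Agent.Lib.Helper13.isElementaryAbelian_zpowers (by rw [← hx]; exact pow_orderOf_eq_one x)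
    have h2 := hA.2 _ h1
    rw [Nat.card_zpowers, hx] at h2
    intro hbot
    have h3 : A ≤ ⊥ := hbot ▸ Cfsg.Agent.Lib.Helper13.le_thompsonSubgroup hA
    rw [le_bot_iff] at h3
    rw [h3, Subgroup.card_bot] at h2
    exact absurd h2 (not_le.mpr (Fact.out : p.Prime).one_lt)

end Cfsg.Agent.S0602
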