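import Cfsg.Statements.S0603
-- import your own Cfsg.Agent.* helpers here
import Cfsg.Agent.Lib.Helper13.Thompson

set_option autoImplicit false
open Cfsg

namespace Cfsg.Agent.S0603

/-- The Thompson subgroup of any subgroup containing J(G) is J(G) itself. -/
theorem result {G : Type*} [Group G] [Finite G] {p : ℕ} [Fact p.Prime] (U : Subgroup G) (hU : Cfsg.thompsonSubgroup p G ≤ U) : Cfsg.thompsonSubgroupOf p U = Cfsg.thompsonSubgroup p G := by
  obtain ⟨A₀, hA₀⟩ := Cfsg.Agent.Lib.Helper13.exists_maxElementaryAbelian (G := G) p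
  have hA₀U : A₀ ≤ U := (Cfsg.Agent.Lib.Helper13.le_thompsonSubgroup hA₀).trans hU
  apply le_antisymm
  · rw [Cfsg.thompsonSubgroupOf, Subgroup.map_le_iff_le_comap]
    apply sSup_le
    intro A hA
    rw [← Subgroup.map_le_iff_le_comap]
    exact Cfsg.Agent.Lib.Helper13.le_thompsonSubgroup
      (Cfsg.Agent.Lib.Helper13.map_subtype_mem_max hA₀ hA₀U hA)
  · apply sSup_le
    intro A hA
    have hAU : A ≤ U := (Cfsg.Agent.Lib.Helper13.le_thompsonSubgroup hA).trans hU
    have h1 := Cfsg.Agent.Lib.Helper13.le_thompsonSubgroup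
      (Cfsg.Agent.Lib.Helper13.subgroupOf_mem_max hA hAU)
    have h2 := Subgroup.map_mono (f := U.subtype) h1
    rw [Subgroup.subgroupOf_map_subtype, inf_of_le_left hAU] at h2
    exact h2

end Cfsg.Agent.S0603
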