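import Cfsg.Statements.S0609
import Cfsg.Agent.S3800
import Cfsg.Agent.Lib.Helper14.Thompson
import Cfsg.Agent.Lib.Helper37.KGroup
import Cfsg.Agent.Lib.Helper40.Cores

set_option autoImplicit false
open Cfsg

namespace Cfsg.Agent.S0609

section aux

variable {G : Type*} [Group G] {G' : Type*} [Group G']

theorem map_thompsonSubgroupOf (p : ℕ) (f : G →* G') (S : Subgroup G)
    (hinj : ∀ x ∈ S, f x = 1 → x = 1) :
    (Cfsg.thompsonSubgroupOf p S).map f = Cfsg.thompsonSubgroupOf p (S.map f) := by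
  have hb : Function.Bijective (f.subgroupMap S) := by
    refine ⟨?_, f.subgroupMap_surjective S⟩
    rw [injective_iff_map_eq_one]
    intro x hx
    have : f x = 1 := congrArg Subtype.val hx
    exact Subtype.ext (hinj x x.2 this)
  let e : S ≃* S.map f := MulEquiv.ofBijective (f.subgroupMap S) hb
  unfold Cfsg.thompsonSubgroupOf
  rw [← Cfsg.Agent.Lib.Helper14.map_thompsonSubgroup p e, Subgroup.map_map, Subgroup.map_map]
  rfl

theorem map_omegaOneZ (p : ℕ) (f : G →* G') (S : Subgroup G)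
    (hinj : ∀ x ∈ S, f x = 1 → x = 1) :
    (Cfsg.omegaOne p (S ⊓ Subgroup.centralizer (S : Set G))).map f =
      Cfsg.omegaOne p (S.map f ⊓ Subgroup.centralizer ((S.map f : Subgroup G') : Set G')) := by
  unfold Cfsg.omegaOne
  rw [MonoidHom.map_closure]
  congr 1
  ext y
  constructor
  · rintro ⟨x, ⟨⟨hxS, hxC⟩, hxp⟩, rfl⟩
    refine ⟨⟨Subgroup.mem_map_of_mem f hxS, ?_⟩, by rw [← map_pow, hxp, map_one]⟩
    apply Subgroup.mem_centralizer_iff.2
    rintro _ ⟨s, hs, rfl⟩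
    rw [← map_mul, ← map_mul, Subgroup.mem_centralizer_iff.1 hxC s hs]
  · rintro ⟨⟨⟨x, hxS, rfl⟩, hC⟩, hp⟩
    refine ⟨x, ⟨⟨hxS, ?_⟩, ?_⟩, rfl⟩
    · apply Subgroup.mem_centralizer_iff.2
      intro s hs
      have h1 := Subgroup.mem_centralizer_iff.1 hC (f s) (Subgroup.mem_map_of_mem f hs)
      have h2 : f ((s * x) * (x * s)⁻¹) = 1 := by
        rw [map_mul, map_inv, map_mul, map_mul, h1, mul_inv_cancel]
      have h3 := hinj _ (mul_mem (mul_mem hs hxS) (inv_mem (mul_mem hxS hs))) h2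
      exact mul_inv_eq_one.1 h3
    · apply hinj _ (pow_mem hxS p)
      rw [map_pow]
      exact hp

end aux

/-- Thompson factorizability passes to and from the quotient by the largest normal subgroup of order prime to p. -/
theorem result {G : Type*} [Group G] [Finite G] {p : ℕ} [Fact p.Prime] : Cfsg.IsThompsonFactorizable p G ↔ Cfsg.IsThompsonFactorizable p (G ⧸ Cfsg.pPrimeCore p G) := by
  have hK : (Nat.card (Cfsg.pPrimeCore p G)).Coprime p :=
    Cfsg.Agent.Lib.Helper40.card_pPrimeCore_coprime p G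
  have hsurj : Function.Surjective (QuotientGroup.mk' (Cfsg.pPrimeCore p G)) :=
    QuotientGroup.mk'_surjective _
  have hinj : ∀ S : Sylow p G, ∀ x ∈ (S : Subgroup G),
      QuotientGroup.mk' (Cfsg.pPrimeCore p G) x = 1 → x = 1 := by
    intro S x hx h1
    have h2 : x ∈ Cfsg.pPrimeCore p G := (QuotientGroup.eq_one_iff x).1 h1
    obtain ⟨k, hk⟩ := (IsPGroup.iff_orderOf.1 S.2) ⟨x, hx⟩
    have h3 : x ^ p ^ k = 1 := by
      rw [← hk, Subgroup.orderOf_mk]
      exact pow_orderOf_eq_one x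
    exact Cfsg.Agent.Lib.Helper40.eq_one_of_pow_eq_one_of_coprime h3
      (Cfsg.Agent.Lib.Helper40.orderOf_coprime_of_mem_pPrimeCore h2)
  have hB := fun (P : Subgroup G) (hP : IsPGroup p P) =>
    Cfsg.Agent.S3800.result (Cfsg.pPrimeCore p G) hK P hP
  have hJ : ∀ S : Sylow p G, IsPGroup p (Cfsg.thompsonSubgroupOf p (S : Subgroup G)) :=
    fun S => S.2.to_le (Subgroup.map_subtype_le _)
  have hO : ∀ S : Sylow p G, IsPGroup p (Cfsg.omegaOne p
      ((S : Subgroup G) ⊓ Subgroup.centralizer ((S : Subgroup G) : Set G))) :=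
    fun S => S.2.to_le ((Cfsg.Agent.Lib.Helper14.omegaOne_le p _).trans inf_le_left)
  constructor
  · intro h Sb gb
    obtain ⟨S, rfl⟩ := Sylow.mapSurjective_surjective hsurj p Sb
    obtain ⟨g, rfl⟩ := hsurj gb
    obtain ⟨x, hx, c, hc, n, hn, rfl⟩ := h S g
    rw [Sylow.coe_mapSurjective, ← map_omegaOneZ p _ _ (hinj S),
      ← map_thompsonSubgroupOf p _ _ (hinj S), (hB _ (hJ S)).1, (hB _ (hO S)).2]
    refine ⟨1, one_mem _, _, Subgroup.mem_map_of_mem _ hc, _, Subgroup.mem_map_of_mem _ hn, ?_⟩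
    have hx1 : QuotientGroup.mk' (Cfsg.pPrimeCore p G) x = 1 := (QuotientGroup.eq_one_iff x).2 hx
    rw [map_mul, map_mul, hx1]
  · intro h S g
    obtain ⟨xb, hxb, cb, hcb, nb, hnb, e⟩ :=
      h (S.mapSurjective hsurj) (QuotientGroup.mk' (Cfsg.pPrimeCore p G) g)
    rw [Cfsg.Agent.Lib.Helper37.pPrimeCore_quotient_eq_bot, Subgroup.mem_bot] at hxb
    rw [Sylow.coe_mapSurjective, ← map_omegaOneZ p _ _ (hinj S), (hB _ (hO S)).2] at hcb
    rw [Sylow.coe_mapSurjective, ← map_thompsonSubgroupOf p _ _ (hinj S), (hB _ (hJ S)).1] at hnb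
    obtain ⟨c, hc, rfl⟩ := hcb
    obtain ⟨n, hn, rfl⟩ := hnb
    refine ⟨g * (c * n)⁻¹, ?_, c, hc, n, hn, by group⟩
    rw [← QuotientGroup.eq_one_iff]
    change QuotientGroup.mk' (Cfsg.pPrimeCore p G) (g * (c * n)⁻¹) = 1
    rw [map_mul, e, hxb, map_inv, map_mul, one_mul, mul_inv_cancel]

end Cfsg.Agent.S0609
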