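import Cfsg.Statements.S0615
import Cfsg.Agent.Lib.Helper55.SubnPair

set_option autoImplicit false
open Cfsg

namespace Cfsg.Agent.S0615

/-- Two subnormal subgroups acting irreducibly on their incomparable commutator modules, in a faithful group with trivial largest normal p-subgroup, generate their direct product, and the commutator module splits accordingly. -/
theorem result {G : Type*} [Group G] [Finite G] {p : ℕ} [Fact p.Prime] (V E E₁ E₂ : Subgroup G) (hV : Cfsg.IsElementaryAbelian p V) (hEV : E ≤ Subgroup.normalizer (V : Set G)) (hf : E ⊓ Subgroup.centralizer (V : Set G) = ⊥) (hgen : E = E₁ ⊔ E₂) (hs₁ : (E₁.subgroupOf E).IsSubnormal) (hs₂ : (E₂.subgroupOf E).IsSubnormal) (hOp : Cfsg.pCore p ↥E = ⊥) (hirr₁ : (∀ U : Subgroup G, U ≤ ⁅V, E₁⁆ → E₁ ≤ Subgroup.normalizer (U : Set G) → U = ⊥ ∨ U = ⁅V, E₁⁆)) (hirr₂ :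 (∀ U : Subgroup G, U ≤ ⁅V, E₂⁆ → E₂ ≤ Subgroup.normalizer (U : Set G) → U = ⊥ ∨ U = ⁅V, E₂⁆)) (h12 : ¬ ⁅V, E₁⁆ ≤ ⁅V, E₂⁆) (h21 : ¬ ⁅V, E₂⁆ ≤ ⁅V, E₁⁆) (hc₁ : 2 < Nat.card E₁) (hc₂ : 2 < Nat.card E₂) : ⁅E₁, E₂⁆ = ⊥ ∧ E₁ ⊓ E₂ = ⊥ ∧ ⁅V, E₁⁆ ⊓ ⁅V, E₂⁆ = ⊥ ∧ ⁅V, E⁆ = ⁅V, E₁⁆ ⊔ ⁅V, E₂⁆ := by
  have hE₁ : E₁ ≤ E := hgen ▸ le_sup_left
  have hE₂ : E₂ ≤ E := hgen ▸ le_sup_right
  have S : Cfsg.Agent.Lib.Helper55.SPair p V E E₁ E₂ :=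
    ⟨hV, hEV, hf, hgen, Cfsg.Agent.Lib.Helper55.SN.of_isSubnormal hE₁ hs₁,
      Cfsg.Agent.Lib.Helper55.SN.of_isSubnormal hE₂ hs₂, fun P hP hPp => by
        have := hP.le_pCore hPp
        rw [hOp, Subgroup.map_bot] at this
        exact le_bot_iff.1 this, hirr₁, hirr₂, h12, h21, hc₁, hc₂⟩
  obtain ⟨c1, c2⟩ := Cfsg.Agent.Lib.Helper55.SPair.core _ E E₁ E₂ rfl S
  refine ⟨c1, ?_, c2, ?_⟩
  · have h1 : ⁅V, E₁ ⊓ E₂⁆ ≤ ⁅V, E₁⁆ ⊓ ⁅V, E₂⁆ :=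
      le_inf (Subgroup.commutator_mono le_rfl inf_le_left)
        (Subgroup.commutator_mono le_rfl inf_le_right)
    rw [c2, le_bot_iff, Subgroup.commutator_comm,
      Subgroup.commutator_eq_bot_iff_le_centralizer] at h1
    exact le_bot_iff.1 (hf ▸ le_inf (inf_le_left.trans hE₁) h1)
  · rw [hgen]
    exact Cfsg.Agent.Lib.Helper55.commutator_sup_eq (hE₁.trans hEV) (hE₂.trans hEV)

end Cfsg.Agent.S0615
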