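import Cfsg.Statements.S0625
import Cfsg.Agent.Lib.Helper14.QuadAbstract
import Cfsg.Agent.S0274

set_option autoImplicit false
open Cfsg

namespace Cfsg.Agent.S0625

/-- A p-separable group with p at least 5 is p-stable in the action sense. -/
theorem result {G : Type*} [Group G] [Finite G] {p : ℕ} [Fact p.Prime] (hp : 5 ≤ p) (hsep : Cfsg.IsPSolvable p G) : Cfsg.IsActionPStable p G := by
  have hp2 : p ≠ 2 := by omega
  have hD : Lib.Helper14.DicksonLite p := fun F _ _ _ R hR => Cfsg.Agent.S0274.result p hp2 R hR
  exact Lib.Helper14.isActionPStable_of_not_involves hD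
    (Lib.Helper14.not_involves_SL2_of_isPSolvable hp hsep)

end Cfsg.Agent.S0625
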