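import Cfsg.Statements.S0633
import Cfsg.Agent.Lib.Helper12.HHB.Main
import Cfsg.Agent.Lib.Helper68.HHBBC
import Cfsg.Agent.Lib.Helper68.HHBGRP

set_option autoImplicit false
open Cfsg

namespace Cfsg.Agent.S0633

open Cfsg.Agent.Lib.Helper12.HHB Cfsg.Agent.Lib.Helper68.HHB Polynomial

theorem isIdx_of_minpoly {F : Type*} [Field F] {V : Type*} [AddCommGroup V] [Module F V]
    (f : Module.End F V) (r : ℕ) (hr : minpoly F f = (X - 1) ^ r) : IsIdx (f - 1) r := by
  have hev : ∀ k : ℕ, aeval f ((X - 1 : F[X]) ^ k) = (f - 1) ^ k := by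
    intro k; simp
  refine ⟨?_, fun k hk h0 => ?_⟩
  · rw [← hev, ← hr, minpoly.aeval]
  · rw [← hev] at h0
    have h1 := minpoly.dvd F f h0
    rw [hr] at h1
    have hm : ∀ j : ℕ, ((X - 1 : F[X]) ^ j).natDegree = j := by
      intro j
      have : (X - 1 : F[X]) = X - C 1 := by simp
      rw [this, natDegree_pow, natDegree_X_sub_C, mul_one]
    have h2 := natDegree_le_of_dvd h1 (pow_ne_zero _ (by
      have : (X - 1 : F[X]) = X - C 1 := by simp
      rw [this]; exact X_sub_C_ne_zero 1))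
    rw [hm, hm] at h2
    omega

/-- Theorem B of Hall and Higman on the minimal polynomial of a p-element of order p^n in a p-solvable linear group on a nonzero vector space in characteristic p with no nontrivial normal p-subgroup: its degree is p^n, except when some p^n₀ - 1 (n₀ ≤ n) is a power of a prime q for which the Sylow q-subgroups are non-abelian, in which case the degree is at least p^(n-n₀)(p^n₀ - 1). -/
theorem result {F : Type*} [Field F] {p : ℕ} [Fact p.Prime] [CharP F p] {V : Type*} [AddCommGroup V] [Module F V] [FiniteDimensional F V] [Nontrivial V] (H : Subgroup (V ≃ₗ[F] V)) [Finite H] (hsol : Cfsg.IsPSolvable p H) (hOp : Cfsg.pCore p H = ⊥) (x : V ≃ₗ[F] V) (hx : x ∈ H) (n : ℕ) (hn : orderOf x = p ^ n) (r : ℕ) (hr : minpoly F (x : Module.End F V) = (Polynomial.X - 1) ^ r) : r = p ^ n ∨ ∃ n₀ q m : ℕ, 1 ≤ n₀ ∧ n₀ ≤ n ∧ q.Prime ∧ 1 ≤ m ∧ p ^ n₀ - 1 = q ^ m ∧ (∀ Q : Sylow q H, ¬ IsMulCommutative Q) ∧ p ^ (n - n₀) * (p ^ n₀ - 1) ≤ r := by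
  classical
  cases n with
  | zero =>
    left
    have hx1 : x = 1 := by simpa using hn
    subst hx1
    have h1 : minpoly F ((1 : V ≃ₗ[F] V) : Module.End F V) = X - 1 := by
      have : ((1 : V ≃ₗ[F] V) : Module.End F V) = 1 := rfl
      rw [this, minpoly.one]
    rw [h1] at hr
    have h2 := congrArg natDegree hr
    have e : (X - 1 : F[X]) = X - C 1 := by simp
    rw [e, natDegree_pow, natDegree_X_sub_C, mul_one] at h2
    simpa using h2.symm
  | succ n =>
    have hxo : orderOf (⟨x, hx⟩ : H) = p ^ (n + 1) := by rw [Subgroup.orderOf_mk, hn]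
    obtain ⟨q, hq, Q, hpq, hQ, hxQ, g, hg, hgne⟩ := exists_q_subgroup hsol hOp ⟨x, hx⟩ n hxo
    obtain ⟨β, hβ, hβk⟩ := base_change (F := F) (V := V) (AlgebraicClosure F)
    haveI : CharP (AlgebraicClosure F) p := charP_of_injective_algebraMap (algebraMap F (AlgebraicClosure F)).injective p
    obtain ⟨ι, hι, hιc⟩ : ∃ ι : H →* (Module.End F V)ˣ, Function.Injective ι ∧
        ∀ h : H, ((ι h : (Module.End F V)ˣ) : Module.End F V) = ((h : V ≃ₗ[F] V) : Module.End F V) := by
      refine ⟨(LinearMap.GeneralLinearGroup.generalLinearEquiv F V).symm.toMonoidHom.comp H.subtype, ?_, ?_⟩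
      · exact (LinearMap.GeneralLinearGroup.generalLinearEquiv F V).symm.injective.comp H.subtype_injective
      · intro h; rfl
    obtain ⟨γ, hγ⟩ : ∃ γ : H →* (Module.End (AlgebraicClosure F) (TensorProduct F (AlgebraicClosure F) V))ˣ,
        γ = β.comp ι := ⟨_, rfl⟩
    have hγi : Function.Injective γ := hγ ▸ hβ.comp hι
    have hD : Data p q (Q.map γ) (γ ⟨x, hx⟩) n := by
      refine ⟨?_, hQ.map γ, ?_, ?_, ?_⟩
      · exact Finite.of_surjective (fun a : Q => (⟨γ a.1, Subgroup.mem_map_of_mem γ a.2⟩ : Q.map γ)) (by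
          rintro ⟨_, a, ha, rfl⟩
          exact ⟨⟨a, ha⟩, rfl⟩)
      · rintro _ ⟨a, ha, rfl⟩
        exact ⟨_, hxQ a ha, by simp⟩
      · rw [← map_pow, ← hxo, pow_orderOf_eq_one, map_one]
      · refine ⟨γ g, Subgroup.mem_map_of_mem γ hg, ?_⟩
        rw [← map_pow, ← map_mul, ← map_mul]
        exact fun h => hgne (hγi h)
    have hs0 := isIdx_of_minpoly _ r hr
    have hs : IsIdx (((γ ⟨x, hx⟩ : (Module.End (AlgebraicClosure F) (TensorProduct F (AlgebraicClosure F) V))ˣ) :
        Module.End (AlgebraicClosure F) (TensorProduct F (AlgebraicClosure F) V)) - 1) r := by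
      have e : ∀ k, (((γ ⟨x, hx⟩ : (Module.End (AlgebraicClosure F) (TensorProduct F (AlgebraicClosure F) V))ˣ) :
        Module.End (AlgebraicClosure F) (TensorProduct F (AlgebraicClosure F) V)) - 1) ^ k = 0 ↔
          ((x : Module.End F V) - 1) ^ k = 0 := by
        intro k
        rw [hγ, MonoidHom.comp_apply, hβk, hιc]
      exact ⟨(e r).2 hs0.1, fun k hk h0 => hs0.2 k hk ((e k).1 h0)⟩
    rcases main hpq (Q.map γ) (γ ⟨x, hx⟩) n r hD hs with h | ⟨n₀, m, h1, h2, h3, h4, h5, h6⟩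
    · exact Or.inl h
    · refine Or.inr ⟨n₀, q, m, h1, h2, hq.out, h3, h4, ?_, h6⟩
      intro S hS
      apply h5
      obtain ⟨S₀, hS₀⟩ := hQ.exists_le_sylow
      obtain ⟨c, rfl⟩ := MulAction.exists_smul_eq H S S₀
      rintro _ ⟨a, ha, rfl⟩ _ ⟨b, hb, rfl⟩
      rw [← map_mul, ← map_mul]
      congr 1
      have ha' := hS₀ ha
      have hb' := hS₀ hb
      rw [Sylow.coe_subgroup_smul, Subgroup.mem_pointwise_smul_iff_inv_smul_mem] at ha' hb'
      have h7 := hS.is_comm.comm ⟨_, ha'⟩ ⟨_, hb'⟩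
      have h8 := congrArg (fun z : (S : Subgroup H) => (z : H)) h7
      simp only [Subgroup.coe_mul, MulAut.smul_def, MulAut.conj_apply, inv_inv] at h8
      have h9 := congrArg (fun z => c * z * c⁻¹) h8
      simpa [mul_assoc] using h9

end Cfsg.Agent.S0633
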