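import Cfsg.Statements.S0635
import Cfsg.Agent.Lib.Helper14.PSeries

set_option autoImplicit false
open Cfsg

namespace Cfsg.Agent.S0635

open Cfsg.Agent.Lib.Helper14

/-- The p-length of a p-soluble group is at most the nilpotency class of its Sylow p-subgroups. -/
theorem result {G : Type*} [Group G] [Finite G] {p : ℕ} [Fact p.Prime] (hsol : Cfsg.IsPSolvable p G) (S : Sylow p G) : Cfsg.PLengthLE p (Group.nilpotencyClass ↥(S : Subgroup G)) G := by
  have hp : p.Prime := Fact.out
  have key : ∀ j : ℕ, (Subgroup.upperCentralSeries ↥(S : Subgroup G) j).map (S : Subgroup G).subtype ≤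
      (Cfsg.upperPSeries p G (2 * j)).1 := by
    intro j
    induction j with
    | zero => simp
    | succ j ih =>
      rintro _ ⟨z, hz, rfl⟩
      rw [SetLike.mem_coe, Subgroup.mem_upperCentralSeries_succ_iff] at hz
      show ((S : Subgroup G).subtype z) ∈ (Cfsg.upperPSeries p G (2 * j + 1 + 1)).1
      rw [upperPSeries_succ_of_not_even p G (n := 2 * j + 1) (by simp), Subgroup.mem_comap]
      apply centralizer_pCore_le_of_isPSolvable (IsPSolvable.quotient hsol _)
        (pPrimeCore_quotient_upperPSeries_odd j)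
      rw [Subgroup.mem_centralizer_iff]
      intro y hy
      obtain ⟨s, hs, rfl⟩ := pCore_le_sylow (S.mapSurjective (QuotientGroup.mk'_surjective _)) hy
      have h1 : (S : Subgroup G).subtype (z * ⟨s, hs⟩ * z⁻¹ * (⟨s, hs⟩ : ↥(S : Subgroup G))⁻¹) ∈
          (Cfsg.upperPSeries p G (2 * j + 1)).1 :=
        upperPSeries_le_succ p G (2 * j) (ih (Subgroup.mem_map_of_mem _ (hz ⟨s, hs⟩)))
      have h2 := (QuotientGroup.eq_one_iff _).mpr h1
      simp only [Subgroup.subtype_apply, Subgroup.coe_mul, Subgroup.coe_inv,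
        QuotientGroup.mk_mul, QuotientGroup.mk_inv] at h2
      simp only [QuotientGroup.mk'_apply, Subgroup.subtype_apply]
      rw [mul_inv_eq_one, mul_inv_eq_iff_eq_mul] at h2
      exact h2.symm
  have hnil : Group.IsNilpotent ↥(S : Subgroup G) := S.2.isNilpotent
  have htop := key (Group.nilpotencyClass ↥(S : Subgroup G))
  rw [Subgroup.upperCentralSeries_nilpotencyClass, ← MonoidHom.range_eq_map,
    Subgroup.range_subtype] at htop
  unfold Cfsg.PLengthLE
  rw [upperPSeries_succ_of_even p G (n := 2 * Group.nilpotencyClass ↥(S : Subgroup G)) (by simp),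
    eq_top_iff]
  apply le_comap_pPrimeCore _ inferInstance
  rw [Subgroup.relIndex_top_right]
  have h1 : ¬ p ∣ (S : Subgroup G).index := S.not_dvd_index
  have h2 := Subgroup.index_dvd_of_le htop
  exact ((Nat.Prime.coprime_iff_not_dvd hp).mpr (fun h => h1 (h.trans h2))).symm

end Cfsg.Agent.S0635
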