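import Cfsg.Statements.S0636
import Cfsg.Agent.S0127
import Cfsg.Agent.Lib.Helper3.PGroup
import Cfsg.Agent.Lib.Helper14.PSeries
import Cfsg.Agent.Lib.Helper57.SylowNormal

set_option autoImplicit false
open Cfsg

namespace Cfsg.Agent.S0636

open Subgroup in
theorem exists_normal_relIndex_p {R : Type*} [Group R] [Finite R] {p : ℕ} [hp : Fact p.Prime]
    (hR : IsPGroup p R) (S : Subgroup R) [S.Normal] (hS : S ≠ ⊥) :
    ∃ M : Subgroup R, M ≤ S ∧ M.Normal ∧ M.relIndex S = p := by
  classical
  let 𝒮 : Set (Subgroup R) := {M | M.Normal ∧ M < S}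
  have hne : 𝒮.Nonempty := ⟨⊥, inferInstance, bot_lt_iff_ne_bot.mpr hS⟩
  obtain ⟨M, hMmax⟩ := (Set.toFinite 𝒮).exists_maximal hne
  obtain ⟨hMn, hMS⟩ := hMmax.prop
  haveI := hMn
  set π := QuotientGroup.mk' M with hπ
  have hSb : S.map π ≠ ⊥ := by
    intro h
    have h2 : S ≤ M := by
      rw [← QuotientGroup.ker_mk' M]
      exact (Subgroup.map_eq_bot_iff S).mp h
    exact absurd h2 (not_le_of_gt hMS)
  haveI : (S.map π).Normal := Subgroup.Normal.map inferInstance π (QuotientGroup.mk'_surjective M)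
  have hq : IsPGroup p (R ⧸ M) := hR.to_quotient M
  have h1 := Cfsg.Agent.Lib.Helper3.normal_inf_center_ne_bot' hq (S.map π) hSb
  set Z := S.map π ⊓ center (R ⧸ M) with hZ
  have hZp : IsPGroup p Z := hq.to_subgroup Z
  have hdvd : p ∣ Nat.card Z :=
    hZp.card_eq_or_dvd.resolve_left (fun h => h1 (Subgroup.card_eq_one.mp h))
  obtain ⟨z, hz⟩ := exists_prime_orderOf_dvd_card' p hdvd
  have hzo : orderOf (z : R ⧸ M) = p := by rw [Subgroup.orderOf_coe]; exact hz
  have hzn : (zpowers (z : R ⧸ M)).Normal := by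
    constructor
    intro n hn g
    have hc : zpowers (z : R ⧸ M) ≤ center (R ⧸ M) := by
      rw [zpowers_le]; exact z.2.2
    have : g * n * g⁻¹ = n := by
      rw [(mem_center_iff.mp (hc hn) g)]; group
    rwa [this]
  set M' := (zpowers (z : R ⧸ M)).comap π with hM'
  have hM'n : M'.Normal := inferInstance
  have hMM' : M ≤ M' := by
    intro g hg
    rw [hM', mem_comap]
    have : π g = 1 := (QuotientGroup.eq_one_iff g).mpr hg
    rw [this]; exact one_mem _
  have hM'S : M' ≤ S := by
    intro g hg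
    have h2 : π g ∈ S.map π := by
      have hc : zpowers (z : R ⧸ M) ≤ S.map π := by
        rw [zpowers_le]; exact z.2.1
      exact hc hg
    obtain ⟨s, hs, hsg⟩ := h2
    have h3 : s⁻¹ * g ∈ M := by
      rw [← QuotientGroup.eq_one_iff]
      show π (s⁻¹ * g) = 1
      rw [map_mul, map_inv, hsg]; group
    have : g = s * (s⁻¹ * g) := by group
    rw [this]
    exact S.mul_mem hs (hMS.le h3)
  have hmap : M'.map π = zpowers (z : R ⧸ M) :=
    Subgroup.map_comap_eq_self_of_surjective (QuotientGroup.mk'_surjective M) _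
  have hM'eq : M' = S := by
    by_contra hne'
    have hmem : M' ∈ 𝒮 := ⟨hM'n, lt_of_le_of_ne hM'S hne'⟩
    have hle : M' ≤ M := hMmax.le_of_ge hmem hMM'
    have h4 : M'.map π = ⊥ := by
      rw [Subgroup.map_eq_bot_iff, QuotientGroup.ker_mk']; exact hle
    rw [hmap, zpowers_eq_bot] at h4
    rw [h4, orderOf_one] at hzo
    exact hp.out.one_lt.ne hzo
  refine ⟨M, hMS.le, hMn, ?_⟩
  rw [← Cfsg.Agent.Lib.Helper14.card_map_mk' M S, ← hM'eq, hmap, Nat.card_zpowers, hzo]

/-- For odd p, every non-cyclic normal subgroup of a p-group contains a normal elementary abelian subgroup of the whole group of order p². -/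
theorem result {R : Type*} [Group R] [Finite R] {p : ℕ} [Fact p.Prime] (hp : p ≠ 2) (hR : IsPGroup p R) (S : Subgroup R) [S.Normal] (hS : ¬ IsCyclic S) : ∃ A : Subgroup R, A ≤ S ∧ A.Normal ∧ Cfsg.IsElementaryAbelian p A ∧ Nat.card A = p ^ 2 := by
  classical
  induction hn : Nat.card S using Nat.strong_induction_on generalizing S with
  | _ n ih =>
    have hSne : S ≠ ⊥ := by
      rintro rfl
      exact hS inferInstance
    obtain ⟨M, hMS, hMn, hMi⟩ := exists_normal_relIndex_p hR S hSne
    by_cases hMc : IsCyclic M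
    · -- apply S0127 inside `S`
      have hSp : IsPGroup p S := hR.to_subgroup S
      have hMc' : IsCyclic (M.subgroupOf S) :=
        (Subgroup.subgroupOfEquivOfLe hMS).isCyclic.mpr hMc
      obtain ⟨hEA, hcard⟩ := Cfsg.Agent.S0127.result hp hSp hS (M.subgroupOf S) hMc' hMi
      set Ω := Subgroup.closure {x : S | x ^ p = 1} with hΩ
      have hmapeq : Ω.map S.subtype = Subgroup.closure {x : R | x ∈ S ∧ x ^ p = 1} := by
        rw [hΩ, MonoidHom.map_closure]
        congr 1
        ext x
        constructor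
        · rintro ⟨y, hy, rfl⟩
          exact ⟨y.2, by simpa using congrArg Subtype.val hy⟩
        · rintro ⟨h1, h2⟩
          exact ⟨⟨x, h1⟩, Subtype.ext h2, rfl⟩
      refine ⟨Ω.map S.subtype, Subgroup.map_subtype_le _, ?_, ⟨?_, ?_⟩, ?_⟩
      · rw [hmapeq]
        apply Cfsg.Agent.Lib.Helper57.closure_normal_of_conj
        rintro g x ⟨h1, h2⟩
        refine ⟨Subgroup.Normal.conj_mem inferInstance x h1 g, ?_⟩
        rw [conj_pow, h2]; group
      · have := hEA.1
        exact Subgroup.map_isMulCommutative Ω S.subtype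
      · rintro _ ⟨y, hy, rfl⟩
        have := hEA.2 y hy
        simpa using congrArg Subtype.val this
      · rw [Subgroup.card_map_of_injective S.subtype_injective, hcard]
    · have hlt : Nat.card M < n := by
        rw [← hn]
        have h1 := Cfsg.Agent.Lib.Helper57.card_mul_relIndex hMS
        rw [hMi] at h1
        have hpos : 0 < Nat.card M := Nat.card_pos
        have hp2 : 2 ≤ p := (Fact.out : p.Prime).two_le
        nlinarith
      haveI := hMn
      obtain ⟨A, hA, hrest⟩ := ih (Nat.card M) hlt M hMc rfl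
      exact ⟨A, hA.trans hMS, hrest⟩

end Cfsg.Agent.S0636
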