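import Cfsg.Statements.S0642
import Cfsg.Agent.Lib.Helper14.Basic

set_option autoImplicit false
open Cfsg

namespace Cfsg.Agent.S0642

open Cfsg.Agent.Lib.Helper14
open scoped commutatorElement

/-- Among finite 2-groups the regular ones are exactly the abelian ones. -/
theorem result {G : Type*} [Group G] [Finite G] (hG : IsPGroup 2 G) : Cfsg.IsRegularPGroup 2 G ↔ ∀ a b : G, a * b = b * a := by
  constructor
  · rintro ⟨-, hreg⟩ a b
    obtain ⟨c, hc, hcab⟩ := hreg a b 1
    set H := Subgroup.closure ({a, b} : Set G) with hH
    set D := ⁅H, H⁆ with hD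
    set M := Cfsg.powerClosure 2 1 D with hM
    have haH : a ∈ H := Subgroup.subset_closure (by simp)
    have hbH : b ∈ H := Subgroup.subset_closure (by simp)
    have hHN : H ≤ Subgroup.normalizer (M : Set G) :=
      (Subgroup.normalizer_commutator_ge_left (H₁ := H) (H₂ := H)).trans
        (normalizer_le_normalizer_powerClosure 2 1 D)
    have hcomm : ⁅a, b⁆ ∈ M := by
      have h1 : ⁅a, b⁆ = (a * b * (b * c * b⁻¹) * (a * b)⁻¹)⁻¹ := by
        have h2 : b * a = a * b * (b * c * b⁻¹) := by
          have h3 : a * (b * a) * b = a * (a * b * (b * c * b⁻¹)) * b := by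
            have : (a * b) ^ (2 ^ 1) = a * (b * a) * b := by
              simp only [pow_one, pow_two]; group
            rw [← this, hcab]
            simp only [pow_one, pow_two]; group
          exact mul_left_cancel (mul_right_cancel h3)
        rw [← h2, commutatorElement_def]
        group
      rw [h1]
      apply M.inv_mem
      exact conj_mem_of_mem_normalizer (hHN (H.mul_mem haH hbH))
        (conj_mem_of_mem_normalizer (hHN hbH) hc)
    have hDM : D ≤ M := commutator_closure_pair_le a b M hHN hcomm
    have hDbot : D = ⊥ := eq_bot_of_le_powerClosure hG D 0 hDM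
    have : ⁅a, b⁆ ∈ D := Subgroup.commutator_mem_commutator haH hbH
    rw [hDbot, Subgroup.mem_bot, commutatorElement_eq_one_iff_mul_comm] at this
    exact this
  · intro hcomm
    refine ⟨hG, fun a b n => ⟨1, Subgroup.one_mem _, ?_⟩⟩
    rw [mul_one]
    exact (show Commute a b from hcomm a b).mul_pow _

end Cfsg.Agent.S0642
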