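import Cfsg.Statements.S0645
import Cfsg.Agent.S0127

set_option autoImplicit false
open Cfsg

namespace Cfsg.Agent.S0645

theorem modEq_one_of_pow_prime {p : ℕ} [hp : Fact p.Prime] (hodd : p ≠ 2) {k N : ℕ}
    (h : k ^ p ≡ 1 [MOD p ^ (N+1)]) : k ≡ 1 [MOD p ^ N] := by
  have hk1 : k ≡ 1 [MOD p] := by
    have h1 : k ^ p ≡ 1 [MOD p] := h.of_dvd (dvd_pow_self p (Nat.succ_ne_zero N))
    have h2 : ((k ^ p : ℕ) : ZMod p) = ((1 : ℕ) : ZMod p) := (ZMod.natCast_eq_natCast_iff _ _ _).mpr h1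
    rw [Nat.cast_pow, ZMod.pow_card] at h2
    exact (ZMod.natCast_eq_natCast_iff _ _ _).mp h2
  have hpk : ¬ p ∣ k := by
    intro hd
    have h0 : k ≡ 0 [MOD p] := (Nat.modEq_zero_iff_dvd).mpr hd
    have h01 : (0:ℕ) ≡ 1 [MOD p] := h0.symm.trans hk1
    have := (Nat.modEq_iff_dvd' (by norm_num : 0 ≤ 1)).mp h01
    exact hp.out.one_lt.ne' (Nat.dvd_one.mp (by simpa using this))
  have hk0 : 1 ≤ k := by
    rcases Nat.eq_zero_or_pos k with rfl | h
    · exact absurd (dvd_zero p) hpk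
    · exact h
  rcases Nat.eq_or_lt_of_le hk0 with h1 | h1
  · rw [← h1]
  have hd : p ∣ k - 1 := (Nat.modEq_iff_dvd' hk0).mp hk1.symm
  have hlte := padicValNat.pow_sub_pow (p := p) (hp.out.odd_of_ne_two hodd) h1 hd hpk
    (n := p) hp.out.ne_zero
  rw [one_pow, padicValNat_self] at hlte
  have hkp : 1 ≤ k ^ p := Nat.one_le_pow _ _ hk0
  have hd2 : p ^ (N+1) ∣ k ^ p - 1 := (Nat.modEq_iff_dvd' hkp).mp h.symm
  have hne : k ^ p - 1 ≠ 0 := by
    have : 1 < k ^ p := Nat.one_lt_pow hp.out.ne_zero h1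
    omega
  have h3 := (padicValNat_dvd_iff_le hne).mp hd2
  have h4 : N ≤ padicValNat p (k - 1) := by omega
  have h5 : p ^ N ∣ k - 1 := (padicValNat_dvd_iff_le (by omega)).mpr h4
  exact ((Nat.modEq_iff_dvd' hk0).mpr h5).symm

theorem one_add_mul_pow_modEq (p m j : ℕ) (i : ℕ) :
    (1 + p ^ (m+1) * j) ^ i ≡ 1 + i * j * p ^ (m+1) [MOD p ^ (m+2)] := by
  induction i with
  | zero => simp [Nat.ModEq]
  | succ i ih =>
    rw [pow_succ]
    have h1 := ih.mul_right (1 + p ^ (m+1) * j)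
    refine h1.trans ?_
    have h2 : (1 + i * j * p ^ (m+1)) * (1 + p ^ (m+1) * j)
        = (1 + (i + 1) * j * p ^ (m+1)) + p ^ (m+2) * (i * j * j * p ^ m) := by ring
    rw [h2]
    unfold Nat.ModEq
    rw [Nat.add_mul_mod_self_left]

/-- Classification of p-groups with a cyclic maximal subgroup, odd p: a non-abelian one of order p^n has generators a of order p^(n-1) and b of order p, b outside the cyclic subgroup generated by a, with b a b⁻¹ = a^(1 + p^(n-2)). -/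
theorem result {G : Type*} [Group G] [Finite G] {p : ℕ} [Fact p.Prime] (hp : p ≠ 2) (n : ℕ) (hn : 3 ≤ n) (hG : Nat.card G = p ^ n) (C : Subgroup G) (hC : IsCyclic C) (hCi : C.index = p) (hna : ∃ x y : G, x * y ≠ y * x) : ∃ a b : G, orderOf a = p ^ (n - 1) ∧ orderOf b = p ∧ b ∉ Subgroup.zpowers a ∧ b * a * b⁻¹ = a ^ (1 + p ^ (n - 2)) := by
  classical
  have hpp : p.Prime := Fact.out
  have hpG : IsPGroup p G := IsPGroup.of_card hG
  obtain ⟨N, rfl⟩ : ∃ N, n = N + 3 := ⟨n - 3, by omega⟩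
  have hn1 : N + 3 - 1 = N + 2 := by omega
  have hn2 : N + 3 - 2 = N + 1 := by omega
  rw [hn1, hn2]
  obtain ⟨⟨a₀, ha₀C⟩, hgen⟩ := hC.exists_generator
  have hCz : C = Subgroup.zpowers a₀ := by
    apply le_antisymm
    · intro c hc
      obtain ⟨z, hz⟩ := Subgroup.mem_zpowers_iff.mp (hgen ⟨c, hc⟩)
      exact Subgroup.mem_zpowers_iff.mpr ⟨z, by simpa using congrArg Subtype.val hz⟩
    · rwa [Subgroup.zpowers_le]
  have hcardC : Nat.card C = p ^ (N + 2) := by
    have h := C.card_mul_index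
    rw [hCi, hG, pow_succ] at h
    exact Nat.eq_of_mul_eq_mul_right hpp.pos h
  have hord : orderOf a₀ = p ^ (N + 2) := by
    rw [← Nat.card_zpowers, ← hCz, hcardC]
  have hCn : C.Normal := by
    apply Subgroup.normal_of_index_eq_minFac_card
    rw [hCi, hG, Nat.pow_minFac (by omega), hpp.minFac_eq]
  have hnc : ¬ IsCyclic G := by
    intro h
    obtain ⟨x, y, hxy⟩ := hna
    exact hxy ((@IsCyclic.isMulCommutative G _ h).is_comm.comm x y)
  obtain ⟨hEA, hcard⟩ := Cfsg.Agent.S0127.result hp hpG hnc C hC hCi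
  set Ω := Subgroup.closure {x : G | x ^ p = 1} with hΩ
  have hex : ∃ b₀ ∈ Ω, b₀ ∉ C := by
    by_contra hcon
    push Not at hcon
    have hle : Ω ≤ C := hcon
    have hcyc : IsCyclic (Ω.subgroupOf C) := inferInstance
    have hcyc2 : IsCyclic Ω := (Subgroup.subgroupOfEquivOfLe hle).isCyclic.mp hcyc
    obtain ⟨g, hg⟩ := hcyc2.exists_generator
    have h1 : orderOf g = Nat.card Ω := orderOf_eq_card_of_forall_mem_zpowers hg
    have h2 : g ^ p = 1 := Subtype.ext (hEA.2 g g.2)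
    have h3 : orderOf g ∣ p := orderOf_dvd_of_pow_eq_one h2
    rw [h1, hcard] at h3
    have h4 := Nat.le_of_dvd hpp.pos h3
    have h5 : p < p ^ 2 := by nlinarith [hpp.one_lt]
    omega
  obtain ⟨b₀, hb₀Ω, hb₀C⟩ := hex
  have hb₀p : b₀ ^ p = 1 := hEA.2 b₀ hb₀Ω
  have hmax : ∀ H : Subgroup G, C ≤ H → b₀ ∈ H → H = ⊤ := by
    intro H hCH hbH
    have h1 := Subgroup.relIndex_mul_index hCH
    rw [hCi] at h1
    have h2 : C.relIndex H ≠ 1 := by
      intro h
      exact hb₀C (Subgroup.relIndex_eq_one.mp h hbH)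
    have h3 : C.relIndex H = p := ((Nat.dvd_prime hpp).mp ⟨_, h1.symm⟩).resolve_left h2
    rw [h3] at h1
    have h4 : H.index = 1 := by
      have : p * H.index = p * 1 := by rw [h1, mul_one]
      exact Nat.eq_of_mul_eq_mul_left hpp.pos this
    exact Subgroup.index_eq_one.mp h4
  have hconjC : b₀ * a₀ * b₀⁻¹ ∈ Subgroup.zpowers a₀ := hCz ▸ hCn.conj_mem a₀ ha₀C b₀
  obtain ⟨k, hk⟩ : ∃ k : ℕ, a₀ ^ k = b₀ * a₀ * b₀⁻¹ := by
    have := (mem_powers_iff_mem_zpowers).mpr hconjC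
    exact Submonoid.mem_powers_iff _ _ |>.mp this
  have hne : b₀ * a₀ * b₀⁻¹ ≠ a₀ := by
    intro h
    have hcomm : b₀ * a₀ = a₀ * b₀ := by
      calc b₀ * a₀ = b₀ * a₀ * b₀⁻¹ * b₀ := by group
        _ = a₀ * b₀ := by rw [h]
    have h1 : Subgroup.centralizer {a₀} = ⊤ := by
      apply hmax
      · rw [hCz, Subgroup.zpowers_le, Subgroup.mem_centralizer_singleton_iff]
      · rw [Subgroup.mem_centralizer_singleton_iff]; exact hcomm
    have h2 : Subgroup.centralizer {b₀} = ⊤ := by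
      apply hmax
      · rw [hCz, Subgroup.zpowers_le, Subgroup.mem_centralizer_singleton_iff]; exact hcomm.symm
      · rw [Subgroup.mem_centralizer_singleton_iff]
    have h3 : Subgroup.center G = ⊤ := by
      apply hmax
      · rw [hCz, Subgroup.zpowers_le, Subgroup.mem_center_iff]
        intro g
        have : g ∈ Subgroup.centralizer {a₀} := h1 ▸ Subgroup.mem_top g
        exact (Subgroup.mem_centralizer_singleton_iff.mp this)
      · rw [Subgroup.mem_center_iff]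
        intro g
        have : g ∈ Subgroup.centralizer {b₀} := h2 ▸ Subgroup.mem_top g
        exact (Subgroup.mem_centralizer_singleton_iff.mp this)
    obtain ⟨x, y, hxy⟩ := hna
    have : x ∈ Subgroup.center G := h3 ▸ Subgroup.mem_top x
    exact hxy ((Subgroup.mem_center_iff.mp this y).symm)
  have hpow : ∀ i : ℕ, b₀ ^ i * a₀ * (b₀ ^ i)⁻¹ = a₀ ^ (k ^ i) := by
    intro i
    induction i with
    | zero => simp
    | succ i ih =>
      have h0 : b₀ ^ (i+1) * a₀ * (b₀ ^ (i+1))⁻¹ = b₀ * (b₀ ^ i * a₀ * (b₀ ^ i)⁻¹) * b₀⁻¹ := by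
        rw [pow_succ']; group
      rw [h0, ih, ← conj_pow, ← hk, ← pow_mul, pow_succ']
  have hkp : k ^ p ≡ 1 [MOD p ^ (N + 2)] := by
    have h1 := hpow p
    rw [hb₀p] at h1
    have h2 : a₀ ^ (k ^ p) = a₀ ^ 1 := by rw [← h1]; simp
    rw [← hord]
    exact pow_eq_pow_iff_modEq.mp h2
  have hk1 : k ≡ 1 [MOD p ^ (N + 1)] := modEq_one_of_pow_prime hp hkp
  have hk0 : 1 ≤ k := by
    rcases Nat.eq_zero_or_pos k with rfl | h
    · exfalso
      have h1 := (Nat.modEq_iff_dvd' (by norm_num : 0 ≤ 1)).mp hk1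
      have h2 : p ∣ 1 := (dvd_pow_self p (Nat.succ_ne_zero N)).trans (by simpa using h1)
      exact hpp.one_lt.ne' (Nat.dvd_one.mp h2)
    · exact h
  obtain ⟨j, hj⟩ := (Nat.modEq_iff_dvd' hk0).mp hk1.symm
  have hkj : k = 1 + p ^ (N + 1) * j := by omega
  have hpj : ¬ p ∣ j := by
    rintro ⟨t, rfl⟩
    apply hne
    rw [← hk]
    have : k ≡ 1 [MOD orderOf a₀] := by
      rw [hord, hkj]
      have : 1 + p ^ (N + 1) * (p * t) = 1 + p ^ (N + 2) * t := by ring
      rw [this]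
      unfold Nat.ModEq
      rw [Nat.add_mul_mod_self_left]
    have h2 := pow_eq_pow_iff_modEq.mpr this
    rw [h2, pow_one]
  obtain ⟨i, -, hi⟩ := Nat.exists_mul_mod_eq_one_of_coprime
    ((Nat.Prime.coprime_iff_not_dvd hpp).mpr hpj).symm hpp.one_lt
  have hji : j * i = 1 + p * (j * i / p) := by
    have := Nat.mod_add_div (j * i) p
    omega
  set t := j * i / p with ht
  have hb₀pow : (b₀ ^ i) ^ j = b₀ := by
    rw [← pow_mul, mul_comm, hji, pow_add, pow_one, pow_mul, hb₀p, one_pow, mul_one]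
  have hbC : b₀ ^ i ∉ Subgroup.zpowers a₀ := by
    intro h
    apply hb₀C
    rw [hCz, ← hb₀pow]
    exact Subgroup.pow_mem _ h j
  refine ⟨a₀, b₀ ^ i, hord, ?_, hbC, ?_⟩
  · apply orderOf_eq_prime
    · rw [← pow_mul, mul_comm, pow_mul, hb₀p, one_pow]
    · intro h
      exact hbC (h ▸ Subgroup.one_mem _)
  · rw [hpow i]
    apply pow_eq_pow_iff_modEq.mpr
    rw [hord, hkj]
    refine (one_add_mul_pow_modEq p N j i).trans ?_
    have h1 : 1 + i * j * p ^ (N + 1) = (1 + p ^ (N + 1)) + p ^ (N + 2) * t := by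
      have : i * j = 1 + p * t := by rw [mul_comm]; exact hji
      rw [this]; ring
    rw [h1]
    unfold Nat.ModEq
    rw [Nat.add_mul_mod_self_left]

end Cfsg.Agent.S0645
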