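import Cfsg.Statements.S0657
import Cfsg.Agent.Lib.Helper14.PStableReduction
import Cfsg.Agent.Lib.Helper14.QuadAbstract
import Cfsg.Agent.S0274

set_option autoImplicit false
open Cfsg

namespace Cfsg.Agent.S0657

/-- For odd p, a group that fails to be p-stable modulo its largest normal subgroup of order prime to p, and whose upper p-series does not stop there, has a section isomorphic to SL(2, p). -/
theorem result {G : Type*} [Group G] [Finite G] {p : ℕ} [Fact p.Prime] (hp : p ≠ 2) (hO : Cfsg.pPrimeCore p G < Cfsg.pPrimePCore p G) (hns : ¬ Cfsg.IsPStable p (G ⧸ Cfsg.pPrimeCore p G)) : ∃ (K L : Subgroup G) (hL : (L.subgroupOf K).Normal), K ≤ ⊤ ∧ Nonempty ((K ⧸ L.subgroupOf K) ≃* Matrix.SpecialLinearGroup (Fin 2) (ZMod p)) := by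
  classical
  by_contra hcon
  have hfree : ¬ Cfsg.Involves (Matrix.SpecialLinearGroup (Fin 2) (ZMod p)) G := by
    rintro ⟨K, L, hL, e⟩
    exact hcon ⟨K, L, hL, le_top, e⟩
  have hD : Cfsg.Agent.Lib.Helper14.DicksonLite p :=
    fun F _ _ _ R hR => Cfsg.Agent.S0274.result p hp R hR
  have hfree' : ¬ Cfsg.Involves (Matrix.SpecialLinearGroup (Fin 2) (ZMod p))
      (G ⧸ Cfsg.pPrimeCore p G) :=
    fun h => hfree (Cfsg.Agent.Lib.Helper14.involves_of_quotient _ h)
  have hNPS : Cfsg.IsNormalizerPStable p (G ⧸ Cfsg.pPrimeCore p G) := by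
    apply Cfsg.Agent.Lib.Helper14.isNormalizerPStable_of_local
      (fun Γ _ => ¬ Cfsg.Involves (Matrix.SpecialLinearGroup (Fin 2) (ZMod p)) Γ)
    · intro Γ _ N _ h h'
      exact h (Cfsg.Agent.Lib.Helper14.involves_of_quotient _ h')
    · intro Γ _ _ h V _ hV
      exact Cfsg.Agent.Lib.Helper14.isPStableOn_of_not_involves hD V hV h
    · intro P _ _ h'
      exact hfree' (Cfsg.Agent.Lib.Helper57.Qd.involves_of_injective (Subgroup.subtype _)
        (Subgroup.subtype_injective _) h')
  apply hns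
  refine ⟨(Fact.out : p.Prime).odd_of_ne_two hp, ?_, ?_⟩
  · intro hbot
    apply ne_of_lt hO
    unfold Cfsg.pPrimePCore
    rw [hbot]
    simp [MonoidHom.comap_bot]
  · intro A P hA hP hAP _ _ hq
    rintro _ ⟨⟨a, haN⟩, haA, rfl⟩
    apply hNPS P hP a haN
    have haA' : a ∈ A := haA
    have hle : Subgroup.zpowers a ≤ A := by
      rw [Subgroup.zpowers_le]; exact haA'
    exact le_bot_iff.mp (hq ▸ Subgroup.commutator_mono (Subgroup.commutator_mono le_rfl hle) hle)

end Cfsg.Agent.S0657
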