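import Cfsg.Statements.S0663
import Cfsg.Agent.Lib.Helper1.Coprime2
import Cfsg.Agent.Lib.Helper1.PGroup
import Cfsg.Agent.Lib.Helper11.AxB

set_option autoImplicit false
open Cfsg

namespace Cfsg.Agent.S0663

open Cfsg.Agent.Lib.Helper1 Cfsg.Agent.Lib.Helper11
open scoped commutatorElement

variable {L : Type*} [Group L]

theorem iter_succ (N G : Subgroup L) (i : ℕ) :
    iterCommutator N G (i + 1) = ⁅iterCommutator N G i, G⁆ := rfl

theorem iter_zero (N G : Subgroup L) : iterCommutator N G 0 = N := rfl

theorem iter_normalizer (N G : Subgroup L) (hGN : G ≤ Subgroup.normalizer (N : Set L)) (i : ℕ) :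
    G ≤ Subgroup.normalizer (iterCommutator N G i : Set L) := by
  cases i with
  | zero => exact hGN
  | succ i => exact le_sup_right.trans (sup_le_normalizer_commutator _ G)

theorem iter_succ_le (N G : Subgroup L) (hGN : G ≤ Subgroup.normalizer (N : Set L)) (i : ℕ) :
    iterCommutator N G (i + 1) ≤ iterCommutator N G i :=
  commutator_le_left_of_le_normalizer (iter_normalizer N G hGN i)

theorem iter_antitone (N G : Subgroup L) (hGN : G ≤ Subgroup.normalizer (N : Set L)) :
    Antitone (iterCommutator N G) :=
  antitone_nat_of_succ_le (iter_succ_le N G hGN)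

theorem iter_mono (N : Subgroup L) {G M : Subgroup L} (h : G ≤ M) (i : ℕ) :
    iterCommutator N G i ≤ iterCommutator N M i := by
  induction i with
  | zero => exact le_rfl
  | succ i ih => exact Subgroup.commutator_mono ih h

theorem iter_add (N G : Subgroup L) (i k : ℕ) :
    iterCommutator (iterCommutator N G i) G k = iterCommutator N G (i + k) := by
  induction k with
  | zero => rfl
  | succ k ih => rw [iter_succ, ih]; rfl

/-- The orders along the chain drop at least by `p` at each step. -/
theorem card_iter_dvd [Finite L] {p : ℕ} [Fact p.Prime] (N G : Subgroup L) (hN : IsPGroup p N)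
    (hG : IsPGroup p G) (hGN : G ≤ Subgroup.normalizer (N : Set L)) (n : ℕ)
    (hn : Nat.card N = p ^ n) (i : ℕ) : Nat.card (iterCommutator N G i) ∣ p ^ (n - i) := by
  have hp : p.Prime := Fact.out
  induction i with
  | zero => rw [iter_zero, hn]; simp
  | succ i ih =>
    by_cases hb : iterCommutator N G i = ⊥
    · rw [iter_succ, hb, Subgroup.commutator_bot_left]
      simp
    · have hle : iterCommutator N G i ≤ N := (iter_antitone N G hGN) (Nat.zero_le i)
      have hlt := commutator_lt_of_isPGroup (iterCommutator N G i) G (hN.to_le hle) hG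
        (iter_normalizer N G hGN i) hb
      rw [← iter_succ] at hlt
      have hcl : Nat.card (iterCommutator N G (i + 1)) < Nat.card (iterCommutator N G i) :=
        Set.ncard_lt_ncard (SetLike.coe_ssubset_coe.mpr hlt) (Set.toFinite _)
      have hd : Nat.card (iterCommutator N G (i + 1)) ∣ p ^ (n - i) :=
        (Subgroup.card_dvd_of_le hlt.le).trans ih
      obtain ⟨k, hk, hk'⟩ := (Nat.dvd_prime_pow hp).mp hd
      have h2 : p ^ k < p ^ (n - i) := by
        rw [← hk']; exact hcl.trans_le (Nat.le_of_dvd (pow_pos hp.pos _) ih)
      have h3 : k < n - i := (Nat.pow_lt_pow_iff_right hp.one_lt).mp h2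
      rw [hk']
      exact pow_dvd_pow p (by omega)

theorem commutator_sup_le' {A B G T : Subgroup L} (h1 : ⁅A, G⁆ ≤ T) (h2 : ⁅B, G⁆ ≤ T)
    (hA : A ≤ Subgroup.normalizer (T : Set L)) (hB : B ≤ Subgroup.normalizer (T : Set L)) :
    ⁅A ⊔ B, G⁆ ≤ T := by
  rw [Subgroup.commutator_le]
  intro x hx
  have key : x ∈ Subgroup.normalizer (T : Set L) ∧ ∀ g ∈ G, ⁅x, g⁆ ∈ T := by
    rw [Subgroup.sup_eq_closure] at hx
    induction hx using Subgroup.closure_induction with
    | mem x hx =>
      rcases hx with hx | hx
      · exact ⟨hA hx, fun g hg => h1 (Subgroup.commutator_mem_commutator hx hg)⟩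
      · exact ⟨hB hx, fun g hg => h2 (Subgroup.commutator_mem_commutator hx hg)⟩
    | one => exact ⟨Subgroup.one_mem _, fun g _ => by simp⟩
    | mul x y _ _ ihx ihy =>
      refine ⟨Subgroup.mul_mem _ ihx.1 ihy.1, fun g hg => ?_⟩
      have : ⁅x * y, g⁆ = x * ⁅y, g⁆ * x⁻¹ * ⁅x, g⁆ := by
        simp only [commutatorElement_def]; group
      rw [this]
      exact T.mul_mem ((Subgroup.mem_normalizer_iff.mp ihx.1 _).mp (ihy.2 g hg)) (ihx.2 g hg)
    | inv x _ ih =>
      refine ⟨Subgroup.inv_mem _ ih.1, fun g hg => ?_⟩
      have : ⁅x⁻¹, g⁆ = x⁻¹ * (⁅x, g⁆)⁻¹ * x⁻¹⁻¹ := by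
        simp only [commutatorElement_def]; group
      rw [this]
      exact (Subgroup.mem_normalizer_iff.mp (Subgroup.inv_mem _ ih.1) _).mp (T.inv_mem (ih.2 g hg))
  exact key.2

section main

variable [Finite L] {p : ℕ} [Fact p.Prime] (N G : Subgroup L) (hN : IsPGroup p N)
  (hG : IsPGroup p G) (hGN : G ≤ Subgroup.normalizer (N : Set L)) (n : ℕ)
  (hn : Nat.card N = p ^ n)

include hN hG hGN hn

/-- With a chain of full length the terms agree with the chain for `N ⊔ G`. -/
theorem iter_eq_iter_sup (hord : ∀ i ≤ n, Nat.card (iterCommutator N G i) = p ^ (n - i))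
    (i : ℕ) (hi : i ≤ n) : iterCommutator N G i = iterCommutator N (N ⊔ G) i := by
  have hM : IsPGroup p (N ⊔ G : Subgroup L) := by
    rw [sup_comm]; exact hG.to_sup_of_normal_right' hN hGN
  have hMN : N ⊔ G ≤ Subgroup.normalizer (N : Set L) := sup_le Subgroup.le_normalizer hGN
  apply Subgroup.eq_of_le_of_card_ge (iter_mono N le_sup_right i)
  rw [hord i hi]
  exact Nat.le_of_dvd (pow_pos (Fact.out : p.Prime).pos _) (card_iter_dvd N _ hN hM hMN n hn i)

theorem le_normalizer_iter (hord : ∀ i ≤ n, Nat.card (iterCommutator N G i) = p ^ (n - i))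
    (i : ℕ) (hi : i ≤ n) : N ≤ Subgroup.normalizer (iterCommutator N G i : Set L) := by
  rw [iter_eq_iter_sup N G hN hG hGN n hn hord i hi]
  exact le_sup_left.trans (iter_normalizer N _ (sup_le Subgroup.le_normalizer hGN) i)

theorem commutator_iter_le (hord : ∀ i ≤ n, Nat.card (iterCommutator N G i) = p ^ (n - i))
    (i : ℕ) (hi : i + 1 ≤ n) : ⁅iterCommutator N G i, N⁆ ≤ iterCommutator N G (i + 1) := by
  rw [iter_eq_iter_sup N G hN hG hGN n hn hord (i + 1) hi,
    iter_eq_iter_sup N G hN hG hGN n hn hord i (by omega), iter_succ]
  exact Subgroup.commutator_mono le_rfl le_sup_left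

theorem eq_iter (hord : ∀ i ≤ n, Nat.card (iterCommutator N G i) = p ^ (n - i))
    (H : Subgroup L) (hHN : H ≤ N) (hGH : G ≤ Subgroup.normalizer (H : Set L)) :
    ∃ i ≤ n, H = iterCommutator N G i := by
  have hp : p.Prime := Fact.out
  have hanti := iter_antitone N G hGN
  have hbot : iterCommutator N G n = ⊥ := by
    rw [← Subgroup.card_eq_one, hord n le_rfl]; simp
  have main : ∀ k i, i + k = n → H ≤ iterCommutator N G i → ∃ j ≤ n, H = iterCommutator N G j := by
    intro k
    induction k with
    | zero =>
      intro i hi hH
      have : i = n := by omega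
      subst this
      refine ⟨i, le_rfl, ?_⟩
      rw [hbot] at hH ⊢
      exact le_bot_iff.mp hH
    | succ k ih =>
      intro i hi hH
      by_cases hH' : H ≤ iterCommutator N G (i + 1)
      · exact ih (i + 1) (by omega) hH'
      · refine ⟨i, by omega, ?_⟩
        have hbase : H ⊔ iterCommutator N G (i + 1) = iterCommutator N G i := by
          have hle : H ⊔ iterCommutator N G (i + 1) ≤ iterCommutator N G i :=
            sup_le hH (hanti (Nat.le_succ i))
          apply Subgroup.eq_of_le_of_card_ge hle
          have hlt : iterCommutator N G (i + 1) < H ⊔ iterCommutator N G (i + 1) := by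
            refine lt_of_le_of_ne le_sup_right ?_
            intro h
            apply hH'
            rw [h]; exact le_sup_left
          have hcl : Nat.card (iterCommutator N G (i + 1)) <
              Nat.card (H ⊔ iterCommutator N G (i + 1) : Subgroup L) :=
            Set.ncard_lt_ncard (SetLike.coe_ssubset_coe.mpr hlt) (Set.toFinite _)
          have hd := Subgroup.card_dvd_of_le hle
          rw [hord i (by omega)] at hd ⊢
          rw [hord (i + 1) (by omega)] at hcl
          obtain ⟨s, hs, hs'⟩ := (Nat.dvd_prime_pow hp).mp hd
          rw [hs'] at hcl ⊢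
          have h3 : n - (i + 1) < s := (Nat.pow_lt_pow_iff_right hp.one_lt).mp hcl
          exact Nat.pow_le_pow_right hp.pos (by omega)
        have hstep : ∀ m, i + 1 + m ≤ n →
            H ⊔ iterCommutator N G (i + 1 + m) = iterCommutator N G i := by
          intro m
          induction m with
          | zero => intro _; exact hbase
          | succ m ihm =>
            intro hm
            have ih' := ihm (by omega)
            set j := i + 1 + m with hj
            set T := H ⊔ iterCommutator N G (j + 1) with hT
            have hTle : T ≤ iterCommutator N G i := sup_le hH (hanti (by omega))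
            have hjT : iterCommutator N G j ≤ Subgroup.normalizer (T : Set L) := by
              rw [Subgroup.le_normalizer_iff]
              intro x hx
              have hxN : x ∈ N := hanti (Nat.zero_le j) hx
              have : T ≤ T.comap (MulAut.conj x).toMonoidHom := by
                apply sup_le
                · intro h hh
                  rw [Subgroup.mem_comap]
                  show x * h * x⁻¹ ∈ T
                  have h5 : x * h * x⁻¹ = ⁅x, h⁆ * h := by
                    rw [commutatorElement_def]; group
                  rw [h5]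
                  refine T.mul_mem (Subgroup.mem_sup_right ?_) (Subgroup.mem_sup_left hh)
                  exact commutator_iter_le N G hN hG hGN n hn hord j (by omega)
                    (Subgroup.commutator_mem_commutator hx (hHN hh))
                · intro y hy
                  rw [Subgroup.mem_comap]
                  show x * y * x⁻¹ ∈ T
                  apply Subgroup.mem_sup_right
                  exact (Subgroup.le_normalizer_iff.mp
                    (le_normalizer_iter N G hN hG hGN n hn hord (j + 1) (by omega))) x hxN y hy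
              intro t ht
              exact this ht
            have h6 : iterCommutator N G (i + 1) ≤ T := by
              rw [iter_succ, ← ih']
              apply commutator_sup_le'
              · exact (commutator_le_left_of_le_normalizer hGH).trans le_sup_left
              · exact le_sup_right
              · exact le_sup_left.trans Subgroup.le_normalizer
              · exact hjT
            apply le_antisymm hTle
            rw [← hbase]
            exact sup_le le_sup_left h6
        have := hstep k (by omega)
        rw [show i + 1 + k = n by omega, hbot, sup_bot_eq] at this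
        exact this
  exact main n 0 (by omega) hHN

theorem ord_of_uniserial
    (hU : ∀ H : Subgroup L, H ≤ N → G ≤ Subgroup.normalizer (H : Set L) → H ≠ ⊥ →
      (⁅H, G⁆).relIndex H = p) :
    ∀ i ≤ n, Nat.card (iterCommutator N G i) = p ^ (n - i) := by
  have hp : p.Prime := Fact.out
  intro i
  induction i with
  | zero => intro _; rw [iter_zero, hn]; simp
  | succ i ih =>
    intro hi
    have h1 := ih (by omega)
    have hb : iterCommutator N G i ≠ ⊥ := by
      intro h
      rw [h, Subgroup.card_bot] at h1
      have : 1 < p ^ (n - i) := Nat.one_lt_pow (by omega) hp.one_lt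
      omega
    have h2 := hU _ ((iter_antitone N G hGN) (Nat.zero_le i)) (iter_normalizer N G hGN i) hb
    have h3 := card_mul_relIndex (iter_succ_le N G hGN i)
    rw [iter_succ, h2, h1, show n - i = (n - (i + 1)) + 1 by omega, pow_succ] at h3
    rw [iter_succ]
    exact Nat.eq_of_mul_eq_mul_right hp.pos h3

theorem ord_of_chain (hc : iterCommutator N G (n - 1) ≠ ⊥ ∨ n = 0) :
    ∀ i ≤ n, Nat.card (iterCommutator N G i) = p ^ (n - i) := by
  have hp : p.Prime := Fact.out
  intro i hi
  have hd := card_iter_dvd N G hN hG hGN n hn i
  obtain ⟨e, he, he'⟩ := (Nat.dvd_prime_pow hp).mp hd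
  rcases hc with hc | hc
  · by_cases hin : i = n
    · subst hin
      have : e = 0 := by omega
      rw [he', this]; simp
    · have hle : iterCommutator N G i ≤ N := (iter_antitone N G hGN) (Nat.zero_le i)
      have h1 := card_iter_dvd (iterCommutator N G i) G (hN.to_le hle) hG
        (iter_normalizer N G hGN i) e he' (n - 1 - i)
      rw [iter_add, show i + (n - 1 - i) = n - 1 by omega] at h1
      have h2 : e - (n - 1 - i) ≠ 0 := by
        intro h
        rw [h, pow_zero, Nat.dvd_one, Subgroup.card_eq_one] at h1
        exact hc h1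
      have : e = n - i := by omega
      rw [he', this]
  · subst hc
    have : i = 0 := by omega
    subst this
    rw [iter_zero, hn]

end main

/-- A p-group acts uniserially on a p-group N of order p^n exactly when the iterated commutator chain from N has length n; in that case the chain terms are all the invariant subgroups of N and they are normal in N. -/
theorem result {L : Type*} [Group L] [Finite L] {p : ℕ} [Fact p.Prime] (N G : Subgroup L) (hN : IsPGroup p N) (hG : IsPGroup p G) (hGN : G ≤ Subgroup.normalizer (N : Set L)) (n : ℕ) (hn : Nat.card N = p ^ n) : ((∀ H : Subgroup L, H ≤ N → G ≤ Subgroup.normalizer (H : Set L) → H ≠ ⊥ → (⁅H, G⁆).relIndex H = p) ↔ Cfsg.iterCommutator N G (n - 1) ≠ ⊥ ∨ n = 0) ∧ ((∀ H : Subgroup L, H ≤ N → G ≤ Subgroup.normalizer (H : Set L) → H ≠ ⊥ → (⁅H, G⁆).relIndex H = p) → ∀ H : Subgroup L, H ≤ N → G ≤ Subgroup.normalizer (H : Set L) → (∃ i ≤ n, H = Cfsg.iterCommutator N G i) ∧ N ≤ Subgroup.normalizer (H : Set L)) := by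
  have hp : p.Prime := Fact.out
  refine ⟨⟨?_, ?_⟩, ?_⟩
  · intro hU
    have hord := ord_of_uniserial N G hN hG hGN n hn hU
    by_cases h0 : n = 0
    · exact Or.inr h0
    · left
      intro h
      have h1 := hord (n - 1) (by omega)
      rw [h, Subgroup.card_bot, show n - (n - 1) = 1 by omega, pow_one] at h1
      exact hp.one_lt.ne h1
  · intro hc H hHN hGH hH
    have hord := ord_of_chain N G hN hG hGN n hn hc
    obtain ⟨i, hi, rfl⟩ := eq_iter N G hN hG hGN n hn hord H hHN hGH
    have hin : i ≠ n := by
      rintro rfl
      apply hH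
      rw [← Subgroup.card_eq_one, hord i le_rfl]; simp
    have h3 := card_mul_relIndex (iter_succ_le N G hGN i)
    rw [hord i hi, hord (i + 1) (by omega), show n - i = (n - (i + 1)) + 1 by omega, pow_succ] at h3
    exact Nat.eq_of_mul_eq_mul_left (pow_pos hp.pos _) h3
  · intro hU H hHN hGH
    have hord := ord_of_uniserial N G hN hG hGN n hn hU
    obtain ⟨i, hi, rfl⟩ := eq_iter N G hN hG hGN n hn hord H hHN hGH
    exact ⟨⟨i, hi, rfl⟩, le_normalizer_iter N G hN hG hGN n hn hord i hi⟩

end Cfsg.Agent.S0663
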