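import Cfsg.Statements.S0666
import Cfsg.Agent.Lib.Helper96.PartitionTrick2
import Cfsg.Agent.S0035

set_option autoImplicit false
open Cfsg

namespace Cfsg.Agent.S0666

open scoped Pointwise

/-- In a Frobenius group two conjugates of the complement sharing a nonidentity element agree. -/
theorem conj_eq_of_mem {F : Type*} [Group F] (H : Subgroup F) (hH : Cfsg.IsFrobeniusComplement H)
    {a g k : F} (ha : a ≠ 1) (hg : a ∈ MulAut.conj g • H) (hk : a ∈ MulAut.conj k • H) :
    MulAut.conj g • H = MulAut.conj k • H := by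
  by_cases hx : g⁻¹ * k ∈ H
  · have h1 : MulAut.conj (g⁻¹ * k) • H = H := Subgroup.conj_smul_eq_self_of_mem hx
    have h2 : MulAut.conj k = MulAut.conj g * MulAut.conj (g⁻¹ * k) := by
      rw [← map_mul]; simp
    rw [h2, mul_smul, h1]
  · exfalso
    have h1 := hH.2.2 _ hx
    have h2 : g⁻¹ * a * g ∈ H ⊓ MulAut.conj (g⁻¹ * k) • H := by
      refine Subgroup.mem_inf.2 ⟨?_, ?_⟩
      · rw [Subgroup.mem_pointwise_smul_iff_inv_smul_mem] at hg
        simpa [MulAut.smul_def, MulAut.conj_inv_apply] using hg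
      · rw [Subgroup.mem_pointwise_smul_iff_inv_smul_mem] at hk ⊢
        simpa [MulAut.smul_def, MulAut.conj_inv_apply, mul_assoc] using hk
    rw [h1, Subgroup.mem_bot] at h2
    apply ha
    have : a = g * (g⁻¹ * a * g) * g⁻¹ := by group
    rw [this, h2]; simp

/-- A Frobenius group acting on a nontrivial abelian group with the kernel acting coprimely and
fixed point freely: the complement has fixed points. -/
theorem result {G : Type*} [Group G] [Finite G] (V F : Subgroup G) (hVab : IsMulCommutative V) (hV1 : V ≠ ⊥) (hFV : F ≤ Subgroup.normalizer (V : Set G)) (H : Subgroup ↥F) (hH : Cfsg.IsFrobeniusComplement H) (hcop : (Nat.card V).Coprime (Nat.card (Cfsg.frobeniusKernel H))) (hCK : V ⊓ Subgroup.centralizer (Subtype.val '' Cfsg.frobeniusKernel H : Set G) = ⊥) : V ⊓ Subgroup.centralizer ((H.map F.subtype : Subgroup G) : Set G) ≠ ⊥ := by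
  classical
  intro hcon
  obtain ⟨N, hN, hNn, hc⟩ := Cfsg.Agent.S0035.result H hH
  have hmemN : ∀ x : F, x ∈ N ↔ (x = 1 ∨ ∀ g : F, x ∉ MulAut.conj g • H) := by
    intro x
    have : x ∈ (N : Set F) ↔ x ∈ Cfsg.frobeniusKernel H := by rw [hN]
    exact this
  have := Fintype.ofFinite N
  let φ : N → Subgroup F := fun n => MulAut.conj (n : F) • H
  have hφinj : Function.Injective φ := by
    intro n n' h
    have h' : MulAut.conj (n : F) • H = MulAut.conj (n' : F) • H := h
    have h1 : MulAut.conj ((n : F)⁻¹ * n') • H = H := by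
      rw [map_mul, mul_smul, ← h', ← mul_smul, ← map_mul]; simp
    have h2 : (n : F)⁻¹ * n' ∈ H := by
      by_contra hx
      have := hH.2.2 _ hx
      rw [h1, inf_idem] at this
      exact hH.1 this
    have h3 : (n : F)⁻¹ * n' ∈ N := N.mul_mem (N.inv_mem n.2) n'.2
    have h4 : (n : F)⁻¹ * n' ∈ N ⊓ H := Subgroup.mem_inf.2 ⟨h3, h2⟩
    rw [hc.disjoint.eq_bot, Subgroup.mem_bot] at h4
    apply Subtype.ext
    exact (inv_mul_eq_one.1 h4)
  obtain ⟨h0, hh0, hh1⟩ : ∃ h0 ∈ H, h0 ≠ 1 := by
    by_contra hcon2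
    push Not at hcon2
    exact hH.1 ((Subgroup.eq_bot_iff_forall H).2 hcon2)
  have hNnot : N ∉ Finset.univ.image φ := by
    intro hmem
    obtain ⟨n, -, hn⟩ := Finset.mem_image.1 hmem
    have h1 : (n : F) * h0 * (n : F)⁻¹ ∈ MulAut.conj (n : F) • H :=
      ⟨h0, hh0, by simp [MulAut.smul_def]⟩
    have h2 : (n : F) * h0 * (n : F)⁻¹ ∈ N := by
      have h5 : MulAut.conj (n : F) • H ≤ N := le_of_eq hn
      exact h5 h1
    rcases (hmemN _).1 h2 with h3 | h3
    · apply hh1
      have : h0 = (n : F)⁻¹ * ((n : F) * h0 * (n : F)⁻¹) * n := by group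
      rw [this, h3]; simp
    · exact h3 _ h1
  let 𝒜 : Finset (Subgroup F) := insert N (Finset.univ.image φ)
  have hcard : 𝒜.card - 1 = Nat.card (Cfsg.frobeniusKernel H) := by
    have h1 : 𝒜.card = (Finset.univ.image φ).card + 1 := Finset.card_insert_of_notMem hNnot
    rw [h1, Finset.card_image_of_injective _ hφinj, Finset.card_univ, Nat.add_sub_cancel,
      ← Nat.card_eq_fintype_card, ← hN]
    rfl
  have hconjN : ∀ g : F, ∃ n : N, MulAut.conj g • H = φ n := by
    intro g
    obtain ⟨⟨n, h⟩, hnh, -⟩ := hc.existsUnique g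
    refine ⟨n, ?_⟩
    have hnh' : (n : F) * (h : F) = g := hnh
    change MulAut.conj g • H = MulAut.conj (n : F) • H
    rw [← hnh', map_mul, mul_smul, Subgroup.conj_smul_eq_self_of_mem h.2]
  have key := Cfsg.Agent.Lib.Helper96.pow_eq_one_of_partition_subgroup' F V hVab hFV 𝒜
    ⟨N, Finset.mem_insert_self _ _⟩ ?_ ?_
  · apply hV1
    rw [Subgroup.eq_bot_iff_forall]
    intro v hv
    have h1 : orderOf v ∣ Nat.card (Cfsg.frobeniusKernel H) := by
      rw [← hcard]; exact orderOf_dvd_of_pow_eq_one (key v hv)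
    have h2 : orderOf v ∣ Nat.card V := by
      have := orderOf_dvd_natCard (⟨v, hv⟩ : V)
      rwa [Subgroup.orderOf_mk] at this
    have h3 : orderOf v = 1 := Nat.eq_one_of_dvd_coprimes hcop h2 h1
    exact orderOf_eq_one_iff.1 h3
  · intro a ha
    by_cases hex : ∃ g : F, a ∈ MulAut.conj g • H
    · obtain ⟨g, hg⟩ := hex
      obtain ⟨n, hn⟩ := hconjN g
      refine ⟨φ n, ⟨Finset.mem_insert_of_mem (Finset.mem_image_of_mem _ (Finset.mem_univ _)),
        hn ▸ hg⟩, ?_⟩
      rintro C ⟨hC1, hC2⟩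
      rcases Finset.mem_insert.1 hC1 with rfl | hC1
      · rcases (hmemN a).1 hC2 with h | h
        · exact absurd h ha
        · exact absurd hg (h g)
      · obtain ⟨n', -, rfl⟩ := Finset.mem_image.1 hC1
        rw [← hn]
        exact conj_eq_of_mem H hH ha hC2 hg
    · push Not at hex
      refine ⟨N, ⟨Finset.mem_insert_self _ _, (hmemN a).2 (Or.inr hex)⟩, ?_⟩
      rintro C ⟨hC1, hC2⟩
      rcases Finset.mem_insert.1 hC1 with rfl | hC1
      · rfl
      · obtain ⟨n', -, rfl⟩ := Finset.mem_image.1 hC1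
        exact absurd hC2 (hex _)
  · intro B hB
    rcases Finset.mem_insert.1 hB with rfl | hB
    · have : ((B.map F.subtype : Subgroup G) : Set G) = Subtype.val '' Cfsg.frobeniusKernel H := by
        rw [← hN]; rfl
      rw [this]; exact hCK
    · obtain ⟨n, -, rfl⟩ := Finset.mem_image.1 hB
      rw [Subgroup.eq_bot_iff_forall]
      intro w hw
      obtain ⟨hwV, hwC⟩ := Subgroup.mem_inf.1 hw
      set g : G := ((n : F) : G) with hg
      have hgN : g ∈ Subgroup.normalizer (V : Set G) := hFV (n : F).2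
      have h1 : g⁻¹ * w * g ∈ V ⊓ Subgroup.centralizer ((H.map F.subtype : Subgroup G) : Set G) := by
        refine Subgroup.mem_inf.2 ⟨?_, ?_⟩
        · have := (Subgroup.mem_normalizer_iff.1 (Subgroup.inv_mem _ hgN) w).1 hwV
          simpa using this
        · rw [Subgroup.mem_centralizer_iff] at hwC ⊢
          rintro _ ⟨h, hh, rfl⟩
          have h2 : g * (h : G) * g⁻¹ ∈ (((φ n).map F.subtype : Subgroup G) : Set G) := by
            refine ⟨(n : F) * h * (n : F)⁻¹, ⟨h, hh, by simp [MulAut.smul_def]⟩, by simp [hg]⟩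
          have h3 := hwC _ h2
          have h4 : (F.subtype h) = (h : G) := rfl
          rw [h4]
          calc (h : G) * (g⁻¹ * w * g) = g⁻¹ * ((g * h * g⁻¹) * w) * g := by group
            _ = g⁻¹ * (w * (g * h * g⁻¹)) * g := by rw [h3]
            _ = g⁻¹ * w * g * h := by group
      rw [hcon, Subgroup.mem_bot] at h1
      have : w = g * (g⁻¹ * w * g) * g⁻¹ := by group
      rw [this, h1]; simp

end Cfsg.Agent.S0666
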