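import Cfsg.Statements.S0668
-- import your own Cfsg.Agent.* helpers here

set_option autoImplicit false
open Cfsg

namespace Cfsg.Agent.S0668

/-- The equivariant linear maps between the permutation modules of two finite `G`-sets form a space whose dimension is the number of `G`-orbits on the product of the two sets. -/
theorem result {G : Type*} [Group G] {K : Type*} [Field K] {Ω₁ Ω₂ : Type*} [Fintype Ω₁] [Fintype Ω₂] [MulAction G Ω₁] [MulAction G Ω₂] : Module.finrank K ((Cfsg.permRep K G Ω₁).linHom (Cfsg.permRep K G Ω₂)).invariants = Nat.card (MulAction.orbitRel.Quotient G (Ω₁ × Ω₂)) := by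
  classical
  let Q := MulAction.orbitRel.Quotient G (Ω₁ × Ω₂)
  let mkQ : Ω₁ × Ω₂ → Q := fun z => Quotient.mk (MulAction.orbitRel G (Ω₁ × Ω₂)) z
  have hmk : ∀ (g : G) (x : Ω₁) (y : Ω₂), mkQ (g • x, g • y) = mkQ (x, y) := by
    intro g x y
    apply Quotient.sound
    exact ⟨g, rfl⟩
  let Φ : (Q → K) →ₗ[K] ((Ω₁ → K) →ₗ[K] (Ω₂ → K)) :=
    { toFun := fun c =>
        { toFun := fun v y => ∑ x, c (mkQ (x, y)) * v x
          map_add' := by
            intro v w
            funext y
            simp [mul_add, Finset.sum_add_distrib]
          map_smul' := by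
            intro r v
            funext y
            simp only [Pi.smul_apply, smul_eq_mul, RingHom.id_apply, Finset.mul_sum]
            exact Finset.sum_congr rfl fun a _ => by ring }
      map_add' := by
        intro c d
        ext v y
        simp [add_mul, Finset.sum_add_distrib]
      map_smul' := by
        intro r c
        ext v y
        simp [Finset.mul_sum, mul_assoc] }
  have hΦ : ∀ c v y, Φ c v y = ∑ x, c (mkQ (x, y)) * v x := fun _ _ _ => rfl
  have hΦs : ∀ c x y, Φ c (Pi.single x 1) y = c (mkQ (x, y)) := by
    intro c x y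
    rw [hΦ]
    simp [Pi.single_apply]
  have hinj : Function.Injective Φ := by
    intro c d hcd
    funext q
    induction q using Quotient.inductionOn with
    | _ z =>
      obtain ⟨x, y⟩ := z
      have := hΦs c x y
      rw [hcd, hΦs] at this
      exact this.symm
  have hrange : LinearMap.range Φ =
      ((Cfsg.permRep K G Ω₁).linHom (Cfsg.permRep K G Ω₂)).invariants := by
    apply le_antisymm
    · rintro _ ⟨c, rfl⟩
      rw [Representation.mem_invariants]
      intro g
      rw [Representation.linHom_apply]
      apply LinearMap.ext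
      intro v
      funext y
      change ∑ x, c (mkQ (x, g⁻¹ • y)) * v (g⁻¹⁻¹ • x) = ∑ x, c (mkQ (x, y)) * v x
      rw [inv_inv, ← Equiv.sum_comp (MulAction.toPerm g) (fun x => c (mkQ (x, y)) * v x)]
      refine Finset.sum_congr rfl fun x _ => ?_
      rw [MulAction.toPerm_apply]
      congr 2
      rw [← hmk g x (g⁻¹ • y), smul_inv_smul]
    · intro T hT
      rw [Representation.mem_invariants] at hT
      have hTinv : ∀ (g : G) x y, T (Pi.single (g • x) 1) (g • y) = T (Pi.single x 1) y := by
        intro g x y
        have h1 := hT g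
        rw [Representation.linHom_apply] at h1
        have h2 := congrFun (congrArg (fun S : (Ω₁ → K) →ₗ[K] (Ω₂ → K) =>
          S (Pi.single (g • x) 1)) h1) (g • y)
        change T (Cfsg.permRep K G Ω₁ g⁻¹ (Pi.single (g • x) 1)) (g⁻¹ • g • y) = _ at h2
        rw [inv_smul_smul] at h2
        rw [← h2]
        have h3 : Cfsg.permRep K G Ω₁ g⁻¹ (Pi.single (g • x) 1) = Pi.single x 1 := by
          funext a
          change (Pi.single (g • x) (1 : K) : Ω₁ → K) (g⁻¹⁻¹ • a) = _
          rw [inv_inv]
          by_cases ha : a = x
          · subst ha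
            simp
          · rw [Pi.single_eq_of_ne ha, Pi.single_eq_of_ne (fun h => ha (smul_left_cancel g h))]
        rw [h3]
      let c : Q → K := Quotient.lift (fun z : Ω₁ × Ω₂ => T (Pi.single z.1 1) z.2) (by
        rintro ⟨x, y⟩ ⟨x', y'⟩ ⟨g, hg⟩
        have h1 : g • x' = x := congrArg Prod.fst hg
        have h2 : g • y' = y := congrArg Prod.snd hg
        change T (Pi.single x 1) y = T (Pi.single x' 1) y'
        rw [← h1, ← h2, hTinv])
      refine ⟨c, ?_⟩
      apply LinearMap.ext
      intro v
      funext y
      rw [hΦ, LinearMap.pi_apply_eq_sum_univ T v, Finset.sum_apply]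
      refine Finset.sum_congr rfl fun x _ => ?_
      change T (Pi.single x 1) y * v x = v x * T (fun j => if x = j then 1 else 0) y
      rw [mul_comm]
      have h3 : (Pi.single x 1 : Ω₁ → K) = fun j => if x = j then 1 else 0 := by
        funext j
        rw [Pi.single_apply]
        simp only [eq_comm]
      rw [h3]
  rw [← hrange, LinearMap.finrank_range_of_inj hinj]
  have : Fintype Q := Fintype.ofFinite Q
  rw [Module.finrank_fintype_fun_eq_card, Nat.card_eq_fintype_card]

end Cfsg.Agent.S0668
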