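import Cfsg.Statements.S0669
-- import your own Cfsg.Agent.* helpers here

set_option autoImplicit false
open Cfsg

namespace Cfsg.Agent.S0669

/-- The rank of a transitive action: orbits on ordered pairs correspond to orbits of a point stabiliser. -/
theorem result {G : Type*} [Group G] {Ω : Type*} [Finite Ω] [MulAction G Ω] [MulAction.IsPretransitive G Ω] (a : Ω) : Nat.card (MulAction.orbitRel.Quotient G (Ω × Ω)) = Nat.card (MulAction.orbitRel.Quotient (MulAction.stabilizer G a) Ω) := by
  symm
  let f : MulAction.orbitRel.Quotient (MulAction.stabilizer G a) Ω →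
      MulAction.orbitRel.Quotient G (Ω × Ω) :=
    Quotient.map' (s₁ := MulAction.orbitRel (MulAction.stabilizer G a) Ω)
      (s₂ := MulAction.orbitRel G (Ω × Ω)) (fun b => (a, b)) (by
      intro b b' h
      rw [MulAction.orbitRel_apply] at h ⊢
      obtain ⟨⟨g, hg⟩, rfl⟩ := h
      refine ⟨g, ?_⟩
      rw [MulAction.mem_stabilizer_iff] at hg
      change (g • a, g • b') = (a, g • b')
      rw [hg])
  apply Nat.card_congr (Equiv.ofBijective f ⟨?_, ?_⟩)
  · intro x y
    induction x using Quotient.inductionOn'
    induction y using Quotient.inductionOn'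
    rename_i b b'
    intro h
    have h' := Quotient.exact' h
    apply Quotient.sound'
    rw [MulAction.orbitRel_apply] at h' ⊢
    obtain ⟨g, hg⟩ := h'
    have h1 : g • a = a := congrArg Prod.fst hg
    have h2 : g • b' = b := congrArg Prod.snd hg
    exact ⟨⟨g, h1⟩, h2⟩
  · intro x
    induction x using Quotient.inductionOn'
    rename_i xy
    obtain ⟨x, y⟩ := xy
    obtain ⟨g, rfl⟩ := MulAction.exists_smul_eq G a x
    refine ⟨Quotient.mk'' (g⁻¹ • y), ?_⟩
    apply Quotient.sound'
    rw [MulAction.orbitRel_apply]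
    refine ⟨g⁻¹, ?_⟩
    change (g⁻¹ • g • a, g⁻¹ • y) = (a, g⁻¹ • y)
    rw [inv_smul_smul]

end Cfsg.Agent.S0669
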