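import Cfsg.Statements.S0677
-- import your own Cfsg.Agent.* helpers here
import Cfsg.Agent.Lib.Helper63.Neumann2
import Cfsg.Agent.S0675

set_option autoImplicit false
open Cfsg

namespace Cfsg.Agent.S0677

open Cfsg.Agent.Lib.Helper63

/-- In a transitive permutation group of prime degree `p` whose Sylow `p`-normaliser has even order, the point stabilisers are the only subgroups of index `p`. -/
theorem result {α : Type*} [Fintype α] [DecidableEq α] {p : ℕ} [Fact p.Prime] (hα : Fintype.card α = p) (G : Subgroup (Equiv.Perm α)) [MulAction.IsPretransitive G α] (P : Sylow p G) (heven : Even (Nat.card (Subgroup.normalizer ((P : Subgroup G) : Set G)))) (H : Subgroup G) (hH : H.index = p) : ∃ a : α, H = MulAction.stabilizer G a := by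
  have hp : p.Prime := Fact.out
  have hHp := not_dvd_card_of_index hα G H hH
  have key : ∃ a : α, ∀ h ∈ H, h • a = a := by
    by_cases hsol : Group.IsSolvable G
    · obtain ⟨a, ha⟩ := fixed_of_solvable hα G hsol H hHp
      exact ⟨a, fun h hh => ha ⟨h, hh⟩⟩
    · have hp2 : p ≠ 2 := by
        intro h2
        apply hsol
        have := Cfsg.Agent.S0675.perm_isSolvable (α := α) (Or.inl (by rw [hα, h2]))
        infer_instance
      rcases Cfsg.Agent.S0675.result (by rw [hα]; exact hp) G with h | h
      · exact absurd h hsol
      · exact fixed_of_two_transitive hα hp2 G h P heven H hH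
  obtain ⟨a, ha⟩ := key
  refine ⟨a, ?_⟩
  have hle : H ≤ MulAction.stabilizer G a := fun h hh => ha h hh
  have hidx : (MulAction.stabilizer G a).index = p := by
    rw [MulAction.index_stabilizer_of_transitive, Nat.card_eq_fintype_card, hα]
  apply le_antisymm hle
  rw [← Subgroup.relIndex_eq_one]
  have h1 := Subgroup.relIndex_mul_index hle
  rw [hH, hidx] at h1
  exact Nat.eq_of_mul_eq_mul_right hp.pos (by rw [h1, one_mul])

end Cfsg.Agent.S0677
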