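import Cfsg.Statements.S0680
import Cfsg.Agent.Lib.Helper15.Sharp2

set_option autoImplicit false
open Cfsg

namespace Cfsg.Agent.S0680

/-- A finite sharply doubly transitive permutation group has degree a prime power `p ^ j`; a Sylow `p`-subgroup is normal, elementary abelian and regular, and consists of the identity together with the elements without fixed points. (Frobenius' Theorem is not needed.) -/
theorem result {α : Type*} [Fintype α] [DecidableEq α] (G : Subgroup (Equiv.Perm α)) [MulAction.IsMultiplyPretransitive G α 2] (hsharp : ∀ x : Fin 2 ↪ α, MulAction.stabilizer G x = ⊥) (h2 : 2 ≤ Fintype.card α) : ∃ p j : ℕ, p.Prime ∧ 1 ≤ j ∧ Fintype.card α = p ^ j ∧ ∀ (hp : Fact p.Prime) (P : Sylow p G), (P : Subgroup G).Normal ∧ IsMulCommutative (P : Subgroup G) ∧ (∀ x ∈ (P : Subgroup G), x ^ p = 1) ∧ MulAction.IsPretransitive (P : Subgroup G) α ∧ (∀ a : α, MulAction.stabilizer (P : Subgroup G) a = ⊥) ∧ ∀ g : G, g ∈ (P : Subgroup G) ↔ g = 1 ∨ ∀ a : α, g • a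 ≠ a := by
  have hS : Lib.Helper15.Sharp2 G α := Lib.Helper15.Sharp2.of_embeddings hsharp
  have hn : 2 ≤ Nat.card α := by rw [Nat.card_eq_fintype_card]; exact h2
  obtain ⟨p, j, hpp, hj, hcard, hexp, hSyl⟩ := hS.main hn
  refine ⟨p, j, hpp, hj, by rw [← hcard, Nat.card_eq_fintype_card], ?_⟩
  intro hp P
  have hP := hSyl hp P
  rw [hP]
  refine ⟨hS.kernel_normal hn, ?_, hexp, ?_, ?_, hS.mem_kernel hn⟩
  · exact ⟨⟨fun a b => Subtype.ext (hS.kernel_comm hn a b a.2 b.2)⟩⟩
  · constructor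
    intro a b
    obtain ⟨g, hg, hgab⟩ := hS.kernel_trans hn a b
    exact ⟨⟨g, hg⟩, hgab⟩
  · intro a
    rw [eq_bot_iff]
    intro g hg
    rw [MulAction.mem_stabilizer_iff] at hg
    rw [Subgroup.mem_bot]
    exact Subtype.ext (hS.kernel_free hn g.2 hg)

end Cfsg.Agent.S0680
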