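import Cfsg.Statements.S0681
import Cfsg.Agent.Lib.Helper15.NearField

set_option autoImplicit false
open Cfsg

namespace Cfsg.Agent.S0681

open Lib.Helper15

def affH (F : Type*) [Cfsg.NearField F] : Subgroup (Equiv.Perm F) where
  carrier := {σ | ∃ a b : F, a ≠ 0 ∧ ∀ x : F, σ x = x * a + b}
  one_mem' := ⟨1, 0, nf_one_ne_zero, fun x => by simp⟩
  mul_mem' := by
    rintro σ τ ⟨a, b, ha, hσ⟩ ⟨c, d, hc, hτ⟩
    refine ⟨c * a, d * a + b, nf_mul_ne_zero hc ha, fun x => ?_⟩
    rw [Equiv.Perm.mul_apply, hτ, hσ, nf_add_mul, mul_assoc, add_assoc]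
  inv_mem' := by
    rintro σ ⟨a, b, ha, hσ⟩
    obtain ⟨a', ha1, ha2⟩ := NearField.exists_inv a ha
    have ha' : a' ≠ 0 := by
      intro h
      rw [h, nf_zero_mul] at ha2
      exact NearField.zero_ne_one ha2
    refine ⟨a', (-b) * a', ha', fun x => ?_⟩
    apply σ.injective
    rw [Equiv.Perm.coe_inv, Equiv.apply_symm_apply, hσ, nf_add_mul, mul_assoc, mul_assoc, ha2, mul_one, mul_one,
      add_assoc, neg_add_cancel, add_zero]

theorem mem_affH {F : Type*} [Cfsg.NearField F] (σ : Equiv.Perm F) :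
    σ ∈ affH F ↔ ∃ a b : F, a ≠ 0 ∧ ∀ x : F, σ x = x * a + b := Iff.rfl

/-- The affine maps `x ↦ x * a + b`, `a ≠ 0`, of a near-field form a sharply doubly transitive permutation group. -/
theorem result {F : Type*} [Cfsg.NearField F] : ∃ H : Subgroup (Equiv.Perm F), (∀ σ : Equiv.Perm F, σ ∈ H ↔ ∃ a b : F, a ≠ 0 ∧ ∀ x : F, σ x = x * a + b) ∧ MulAction.IsMultiplyPretransitive H F 2 ∧ ∀ x : Fin 2 ↪ F, MulAction.stabilizer H x = ⊥ := by
  refine ⟨affH F, mem_affH, ?_, ?_⟩
  · rw [MulAction.is_two_pretransitive_iff]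
    intro x₁ x₂ y₁ y₂ hx hy
    have hx' : x₁ - x₂ ≠ 0 := sub_ne_zero.mpr hx
    have hy' : y₁ - y₂ ≠ 0 := sub_ne_zero.mpr hy
    obtain ⟨u, hu1, hu2⟩ := NearField.exists_inv _ hx'
    have hu : u ≠ 0 := by
      intro h
      rw [h, nf_zero_mul] at hu2
      exact NearField.zero_ne_one hu2
    set a := u * (y₁ - y₂) with ha
    have ha0 : a ≠ 0 := nf_mul_ne_zero hu hy'
    obtain ⟨a', ha1, ha2⟩ := NearField.exists_inv a ha0
    set b := -(x₁ * a) + y₁ with hb
    have hkey : (x₁ - x₂) * a = y₁ - y₂ := by rw [ha, ← mul_assoc, hu1, one_mul]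
    let σ : Equiv.Perm F :=
      { toFun := fun x => x * a + b
        invFun := fun y => (y - b) * a'
        left_inv := fun x => by
          simp only [add_sub_cancel_right]
          rw [mul_assoc, ha1, mul_one]
        right_inv := fun y => by
          simp only
          rw [mul_assoc, ha2, mul_one, sub_add_cancel] }
    have hσ : σ ∈ affH F := ⟨a, b, ha0, fun x => rfl⟩
    refine ⟨⟨σ, hσ⟩, ?_, ?_⟩
    · change x₁ * a + b = y₁
      rw [hb, ← add_assoc, add_neg_cancel, zero_add]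
    · change x₂ * a + b = y₂
      rw [nf_sub_mul] at hkey
      rw [hb, ← add_assoc, ← sub_eq_add_neg]
      have : x₂ * a - x₁ * a = y₂ - y₁ := by
        rw [← neg_sub (x₁ * a), hkey, neg_sub]
      rw [this, sub_add_cancel]
  · intro x
    rw [eq_bot_iff]
    rintro ⟨σ, a, b, ha, hσ⟩ hfix
    rw [MulAction.mem_stabilizer_iff] at hfix
    have h0 : σ (x 0) = x 0 := by
      have := congrArg (fun e : Fin 2 ↪ F => e 0) hfix
      exact this
    have h1 : σ (x 1) = x 1 := by
      have := congrArg (fun e : Fin 2 ↪ F => e 1) hfix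
      exact this
    rw [hσ] at h0 h1
    have hne : x 0 - x 1 ≠ 0 := sub_ne_zero.mpr (x.injective.ne (by decide))
    have h2 : (x 0 - x 1) * a = (x 0 - x 1) * 1 := by
      rw [nf_sub_mul, mul_one]
      have : x 0 * a - x 1 * a = (x 0 * a + b) - (x 1 * a + b) := by
        rw [add_sub_add_right_eq_sub]
      rw [this, h0, h1]
    have ha1 : a = 1 := nf_mul_left_cancel hne h2
    have hb0 : b = 0 := by
      rw [ha1, mul_one] at h0
      simpa using h0
    rw [Subgroup.mem_bot]
    apply Subtype.ext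
    ext y
    change σ y = y
    rw [hσ, ha1, hb0, mul_one, add_zero]

end Cfsg.Agent.S0681
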