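import Cfsg.Statements.S0682
import Cfsg.Agent.Lib.Helper15.NearField

set_option autoImplicit false
open Cfsg

namespace Cfsg.Agent.S0682

open Lib.Helper15

theorem nsmul_mul' {F : Type*} [Cfsg.NearField F] (n : ℕ) (x c : F) : (n • x) * c = n • (x * c) := by
  induction n with
  | zero => simp [nf_zero_mul]
  | succ n ih => rw [succ_nsmul, succ_nsmul, nf_add_mul, ih]

theorem exists_mul_eq {F : Type*} [Cfsg.NearField F] {x : F} (hx : x ≠ 0) (y : F) :
    ∃ c : F, x * c = y := by
  obtain ⟨x', h1, _⟩ := NearField.exists_inv x hx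
  exact ⟨x' * y, by rw [← mul_assoc, h1, one_mul]⟩

/-- A finite near-field has prime-power order; its additive group is commutative of prime exponent. -/
theorem result {F : Type*} [Cfsg.NearField F] [Finite F] : ∃ p j : ℕ, p.Prime ∧ 1 ≤ j ∧ Nat.card F = p ^ j ∧ (∀ x y : F, x + y = y + x) ∧ ∀ x : F, p • x = 0 := by
  have : Nontrivial F := ⟨⟨0, 1, NearField.zero_ne_one⟩⟩
  have hcard : 1 < Nat.card F := Finite.one_lt_card
  set p := (Nat.card F).minFac with hp
  have hpp : p.Prime := Nat.minFac_prime (by omega)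
  have : Fact p.Prime := ⟨hpp⟩
  obtain ⟨x0, hx0⟩ := exists_prime_addOrderOf_dvd_card' p (Nat.minFac_dvd (Nat.card F))
  have hx0ne : x0 ≠ 0 := by
    intro h
    rw [h, addOrderOf_zero] at hx0
    exact hpp.one_lt.ne hx0
  have hpx0 : p • x0 = 0 := by rw [← hx0]; exact addOrderOf_nsmul_eq_zero x0
  have hexp : ∀ y : F, p • y = 0 := by
    intro y
    obtain ⟨c, hc⟩ := exists_mul_eq hx0ne y
    rw [← hc, ← nsmul_mul', hpx0, nf_zero_mul]
  have hPG : IsPGroup p (Multiplicative F) := by
    intro g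
    refine ⟨1, ?_⟩
    rw [pow_one]
    exact congrArg Multiplicative.ofAdd (hexp g.toAdd)
  obtain ⟨j, hj⟩ := IsPGroup.iff_card.mp hPG
  have hj' : Nat.card F = p ^ j := by rw [← hj]; rfl
  have hj1 : 1 ≤ j := by
    rcases Nat.eq_zero_or_pos j with h | h
    · rw [h, pow_zero] at hj'; omega
    · exact h
  have : Nontrivial (Multiplicative F) := inferInstanceAs (Nontrivial F)
  have : Finite (Multiplicative F) := inferInstanceAs (Finite F)
  have : Nontrivial (Subgroup.center (Multiplicative F)) := hPG.center_nontrivial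
  obtain ⟨⟨z, hz⟩, hz1⟩ := exists_ne (1 : Subgroup.center (Multiplicative F))
  have hz0 : z.toAdd ≠ 0 := by
    intro h
    apply hz1
    apply Subtype.ext
    exact h
  have hzc : ∀ w : F, z.toAdd + w = w + z.toAdd := by
    intro w
    have := (Subgroup.mem_center_iff.mp hz) (Multiplicative.ofAdd w)
    exact (congrArg Multiplicative.toAdd this).symm
  refine ⟨p, j, hpp, hj1, hj', ?_, hexp⟩
  intro y w
  by_cases hy : y = 0
  · rw [hy, zero_add, add_zero]
  obtain ⟨c, hc⟩ := exists_mul_eq hz0 y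
  have hc0 : c ≠ 0 := by
    intro h
    rw [h, nf_mul_zero] at hc
    exact hy hc.symm
  obtain ⟨c', hc1, hc2⟩ := NearField.exists_inv c hc0
  have hw : w = (w * c') * c := by rw [mul_assoc, hc2, mul_one]
  rw [← hc]
  conv_lhs => rw [hw]
  conv_rhs => rw [hw]
  rw [← nf_add_mul, ← nf_add_mul, hzc]

end Cfsg.Agent.S0682
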