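import Cfsg.Statements.S0683
import Cfsg.Agent.Lib.Helper15.Sharp2NF

set_option autoImplicit false
open Cfsg

namespace Cfsg.Agent.S0683

/-- A finite sharply doubly transitive permutation group is the affine group of a near-field: the permuted set carries a near-field structure for which the group consists exactly of the maps `x ↦ x * a + b` with `a ≠ 0`. -/
theorem result {α : Type*} [Fintype α] [DecidableEq α] (H : Subgroup (Equiv.Perm α)) [MulAction.IsMultiplyPretransitive H α 2] (hsharp : ∀ x : Fin 2 ↪ α, MulAction.stabilizer H x = ⊥) (h2 : 2 ≤ Fintype.card α) : ∃ _ : Cfsg.NearField α, ∀ σ : Equiv.Perm α, σ ∈ H ↔ ∃ a b : α, a ≠ 0 ∧ ∀ x : α, σ x = x * a + b := by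
  have hS : Lib.Helper15.Sharp2 H α := Lib.Helper15.Sharp2.of_embeddings hsharp
  have hn : 2 ≤ Nat.card α := by rw [Nat.card_eq_fintype_card]; exact h2
  obtain ⟨o, e, hoe⟩ := Fintype.exists_pair_of_one_lt_card (α := α) (by omega)
  refine ⟨hS.nearField hn o e hoe, ?_⟩
  intro σ
  constructor
  · intro hσ
    set b := σ o with hb
    set g : H := ⟨σ, hσ⟩ with hg
    set k : H := (hS.tau hn o b)⁻¹ * g with hk
    have hk0 : k • o = o := by
      rw [hk, mul_smul, inv_smul_eq_iff, hS.tau_smul]
      rfl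
    have ha : k • e ≠ o := by
      intro hh
      exact hoe (MulAction.injective k (hk0.trans hh.symm))
    have hkmu : k = hS.mu o e hoe (k • e) := hS.mu_unique o e hoe ha hk0 rfl
    refine ⟨k • e, b, ha, fun x => ?_⟩
    change σ x = hS.sadd hn o (hS.smulF o e hoe x (k • e)) b
    rw [hS.sadd_comm, Lib.Helper15.Sharp2.sadd, hS.smulF_of_ne o e hoe _ ha, ← hkmu, hk, mul_smul,
      smul_inv_smul]
    rfl
  · rintro ⟨a, b, ha, hσ⟩
    have : σ = ((hS.tau hn o b * hS.mu o e hoe a : H) : Equiv.Perm α) := by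
      ext x
      rw [hσ x]
      change hS.sadd hn o (hS.smulF o e hoe x a) b = (hS.tau hn o b * hS.mu o e hoe a : H) • x
      rw [hS.sadd_comm, Lib.Helper15.Sharp2.sadd, hS.smulF_of_ne o e hoe _ ha, mul_smul]
    rw [this]
    exact (hS.tau hn o b * hS.mu o e hoe a : H).2

end Cfsg.Agent.S0683
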