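import Cfsg.Statements.S0684
-- import your own Cfsg.Agent.* helpers here
import Cfsg.Agent.Lib.Helper41.RegLin

set_option autoImplicit false
open Cfsg

namespace Cfsg.Agent.S0684

open Cfsg.Agent.Lib.Helper41 Subgroup
open scoped commutatorElement

/-- Point stabiliser of a sharply doubly transitive group not of semilinear type: a maximal normal abelian subgroup `A` of a linear group `H` that is regular on non-zero vectors and has no irreducible cyclic normal subgroup is cyclic and reducible, and the order of `A` divides `p ^ k - 1` for `k` the dimension of a minimal `A`-invariant subspace. -/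
theorem result {p : ℕ} [Fact p.Prime] {V : Type*} [AddCommGroup V] [Module (ZMod p) V] [Finite V] (H : Subgroup (V ≃ₗ[ZMod p] V)) (hreg : ∀ v w : V, v ≠ 0 → w ≠ 0 → ∃! h : H, (h : V ≃ₗ[ZMod p] V) v = w) (hI : ∀ A : Subgroup H, A.Normal → IsCyclic A → ∃ W : Submodule (ZMod p) V, W ≠ ⊥ ∧ W ≠ ⊤ ∧ ∀ a ∈ A, ∀ v ∈ W, ((a : H) : V ≃ₗ[ZMod p] V) v ∈ W) (A : Subgroup H) (hAn : A.Normal) (hAc : IsMulCommutative A) (hAmax : ∀ B : Subgroup H, B.Normal → IsMulCommutative B → A ≤ B → B = A) : IsCyclic A ∧ ∃ W : Submodule (ZMod p) V, W ≠ ⊥ ∧ W ≠ ⊤ ∧ (∀ a ∈ A, ∀ v ∈ W, ((a : H) : V ≃ₗ[ZMod p] V) v ∈ W) ∧ (∀ W' : Submodule (ZMod p) V, W' ≤ W → (∀ a ∈ A, ∀ v ∈ W', ((a : H) : V ≃ₗ[ZMod p] V) v ∈ W') → W' = ⊥ ∨ W' = W) ∧ Nat.card A ∣ p ^ Module.finrank (ZMod p) W - 1 := by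
  have hreg' : RegOn H := hreg
  obtain ⟨W1, hW1b, hW1t, -⟩ := hI ⊥ inferInstance inferInstance
  haveI : Nontrivial V := by
    by_contra hnt
    rw [not_nontrivial_iff_subsingleton] at hnt
    exact hW1b (Subsingleton.elim _ _)
  have hcyc : IsCyclic A := hreg'.isCyclic A hAc
  refine ⟨hcyc, ?_⟩
  obtain ⟨W₀, h0b, h0t, h0inv⟩ := hI A hAn hcyc
  obtain ⟨W, hle, hb, hinv, hmin⟩ := exists_min_invariant
    (fun e : V ≃ₗ[ZMod p] V => ∃ a ∈ A, ((a : H) : V ≃ₗ[ZMod p] V) = e) W₀ h0b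
    (by rintro _ ⟨a, ha, rfl⟩ v hv; exact h0inv a ha v hv)
  have hinv' : ∀ a ∈ A, ∀ v ∈ W, ((a : H) : V ≃ₗ[ZMod p] V) v ∈ W :=
    fun a ha v hv => hinv _ ⟨a, ha, rfl⟩ v hv
  refine ⟨W, hb, ?_, hinv', ?_, hreg'.card_dvd A W hinv'⟩
  · rintro rfl
    exact h0t (top_le_iff.mp hle)
  · intro W' hle' hinv''
    exact hmin W' hle' (by rintro _ ⟨a, ha, rfl⟩ v hv; exact hinv'' a ha v hv)

end Cfsg.Agent.S0684
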