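import Cfsg.Statements.S0685
-- import your own Cfsg.Agent.* helpers here
import Cfsg.Agent.Lib.Helper41.RegLin2

set_option autoImplicit false
open Cfsg

namespace Cfsg.Agent.S0685

open Cfsg.Agent.Lib.Helper41 Subgroup
open scoped commutatorElement

/-- In a linear group over the prime field that is regular on non-zero vectors and has no irreducible cyclic normal subgroup, a maximal normal abelian subgroup is properly contained in its centraliser, which is non-abelian. -/
theorem result {p : ℕ} [Fact p.Prime] {V : Type*} [AddCommGroup V] [Module (ZMod p) V] [Finite V] (H : Subgroup (V ≃ₗ[ZMod p] V)) (hreg : ∀ v w : V, v ≠ 0 → w ≠ 0 → ∃! h : H, (h : V ≃ₗ[ZMod p] V) v = w) (hI : ∀ A : Subgroup H, A.Normal → IsCyclic A → ∃ W : Submodule (ZMod p) V, W ≠ ⊥ ∧ W ≠ ⊤ ∧ ∀ a ∈ A, ∀ v ∈ W, ((a : H) : V ≃ₗ[ZMod p] V) v ∈ W) (A : Subgroup H) (hAn : A.Normal) (hAc : IsMulCommutative A) (hAmax : ∀ B : Subgroup H, B.Normal → IsMulCommutative B → A ≤ B → B = A) : A < Subgroup.centralizer (A : Set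 H) ∧ ¬ IsMulCommutative (Subgroup.centralizer (A : Set H)) := by
  have hreg' : RegOn H := hreg
  obtain ⟨W1, hW1b, hW1t, -⟩ := hI ⊥ inferInstance inferInstance
  have hnt : Nontrivial V := by
    by_contra hnt
    rw [not_nontrivial_iff_subsingleton] at hnt
    exact hW1b (Subsingleton.elim _ _)
  have hcyc : IsCyclic A := hreg'.isCyclic A hAc
  obtain ⟨W₀, h0b, h0t, h0inv⟩ := hI A hAn hcyc
  have hne : centralizer (A : Set H) ≠ A := hreg'.centralizer_ne A W₀ h0b h0t h0inv
  have hle : A ≤ centralizer (A : Set H) := by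
    intro x hx
    rw [mem_centralizer_iff]
    intro y hy
    exact congrArg Subtype.val (hAc.is_comm.comm ⟨y, hy⟩ ⟨x, hx⟩)
  refine ⟨lt_of_le_of_ne hle hne.symm, ?_⟩
  intro hcomm
  exact hne (hAmax _ inferInstance hcomm hle)

end Cfsg.Agent.S0685
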