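import Cfsg.Statements.S0687
-- import your own Cfsg.Agent.* helpers here
import Cfsg.Agent.Lib.Helper41.RegLin3

set_option autoImplicit false
open Cfsg

namespace Cfsg.Agent.S0687

open Cfsg.Agent.Lib.Helper41 Subgroup
open scoped commutatorElement

/-- In a linear group over the prime field that is regular on non-zero vectors and has no irreducible cyclic normal subgroup, a normal subgroup `N` minimal among the non-abelian normal subgroups centralising a maximal normal abelian subgroup `A` is irreducible on `V`, and its centraliser is `A`. -/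
theorem result {p : ℕ} [Fact p.Prime] {V : Type*} [AddCommGroup V] [Module (ZMod p) V] [Finite V] (H : Subgroup (V ≃ₗ[ZMod p] V)) (hreg : ∀ v w : V, v ≠ 0 → w ≠ 0 → ∃! h : H, (h : V ≃ₗ[ZMod p] V) v = w) (hI : ∀ A : Subgroup H, A.Normal → IsCyclic A → ∃ W : Submodule (ZMod p) V, W ≠ ⊥ ∧ W ≠ ⊤ ∧ ∀ a ∈ A, ∀ v ∈ W, ((a : H) : V ≃ₗ[ZMod p] V) v ∈ W) (A : Subgroup H) (hAn : A.Normal) (hAc : IsMulCommutative A) (hAmax : ∀ B : Subgroup H, B.Normal → IsMulCommutative B → A ≤ B → B = A) (N : Subgroup H) (hNn : N.Normal) (hNle : N ≤ Subgroup.centralizer (A : Set H)) (hNna : ¬ IsMulCommutative N) (hNmin : ∀ M : Subgroup H, M.Normal → M ≤ N → ¬ IsMulCommutative M → M = N) : (∀ W : Submodule (ZMod p) V, (∀ n ∈ N, ∀ v ∈ W, ((n : H) : V ≃ₗ[ZMod p] V) v ∈ W) → W = ⊥ ∨ W = ⊤) ∧ Subgroup.centralizer (N : Set H) = A := by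
  have hreg' : RegOn H := hreg
  have hirr : ∀ W : Submodule (ZMod p) V,
      (∀ n ∈ N, ∀ v ∈ W, ((n : H) : V ≃ₗ[ZMod p] V) v ∈ W) → W = ⊥ ∨ W = ⊤ := by
    intro W hW
    by_contra hcon
    push Not at hcon
    apply hNna
    have hc := hreg'.comm_of_reducible N W hcon.1 hcon.2 hW
    exact ⟨⟨fun a b => Subtype.ext (hc a a.2 b b.2)⟩⟩
  refine ⟨hirr, ?_⟩
  have hc := centralizer_comm_of_irreducible N hirr
  apply hAmax _ inferInstance ⟨⟨fun a b => Subtype.ext (hc a a.2 b b.2)⟩⟩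
  rw [Subgroup.le_centralizer_iff]
  exact hNle

end Cfsg.Agent.S0687
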