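import Cfsg.Statements.S0691
import Cfsg.Agent.Lib.Helper15.GL2List

set_option autoImplicit false
open Cfsg

namespace Cfsg.Agent.S0691

abbrev ga : Lib.Helper15.Q4 := (2, 0, 0, 3)
abbrev gb : Lib.Helper15.Q4 := (0, 4, 1, 0)
abbrev gc : Lib.Helper15.Q4 := (1, 2, 1, 3)
def gensL : List Lib.Helper15.Q4 := [ga, gb, gc]
def elts : List Lib.Helper15.Q4 :=
  [
   (1, 0, 0, 1), (2, 0, 0, 3), (0, 4, 1, 0), (1, 2, 1, 3), (4, 0, 0, 4), (0, 2, 2, 0),
   (2, 1, 2, 4), (0, 3, 3, 0), (2, 4, 3, 4), (4, 2, 1, 2), (3, 3, 4, 1), (3, 0, 0, 2),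
   (0, 1, 4, 0), (4, 3, 4, 2), (3, 1, 2, 1), (1, 4, 3, 3), (1, 3, 4, 3), (3, 2, 1, 1),
   (3, 4, 3, 1), (1, 1, 2, 3), (2, 2, 1, 4), (2, 3, 4, 4), (4, 4, 3, 2), (4, 1, 2, 2)]
def wordsL : List (List Lib.Helper15.Q4) :=
  [
   [], [ga], [gb], [gc],
   [ga, ga], [gb, ga], [gc, ga], [ga, gb],
   [gc, gb], [gb, gc], [gc, gc], [ga, ga, ga],
   [gb, ga, ga], [gc, ga, ga], [gb, gc, ga], [gc, gc, ga],
   [gc, ga, gb], [gc, gc, gb], [ga, gb, gc], [gc, gb, gc],
   [gc, gc, ga, ga], [gc, gb, gc, ga], [gc, gc, ga, gb], [gc, ga, gb, gc]]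
def scal : List ℕ := [1]

theorem mat_ga : (!![2, 0; 0, -2] : Matrix (Fin 2) (Fin 2) (ZMod 5)) = Lib.Helper15.qmat 5 ga := by decide +kernel
theorem mat_gb : (!![0, -1; 1, 0] : Matrix (Fin 2) (Fin 2) (ZMod 5)) = Lib.Helper15.qmat 5 gb := by decide +kernel
theorem mat_gc : (!![1, 2; 1, -2] : Matrix (Fin 2) (Fin 2) (ZMod 5)) = Lib.Helper15.qmat 5 gc := by decide +kernel

/-- An exceptional sharply doubly transitive group of degree 5^2: the listed matrices generate a subgroup of GL(2,5) of order 24 acting regularly on the non-zero vectors. -/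
theorem result (A : Matrix.GeneralLinearGroup (Fin 2) (ZMod 5)) (B : Matrix.GeneralLinearGroup (Fin 2) (ZMod 5)) (C : Matrix.GeneralLinearGroup (Fin 2) (ZMod 5)) (hA : (A : Matrix (Fin 2) (Fin 2) (ZMod 5)) = !![2, 0; 0, -2]) (hB : (B : Matrix (Fin 2) (Fin 2) (ZMod 5)) = !![0, -1; 1, 0]) (hC : (C : Matrix (Fin 2) (Fin 2) (ZMod 5)) = !![1, 2; 1, -2]) : Nat.card (Subgroup.closure ({A, B, C} : Set (Matrix.GeneralLinearGroup (Fin 2) (ZMod 5)))) = 24 ∧ ∀ v w : Fin 2 → ZMod 5, v ≠ 0 → w ≠ 0 → ∃! h : Subgroup.closure ({A, B, C} : Set (Matrix.GeneralLinearGroup (Fin 2) (ZMod 5))), Matrix.mulVec ((h : Matrix.GeneralLinearGroup (Fin 2) (ZMod 5)) : Matrix (Fin 2) (Fin 2) (ZMod 5)) v = w := by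
  have : Fact (Nat.Prime 5) := ⟨by norm_num⟩
  have hmain := Lib.Helper15.regular_main 5 4 rfl ({A, B, C} : Set (Matrix.GeneralLinearGroup (Fin 2) (ZMod 5))) gensL elts 1 scal
    ?_ ?_ ?_ (by decide +kernel) (by decide +kernel) (by decide +kernel) (by decide +kernel) (by decide +kernel) (by decide +kernel)
    (Lib.Helper15.words_of_map 5 gensL elts wordsL (by decide +kernel) (by decide +kernel))
    (Lib.Helper15.pows_of_map 5 1 1 scal (by decide +kernel))
    (by decide +kernel) (by decide +kernel) (by decide +kernel) (by decide +kernel) (by decide +kernel) (by decide +kernel)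
  · simpa using hmain
  · intro g hg
    simp only [Set.mem_insert_iff, Set.mem_singleton_iff] at hg
    rcases hg with rfl | rfl | rfl
    · left; exact ⟨ga, by decide, by rw [hA]; exact mat_ga⟩
    · left; exact ⟨gb, by decide, by rw [hB]; exact mat_gb⟩
    · left; exact ⟨gc, by decide, by rw [hC]; exact mat_gc⟩
  · intro c hc
    simp only [gensL, List.mem_cons, List.not_mem_nil, or_false] at hc
    rcases hc with rfl | rfl | rfl
    · exact ⟨A, Subgroup.subset_closure (by simp), by rw [hA]; exact mat_ga⟩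
    · exact ⟨B, Subgroup.subset_closure (by simp), by rw [hB]; exact mat_gb⟩
    · exact ⟨C, Subgroup.subset_closure (by simp), by rw [hC]; exact mat_gc⟩
  · exact ⟨1, one_mem _, by simp⟩

end Cfsg.Agent.S0691
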