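import Cfsg.Statements.S0694
import Mathlib

set_option autoImplicit false
open Cfsg

namespace Cfsg.Agent.S0694

/-- geometric sums `1 + q + ... + q^(i-1)` -/
def gs (q : ℕ) : ℕ → ℕ
  | 0 => 0
  | i + 1 => q * gs q i + 1

lemma pow_eq (q : ℕ) (hq : 1 ≤ q) (i : ℕ) : q ^ i = (q - 1) * gs q i + 1 := by
  obtain ⟨m, rfl⟩ : ∃ m, q = m + 1 := ⟨q - 1, by omega⟩
  induction i with
  | zero => simp [gs]
  | succ i ih =>
    simp only [Nat.add_sub_cancel] at ih ⊢
    rw [pow_succ, ih, gs]; ring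

lemma gs_add (q i k : ℕ) : gs q (i + k) = q ^ k * gs q i + gs q k := by
  induction k with
  | zero => simp [gs]
  | succ k ih =>
    rw [← add_assoc]
    show q * gs q (i + k) + 1 = q ^ (k + 1) * gs q i + (q * gs q k + 1)
    rw [ih]; ring

lemma gs_ne_zero (q i : ℕ) (hi : i ≠ 0) : gs q i ≠ 0 := by
  obtain ⟨k, rfl⟩ := Nat.exists_eq_succ_of_ne_zero hi
  show q * gs q k + 1 ≠ 0
  omega

lemma modEq_iff (q n i : ℕ) (hq : 2 ≤ q) : q ^ i ≡ 1 [MOD n * (q - 1)] ↔ n ∣ gs q i := by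
  rw [pow_eq q (by omega) i]
  constructor
  · intro h
    have h1 : n * (q - 1) ∣ (q - 1) * gs q i + 1 - 1 := (Nat.modEq_iff_dvd' (by omega)).mp h.symm
    rw [Nat.add_sub_cancel, mul_comm n] at h1
    exact Nat.dvd_of_mul_dvd_mul_left (by omega) h1
  · rintro ⟨c, hc⟩
    rw [hc]
    have : (q - 1) * (n * c) + 1 = 1 + n * (q - 1) * c := by ring
    rw [this]
    exact Nat.add_mul_mod_self_left _ _ _

lemma coprime_of (q n : ℕ) (hq : 2 ≤ q) (hn : 1 < n) (h : n ∣ gs q n) : Nat.Coprime q n := by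
  have h1 := pow_eq q (by omega) n
  have h2 : Nat.Coprime (q ^ n) n := by
    rw [h1]
    obtain ⟨c, hc⟩ := h
    rw [hc]
    have : (q - 1) * (n * c) + 1 = 1 + n * ((q - 1) * c) := by ring
    rw [this, Nat.coprime_add_mul_left_left]
    exact Nat.coprime_one_left n
  exact (Nat.coprime_pow_left_iff (by omega) q n).mp h2

lemma surj (q n : ℕ) (hq : 2 ≤ q) (hn : 1 < n) (h0 : n ∣ gs q n)
    (h1 : ∀ i, 0 < i → i < n → ¬ n ∣ gs q i) (x : ℕ) : ∃ i, gs q i ≡ x [MOD n] := by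
  have : NeZero n := ⟨by omega⟩
  have hc := coprime_of q n hq hn h0
  let f : Fin n → ZMod n := fun i => ((gs q i.1 : ℕ) : ZMod n)
  have key : ∀ a b : Fin n, a.1 < b.1 → f a = f b → False := by
    intro a b hlt hab
    have e : gs q b.1 = q ^ a.1 * gs q (b.1 - a.1) + gs q a.1 := by
      rw [← gs_add]; congr 1; omega
    have h2 : ((gs q a.1 : ℕ) : ZMod n) = ((gs q b.1 : ℕ) : ZMod n) := hab
    rw [ZMod.natCast_eq_natCast_iff, e] at h2
    have h3 : n ∣ q ^ a.1 * gs q (b.1 - a.1) := by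
      have := (Nat.modEq_iff_dvd' (by omega)).mp h2
      simpa using this
    have h4 : n ∣ gs q (b.1 - a.1) := Nat.Coprime.dvd_of_dvd_mul_left ((hc.pow_left a.1).symm) h3
    exact h1 _ (by omega) (by omega) h4
  have hinj : Function.Injective f := by
    intro a b hab
    rcases lt_trichotomy a.1 b.1 with h | h | h
    · exact (key a b h hab).elim
    · exact Fin.ext h
    · exact (key b a h hab.symm).elim
  have hsurj : Function.Surjective f :=
    ((Fintype.bijective_iff_injective_and_card f).mpr ⟨hinj, by simp [ZMod.card]⟩).2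
  obtain ⟨i, hi⟩ := hsurj (x : ZMod n)
  exact ⟨i.1, (ZMod.natCast_eq_natCast_iff _ _ _).mp hi⟩

lemma prime_dvd (q n : ℕ) (hq : 2 ≤ q) (hn : 1 < n) (h0 : n ∣ gs q n)
    (h1 : ∀ i, 0 < i → i < n → ¬ n ∣ gs q i) (r : ℕ) (hr : r.Prime) (hrn : r ∣ n) : r ∣ q - 1 := by
  by_contra hnd
  have hc := coprime_of q n hq hn h0
  have hcop : Nat.Coprime (q - 1) r := ((Nat.Prime.coprime_iff_not_dvd hr).mpr hnd).symm
  obtain ⟨m, -, hm⟩ := Nat.exists_mul_mod_eq_one_of_coprime hcop hr.one_lt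
  obtain ⟨i, hi⟩ := surj q n hq hn h0 h1 (m * (r - 1))
  have hi' : gs q i ≡ m * (r - 1) [MOD r] := hi.of_dvd hrn
  have h2 : q ^ i ≡ 0 [MOD r] := by
    rw [pow_eq q (by omega) i]
    have h3 : (q - 1) * gs q i + 1 ≡ (q - 1) * (m * (r - 1)) + 1 [MOD r] := (hi'.mul_left _).add_right _
    refine h3.trans ?_
    have h4 : (q - 1) * m ≡ 1 [MOD r] := by
      unfold Nat.ModEq; rw [hm, Nat.mod_eq_of_lt hr.one_lt]
    have h5 : (q - 1) * (m * (r - 1)) + 1 ≡ 1 * (r - 1) + 1 [MOD r] := by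
      rw [← mul_assoc]; exact (h4.mul_right _).add_right _
    refine h5.trans ?_
    have : 1 * (r - 1) + 1 = r := by have := hr.one_lt; omega
    rw [this]
    exact (Nat.modEq_zero_iff_dvd).mpr dvd_rfl
  have h6 : r ∣ q ^ i := (Nat.modEq_zero_iff_dvd).mp h2
  have h7 : r ∣ q := hr.dvd_of_dvd_pow h6
  exact hr.one_lt.ne' (Nat.eq_one_of_dvd_coprimes hc h7 hrn)

lemma four_dvd (q n : ℕ) (hq : 2 ≤ q) (hn : 1 < n) (h0 : n ∣ gs q n)
    (h1 : ∀ i, 0 < i → i < n → ¬ n ∣ gs q i) (h4 : 4 ∣ n) : 4 ∣ q - 1 := by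
  have h2 : 2 ∣ q - 1 := prime_dvd q n hq hn h0 h1 2 Nat.prime_two (dvd_trans (by norm_num) h4)
  by_contra hnd
  have hq4 : q % 4 = 3 := by omega
  have hS : ∀ i, gs q i % 4 = 0 ∨ gs q i % 4 = 1 := by
    intro i
    induction i with
    | zero => left; rfl
    | succ i ih =>
      show (q * gs q i + 1) % 4 = 0 ∨ (q * gs q i + 1) % 4 = 1
      have : (q * gs q i + 1) % 4 = ((q % 4) * (gs q i % 4) + 1) % 4 := by
        simp [Nat.add_mod, Nat.mul_mod]
      rw [this, hq4]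
      rcases ih with h | h <;> rw [h] <;> simp
  obtain ⟨i, hi⟩ := surj q n hq hn h0 h1 2
  have h5 : gs q i ≡ 2 [MOD 4] := hi.of_dvd h4
  have h' : gs q i % 4 = 2 := h5
  rcases hS i with h | h <;> omega

lemma val_odd (q i r : ℕ) (hq : 2 ≤ q) (hr : r.Prime) (hodd : r ≠ 2) (hrq : r ∣ q - 1) (hi : i ≠ 0) :
    padicValNat r (gs q i) = padicValNat r i := by
  have := Fact.mk hr
  have hnq : ¬ r ∣ q := by
    intro h
    have h1 : r ∣ q - (q - 1) := Nat.dvd_sub h hrq
    have h2 : q - (q - 1) = 1 := by omega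
    rw [h2] at h1
    exact hr.one_lt.ne' (Nat.dvd_one.mp h1)
  have h1 : padicValNat r (q ^ i - 1 ^ i) = padicValNat r (q - 1) + padicValNat r i :=
    padicValNat.pow_sub_pow (hr.odd_of_ne_two hodd) (by omega) hrq hnq hi
  have h2 : q ^ i - 1 ^ i = (q - 1) * gs q i := by rw [one_pow, pow_eq q (by omega) i]; simp
  rw [h2, padicValNat.mul (by omega) (gs_ne_zero q i hi)] at h1
  omega

lemma gs_parity (q i : ℕ) (hq : q % 2 = 1) : gs q i % 2 = i % 2 := by
  induction i with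
  | zero => rfl
  | succ i ih =>
    show (q * gs q i + 1) % 2 = (i + 1) % 2
    have : (q * gs q i + 1) % 2 = ((q % 2) * (gs q i % 2) + 1) % 2 := by
      simp [Nat.add_mod, Nat.mul_mod]
    rw [this, hq, ih]
    omega

lemma val_two (q i : ℕ) (hq : 2 ≤ q) (h4 : 4 ∣ q - 1) (hi : i ≠ 0) :
    padicValNat 2 (gs q i) = padicValNat 2 i := by
  have hq2 : q % 2 = 1 := by omega
  rcases Nat.even_or_odd i with he | ho
  · have h1 := padicValNat.pow_two_sub_pow (x := q) (y := 1) (by omega) (dvd_trans (by norm_num) h4)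
      (by omega) hi he
    have h3 : padicValNat 2 (q + 1) = 1 := by
      obtain ⟨c, hc⟩ := h4
      have : q + 1 = 2 * (2 * c + 1) := by omega
      rw [this, padicValNat.mul (by norm_num) (by omega), padicValNat.self (by norm_num),
        padicValNat.eq_zero_of_not_dvd (by omega)]
    have h2 : q ^ i - 1 ^ i = (q - 1) * gs q i := by rw [one_pow, pow_eq q (by omega) i]; simp
    rw [h2, padicValNat.mul (by omega) (gs_ne_zero q i hi), h3] at h1
    omega
  · have h1 := gs_parity q i hq2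
    obtain ⟨k, hk⟩ := ho
    rw [padicValNat.eq_zero_of_not_dvd (by omega), padicValNat.eq_zero_of_not_dvd (by omega)]

lemma dvd_iff (q n i : ℕ) (hq : 2 ≤ q) (hn : 1 < n) (hP : ∀ r : ℕ, r.Prime → r ∣ n → r ∣ q - 1)
    (h4 : 4 ∣ n → 4 ∣ q - 1) (hi : i ≠ 0) : n ∣ gs q i ↔ n ∣ i := by
  rw [← Nat.factorization_prime_le_iff_dvd (by omega) (gs_ne_zero q i hi),
    ← Nat.factorization_prime_le_iff_dvd (by omega) hi]
  apply forall_congr'; intro r
  apply forall_congr'; intro hr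
  have := Fact.mk hr
  rw [Nat.factorization_def _ hr, Nat.factorization_def _ hr, Nat.factorization_def _ hr]
  by_cases hrn : r ∣ n
  · by_cases h2 : r = 2
    · subst h2
      have h2q := hP 2 hr hrn
      by_cases h4q : 4 ∣ q - 1
      · rw [val_two q i hq h4q hi]
      · have h4n : ¬ 4 ∣ n := fun h => h4q (h4 h)
        have hv1 : 1 ≤ padicValNat 2 n := one_le_padicValNat_of_dvd (by omega) hrn
        have hv2 : ¬ 2 ≤ padicValNat 2 n := by
          intro h
          exact h4n ((padicValNat_dvd_iff_le (p := 2) (by omega)).mpr h)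
        have hv : padicValNat 2 n = 1 := by omega
        rw [hv]
        have hpar := gs_parity q i (by omega)
        constructor
        · intro h
          have := dvd_of_one_le_padicValNat h
          exact one_le_padicValNat_of_dvd hi (by omega)
        · intro h
          have := dvd_of_one_le_padicValNat h
          exact one_le_padicValNat_of_dvd (gs_ne_zero q i hi) (by omega)
    · rw [val_odd q i r hq hr h2 (hP r hr hrn) hi]
  · rw [padicValNat.eq_zero_of_not_dvd hrn]; simp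

/-- The Dickson pair condition: for a prime power `q` and `n > 1`, (every prime factor of `n` divides `q - 1`, and `4 ∣ n → 4 ∣ q - 1`) holds exactly when `q ^ n ≡ 1` modulo `n * (q - 1)` but `q ^ i` is not, for `0 < i < n`. -/
theorem result (q n : ℕ) (hq : IsPrimePow q) (hn : 1 < n) : ((∀ r : ℕ, r.Prime → r ∣ n → r ∣ q - 1) ∧ (4 ∣ n → 4 ∣ q - 1)) ↔ (q ^ n ≡ 1 [MOD n * (q - 1)] ∧ ∀ i : ℕ, 0 < i → i < n → ¬ q ^ i ≡ 1 [MOD n * (q - 1)]) := by
  have hq2 : 2 ≤ q := hq.two_le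
  simp only [modEq_iff q n _ hq2]
  constructor
  · rintro ⟨hP, h4⟩
    refine ⟨(dvd_iff q n n hq2 hn hP h4 (by omega)).mpr dvd_rfl, ?_⟩
    intro i hi0 hin h
    have := (dvd_iff q n i hq2 hn hP h4 (by omega)).mp h
    exact absurd (Nat.le_of_dvd hi0 this) (by omega)
  · rintro ⟨h0, h1⟩
    exact ⟨prime_dvd q n hq2 hn h0 h1, four_dvd q n hq2 hn h0 h1⟩

end Cfsg.Agent.S0694
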