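import Cfsg.Statements.S0701
import Cfsg.Agent.Lib.Helper16.Semiregular

set_option autoImplicit false
open Cfsg

namespace Cfsg.Agent.S0701

open Cfsg.Agent.Lib.Helper16

/-- The centraliser in the full symmetric group of a transitive permutation group `G` is semiregular, and it is transitive if and only if `G` is regular. -/
theorem result {α : Type*} (G : Subgroup (Equiv.Perm α)) [MulAction.IsPretransitive G α] : (∀ c ∈ Subgroup.centralizer (G : Set (Equiv.Perm α)), ∀ a : α, c a = a → c = 1) ∧ (MulAction.IsPretransitive (Subgroup.centralizer (G : Set (Equiv.Perm α))) α ↔ ∀ a : α, MulAction.stabilizer G a = ⊥) := by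
  refine ⟨fun c hc a ha => centralizer_semiregular G c hc a ha, ?_, ?_⟩
  · intro hC a
    rw [Subgroup.eq_bot_iff_forall]
    intro g hg
    apply Subtype.ext
    apply eq_one_of_commute_of_fixed (Subgroup.centralizer (G : Set (Equiv.Perm α))) (g : Equiv.Perm α) _ a hg
    intro c hc
    exact (Subgroup.mem_centralizer_iff.mp hc g g.2).symm
  · intro hreg
    refine ⟨fun a b => ?_⟩
    let ea : G ≃ α := Equiv.ofBijective _ (orbitMap_bijective_of_regular a (hreg a))
    let eb : G ≃ α := Equiv.ofBijective _ (orbitMap_bijective_of_regular b (hreg b))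
    have hea : ∀ (h g : G), ea (h * g) = h • ea g := fun h g => mul_smul h g a
    have heb : ∀ (h g : G), eb (h * g) = h • eb g := fun h g => mul_smul h g b
    have hea' : ∀ (h : G) (x : α), ea.symm (h • x) = h * ea.symm x := by
      intro h x
      apply ea.injective
      rw [hea]; simp
    refine ⟨⟨ea.symm.trans eb, ?_⟩, ?_⟩
    · rw [Subgroup.mem_centralizer_iff]
      intro h hh
      ext x
      have h1 := hea' ⟨h, hh⟩ x
      have h2 := heb ⟨h, hh⟩ (ea.symm x)
      simp only [Equiv.Perm.mul_apply, Equiv.trans_apply]
      have h3 : (⟨h, hh⟩ : G) • x = h x := rfl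
      rw [h3] at h1
      rw [h1, h2]
      rfl
    · change eb (ea.symm a) = b
      have : ea.symm a = 1 := by
        apply ea.injective
        simp only [Equiv.apply_symm_apply]
        exact (one_smul G a).symm
      rw [this]
      exact one_smul G b

end Cfsg.Agent.S0701
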