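import Cfsg.Statements.S0702
import Cfsg.Agent.Lib.Helper16.Semiregular

set_option autoImplicit false
open Cfsg

namespace Cfsg.Agent.S0702

open Cfsg.Agent.Lib.Helper16 MulAction

section
variable {α : Type*} (G : Subgroup (Equiv.Perm α)) [MulAction.IsPretransitive G α] (a : α)

/-- the underlying function of the centralising permutation attached to `n` -/
noncomputable def f (n : G) : α → α := fun x => ((exists_smul_eq G a x).choose * n⁻¹) • a

theorem f_spec (n : G) (hn : n ∈ Subgroup.normalizer ((stabilizer G a : Subgroup G) : Set G)) (g : G) :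
    f G a n (g • a) = (g * n⁻¹) • a := by
  unfold f
  set γ := (exists_smul_eq G a (g • a)).choose with hγ
  have hγa : γ • a = g • a := (exists_smul_eq G a (g • a)).choose_spec
  have h1 : g⁻¹ * γ ∈ stabilizer G a := by
    rw [mem_stabilizer_iff, mul_smul, hγa, inv_smul_smul]
  have h2 := (Subgroup.mem_normalizer_iff.mp hn (g⁻¹ * γ)).mp h1
  rw [mem_stabilizer_iff] at h2
  have h3 : (γ * n⁻¹) • a = (g * n⁻¹) • ((n * (g⁻¹ * γ) * n⁻¹) • a) := by
    rw [← mul_smul]; congr 1; group
  rw [h3, h2]

end

/-- For a transitive permutation group `G` on a finite set, the centraliser of `G` in the symmetric group is isomorphic to `N_G(G_ω)/G_ω`, and its orbit of `ω` is the set of fixed points of `G_ω`. -/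
theorem result {α : Type*} [Finite α] (G : Subgroup (Equiv.Perm α)) [MulAction.IsPretransitive G α] (a : α) : Nonempty (Subgroup.centralizer (G : Set (Equiv.Perm α)) ≃* Subgroup.normalizer ((MulAction.stabilizer G a : Subgroup G) : Set G) ⧸ (MulAction.stabilizer G a).subgroupOf (Subgroup.normalizer ((MulAction.stabilizer G a : Subgroup G) : Set G))) ∧ MulAction.orbit (Subgroup.centralizer (G : Set (Equiv.Perm α))) a = MulAction.fixedPoints (MulAction.stabilizer G a) α := by
  set N := Subgroup.normalizer ((stabilizer G a : Subgroup G) : Set G) with hN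
  set C := Subgroup.centralizer (G : Set (Equiv.Perm α)) with hC
  have hcomp : ∀ n m : N, ∀ x, f G a n (f G a m x) = f G a (n * m) x := by
    intro n m x
    obtain ⟨g, rfl⟩ := exists_smul_eq G a x
    rw [f_spec G a m m.2, f_spec G a n n.2, f_spec G a (n * m) (N.mul_mem n.2 m.2)]
    rw [mul_inv_rev, mul_assoc]
  have hone : ∀ x, f G a 1 x = x := by
    intro x
    obtain ⟨g, rfl⟩ := exists_smul_eq G a x
    rw [f_spec G a 1 N.one_mem]; simp
  let c : N → Equiv.Perm α := fun n =>
    ⟨f G a n, f G a (n⁻¹ : N), fun x => by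
      have := hcomp n⁻¹ n x
      rw [this]; simpa using hone x, fun x => by
      have := hcomp n n⁻¹ x
      rw [this]; simpa using hone x⟩
  have hc_apply : ∀ (n : N) (g : G), c n (g • a) = (g * (n : G)⁻¹) • a := fun n g => f_spec G a n n.2 g
  have hcC : ∀ n : N, c n ∈ C := by
    intro n
    rw [hC, Subgroup.mem_centralizer_iff]
    intro h hh
    ext x
    obtain ⟨g, rfl⟩ := exists_smul_eq G a x
    rw [Equiv.Perm.mul_apply, Equiv.Perm.mul_apply, hc_apply]
    have h1 : h (g • a) = ((⟨h, hh⟩ : G) * g) • a := by rw [mul_smul]; rfl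
    have h2 : h ((g * (n : G)⁻¹) • a) = ((⟨h, hh⟩ : G) * g * (n : G)⁻¹) • a := by
      rw [mul_assoc, mul_smul]; rfl
    rw [h1, h2, hc_apply]
  let ψ : N →* C :=
    { toFun := fun n => ⟨c n, hcC n⟩
      map_one' := by
        apply Subtype.ext
        ext x
        exact hone x
      map_mul' := by
        intro n m
        apply Subtype.ext
        ext x
        exact (hcomp n m x).symm }
  have hker : ψ.ker = (stabilizer G a).subgroupOf N := by
    ext n
    rw [MonoidHom.mem_ker, Subgroup.mem_subgroupOf, mem_stabilizer_iff]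
    constructor
    · intro h
      have h1 : c n a = a := by
        have := congrArg (fun z : C => (z : Equiv.Perm α) a) h
        exact this
      have h2 := hc_apply n 1
      rw [one_smul, h1, one_mul, eq_comm, inv_smul_eq_iff] at h2
      exact h2.symm
    · intro h
      apply Subtype.ext
      ext x
      obtain ⟨g, rfl⟩ := exists_smul_eq G a x
      change c n (g • a) = g • a
      rw [hc_apply, mul_smul, inv_smul_eq_iff.mpr h.symm]
  -- elements k with `c a = k a`
  have hmemN : ∀ k : G, (∀ s ∈ stabilizer G a, s • k • a = k • a) → k⁻¹ ∈ N := by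
    intro k hk
    have hle : (stabilizer G a).map (MulAut.conj k⁻¹).toMonoidHom ≤ stabilizer G a := by
      rintro _ ⟨s, hs, rfl⟩
      simp only [MulEquiv.coe_toMonoidHom, MulAut.conj_apply, inv_inv]
      rw [mem_stabilizer_iff, mul_smul, mul_smul, hk s hs, inv_smul_smul]
    have heq : (stabilizer G a).map (MulAut.conj k⁻¹).toMonoidHom = stabilizer G a := by
      apply Subgroup.eq_of_le_of_card_ge hle
      rw [Subgroup.card_map_of_injective (MulAut.conj k⁻¹).injective]
    rw [hN, Subgroup.mem_normalizer_iff]
    intro h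
    constructor
    · intro hh
      apply hle
      exact ⟨h, hh, by simp⟩
    · intro hh
      rw [← heq] at hh
      obtain ⟨s, hs, hsh⟩ := hh
      simp only [MulEquiv.coe_toMonoidHom, MulAut.conj_apply] at hsh
      have : s = h := by
        have := mul_left_cancel (mul_right_cancel hsh)
        exact this
      rwa [← this]
  have hsurj : Function.Surjective ψ := by
    rintro ⟨z, hz⟩
    obtain ⟨k, hk⟩ := exists_smul_eq G a (z a)
    have hzc : ∀ (g : G) (x : α), z (g • x) = g • z x := by
      intro g x
      have := Subgroup.mem_centralizer_iff.mp hz g g.2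
      have h2 := congrArg (fun f : Equiv.Perm α => f x) this
      exact h2.symm
    have hkN : k⁻¹ ∈ N := by
      apply hmemN
      intro s hs
      rw [hk, ← hzc, mem_stabilizer_iff.mp hs]
    refine ⟨⟨k⁻¹, hkN⟩, ?_⟩
    apply Subtype.ext
    ext x
    obtain ⟨g, rfl⟩ := exists_smul_eq G a x
    change c ⟨k⁻¹, hkN⟩ (g • a) = z (g • a)
    rw [hc_apply, hzc, ← hk, mul_smul]
    simp
  constructor
  · exact ⟨((QuotientGroup.quotientMulEquivOfEq hker).symm.trans
      (QuotientGroup.quotientKerEquivOfSurjective ψ hsurj)).symm⟩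
  · ext x
    constructor
    · rintro ⟨z, rfl⟩
      rw [mem_fixedPoints]
      intro s
      have := Subgroup.mem_centralizer_iff.mp z.2 (s : G) (s : G).2
      have h2 := congrArg (fun f : Equiv.Perm α => f a) this
      have h3 : ((s : G) : Equiv.Perm α) a = a := s.2
      simp only [Equiv.Perm.mul_apply] at h2
      rw [h3] at h2
      exact h2
    · intro hx
      rw [mem_fixedPoints] at hx
      obtain ⟨k, rfl⟩ := exists_smul_eq G a x
      have hkN : k⁻¹ ∈ N := hmemN k (fun s hs => hx ⟨s, hs⟩)
      refine ⟨ψ ⟨k⁻¹, hkN⟩, ?_⟩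
      change c ⟨k⁻¹, hkN⟩ a = k • a
      have := hc_apply ⟨k⁻¹, hkN⟩ 1
      rw [one_smul] at this
      rw [this]; simp

end Cfsg.Agent.S0702
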