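import Cfsg.Statements.S0703
import Cfsg.Agent.Lib.Helper16.MinNormal

set_option autoImplicit false
open Cfsg

namespace Cfsg.Agent.S0703

open Cfsg.Agent.Lib.Helper16

/-- An abelian transitive minimal normal subgroup `M` of a permutation group on a finite set is self-centralising in the symmetric group, regular, elementary abelian, and is the unique minimal normal subgroup. -/
theorem result {α : Type*} [Finite α] (G : Subgroup (Equiv.Perm α)) (M : Subgroup G) [M.Normal] (hM : M ≠ ⊥) (hmin : ∀ L : Subgroup G, L.Normal → L ≤ M → L = ⊥ ∨ L = M) (hab : IsMulCommutative M) (htrans : MulAction.IsPretransitive M α) : Subgroup.centralizer ((M.map G.subtype : Subgroup (Equiv.Perm α)) : Set (Equiv.Perm α)) = M.map G.subtype ∧ (∀ a : α, MulAction.stabilizer M a = ⊥) ∧ (∃ p : ℕ, p.Prime ∧ ∀ m ∈ M, m ^ p = 1) ∧ ∀ L : Subgroup G, L.Normal → L ≠ ⊥ → (∀ L' : Subgroup G, L'.Normal → L' ≤ L → L' = ⊥ ∨ L' = L) → L = M := by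
  have hcomm : ∀ x ∈ M, ∀ y ∈ M, x * y = y * x := by
    intro x hx y hy
    have := mul_comm' (⟨x, hx⟩ : M) ⟨y, hy⟩
    exact congrArg Subtype.val this
  have hne : Nonempty α := by
    by_contra hemp
    rw [not_nonempty_iff] at hemp
    apply hM
    rw [Subgroup.eq_bot_iff_forall]
    intro x _
    apply Subtype.ext
    exact Subsingleton.elim _ _
  have ht' : MulAction.IsPretransitive (M.map G.subtype) α := isPretransitive_map_subtype G M htrans
  have hsemi : ∀ k ∈ Subgroup.centralizer ((M.map G.subtype : Subgroup (Equiv.Perm α)) : Set (Equiv.Perm α)), ∀ a : α, k a = a → k = 1 :=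
    fun k hk a ha => centralizer_semiregular _ k hk a ha
  have hle : M.map G.subtype ≤ Subgroup.centralizer ((M.map G.subtype : Subgroup (Equiv.Perm α)) : Set (Equiv.Perm α)) :=
    map_le_centralizer_map G M M hcomm
  have hC : Subgroup.centralizer ((M.map G.subtype : Subgroup (Equiv.Perm α)) : Set (Equiv.Perm α)) = M.map G.subtype :=
    (eq_of_le_of_transitive_of_semiregular _ _ hle hsemi).symm
  refine ⟨hC, ?_, ?_, ?_⟩
  · exact stabilizer_eq_bot_of_semiregular G M (fun k hk => hsemi k (hle hk))
  · have hfin : Finite M := inferInstance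
    have hnt : Nontrivial M := (Subgroup.nontrivial_iff_ne_bot M).mpr hM
    have hcard : Nat.card M ≠ 1 := by
      intro h
      rw [Nat.card_eq_one_iff_unique] at h
      exact not_subsingleton M h.1
    obtain ⟨p, hp, hpd⟩ := Nat.exists_prime_and_dvd hcard
    refine ⟨p, hp, ?_⟩
    have : Fact p.Prime := ⟨hp⟩
    obtain ⟨x, hx⟩ := exists_prime_orderOf_dvd_card' (G := M) p hpd
    let L : Subgroup G :=
      { carrier := {m | m ∈ M ∧ m ^ p = 1}
        one_mem' := ⟨M.one_mem, one_pow p⟩
        mul_mem' := by
          rintro a b ⟨ha, ha'⟩ ⟨hb, hb'⟩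
          refine ⟨M.mul_mem ha hb, ?_⟩
          rw [(show Commute a b from hcomm a ha b hb).mul_pow, ha', hb', one_mul]
        inv_mem' := by
          rintro a ⟨ha, ha'⟩
          exact ⟨M.inv_mem ha, by rw [inv_pow, ha', inv_one]⟩ }
    have hLn : L.Normal := by
      constructor
      rintro n ⟨hn, hn'⟩ g
      refine ⟨‹M.Normal›.conj_mem n hn g, ?_⟩
      rw [conj_pow, hn']; simp
    have hLM : L ≤ M := fun m hm => hm.1
    rcases hmin L hLn hLM with h | h
    · exfalso
      have hxL : (x : G) ∈ L := by
        refine ⟨x.2, ?_⟩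
        have := pow_orderOf_eq_one x
        rw [hx] at this
        exact_mod_cast congrArg Subtype.val this
      rw [h, Subgroup.mem_bot] at hxL
      have hx1 : x = 1 := Subtype.ext hxL
      rw [hx1, orderOf_one] at hx
      exact hp.one_lt.ne hx
    · intro m hm
      rw [← h] at hm
      exact hm.2
  · intro L hLn hL hLmin
    rcases minNormal_eq_or_commute L M hLn ‹M.Normal› hL hLmin hmin with h | h
    · exact h
    · have h1 := map_le_centralizer_map G L M h
      rw [hC] at h1
      have h2 : L ≤ M := by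
        intro x hx
        obtain ⟨y, hy, hxy⟩ := h1 ⟨x, hx, rfl⟩
        have : y = x := Subtype.ext hxy
        rwa [← this]
      rcases hmin L hLn h2 with h3 | h3
      · exact absurd h3 hL
      · exact h3

end Cfsg.Agent.S0703
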