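import Cfsg.Statements.S0704
import Cfsg.Agent.Lib.Helper16.MinNormal

set_option autoImplicit false
open Cfsg

namespace Cfsg.Agent.S0704

open Cfsg.Agent.Lib.Helper16

theorem le_of_map_le {α : Type*} (G : Subgroup (Equiv.Perm α)) (L M : Subgroup G)
    (h1 : L.map G.subtype ≤ M.map G.subtype) : L ≤ M := by
  intro x hx
  obtain ⟨y, hy, hxy⟩ := h1 ⟨x, hx, rfl⟩
  have : y = x := Subtype.ext hxy
  rwa [← this]

/-- Two distinct transitive minimal normal subgroups `M`, `N` of a permutation group are regular, non-abelian, isomorphic, each other's centraliser in the symmetric group, and the only minimal normal subgroups. -/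
theorem result {α : Type*} (G : Subgroup (Equiv.Perm α)) (M N : Subgroup G) [M.Normal] [N.Normal] (hM : M ≠ ⊥) (hN : N ≠ ⊥) (hMmin : ∀ L : Subgroup G, L.Normal → L ≤ M → L = ⊥ ∨ L = M) (hNmin : ∀ L : Subgroup G, L.Normal → L ≤ N → L = ⊥ ∨ L = N) (hMN : M ≠ N) (hMt : MulAction.IsPretransitive M α) (hNt : MulAction.IsPretransitive N α) : (∀ a : α, MulAction.stabilizer M a = ⊥) ∧ (∀ a : α, MulAction.stabilizer N a = ⊥) ∧ ¬ IsMulCommutative M ∧ Nonempty (M ≃* N) ∧ Subgroup.centralizer ((M.map G.subtype : Subgroup (Equiv.Perm α)) : Set (Equiv.Perm α)) = N.map G.subtype ∧ Subgroup.centralizer ((N.map G.subtype : Subgroup (Equiv.Perm α)) : Set (Equiv.Perm α)) = M.map G.subtype ∧ ∀ L : Subgroup G, L.Normal → L ≠ ⊥ → (∀ L' : Subgroup G, L'.Normal → L' ≤ L → L' = ⊥ ∨ L' = L) → L = M ∨ L = N := by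
  have hne : Nonempty α := by
    by_contra hemp
    rw [not_nonempty_iff] at hemp
    apply hM
    rw [Subgroup.eq_bot_iff_forall]
    intro x _
    apply Subtype.ext
    exact Subsingleton.elim _ _
  have hcomm : ∀ x ∈ M, ∀ y ∈ N, x * y = y * x := by
    rcases minNormal_eq_or_commute M N ‹M.Normal› ‹N.Normal› hM hMmin hNmin with h | h
    · exact absurd h hMN
    · exact h
  have hcomm' : ∀ x ∈ N, ∀ y ∈ M, x * y = y * x := fun x hx y hy => (hcomm y hy x hx).symm
  have hMt' : MulAction.IsPretransitive (M.map G.subtype) α := isPretransitive_map_subtype G M hMt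
  have hNt' : MulAction.IsPretransitive (N.map G.subtype) α := isPretransitive_map_subtype G N hNt
  have hsemiM : ∀ k ∈ Subgroup.centralizer ((M.map G.subtype : Subgroup (Equiv.Perm α)) : Set (Equiv.Perm α)), ∀ a : α, k a = a → k = 1 :=
    fun k hk a ha => centralizer_semiregular _ k hk a ha
  have hsemiN : ∀ k ∈ Subgroup.centralizer ((N.map G.subtype : Subgroup (Equiv.Perm α)) : Set (Equiv.Perm α)), ∀ a : α, k a = a → k = 1 :=
    fun k hk a ha => centralizer_semiregular _ k hk a ha
  have hleN := map_le_centralizer_map G N M hcomm'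
  have hleM := map_le_centralizer_map G M N hcomm
  have hCM : Subgroup.centralizer ((M.map G.subtype : Subgroup (Equiv.Perm α)) : Set (Equiv.Perm α)) = N.map G.subtype :=
    (eq_of_le_of_transitive_of_semiregular _ _ hleN hsemiM).symm
  have hCN : Subgroup.centralizer ((N.map G.subtype : Subgroup (Equiv.Perm α)) : Set (Equiv.Perm α)) = M.map G.subtype :=
    (eq_of_le_of_transitive_of_semiregular _ _ hleM hsemiN).symm
  have hregM : ∀ a : α, MulAction.stabilizer M a = ⊥ :=
    stabilizer_eq_bot_of_semiregular G M (fun k hk => hsemiN k (hleM hk))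
  have hregN : ∀ a : α, MulAction.stabilizer N a = ⊥ :=
    stabilizer_eq_bot_of_semiregular G N (fun k hk => hsemiM k (hleN hk))
  refine ⟨hregM, hregN, ?_, ?_, hCM, hCN, ?_⟩
  · intro hab
    have hc : ∀ x ∈ M, ∀ y ∈ M, x * y = y * x := by
      intro x hx y hy
      have := mul_comm' (⟨x, hx⟩ : M) ⟨y, hy⟩
      exact congrArg Subtype.val this
    have h1 := map_le_centralizer_map G M M hc
    rw [hCM] at h1
    rcases hNmin M ‹M.Normal› (le_of_map_le G M N h1) with h | h
    · exact hM h
    · exact hMN h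
  · obtain ⟨a⟩ := hne
    let eM : M ≃ α := Equiv.ofBijective _ (orbitMap_bijective_of_regular a (hregM a))
    let eN : N ≃ α := Equiv.ofBijective _ (orbitMap_bijective_of_regular a (hregN a))
    have heM : ∀ m : M, eM m = m • a := fun m => rfl
    have heN : ∀ n : N, eN n = n • a := fun n => rfl
    have hsw : ∀ (m : M) (n : N) (x : α), m • n • x = n • m • x := by
      intro m n x
      have := congrArg (fun g : G => (g : Equiv.Perm α) x) (hcomm m m.2 n n.2)
      exact this
    have hψ : ∀ m : M, (eN.symm (eM m)) • a = m • a := by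
      intro m
      rw [← heN, Equiv.apply_symm_apply, heM]
    have hanti : ∀ m m' : M, eN.symm (eM (m * m')) = eN.symm (eM m') * eN.symm (eM m) := by
      intro m m'
      apply eN.injective
      rw [Equiv.apply_symm_apply, heM, heN, mul_smul, mul_smul, hψ, ← hsw, hψ]
    refine ⟨MulEquiv.mk' ((eM.trans eN.symm).trans (Equiv.inv N)) ?_⟩
    intro m m'
    simp only [Equiv.trans_apply, Equiv.inv_apply]
    rw [hanti, mul_inv_rev]
  · intro L hLn hL hLmin
    rcases minNormal_eq_or_commute L M hLn ‹M.Normal› hL hLmin hMmin with h | h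
    · exact Or.inl h
    · right
      have h1 := map_le_centralizer_map G L M h
      rw [hCM] at h1
      rcases hNmin L hLn (le_of_map_le G L N h1) with h3 | h3
      · exact absurd h3 hL
      · exact h3

end Cfsg.Agent.S0704
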