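import Cfsg.Statements.S0710
import Cfsg.Agent.Lib.Helper16.MinNormal

set_option autoImplicit false
open Cfsg

namespace Cfsg.Agent.S0710

open Cfsg.Agent.Lib.Helper16 MulAction Subgroup

/-- No transitive permutation group on 13 points has order `13 * 12 * 11 * 10 * 9 * 8`. -/
theorem result {α : Type*} [Fintype α] [DecidableEq α] (hα : Fintype.card α = 13) (G : Subgroup (Equiv.Perm α)) [MulAction.IsPretransitive G α] : Nat.card G ≠ 13 * 12 * 11 * 10 * 9 * 8 := by
  intro hcard
  have hp13 : Nat.Prime 13 := by norm_num
  have : Fact (Nat.Prime 13) := ⟨hp13⟩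
  obtain ⟨P⟩ : Nonempty (Sylow 13 G) := Sylow.nonempty
  have hPcard : Nat.card P = 13 := by
    rw [P.card_eq_multiplicity, hcard]
    have h1 : (13 * 12 * 11 * 10 * 9 * 8 : ℕ) = 13 * 95040 := by norm_num
    rw [h1, Nat.factorization_mul (by norm_num) (by norm_num)]
    simp only [Finsupp.coe_add, Pi.add_apply]
    rw [hp13.factorization_self, Nat.factorization_eq_zero_of_not_dvd (by norm_num)]
    norm_num
  have hcyc : IsCyclic P := isCyclic_of_prime_card hPcard
  obtain ⟨g, hg⟩ := hcyc.exists_generator
  have hgord : orderOf g = 13 := by rw [orderOf_eq_card_of_forall_mem_zpowers hg, hPcard]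
  have hgord' : orderOf ((g : G) : Equiv.Perm α) = 13 := by
    rw [Subgroup.orderOf_coe, Subgroup.orderOf_coe, hgord]
  have hgc : ((g : G) : Equiv.Perm α).IsCycle :=
    Equiv.Perm.isCycle_of_prime_order'' (by rw [hα]; exact hp13) (by rw [hgord', hα])
  have hsupp : ∀ x : α, ((g : G) : Equiv.Perm α) x ≠ x := by
    intro x
    have h1 : ((g : G) : Equiv.Perm α).support = Finset.univ := by
      apply Finset.eq_univ_of_card
      rw [← hgc.orderOf, hgord', hα]
    have : x ∈ ((g : G) : Equiv.Perm α).support := by rw [h1]; exact Finset.mem_univ x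
    exact Equiv.Perm.mem_support.mp this
  have htrans : IsPretransitive (P : Subgroup G) α := by
    refine ⟨fun x y => ?_⟩
    obtain ⟨i, hi⟩ := hgc.exists_zpow_eq (hsupp x) (hsupp y)
    refine ⟨g ^ i, ?_⟩
    have h5 : ((((g ^ i : P) : G) : Equiv.Perm α)) x = y := by simpa using hi
    exact h5
  have hcomm : ∀ x ∈ (P : Subgroup G), ∀ y ∈ (P : Subgroup G), x * y = y * x := by
    intro x hx y hy
    have := (IsCyclic.commGroup (α := P)).mul_comm ⟨x, hx⟩ ⟨y, hy⟩
    exact congrArg Subtype.val this
  have hne : Nonempty α := Fintype.card_pos_iff.mp (by omega)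
  have ht' : IsPretransitive ((P : Subgroup G).map G.subtype) α :=
    isPretransitive_map_subtype G P htrans
  have hC : Subgroup.centralizer (((P : Subgroup G).map G.subtype : Subgroup (Equiv.Perm α)) : Set (Equiv.Perm α)) = (P : Subgroup G).map G.subtype :=
    (eq_of_le_of_transitive_of_semiregular _ _ (map_le_centralizer_map G P P hcomm)
      (fun k hk a ha => centralizer_semiregular _ k hk a ha)).symm
  have hCG : centralizer ((P : Subgroup G) : Set G) = P := by
    apply le_antisymm
    · intro c hc
      have h1 : (c : Equiv.Perm α) ∈ Subgroup.centralizer (((P : Subgroup G).map G.subtype : Subgroup (Equiv.Perm α)) : Set (Equiv.Perm α)) := by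
        rw [Subgroup.mem_centralizer_iff]
        rintro _ ⟨y, hy, rfl⟩
        have := Subgroup.mem_centralizer_iff.mp hc y hy
        exact congrArg Subtype.val this
      rw [hC] at h1
      obtain ⟨y, hy, hyc⟩ := h1
      have : y = c := Subtype.ext hyc
      rwa [← this]
    · intro c hc
      rw [Subgroup.mem_centralizer_iff]
      intro y hy
      exact hcomm y hy c hc
  have key := card_dvd_of_injective _ (QuotientGroup.kerLift_injective (P : Subgroup G).normalizerMonoidHom)
  rw [normalizerMonoidHom_ker, ← index, ← relIndex, hCG, hcyc.card_mulAut, hPcard,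
    Nat.totient_prime hp13] at key
  have h2 := Subgroup.relIndex_mul_index (P : Subgroup G).le_normalizer
  have h3 := card_sylow_modEq_one 13 G
  rw [P.card_eq_index_normalizer] at h3
  have h4 := Subgroup.card_mul_index (P : Subgroup G)
  rw [hcard, hPcard] at h4
  set r := (P : Subgroup G).relIndex (normalizer ((P : Subgroup G) : Set G)) with hr
  set m := (normalizer ((P : Subgroup G) : Set G)).index with hm
  have hr12 : r ∈ Nat.divisors 12 := Nat.mem_divisors.mpr ⟨key, by norm_num⟩
  have hdiv : Nat.divisors 12 = {1, 2, 3, 4, 6, 12} := by decide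
  rw [hdiv] at hr12
  simp only [Finset.mem_insert, Finset.mem_singleton] at hr12
  have h3' : m % 13 = 1 := h3
  clear_value r m
  rcases hr12 with h | h | h | h | h | h <;> rw [h] at h2 <;> omega

end Cfsg.Agent.S0710
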