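import Cfsg.Statements.S0714
import Mathlib

set_option autoImplicit false
open Cfsg

namespace Cfsg.Agent.S0714

open MulAction

theorem permRep_apply {K G Ω : Type*} [CommSemiring K] [Group G] [MulAction G Ω] (g : G)
    (f : Ω → K) (x : Ω) : Cfsg.permRep K G Ω g f x = f (g⁻¹ • x) := rfl

theorem permRep_single {K G Ω : Type*} [CommSemiring K] [Group G] [MulAction G Ω] [DecidableEq Ω]
    (g : G) (a : Ω) : Cfsg.permRep K G Ω g (Pi.single a 1) = Pi.single (g • a) 1 := by
  funext x
  rw [permRep_apply]
  by_cases h : x = g • a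
  · subst h; simp
  · rw [Pi.single_eq_of_ne h, Pi.single_eq_of_ne]
    intro h'
    apply h
    rw [← h', smul_inv_smul]

/-- if `u` vanishes at all points other than `a` moved by `τ`, then
`u - τ u = u a (e_a - e_{τ a})` -/
theorem sub_permRep {K G Ω : Type*} [Field K] [Group G] [MulAction G Ω] [DecidableEq Ω]
    (τ : G) (a : Ω) (u : Ω → K) (hτ : τ • a ≠ a) (hu : ∀ x, τ • x ≠ x → x ≠ a → u x = 0) :
    u - Cfsg.permRep K G Ω τ u = u a • (Pi.single a 1 - Pi.single (τ • a) 1) := by
  funext x
  simp only [Pi.sub_apply, Pi.smul_apply, permRep_apply, smul_eq_mul]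
  have hmoved : ∀ y : Ω, τ • y ≠ y → τ⁻¹ • y ≠ y ∧ τ • (τ⁻¹ • y) ≠ τ⁻¹ • y := by
    intro y hy
    have h1 : τ⁻¹ • y ≠ y := by
      intro h; apply hy
      conv_lhs => rw [← h]
      rw [smul_inv_smul]
    refine ⟨h1, ?_⟩
    rw [smul_inv_smul]; exact h1.symm
  by_cases hx : τ • x = x
  · have h1 : τ⁻¹ • x = x := by
      conv_lhs => rw [← hx]
      rw [inv_smul_smul]
    have h2 : x ≠ a := by rintro rfl; exact hτ hx
    have h3 : x ≠ τ • a := by
      intro h
      apply h2
      have : τ • x = τ • a := by rw [hx]; exact h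
      exact MulAction.injective τ this
    rw [h1, Pi.single_eq_of_ne h2, Pi.single_eq_of_ne h3]
    simp
  · obtain ⟨h1, h2⟩ := hmoved x hx
    by_cases hxa : x = a
    · subst hxa
      have h3 : u (τ⁻¹ • x) = 0 := hu _ h2 h1
      rw [h3, Pi.single_eq_same, Pi.single_eq_of_ne hτ.symm]
      simp
    · by_cases hxa' : x = τ • a
      · subst hxa'
        rw [inv_smul_smul, hu _ hx hxa, Pi.single_eq_of_ne hxa, Pi.single_eq_same]
        simp
      · have h3 : τ⁻¹ • x ≠ a := by
          intro h; apply hxa'; rw [← h, smul_inv_smul]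
        rw [hu _ hx hxa, hu _ h2 h3, Pi.single_eq_of_ne hxa, Pi.single_eq_of_ne hxa']
        simp

/-- Over any field, the permutation module of the alternating group of degree at least 5 has exactly four invariant subspaces: zero, the constant functions, the functions with coordinate sum zero, and everything. -/
theorem result {α : Type*} [Fintype α] [DecidableEq α] (hα : 5 ≤ Fintype.card α) {K : Type*} [Field K] (W : Subrepresentation (Cfsg.permRep K (alternatingGroup α) α)) : W.toSubmodule = ⊥ ∨ W = Cfsg.permConstants K (alternatingGroup α) α ∨ W = Cfsg.permSumZero K (alternatingGroup α) α ∨ W.toSubmodule = ⊤ := by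
  by_cases hconst : ∀ f ∈ W.toSubmodule, ∀ a b, f a = f b
  · by_cases hbot : W.toSubmodule = ⊥
    · left; exact hbot
    · right; left
      apply Subrepresentation.toSubmodule_injective
      change W.toSubmodule = Submodule.span K {fun _ => 1}
      apply le_antisymm
      · intro f hf
        rw [Submodule.mem_span_singleton]
        obtain ⟨a0⟩ : Nonempty α := Fintype.card_pos_iff.mp (by omega)
        exact ⟨f a0, funext fun x => by simp [hconst f hf x a0]⟩
      · rw [Submodule.span_singleton_le_iff_mem]
        obtain ⟨f, hf, hf0⟩ := Submodule.exists_mem_ne_zero_of_ne_bot hbot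
        obtain ⟨a0, ha0⟩ : ∃ a0, f a0 ≠ 0 := Function.ne_iff.mp hf0
        have h1 : (fun _ => 1 : α → K) = (f a0)⁻¹ • f := by
          funext x
          simp [hconst f hf x a0, ha0]
        rw [h1]; exact W.toSubmodule.smul_mem _ hf
  · right; right
    push Not at hconst
    obtain ⟨f, hf, a, b, hab⟩ := hconst
    have hne : a ≠ b := by rintro rfl; exact hab rfl
    obtain ⟨c, hc, d, hd, e, he, hcd, hce, hde⟩ :=
      Finset.two_lt_card.mp (show 2 < (Finset.univ \ {a, b} : Finset α).card by
        rw [Finset.card_sdiff_of_subset (Finset.subset_univ _), Finset.card_univ,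
          Finset.card_pair hne]
        omega)
    simp only [Finset.mem_sdiff, Finset.mem_univ, true_and, Finset.mem_insert,
      Finset.mem_singleton, not_or] at hc hd he
    let σ : alternatingGroup α := ⟨Equiv.swap a b * Equiv.swap a c,
      (Equiv.Perm.isThreeCycle_swap_mul_swap_same hne (Ne.symm hc.1) (Ne.symm hc.2)).mem_alternatingGroup⟩
    let τ : alternatingGroup α := ⟨Equiv.swap a d * Equiv.swap a e,
      (Equiv.Perm.isThreeCycle_swap_mul_swap_same (Ne.symm hd.1) (Ne.symm he.1) hde).mem_alternatingGroup⟩
    have hσb : σ • b = a := by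
      change (Equiv.swap a b * Equiv.swap a c) b = a
      rw [Equiv.Perm.mul_apply, Equiv.swap_apply_of_ne_of_ne (Ne.symm hne) (Ne.symm hc.2),
        Equiv.swap_apply_right]
    have hσfix : ∀ x, x ≠ a → x ≠ b → x ≠ c → σ • x = x := by
      intro x h1 h2 h3
      change (Equiv.swap a b * Equiv.swap a c) x = x
      rw [Equiv.Perm.mul_apply, Equiv.swap_apply_of_ne_of_ne h1 h3,
        Equiv.swap_apply_of_ne_of_ne h1 h2]
    have hτa : τ • a = e := by
      change (Equiv.swap a d * Equiv.swap a e) a = e
      rw [Equiv.Perm.mul_apply, Equiv.swap_apply_left,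
        Equiv.swap_apply_of_ne_of_ne he.1 (Ne.symm hde)]
    have hτfix : ∀ x, x ≠ a → x ≠ d → x ≠ e → τ • x = x := by
      intro x h1 h2 h3
      change (Equiv.swap a d * Equiv.swap a e) x = x
      rw [Equiv.Perm.mul_apply, Equiv.swap_apply_of_ne_of_ne h1 h3,
        Equiv.swap_apply_of_ne_of_ne h1 h2]
    set u : α → K := f - Cfsg.permRep K (alternatingGroup α) α σ f with hu
    have huW : u ∈ W.toSubmodule := W.toSubmodule.sub_mem hf (W.apply_mem_toSubmodule σ hf)
    have hua : u a ≠ 0 := by
      rw [hu, Pi.sub_apply, permRep_apply, ← hσb, inv_smul_smul, hσb]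
      exact sub_ne_zero.mpr hab
    have hu0 : ∀ x, x ≠ a → x ≠ b → x ≠ c → u x = 0 := by
      intro x h1 h2 h3
      have h4 : σ⁻¹ • x = x := by
        conv_lhs => rw [← hσfix x h1 h2 h3]
        rw [inv_smul_smul]
      rw [hu, Pi.sub_apply, permRep_apply, h4, sub_self]
    have hw := sub_permRep τ a u (by rw [hτa]; exact he.1) (by
      intro x hx hxa
      have h5 : x = d ∨ x = e := by
        by_contra hcon
        push Not at hcon
        exact hx (hτfix x hxa hcon.1 hcon.2)
      rcases h5 with rfl | rfl
      · exact hu0 _ hd.1 hd.2 (Ne.symm hcd)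
      · exact hu0 _ he.1 he.2 (Ne.symm hce))
    have hwW : (Pi.single a 1 - Pi.single e 1 : α → K) ∈ W.toSubmodule := by
      have h6 : u - Cfsg.permRep K (alternatingGroup α) α τ u ∈ W.toSubmodule :=
        W.toSubmodule.sub_mem huW (W.apply_mem_toSubmodule τ huW)
      rw [hw, hτa] at h6
      have h7 := W.toSubmodule.smul_mem (u a)⁻¹ h6
      rwa [smul_smul, inv_mul_cancel₀ hua, one_smul] at h7
    have h2t : IsMultiplyPretransitive (alternatingGroup α) α 2 := by
      have := alternatingGroup.isMultiplyPretransitive α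
      exact isMultiplyPretransitive_of_le (n := Nat.card α - 2)
        (by rw [Nat.card_eq_fintype_card]; omega) (by omega)
    have hdiff : ∀ x y : α, (Pi.single x 1 - Pi.single y 1 : α → K) ∈ W.toSubmodule := by
      intro x y
      by_cases hxy : x = y
      · subst hxy; simp
      · obtain ⟨g, hg1, hg2⟩ := (is_two_pretransitive_iff (G := alternatingGroup α) (α := α)).mp h2t
          (Ne.symm he.1) hxy
        have h8 := W.apply_mem_toSubmodule g hwW
        rwa [map_sub, permRep_single, permRep_single, hg1, hg2] at h8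
    have hS : ∀ v : α → K, ∑ x, v x = 0 → v ∈ W.toSubmodule := by
      intro v hv
      have h9 : v = ∑ x, v x • (Pi.single x 1 - Pi.single a 1 : α → K) := by
        funext y
        simp only [Finset.sum_apply, Pi.smul_apply, Pi.sub_apply, smul_eq_mul, mul_sub,
          Finset.sum_sub_distrib, Pi.single_apply,
          mul_ite, mul_one, mul_zero, Finset.sum_ite_eq, Finset.mem_univ, if_true]
        by_cases hya : y = a
        · simp [hya, hv]
        · simp [hya]
      rw [h9]
      exact W.toSubmodule.sum_mem (fun x _ => W.toSubmodule.smul_mem _ (hdiff x a))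
    by_cases hW : ∀ v ∈ W.toSubmodule, ∑ x, v x = 0
    · left
      apply Subrepresentation.toSubmodule_injective
      apply le_antisymm
      · intro v hv; exact hW v hv
      · intro v hv; exact hS v hv
    · right
      push Not at hW
      obtain ⟨v0, hv0, hs⟩ := hW
      rw [eq_top_iff]
      intro v _
      have h10 : v = (v - ((∑ x, v x) / (∑ x, v0 x)) • v0) + ((∑ x, v x) / (∑ x, v0 x)) • v0 := by
        simp
      rw [h10]
      apply W.toSubmodule.add_mem _ (W.toSubmodule.smul_mem _ hv0)
      apply hS
      simp only [Pi.sub_apply, Pi.smul_apply, smul_eq_mul, Finset.sum_sub_distrib, ← Finset.mul_sum]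
      field_simp
      simp

end Cfsg.Agent.S0714
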