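import Cfsg.Statements.S0715
import Cfsg.Agent.Lib.Helper96.TSum

set_option autoImplicit false
open Cfsg

namespace Cfsg.Agent.S0715

open Cfsg.Agent.Lib Cfsg.Agent.Lib.Helper96

/-- If a natural number `f` divides the degree of every non-principal irreducible constituent of the permutation character of a transitive group, then `f` divides every non-trivial subdegree. -/
theorem result {G : Type*} [Group G] [Fintype G] {Ω : Type*} [Fintype Ω] [MulAction G Ω] [MulAction.IsPretransitive G Ω] (f : ℕ) (hf : ∀ χ : G → ℂ, Cfsg.IsIrrCharacter G χ → χ ≠ (fun _ => 1) → Cfsg.classInner (fun g : G => (Nat.card (MulAction.fixedBy Ω g) : ℂ)) χ ≠ 0 → ∃ m : ℕ, χ 1 = (f : ℂ) * m) (a b : Ω) (hab : b ≠ a) : f ∣ Nat.card (MulAction.orbit (MulAction.stabilizer G a) b) := by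
  classical
  have : Finite (IrrCharacter G) := Helper20.finite_irrCharacter
  have : Fintype (IrrCharacter G) := Fintype.ofFinite _
  set cH : ℂ := (Nat.card (MulAction.stabilizer G a) : ℂ) with hcH
  have hH : cH ≠ 0 := by
    rw [hcH]; exact_mod_cast Nat.card_pos.ne'
  set Δ : Finset Ω := (MulAction.orbit (MulAction.stabilizer G a) b).toFinset with hΔdef
  have hcard : Nat.card (MulAction.orbit (MulAction.stabilizer G a) b) = Δ.card := by
    rw [hΔdef, Set.toFinset_card, Nat.card_eq_fintype_card]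
  have hmem : ∀ d, d ∈ Δ ↔ ∃ h : G, h • a = a ∧ h • b = d := by
    intro d
    rw [hΔdef, Set.mem_toFinset, MulAction.mem_orbit_iff]
    constructor
    · rintro ⟨h, rfl⟩
      exact ⟨h, h.2, rfl⟩
    · rintro ⟨h, hh, rfl⟩
      exact ⟨⟨h, hh⟩, rfl⟩
  have haΔ : ∀ d ∈ Δ, a ≠ d := by
    intro d hd had
    obtain ⟨h, hh, hb⟩ := (hmem d).1 hd
    apply hab
    rw [← had, ← hh] at hb
    exact smul_left_cancel h hb
  have hΔ : ∀ h : G, h • a = a → ∀ d ∈ Δ, h • d ∈ Δ := by
    intro h hh d hd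
    obtain ⟨k, hk, rfl⟩ := (hmem d).1 hd
    exact (hmem _).2 ⟨h * k, by rw [mul_smul, hk, hh], by rw [mul_smul]⟩
  -- normalised sums
  set I : (G → ℂ) → ℂ := fun χ => cH⁻¹ * ∑ d ∈ Δ, tsum χ a d with hI
  have hIint : ∀ χ : IrrCharacter G, IsIntegral ℤ (I χ) := fun χ =>
    isIntegral_sum_tsum (Helper20.isCharacter_of_isIrrCharacter χ.2) a Δ hΔ
  have hcol : ∑ χ : IrrCharacter G, (χ : G → ℂ) 1 * I χ = 0 := by
    simp only [hI]
    have h1 : ∀ χ : IrrCharacter G, (χ : G → ℂ) 1 * (cH⁻¹ * ∑ d ∈ Δ, tsum (χ : G → ℂ) a d)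
        = cH⁻¹ * ∑ d ∈ Δ, (χ : G → ℂ) 1 * tsum (χ : G → ℂ) a d := by
      intro χ
      rw [Finset.mul_sum, Finset.mul_sum, Finset.mul_sum]
      refine Finset.sum_congr rfl fun d _ => by ring
    rw [Finset.sum_congr rfl fun χ _ => h1 χ, ← Finset.mul_sum, Finset.sum_comm]
    rw [Finset.sum_eq_zero, mul_zero]
    intro d hd
    rw [sum_irr_deg_mul_tsum, if_neg (haΔ d hd)]
  set one : IrrCharacter G := ⟨fun _ => 1, Helper83.isIrr_trivial⟩ with hone
  have hIone : I (one : G → ℂ) = Δ.card := by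
    simp only [hI, hone]
    have : ∀ d ∈ Δ, tsum (fun _ : G => (1 : ℂ)) a d = cH := by
      intro d _
      obtain ⟨x, rfl⟩ := MulAction.exists_smul_eq G a d
      exact tsum_one_fun a x
    rw [Finset.sum_congr rfl this, Finset.sum_const, nsmul_eq_mul]
    field_simp
  have hJ : ∀ χ : IrrCharacter G, χ ≠ one →
      ∃ J : ℂ, IsIntegral ℤ J ∧ (χ : G → ℂ) 1 * I χ = f * J := by
    intro χ hχ
    by_cases hm : classInner (fun g : G => (Nat.card (MulAction.fixedBy Ω g) : ℂ)) (χ : G → ℂ) = 0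
    · refine ⟨0, isIntegral_zero, ?_⟩
      have hcl := Helper20.isClassFunction_of_isCharacter
        (Helper20.isCharacter_of_isIrrCharacter χ.2)
      rw [classInner_perm hcl a] at hm
      have h0 : tsum (χ : G → ℂ) a a = 0 := by
        rcases mul_eq_zero.1 hm with h | h
        · exact absurd (inv_eq_zero.1 h) hH
        · simpa using h
      have : I χ = 0 := by
        simp only [hI]
        rw [Finset.sum_eq_zero, mul_zero]
        intro d _
        exact tsum_eq_zero_of_diag (Helper20.isCharacter_of_isIrrCharacter χ.2) a h0 d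
      rw [this]; simp
    · obtain ⟨m, hm'⟩ := hf χ χ.2 (fun h => hχ (Subtype.ext h)) hm
      refine ⟨m * I χ, IsIntegral.mul ?_ (hIint χ), ?_⟩
      · have := isIntegral_algebraMap (R := ℤ) (A := ℂ) (x := (m : ℤ))
        simpa using this
      · rw [hm']; ring
  choose! J hJint hJeq using hJ
  have hsplit : (Δ.card : ℂ) + f * ∑ χ ∈ Finset.univ.erase one, J χ = 0 := by
    rw [← hcol, ← Finset.add_sum_erase _ _ (Finset.mem_univ one), hIone, Finset.mul_sum]
    congr 1
    · simp [hone]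
    · refine Finset.sum_congr rfl fun χ hχ => ?_
      exact (hJeq χ (Finset.ne_of_mem_erase hχ)).symm
  rw [hcard]
  by_cases hf0 : f = 0
  · subst hf0
    have : (Δ.card : ℂ) = 0 := by simpa using hsplit
    have : Δ.card = 0 := by exact_mod_cast this
    rw [this]
  · refine Helper4.dvd_of_isIntegral_div hf0 ?_
    have hfc : (f : ℂ) ≠ 0 := by exact_mod_cast hf0
    have : (Δ.card : ℂ) / f = - ∑ χ ∈ Finset.univ.erase one, J χ := by
      field_simp
      linear_combination hsplit
    rw [this]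
    refine IsIntegral.neg (IsIntegral.sum _ ?_)
    intro χ hχ
    exact hJint χ (Finset.ne_of_mem_erase hχ)

end Cfsg.Agent.S0715
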