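import Cfsg.Statements.S0716
import Cfsg.Agent.Lib.Helper96.PermMult
import Cfsg.Agent.S0715

set_option autoImplicit false
open Cfsg

namespace Cfsg.Agent.S0716

open Cfsg.Agent.Lib Cfsg.Agent.Lib.Helper96

theorem partA {G : Type*} [Group G] [Fintype G] {Ω : Type*} [Fintype Ω] [MulAction G Ω]
    [MulAction.IsPretransitive G Ω] (a : Ω) (f : ℕ)
    (hf : ∀ χ : G → ℂ, Cfsg.IsIrrCharacter G χ → χ ≠ (fun _ => 1) →
      Cfsg.classInner (fun g : G => (Nat.card (MulAction.fixedBy Ω g) : ℂ)) χ ≠ 0 → χ 1 = f) :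
    (∀ χ : G → ℂ, Cfsg.IsIrrCharacter G χ →
      Cfsg.classInner (fun g : G => (Nat.card (MulAction.fixedBy Ω g) : ℂ)) χ = 0 ∨
      Cfsg.classInner (fun g : G => (Nat.card (MulAction.fixedBy Ω g) : ℂ)) χ = 1) ∧
    ∀ b : Ω, b ≠ a → Nat.card (MulAction.orbit (MulAction.stabilizer G a) b) = f := by
  classical
  have : Finite (IrrCharacter G) := Helper20.finite_irrCharacter
  have : Fintype (IrrCharacter G) := Fintype.ofFinite _
  have : Nonempty Ω := ⟨a⟩
  obtain ⟨m, d, hm, hd, hdpos, hrank, hn⟩ := perm_mult_data (G := G) a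
  set one : IrrCharacter G := ⟨fun _ => 1, Helper83.isIrr_trivial⟩ with hone
  have hm1 : m one = 1 := by
    have h1 := hm one
    rw [hone] at h1
    simp only at h1
    rw [classInner_perm_one] at h1
    exact_mod_cast h1.symm
  have hd1 : d one = 1 := by
    have h1 := hd one
    rw [hone] at h1
    simp only at h1
    exact_mod_cast h1.symm
  rw [← Finset.add_sum_erase _ _ (Finset.mem_univ one), hm1] at hrank
  rw [← Finset.add_sum_erase _ _ (Finset.mem_univ one), hm1, hd1] at hn
  have hdf : ∀ χ ∈ Finset.univ.erase one, m χ ≠ 0 → d χ = f := by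
    intro χ hχ hmχ
    have h1 := hf χ χ.2 (fun h => Finset.ne_of_mem_erase hχ (Subtype.ext h))
      (by rw [hm]; exact_mod_cast hmχ)
    rw [hd] at h1
    exact_mod_cast h1
  have hmd : ∑ χ ∈ Finset.univ.erase one, m χ * d χ = f * ∑ χ ∈ Finset.univ.erase one, m χ := by
    rw [Finset.mul_sum]
    refine Finset.sum_congr rfl fun χ hχ => ?_
    by_cases h0 : m χ = 0
    · simp [h0]
    · rw [hdf χ hχ h0, mul_comm]
  rw [hmd] at hn
  have : Fintype (MulAction.orbitRel.Quotient (MulAction.stabilizer G a) Ω) := Fintype.ofFinite _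
  set ω₀ : MulAction.orbitRel.Quotient (MulAction.stabilizer G a) Ω := Quotient.mk'' a with hω₀
  have hn2 := card_eq_sum_orbits (Ω := Ω) (MulAction.stabilizer G a)
  rw [← Finset.add_sum_erase _ _ (Finset.mem_univ ω₀)] at hn2
  have hω₀card : Nat.card ω₀.orbit = 1 := by
    rw [hω₀, MulAction.orbitRel.Quotient.orbit_mk, card_suborb, suborb_self]
    simp
  rw [hω₀card] at hn2
  have hcardE : (Finset.univ.erase ω₀).card = ∑ χ ∈ Finset.univ.erase one, m χ ^ 2 := by
    rw [Finset.card_erase_of_mem (Finset.mem_univ _), Finset.card_univ, ← Nat.card_eq_fintype_card,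
      hrank]
    simp
  have hdvd : ∀ b : Ω, b ≠ a → f ∣ Nat.card (MulAction.orbit (MulAction.stabilizer G a) b) := by
    intro b hb
    exact Cfsg.Agent.S0715.result f
      (fun χ h1 h2 h3 => ⟨1, by rw [hf χ h1 h2 h3]; simp⟩) a b hb
  have hrep : ∀ ω ∈ Finset.univ.erase ω₀, ∃ b : Ω, b ≠ a ∧
      ω.orbit = MulAction.orbit (MulAction.stabilizer G a) b := by
    intro ω hω
    obtain ⟨b, rfl⟩ := Quotient.exists_rep ω
    refine ⟨b, ?_, MulAction.orbitRel.Quotient.orbit_mk b⟩
    rintro rfl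
    exact Finset.ne_of_mem_erase hω rfl
  by_cases hf0 : f = 0
  · subst hf0
    have hn1 : Fintype.card Ω = 1 := by rw [hn]; simp
    have hsub : Subsingleton Ω := Fintype.card_le_one_iff_subsingleton.1 hn1.le
    refine ⟨?_, fun b hb => absurd (Subsingleton.elim b a) hb⟩
    intro χ hχ
    by_cases h1 : (⟨χ, hχ⟩ : IrrCharacter G) = one
    · right
      have h2 := hm ⟨χ, hχ⟩
      rw [show m ⟨χ, hχ⟩ = 1 by rw [h1, hm1]] at h2
      simpa using h2
    · left
      have h2 := hm ⟨χ, hχ⟩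
      have h3 : m ⟨χ, hχ⟩ = 0 := by
        by_contra h0
        have := hdf ⟨χ, hχ⟩ (Finset.mem_erase.2 ⟨h1, Finset.mem_univ _⟩) h0
        have := hdpos ⟨χ, hχ⟩
        omega
      rw [h3] at h2
      simpa using h2
  · have hfpos : 0 < f := Nat.pos_of_ne_zero hf0
    have hle : ∀ ω ∈ Finset.univ.erase ω₀, f ≤ Nat.card ω.orbit := by
      intro ω hω
      obtain ⟨b, hb, hωb⟩ := hrep ω hω
      rw [hωb]
      refine Nat.le_of_dvd ?_ (hdvd b hb)
      rw [card_suborb]
      exact Finset.card_pos.2 ⟨b, self_mem_suborb a b⟩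
    have hsum_le : ∑ _ω ∈ Finset.univ.erase ω₀, f ≤ ∑ ω ∈ Finset.univ.erase ω₀, Nat.card ω.orbit :=
      Finset.sum_le_sum hle
    have hconst : ∑ _ω ∈ Finset.univ.erase ω₀, f
        = f * ∑ χ ∈ Finset.univ.erase one, m χ ^ 2 := by
      rw [Finset.sum_const, hcardE, smul_eq_mul, mul_comm]
    have hkey : ∑ ω ∈ Finset.univ.erase ω₀, Nat.card ω.orbit
        = f * ∑ χ ∈ Finset.univ.erase one, m χ := by omega
    have h1 : ∑ χ ∈ Finset.univ.erase one, m χ ^ 2 ≤ ∑ χ ∈ Finset.univ.erase one, m χ := by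
      rw [hconst, hkey] at hsum_le
      exact Nat.le_of_mul_le_mul_left hsum_le hfpos
    have h2 : ∀ χ ∈ Finset.univ.erase one, m χ ≤ m χ ^ 2 := by
      intro χ _
      nlinarith [Nat.zero_le (m χ), sq_nonneg ((m χ : ℤ) - 1)]
    have h3 : ∑ χ ∈ Finset.univ.erase one, m χ = ∑ χ ∈ Finset.univ.erase one, m χ ^ 2 :=
      le_antisymm (Finset.sum_le_sum h2) h1
    have h4 := (Finset.sum_eq_sum_iff_of_le h2).1 h3
    have h5 : ∑ _ω ∈ Finset.univ.erase ω₀, f = ∑ ω ∈ Finset.univ.erase ω₀, Nat.card ω.orbit := by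
      rw [hconst, hkey, h3]
    have h6 := (Finset.sum_eq_sum_iff_of_le hle).1 h5
    constructor
    · intro χ hχ
      by_cases h1 : (⟨χ, hχ⟩ : IrrCharacter G) = one
      · right
        have h2 := hm ⟨χ, hχ⟩
        rw [show m ⟨χ, hχ⟩ = 1 by rw [h1, hm1]] at h2
        simpa using h2
      · have h7 := h4 ⟨χ, hχ⟩ (Finset.mem_erase.2 ⟨h1, Finset.mem_univ _⟩)
        have h8 := hm ⟨χ, hχ⟩
        have h9 : m ⟨χ, hχ⟩ = 0 ∨ m ⟨χ, hχ⟩ = 1 := by
          rcases Nat.eq_zero_or_pos (m ⟨χ, hχ⟩) with h | h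
          · left; exact h
          · right; nlinarith
        rcases h9 with h | h
        · left; rw [h] at h8; simpa using h8
        · right; rw [h] at h8; simpa using h8
    · intro b hb
      have h7 := h6 (Quotient.mk'' b) (Finset.mem_erase.2 ⟨?_, Finset.mem_univ _⟩)
      · rw [MulAction.orbitRel.Quotient.orbit_mk] at h7
        exact h7.symm
      · intro h
        have := (mk_eq_iff_mem_suborb a a b).1 h
        rw [suborb_self, Finset.mem_singleton] at this
        exact hb this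

/-- (a) If all non-principal irreducible constituents of the permutation character of a transitive group have the same degree `f`, the character is multiplicity-free and all non-trivial subdegrees equal `f`. (b) A transitive group of rank at most 5 has multiplicity-free permutation character. -/
theorem result {G : Type*} [Group G] [Fintype G] {Ω : Type*} [Fintype Ω] [MulAction G Ω] [MulAction.IsPretransitive G Ω] (a : Ω) : ((f : ℕ) → (∀ χ : G → ℂ, Cfsg.IsIrrCharacter G χ → χ ≠ (fun _ => 1) → Cfsg.classInner (fun g : G => (Nat.card (MulAction.fixedBy Ω g) : ℂ)) χ ≠ 0 → χ 1 = f) → (∀ χ : G → ℂ, Cfsg.IsIrrCharacter G χ → Cfsg.classInner (fun g : G => (Nat.card (MulAction.fixedBy Ω g) : ℂ)) χ = 0 ∨ Cfsg.classInner (fun g : G => (Nat.card (MulAction.fixedBy Ω g) : ℂ)) χ = 1) ∧ ∀ b : Ω, b ≠ a → Nat.card (MulAction.orbit (MulAction.stabilizer G a) b) = f) ∧ (Nat.card (MulAction.orbitRel.Quotient (MulAction.stabilizer G a) Ω) ≤ 5 → ∀ χ : G → ℂ, Cfsg.IsIrrCharacter G χ → Cfsg.classInner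 (fun g : G => (Nat.card (MulAction.fixedBy Ω g) : ℂ)) χ = 0 ∨ Cfsg.classInner (fun g : G => (Nat.card (MulAction.fixedBy Ω g) : ℂ)) χ = 1) := by
  classical
  refine ⟨fun f hf => partA a f hf, ?_⟩
  intro hr5 χ₀ hχ₀
  have : Finite (IrrCharacter G) := Helper20.finite_irrCharacter
  have : Fintype (IrrCharacter G) := Fintype.ofFinite _
  have : Nonempty Ω := ⟨a⟩
  obtain ⟨m, d, hm, hd, hdpos, hrank, hn⟩ := perm_mult_data (G := G) a
  set one : IrrCharacter G := ⟨fun _ => 1, Helper83.isIrr_trivial⟩ with hone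
  have hm1 : m one = 1 := by
    have h1 := hm one
    rw [hone] at h1
    simp only at h1
    rw [classInner_perm_one] at h1
    exact_mod_cast h1.symm
  set c : IrrCharacter G := ⟨χ₀, hχ₀⟩ with hc
  have hmc := hm c
  by_cases h2 : m c ≤ 1
  · have : m c = 0 ∨ m c = 1 := by omega
    rcases this with h | h
    · left; rw [h] at hmc; simpa using hmc
    · right; rw [h] at hmc; simpa using hmc
  · exfalso
    push Not at h2
    have hc1 : c ≠ one := by
      intro h
      rw [h, hm1] at h2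
      omega
    rw [hrank, ← Finset.add_sum_erase _ _ (Finset.mem_univ one), hm1,
      ← Finset.add_sum_erase _ _ (Finset.mem_erase.2 ⟨hc1, Finset.mem_univ c⟩)] at hr5
    have hsq : 4 ≤ m c ^ 2 := by nlinarith
    have hrest : ∑ χ ∈ (Finset.univ.erase one).erase c, m χ ^ 2 = 0 := by omega
    have hzero : ∀ χ : IrrCharacter G, χ ≠ one → χ ≠ c → m χ = 0 := by
      intro χ h1 h3
      have := (Finset.sum_eq_zero_iff.1 hrest) χ
        (Finset.mem_erase.2 ⟨h3, Finset.mem_erase.2 ⟨h1, Finset.mem_univ _⟩⟩)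
      exact pow_eq_zero_iff (two_ne_zero) |>.1 this
    have hA := (partA a (d c) (by
      intro χ hχ hχ1 hχm
      have h4 : (⟨χ, hχ⟩ : IrrCharacter G) = c := by
        by_contra h5
        apply hχm
        have := hm ⟨χ, hχ⟩
        rw [hzero ⟨χ, hχ⟩ (fun h => hχ1 (congrArg Subtype.val h)) h5] at this
        simpa using this
      have := hd c
      rw [← h4] at this
      rw [← h4]
      exact this)).1 χ₀ hχ₀
    rw [hmc] at hA
    rcases hA with h | h
    · have : m c = 0 := by exact_mod_cast h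
      omega
    · have : m c = 1 := by exact_mod_cast h
      omega

end Cfsg.Agent.S0716
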