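import Cfsg.Statements.S0717
-- import your own Cfsg.Agent.* helpers here
import Cfsg.Agent.Lib.Helper63.Generous

set_option autoImplicit false
open Cfsg

namespace Cfsg.Agent.S0717

open Cfsg.Agent.Lib.Helper63 Cfsg.Agent.Lib.Helper4 Cfsg.Agent.Lib.Helper78

/-- All suborbits of a transitive group are self-paired (every pair of points is interchanged by some group element) if and only if the permutation character is multiplicity-free and each of its irreducible constituents is real-valued. -/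
theorem result {G : Type*} [Group G] [Fintype G] {Ω : Type*} [Fintype Ω] [MulAction G Ω] [MulAction.IsPretransitive G Ω] : (∀ a b : Ω, ∃ g : G, g • a = b ∧ g • b = a) ↔ ∀ χ : G → ℂ, Cfsg.IsIrrCharacter G χ → Cfsg.classInner (fun g : G => (Nat.card (MulAction.fixedBy Ω g) : ℂ)) χ ≠ 0 → Cfsg.classInner (fun g : G => (Nat.card (MulAction.fixedBy Ω g) : ℂ)) χ = 1 ∧ ∀ g : G, (starRingEnd ℂ) (χ g) = χ g := by
  classical
  have hfin := finite_irrCharacter (G := G)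
  have hft := Fintype.ofFinite (IrrCharacter G)
  have hπc : IsCharacter G (fun g : G => (Nat.card (MulAction.fixedBy Ω g) : ℂ)) :=
    isCharacter_fixedBy
  obtain ⟨m, hm, hdec⟩ := char_eq_sum_nat_irr hπc
  have hG0 : (Nat.card G : ℂ) ≠ 0 := by exact_mod_cast Nat.card_pos.ne'
  have hR : ((∑ g : G, (Nat.card (MulAction.fixedBy Ω g)) ^ 2 : ℕ) : ℂ) =
      (Nat.card G : ℂ) * ((∑ ψ : IrrCharacter G, (m ψ : ℤ) ^ 2 : ℤ) : ℂ) := by
    have h1 : classInner (fun g : G => (Nat.card (MulAction.fixedBy Ω g) : ℂ))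
        (fun g : G => (Nat.card (MulAction.fixedBy Ω g) : ℂ)) =
        ∑ ψ : IrrCharacter G, (m ψ : ℂ) * (starRingEnd ℂ) (m ψ : ℂ) := by
      rw [← classInner_sum_irr, ← hdec]
    unfold classInner at h1
    simp only [Complex.conj_natCast] at h1
    push_cast
    rw [show (∑ ψ : IrrCharacter G, (m ψ : ℂ) ^ 2) = ∑ ψ : IrrCharacter G, (m ψ : ℂ) * (m ψ : ℂ) from
      Finset.sum_congr rfl fun ψ _ => sq _, ← h1, ← mul_assoc, mul_inv_cancel₀ hG0, one_mul]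
    exact Finset.sum_congr rfl fun g _ => sq _
  have hS : ((∑ g : G, Nat.card (MulAction.fixedBy Ω (g * g)) : ℕ) : ℂ) =
      (Nat.card G : ℂ) * ((∑ ψ : IrrCharacter G, (m ψ : ℤ) * fsNuZ (ψ : G → ℂ) : ℤ) : ℂ) := by
    have h1 : fsNu (fun g : G => (Nat.card (MulAction.fixedBy Ω g) : ℂ)) =
        ∑ ψ : IrrCharacter G, (m ψ : ℂ) * fsNu (ψ : G → ℂ) := by
      rw [← gen_fsNu_sum, ← hdec]
    unfold fsNu at h1
    push_cast
    rw [show (∑ ψ : IrrCharacter G, (m ψ : ℂ) * (fsNuZ (ψ : G → ℂ) : ℂ)) =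
      ∑ ψ : IrrCharacter G, (m ψ : ℂ) * ((Nat.card G : ℂ)⁻¹ * ∑ s : G, (ψ : G → ℂ) (s * s)) from
      Finset.sum_congr rfl fun ψ _ => by rw [fsNuZ_cast ψ.2]; rfl, ← h1, ← mul_assoc,
      mul_inv_cancel₀ hG0, one_mul]
  have key : (∑ g : G, Nat.card (MulAction.fixedBy Ω (g * g)) =
      ∑ g : G, (Nat.card (MulAction.fixedBy Ω g)) ^ 2) ↔
      ∑ ψ : IrrCharacter G, (m ψ : ℤ) * fsNuZ (ψ : G → ℂ) = ∑ ψ : IrrCharacter G, (m ψ : ℤ) ^ 2 := by
    constructor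
    · intro h
      have h2 := congrArg (Nat.cast : ℕ → ℂ) h
      rw [hR, hS] at h2
      exact_mod_cast mul_left_cancel₀ hG0 h2
    · intro h
      have h2 : ((∑ g : G, Nat.card (MulAction.fixedBy Ω (g * g)) : ℕ) : ℂ) =
          ((∑ g : G, (Nat.card (MulAction.fixedBy Ω g)) ^ 2 : ℕ) : ℂ) := by
        rw [hR, hS, h]
      exact_mod_cast h2
  have hle : ∀ ψ : IrrCharacter G, (m ψ : ℤ) * fsNuZ (ψ : G → ℂ) ≤ (m ψ : ℤ) ^ 2 := by
    intro ψ
    have h0 : (0 : ℤ) ≤ m ψ := Int.natCast_nonneg _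
    rcases fsNuZ_cases (ψ : G → ℂ) with h | h | h <;> rw [h] <;> nlinarith
  rw [gen_iff_sum, key]
  constructor
  · intro h χ hχ hne
    have h1 := (Finset.sum_eq_sum_iff_of_le (fun ψ _ => hle ψ)).1 h ⟨χ, hχ⟩ (Finset.mem_univ _)
    have hmχ := hm ⟨χ, hχ⟩
    simp only at hmχ h1
    rw [hmχ] at hne ⊢
    have hm0 : (m ⟨χ, hχ⟩ : ℤ) ≠ 0 := by
      intro h0
      apply hne
      exact_mod_cast h0
    have h2 : fsNuZ χ = (m ⟨χ, hχ⟩ : ℤ) := by
      have h3 : (m ⟨χ, hχ⟩ : ℤ) * fsNuZ χ = (m ⟨χ, hχ⟩ : ℤ) * (m ⟨χ, hχ⟩ : ℤ) := by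
        rw [h1, sq]
      exact mul_left_cancel₀ hm0 h3
    have hpos : (0 : ℤ) < m ⟨χ, hχ⟩ := lt_of_le_of_ne (Int.natCast_nonneg _) (Ne.symm hm0)
    have h4 : fsNuZ χ = 1 := by
      rcases fsNuZ_cases χ with h | h | h
      · omega
      · exact h
      · omega
    refine ⟨?_, ?_⟩
    · have h5 : (m ⟨χ, hχ⟩ : ℤ) = 1 := by rw [← h2, h4]
      exact_mod_cast h5
    · intro g
      by_contra hg
      have h6 : fsNuZ χ = 0 := (fsNuZ_eq_zero_iff hχ).2 ⟨g, fun him => hg (Complex.conj_eq_iff_im.2 him)⟩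
      omega
  · intro h
    refine Finset.sum_congr rfl fun ψ _ => ?_
    by_cases h0 : m ψ = 0
    · simp [h0]
    · have hne : classInner (fun g : G => (Nat.card (MulAction.fixedBy Ω g) : ℂ)) (ψ : G → ℂ) ≠ 0 := by
        rw [hm ψ]
        exact_mod_cast h0
      obtain ⟨h1, h2⟩ := h ψ.1 ψ.2 hne
      have h3 := gen_nu_eq_one ψ.2 h2 h1
      have h4 : fsNuZ (ψ : G → ℂ) = 1 := by
        unfold fsNuZ
        rw [if_pos h3]
      have h5 : m ψ = 1 := by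
        rw [hm ψ] at h1
        exact_mod_cast h1
      rw [h4, h5]
      norm_num

end Cfsg.Agent.S0717
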