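import Cfsg.Statements.S0718
import Cfsg.Agent.Lib.Helper96.Commutant

set_option autoImplicit false
open Cfsg

namespace Cfsg.Agent.S0718

open Cfsg.Agent.Lib Cfsg.Agent.Lib.Helper96

theorem permRep_character {G : Type*} [Group G] {Ω : Type*} [Fintype Ω] [MulAction G Ω] :
    (Cfsg.permRep ℂ G Ω).character = fun g : G => (Nat.card (MulAction.fixedBy Ω g) : ℂ) := by
  classical
  funext g
  unfold Representation.character
  rw [LinearMap.trace_eq_matrix_trace ℂ (Pi.basisFun ℂ Ω), LinearMap.toMatrix_eq_toMatrix',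
    Matrix.trace, card_fixedBy_eq_sum]
  refine Finset.sum_congr rfl fun x _ => ?_
  rw [Matrix.diag_apply, LinearMap.toMatrix'_apply]
  have : (Cfsg.permRep ℂ G Ω g) (Pi.single x 1) x = (Pi.single x (1 : ℂ) : Ω → ℂ) (g⁻¹ • x) := rfl
  rw [this, Pi.single_apply]
  have h2 : g⁻¹ • x = x ↔ g • x = x := by
    rw [inv_smul_eq_iff, eq_comm]
  simp only [h2]

theorem mem_inv_iff {G : Type*} [Group G] {Ω : Type*} [MulAction G Ω]
    (S : (Ω → ℂ) →ₗ[ℂ] (Ω → ℂ)) :
    S ∈ ((Cfsg.permRep ℂ G Ω).linHom (Cfsg.permRep ℂ G Ω)).invariants ↔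
      ∀ g, S ∘ₗ Cfsg.permRep ℂ G Ω g = Cfsg.permRep ℂ G Ω g ∘ₗ S := by
  rw [Representation.mem_invariants]
  simp only [Representation.linHom_apply]
  rw [Representation.mem_linHom_invariants_iff_isIntertwining, Representation.isIntertwiningMap_iff]
  constructor
  · intro h g
    exact LinearMap.ext fun v => h g v
  · intro h g v
    exact congrArg (fun f => f v) (h g)

/-- Multiplicity-freeness of the permutation character is equivalent to commutativity of the centraliser ring, i.e. of the algebra of `G`-equivariant endomorphisms of the complex permutation module. -/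
theorem result {G : Type*} [Group G] [Fintype G] {Ω : Type*} [Fintype Ω] [MulAction G Ω] : (∀ χ : G → ℂ, Cfsg.IsIrrCharacter G χ → Cfsg.classInner (fun g : G => (Nat.card (MulAction.fixedBy Ω g) : ℂ)) χ = 0 ∨ Cfsg.classInner (fun g : G => (Nat.card (MulAction.fixedBy Ω g) : ℂ)) χ = 1) ↔ ∀ S T : (Ω → ℂ) →ₗ[ℂ] (Ω → ℂ), S ∈ ((Cfsg.permRep ℂ G Ω).linHom (Cfsg.permRep ℂ G Ω)).invariants → T ∈ ((Cfsg.permRep ℂ G Ω).linHom (Cfsg.permRep ℂ G Ω)).invariants → S ∘ₗ T = T ∘ₗ S := by
  rw [← permRep_character]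
  constructor
  · intro h S T hS hT
    exact commute_of_multFree _ h S T ((mem_inv_iff S).1 hS) ((mem_inv_iff T).1 hT)
  · intro h χ hχ
    exact multFree_of_commute _ (fun S T hS hT => h S T ((mem_inv_iff S).2 hS) ((mem_inv_iff T).2 hT))
      χ hχ

end Cfsg.Agent.S0718
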