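import Cfsg.Statements.S0719
import Cfsg.Agent.Lib.Helper96.Suborbit

set_option autoImplicit false
open Cfsg

namespace Cfsg.Agent.S0719

open Cfsg.Agent.Lib Cfsg.Agent.Lib.Helper96

theorem nt_aux (k l m s t : ℤ) (hk : 2 ≤ k) (hl : 2 ≤ l) (h1 : 1 + k + l = 2 * m)
    (h2 : k + (m - 1) * t + s = 0) (h3 : l * s ^ 2 + k * (1 + s) ^ 2 = k * l) :
    m = 2 * s ^ 2 + 2 * s + 1 ∧ k = 2 * s ^ 2 + s ∧ l = 2 * s ^ 2 + 3 * s + 1 := by
  have hm : 3 ≤ m := by omega
  have hl' : l = 2 * m - 1 - k := by omega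
  subst hl'
  have e1 : (k + s) ^ 2 = 2 * (m - 1) * (k - s ^ 2) := by linear_combination h3
  have hks : k + s = -((m - 1) * t) := by linear_combination h2
  have e2 : (m - 1) * ((m - 1) * t ^ 2 - 2 * (k - s ^ 2)) = 0 := by
    rw [hks] at e1
    linear_combination e1
  have hm1 : (m - 1) ≠ 0 := by omega
  have e3 : (m - 1) * t ^ 2 = 2 * (k - s ^ 2) := by
    have := (mul_eq_zero.1 e2).resolve_left hm1
    linarith
  have e4 : 2 * (s * (s + 1)) = -((m - 1) * (t * (t + 2))) := by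
    linear_combination e3 + 2 * h2
  have hs : 0 ≤ s * (s + 1) := by
    rcases le_or_gt 0 s with h | h
    · positivity
    · nlinarith
  have ht : t * (t + 2) ≤ 0 := by
    by_contra hcon
    push Not at hcon
    have : 0 < (m - 1) * (t * (t + 2)) := by
      apply mul_pos <;> omega
    omega
  have ht1 : -2 ≤ t := by nlinarith
  have ht2 : t ≤ 0 := by nlinarith
  have hcases : t = 0 ∨ t = -1 ∨ t = -2 := by omega
  rcases hcases with rfl | rfl | rfl
  · have h5 : s * (s + 1) = 0 := by linarith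
    rcases mul_eq_zero.1 h5 with h | h <;> omega
  · refine ⟨by linarith, by linarith, by linarith⟩
  · have h5 : s * (s + 1) = 0 := by linarith
    rcases mul_eq_zero.1 h5 with h | h <;> omega

theorem nt_main (k l m : ℕ) (s t : ℤ) (hk : 2 ≤ k) (hl : 2 ≤ l) (h1 : 1 + k + l = 2 * m)
    (h2 : (k : ℤ) + ((m : ℤ) - 1) * t + s = 0)
    (h3 : (l : ℤ) * s ^ 2 + k * (1 + s) ^ 2 = k * l) :
    ∃ a : ℕ, 0 < a ∧ m = 2 * a ^ 2 + 2 * a + 1 ∧
      ((k = a * (2 * a + 1) ∧ l = (a + 1) * (2 * a + 1)) ∨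
       (k = (a + 1) * (2 * a + 1) ∧ l = a * (2 * a + 1))) := by
  obtain ⟨e1, e2, e3⟩ := nt_aux k l m s t (by exact_mod_cast hk) (by exact_mod_cast hl)
    (by exact_mod_cast h1) h2 h3
  rcases le_or_gt 1 s with hs | hs
  · obtain ⟨a, rfl⟩ := Int.eq_ofNat_of_zero_le (by omega : 0 ≤ s)
    refine ⟨a, by omega, by zify; linarith, Or.inl ⟨by zify; linarith, by zify; linarith⟩⟩
  · rcases le_or_gt s (-2) with hs2 | hs2
    · obtain ⟨a, ha⟩ := Int.eq_ofNat_of_zero_le (by omega : 0 ≤ -s - 1)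
      have hs' : s = -a - 1 := by omega
      subst hs'
      refine ⟨a, by omega, by zify; linarith, Or.inr ⟨by zify; linarith, by zify; linarith⟩⟩
    · have : s = 0 ∨ s = -1 := by omega
      rcases this with rfl | rfl
      · simp at e2; omega
      · norm_num at e2; omega

/-- Groups of Wielandt type: if a primitive group of degree `2m` has rank 3 and permutation character `1 + χ₁ + χ₂` with irreducible `χ₁, χ₂` of degrees `m - 1` and `m`, then `m = 2a² + 2a + 1` for some positive integer `a` and the two non-trivial subdegrees are `a(2a+1)` and `(a+1)(2a+1)`. -/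
theorem result {G : Type*} [Group G] [Fintype G] {Ω : Type*} [Fintype Ω] [MulAction G Ω] (hprim : MulAction.IsPreprimitive G Ω) {m : ℕ} (hm : Fintype.card Ω = 2 * m) (a₀ : Ω) (hrank : Nat.card (MulAction.orbitRel.Quotient (MulAction.stabilizer G a₀) Ω) = 3) (χ₁ χ₂ : G → ℂ) (h₁ : Cfsg.IsIrrCharacter G χ₁) (h₂ : Cfsg.IsIrrCharacter G χ₂) (hπ : (fun g : G => (Nat.card (MulAction.fixedBy Ω g) : ℂ)) = fun g => 1 + χ₁ g + χ₂ g) (hd₁ : χ₁ 1 = (m : ℂ) - 1) (hd₂ : χ₂ 1 = m) : ∃ a : ℕ, 0 < a ∧ m = 2 * a ^ 2 + 2 * a + 1 ∧ ∀ b : Ω, b ≠ a₀ → Nat.card (MulAction.orbit (MulAction.stabilizer G a₀) b) = a * (2 * a + 1) ∨ Nat.card (MulAction.orbit (MulAction.stabilizer G a₀) b) = (a + 1) * (2 * a + 1) := by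
  classical
  have hpt : MulAction.IsPretransitive G Ω := hprim.toIsPretransitive
  have : Finite (IrrCharacter G) := Helper20.finite_irrCharacter
  have : Fintype (IrrCharacter G) := Fintype.ofFinite _
  have : Nonempty Ω := ⟨a₀⟩
  set cH : ℂ := (Nat.card (MulAction.stabilizer G a₀) : ℂ) with hcH
  have hH : cH ≠ 0 := by
    rw [hcH]; exact_mod_cast Nat.card_pos.ne'
  obtain ⟨b₁, b₂, hb1, hb2, hb12, hall⟩ := rank_three_decomp a₀ hrank
  obtain ⟨k, hk⟩ : ∃ k, (suborb G a₀ b₁).card = k := ⟨_, rfl⟩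
  obtain ⟨l, hl⟩ : ∃ l, (suborb G a₀ b₂).card = l := ⟨_, rfl⟩
  have hcount : 1 + k + l = 2 * m := by
    have := sum_rank_three hb1 hb2 hb12 hall (fun _ => 1)
    simp only [Finset.sum_const, smul_eq_mul, mul_one, Finset.card_univ] at this
    rw [hm, hk, hl] at this
    omega
  -- characters
  have hc₁ := Helper20.isCharacter_of_isIrrCharacter h₁
  have hc₂ := Helper20.isCharacter_of_isIrrCharacter h₂
  have hcl₁ := Helper20.isClassFunction_of_isCharacter hc₁
  have hcl₂ := Helper20.isClassFunction_of_isCharacter hc₂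
  have h1irr : IsIrrCharacter G (fun _ => (1 : ℂ)) := Helper83.isIrr_trivial
  have hπ' : (fun g : G => (Nat.card (MulAction.fixedBy Ω g) : ℂ)) = (fun _ => (1 : ℂ)) + χ₁ + χ₂ := by
    rw [hπ]; rfl
  have hexp : ∀ χ : G → ℂ, classInner (fun g : G => (Nat.card (MulAction.fixedBy Ω g) : ℂ)) χ
      = classInner (fun _ => (1 : ℂ)) χ + classInner χ₁ χ + classInner χ₂ χ := by
    intro χ
    rw [hπ', Helper20.classInner_add_left, Helper20.classInner_add_left]
  have hπ1 := classInner_perm_one (G := G) (Ω := Ω)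
  rw [hexp, Helper20.classInner_irr_self h1irr, Helper20.classInner_irr h₁ h1irr,
    Helper20.classInner_irr h₂ h1irr] at hπ1
  have hne1 : χ₁ ≠ fun _ => 1 := by
    intro h
    rw [if_pos h] at hπ1
    split_ifs at hπ1 <;> norm_num at hπ1
  have hne2 : χ₂ ≠ fun _ => 1 := by
    intro h
    rw [if_pos h] at hπ1
    split_ifs at hπ1 <;> norm_num at hπ1
  have hne12 : χ₁ ≠ χ₂ := by
    intro h
    rw [h, hd₂] at hd₁
    have : (0 : ℂ) = -1 := by linear_combination hd₁
    norm_num at this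
  have hm₁ : classInner (fun g : G => (Nat.card (MulAction.fixedBy Ω g) : ℂ)) χ₁ = 1 := by
    rw [hexp, Helper20.classInner_irr_self h₁, Helper20.classInner_irr_ne h1irr h₁ (Ne.symm hne1),
      Helper20.classInner_irr_ne h₂ h₁ (Ne.symm hne12)]
    ring
  have hm₂ : classInner (fun g : G => (Nat.card (MulAction.fixedBy Ω g) : ℂ)) χ₂ = 1 := by
    rw [hexp, Helper20.classInner_irr_self h₂, Helper20.classInner_irr_ne h1irr h₂ (Ne.symm hne2),
      Helper20.classInner_irr_ne h₁ h₂ hne12]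
    ring
  have hdiag₂ : tsum χ₂ a₀ a₀ = cH := by
    have := tsum_diag_of_classInner hcl₂ a₀ 1 (by simpa using hm₂)
    rw [Nat.cast_one, one_mul] at this
    exact this
  -- normalised sums
  set I : (G → ℂ) → ℂ := fun χ => cH⁻¹ * ∑ d ∈ (suborb G a₀ b₁), tsum χ a₀ d with hI
  have hr : IsIntegral ℤ (I χ₁) := isIntegral_sum_tsum hc₁ a₀ (suborb G a₀ b₁) (suborb_invariant a₀ b₁)
  have hs : IsIntegral ℤ (I χ₂) := isIntegral_sum_tsum hc₂ a₀ (suborb G a₀ b₁) (suborb_invariant a₀ b₁)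
  have hIone : I (fun _ => (1 : ℂ)) = k := by
    simp only [hI]
    have : ∀ d ∈ (suborb G a₀ b₁), tsum (fun _ : G => (1 : ℂ)) a₀ d = cH := by
      intro d _
      obtain ⟨x, rfl⟩ := MulAction.exists_smul_eq G a₀ d
      exact tsum_one_fun a₀ x
    rw [Finset.sum_congr rfl this, Finset.sum_const, nsmul_eq_mul, hk]
    field_simp
  -- (F2)
  have hF2 : (k : ℂ) + ((m : ℂ) - 1) * I χ₁ + m * I χ₂ = 0 := by
    set c0 : IrrCharacter G := ⟨fun _ => 1, h1irr⟩ with hc0
    set c1 : IrrCharacter G := ⟨χ₁, h₁⟩ with hc1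
    set c2 : IrrCharacter G := ⟨χ₂, h₂⟩ with hc2
    have hS := col_sum_constituents (G := G) a₀ (suborb G a₀ b₁) (not_mem_suborb hb1) {c0, c1, c2} (by
      intro χ hχ
      by_contra hcon
      simp only [Finset.mem_insert, Finset.mem_singleton, not_or] at hcon
      apply hχ
      rw [hexp, Helper20.classInner_irr_ne h1irr χ.2 (fun h => hcon.1 (Subtype.ext h.symm)),
        Helper20.classInner_irr_ne h₁ χ.2 (fun h => hcon.2.1 (Subtype.ext h.symm)),
        Helper20.classInner_irr_ne h₂ χ.2 (fun h => hcon.2.2 (Subtype.ext h.symm))]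
      ring)
    have hn01 : c0 ≠ c1 := fun h => hne1 (congrArg Subtype.val h).symm
    have hn02 : c0 ≠ c2 := fun h => hne2 (congrArg Subtype.val h).symm
    have hn12 : c1 ≠ c2 := fun h => hne12 (congrArg Subtype.val h)
    rw [Finset.sum_insert (by simp [hn01, hn02]), Finset.sum_insert (by simp [hn12]),
      Finset.sum_singleton] at hS
    simp only [hc0, hc1, hc2, hd₁, hd₂] at hS
    have h0 : ∑ d ∈ (suborb G a₀ b₁), tsum (fun _ : G => (1 : ℂ)) a₀ d = cH * k := by
      rw [← hIone]; simp only [hI]; field_simp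
    have h1 : ∑ d ∈ (suborb G a₀ b₁), tsum χ₁ a₀ d = cH * I χ₁ := by simp only [hI]; field_simp
    have h2 : ∑ d ∈ (suborb G a₀ b₁), tsum χ₂ a₀ d = cH * I χ₂ := by simp only [hI]; field_simp
    rw [h0, h1, h2] at hS
    have : cH * ((k : ℂ) + ((m : ℂ) - 1) * I χ₁ + m * I χ₂) = 0 := by linear_combination hS
    exact (mul_eq_zero.1 this).resolve_left hH
  -- (F3)
  obtain ⟨t, ht⟩ : ∃ t : ℤ, I χ₁ + I χ₂ = t := by
    have hnat : ∀ d, ∃ N : ℕ, tsum (fun g : G => (Nat.card (MulAction.fixedBy Ω g) : ℂ)) a₀ d = N :=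
      fun d => tsum_natCast _ a₀ d
    choose N hN using hnat
    have h1 : I (fun g : G => (Nat.card (MulAction.fixedBy Ω g) : ℂ)) = k + I χ₁ + I χ₂ := by
      rw [← hIone, hπ']
      simp only [hI, tsum_add, Finset.sum_add_distrib]
      ring
    have h2 : I χ₁ + I χ₂ = (((∑ d ∈ (suborb G a₀ b₁), N d : ℕ) : ℚ) / (Nat.card (MulAction.stabilizer G a₀) : ℚ)
        - (k : ℚ) : ℚ) := by
      have : I χ₁ + I χ₂ = I (fun g : G => (Nat.card (MulAction.fixedBy Ω g) : ℂ)) - k := by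
        rw [h1]; ring
      rw [this]
      simp only [hI, hN]
      push_cast
      rw [← hcH]
      field_simp
    have h3 : IsIntegral ℤ (I χ₁ + I χ₂) := hr.add hs
    rw [h2] at h3
    obtain ⟨z, hz⟩ := Helper4.exists_int_of_isIntegral_rat h3
    refine ⟨z, ?_⟩
    rw [h2, hz]
    simp
  set s : ℤ := -k - ((m : ℤ) - 1) * t with hsdef
  have hsI : I χ₂ = s := by
    rw [hsdef]
    push_cast
    rw [← ht]
    linear_combination hF2
  -- values on the two suborbits
  have hx₁ : (k : ℂ) * tsum χ₂ a₀ b₁ = cH * s := by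
    rw [← hsI]
    simp only [hI]
    rw [Finset.sum_congr rfl fun d hd => tsum_const_on_suborb hcl₂ hd, Finset.sum_const,
      nsmul_eq_mul, hk]
    field_simp
  have hsum0 : ∑ g : G, χ₂ g = 0 := by
    have := Helper20.classInner_irr_ne h₂ h1irr hne2
    unfold classInner at this
    have hG : (Nat.card G : ℂ)⁻¹ ≠ 0 := inv_ne_zero Helper20.card_ne_zero_complex
    have := (mul_eq_zero.1 this).resolve_left hG
    simpa using this
  have hx₂ : (l : ℂ) * tsum χ₂ a₀ b₂ = cH * (-1 - s) := by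
    have h1 := sum_tsum χ₂ a₀
    rw [hsum0, sum_rank_three hb1 hb2 hb12 hall, hdiag₂,
      Finset.sum_congr rfl fun d hd => tsum_const_on_suborb (b := b₁) hcl₂ hd,
      Finset.sum_congr rfl fun d hd => tsum_const_on_suborb (b := b₂) hcl₂ hd, Finset.sum_const,
      Finset.sum_const, nsmul_eq_mul, nsmul_eq_mul, hk, hl] at h1
    linear_combination h1 - hx₁
  have hkpos : 0 < k := hk ▸ Finset.card_pos.2 ⟨b₁, self_mem_suborb a₀ b₁⟩
  have hlpos : 0 < l := hl ▸ Finset.card_pos.2 ⟨b₂, self_mem_suborb a₀ b₂⟩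
  have hkc : (k : ℂ) ≠ 0 := by exact_mod_cast hkpos.ne'
  have hlc : (l : ℂ) ≠ 0 := by exact_mod_cast hlpos.ne'
  have hmpos : 0 < m := by omega
  have hmc : (m : ℂ) ≠ 0 := by exact_mod_cast hmpos.ne'
  have hv₁ : tsum χ₂ a₀ b₁ = cH * s / k := by
    field_simp
    linear_combination hx₁
  have hv₂ : tsum χ₂ a₀ b₂ = cH * (-1 - s) / l := by
    field_simp
    linear_combination hx₂
  have hconjH : (starRingEnd ℂ) cH = cH := by rw [hcH]; simp
  -- (F4)
  have hF4 : (l : ℂ) * s ^ 2 + k * (1 + s) ^ 2 = k * l := by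
    have h1 := sum_tsum_mul_conj h₂ h₂ a₀
    have e1 : ∑ d ∈ suborb G a₀ b₁, tsum χ₂ a₀ d * (starRingEnd ℂ) (tsum χ₂ a₀ d)
        = k * (tsum χ₂ a₀ b₁ * (starRingEnd ℂ) (tsum χ₂ a₀ b₁)) := by
      rw [Finset.sum_congr rfl fun d hd => by rw [tsum_const_on_suborb hcl₂ hd], Finset.sum_const,
        nsmul_eq_mul, hk]
    have e2 : ∑ d ∈ suborb G a₀ b₂, tsum χ₂ a₀ d * (starRingEnd ℂ) (tsum χ₂ a₀ d)
        = l * (tsum χ₂ a₀ b₂ * (starRingEnd ℂ) (tsum χ₂ a₀ b₂)) := by
      rw [Finset.sum_congr rfl fun d hd => by rw [tsum_const_on_suborb hcl₂ hd], Finset.sum_const,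
        nsmul_eq_mul, hl]
    rw [if_pos rfl, sum_rank_three hb1 hb2 hb12 hall, hdiag₂, e1, e2, hv₁, hv₂, hd₂,
      card_eq_card_mul_stab a₀, hm, ← hcH] at h1
    simp only [map_div₀, map_mul, map_sub, map_neg, map_one, hconjH, map_intCast,
      Complex.conj_natCast] at h1
    push_cast at h1
    field_simp at h1
    linear_combination h1
  have hF4' : (l : ℤ) * s ^ 2 + k * (1 + s) ^ 2 = k * l := by exact_mod_cast hF4
  -- primitivity
  have hsingle : ∀ b : Ω, b ≠ a₀ → (suborb G a₀ b).card ≠ 1 := by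
    intro b hb hcard
    have hfix : ∀ h : G, h • a₀ = a₀ → h • b = b := by
      intro h hh
      obtain ⟨c, hc⟩ := Finset.card_eq_one.1 hcard
      have h1 := self_mem_suborb (G := G) a₀ b
      have h2 := suborb_invariant a₀ b h hh b h1
      rw [hc, Finset.mem_singleton] at h1 h2
      rw [h2, h1]
    have htriv := stabilizer_trivial_of_fixes hb hfix
    have hone : ∀ c : Ω, suborb G a₀ c = {c} := by
      intro c
      ext d
      rw [mem_suborb, Finset.mem_singleton]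
      constructor
      · rintro ⟨h, hh, rfl⟩
        exact htriv h hh c
      · rintro rfl
        exact ⟨1, one_smul _ _, one_smul _ _⟩
    have hk1 : k = 1 := by rw [← hk, hone]; simp
    have hl1 : l = 1 := by rw [← hl, hone]; simp
    omega
  have hk2 : 2 ≤ k := by
    have := hsingle b₁ hb1
    rw [hk] at this
    omega
  have hl2 : 2 ≤ l := by
    have := hsingle b₂ hb2
    rw [hl] at this
    omega
  obtain ⟨a, ha, hma, hkl⟩ := nt_main k l m s t hk2 hl2 hcount (by rw [hsdef]; ring) hF4'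
  refine ⟨a, ha, hma, ?_⟩
  intro b hb
  rw [card_suborb]
  rcases hall b with h | h | h
  · exact absurd h hb
  · rw [suborb_eq_of_mem h, hk]
    rcases hkl with ⟨h1, _⟩ | ⟨h1, _⟩
    · left; exact h1
    · right; exact h1
  · rw [suborb_eq_of_mem h, hl]
    rcases hkl with ⟨_, h1⟩ | ⟨_, h1⟩
    · right; exact h1
    · left; exact h1

end Cfsg.Agent.S0719
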