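import Cfsg.Statements.S0721
import Cfsg.Agent.Lib.Helper16.MinNormalPower

set_option autoImplicit false
open Cfsg

namespace Cfsg.Agent.S0721

open Cfsg.Agent.Lib.Helper16

theorem transport_aux {T₀ : Type*} [Group T₀] (X : Type) (ε : X ≃ T₀) :
    ∃ (T : Type) (_ : Group T), Nonempty (T ≃* T₀) :=
  ⟨X, ε.group, ⟨ε.mulEquiv⟩⟩

theorem transport (T₀ : Type*) [Group T₀] [Finite T₀] :
    ∃ (T : Type) (_ : Group T), Nonempty (T ≃* T₀) :=
  transport_aux (Fin (Nat.card T₀)) (Finite.equivFin T₀).symm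

/-- A minimal normal subgroup of a finite group is isomorphic to a direct power `T ^ m` of a simple group `T` (possibly of prime order). -/
theorem result {H : Type*} [Group H] [Finite H] (N : Subgroup H) [N.Normal] (hN : N ≠ ⊥) (hmin : ∀ M : Subgroup H, M.Normal → M ≤ N → M = ⊥ ∨ M = N) : ∃ (T : Type) (_ : Group T) (m : ℕ), IsSimpleGroup T ∧ 0 < m ∧ Nonempty (N ≃* (Fin m → T)) := by
  obtain ⟨T₀, m, hs, hm, ⟨e⟩⟩ := minNormal_power N hN hmin
  obtain ⟨T, hT, ⟨εm⟩⟩ := transport T₀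
  exact ⟨T, hT, m, εm.isSimpleGroup, hm, ⟨e.trans (MulEquiv.piCongrRight (fun _ => εm.symm))⟩⟩

end Cfsg.Agent.S0721
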