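import Cfsg.Statements.S0722
import Mathlib

set_option autoImplicit false
open Cfsg

namespace Cfsg.Agent.S0722

/-- In a primitive group `H`, with `N` a minimal normal subgroup and `K` a point stabiliser, `K ⊓ N` is maximal among proper `K`-invariant subgroups of `N`. -/
theorem result {α : Type*} [Finite α] (H : Subgroup (Equiv.Perm α)) [MulAction.IsPreprimitive H α] (N : Subgroup H) [N.Normal] (hN : N ≠ ⊥) (hmin : ∀ M : Subgroup H, M.Normal → M ≤ N → M = ⊥ ∨ M = N) (a : α) (X : Subgroup H) (hX : X ≤ N) (hKX : MulAction.stabilizer H a ⊓ N ≤ X) (hinv : MulAction.stabilizer H a ≤ Subgroup.normalizer (X : Set H)) : X = MulAction.stabilizer H a ⊓ N ∨ X = N := by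
  rcases subsingleton_or_nontrivial α with hα | hα
  · exfalso
    apply hN
    rw [Subgroup.eq_bot_iff_forall]
    intro x _
    apply Subtype.ext
    exact Subsingleton.elim _ _
  have hco : IsCoatom (MulAction.stabilizer H a) :=
    MulAction.IsPreprimitive.isCoatom_stabilizer_of_isPreprimitive _ a
  rcases eq_or_ne (MulAction.stabilizer H a ⊔ X) (MulAction.stabilizer H a) with h | h
  · left
    apply le_antisymm _ hKX
    exact le_inf (by rw [← h]; exact le_sup_right) hX
  · have htop : MulAction.stabilizer H a ⊔ X = ⊤ :=
      hco.2 _ (lt_of_le_of_ne le_sup_left (Ne.symm h))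
    have hnorm : X.Normal := by
      rw [← Subgroup.normalizer_eq_top_iff, eq_top_iff, ← htop]
      exact sup_le hinv Subgroup.le_normalizer
    rcases hmin X hnorm hX with h1 | h1
    · left
      apply le_antisymm _ hKX
      rw [h1]; exact bot_le
    · right; exact h1

end Cfsg.Agent.S0722
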