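import Cfsg.Statements.S0723
import Cfsg.Agent.S0722
import Cfsg.Agent.Lib.Helper65.CharSimple
import Cfsg.Agent.Lib.Helper61.ONSCases

set_option autoImplicit false
open Cfsg

namespace Cfsg.Agent.S0723

open Cfsg.Agent.Lib.Helper61.ONS

universe u v


theorem result {α : Type*} [Finite α] (H : Subgroup (Equiv.Perm α)) [MulAction.IsPreprimitive H α] (N : Subgroup H) [N.Normal] (hN : N ≠ ⊥) (hmin : ∀ M : Subgroup H, M.Normal → M ≤ N → M = ⊥ ∨ M = N) (huniq : ∀ L : Subgroup H, L.Normal → L ≠ ⊥ → (∀ M : Subgroup H, M.Normal → M ≤ L → M = ⊥ ∨ M = L) → L = N) (hnab : ¬ IsMulCommutative N) (a : α) : ∃ (T : Type) (_ : Group T) (m : ℕ) (e : N ≃* (Fin m → T)), IsSimpleGroup T ∧ ¬ IsMulCommutative T ∧ 0 < m ∧ ((∃ K : Fin m → Subgroup T, (∀ i, K i ≠ ⊤) ∧ ∀ n : N, (n : H) ∈ MulAction.stabilizer H a ↔ ∀ i, e n i ∈ K i) ∨ (∃ (k : ℕ) (c : Fin m → Fin m), 2 ≤ k ∧ (∀ j : Fin m, Nat.card {i : Fin m // c i = j} = k ∨ Nat.card {i : Fin m // c i = j} = 0) ∧ ∀ n : N, (n : H) ∈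 MulAction.stabilizer H a ↔ ∀ i j : Fin m, c i = c j → e n i = e n j)) := by
  classical
  rcases subsingleton_or_nontrivial α with hα | hα
  · exfalso
    apply hN
    rw [Subgroup.eq_bot_iff_forall]
    intro x _
    apply Subtype.ext
    exact Subsingleton.elim _ _
  obtain ⟨T0, m, hT0, hm, ⟨e0⟩⟩ := Cfsg.Agent.Lib.Helper65.minNormal_power N hN hmin
  have hT0nc : ¬ IsMulCommutative T0 := by
    intro hc
    apply hnab
    refine ⟨⟨fun x y => ?_⟩⟩
    apply e0.injective
    rw [map_mul, map_mul]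
    funext i
    exact hc.is_comm.comm _ _
  set K := MulAction.stabilizer H a with hK
  have hco : IsCoatom K := MulAction.IsPreprimitive.isCoatom_stabilizer_of_isPreprimitive _ a
  have hNK : ¬ N ≤ K := by
    intro hle
    apply hN
    rw [Subgroup.eq_bot_iff_forall]
    intro n hn
    apply Subtype.ext
    ext b
    obtain ⟨h, rfl⟩ := MulAction.exists_smul_eq H a b
    have h1 : h⁻¹ * n * h ∈ N := by
      have := (inferInstance : N.Normal).conj_mem n hn h⁻¹
      simpa using this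
    have h2 : (h⁻¹ * n * h) • a = a := hle h1
    have h3 : n • (h • a) = h • a := by
      calc n • (h • a) = h • ((h⁻¹ * n * h) • a) := by simp only [← mul_smul]; congr 1; group
        _ = h • a := by rw [h2]
    exact h3
  have hKN : K ⊔ N = ⊤ := hco.2 _ (lt_of_le_of_ne le_sup_left (fun h => hNK (by rw [h]; exact le_sup_right)))
  let ψ : K →* MulAut (Fin m → T0) :=
    (MulAut.congr e0).toMonoidHom.comp ((MulAut.conjNormal : H →* MulAut N).comp K.subtype)
  have hψ : ∀ (k : K) (n : N), ψ k (e0 n) = e0 (MulAut.conjNormal (k : H) n) := by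
    intro k n
    show e0 (MulAut.conjNormal (k : H) (e0.symm (e0 n))) = _
    rw [e0.symm_apply_apply]
  let X : Subgroup (Fin m → T0) := (K.subgroupOf N).map e0.toMonoidHom
  have hXmem : ∀ n : N, e0 n ∈ X ↔ (n : H) ∈ K := by
    intro n
    constructor
    · rintro ⟨n', hn', h⟩
      have : n' = n := e0.injective h
      rw [← this]; exact hn'
    · intro h
      exact ⟨n, h, rfl⟩
  -- pull back a subgroup of the power to `H`
  let back : Subgroup (Fin m → T0) → Subgroup H := fun Y => (Y.comap e0.toMonoidHom).map N.subtype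
  have hback : ∀ (Y : Subgroup (Fin m → T0)) (h : H), h ∈ back Y ↔ ∃ hn : h ∈ N, e0 ⟨h, hn⟩ ∈ Y := by
    intro Y h
    constructor
    · rintro ⟨n, hn, rfl⟩
      exact ⟨n.2, hn⟩
    · rintro ⟨hn, h1⟩
      exact ⟨⟨h, hn⟩, h1, rfl⟩
  have hbackN : ∀ Y, back Y ≤ N := fun Y => Subgroup.map_subtype_le _
  have hbackK : ∀ Y : Subgroup (Fin m → T0), (∀ γ, ∀ y ∈ Y, ψ γ y ∈ Y) →
      K ≤ Subgroup.normalizer (back Y : Set H) := by
    intro Y hY k hk
    have key : ∀ k' ∈ K, ∀ h ∈ back Y, k' * h * k'⁻¹ ∈ back Y := by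
      intro k' hk' h hh
      obtain ⟨hn, h1⟩ := (hback Y h).mp hh
      refine (hback Y _).mpr ⟨(inferInstance : N.Normal).conj_mem h hn k', ?_⟩
      have := hY ⟨k', hk'⟩ _ h1
      rw [hψ] at this
      exact this
    rw [Subgroup.mem_normalizer_iff]
    intro h
    refine ⟨key k hk h, fun hh => ?_⟩
    have := key k⁻¹ (K.inv_mem hk) _ hh
    simpa [mul_assoc] using this
  have hinv : ∀ γ, ∀ x ∈ X, ψ γ x ∈ X := by
    rintro k _ ⟨n, hn, rfl⟩
    show ψ k (e0 n) ∈ X
    rw [hψ, hXmem, MulAut.conjNormal_apply]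
    exact K.mul_mem (K.mul_mem k.2 hn) (K.inv_mem k.2)
  have htop_of : ∀ Y : Subgroup (Fin m → T0), back Y = N → Y = ⊤ := by
    intro Y h
    rw [eq_top_iff]
    intro f _
    have h1 : ((e0.symm f : N) : H) ∈ back Y := by rw [h]; exact (e0.symm f).2
    obtain ⟨_, h2⟩ := (hback Y _).mp h1
    simpa using h2
  have hne : X ≠ ⊤ := by
    intro h
    apply hNK
    intro n hn
    rw [← hXmem ⟨n, hn⟩, h]
    trivial
  have hmax : ∀ Y : Subgroup (Fin m → T0), X ≤ Y → (∀ γ, ∀ y ∈ Y, ψ γ y ∈ Y) → Y = X ∨ Y = ⊤ := by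
    intro Y hXY hY
    have h1 : K ⊓ N ≤ back Y := by
      rintro h ⟨hk, hn⟩
      exact (hback Y h).mpr ⟨hn, hXY ((hXmem ⟨h, hn⟩).mpr hk)⟩
    rcases Cfsg.Agent.S0722.result H N hN hmin a (back Y) (hbackN Y) h1 (hbackK Y hY) with h2 | h2
    · left
      apply le_antisymm _ hXY
      intro f hf
      have h3 : ((e0.symm f : N) : H) ∈ back Y :=
        (hback Y _).mpr ⟨(e0.symm f).2, by simpa using hf⟩
      rw [h2] at h3
      have := (hXmem (e0.symm f)).mpr h3.1
      simpa using this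
    · exact Or.inr (htop_of Y h2)
  have hmin' : ∀ M : Subgroup (Fin m → T0), M.Normal → (∀ γ, ∀ y ∈ M, ψ γ y ∈ M) → M = ⊥ ∨ M = ⊤ := by
    intro M hM hMinv
    have hnorm : (back M).Normal := by
      rw [← Subgroup.normalizer_eq_top_iff, eq_top_iff, ← hKN]
      refine sup_le (hbackK M hMinv) ?_
      intro n hn
      have key : ∀ n' ∈ N, ∀ h ∈ back M, n' * h * n'⁻¹ ∈ back M := by
        intro n' hn' h hh
        obtain ⟨hh1, h1⟩ := (hback M h).mp hh
        refine (hback M _).mpr ⟨N.mul_mem (N.mul_mem hn' hh1) (N.inv_mem hn'), ?_⟩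
        have := hM.conj_mem _ h1 (e0 ⟨n', hn'⟩)
        rw [← map_inv, ← map_mul, ← map_mul] at this
        exact this
      rw [Subgroup.mem_normalizer_iff]
      intro h
      refine ⟨key n hn h, fun hh => ?_⟩
      have := key n⁻¹ (N.inv_mem hn) _ hh
      simpa [mul_assoc] using this
    rcases hmin (back M) hnorm (hbackN M) with h | h
    · left
      rw [Subgroup.eq_bot_iff_forall]
      intro f hf
      have h3 : ((e0.symm f : N) : H) ∈ back M :=
        (hback M _).mpr ⟨(e0.symm f).2, by simpa using hf⟩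
      rw [h, Subgroup.mem_bot] at h3
      have h4 : e0.symm f = 1 := Subtype.ext h3
      have := congrArg e0 h4
      simpa using this
    · exact Or.inr (htop_of M h)
  obtain ⟨T', instT', ⟨τ⟩⟩ := Cfsg.Agent.Lib.Helper65.exists_type_copy T0
  have hT'simple : IsSimpleGroup T' := τ.symm.isSimpleGroup
  have hT'nc : ¬ IsMulCommutative T' := by
    intro hc
    apply hT0nc
    refine ⟨⟨fun x y => ?_⟩⟩
    apply τ.injective
    rw [map_mul, map_mul]
    exact hc.is_comm.comm _ _
  let τP : (Fin m → T0) ≃* (Fin m → T') := MulEquiv.piCongrRight (fun _ => τ)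
  have hτP : ∀ f i, τP f i = τ (f i) := fun f i => rfl
  by_cases hs : Subdirect X
  · obtain ⟨e, k, c, hk, hcard, hmem⟩ := diag_case hT0nc ψ X hinv hne hmin' hs
    refine ⟨T', instT', m, e0.trans (e.trans τP), hT'simple, hT'nc, hm, Or.inr ⟨k, c, hk, hcard, ?_⟩⟩
    intro n
    rw [← hXmem n, hmem]
    refine forall_congr' (fun i => forall_congr' (fun j => imp_congr_right (fun _ => ?_)))
    show _ ↔ τ (e (e0 n) i) = τ (e (e0 n) j)
    exact τ.injective.eq_iff.symm
  · obtain ⟨R, hR, hmem⟩ := prod_case hT0nc ψ X hinv hmax hmin' hs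
    refine ⟨T', instT', m, e0.trans τP, hT'simple, hT'nc, hm,
      Or.inl ⟨fun i => (R i).map τ.toMonoidHom, ?_, ?_⟩⟩
    · intro i h
      apply hR i
      rw [eq_top_iff]
      intro t _
      have h' : (R i).map τ.toMonoidHom = ⊤ := h
      have : τ t ∈ (R i).map τ.toMonoidHom := by rw [h']; trivial
      obtain ⟨t', ht', h2⟩ := this
      have : t' = t := τ.injective h2
      rwa [← this]
    · intro n
      rw [← hXmem n, hmem]
      refine forall_congr' (fun i => ?_)
      show _ ↔ τ (e0 n i) ∈ (R i).map τ.toMonoidHom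
      constructor
      · intro h; exact ⟨_, h, rfl⟩
      · rintro ⟨t', ht', h2⟩
        have : t' = e0 n i := τ.injective h2
        rwa [← this]

end Cfsg.Agent.S0723
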