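import Cfsg.Statements.S0726
import Cfsg.Agent.Lib.Helper16.Semiregular

set_option autoImplicit false
open Cfsg

namespace Cfsg.Agent.S0726

open Cfsg.Agent.Lib.Helper16

/-- The left and right regular permutation representations of a group are each other's centralisers in the symmetric group: the centraliser of the left regular image is the right regular image, and a transitive subgroup centralising the left regular image is the whole right regular image. -/
theorem result {G : Type*} [Group G] : Subgroup.centralizer ((MulAction.toPermHom G G).range : Set (Equiv.Perm G)) = (MulAction.toPermHom Gᵐᵒᵖ G).range ∧ ∀ H : Subgroup (Equiv.Perm G), H ≤ Subgroup.centralizer ((MulAction.toPermHom G G).range : Set (Equiv.Perm G)) → MulAction.IsPretransitive H G → H = (MulAction.toPermHom Gᵐᵒᵖ G).range := by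
  have key : Subgroup.centralizer ((MulAction.toPermHom G G).range : Set (Equiv.Perm G)) = (MulAction.toPermHom Gᵐᵒᵖ G).range := by
    ext c
    rw [Subgroup.mem_centralizer_iff]
    constructor
    · intro hc
      refine ⟨MulOpposite.op (c 1), ?_⟩
      ext x
      have h := congrArg (fun f : Equiv.Perm G => f 1) (hc (MulAction.toPermHom G G x) ⟨x, rfl⟩)
      simp only [Equiv.Perm.mul_apply, MulAction.toPermHom_apply, MulAction.toPerm_apply, smul_eq_mul, mul_one] at h
      simp only [MulAction.toPermHom_apply, MulAction.toPerm_apply, op_smul_eq_mul]
      exact h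
    · rintro ⟨r, rfl⟩ h ⟨g, rfl⟩
      ext x
      simp only [Equiv.Perm.mul_apply, MulAction.toPermHom_apply, MulAction.toPerm_apply, smul_eq_mul]
      induction r using MulOpposite.rec' with
      | _ r => simp [op_smul_eq_mul, mul_assoc]
  refine ⟨key, ?_⟩
  intro H hH hHt
  rw [← key]
  have : MulAction.IsPretransitive (MulAction.toPermHom G G).range G := by
    refine ⟨fun a b => ⟨⟨MulAction.toPermHom G G (b * a⁻¹), ⟨_, rfl⟩⟩, ?_⟩⟩
    change (b * a⁻¹) * a = b
    simp
  exact eq_of_le_of_transitive_of_semiregular H _ hH
    (fun k hk a ha => centralizer_semiregular _ k hk a ha)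

end Cfsg.Agent.S0726
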