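import Cfsg.Statements.S0733
import Mathlib
-- import your own Cfsg.Agent.* helpers here

set_option autoImplicit false
open Cfsg

namespace Cfsg.Agent.S0733

open scoped Pointwise

/-- A group of affine type `V ⋊ G₀` is primitive iff `G₀` is irreducible. -/
theorem result {p : ℕ} [Fact p.Prime] {V : Type*} [AddCommGroup V] [Module (ZMod p) V] [Finite V] [Nontrivial V] (G₀ : Subgroup (V ≃ₗ[ZMod p] V)) (G : Subgroup (Equiv.Perm V)) (hG : ∀ σ : Equiv.Perm V, σ ∈ G ↔ ∃ g ∈ G₀, ∃ b : V, ∀ x : V, σ x = (g : V ≃ₗ[ZMod p] V) x + b) : MulAction.IsPreprimitive G V ↔ ∀ W : Submodule (ZMod p) V, (∀ g ∈ G₀, ∀ v ∈ W, (g : V ≃ₗ[ZMod p] V) v ∈ W) → W = ⊥ ∨ W = ⊤ := by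
  -- translations
  have htr : ∀ b : V, Equiv.addRight b ∈ G := fun b => (hG _).2 ⟨1, G₀.one_mem, b, fun x => by simp⟩
  have hlin : ∀ g ∈ G₀, (g : V ≃ₗ[ZMod p] V).toEquiv ∈ G := fun g hg =>
    (hG _).2 ⟨g, hg, 0, fun x => by simp⟩
  constructor
  · intro hprim W hW
    have hblock : MulAction.IsBlock G (W : Set V) := by
      rw [MulAction.isBlock_iff_smul_eq_of_mem]
      rintro ⟨σ, hσ⟩ a ha hσa
      obtain ⟨g, hg, b, hgb⟩ := (hG σ).1 hσ
      have hσa' : σ a ∈ W := hσa
      have hb : b ∈ W := by
        have h1 : g a ∈ W := hW g hg a ha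
        have h2 : g a + b ∈ W := hgb a ▸ hσa'
        simpa using W.sub_mem h2 h1
      ext y
      constructor
      · rintro ⟨z, hz, rfl⟩
        change σ z ∈ W
        rw [hgb]
        exact W.add_mem (hW g hg z hz) hb
      · intro hy
        refine ⟨g⁻¹ (y - b), hW g⁻¹ (G₀.inv_mem hg) _ (W.sub_mem hy hb), ?_⟩
        change σ (g⁻¹ (y - b)) = y
        rw [hgb]
        have : g (g⁻¹ (y - b)) = y - b := by
          rw [← LinearEquiv.mul_apply]; simp
        rw [this]; simp
    rcases hprim.isTrivialBlock_of_isBlock hblock with hs | hu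
    · left
      rw [Submodule.eq_bot_iff]
      intro x hx
      exact hs hx W.zero_mem
    · right
      rw [Submodule.eq_top_iff']
      intro x
      have : x ∈ (W : Set V) := hu ▸ Set.mem_univ x
      exact this
  · intro hirr
    have : MulAction.IsPretransitive G V := by
      refine ⟨fun x y => ⟨⟨Equiv.addRight (y - x), htr _⟩, ?_⟩⟩
      change Equiv.addRight (y - x) x = y
      simp
    apply MulAction.IsPreprimitive.of_isTrivialBlock_base (0 : V)
    intro B h0 hB
    have hmem := MulAction.isBlock_iff_smul_eq_of_mem.1 hB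
    have hadd : ∀ u ∈ B, ∀ v ∈ B, v + u ∈ B := by
      intro u hu v hv
      have h1 : (⟨Equiv.addRight u, htr u⟩ : G) • B = B := by
        apply hmem h0
        change Equiv.addRight u 0 ∈ B
        simpa using hu
      rw [← h1]
      exact ⟨v, hv, rfl⟩
    have hneg : ∀ u ∈ B, -u ∈ B := by
      intro u hu
      have h1 : (⟨Equiv.addRight (-u), htr (-u)⟩ : G) • B = B := by
        apply hmem hu
        change Equiv.addRight (-u) u ∈ B
        simpa using h0
      rw [← h1]
      exact ⟨0, h0, by change Equiv.addRight (-u) 0 = -u; simp⟩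
    let S : AddSubgroup V :=
      { carrier := B
        add_mem' := fun {a b} ha hb => hadd b hb a ha
        zero_mem' := h0
        neg_mem' := fun {a} ha => hneg a ha }
    have hS := hirr (AddSubgroup.toZModSubmodule p S) (by
      intro g hg v hv
      have hv' : v ∈ B := hv
      have h1 : (⟨(g : V ≃ₗ[ZMod p] V).toEquiv, hlin g hg⟩ : G) • B = B := by
        apply hmem h0
        change g 0 ∈ B
        simpa using h0
      change g v ∈ B
      rw [← h1]
      exact ⟨v, hv', rfl⟩)
    rcases hS with hb | ht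
    · left
      intro x hx y hy
      have hx' : x ∈ AddSubgroup.toZModSubmodule p S := hx
      have hy' : y ∈ AddSubgroup.toZModSubmodule p S := hy
      rw [hb, Submodule.mem_bot] at hx' hy'
      rw [hx', hy']
    · right
      ext x
      simp only [Set.mem_univ, iff_true]
      have hx' : x ∈ AddSubgroup.toZModSubmodule p S := ht ▸ Submodule.mem_top
      exact hx'

end Cfsg.Agent.S0733
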