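import Cfsg.Statements.S0734
-- import your own Cfsg.Agent.* helpers here

set_option autoImplicit false
open Cfsg

namespace Cfsg.Agent.S0734

open scoped Pointwise

/-- the orbital graph of the pair `(a, b)` -/
abbrev orb (G : Type*) [Group G] {Ω : Type*} [MulAction G Ω] (a b : Ω) : SimpleGraph Ω :=
  SimpleGraph.fromRel fun x y : Ω => ∃ g : G, g • a = x ∧ g • b = y

theorem adj_smul {G : Type*} [Group G] {Ω : Type*} [MulAction G Ω] {a b x y : Ω} (h : G)
    (hxy : (orb G a b).Adj x y) : (orb G a b).Adj (h • x) (h • y) := by
  rw [SimpleGraph.fromRel_adj] at hxy ⊢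
  obtain ⟨hne, hh⟩ := hxy
  refine ⟨fun e => hne (smul_left_cancel h e), ?_⟩
  rcases hh with ⟨g, rfl, rfl⟩ | ⟨g, rfl, rfl⟩
  · exact Or.inl ⟨h * g, by simp [mul_smul], by simp [mul_smul]⟩
  · exact Or.inr ⟨h * g, by simp [mul_smul], by simp [mul_smul]⟩

theorem reach_smul {G : Type*} [Group G] {Ω : Type*} [MulAction G Ω] {a b x y : Ω} (h : G)
    (hxy : (orb G a b).Reachable x y) : (orb G a b).Reachable (h • x) (h • y) := by
  obtain ⟨w⟩ := hxy
  induction w with
  | nil => exact SimpleGraph.Reachable.refl _
  | cons hadj _ ih => exact (adj_smul h hadj).reachable.trans ih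

/-- Higman's criterion for primitivity: a transitive action on a finite set is primitive if and only if every non-trivial orbital graph (edges = images of a fixed pair of distinct points) is connected. -/
theorem result {G : Type*} [Group G] {Ω : Type*} [Finite Ω] [MulAction G Ω] [MulAction.IsPretransitive G Ω] [Nontrivial Ω] : MulAction.IsPreprimitive G Ω ↔ ∀ a b : Ω, a ≠ b → (SimpleGraph.fromRel fun x y : Ω => ∃ g : G, g • a = x ∧ g • b = y).Connected := by
  constructor
  · intro hprim a b hab
    set B : Set Ω := {x | (orb G a b).Reachable a x} with hB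
    have hblock : MulAction.IsBlock G B := by
      rw [MulAction.isBlock_iff_smul_eq_of_mem]
      intro g x hx hgx
      have key : ∀ (g : G) (x : Ω), x ∈ B → g • x ∈ B → g • B ⊆ B := by
        intro g x hx hgx y hy
        obtain ⟨z, hz, rfl⟩ := hy
        have h1 : (orb G a b).Reachable (g • x) (g • z) := reach_smul g ((SimpleGraph.Reachable.symm hx).trans hz)
        exact SimpleGraph.Reachable.trans hgx h1
      apply Set.Subset.antisymm (key g x hx hgx)
      have h2 := key g⁻¹ (g • x) hgx (by simpa using hx)
      intro y hy
      exact ⟨g⁻¹ • y, h2 ⟨y, hy, rfl⟩, by simp⟩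
    have htriv := hprim.isTrivialBlock_of_isBlock hblock
    have haB : a ∈ B := SimpleGraph.Reachable.refl _
    have hbB : b ∈ B := by
      have : (orb G a b).Adj a b := by
        rw [SimpleGraph.fromRel_adj]
        exact ⟨hab, Or.inl ⟨1, by simp, by simp⟩⟩
      exact this.reachable
    rcases htriv with hs | hu
    · exact absurd (hs haB hbB) hab
    · have : Nonempty Ω := ⟨a⟩
      refine SimpleGraph.Connected.mk ?_
      intro x y
      have hx : x ∈ B := hu ▸ Set.mem_univ x
      have hy : y ∈ B := hu ▸ Set.mem_univ y
      exact (SimpleGraph.Reachable.symm hx).trans hy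
  · intro h
    refine ⟨?_⟩
    intro B hB
    by_contra hnt
    unfold MulAction.IsTrivialBlock at hnt
    push Not at hnt
    obtain ⟨hns, hnu⟩ := hnt
    obtain ⟨a, ha, b, hb, hab⟩ := hns
    apply hnu
    have hconn := h a b hab
    have key : ∀ x y : Ω, (orb G a b).Reachable x y → ∀ g : G, x ∈ g • B → y ∈ g • B := by
      intro x y hxy
      obtain ⟨w⟩ := hxy
      induction w with
      | nil => exact fun g hg => hg
      | cons hadj _ ih =>
        intro g hg
        apply ih
        rw [SimpleGraph.fromRel_adj] at hadj
        obtain ⟨-, hh⟩ := hadj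
        rcases hh with ⟨k, rfl, rfl⟩ | ⟨k, rfl, rfl⟩
        · have h1 : k • a ∈ k • B := Set.smul_mem_smul_set ha
          have h2 : k • B = g • B := by
            by_contra hne
            exact Set.disjoint_left.mp (hB hne) h1 hg
          rw [← h2]
          exact Set.smul_mem_smul_set hb
        · have h1 : k • b ∈ k • B := Set.smul_mem_smul_set hb
          have h2 : k • B = g • B := by
            by_contra hne
            exact Set.disjoint_left.mp (hB hne) h1 hg
          rw [← h2]
          exact Set.smul_mem_smul_set ha
    ext y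
    simp only [Set.mem_univ, iff_true]
    have := key a y (hconn.preconnected a y) 1 (by simpa using ha)
    simpa using this

end Cfsg.Agent.S0734
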