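import Cfsg.Statements.S0735
import Mathlib

set_option autoImplicit false
open Cfsg

namespace Cfsg.Agent.S0735

open MulAction
open scoped Pointwise

theorem pair_move {G α : Type*} [Group G] [MulAction G α] [DecidableEq α]
    (h2 : IsPretransitive G (Set.powersetCard α 2)) {a b x y : α} (hab : a ≠ b) (hxy : x ≠ y) :
    ∃ g : G, (g • a = x ∧ g • b = y) ∨ (g • a = y ∧ g • b = x) := by
  obtain ⟨g, hg⟩ := h2.exists_smul_eq (⟨{a, b}, Finset.card_pair hab⟩ : Set.powersetCard α 2)
    ⟨{x, y}, Finset.card_pair hxy⟩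
  have hg' : g • ({a, b} : Finset α) = {x, y} := by
    have := congrArg Subtype.val hg
    simpa using this
  refine ⟨g, ?_⟩
  have ha : g • a ∈ ({x, y} : Finset α) := by
    rw [← hg']; exact Finset.smul_mem_smul_finset (by simp)
  have hb : g • b ∈ ({x, y} : Finset α) := by
    rw [← hg']; exact Finset.smul_mem_smul_finset (by simp)
  have hne : g • a ≠ g • b := fun e => hab (smul_left_cancel g e)
  simp only [Finset.mem_insert, Finset.mem_singleton] at ha hb
  rcases ha with ha | ha <;> rcases hb with hb | hb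
  · exact absurd (ha.trans hb.symm) hne
  · exact Or.inl ⟨ha, hb⟩
  · exact Or.inr ⟨ha, hb⟩
  · exact absurd (ha.trans hb.symm) hne

/-- 2-homogeneous groups. -/
theorem result {α : Type*} [Fintype α] [DecidableEq α] (G : Subgroup (Equiv.Perm α)) (h2 : MulAction.IsPretransitive G (Set.powersetCard α 2)) (hα : 3 ≤ Fintype.card α) : (Even (Nat.card G) → MulAction.IsMultiplyPretransitive G α 2) ∧ (G ≠ ⊥ → MulAction.IsPreprimitive G α) := by
  constructor
  · intro heven
    obtain ⟨t, ht⟩ := exists_prime_orderOf_dvd_card' (G := G) 2 heven.two_dvd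
    have ht1 : t ≠ 1 := by
      intro e; rw [e, orderOf_one] at ht; omega
    have ht2 : t * t = 1 := by
      rw [← sq, ← ht]; exact pow_orderOf_eq_one t
    obtain ⟨a, ha⟩ : ∃ a : α, t • a ≠ a := by
      by_contra hcon
      push Not at hcon
      apply ht1
      apply Subtype.ext
      ext x
      exact hcon x
    have htt : t • (t • a) = a := by
      rw [← mul_smul, ht2, one_smul]
    rw [is_two_pretransitive_iff]
    have key : ∀ {x y : α}, x ≠ y → ∃ g : G, g • a = x ∧ g • (t • a) = y := by
      intro x y hxy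
      obtain ⟨g, hg | hg⟩ := pair_move h2 (Ne.symm ha) hxy
      · exact ⟨g, hg⟩
      · refine ⟨g * t, ?_, ?_⟩
        · rw [mul_smul]; exact hg.2
        · rw [mul_smul, htt]; exact hg.1
    intro x y z w hxy hzw
    obtain ⟨g, hg1, hg2⟩ := key hxy
    obtain ⟨k, hk1, hk2⟩ := key hzw
    refine ⟨k * g⁻¹, ?_, ?_⟩
    · rw [← hg1, mul_smul, inv_smul_smul, hk1]
    · rw [← hg2, mul_smul, inv_smul_smul, hk2]
  · intro _
    have htrans : IsPretransitive G α := by
      refine ⟨fun x y => ?_⟩
      by_cases hxy : x = y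
      · exact ⟨1, by rw [one_smul, hxy]⟩
      obtain ⟨z, hz⟩ : ∃ z : α, z ∉ ({x, y} : Finset α) := by
        by_contra hcon
        push Not at hcon
        have h1 : Fintype.card α ≤ ({x, y} : Finset α).card := by
          rw [← Finset.card_univ]
          exact Finset.card_le_card (fun a _ => hcon a)
        have h3 := Finset.card_le_two (a := x) (b := y)
        omega
      simp only [Finset.mem_insert, Finset.mem_singleton, not_or] at hz
      obtain ⟨g, hg | hg⟩ := pair_move h2 (a := x) (b := z) (x := y) (y := z) (Ne.symm hz.1) (Ne.symm hz.2)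
      · exact ⟨g, hg.1⟩
      · exact ⟨g * g, by rw [mul_smul, hg.1, hg.2]⟩
    refine ⟨?_⟩
    intro B hB
    by_contra hnt
    unfold IsTrivialBlock at hnt
    push Not at hnt
    obtain ⟨⟨a, ha, b, hb, hab⟩, hnu⟩ := hnt
    obtain ⟨c, hc⟩ : ∃ c, c ∉ B := by
      by_contra hcon
      push Not at hcon
      exact hnu (Set.eq_univ_of_forall hcon)
    have hac : a ≠ c := fun e => hc (e ▸ ha)
    have hmem := isBlock_iff_smul_eq_of_mem.1 hB
    obtain ⟨g, hg | hg⟩ := pair_move h2 hab hac
    · have h1 : g • B = B := hmem ha (hg.1.symm ▸ ha)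
      apply hc
      rw [← h1, ← hg.2]
      exact Set.smul_mem_smul_set hb
    · have h1 : g • B = B := hmem hb (hg.2.symm ▸ ha)
      apply hc
      rw [← h1, ← hg.1]
      exact Set.smul_mem_smul_set ha

end Cfsg.Agent.S0735
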