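import Cfsg.Statements.S0736
-- import your own Cfsg.Agent.* helpers here
import Mathlib

set_option autoImplicit false
open Cfsg

namespace Cfsg.Agent.S0736


open scoped Pointwise

theorem not_dvd_choose (p : ℕ) (hp : p.Prime) : ∀ (a k : ℕ), p ^ a ∣ k →
    ¬ p ∣ (k + p ^ a - 1).choose k := by
  haveI := Fact.mk hp
  intro a
  induction a with
  | zero =>
    intro k _
    simp only [pow_zero, Nat.add_sub_cancel, Nat.choose_self]
    exact hp.one_lt.ne' ∘ Nat.dvd_one.mp
  | succ a ih =>
    intro k hk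
    obtain ⟨c, rfl⟩ := hk
    have hpos : 0 < p := hp.pos
    have hpa : 0 < p ^ a := pow_pos hpos a
    have e1 : p ^ (a + 1) * c + p ^ (a + 1) - 1 = p * (p ^ a * c + p ^ a - 1) + (p - 1) := by
      have h1 : p ^ (a + 1) = p * p ^ a := by ring
      rw [h1]
      obtain ⟨u, hu⟩ : ∃ u, p ^ a = u + 1 := ⟨p ^ a - 1, by omega⟩
      obtain ⟨v, hv⟩ : ∃ v, p = v + 1 := ⟨p - 1, by omega⟩
      rw [hu, hv]
      have : (v + 1) * (u + 1) * c + (v + 1) * (u + 1) - 1
          = (v + 1) * (u + 1) * c + ((v + 1) * u + v) := by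
        have : (v + 1) * (u + 1) = ((v + 1) * u + v) + 1 := by ring
        omega
      rw [this]
      have h2 : (u + 1) * c + (u + 1) - 1 = (u + 1) * c + u := by omega
      rw [h2]
      simp only [Nat.add_sub_cancel]
      ring
    have hmod := Choose.choose_modEq_choose_mod_mul_choose_div_nat
      (n := p ^ (a + 1) * c + p ^ (a + 1) - 1) (k := p ^ (a + 1) * c) (p := p)
    have m1 : (p ^ (a + 1) * c + p ^ (a + 1) - 1) % p = p - 1 := by
      rw [e1, Nat.mul_add_mod]
      exact Nat.mod_eq_of_lt (by omega)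
    have d1 : (p ^ (a + 1) * c + p ^ (a + 1) - 1) / p = p ^ a * c + p ^ a - 1 := by
      rw [e1, Nat.mul_add_div hpos, Nat.div_eq_of_lt (by omega)]
      simp
    have m2 : (p ^ (a + 1) * c) % p = 0 := by
      rw [pow_succ', mul_assoc]
      exact Nat.mul_mod_right _ _
    have d2 : (p ^ (a + 1) * c) / p = p ^ a * c := by
      rw [pow_succ', mul_assoc]
      exact Nat.mul_div_cancel_left _ hpos
    rw [m1, d1, m2, d2, Nat.choose_zero_right, one_mul] at hmod
    intro hdvd
    apply ih (p ^ a * c) (Dvd.intro _ rfl)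
    exact (hmod.dvd_iff (dvd_refl p)).1 hdvd

theorem card_between {α : Type*} [DecidableEq α] (A Δ : Finset α) (k : ℕ) (hA : A.card + 1 = k)
    (hAΔ : A ⊆ Δ) : ((Finset.powersetCard k Δ).filter (fun B => A ⊆ B)).card = Δ.card - A.card := by
  rw [← Finset.card_sdiff_of_subset hAΔ]
  symm
  apply Finset.card_bij (fun x _ => insert x A)
  · intro x hx
    rw [Finset.mem_sdiff] at hx
    rw [Finset.mem_filter, Finset.mem_powersetCard]
    refine ⟨⟨?_, ?_⟩, Finset.subset_insert _ _⟩
    · exact Finset.insert_subset hx.1 hAΔ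
    · rw [Finset.card_insert_of_notMem hx.2, hA]
  · intro x hx y hy hxy
    rw [Finset.mem_sdiff] at hx hy
    have : x ∈ insert y A := by rw [← hxy]; exact Finset.mem_insert_self _ _
    rw [Finset.mem_insert] at this
    rcases this with h | h
    · exact h
    · exact absurd h hx.2
  · intro B hB
    rw [Finset.mem_filter, Finset.mem_powersetCard] at hB
    obtain ⟨⟨hBΔ, hBk⟩, hAB⟩ := hB
    have hc : (B \ A).card = 1 := by
      rw [Finset.card_sdiff_of_subset hAB]; omega
    rw [Finset.card_eq_one] at hc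
    obtain ⟨x, hx⟩ := hc
    have hxm : x ∈ B \ A := by rw [hx]; exact Finset.mem_singleton_self _
    rw [Finset.mem_sdiff] at hxm
    refine ⟨x, Finset.mem_sdiff.2 ⟨hBΔ hxm.1, hxm.2⟩, ?_⟩
    rw [Finset.insert_eq, ← hx]
    exact Finset.sdiff_union_of_subset hAB

/-- A `k`-homogeneous permutation group of degree `n`, `k ≥ 2`, with `k + q - 1 ≤ n` for every prime power `q` dividing `k`, is `(k-1)`-homogeneous. -/
theorem result {α : Type*} [Fintype α] [DecidableEq α] (G : Subgroup (Equiv.Perm α)) {k : ℕ} (hk : 2 ≤ k) (hG : MulAction.IsPretransitive G (Set.powersetCard α k)) (hq : ∀ q : ℕ, IsPrimePow q → q ∣ k → k + q - 1 ≤ Fintype.card α) : MulAction.IsPretransitive G (Set.powersetCard α (k - 1)) := by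
  classical
  constructor
  intro s t
  -- the orbit of `s`
  set O : Finset (Finset α) := Finset.univ.filter (fun A => ∃ g : G, g • (s : Finset α) = A) with hO
  have hOcard : ∀ A ∈ O, A.card = k - 1 := by
    intro A hA
    rw [hO, Finset.mem_filter] at hA
    obtain ⟨_, g, rfl⟩ := hA
    rw [Finset.card_smul_finset]
    exact s.2
  have hOinv : ∀ (g : G) (A : Finset α), A ∈ O → g • A ∈ O := by
    intro g A hA
    rw [hO, Finset.mem_filter] at hA ⊢
    obtain ⟨_, h, rfl⟩ := hA
    exact ⟨Finset.mem_univ _, g * h, by rw [mul_smul]⟩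
  let lam : Finset α → ℕ := fun B => (O.filter (fun A => A ⊆ B)).card
  have hle : ∀ (g : G) (B : Finset α), lam B ≤ lam (g • B) := by
    intro g B
    apply Finset.card_le_card_of_injOn (fun A => g • A)
    · intro A hA
      simp only [Finset.coe_filter, Set.mem_ofPred_eq] at hA ⊢
      exact ⟨hOinv g A hA.1, Finset.smul_finset_subset_smul_finset hA.2⟩
    · intro A _ A' _ h
      exact smul_left_cancel g h
  have hconst : ∀ B B' : Finset α, B.card = k → B'.card = k → lam B = lam B' := by
    intro B B' hB hB'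
    obtain ⟨g, hg⟩ := MulAction.exists_smul_eq G (⟨B, hB⟩ : Set.powersetCard α k) ⟨B', hB'⟩
    obtain ⟨g', hg'⟩ := MulAction.exists_smul_eq G (⟨B', hB'⟩ : Set.powersetCard α k) ⟨B, hB⟩
    have e1 : g • B = B' := congrArg Subtype.val hg
    have e2 : g' • B' = B := congrArg Subtype.val hg'
    apply le_antisymm
    · rw [← e1]; exact hle g B
    · rw [← e2]; exact hle g' B'
  -- `k < n`
  have hkn : k + 1 ≤ Fintype.card α := by
    obtain ⟨p, hp, hpk⟩ := Nat.exists_prime_and_dvd (n := k) (by omega)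
    have := hq p hp.isPrimePow hpk
    have := hp.two_le
    omega
  have hscard : (s : Finset α).card = k - 1 := s.2
  -- a `k`-set containing `s`
  obtain ⟨B₀, hsB₀, hB₀⟩ : ∃ B₀ : Finset α, (s : Finset α) ⊆ B₀ ∧ B₀.card = k := by
    obtain ⟨B₀, h1, _, h3⟩ := Finset.exists_subsuperset_card_eq (Finset.subset_univ (s : Finset α))
      (n := k) (by omega) (by rw [Finset.card_univ]; omega)
    exact ⟨B₀, h1, h3⟩
  have hpos : 0 < lam B₀ := by
    apply Finset.card_pos.2
    refine ⟨(s : Finset α), ?_⟩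
    rw [Finset.mem_filter, hO, Finset.mem_filter]
    exact ⟨⟨Finset.mem_univ _, 1, one_smul _ _⟩, hsB₀⟩
  have hsub : ∀ B : Finset α, O.filter (fun A => A ⊆ B) ⊆ Finset.powersetCard (k - 1) B := by
    intro B A hA
    rw [Finset.mem_filter] at hA
    rw [Finset.mem_powersetCard]
    exact ⟨hA.2, hOcard A hA.1⟩
  have hlek : lam B₀ ≤ k := by
    have := Finset.card_le_card (hsub B₀)
    rw [Finset.card_powersetCard, hB₀] at this
    have h2 : k.choose (k - 1) = k := by
      obtain ⟨j, rfl⟩ : ∃ j, k = j + 1 := ⟨k - 1, by omega⟩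
      simp
    rw [h2] at this
    exact this
  have hdvd : k ∣ lam B₀ := by
    rw [Nat.dvd_iff_prime_pow_dvd_dvd]
    intro p a hp hpa
    rcases Nat.eq_zero_or_pos a with rfl | ha
    · simp
    have hΔ := hq (p ^ a) (hp.isPrimePow.pow ha.ne') hpa
    have hqpos : 0 < p ^ a := pow_pos hp.pos a
    obtain ⟨Δ, hΔc⟩ : ∃ Δ : Finset α, Δ.card = k + p ^ a - 1 := by
      obtain ⟨Δ, _, h⟩ := Finset.exists_subset_card_eq (s := (Finset.univ : Finset α))
        (n := k + p ^ a - 1) (by rw [Finset.card_univ]; exact hΔ)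
      exact ⟨Δ, h⟩
    have hdc := Finset.sum_card_bipartiteAbove_eq_sum_card_bipartiteBelow
      (s := O) (t := Finset.powersetCard k Δ) (fun A B => A ⊆ B)
    have hR : ∑ B ∈ Finset.powersetCard k Δ, (O.bipartiteBelow (fun A B => A ⊆ B) B).card
        = (k + p ^ a - 1).choose k * lam B₀ := by
      rw [Finset.sum_congr rfl (g := fun _ => lam B₀)]
      · rw [Finset.sum_const, Finset.card_powersetCard, hΔc, smul_eq_mul]
      · intro B hB
        rw [Finset.mem_powersetCard] at hB
        exact hconst B B₀ hB.2 hB₀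
    have hL : ∑ A ∈ O, ((Finset.powersetCard k Δ).bipartiteAbove (fun A B => A ⊆ B) A).card
        = (O.filter (fun A => A ⊆ Δ)).card * p ^ a := by
      rw [Finset.card_filter, Finset.sum_mul]
      apply Finset.sum_congr rfl
      intro A hA
      by_cases hAΔ : A ⊆ Δ
      · rw [if_pos hAΔ, one_mul]
        have := card_between A Δ k (by rw [hOcard A hA]; omega) hAΔ
        rw [hΔc, hOcard A hA] at this
        unfold Finset.bipartiteAbove
        rw [this]
        omega
      · rw [if_neg hAΔ, zero_mul, Finset.card_eq_zero]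
        unfold Finset.bipartiteAbove
        rw [Finset.filter_eq_empty_iff]
        intro B hB hAB
        rw [Finset.mem_powersetCard] at hB
        exact hAΔ (hAB.trans hB.1)
    rw [hL, hR] at hdc
    have hcop : Nat.Coprime (p ^ a) ((k + p ^ a - 1).choose k) := by
      apply Nat.Coprime.pow_left
      rw [Nat.Prime.coprime_iff_not_dvd hp]
      exact not_dvd_choose p hp a k hpa
    exact hcop.dvd_of_dvd_mul_left (Dvd.intro_left _ hdc)
  have hlam : lam B₀ = k := le_antisymm hlek (Nat.le_of_dvd hpos hdvd)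
  -- now `t`
  have htcard : (t : Finset α).card = k - 1 := t.2
  obtain ⟨B₁, htB₁, hB₁⟩ : ∃ B₁ : Finset α, (t : Finset α) ⊆ B₁ ∧ B₁.card = k := by
    obtain ⟨B₁, h1, _, h3⟩ := Finset.exists_subsuperset_card_eq (Finset.subset_univ (t : Finset α))
      (n := k) (by omega) (by rw [Finset.card_univ]; omega)
    exact ⟨B₁, h1, h3⟩
  have hlam1 : lam B₁ = k := by rw [hconst B₁ B₀ hB₁ hB₀, hlam]
  have heq : O.filter (fun A => A ⊆ B₁) = Finset.powersetCard (k - 1) B₁ := by
    apply Finset.eq_of_subset_of_card_le (hsub B₁)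
    rw [Finset.card_powersetCard, hB₁]
    have h2 : k.choose (k - 1) = k := by
      obtain ⟨j, rfl⟩ : ∃ j, k = j + 1 := ⟨k - 1, by omega⟩
      simp
    rw [h2]
    exact hlam1.ge
  have htO : (t : Finset α) ∈ O.filter (fun A => A ⊆ B₁) := by
    rw [heq, Finset.mem_powersetCard]
    exact ⟨htB₁, htcard⟩
  rw [Finset.mem_filter, hO, Finset.mem_filter] at htO
  obtain ⟨⟨_, g, hg⟩, _⟩ := htO
  exact ⟨g, Subtype.ext hg⟩

end Cfsg.Agent.S0736
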