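import Cfsg.Statements.S0743
import Mathlib

set_option autoImplicit false
open Cfsg

namespace Cfsg.Agent.S0743

open MulAction

/-- the case `k = 1` of Gleason's lemma -/
theorem gleason_one {p : ℕ} [Fact p.Prime] {G α : Type*} [Group G] [MulAction G α] [Finite α]
    [Nonempty α]
    (h : ∀ a : α, ∃ P : Subgroup G, IsPGroup p P ∧ fixedPoints P α = {a}) :
    IsPretransitive G α := by
  refine ⟨fun a b => ?_⟩
  by_contra hab
  have hb : b ∉ orbit G a := fun ⟨g, hg⟩ => hab ⟨g, hg⟩
  obtain ⟨P, hP, hPa⟩ := h a
  obtain ⟨Q, hQ, hQb⟩ := h b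
  have h1 := hP.card_modEq_card_fixedPoints (orbit G a)
  have h2 := hQ.card_modEq_card_fixedPoints (orbit G a)
  have c1 : Nat.card (fixedPoints P (orbit G a)) = 1 := by
    rw [Nat.card_eq_one_iff_unique]
    refine ⟨⟨?_⟩, ⟨⟨⟨a, mem_orbit_self a⟩, ?_⟩⟩⟩
    · rintro ⟨⟨x, hx⟩, hx'⟩ ⟨⟨y, hy⟩, hy'⟩
      have hxa : x ∈ fixedPoints P α := fun g => congrArg Subtype.val (hx' g)
      have hya : y ∈ fixedPoints P α := fun g => congrArg Subtype.val (hy' g)
      rw [hPa] at hxa hya
      simp only [Set.mem_singleton_iff] at hxa hya
      subst hxa; subst hya; rfl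
    · intro g
      apply Subtype.ext
      have : a ∈ fixedPoints P α := by rw [hPa]; rfl
      exact this g
  have c2 : Nat.card (fixedPoints Q (orbit G a)) = 0 := by
    rw [Nat.card_eq_zero]
    left
    refine ⟨?_⟩
    rintro ⟨⟨x, hx⟩, hx'⟩
    have hxa : x ∈ fixedPoints Q α := fun g => congrArg Subtype.val (hx' g)
    rw [hQb] at hxa
    simp only [Set.mem_singleton_iff] at hxa
    subst hxa
    exact hb hx
  rw [c1] at h1
  rw [c2] at h2
  have h3 : 1 ≡ 0 [MOD p] := h1.symm.trans h2
  have h4 : p ∣ 1 := (Nat.modEq_zero_iff_dvd).1 h3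
  exact (Fact.out : p.Prime).one_lt.ne' (Nat.dvd_one.1 h4)

theorem gleason {p : ℕ} [Fact p.Prime] (k : ℕ) : ∀ {G : Type*} {α : Type*} [Group G] [MulAction G α]
    [Finite α], k + 1 < Nat.card α →
    (∀ s : Set α, s.ncard = k + 1 → ∃ P : Subgroup G, IsPGroup p P ∧ fixedPoints P α = s) →
    IsMultiplyPretransitive G α (k + 1) := by
  induction k with
  | zero =>
    intro G α _ _ _ hk h
    have : Nonempty α := by
      rw [← Finite.card_pos_iff]; omega
    rw [is_one_pretransitive_iff]
    exact gleason_one (p := p) (fun a => h {a} (by simp))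
  | succ k ih =>
    intro G α _ _ _ hk h
    have hstab : ∀ a : α, IsMultiplyPretransitive (stabilizer G a) (SubMulAction.ofStabilizer G a) (k + 1) := by
      intro a
      apply ih
      · have := SubMulAction.nat_card_ofStabilizer_add_one_eq (G := G) a
        omega
      · intro s hs
        have hinj : Function.Injective (Subtype.val : SubMulAction.ofStabilizer G a → α) :=
          Subtype.val_injective
        have hcard : (insert a (Subtype.val '' s) : Set α).ncard = k + 1 + 1 := by
          rw [Set.ncard_insert_of_notMem (SubMulAction.notMem_val_image G s) (Set.toFinite _),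
            Set.ncard_image_of_injective _ hinj, hs]
        obtain ⟨P, hP, hfix⟩ := h _ hcard
        refine ⟨P.subgroupOf (stabilizer G a), hP.comap_subtype, ?_⟩
        have hPle : P ≤ stabilizer G a := by
          intro g hg
          have : a ∈ fixedPoints P α := by rw [hfix]; exact Set.mem_insert _ _
          exact this ⟨g, hg⟩
        ext x
        constructor
        · intro hx
          have hx' : (x : α) ∈ fixedPoints P α := by
            intro g
            have := hx ⟨⟨g.1, hPle g.2⟩, g.2⟩
            exact congrArg Subtype.val this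
          rw [hfix] at hx'
          rcases hx' with hxa | ⟨y, hy, hyx⟩
          · exact absurd hxa (SubMulAction.neq_of_mem_ofStabilizer G a)
          · rw [← hinj hyx]; exact hy
        · intro hx g
          apply Subtype.ext
          have hx' : (x : α) ∈ fixedPoints P α := by
            rw [hfix]; exact Set.mem_insert_of_mem _ ⟨x, hx, rfl⟩
          exact hx' ⟨g.1.1, g.2⟩
    have htrans : IsPretransitive G α := by
      refine ⟨fun x y => ?_⟩
      have : ∃ a : α, a ≠ x ∧ a ≠ y := by
        by_contra hcon
        push Not at hcon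
        have hsub : (Set.univ : Set α) ⊆ {x, y} := by
          intro a _
          by_cases hax : a = x
          · left; exact hax
          · right; exact hcon a hax
        have h1 := Set.ncard_le_ncard hsub (Set.toFinite _)
        have h2 : ({x, y} : Set α).ncard ≤ 2 := by
          have := Set.ncard_insert_le x ({y} : Set α)
          rw [Set.ncard_singleton] at this
          exact this
        rw [Set.ncard_univ] at h1
        omega
      obtain ⟨a, hax, hay⟩ := this
      have h1 : IsMultiplyPretransitive (stabilizer G a) (SubMulAction.ofStabilizer G a) 1 :=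
        have := hstab a
        isMultiplyPretransitive_of_le (n := k + 1) (by omega) (by
          have := SubMulAction.nat_card_ofStabilizer_add_one_eq (G := G) a
          omega)
      rw [is_one_pretransitive_iff] at h1
      obtain ⟨g, hg⟩ := h1.exists_smul_eq ⟨x, hax.symm⟩ ⟨y, hay.symm⟩
      exact ⟨g.1, congrArg Subtype.val hg⟩
    have : Nonempty α := by
      rw [← Finite.card_pos_iff]; omega
    obtain ⟨a⟩ := this
    exact (SubMulAction.ofStabilizer.isMultiplyPretransitive (a := a)).2 (hstab a)

/-- Gleason's lemma. -/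
theorem result {α : Type*} [Fintype α] [DecidableEq α] (G : Subgroup (Equiv.Perm α)) {p k : ℕ} (hp : p.Prime) (hk : 1 ≤ k) (hkn : k < Fintype.card α) (h : ∀ s : Finset α, s.card = k → ∃ P : Subgroup G, IsPGroup p P ∧ MulAction.fixedPoints P α = (s : Set α)) : MulAction.IsMultiplyPretransitive G α k := by
  have : Fact p.Prime := ⟨hp⟩
  obtain ⟨k, rfl⟩ : ∃ j, k = j + 1 := ⟨k - 1, by omega⟩
  apply gleason (p := p) k
  · rw [Nat.card_eq_fintype_card]; exact hkn
  · intro s hs
    classical
    have := Fintype.ofFinite s
    obtain ⟨P, hP, hfix⟩ := h s.toFinset (by rw [← Set.ncard_eq_toFinset_card']; exact hs)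
    exact ⟨P, hP, by rw [hfix]; simp⟩

end Cfsg.Agent.S0743
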