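import Cfsg.Statements.S0744
-- import your own Cfsg.Agent.* helpers here
import Mathlib

set_option autoImplicit false
open Cfsg

namespace Cfsg.Agent.S0744


open MulAction

theorem dvd_ncard_of_invariant {H α : Type*} [Group H] [MulAction H α] [Finite α] (d : ℕ) :
    ∀ (N : ℕ) (S : Set α), S.ncard = N → (∀ h : H, ∀ z ∈ S, h • z ∈ S) →
      (∀ z ∈ S, (orbit H z).ncard = d) → d ∣ S.ncard := by
  intro N
  induction N using Nat.strong_induction_on with
  | _ N ih =>
    intro S hS hinv horb
    rcases Set.eq_empty_or_nonempty S with rfl | ⟨z, hz⟩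
    · simp
    have hsub : orbit H z ⊆ S := by
      rintro _ ⟨h, rfl⟩
      exact hinv h z hz
    have hcard : (S \ orbit H z).ncard + (orbit H z).ncard = S.ncard :=
      Set.ncard_sdiff_add_ncard_of_subset hsub (Set.toFinite _)
    have hpos : 0 < (orbit H z).ncard := by
      rw [Set.ncard_pos (Set.toFinite _)]
      exact ⟨z, mem_orbit_self z⟩
    have h1 : d ∣ (S \ orbit H z).ncard := by
      apply ih (S \ orbit H z).ncard (by omega) _ rfl
      · intro h w hw
        refine ⟨hinv h w hw.1, ?_⟩
        intro hcon
        apply hw.2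
        rw [← orbit_eq_iff] at hcon ⊢
        rw [← hcon, orbit_smul]
      · intro w hw
        exact horb w hw.1
    rw [← hcard, horb z hz]
    exact Dvd.dvd.add h1 (dvd_refl d)

theorem base {G α : Type*} [Group G] [MulAction G α] [FaithfulSMul G α] [Finite α] (l m : ℕ)
    (hl : 1 < l) (hn : 2 ≤ Nat.card α)
    (h1 : ∀ s : Set α, s.ncard = 1 → Nat.card (fixingSubgroup G s) = l)
    (h2 : ∀ s : Set α, s.ncard = 2 → Nat.card (fixingSubgroup G s) = m) :
    IsPretransitive G α := by
  classical
  have hGfin : Finite G := Finite.of_injective _ (MulAction.toPerm_injective (α := G) (β := α))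
  have hstab : ∀ x : α, Nat.card (stabilizer G x) = l := by
    intro x
    rw [← h1 {x} (Set.ncard_singleton x)]
    apply Nat.card_congr
    apply Equiv.setCongr
    ext g
    simp [mem_fixingSubgroup_iff]
  have hstab2 : ∀ x z : α, x ≠ z → Nat.card (stabilizer (stabilizer G x) z) = m := by
    intro x z hxz
    rw [← h2 {x, z} (Set.ncard_pair hxz)]
    refine Nat.card_congr
      { toFun := fun g => ⟨g.1.1, ?_⟩
        invFun := fun g => ⟨⟨g.1, ?_⟩, ?_⟩
        left_inv := fun g => rfl
        right_inv := fun g => rfl }
    · rw [mem_fixingSubgroup_iff]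
      intro y hy
      rcases hy with rfl | rfl
      · exact g.1.2
      · exact g.2
    · exact (mem_fixingSubgroup_iff G).1 g.2 x (by simp)
    · exact (mem_fixingSubgroup_iff G).1 g.2 z (by simp)
  have horb : ∀ x z : α, x ≠ z → m * (orbit (stabilizer G x) z).ncard = l := by
    intro x z hxz
    rw [← index_stabilizer, ← hstab2 x z hxz, Subgroup.card_mul_index, hstab]
  obtain ⟨x₀, z₀, hxz₀⟩ : ∃ x z : α, x ≠ z := by
    have : Fintype α := Fintype.ofFinite α
    rw [Nat.card_eq_fintype_card] at hn
    exact Fintype.one_lt_card_iff.1 (by omega)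
  have hm : 0 < m := by
    by_contra hcon
    have hm0 : m = 0 := by omega
    have := horb x₀ z₀ hxz₀
    rw [hm0] at this
    omega
  set d := l / m with hd
  have horb' : ∀ x z : α, x ≠ z → (orbit (stabilizer G x) z).ncard = d := by
    intro x z hxz
    rw [hd, ← horb x z hxz, Nat.mul_div_cancel_left _ hm]
  have hd1 : d ≠ 1 := by
    intro hd1
    have hbot : stabilizer G x₀ = ⊥ := by
      rw [eq_bot_iff]
      intro g hg
      rw [Subgroup.mem_bot]
      apply FaithfulSMul.eq_of_smul_eq_smul (α := α)
      intro a
      rw [one_smul]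
      by_cases ha : x₀ = a
      · subst ha; exact hg
      · have h := horb' x₀ a ha
        rw [hd1, Set.ncard_eq_one] at h
        obtain ⟨b, hb⟩ := h
        have e1 : a ∈ orbit (stabilizer G x₀) a := mem_orbit_self a
        have e2 : (⟨g, hg⟩ : stabilizer G x₀) • a ∈ orbit (stabilizer G x₀) a := mem_orbit _ _
        rw [hb, Set.mem_singleton_iff] at e1 e2
        have : g • a = b := e2
        rw [this, e1]
    have := hstab x₀
    rw [hbot] at this
    simp at this
    omega
  have hdn1 : ∀ x : α, d ∣ Nat.card α - 1 := by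
    intro x
    have := dvd_ncard_of_invariant (H := stabilizer G x) d _ ({x}ᶜ : Set α) rfl ?_ ?_
    · rwa [Set.ncard_compl, Set.ncard_singleton] at this
    · intro h z hz hcon
      apply hz
      rw [Set.mem_singleton_iff] at hcon ⊢
      have h3 : h⁻¹ • (h • z) = h⁻¹ • x := by rw [hcon]
      rw [inv_smul_smul] at h3
      rw [h3]
      exact (h⁻¹).2
    · intro z hz
      exact horb' x z (fun h => hz h.symm)
  by_contra hnt
  have hex : ∃ x y : α, y ∉ orbit G x := by
    by_contra hcon
    push Not at hcon
    exact hnt ⟨fun x y => hcon x y⟩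
  obtain ⟨x, y, hxy⟩ := hex
  have hc : ∀ z : α, l * (orbit G z).ncard = Nat.card G := by
    intro z
    rw [← index_stabilizer, ← hstab z, Subgroup.card_mul_index]
  have hc' : ∀ z : α, (orbit G z).ncard = (orbit G y).ncard := by
    intro z
    have := (hc z).trans (hc y).symm
    exact Nat.eq_of_mul_eq_mul_left (by omega) this
  have hcn : (orbit G y).ncard ∣ Nat.card α := by
    have := dvd_ncard_of_invariant (H := G) (orbit G y).ncard _ (Set.univ : Set α) rfl
      (fun _ _ _ => Set.mem_univ _) (fun z _ => hc' z)
    rwa [Set.ncard_univ] at this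
  have hdc : d ∣ (orbit G y).ncard := by
    apply dvd_ncard_of_invariant (H := stabilizer G x) d _ (orbit G y) rfl
    · rintro h _ ⟨g, rfl⟩
      exact ⟨h.1 * g, by simp [mul_smul]; rfl⟩
    · intro z hz
      apply horb' x z
      rintro rfl
      apply hxy
      rw [← orbit_eq_iff] at hz ⊢
      exact hz.symm
  have hdn := hdc.trans hcn
  have := (Nat.dvd_sub hdn (hdn1 x))
  have e : Nat.card α - (Nat.card α - 1) = 1 := by omega
  rw [e] at this
  exact hd1 (Nat.dvd_one.1 this)

universe u v

theorem gen (l m : ℕ) (hl : 1 < l) : ∀ (j : ℕ) (G : Type u) (α : Type v) [Group G] [MulAction G α]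
    [FaithfulSMul G α] [Finite α], j + 2 ≤ Nat.card α →
    (∀ s : Set α, s.ncard = j + 1 → Nat.card (fixingSubgroup G s) = l) →
    (∀ s : Set α, s.ncard = j + 2 → Nat.card (fixingSubgroup G s) = m) →
    IsMultiplyPretransitive G α (j + 1) := by
  intro j
  induction j with
  | zero =>
    intro G α _ _ _ _ hn h1 h2
    rw [is_one_pretransitive_iff]
    exact base l m hl hn h1 h2
  | succ j ih =>
    intro G α _ _ _ _ hn h1 h2
    have hfaith : ∀ a : α, FaithfulSMul (stabilizer G a) (SubMulAction.ofStabilizer G a) := by
      intro a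
      constructor
      intro g h hgh
      apply Subtype.ext
      apply FaithfulSMul.eq_of_smul_eq_smul (α := α)
      intro b
      by_cases hb : b = a
      · subst hb
        rw [g.2, h.2]
      · exact congrArg Subtype.val (hgh ⟨b, hb⟩)
    have hcardins : ∀ (a : α) (s : Set (SubMulAction.ofStabilizer G a)),
        (insert a (Subtype.val '' s)).ncard = s.ncard + 1 := by
      intro a s
      rw [Set.ncard_insert_of_notMem, Set.ncard_image_of_injective _ Subtype.val_injective]
      rintro ⟨⟨b, hb⟩, _, hba⟩
      exact hb hba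
    have hstep : ∀ a : α, IsMultiplyPretransitive (stabilizer G a)
        (SubMulAction.ofStabilizer G a) (j + 1) := by
      intro a
      haveI := hfaith a
      apply ih (stabilizer G a) (SubMulAction.ofStabilizer G a)
      · rw [SubMulAction.nat_card_ofStabilizer_eq]; omega
      · intro s hs
        rw [← Nat.card_congr (SubMulAction.fixingSubgroupInsertEquiv a s).toEquiv]
        apply h1
        rw [hcardins, hs]
      · intro s hs
        rw [← Nat.card_congr (SubMulAction.fixingSubgroupInsertEquiv a s).toEquiv]
        apply h2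
        rw [hcardins, hs]
    have htrans : IsPretransitive G α := by
      constructor
      intro x y
      obtain ⟨z, hzx, hzy⟩ : ∃ z : α, z ≠ x ∧ z ≠ y := by
        by_contra hcon
        push Not at hcon
        have hsub : (Set.univ : Set α) ⊆ {x, y} := by
          intro z _
          by_cases hz : z = x
          · simp [hz]
          · simp [hcon z hz]
        have := Set.ncard_le_ncard hsub (Set.toFinite _)
        rw [Set.ncard_univ] at this
        have h3 : ({x, y} : Set α).ncard ≤ ({y} : Set α).ncard + 1 := Set.ncard_insert_le x {y}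
        rw [Set.ncard_singleton] at h3
        omega
      have h1t : IsPretransitive (stabilizer G z) (SubMulAction.ofStabilizer G z) := by
        rw [← is_one_pretransitive_iff]
        haveI := hstep z
        apply isMultiplyPretransitive_of_le (n := j + 1) (by omega)
        rw [SubMulAction.nat_card_ofStabilizer_eq]; omega
      obtain ⟨g, hg⟩ := h1t.exists_smul_eq ⟨x, hzx.symm⟩ ⟨y, hzy.symm⟩
      exact ⟨g.1, congrArg Subtype.val hg⟩
    obtain ⟨a⟩ : Nonempty α := by
      apply Nat.card_pos_iff.1 (by omega) |>.1
    exact (SubMulAction.ofStabilizer.isMultiplyPretransitive (a := a)).2 (hstep a)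

/-- If for some `k > 1` the pointwise stabilisers of all `(k-1)`-subsets have the same order `> 1` and those of all `k`-subsets have the same order, then the group is `(k-1)`-transitive. -/
theorem result {α : Type*} [Fintype α] [DecidableEq α] (G : Subgroup (Equiv.Perm α)) {k : ℕ} (hk : 1 < k) (hkn : k ≤ Fintype.card α) (l m : ℕ) (hl : 1 < l) (hkm1 : ∀ s : Finset α, s.card = k - 1 → Nat.card (fixingSubgroup G (s : Set α)) = l) (hkm : ∀ s : Finset α, s.card = k → Nat.card (fixingSubgroup G (s : Set α)) = m) : MulAction.IsMultiplyPretransitive G α (k - 1) := by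
  classical
  obtain ⟨j, rfl⟩ : ∃ j, k = j + 2 := ⟨k - 2, by omega⟩
  have := gen l m hl j G α (by rw [Nat.card_eq_fintype_card]; exact hkn) ?_ ?_
  · exact this
  · intro s hs
    have := hkm1 s.toFinset (by rw [← Set.ncard_eq_toFinset_card']; simpa using hs)
    simpa using this
  · intro s hs
    have := hkm s.toFinset (by rw [← Set.ncard_eq_toFinset_card']; simpa using hs)
    simpa using this

end Cfsg.Agent.S0744
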