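import Cfsg.Statements.S0757
-- import your own Cfsg.Agent.* helpers here

set_option autoImplicit false
open Cfsg

namespace Cfsg.Agent.S0757

/-- The two diagonal forms Σ x_i^2 and Σ_(i<n) x_i^2 + α x_n^2 on F^(n+1), with α a non-square and 2 ≠ 0 in F, are inequivalent quadratic forms (so over a finite field of odd order there are exactly two classes of non-singular symmetric bilinear forms in each dimension). -/
theorem result {F : Type*} [Field F] (h2 : (2 : F) ≠ 0) (n : ℕ) (α : F) (hα : ¬ IsSquare α) : ¬ (QuadraticMap.weightedSumSquares F (fun _ : Fin (n + 1) => (1 : F))).Equivalent (QuadraticMap.weightedSumSquares F (fun i : Fin (n + 1) => if i = Fin.last n then α else (1 : F))) := by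
  classical
  rintro ⟨e⟩
  have hpol : ∀ w : Fin (n + 1) → F, QuadraticMap.polarBilin (QuadraticMap.weightedSumSquares F w) =
      Matrix.toBilin' (Matrix.diagonal (fun k => 2 * w k)) := by
    intro w
    apply LinearMap.ext₂
    intro x y
    simp only [QuadraticMap.polarBilin_apply_apply, QuadraticMap.polar, QuadraticMap.weightedSumSquares_apply,
      Matrix.toBilin'_apply', dotProduct, Matrix.mulVec_diagonal, Pi.add_apply, smul_eq_mul]
    rw [← Finset.sum_sub_distrib, ← Finset.sum_sub_distrib]
    apply Finset.sum_congr rfl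
    intro i _
    ring
  set w₁ : Fin (n + 1) → F := fun _ => 1 with hw₁
  set w₂ : Fin (n + 1) → F := fun i => if i = Fin.last n then α else 1 with hw₂
  set B₁ : LinearMap.BilinForm F (Fin (n + 1) → F) := QuadraticMap.polarBilin (QuadraticMap.weightedSumSquares F w₁)
    with hB₁
  set B₂ : LinearMap.BilinForm F (Fin (n + 1) → F) := QuadraticMap.polarBilin (QuadraticMap.weightedSumSquares F w₂)
    with hB₂
  have hcomp : B₂.comp (e.toLinearEquiv : (Fin (n + 1) → F) →ₗ[F] (Fin (n + 1) → F))
      (e.toLinearEquiv : (Fin (n + 1) → F) →ₗ[F] (Fin (n + 1) → F)) = B₁ := by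
    apply LinearMap.ext₂
    intro x y
    simp only [LinearMap.BilinForm.comp_apply, hB₁, hB₂, QuadraticMap.polarBilin_apply_apply, QuadraticMap.polar,
      LinearEquiv.coe_coe]
    have h1 : ∀ z, (QuadraticMap.weightedSumSquares F w₂) (e.toLinearEquiv z) =
        (QuadraticMap.weightedSumSquares F w₁) z := fun z => e.map_app z
    rw [← map_add, h1, h1, h1]
  have hM := congrArg LinearMap.BilinForm.toMatrix' hcomp
  rw [LinearMap.BilinForm.toMatrix'_comp, hB₁, hB₂, hpol, hpol, LinearMap.BilinForm.toMatrix'_toBilin',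
    LinearMap.BilinForm.toMatrix'_toBilin'] at hM
  have hdet := congrArg Matrix.det hM
  rw [Matrix.det_mul, Matrix.det_mul, Matrix.det_transpose, Matrix.det_diagonal, Matrix.det_diagonal,
    Finset.prod_mul_distrib, Finset.prod_mul_distrib] at hdet
  simp only [hw₁, hw₂, Finset.prod_const_one, mul_one, Finset.prod_ite_eq', Finset.mem_univ, if_true,
    Finset.prod_const, Finset.card_univ, Fintype.card_fin] at hdet
  set d := (LinearMap.toMatrix' (e.toLinearEquiv : (Fin (n + 1) → F) →ₗ[F] (Fin (n + 1) → F))).det with hd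
  have h2n : (2 : F) ^ (n + 1) ≠ 0 := pow_ne_zero _ h2
  have h3 : d * d * α = 1 := by
    have : (d * d * α - 1) * 2 ^ (n + 1) = 0 := by linear_combination hdet
    rcases mul_eq_zero.mp this with h | h
    · linear_combination h
    · exact absurd h h2n
  have hd0 : d ≠ 0 := by
    rintro h
    rw [h] at h3
    simp at h3
  apply hα
  refine ⟨d⁻¹, ?_⟩
  field_simp
  linear_combination h3

end Cfsg.Agent.S0757
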