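import Cfsg.Statements.S0758
-- import your own Cfsg.Agent.* helpers here

set_option autoImplicit false
open Cfsg

namespace Cfsg.Agent.S0758

/-- For a finite field F of odd order q and a non-square α: the form x² + y² is isotropic iff q ≡ 1 mod 4, and the form x² + α y² is isotropic iff q ≡ 3 mod 4. -/
theorem result {F : Type*} [Field F] [Fintype F] (h2 : (2 : F) ≠ 0) (α : F) (hα : ¬ IsSquare α) : ((∃ x y : F, (x ≠ 0 ∨ y ≠ 0) ∧ x ^ 2 + y ^ 2 = 0) ↔ Fintype.card F % 4 = 1) ∧ ((∃ x y : F, (x ≠ 0 ∨ y ≠ 0) ∧ x ^ 2 + α * y ^ 2 = 0) ↔ Fintype.card F % 4 = 3) := by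
  classical
  have hchar : ringChar F ≠ 2 := by
    intro h
    apply h2
    have := ringChar.Nat.cast_ringChar (R := F)
    rw [h] at this
    exact_mod_cast this
  have hodd := FiniteField.odd_card_of_char_ne_two hchar
  have hm1 := FiniteField.isSquare_neg_one_iff (F := F)
  have hα0 : α ≠ 0 := by
    rintro rfl
    exact hα (IsSquare.zero)
  constructor
  · constructor
    · rintro ⟨x, y, hxy, h⟩
      have hy : y ≠ 0 := by
        intro hy
        subst hy
        have : x = 0 := by simpa using h
        simp [this] at hxy
      have hsq : IsSquare (-1 : F) := ⟨x / y, by field_simp; linear_combination -h⟩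
      have := hm1.mp hsq
      omega
    · intro h
      have hsq : IsSquare (-1 : F) := hm1.mpr (by omega)
      obtain ⟨s, hs⟩ := hsq
      exact ⟨s, 1, Or.inr one_ne_zero, by linear_combination -hs⟩
  · have hχα : quadraticChar F α = -1 := quadraticChar_neg_one_iff_not_isSquare.mpr hα
    have hmul : quadraticChar F (-α) = - quadraticChar F (-1) := by
      have : (-α) = (-1) * α := by ring
      rw [this, map_mul, hχα]; ring
    have hnα0 : -α ≠ 0 := neg_ne_zero.mpr hα0
    have hiff : IsSquare (-α) ↔ ¬ IsSquare (-1 : F) := by
      rw [← quadraticChar_one_iff_isSquare hnα0, ← quadraticChar_neg_one_iff_not_isSquare, hmul]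
      constructor
      · intro h; linarith
      · intro h; linarith
    constructor
    · rintro ⟨x, y, hxy, h⟩
      have hy : y ≠ 0 := by
        intro hy
        subst hy
        have : x = 0 := by simpa using h
        simp [this] at hxy
      have hsq : IsSquare (-α : F) := ⟨x / y, by field_simp; linear_combination -h⟩
      have h1 := hiff.mp hsq
      rw [hm1] at h1
      push Not at h1
      exact h1
    · intro h
      have hsq : IsSquare (-α) := hiff.mpr (by rw [hm1]; push Not; exact h)
      obtain ⟨s, hs⟩ := hsq
      exact ⟨s, 1, Or.inr one_ne_zero, by linear_combination -hs⟩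

end Cfsg.Agent.S0758
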