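import Cfsg.Statements.S0759
-- import your own Cfsg.Agent.* helpers here
import Cfsg.Agent.S0756

set_option autoImplicit false
open Cfsg

namespace Cfsg.Agent.S0759

open Matrix

section
variable {F : Type*} [Field F]

/-- existence of a totally singular subspace of dimension `d` for the sum of squares on `F^κ` -/
def HasTS (F : Type*) [Field F] (κ : Type) [Fintype κ] (d : ℕ) : Prop :=
  ∃ W : Submodule F (κ → F), Module.finrank F W = d ∧ ∀ w ∈ W, ∑ i, w i ^ 2 = 0

theorem HasTS.transfer {κ κ' : Type} [Fintype κ] [Fintype κ'] (e : κ ≃ κ') {d : ℕ} (h : HasTS F κ d) :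
    HasTS F κ' d := by
  obtain ⟨W, hW, hQ⟩ := h
  refine ⟨W.map (LinearEquiv.funCongrLeft F F e.symm : (κ → F) →ₗ[F] (κ' → F)), ?_, ?_⟩
  · rw [LinearEquiv.finrank_map_eq, hW]
  · rintro _ ⟨w, hw, rfl⟩
    rw [← hQ w hw]
    simp only [LinearEquiv.coe_coe, LinearEquiv.funCongrLeft_apply, LinearMap.funLeft_apply]
    exact Equiv.sum_comp e.symm (fun i => w i ^ 2)

theorem hasTS_of_matrix {ι : Type} [Fintype ι] [DecidableEq ι] (T : Matrix ι ι F) (hT : Tᵀ * T = -1) :
    HasTS F (ι ⊕ ι) (Fintype.card ι) := by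
  let L : (ι → F) →ₗ[F] (ι ⊕ ι → F) :=
    { toFun := fun x => Sum.elim x (T *ᵥ x)
      map_add' := by
        intro x y
        funext i
        rcases i with i | i <;> simp [Matrix.mulVec_add]
      map_smul' := by
        intro c x
        funext i
        rcases i with i | i <;> simp [Matrix.mulVec_smul] }
  have hL : ∀ x, L x = Sum.elim x (T *ᵥ x) := fun x => rfl
  have hinj : Function.Injective L := by
    intro x y hxy
    funext i
    have := congrFun hxy (Sum.inl i)
    simpa [hL] using this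
  refine ⟨LinearMap.range L, ?_, ?_⟩
  · rw [LinearMap.finrank_range_of_inj hinj, Module.finrank_fintype_fun_eq_card]
  · rintro _ ⟨x, rfl⟩
    rw [hL, Fintype.sum_sum_type]
    simp only [Sum.elim_inl, Sum.elim_inr]
    have h1 : ∑ i, (T *ᵥ x) i ^ 2 = (T *ᵥ x) ⬝ᵥ (T *ᵥ x) := by
      simp only [dotProduct, sq]
    have h2 : ∑ i, x i ^ 2 = x ⬝ᵥ x := by
      simp only [dotProduct, sq]
    have h3 : (T *ᵥ x) ⬝ᵥ (T *ᵥ x) = x ⬝ᵥ ((Tᵀ * T) *ᵥ x) := by
      rw [← Matrix.mulVec_mulVec, Matrix.dotProduct_mulVec x, Matrix.vecMul_transpose]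
    rw [h1, h2, h3, hT, Matrix.neg_mulVec, Matrix.one_mulVec, dotProduct_neg, add_neg_cancel]

theorem det_antidiag {ι : Type} [Fintype ι] [DecidableEq ι] (A C D : Matrix ι ι F) :
    (Matrix.fromBlocks 0 A C D).det = (-1) ^ Fintype.card ι * (A.det * C.det) := by
  have h1 : Matrix.fromBlocks 0 A C D =
      Matrix.fromBlocks A 0 D C * (Matrix.J ι F * Matrix.fromBlocks 1 0 0 (-1)) := by
    simp [Matrix.J, Matrix.fromBlocks_multiply]
  rw [h1, Matrix.det_mul, Matrix.det_mul, Matrix.det_fromBlocks_zero₁₂, Matrix.det_fromBlocks_zero₁₂,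
    SymplecticGroup.det_eq_one (SymplecticGroup.J_mem ι F), Matrix.det_neg, Matrix.det_one]
  ring

theorem isSquare_of_hasTS (h2 : (2 : F) ≠ 0) {m : ℕ} (h : HasTS F (Fin m ⊕ Fin m) m) :
    IsSquare ((-1 : F) ^ m) := by
  classical
  obtain ⟨W, hW, hQ⟩ := h
  have hdot : ∀ w ∈ W, ∀ w' ∈ W, w ⬝ᵥ w' = 0 := by
    intro w hw w' hw'
    have h1 := hQ (w + w') (W.add_mem hw hw')
    have h3 : ∑ i, (w + w') i ^ 2 = ∑ i, w i ^ 2 + ∑ i, w' i ^ 2 + 2 * (w ⬝ᵥ w') := by
      simp only [dotProduct, Finset.mul_sum, ← Finset.sum_add_distrib, Pi.add_apply]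
      apply Finset.sum_congr rfl
      intro i _
      ring
    rw [h3, hQ w hw, hQ w' hw'] at h1
    have h4 : 2 * (w ⬝ᵥ w') = 0 := by linear_combination h1
    exact (mul_eq_zero.mp h4).resolve_left h2
  obtain ⟨W', hc⟩ := Submodule.exists_isCompl W
  have hW' : Module.finrank F W' = m := by
    have := Submodule.finrank_add_eq_of_isCompl hc
    rw [hW, Module.finrank_fintype_fun_eq_card, Fintype.card_sum, Fintype.card_fin] at this
    omega
  let c : Module.Basis (Fin m ⊕ Fin m) F (Fin m ⊕ Fin m → F) :=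
    ((Module.finBasisOfFinrankEq F W hW).prod (Module.finBasisOfFinrankEq F W' hW')).map
      (Submodule.prodEquivOfIsCompl W W' hc)
  have hcl : ∀ i, c (Sum.inl i) ∈ W := by
    intro i
    simp only [c, Module.Basis.map_apply, Module.Basis.prod_apply, Sum.elim_inl, Function.comp_apply,
      Submodule.coe_prodEquivOfIsCompl', LinearMap.inl_apply]
    simp
  let P : Matrix (Fin m ⊕ Fin m) (Fin m ⊕ Fin m) F := (Pi.basisFun F (Fin m ⊕ Fin m)).toMatrix c
  have hP : ∀ i j, P i j = c j i := fun i j => by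
    simp only [P, Module.Basis.toMatrix_apply, Pi.basisFun_repr]
  have hPdet : P.det ≠ 0 := by
    have h1 := Module.Basis.toMatrix_mul_toMatrix_flip (Pi.basisFun F (Fin m ⊕ Fin m)) c
    have h3 := congrArg Matrix.det h1
    rw [Matrix.det_mul, Matrix.det_one] at h3
    exact left_ne_zero_of_mul_eq_one h3
  set G := Pᵀ * P with hG
  have hGapp : ∀ j j', G j j' = c j ⬝ᵥ c j' := by
    intro j j'
    simp only [hG, Matrix.mul_apply, Matrix.transpose_apply, hP, dotProduct]
  have hG11 : G.toBlocks₁₁ = 0 := by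
    ext i j
    simp only [Matrix.toBlocks₁₁, Matrix.of_apply, Matrix.zero_apply, hGapp]
    exact hdot _ (hcl i) _ (hcl j)
  have hG21 : G.toBlocks₂₁ = G.toBlocks₁₂ᵀ := by
    ext i j
    simp only [Matrix.toBlocks₂₁, Matrix.toBlocks₁₂, Matrix.of_apply, Matrix.transpose_apply, hGapp]
    exact dotProduct_comm _ _
  have hdet : G.det = (-1) ^ m * (G.toBlocks₁₂.det * G.toBlocks₁₂.det) := by
    conv_lhs => rw [← Matrix.fromBlocks_toBlocks G, hG11, hG21]
    rw [det_antidiag, Matrix.det_transpose, Fintype.card_fin]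
  have hdet2 : G.det = P.det * P.det := by
    rw [hG, Matrix.det_mul, Matrix.det_transpose]
  have hA : G.toBlocks₁₂.det ≠ 0 := by
    intro h0
    rw [hdet2, h0] at hdet
    simp only [mul_zero] at hdet
    exact hPdet (mul_self_eq_zero.mp hdet)
  refine ⟨P.det / G.toBlocks₁₂.det, ?_⟩
  field_simp
  rw [hdet2] at hdet
  linear_combination -hdet

end

/-- Type of the orthonormal form: over a finite field of odd order q and for m ≥ 1, the quadratic form Σ_(i<2m) x_i² on F^(2m) admits an m-dimensional subspace on which it vanishes identically if and only if it is not the case that q ≡ 3 (mod 4) and m is odd. -/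
theorem result {F : Type*} [Field F] [Fintype F] (h2 : (2 : F) ≠ 0) (m : ℕ) (hm : 1 ≤ m) : (∃ W : Submodule F (Fin (2 * m) → F), Module.finrank F W = m ∧ ∀ w ∈ W, ∑ i, w i ^ 2 = 0) ↔ ¬ (Fintype.card F % 4 = 3 ∧ Odd m) := by
  classical
  have hchar : ringChar F ≠ 2 := by
    intro h
    apply h2
    have := ringChar.Nat.cast_ringChar (R := F)
    rw [h] at this
    exact_mod_cast this
  have hodd := FiniteField.odd_card_of_char_ne_two hchar
  have hm1 := FiniteField.isSquare_neg_one_iff (F := F)
  change HasTS F (Fin (2 * m)) m ↔ _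
  constructor
  · rintro h ⟨h3, hmodd⟩
    have e : Fin (2 * m) ≃ Fin m ⊕ Fin m := Fintype.equivOfCardEq (by simp; ring)
    have h4 := isSquare_of_hasTS h2 (h.transfer e)
    rw [hmodd.neg_one_pow] at h4
    exact hm1.mp h4 h3
  · intro h
    by_cases h3 : Fintype.card F % 4 = 3
    · have hmeven : Even m := by
        rw [← Nat.not_odd_iff_even]
        exact fun ho => h ⟨h3, ho⟩
      obtain ⟨r, hr⟩ := hmeven
      obtain ⟨a, b, hab⟩ := Cfsg.Agent.S0756.exists_sum_sq h2 (a := (-1 : F)) (b := (-1 : F))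
        (neg_ne_zero.mpr one_ne_zero) (neg_ne_zero.mpr one_ne_zero)
      have hT := hasTS_of_matrix (F := F) (ι := Fin r ⊕ Fin r)
        (Matrix.fromBlocks (a • 1) ((-b) • 1) (b • 1) (a • 1)) (by
          rw [Matrix.fromBlocks_transpose, Matrix.fromBlocks_multiply, ← Matrix.fromBlocks_one,
            Matrix.fromBlocks_neg]
          simp only [Matrix.transpose_smul, Matrix.transpose_one, Matrix.smul_mul, Matrix.mul_smul, Matrix.one_mul,
              smul_smul, ← add_smul, neg_zero]
          have e1 : a * a + b * b = -1 := by linear_combination -hab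
          have e2 : -b * a + a * b = 0 := by ring
          have e3 : a * -b + b * a = 0 := by ring
          have e4 : -b * -b + a * a = -1 := by linear_combination -hab
          rw [e1, e2, e3, e4]
          simp)
      have hcard : Fintype.card (Fin r ⊕ Fin r) = m := by simp [hr]
      rw [hcard] at hT
      exact hT.transfer (Fintype.equivOfCardEq (by simp [hr]; ring))
    · obtain ⟨s, hs⟩ := hm1.mpr h3
      have hT := hasTS_of_matrix (F := F) (ι := Fin m) (s • 1) (by
        simp only [Matrix.transpose_smul, Matrix.transpose_one, Matrix.smul_mul, Matrix.mul_smul, Matrix.one_mul,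
          smul_smul, ← hs]
        simp)
      rw [Fintype.card_fin] at hT
      exact hT.transfer (Fintype.equivOfCardEq (by simp; ring))

end Cfsg.Agent.S0759
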