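import Cfsg.Statements.S0761
-- import your own Cfsg.Agent.* helpers here

set_option autoImplicit false
open Cfsg

namespace Cfsg.Agent.S0761

/-- Hyperbolic partners: let B be a non-degenerate bilinear form on a finite-dimensional space, either alternating, or symmetric with 2 ≠ 0. If Z is a subspace on which B vanishes, x ∉ Z is isotropic and orthogonal to Z, then there is an isotropic y with B x y = 1 which is orthogonal to Z. -/
theorem result {F V : Type*} [Field F] [AddCommGroup V] [Module F V] [FiniteDimensional F V] (B : LinearMap.BilinForm F V) (hB : B.Nondegenerate) (hform : B.IsAlt ∨ (B.IsSymm ∧ (2 : F) ≠ 0)) (x : V) (Z : Submodule F V) (hxZ : x ∉ Z) (hx : B x x = 0) (hxz : ∀ z ∈ Z, B x z = 0) (hZ : ∀ z ∈ Z, ∀ z' ∈ Z, B z z' = 0) : ∃ y : V, B y y = 0 ∧ B x y = 1 ∧ ∀ z ∈ Z, B z y = 0 := by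
  obtain ⟨f, hfx, hfZ⟩ := Submodule.exists_le_ker_of_notMem hxZ
  set y₁ : V := (B.toDual hB).symm ((f x)⁻¹ • f) with hy₁
  have hy₁v : ∀ v, B y₁ v = (f x)⁻¹ * f v := by
    intro v
    rw [hy₁, LinearMap.BilinForm.apply_toDual_symm_apply]
    simp
  have hy₁x : B y₁ x = 1 := by rw [hy₁v, inv_mul_cancel₀ hfx]
  have hy₁Z : ∀ z ∈ Z, B y₁ z = 0 := by
    intro z hz
    have : f z = 0 := hfZ hz
    rw [hy₁v, this, mul_zero]
  rcases hform with hA | ⟨hS, h2⟩
  · refine ⟨-y₁, hA _, ?_, ?_⟩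
    · rw [map_neg, LinearMap.IsAlt.neg hA, hy₁x]
    · intro z hz
      rw [map_neg, LinearMap.IsAlt.neg hA, hy₁Z z hz]
  · have hsymm : ∀ a b, B a b = B b a := fun a b => hS.eq a b
    refine ⟨y₁ - (B y₁ y₁ / 2) • x, ?_, ?_, ?_⟩
    · simp only [map_sub, map_smul, LinearMap.sub_apply, LinearMap.smul_apply, smul_eq_mul, hx, hy₁x,
        hsymm x y₁]
      field_simp
      ring
    · simp only [map_sub, map_smul, smul_eq_mul, hx, hsymm x y₁, hy₁x]
      ring
    · intro z hz
      simp only [map_sub, map_smul, smul_eq_mul, hsymm z y₁, hy₁Z z hz, hsymm z x, hxz z hz]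
      ring

end Cfsg.Agent.S0761
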