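import Cfsg.Statements.S0762
-- import your own Cfsg.Agent.* helpers here

set_option autoImplicit false
open Cfsg

namespace Cfsg.Agent.S0762

/-- In characteristic two over a finite field, a quadratic form on a space of dimension at least 3 vanishes on some non-zero vector. -/
theorem result {F V : Type*} [Field F] [Finite F] [CharP F 2] [AddCommGroup V] [Module F V] [FiniteDimensional F V] (Q : QuadraticForm F V) (h3 : 3 ≤ Module.finrank F V) : ∃ v : V, v ≠ 0 ∧ Q v = 0 := by
  classical
  have hchar : ringChar F = 2 := ringChar.eq F 2
  have : Fintype F := Fintype.ofFinite F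
  have h20 : (2 : F) = 0 := by
    have := CharP.cast_eq_zero F 2
    exact_mod_cast this
  have : Nontrivial V := Module.nontrivial_of_finrank_pos (R := F) (by omega)
  obtain ⟨u, hu⟩ := exists_ne (0 : V)
  set f : V →ₗ[F] F := QuadraticMap.polarBilin Q u with hf
  have hker : 2 ≤ Module.finrank F (LinearMap.ker f) := by
    have h1 := LinearMap.finrank_range_add_finrank_ker f
    have h2 : Module.finrank F (LinearMap.range f) ≤ 1 := by
      have := Submodule.finrank_le (LinearMap.range f)
      simpa using this
    omega
  have hex : ∃ w ∈ LinearMap.ker f, w ∉ Submodule.span F {u} := by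
    by_contra hcon
    push Not at hcon
    have hle : LinearMap.ker f ≤ Submodule.span F {u} := hcon
    have h1 := Submodule.finrank_mono hle
    rw [finrank_span_singleton hu] at h1
    omega
  obtain ⟨w, hwker, hw⟩ := hex
  have hpol : QuadraticMap.polar Q u w = 0 := by
    have := LinearMap.mem_ker.mp hwker
    simpa [hf] using this
  obtain ⟨s, hs⟩ := FiniteField.isSquare_of_char_two hchar (Q u)
  obtain ⟨t, ht⟩ := FiniteField.isSquare_of_char_two hchar (Q w)
  by_cases hs0 : s = 0
  · exact ⟨u, hu, by rw [hs, hs0, mul_zero]⟩
  · refine ⟨t • u + s • w, ?_, ?_⟩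
    · intro h
      apply hw
      rw [Submodule.mem_span_singleton]
      refine ⟨-(s⁻¹ * t), ?_⟩
      have h1 : s • w = -(t • u) := by
        rw [eq_neg_iff_add_eq_zero, add_comm]; exact h
      have h2 : w = s⁻¹ • (s • w) := by rw [smul_smul, inv_mul_cancel₀ hs0, one_smul]
      rw [h2, h1, smul_neg, smul_smul, neg_smul]
    · rw [QuadraticMap.map_add Q, QuadraticMap.map_smul, QuadraticMap.map_smul, QuadraticMap.polar_smul_left,
        QuadraticMap.polar_smul_right, hpol, hs, ht]
      simp only [smul_eq_mul, mul_zero, add_zero]
      linear_combination (t * t * s * s) * h20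

end Cfsg.Agent.S0762
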