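import Cfsg.Statements.S0763
-- import your own Cfsg.Agent.* helpers here

set_option autoImplicit false
open Cfsg

namespace Cfsg.Agent.S0763

/-- Binary quadratic forms in characteristic two over a finite field: if Q is a quadratic form on a 2-dimensional space whose polar form is non-degenerate, then either there are vectors v, w with Q v = Q w = 0 and polar value 1 (Q is xy in these coordinates), or there are v, w and μ with Q v = 1, Q w = μ, polar value 1 and x² + x + μ without roots in F (Q is x² + xy + μy²). -/
theorem result {F V : Type*} [Field F] [Finite F] [CharP F 2] [AddCommGroup V] [Module F V] (Q : QuadraticForm F V) (h2 : Module.finrank F V = 2) (hQ : (QuadraticMap.polarBilin Q).Nondegenerate) : (∃ v w : V, LinearIndependent F ![v, w] ∧ Q v = 0 ∧ Q w = 0 ∧ QuadraticMap.polar Q v w = 1) ∨ (∃ (v w : V) (μ : F), LinearIndependent F ![v, w] ∧ (∀ x : F, x ^ 2 + x + μ ≠ 0) ∧ Q v = 1 ∧ Q w = μ ∧ QuadraticMap.polar Q v w = 1) := by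
  classical
  have hchar : ringChar F = 2 := ringChar.eq F 2
  have : Fintype F := Fintype.ofFinite F
  have h20 : (2 : F) = 0 := by
    have := CharP.cast_eq_zero F 2
    exact_mod_cast this
  have : Nontrivial V := Module.nontrivial_of_finrank_pos (R := F) (by omega)
  have hself : ∀ v, QuadraticMap.polar Q v v = 0 := by
    intro v
    rw [QuadraticMap.polar_self, two_smul]
    linear_combination (Q v) * h20
  have hli : ∀ v w, QuadraticMap.polar Q v w = 1 → LinearIndependent F ![v, w] := by
    intro v w hvw
    rw [LinearIndependent.pair_iff]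
    intro s t hst
    constructor
    · have := congrArg (fun x => QuadraticMap.polar Q x w) hst
      simp only [QuadraticMap.polar_add_left, QuadraticMap.polar_smul_left, hvw, hself, smul_eq_mul, mul_one,
        mul_zero, add_zero, QuadraticMap.polar_zero_left] at this
      exact this
    · have := congrArg (fun x => QuadraticMap.polar Q v x) hst
      simp only [QuadraticMap.polar_add_right, QuadraticMap.polar_smul_right, hvw, hself, smul_eq_mul, mul_one,
        mul_zero, zero_add, QuadraticMap.polar_zero_right] at this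
      exact this
  have hpart : ∀ v, v ≠ 0 → ∃ w, QuadraticMap.polar Q v w = 1 := by
    intro v hv
    have : ∃ w, QuadraticMap.polar Q v w ≠ 0 := by
      by_contra hcon
      push Not at hcon
      exact hv (hQ.1 v hcon)
    obtain ⟨w, hw⟩ := this
    exact ⟨(QuadraticMap.polar Q v w)⁻¹ • w, by
      rw [QuadraticMap.polar_smul_right, smul_eq_mul, inv_mul_cancel₀ hw]⟩
  by_cases hiso : ∃ v, v ≠ 0 ∧ Q v = 0
  · left
    obtain ⟨v, hv0, hQv⟩ := hiso
    obtain ⟨w₀, hw₀⟩ := hpart v hv0
    have hpol : QuadraticMap.polar Q v (w₀ + Q w₀ • v) = 1 := by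
      rw [QuadraticMap.polar_add_right, QuadraticMap.polar_smul_right, hself, hw₀]
      simp
    refine ⟨v, w₀ + Q w₀ • v, hli _ _ hpol, hQv, ?_, hpol⟩
    rw [QuadraticMap.map_add Q, QuadraticMap.map_smul, hQv, QuadraticMap.polar_smul_right,
      QuadraticMap.polar_comm, hw₀]
    simp only [smul_eq_mul, mul_zero, add_zero, mul_one]
    linear_combination (Q w₀) * h20
  · right
    push Not at hiso
    obtain ⟨v₀, hv₀⟩ := exists_ne (0 : V)
    obtain ⟨s, hs⟩ := FiniteField.isSquare_of_char_two hchar (Q v₀)
    have hs0 : s ≠ 0 := by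
      rintro rfl
      exact hiso v₀ hv₀ (by rw [hs, mul_zero])
    have hv0 : s⁻¹ • v₀ ≠ 0 := smul_ne_zero (inv_ne_zero hs0) hv₀
    obtain ⟨w, hw⟩ := hpart _ hv0
    have hQv : Q (s⁻¹ • v₀) = 1 := by
      rw [QuadraticMap.map_smul, hs, smul_eq_mul]
      field_simp
    refine ⟨s⁻¹ • v₀, w, Q w, hli _ _ hw, ?_, hQv, rfl, hw⟩
    intro x hx
    have hne : x • (s⁻¹ • v₀) + w ≠ 0 := by
      intro h
      have := (LinearIndependent.pair_iff.mp (hli _ _ hw)) x 1 (by rw [one_smul]; exact h)
      exact one_ne_zero this.2
    apply hiso _ hne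
    rw [QuadraticMap.map_add Q, QuadraticMap.map_smul, hQv, QuadraticMap.polar_smul_left, hw]
    simp only [smul_eq_mul, mul_one]
    linear_combination hx

end Cfsg.Agent.S0763
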