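import Cfsg.Statements.S0767
-- import your own Cfsg.Agent.* helpers here
import Cfsg.Agent.Lib.Helper17.Symp

set_option autoImplicit false
open Cfsg

namespace Cfsg.Agent.S0767



/-- The root group of a point: T_v(c) T_v(d) = T_v(c + d), and for A in the symplectic group with A v = a v, the conjugate A T_v(c) A⁻¹ is again some T_v(d). -/
theorem result {F : Type*} [Field F] (m : ℕ) (v : Fin m ⊕ Fin m → F) : (∀ c d : F, Cfsg.sympTransvection m v c * Cfsg.sympTransvection m v d = Cfsg.sympTransvection m v (c + d)) ∧ ∀ (A : Matrix (Fin m ⊕ Fin m) (Fin m ⊕ Fin m) F) (a : F), A ∈ Matrix.symplecticGroup (Fin m) F → A.mulVec v = a • v → ∀ c : F, ∃ d : F, A * Cfsg.sympTransvection m v c * A⁻¹ = Cfsg.sympTransvection m v d := by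
  refine ⟨Cfsg.Agent.Lib.Helper17.sympTransvection_mul m v, ?_⟩
  intro A a hA hAv c
  refine ⟨c * a * a, ?_⟩
  have hdet : IsUnit A.det := SymplecticGroup.symplectic_det hA
  rw [Matrix.ext_iff_mulVec]
  intro x
  have hx : A.mulVec (A⁻¹.mulVec x) = x := by
    rw [Matrix.mulVec_mulVec, Matrix.mul_nonsing_inv A hdet, Matrix.one_mulVec]
  have hf : Cfsg.sympForm m F (A⁻¹.mulVec x) v * a = Cfsg.sympForm m F x v * a * a := by
    have h1 := (Cfsg.Agent.Lib.Helper17.mem_symplecticGroup_iff_sympForm m).mp hA (A⁻¹.mulVec x) v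
    rw [hx, hAv, Cfsg.Agent.Lib.Helper17.sympForm_smul_right] at h1
    rw [← h1]; ring
  rw [← Matrix.mulVec_mulVec, ← Matrix.mulVec_mulVec]
  simp only [Cfsg.Agent.Lib.Helper17.sympTransvection_mulVec, Matrix.mulVec_add, Matrix.mulVec_smul, hx, hAv,
    smul_smul]
  congr 2
  linear_combination c * hf

end Cfsg.Agent.S0767
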