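import Cfsg.Statements.S0768
-- import your own Cfsg.Agent.* helpers here
import Cfsg.Agent.Lib.Helper17.Symp

set_option autoImplicit false
open scoped LinearAlgebra.Projectivization
open Cfsg

namespace Cfsg.Agent.S0768

open Cfsg.Agent.Lib.Helper17 Matrix

section
variable {F : Type*} [Field F] (m : ℕ)

/-- A symplectic matrix as an element of `spGL`. -/
def toSpGL (A : Matrix.symplecticGroup (Fin m) F) : ↥(Cfsg.spGL m F) :=
  ⟨⟨(A : Matrix (Fin m ⊕ Fin m) (Fin m ⊕ Fin m) F),
    ((A⁻¹ : Matrix.symplecticGroup (Fin m) F) : Matrix (Fin m ⊕ Fin m) (Fin m ⊕ Fin m) F),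
    by rw [← Submonoid.coe_mul, mul_inv_cancel, Submonoid.coe_one],
    by rw [← Submonoid.coe_mul, inv_mul_cancel, Submonoid.coe_one]⟩,
    fun u v => sp_sympForm m A u v⟩

theorem toSpGL_smul (A : Matrix.symplecticGroup (Fin m) F) {v : Fin m ⊕ Fin m → F} (hv : v ≠ 0)
    (hv' : (A : Matrix (Fin m ⊕ Fin m) (Fin m ⊕ Fin m) F) *ᵥ v ≠ 0) :
    toSpGL m A • Projectivization.mk F v hv =
      Projectivization.mk F ((A : Matrix (Fin m ⊕ Fin m) (Fin m ⊕ Fin m) F) *ᵥ v) hv' := rfl

theorem nondeg_top : ∀ u ∈ (⊤ : Submodule F (Fin m ⊕ Fin m → F)), u ≠ 0 →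
    ∃ a ∈ (⊤ : Submodule F (Fin m ⊕ Fin m → F)), Cfsg.sympForm m F u a ≠ 0 := by
  intro u _ hu
  by_contra hcon
  push Not at hcon
  exact hu (sympForm_left_eq_zero m (fun v => hcon v Submodule.mem_top))

theorem exists_ne {u : Fin m ⊕ Fin m → F} (hu : u ≠ 0) : ∃ a, Cfsg.sympForm m F u a ≠ 0 := by
  obtain ⟨a, -, ha⟩ := nondeg_top m u Submodule.mem_top hu
  exact ⟨a, ha⟩

theorem exists_ne_two {u u' : Fin m ⊕ Fin m → F} (hu : u ≠ 0) (hu' : u' ≠ 0) :
    ∃ z, Cfsg.sympForm m F u z ≠ 0 ∧ Cfsg.sympForm m F u' z ≠ 0 := by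
  obtain ⟨a, ha⟩ := exists_ne m hu
  obtain ⟨b, hb⟩ := exists_ne m hu'
  by_cases h1 : Cfsg.sympForm m F u' a = 0
  · by_cases h2 : Cfsg.sympForm m F u b = 0
    · refine ⟨a + b, ?_, ?_⟩
      · rw [sympForm_add_right, h2, add_zero]; exact ha
      · rw [sympForm_add_right, h1, zero_add]; exact hb
    · exact ⟨b, h2, hb⟩
  · exact ⟨a, ha, h1⟩

/-- if `y` is not a multiple of `x ≠ 0`, some vector is orthogonal to `x` and not to `y`. -/
theorem exists_perp_ne {x y : Fin m ⊕ Fin m → F} (hx : x ≠ 0) (hy : ∀ c : F, c • x ≠ y) :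
    ∃ a, Cfsg.sympForm m F x a = 0 ∧ Cfsg.sympForm m F y a ≠ 0 := by
  by_contra hcon
  push Not at hcon
  obtain ⟨b, hb⟩ := exists_ne m hx
  apply hy (Cfsg.sympForm m F y b / Cfsg.sympForm m F x b)
  have : y - (Cfsg.sympForm m F y b / Cfsg.sympForm m F x b) • x = 0 := by
    apply sympForm_left_eq_zero m
    intro a
    have h1 := hcon (a - (Cfsg.sympForm m F x a / Cfsg.sympForm m F x b) • b) (by
      rw [sympForm_sub_right, sympForm_smul_right, div_mul_cancel₀ _ hb, sub_self])
    rw [sympForm_sub_right, sympForm_smul_right] at h1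
    rw [sympForm_sub_left, sympForm_smul_left]
    field_simp
    field_simp at h1
    linear_combination h1
  exact (sub_eq_zero.mp this).symm

theorem L1 {x y : Fin m ⊕ Fin m → F} (hx : x ≠ 0) (hy : y ≠ 0) :
    ∃ A : Matrix.symplecticGroup (Fin m) F, (A : Matrix (Fin m ⊕ Fin m) (Fin m ⊕ Fin m) F) *ᵥ x = y := by
  obtain ⟨A, -, hA⟩ := exists_closure_transv_vec m (nondeg_top m) (Submodule.mem_top (x := x))
    (Submodule.mem_top (x := y)) hx hy
  exact ⟨A, hA⟩

theorem L2 {x y y' : Fin m ⊕ Fin m → F} (hy : Cfsg.sympForm m F x y ≠ 0) (hy' : Cfsg.sympForm m F x y' ≠ 0) :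
    ∃ A : Matrix.symplecticGroup (Fin m) F, (A : Matrix (Fin m ⊕ Fin m) (Fin m ⊕ Fin m) F) *ᵥ x = x ∧
      (A : Matrix (Fin m ⊕ Fin m) (Fin m ⊕ Fin m) F) *ᵥ y =
        (Cfsg.sympForm m F x y / Cfsg.sympForm m F x y') • y' := by
  obtain ⟨A, -, hA1, hA2⟩ := exists_closure_transv_fix m (W := ⊤) (u := x) (v := (Cfsg.sympForm m F x y)⁻¹ • y)
    (v' := (Cfsg.sympForm m F x y')⁻¹ • y') Submodule.mem_top Submodule.mem_top Submodule.mem_top
    (by rw [sympForm_smul_right, inv_mul_cancel₀ hy]) (by rw [sympForm_smul_right, inv_mul_cancel₀ hy'])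
  refine ⟨A, hA1, ?_⟩
  rw [Matrix.mulVec_smul] at hA2
  have := congrArg (fun v => Cfsg.sympForm m F x y • v) hA2
  simp only [smul_smul, mul_inv_cancel₀ hy, one_smul] at this
  rw [this, div_eq_mul_inv]

theorem L3 {x y y' : Fin m ⊕ Fin m → F} (hx : x ≠ 0) (hy : Cfsg.sympForm m F x y = 0)
    (hy' : Cfsg.sympForm m F x y' = 0) (hyx : ∀ c : F, c • x ≠ y) (hyx' : ∀ c : F, c • x ≠ y') :
    ∃ A : Matrix.symplecticGroup (Fin m) F, (A : Matrix (Fin m ⊕ Fin m) (Fin m ⊕ Fin m) F) *ᵥ x = x ∧
      (A : Matrix (Fin m ⊕ Fin m) (Fin m ⊕ Fin m) F) *ᵥ y = y' := by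
  by_cases h0 : Cfsg.sympForm m F y y' = 0
  · have hz : ∃ z, Cfsg.sympForm m F x z = 0 ∧ Cfsg.sympForm m F y z ≠ 0 ∧ Cfsg.sympForm m F y' z ≠ 0 := by
      obtain ⟨a, ha0, ha⟩ := exists_perp_ne m hx hyx
      obtain ⟨b, hb0, hb⟩ := exists_perp_ne m hx hyx'
      by_cases h1 : Cfsg.sympForm m F y' a = 0
      · by_cases h2 : Cfsg.sympForm m F y b = 0
        · refine ⟨a + b, ?_, ?_, ?_⟩
          · rw [sympForm_add_right, ha0, hb0, add_zero]
          · rw [sympForm_add_right, h2, add_zero]; exact ha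
          · rw [sympForm_add_right, h1, zero_add]; exact hb
        · exact ⟨b, hb0, h2, hb⟩
      · exact ⟨a, ha0, ha, h1⟩
    obtain ⟨z, hz0, hz1, hz2⟩ := hz
    obtain ⟨A, -, hA1, hA2⟩ := exists_transv_of_ne_zero m (W := ⊤) (u := y) (u' := z) Submodule.mem_top
      Submodule.mem_top hz1
    have hz3 : Cfsg.sympForm m F z y' ≠ 0 := by
      rw [sympForm_swap]; exact neg_ne_zero.mpr hz2
    obtain ⟨C, -, hC1, hC2⟩ := exists_transv_of_ne_zero m (W := ⊤) (u := z) (u' := y') Submodule.mem_top
      Submodule.mem_top hz3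
    refine ⟨C * A, ?_, ?_⟩
    · rw [sp_coe_mul_mulVec, hA2 x (by rw [hy, hz0]), hC2 x (by rw [hz0, hy'])]
    · rw [sp_coe_mul_mulVec, hA1, hC1]
  · obtain ⟨A, -, hA1, hA2⟩ := exists_transv_of_ne_zero m (W := ⊤) (u := y) (u' := y') Submodule.mem_top
      Submodule.mem_top h0
    exact ⟨A, hA2 x (by rw [hy, hy']), hA1⟩

end

/-- Primitivity: for m ≥ 1 and F finite, the symplectic group of the form sympForm (as a subgroup of the general linear group) acts primitively on the projective space of F^(2m). -/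
theorem result {F : Type*} [Field F] [Finite F] (m : ℕ) (hm : 1 ≤ m) : MulAction.IsPreprimitive ↥(Cfsg.spGL m F) (ℙ F (Fin m ⊕ Fin m → F)) := by
  have htrans : MulAction.IsPretransitive ↥(Cfsg.spGL m F) (ℙ F (Fin m ⊕ Fin m → F)) := by
    constructor
    intro P R
    induction P using Projectivization.ind with
    | h x hx =>
      induction R using Projectivization.ind with
      | h y hy =>
        obtain ⟨A, hA⟩ := L1 m hx hy
        refine ⟨toSpGL m A, ?_⟩
        rw [toSpGL_smul m A hx (by rw [hA]; exact hy)]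
        simp only [hA]
  refine ⟨?_⟩
  intro B hB
  by_cases hsub : B.Subsingleton
  · exact Or.inl hsub
  right
  -- moving points inside the block
  have hmove : ∀ (g : ↥(Cfsg.spGL m F)) (P R : ℙ F (Fin m ⊕ Fin m → F)), P ∈ B → g • P = P → R ∈ B → g • R ∈ B := by
    intro g P R hP hgP hR
    have := hB.smul_eq_of_mem hP (by rw [hgP]; exact hP)
    rw [← this]
    exact Set.smul_mem_smul_set hR
  have hI : ∀ (x y y' : Fin m ⊕ Fin m → F) (hx : x ≠ 0) (hy : y ≠ 0) (hy' : y' ≠ 0),
      Projectivization.mk F x hx ∈ B → Projectivization.mk F y hy ∈ B → Cfsg.sympForm m F x y ≠ 0 →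
      Cfsg.sympForm m F x y' ≠ 0 → Projectivization.mk F y' hy' ∈ B := by
    intro x y y' hx hy hy' hxB hyB hxy hxy'
    obtain ⟨A, hA1, hA2⟩ := L2 m hxy hxy'
    have h1 := hmove (toSpGL m A) _ _ hxB (by
      rw [toSpGL_smul m A hx (by rw [hA1]; exact hx)]
      simp only [hA1]) hyB
    have hne : (Cfsg.sympForm m F x y / Cfsg.sympForm m F x y') • y' ≠ 0 :=
      smul_ne_zero (div_ne_zero hxy hxy') hy'
    rw [toSpGL_smul m A hy (by rw [hA2]; exact hne)] at h1
    have h2 : Projectivization.mk F y' hy' = Projectivization.mk F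
        ((A : Matrix (Fin m ⊕ Fin m) (Fin m ⊕ Fin m) F).mulVec y) (by rw [hA2]; exact hne) := by
      rw [Projectivization.mk_eq_mk_iff']
      refine ⟨(Cfsg.sympForm m F x y / Cfsg.sympForm m F x y')⁻¹, ?_⟩
      rw [hA2, smul_smul, inv_mul_cancel₀ (div_ne_zero hxy hxy'), one_smul]
    rw [h2]
    exact h1
  have hII : ∀ (x y y' : Fin m ⊕ Fin m → F) (hx : x ≠ 0) (hy : y ≠ 0) (hy' : y' ≠ 0),
      Projectivization.mk F x hx ∈ B → Projectivization.mk F y hy ∈ B → Cfsg.sympForm m F x y = 0 →
      Cfsg.sympForm m F x y' = 0 → (∀ c : F, c • x ≠ y) → (∀ c : F, c • x ≠ y') →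
      Projectivization.mk F y' hy' ∈ B := by
    intro x y y' hx hy hy' hxB hyB hxy hxy' hc hc'
    obtain ⟨A, hA1, hA2⟩ := L3 m hx hxy hxy' hc hc'
    have h1 := hmove (toSpGL m A) _ _ hxB (by
      rw [toSpGL_smul m A hx (by rw [hA1]; exact hx)]
      simp only [hA1]) hyB
    rw [toSpGL_smul m A hy (by rw [hA2]; exact hy')] at h1
    simpa only [hA2] using h1
  rw [Set.not_subsingleton_iff] at hsub
  obtain ⟨P, hP, R, hR, hPR⟩ := hsub
  induction P using Projectivization.ind with
  | h x hx =>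
    induction R using Projectivization.ind with
    | h y hy =>
      have hc : ∀ c : F, c • x ≠ y := by
        intro c hcx
        apply hPR
        rw [eq_comm, Projectivization.mk_eq_mk_iff']
        exact ⟨c, hcx⟩
      rw [Set.eq_univ_iff_forall]
      intro S
      induction S using Projectivization.ind with
      | h z hz =>
        by_cases hxy : Cfsg.sympForm m F x y = 0
        · by_cases hxz : Cfsg.sympForm m F x z = 0
          · by_cases hzc : ∃ c : F, c • x = z
            · obtain ⟨c, hcz⟩ := hzc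
              have : Projectivization.mk F z hz = Projectivization.mk F x hx := by
                rw [Projectivization.mk_eq_mk_iff']
                exact ⟨c, hcz⟩
              rw [this]; exact hP
            · push Not at hzc
              exact hII x y z hx hy hz hP hR hxy hxz hc hzc
          · set w := y - (Cfsg.sympForm m F y z / Cfsg.sympForm m F x z) • x with hw
            have hwc : ∀ c : F, c • x ≠ w := by
              intro c hcw
              apply hc (c + Cfsg.sympForm m F y z / Cfsg.sympForm m F x z)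
              rw [add_smul, hcw, hw]
              abel
            have hw0 : w ≠ 0 := by
              intro h0
              exact hwc 0 (by rw [zero_smul, h0])
            have hxw : Cfsg.sympForm m F x w = 0 := by
              rw [hw, sympForm_sub_right, sympForm_smul_right, sympForm_self, hxy]
              simp
            have hwz : Cfsg.sympForm m F w z = 0 := by
              rw [hw, sympForm_sub_left, sympForm_smul_left, div_mul_cancel₀ _ hxz, sub_self]
            have hwB := hII x y w hx hy hw0 hP hR hxy hxw hc hwc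
            have hwx : Cfsg.sympForm m F w x = 0 := by rw [sympForm_swap, hxw, neg_zero]
            refine hII w x z hw0 hx hz hwB hP hwx hwz ?_ ?_
            · intro c hcx
              have hc0 : c ≠ 0 := by
                rintro rfl
                rw [zero_smul] at hcx
                exact hx hcx.symm
              apply hwc c⁻¹
              rw [← hcx, smul_smul, inv_mul_cancel₀ hc0, one_smul]
            · intro c hcz
              apply hxz
              rw [← hcz, sympForm_smul_right, hxw, mul_zero]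
        · by_cases hxz : Cfsg.sympForm m F x z = 0
          · obtain ⟨w, hw1, hw2⟩ := exists_ne_two m hx hz
            have hw0 : w ≠ 0 := by
              rintro rfl
              exact hw1 (sympForm_zero_right m x)
            have hwB := hI x y w hx hy hw0 hP hR hxy hw1
            have hwx : Cfsg.sympForm m F w x ≠ 0 := by
              rw [sympForm_swap]; exact neg_ne_zero.mpr hw1
            have hwz : Cfsg.sympForm m F w z ≠ 0 := by
              rw [sympForm_swap]; exact neg_ne_zero.mpr hw2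
            exact hI w x z hw0 hx hz hwB hP hwx hwz
          · exact hI x y z hx hy hz hP hR hxy hxz

end Cfsg.Agent.S0768
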