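import Cfsg.Statements.S0769
-- import your own Cfsg.Agent.* helpers here

set_option autoImplicit false
open Cfsg

namespace Cfsg.Agent.S0769

/-- Order of the Borel subgroup of GL_n(q): the invertible lower-triangular n × n matrices over a field with q elements number q^(n(n-1)/2) (q-1)^n (unitriangular part times the diagonal torus). -/
theorem result {F : Type*} [Field F] [Fintype F] {q : ℕ} (hF : Fintype.card F = q) (n : ℕ) : Nat.card {g : Matrix.GeneralLinearGroup (Fin n) F // ∀ i j : Fin n, i < j → (g : Matrix (Fin n) (Fin n) F) i j = 0} = q ^ (n * (n - 1) / 2) * (q - 1) ^ n := by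
  classical
  have hdet : ∀ M : Matrix (Fin n) (Fin n) F, (∀ i j : Fin n, i < j → M i j = 0) → M.det = ∏ i, M i i := by
    intro M hM
    apply Matrix.det_of_lowerTriangular
    intro i j hij
    exact hM i j hij
  let e : {g : Matrix.GeneralLinearGroup (Fin n) F // ∀ i j : Fin n, i < j → (g : Matrix (Fin n) (Fin n) F) i j = 0} ≃
      (Fin n → Fˣ) × ((i : Fin n) → Fin (i : ℕ) → F) :=
    { toFun := fun g => (fun i => Units.mk0 ((g.1 : Matrix (Fin n) (Fin n) F) i i) (by
          have h1 := hdet _ g.2
          have h2 : (g.1 : Matrix (Fin n) (Fin n) F).det ≠ 0 := by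
            have := Matrix.GeneralLinearGroup.det g.1
            exact (Matrix.GeneralLinearGroup.det g.1).ne_zero
          rw [h1] at h2
          exact fun h => h2 (Finset.prod_eq_zero (Finset.mem_univ i) h)),
        fun i j => (g.1 : Matrix (Fin n) (Fin n) F) i ⟨j, j.2.trans i.2⟩)
      invFun := fun p => ⟨Matrix.GeneralLinearGroup.mkOfDetNeZero
          (Matrix.of fun i j : Fin n => if h : j < i then p.2 i ⟨j, h⟩ else if i = j then (p.1 i : F) else 0) (by
            rw [hdet]
            · simp only [Matrix.of_apply, lt_self_iff_false, dite_false, if_true]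
              exact Finset.prod_ne_zero_iff.mpr (fun i _ => (p.1 i).ne_zero)
            · intro i j hij
              simp only [Matrix.of_apply]
              rw [dif_neg (not_lt.mpr hij.le), if_neg hij.ne]), by
          intro i j hij
          simp only [Matrix.GeneralLinearGroup.mkOfDetNeZero, Matrix.GeneralLinearGroup.mk', Matrix.of_apply,
            Matrix.unitOfDetInvertible]
          change (Matrix.of fun i j : Fin n => if h : j < i then p.2 i ⟨j, h⟩ else if i = j then (p.1 i : F) else 0) i j = 0
          simp only [Matrix.of_apply]
          rw [dif_neg (not_lt.mpr hij.le), if_neg hij.ne]⟩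
      left_inv := by
        intro g
        apply Subtype.ext
        apply Units.ext
        ext i j
        change (Matrix.of fun i j : Fin n => if h : j < i then _ else if i = j then _ else 0) i j = _
        simp only [Matrix.of_apply, Units.val_mk0]
        by_cases h1 : j < i
        · rw [dif_pos h1]
        · rw [dif_neg h1]
          by_cases h2 : i = j
          · rw [if_pos h2, h2]
          · rw [if_neg h2]
            exact (g.2 i j (lt_of_le_of_ne (not_lt.mp h1) h2)).symm
      right_inv := by
        intro p
        apply Prod.ext
        · funext i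
          apply Units.ext
          change (Matrix.of fun i j : Fin n => if h : j < i then p.2 i ⟨j, h⟩ else if i = j then (p.1 i : F) else 0) i i = _
          simp
        · funext i j
          change (Matrix.of fun i j : Fin n => if h : j < i then p.2 i ⟨j, h⟩ else if i = j then (p.1 i : F) else 0) i
            ⟨j, j.2.trans i.2⟩ = _
          simp only [Matrix.of_apply]
          rw [dif_pos (by exact j.2)] }
  rw [Nat.card_congr e, Nat.card_prod, Nat.card_eq_fintype_card, Nat.card_eq_fintype_card, Fintype.card_pi,
    Fintype.card_pi]
  simp only [Fintype.card_units, hF, Finset.prod_const, Finset.card_univ, Fintype.card_fin, Fintype.card_pi]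
  rw [Finset.prod_pow_eq_pow_sum, Fin.sum_univ_eq_sum_range (fun i => i) n, Finset.sum_range_id, mul_comm]

end Cfsg.Agent.S0769
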