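import Cfsg.Statements.S0770
-- import your own Cfsg.Agent.* helpers here

set_option autoImplicit false
open Cfsg

namespace Cfsg.Agent.S0770

theorem mem_D_iff {F : Type*} [Field F] (n : ℕ) (h : Matrix.GeneralLinearGroup (Fin n) F) :
    h ∈ ((Units.map (Matrix.diagonalRingHom (Fin n) F).toMonoidHom).range :
      Subgroup (Matrix.GeneralLinearGroup (Fin n) F)) ↔
    ∃ d : Fin n → F, (h : Matrix (Fin n) (Fin n) F) = Matrix.diagonal d := by
  constructor
  · rintro ⟨u, rfl⟩
    exact ⟨(u : Fin n → F), rfl⟩
  · rintro ⟨d, hd⟩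
    have hdet : (h : Matrix (Fin n) (Fin n) F).det ≠ 0 := (Matrix.GeneralLinearGroup.det h).ne_zero
    rw [hd, Matrix.det_diagonal] at hdet
    have hd0 : ∀ i, d i ≠ 0 := fun i hi => hdet (Finset.prod_eq_zero (Finset.mem_univ i) hi)
    refine ⟨MulEquiv.piUnits.symm (fun i => Units.mk0 (d i) (hd0 i)), ?_⟩
    apply Units.ext
    rw [hd]
    rfl

theorem conj_eq_iff {F : Type*} [Field F] (n : ℕ) (g h : Matrix.GeneralLinearGroup (Fin n) F)
    (M : Matrix (Fin n) (Fin n) F) :
    ((g * h * g⁻¹ : Matrix.GeneralLinearGroup (Fin n) F) : Matrix (Fin n) (Fin n) F) = M ↔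
      (g : Matrix (Fin n) (Fin n) F) * (h : Matrix (Fin n) (Fin n) F) = M * (g : Matrix (Fin n) (Fin n) F) := by
  constructor
  · intro hM
    rw [← hM]
    simp only [Units.val_mul]
    rw [mul_assoc, Units.inv_mul, mul_one]
  · intro hM
    simp only [Units.val_mul]
    rw [hM, mul_assoc, Units.mul_inv, mul_one]

/-- For a field with at least 3 elements, an invertible matrix normalises the subgroup of invertible diagonal matrices of GL_n if and only if it is monomial (exactly one non-zero entry in each row). -/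
theorem result {F : Type*} [Field F] (hF : ∃ a : F, a ≠ 0 ∧ a ≠ 1) (n : ℕ) (g : Matrix.GeneralLinearGroup (Fin n) F) : g ∈ Subgroup.normalizer ((Units.map (Matrix.diagonalRingHom (Fin n) F).toMonoidHom).range : Subgroup (Matrix.GeneralLinearGroup (Fin n) F)) ↔ ∀ i : Fin n, ∃! j : Fin n, (g : Matrix (Fin n) (Fin n) F) i j ≠ 0 := by
  classical
  obtain ⟨a, ha0, ha1⟩ := hF
  rw [Subgroup.mem_normalizer_iff]
  constructor
  · intro hg i
    have hex : ∃ j, (g : Matrix (Fin n) (Fin n) F) i j ≠ 0 := by
      by_contra hcon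
      push Not at hcon
      have h1 : ((g : Matrix (Fin n) (Fin n) F) * ((g⁻¹ : Matrix.GeneralLinearGroup (Fin n) F) :
          Matrix (Fin n) (Fin n) F)) i i = 1 := by
        rw [Units.mul_inv]; simp
      rw [Matrix.mul_apply] at h1
      simp [hcon] at h1
    obtain ⟨j, hj⟩ := hex
    refine ⟨j, hj, ?_⟩
    intro k hk
    by_contra hkj
    let d : Fin n → F := fun l => if l = j then a else 1
    have hd0 : ∀ l, d l ≠ 0 := by
      intro l
      simp only [d]
      split_ifs
      · exact ha0
      · exact one_ne_zero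
    let h : Matrix.GeneralLinearGroup (Fin n) F := Matrix.GeneralLinearGroup.mkOfDetNeZero (Matrix.diagonal d) (by
      rw [Matrix.det_diagonal]
      exact Finset.prod_ne_zero_iff.mpr (fun l _ => hd0 l))
    have hh : (h : Matrix (Fin n) (Fin n) F) = Matrix.diagonal d := rfl
    have hmem := (hg h).mp ((mem_D_iff n h).mpr ⟨d, hh⟩)
    obtain ⟨d', hd'⟩ := (mem_D_iff n _).mp hmem
    rw [conj_eq_iff, hh] at hd'
    have e1 := congrFun (congrFun hd' i) j
    have e2 := congrFun (congrFun hd' i) k
    rw [Matrix.mul_diagonal, Matrix.diagonal_mul] at e1 e2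
    simp only [d, if_true, if_neg hkj] at e1 e2
    have f1 : d' i = a := by
      have : (d' i - a) * (g : Matrix (Fin n) (Fin n) F) i j = 0 := by linear_combination -e1
      exact sub_eq_zero.mp ((mul_eq_zero.mp this).resolve_right hj)
    have f2 : d' i = 1 := by
      have : (d' i - 1) * (g : Matrix (Fin n) (Fin n) F) i k = 0 := by linear_combination -e2
      exact sub_eq_zero.mp ((mul_eq_zero.mp this).resolve_right hk)
    exact ha1 (f1.symm.trans f2)
  · intro hmono
    choose π hπ hπu using hmono
    have hzero : ∀ i j, j ≠ π i → (g : Matrix (Fin n) (Fin n) F) i j = 0 := by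
      intro i j hj
      by_contra h
      exact hj (hπu i j h)
    have hsurj : Function.Surjective π := by
      intro j
      by_contra hcon
      push Not at hcon
      have h1 : (((g⁻¹ : Matrix.GeneralLinearGroup (Fin n) F) : Matrix (Fin n) (Fin n) F) *
          (g : Matrix (Fin n) (Fin n) F)) j j = 1 := by
        rw [Units.inv_mul]; simp
      rw [Matrix.mul_apply] at h1
      have h2 : ∀ i, (g : Matrix (Fin n) (Fin n) F) i j = 0 := fun i => hzero i j (fun h => hcon i h.symm)
      simp [h2] at h1
    have hinj : Function.Injective π := Finite.injective_iff_surjective.mpr hsurj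
    intro h
    constructor
    · intro hh
      obtain ⟨d, hd⟩ := (mem_D_iff n h).mp hh
      rw [mem_D_iff]
      refine ⟨fun i => d (π i), ?_⟩
      rw [conj_eq_iff, hd]
      ext i j
      rw [Matrix.mul_diagonal, Matrix.diagonal_mul]
      by_cases hj : j = π i
      · rw [hj, mul_comm]
      · rw [hzero i j hj]; simp
    · intro hh
      obtain ⟨d', hd'⟩ := (mem_D_iff n _).mp hh
      rw [conj_eq_iff] at hd'
      rw [mem_D_iff]
      obtain ⟨ρ, hρ⟩ := hsurj.hasRightInverse
      refine ⟨fun j => d' (ρ j), ?_⟩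
      have h3 : Matrix.diagonal d' * (g : Matrix (Fin n) (Fin n) F) =
          (g : Matrix (Fin n) (Fin n) F) * Matrix.diagonal (fun j => d' (ρ j)) := by
        ext i j
        rw [Matrix.mul_diagonal, Matrix.diagonal_mul]
        by_cases hj : j = π i
        · have : ρ j = i := hinj (by rw [hρ j, hj])
          rw [this, mul_comm]
        · rw [hzero i j hj]; simp
      rw [h3] at hd'
      have h4 := congrArg (fun M => ((g⁻¹ : Matrix.GeneralLinearGroup (Fin n) F) : Matrix (Fin n) (Fin n) F) * M) hd'
      simp only [← mul_assoc, Units.inv_mul, one_mul] at h4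
      exact h4

end Cfsg.Agent.S0770
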