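import Cfsg.Statements.S0771
-- import your own Cfsg.Agent.* helpers here
import Cfsg.Agent.Lib.Helper17.Stab

set_option autoImplicit false
open Cfsg

namespace Cfsg.Agent.S0771

open Cfsg.Agent.Lib.Helper17 Matrix

section
variable {F : Type*} [Field F] {ι₁ ι₂ : Type} [Fintype ι₁] [DecidableEq ι₁] [Fintype ι₂] [DecidableEq ι₂]

theorem det_ne (g : Matrix.GeneralLinearGroup (ι₁ ⊕ ι₂) F)
    (hg : (g : Matrix (ι₁ ⊕ ι₂) (ι₁ ⊕ ι₂) F).toBlocks₂₁ = 0) :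
    (g : Matrix (ι₁ ⊕ ι₂) (ι₁ ⊕ ι₂) F).toBlocks₁₁.det ≠ 0 ∧ (g : Matrix (ι₁ ⊕ ι₂) (ι₁ ⊕ ι₂) F).toBlocks₂₂.det ≠ 0 := by
  have h1 : (g : Matrix (ι₁ ⊕ ι₂) (ι₁ ⊕ ι₂) F).det ≠ 0 := (Matrix.GeneralLinearGroup.det g).ne_zero
  rw [← Matrix.fromBlocks_toBlocks (g : Matrix (ι₁ ⊕ ι₂) (ι₁ ⊕ ι₂) F), hg, Matrix.det_fromBlocks_zero₂₁] at h1
  exact ⟨left_ne_zero_of_mul h1, right_ne_zero_of_mul h1⟩

/-- Block upper triangular invertible matrices. -/
noncomputable def blockEquiv :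
    {g : Matrix.GeneralLinearGroup (ι₁ ⊕ ι₂) F // (g : Matrix (ι₁ ⊕ ι₂) (ι₁ ⊕ ι₂) F).toBlocks₂₁ = 0} ≃
      Matrix.GeneralLinearGroup ι₁ F × Matrix.GeneralLinearGroup ι₂ F × Matrix ι₁ ι₂ F where
  toFun g := (Matrix.GeneralLinearGroup.mkOfDetNeZero _ (det_ne g.1 g.2).1,
    Matrix.GeneralLinearGroup.mkOfDetNeZero _ (det_ne g.1 g.2).2,
    (g.1 : Matrix (ι₁ ⊕ ι₂) (ι₁ ⊕ ι₂) F).toBlocks₁₂)
  invFun p := ⟨Matrix.GeneralLinearGroup.mkOfDetNeZero
    (Matrix.fromBlocks (p.1 : Matrix ι₁ ι₁ F) p.2.2 0 (p.2.1 : Matrix ι₂ ι₂ F)) (by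
      rw [Matrix.det_fromBlocks_zero₂₁]
      exact mul_ne_zero (Matrix.GeneralLinearGroup.det p.1).ne_zero (Matrix.GeneralLinearGroup.det p.2.1).ne_zero),
    Matrix.toBlocks_fromBlocks₂₁ _ _ _ _⟩
  left_inv g := by
    apply Subtype.ext
    apply Units.ext
    change Matrix.fromBlocks (g.1 : Matrix (ι₁ ⊕ ι₂) (ι₁ ⊕ ι₂) F).toBlocks₁₁ _ 0
      (g.1 : Matrix (ι₁ ⊕ ι₂) (ι₁ ⊕ ι₂) F).toBlocks₂₂ = _
    conv_rhs => rw [← Matrix.fromBlocks_toBlocks (g.1 : Matrix (ι₁ ⊕ ι₂) (ι₁ ⊕ ι₂) F), g.2]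
  right_inv p := by
    refine Prod.ext (Units.ext ?_) (Prod.ext (Units.ext ?_) ?_)
    · exact Matrix.toBlocks_fromBlocks₁₁ _ _ _ _
    · exact Matrix.toBlocks_fromBlocks₂₂ _ _ _ _
    · exact Matrix.toBlocks_fromBlocks₁₂ _ _ _ _

end

/-- Maximal parabolic of GL_n(q): the stabiliser of the coordinate subspace spanned by the first k basis vectors has order q^(k(n-k)) · |GL_k(q)| · |GL_(n-k)(q)| (unipotent radical of order q^(k(n-k)) and Levi complement GL_k × GL_(n-k)). -/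
theorem result {F : Type*} [Field F] [Fintype F] {q : ℕ} (hF : Fintype.card F = q) (n k : ℕ) (hk : k ≤ n) : Nat.card ↥(Cfsg.stabilizing (Cfsg.glToMat (Fin n) F) {v : Fin n → F | ∀ i : Fin n, k ≤ (i : ℕ) → v i = 0}) = q ^ (k * (n - k)) * (∏ i : Fin k, (q ^ k - q ^ (i : ℕ))) * ∏ i : Fin (n - k), (q ^ (n - k) - q ^ (i : ℕ)) := by
  classical
  have hnk : n = k + (n - k) := by omega
  let e : Fin n ≃ Fin k ⊕ Fin (n - k) := (finCongr hnk).trans finSumFinEquiv.symm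
  have hel : ∀ a : Fin k, ((e.symm (Sum.inl a) : Fin n) : ℕ) = a := fun a => by simp [e]
  have her : ∀ b : Fin (n - k), ((e.symm (Sum.inr b) : Fin n) : ℕ) = k + b := fun b => by simp [e]
  let ρ : Matrix.GeneralLinearGroup (Fin n) F ≃* Matrix.GeneralLinearGroup (Fin k ⊕ Fin (n - k)) F :=
    Units.mapEquiv (Matrix.reindexAlgEquiv F F e).toMulEquiv
  have hρ : ∀ (g : Matrix.GeneralLinearGroup (Fin n) F) (i j : Fin k ⊕ Fin (n - k)),
      (ρ g : Matrix (Fin k ⊕ Fin (n - k)) (Fin k ⊕ Fin (n - k)) F) i j =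
        (g : Matrix (Fin n) (Fin n) F) (e.symm i) (e.symm j) := fun g i j => rfl
  have key : ∀ g : Matrix.GeneralLinearGroup (Fin n) F,
      g ∈ Cfsg.stabilizing (Cfsg.glToMat (Fin n) F) {v : Fin n → F | ∀ i : Fin n, k ≤ (i : ℕ) → v i = 0} ↔
      (ρ g : Matrix (Fin k ⊕ Fin (n - k)) (Fin k ⊕ Fin (n - k)) F).toBlocks₂₁ = 0 := by
    intro g
    rw [mem_stab_coord_iff]
    constructor
    · intro h
      ext b a
      simp only [Matrix.toBlocks₂₁, Matrix.of_apply, Matrix.zero_apply]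
      rw [hρ]
      exact h _ _ (by rw [her]; omega) (by rw [hel]; exact a.2)
    · intro h i j hi hj
      have h1 := congrFun (congrFun h ⟨(i : ℕ) - k, by have := i.2; omega⟩) ⟨(j : ℕ), hj⟩
      simp only [Matrix.toBlocks₂₁, Matrix.of_apply, Matrix.zero_apply] at h1
      rw [hρ] at h1
      have hi' : e.symm (Sum.inr ⟨(i : ℕ) - k, by have := i.2; omega⟩) = i := by
        apply Fin.ext
        rw [her]
        simp only
        omega
      have hj' : e.symm (Sum.inl ⟨(j : ℕ), hj⟩) = j := by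
        apply Fin.ext
        rw [hel]
      rw [hi', hj'] at h1
      exact h1
  have hcard : Nat.card ↥(Cfsg.stabilizing (Cfsg.glToMat (Fin n) F) {v : Fin n → F | ∀ i : Fin n, k ≤ (i : ℕ) → v i = 0}) =
      Nat.card (Matrix.GeneralLinearGroup (Fin k) F × Matrix.GeneralLinearGroup (Fin (n - k)) F ×
        Matrix (Fin k) (Fin (n - k)) F) :=
    Nat.card_congr ((Equiv.subtypeEquiv ρ.toEquiv key).trans blockEquiv)
  have hmat : Nat.card (Matrix (Fin k) (Fin (n - k)) F) = q ^ (k * (n - k)) := by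
    rw [Nat.card_eq_fintype_card]
    change Fintype.card (Fin k → Fin (n - k) → F) = _
    rw [Fintype.card_fun, Fintype.card_fun, hF, Fintype.card_fin, Fintype.card_fin, ← pow_mul, mul_comm]
  rw [hcard, Nat.card_prod, Nat.card_prod, Matrix.card_GL_field, Matrix.card_GL_field, hF, hmat]
  ring

end Cfsg.Agent.S0771
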