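import Cfsg.Statements.S0772
-- import your own Cfsg.Agent.* helpers here
import Cfsg.Agent.Lib.Helper17.Stab
import Cfsg.Agent.Lib.Helper17.Refl

set_option autoImplicit false
open Cfsg

namespace Cfsg.Agent.S0772

open Cfsg.Agent.Lib.Helper17 Matrix

section
variable {F : Type*} [Field F] {n : ℕ}

theorem det_R (a ψ : Fin n → F) : (1 + vecMulVec a ψ).det = 1 + ψ ⬝ᵥ a := by
  have := det_one_add_smul_vecMulVec (1 : F) a ψ
  simpa using this

open Classical in
/-- rank one perturbations of the identity -/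
noncomputable def R (a ψ : Fin n → F) : Matrix.GeneralLinearGroup (Fin n) F :=
  if h : 1 + ψ ⬝ᵥ a ≠ 0 then
    Matrix.GeneralLinearGroup.mkOfDetNeZero (1 + vecMulVec a ψ) (by rw [det_R]; exact h) else 1

theorem R_coe (a ψ : Fin n → F) (h : 1 + ψ ⬝ᵥ a ≠ 0) :
    (R a ψ : Matrix (Fin n) (Fin n) F) = 1 + vecMulVec a ψ := by
  unfold R
  rw [dif_pos h]
  rfl

theorem conj_R (p : Matrix.GeneralLinearGroup (Fin n) F) (a ψ φ : Fin n → F) (h : 1 + ψ ⬝ᵥ a ≠ 0)
    (hφ : φ ᵥ* (p : Matrix (Fin n) (Fin n) F) = ψ) :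
    p * R a ψ * p⁻¹ = R ((p : Matrix (Fin n) (Fin n) F) *ᵥ a) φ := by
  have h' : 1 + φ ⬝ᵥ ((p : Matrix (Fin n) (Fin n) F) *ᵥ a) ≠ 0 := by
    rw [Matrix.dotProduct_mulVec, hφ]
    exact h
  rw [mul_inv_eq_iff_eq_mul]
  apply Units.ext
  simp only [Units.val_mul, R_coe _ _ h, R_coe _ _ h']
  rw [mul_add, add_mul, mul_one, one_mul, mul_vecMulVec, vecMulVec_mul, hφ]

theorem R_mem_P (k : ℕ) (a ψ : Fin n → F) (h : 1 + ψ ⬝ᵥ a ≠ 0)
    (h' : (∀ i : Fin n, k ≤ (i : ℕ) → a i = 0) ∨ (∀ j : Fin n, (j : ℕ) < k → ψ j = 0)) :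
    R a ψ ∈ Cfsg.stabilizing (Cfsg.glToMat (Fin n) F) {v : Fin n → F | ∀ i : Fin n, k ≤ (i : ℕ) → v i = 0} := by
  rw [mem_stab_coord_iff]
  intro i j hi hj
  have hij : i ≠ j := by
    intro h; rw [h] at hi; omega
  rw [R_coe _ _ h, Matrix.add_apply, Matrix.one_apply_ne hij, vecMulVec_apply, zero_add]
  rcases h' with h' | h'
  · rw [h' i hi, zero_mul]
  · rw [h' j hj, mul_zero]

theorem R_mulVec (a ψ v : Fin n → F) : (1 + vecMulVec a ψ) *ᵥ v = v + (ψ ⬝ᵥ v) • a := by
  rw [Matrix.add_mulVec, Matrix.one_mulVec, vecMulVec_mulVec, op_smul_eq_smul]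

theorem vecMul_R (a ψ v : Fin n → F) : v ᵥ* (1 + vecMulVec a ψ) = v + (v ⬝ᵥ a) • ψ := by
  rw [Matrix.vecMul_add, Matrix.vecMul_one, vecMul_vecMulVec]

theorem lemmaK (k : ℕ) (H : Subgroup (Matrix.GeneralLinearGroup (Fin n) F))
    (hH : Cfsg.stabilizing (Cfsg.glToMat (Fin n) F) {v : Fin n → F | ∀ i : Fin n, k ≤ (i : ℕ) → v i = 0} ≤ H)
    (i j : Fin n) (hi : k ≤ (i : ℕ)) (hj : (j : ℕ) < k) (a ψ : Fin n → F) (hai : a i ≠ 0) (hψj : ψ j ≠ 0)
    (hψa : ψ ⬝ᵥ a = 0) : R a ψ ∈ H ↔ R (Pi.single i 1) (Pi.single j 1) ∈ H := by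
  have hij : i ≠ j := by
    intro h; rw [h] at hi; omega
  -- first conjugation
  set u : Fin n → F := (a i)⁻¹ • (Pi.single i 1 - a) with hu
  have h1 : 1 + (Pi.single i 1 : Fin n → F) ⬝ᵥ u ≠ 0 := by
    rw [hu, single_dotProduct]
    simp only [one_mul, Pi.smul_apply, Pi.sub_apply, Pi.single_eq_same, smul_eq_mul]
    have : 1 + (a i)⁻¹ * (1 - a i) = (a i)⁻¹ := by field_simp; ring
    rw [this]
    exact inv_ne_zero hai
  set p₁ := R u (Pi.single i 1) with hp₁
  have hp₁P : p₁ ∈ H := hH (R_mem_P k _ _ h1 (Or.inr (by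
    intro j' hj'
    have : j' ≠ i := by
      intro h; rw [h] at hj'; omega
    simp [this])))
  set φ : Fin n → F := ψ - ψ i • Pi.single i 1 with hφ
  have hφi : φ i = 0 := by simp [hφ]
  have hφj : φ j = ψ j := by simp [hφ, hij.symm]
  have e1 : (p₁ : Matrix (Fin n) (Fin n) F) *ᵥ a = Pi.single i 1 := by
    rw [hp₁, R_coe _ _ h1, R_mulVec, single_dotProduct, hu, one_mul, smul_smul, mul_inv_cancel₀ hai, one_smul]
    abel
  have e2 : φ ᵥ* (p₁ : Matrix (Fin n) (Fin n) F) = ψ := by
    rw [hp₁, R_coe _ _ h1, vecMul_R]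
    have : φ ⬝ᵥ u = ψ i := by
      rw [hu, dotProduct_smul, dotProduct_sub, dotProduct_single, hφi, hφ, sub_dotProduct, hψa, smul_dotProduct,
        single_dotProduct]
      simp only [smul_eq_mul]
      field_simp
      ring
    rw [this, hφ]
    abel
  have c1 := conj_R p₁ a ψ φ (by rw [hψa, add_zero]; exact one_ne_zero) e2
  rw [e1] at c1
  -- second conjugation
  have h2 : 1 + (φ - Pi.single j 1) ⬝ᵥ (Pi.single j 1 : Fin n → F) ≠ 0 := by
    rw [dotProduct_single]
    simp only [Pi.sub_apply, Pi.single_eq_same, mul_one, hφj]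
    rw [add_sub_cancel]
    exact hψj
  set p₂ := R (Pi.single j 1) (φ - Pi.single j 1) with hp₂
  have hp₂P : p₂ ∈ H := hH (R_mem_P k _ _ h2 (Or.inl (by
    intro i' hi'
    have : i' ≠ j := by
      intro h; rw [h] at hi'; omega
    simp [this])))
  have e3 : (p₂ : Matrix (Fin n) (Fin n) F) *ᵥ (Pi.single i 1) = Pi.single i 1 := by
    rw [hp₂, R_coe _ _ h2, R_mulVec, dotProduct_single]
    simp [hφi, hij]
  have e4 : (Pi.single j 1 : Fin n → F) ᵥ* (p₂ : Matrix (Fin n) (Fin n) F) = φ := by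
    rw [hp₂, R_coe _ _ h2, vecMul_R, single_dotProduct]
    simp
  have c2 := conj_R p₂ (Pi.single i 1) φ (Pi.single j 1) (by
    rw [dotProduct_single, hφi]; simp) e4
  rw [e3] at c2
  rw [← c2, ← c1]
  constructor
  · intro h
    exact H.mul_mem (H.mul_mem hp₂P (H.mul_mem (H.mul_mem hp₁P h) (H.inv_mem hp₁P))) (H.inv_mem hp₂P)
  · intro h
    have h3 : p₁ * R a ψ * p₁⁻¹ ∈ H := by
      have := H.mul_mem (H.mul_mem (H.inv_mem hp₂P) h) hp₂P
      simpa [mul_assoc] using this
    have := H.mul_mem (H.mul_mem (H.inv_mem hp₁P) h3) hp₁P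
    simpa [mul_assoc] using this

end

/-- Maximal parabolics are maximal: over a finite field, for 0 < k < n the stabiliser in GL_n of the span of the first k coordinate vectors is a maximal proper subgroup. -/
theorem result {F : Type*} [Field F] [Finite F] (n k : ℕ) (hk0 : 0 < k) (hkn : k < n) : IsCoatom (Cfsg.stabilizing (Cfsg.glToMat (Fin n) F) {v : Fin n → F | ∀ i : Fin n, k ≤ (i : ℕ) → v i = 0}) := by
  classical
  have hdot : ∀ (i j : Fin n) (c : F), i ≠ j → 1 + (Pi.single j 1 : Fin n → F) ⬝ᵥ (c • Pi.single i 1) ≠ 0 := by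
    intro i j c hij
    rw [single_dotProduct]
    simp [hij.symm]
  have hdot1 : ∀ (i j : Fin n), i ≠ j → 1 + (Pi.single j 1 : Fin n → F) ⬝ᵥ (Pi.single i 1) ≠ 0 := by
    intro i j hij
    rw [single_dotProduct]
    simp [hij.symm]
  constructor
  · intro htop
    let i₀ : Fin n := ⟨k, hkn⟩
    let j₀ : Fin n := ⟨0, by omega⟩
    have hij : i₀ ≠ j₀ := by
      intro h
      have := congrArg Fin.val h
      simp only [i₀, j₀] at this
      omega
    have h1 : R (Pi.single i₀ (1 : F)) (Pi.single j₀ 1) ∈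
        Cfsg.stabilizing (Cfsg.glToMat (Fin n) F) {v : Fin n → F | ∀ i : Fin n, k ≤ (i : ℕ) → v i = 0} := by
      rw [htop]; trivial
    rw [mem_stab_coord_iff] at h1
    have h2 := h1 i₀ j₀ le_rfl hk0
    rw [R_coe _ _ (hdot1 _ _ hij), Matrix.add_apply, Matrix.one_apply_ne hij, vecMulVec_apply] at h2
    simp at h2
  · intro H hPH
    obtain ⟨hle, g, hgH, hgP⟩ := SetLike.lt_iff_le_and_exists.mp hPH
    rw [mem_stab_coord_iff] at hgP
    push Not at hgP
    obtain ⟨i, j, hi, hj, hgij⟩ := hgP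
    have hij : i ≠ j := by
      intro h; rw [h] at hi; omega
    have hs : ∃ s, s ≠ j ∧ ((g⁻¹ : Matrix.GeneralLinearGroup (Fin n) F) : Matrix (Fin n) (Fin n) F) s j ≠ 0 := by
      by_contra hcon
      push Not at hcon
      have hmul : (g : Matrix (Fin n) (Fin n) F) *
          ((g⁻¹ : Matrix.GeneralLinearGroup (Fin n) F) : Matrix (Fin n) (Fin n) F) = 1 := by
        rw [Units.mul_inv]
      have h1 := congrFun (congrFun hmul i) j
      rw [Matrix.mul_apply, Finset.sum_eq_single j, Matrix.one_apply_ne hij] at h1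
      · have h2 := (mul_eq_zero.mp h1).resolve_left hgij
        have h3 := congrFun (congrFun hmul j) j
        rw [Matrix.mul_apply, Finset.sum_eq_zero, Matrix.one_apply_eq] at h3
        · exact zero_ne_one h3
        · intro s _
          by_cases hsj : s = j
          · rw [hsj, h2, mul_zero]
          · rw [hcon s hsj, mul_zero]
      · intro s _ hsj
        rw [hcon s hsj, mul_zero]
      · intro h; exact absurd (Finset.mem_univ _) h
    obtain ⟨s, hsj, hs⟩ := hs
    have ht : R (Pi.single j (1 : F)) (Pi.single s 1) ∈ H := hle (R_mem_P k _ _ (hdot1 _ _ hsj.symm) (Or.inl (by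
      intro i' hi'
      have : i' ≠ j := by
        intro h; rw [h] at hi'; omega
      simp [this])))
    set φ : Fin n → F := Pi.single s 1 ᵥ* ((g⁻¹ : Matrix.GeneralLinearGroup (Fin n) F) : Matrix (Fin n) (Fin n) F)
      with hφ
    have hφg : φ ᵥ* (g : Matrix (Fin n) (Fin n) F) = Pi.single s 1 := by
      rw [hφ, Matrix.vecMul_vecMul, Units.inv_mul, Matrix.vecMul_one]
    have c := conj_R g (Pi.single j 1) (Pi.single s 1) φ (hdot1 _ _ hsj.symm) hφg
    have h1 : R ((g : Matrix (Fin n) (Fin n) F) *ᵥ Pi.single j 1) φ ∈ H := by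
      rw [← c]
      exact H.mul_mem (H.mul_mem hgH ht) (H.inv_mem hgH)
    have h2 : R (Pi.single i (1 : F)) (Pi.single j 1) ∈ H := by
      refine (lemmaK k H hle i j hi hj _ _ ?_ ?_ ?_).mp h1
      · simpa using hgij
      · rw [hφ]
        simpa using hs
      · rw [Matrix.dotProduct_mulVec, hφg, single_dotProduct]
        simp [hsj]
    have h3 : ∀ i' j' : Fin n, k ≤ (i' : ℕ) → (j' : ℕ) < k → ∀ c : F, R (c • Pi.single i' (1 : F)) (Pi.single j' 1) ∈ H := by
      intro i' j' hi' hj' c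
      have hij' : i' ≠ j' := by
        intro h; rw [h] at hi'; omega
      let a : Fin n → F := fun l => if l = i ∨ l = i' then 1 else 0
      let ψ : Fin n → F := fun l => if l = j ∨ l = j' then 1 else 0
      have hψa : ψ ⬝ᵥ a = 0 := by
        rw [dotProduct]
        apply Finset.sum_eq_zero
        intro l _
        simp only [a, ψ]
        by_cases hl : l = i ∨ l = i'
        · have hlk : k ≤ (l : ℕ) := by
            rcases hl with h' | h' <;> rw [h'] <;> assumption
          have : ¬ (l = j ∨ l = j') := by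
            rintro (h | h) <;> rw [h] at hlk <;> omega
          rw [if_neg this, zero_mul]
        · rw [if_neg hl, mul_zero]
      have e1 : R a ψ ∈ H := (lemmaK k H hle i j hi hj a ψ (by simp [a]) (by simp [ψ]) hψa).mpr h2
      have e2 : R (Pi.single i' (1 : F)) (Pi.single j' 1) ∈ H :=
        (lemmaK k H hle i' j' hi' hj' a ψ (by simp [a]) (by simp [ψ]) hψa).mp e1
      by_cases hc : c = 0
      · have : (R (c • (Pi.single i' (1 : F) : Fin n → F)) (Pi.single j' 1) :
            Matrix.GeneralLinearGroup (Fin n) F) = 1 := by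
          apply Units.ext
          rw [R_coe _ _ (hdot _ _ _ hij'), hc]
          simp
        rw [this]
        exact H.one_mem
      · refine (lemmaK k H hle i' j' hi' hj' _ _ ?_ ?_ ?_).mpr e2
        · simpa using hc
        · simp
        · rw [single_dotProduct]
          simp [hij'.symm]
    rw [eq_top_iff]
    intro x _
    refine Matrix.diagonal_transvection_induction_of_det_ne_zero
      (fun M => ∀ x : Matrix.GeneralLinearGroup (Fin n) F, (x : Matrix (Fin n) (Fin n) F) = M → x ∈ H)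
      (x : Matrix (Fin n) (Fin n) F) (Matrix.GeneralLinearGroup.det x).ne_zero ?_ ?_ ?_ x rfl
    · intro D _ y hy
      apply hle
      rw [mem_stab_coord_iff]
      intro i' j' hi' hj'
      have hij' : i' ≠ j' := by
        intro h; rw [h] at hi'; omega
      rw [hy, Matrix.diagonal_apply_ne _ hij']
    · intro t y hy
      have hy' : y = R (t.c • Pi.single t.i (1 : F)) (Pi.single t.j 1) := by
        apply Units.ext
        rw [hy, R_coe _ _ (hdot _ _ _ t.hij), Matrix.TransvectionStruct.toMatrix, Matrix.transvection]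
        congr 1
        ext a b
        simp only [Matrix.single_apply, vecMulVec_apply, Pi.smul_apply, Pi.single_apply, smul_eq_mul]
        by_cases h1 : a = t.i
        · by_cases h2 : b = t.j
          · rw [if_pos ⟨h1.symm, h2.symm⟩, if_pos h1, if_pos h2]
            ring
          · rw [if_neg (fun h => h2 h.2.symm), if_neg h2, mul_zero]
        · rw [if_neg (fun h => h1 h.1.symm), if_neg h1, mul_zero, zero_mul]
      rw [hy']
      by_cases h1 : k ≤ (t.i : ℕ)
      · by_cases h2 : (t.j : ℕ) < k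
        · exact h3 _ _ h1 h2 _
        · apply hle
          apply R_mem_P k _ _ (hdot _ _ _ t.hij)
          right
          intro j' hj'
          have : j' ≠ t.j := by
            intro h; rw [h] at hj'; omega
          simp [this]
      · apply hle
        apply R_mem_P k _ _ (hdot _ _ _ t.hij)
        left
        intro i' hi'
        have : i' ≠ t.i := by
          intro h; rw [h] at hi'; omega
        simp [this]
    · intro A B hA hB hPA hPB y hy
      have : y = Matrix.GeneralLinearGroup.mkOfDetNeZero A hA * Matrix.GeneralLinearGroup.mkOfDetNeZero B hB := by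
        apply Units.ext
        rw [hy]
        rfl
      rw [this]
      exact H.mul_mem (hPA _ rfl) (hPB _ rfl)

end Cfsg.Agent.S0772
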