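import Cfsg.Statements.S0773
-- import your own Cfsg.Agent.* helpers here
import Cfsg.Agent.Lib.Helper17.Stab

set_option autoImplicit false
open Cfsg

namespace Cfsg.Agent.S0773

open Cfsg.Agent.Lib.Helper17 Matrix

section
variable {F : Type*} [Field F] {n : ℕ}

/-- transpose along the anti-diagonal -/
def sharp (M : Matrix (Fin n) (Fin n) F) : Matrix (Fin n) (Fin n) F := Mᵀ.submatrix Fin.revPerm Fin.revPerm

omit [Field F] in
theorem sharp_apply (M : Matrix (Fin n) (Fin n) F) (i j : Fin n) : sharp M i j = M (Fin.rev j) (Fin.rev i) := rfl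

theorem sharp_mul (M N : Matrix (Fin n) (Fin n) F) : sharp (M * N) = sharp N * sharp M := by
  simp only [sharp, Matrix.transpose_mul, Matrix.submatrix_mul_equiv]

theorem sharp_one : sharp (1 : Matrix (Fin n) (Fin n) F) = 1 := by
  simp [sharp]

omit [Field F] in
theorem sharp_sharp (M : Matrix (Fin n) (Fin n) F) : sharp (sharp M) = M := by
  ext i j
  simp [sharp_apply]

/-- The inverse-transpose automorphism twisted by the reversal. -/
def τ : Matrix.GeneralLinearGroup (Fin n) F ≃* Matrix.GeneralLinearGroup (Fin n) F where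
  toFun g := ⟨sharp ((g⁻¹ : Matrix.GeneralLinearGroup (Fin n) F) : Matrix (Fin n) (Fin n) F),
    sharp (g : Matrix (Fin n) (Fin n) F), by rw [← sharp_mul, Units.mul_inv, sharp_one],
    by rw [← sharp_mul, Units.inv_mul, sharp_one]⟩
  invFun g := ⟨sharp ((g⁻¹ : Matrix.GeneralLinearGroup (Fin n) F) : Matrix (Fin n) (Fin n) F),
    sharp (g : Matrix (Fin n) (Fin n) F), by rw [← sharp_mul, Units.mul_inv, sharp_one],
    by rw [← sharp_mul, Units.inv_mul, sharp_one]⟩
  left_inv g := by
    apply Units.ext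
    exact sharp_sharp _
  right_inv g := by
    apply Units.ext
    exact sharp_sharp _
  map_mul' g h := by
    apply Units.ext
    simp only [_root_.mul_inv_rev, Units.val_mul, sharp_mul]

theorem τ_symm_apply (g : Matrix.GeneralLinearGroup (Fin n) F) (i j : Fin n) :
    ((τ.symm g : Matrix.GeneralLinearGroup (Fin n) F) : Matrix (Fin n) (Fin n) F) i j =
      ((g⁻¹ : Matrix.GeneralLinearGroup (Fin n) F) : Matrix (Fin n) (Fin n) F) (Fin.rev j) (Fin.rev i) := rfl

theorem finrank_coordSub {k : ℕ} (hk : k ≤ n) : Module.finrank F (coordSub F n k) = k := by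
  let e : coordSub F n k ≃ₗ[F] (Fin k → F) :=
    { toFun := fun v a => v.1 (Fin.castLE hk a)
      map_add' := fun _ _ => rfl
      map_smul' := fun _ _ => rfl
      invFun := fun w => ⟨fun i => if h : (i : ℕ) < k then w ⟨i, h⟩ else 0, by
        intro i hi
        simp only
        rw [dif_neg (by omega)]⟩
      left_inv := by
        intro v
        apply Subtype.ext
        funext i
        simp only
        by_cases h : (i : ℕ) < k
        · rw [dif_pos h]
          rfl
        · rw [dif_neg h]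
          exact (v.2 i (by omega)).symm
      right_inv := by
        intro w
        funext a
        simp }
  rw [e.finrank_eq, Module.finrank_fin_fun]

theorem exists_stab_not_stab (U U' : Submodule F (Fin n → F)) {x : Fin n → F} (hxU' : x ∈ U') (hxU : x ∉ U)
    (hU' : U' ≠ ⊤) : ∃ h : Matrix.GeneralLinearGroup (Fin n) F,
      h ∈ Cfsg.stabilizing (Cfsg.glToMat (Fin n) F) (U : Set (Fin n → F)) ∧
      h ∉ Cfsg.stabilizing (Cfsg.glToMat (Fin n) F) (U' : Set (Fin n → F)) := by
  obtain ⟨f, hfx, hfU⟩ := Submodule.exists_le_ker_of_notMem hxU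
  obtain ⟨y₀, hy₀⟩ : ∃ y, y ∉ U' := by
    by_contra hcon
    push Not at hcon
    exact hU' (eq_top_iff.mpr (fun v _ => hcon v))
  let φ : (Fin n → F) →ₗ[F] F := (f x)⁻¹ • f
  have hφx : φ x = 1 := by simp [φ, hfx]
  have hφU : ∀ u ∈ U, φ u = 0 := by
    intro u hu
    have : f u = 0 := hfU hu
    simp [φ, this]
  obtain ⟨y, hy, hφy⟩ : ∃ y, y ∉ U' ∧ 1 + φ y ≠ 0 := by
    by_cases h1 : 1 + φ y₀ = 0
    · refine ⟨y₀ + x, ?_, ?_⟩
      · intro h
        apply hy₀
        have := U'.sub_mem h hxU'
        simpa using this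
      · rw [map_add, hφx, ← add_assoc, h1, zero_add]
        exact one_ne_zero
    · exact ⟨y₀, hy₀, h1⟩
  let L : (Fin n → F) →ₗ[F] (Fin n → F) := LinearMap.id + φ.smulRight y
  let L' : (Fin n → F) →ₗ[F] (Fin n → F) := LinearMap.id - ((1 + φ y)⁻¹ • φ).smulRight y
  have hL : ∀ v, L v = v + φ v • y := fun v => rfl
  have hL' : ∀ v, L' v = v - ((1 + φ y)⁻¹ * φ v) • y := fun v => rfl
  have h1 : L ∘ₗ L' = LinearMap.id := by
    apply LinearMap.ext
    intro v
    simp only [LinearMap.comp_apply, hL, hL', map_sub, map_smul, smul_eq_mul, LinearMap.id_apply]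
    have : φ v - (1 + φ y)⁻¹ * φ v * φ y = (1 + φ y)⁻¹ * φ v := by
      field_simp
      ring
    rw [this]
    abel
  have h2 : L' ∘ₗ L = LinearMap.id := by
    apply LinearMap.ext
    intro v
    simp only [LinearMap.comp_apply, hL, hL', map_add, map_smul, smul_eq_mul, LinearMap.id_apply]
    have : (1 + φ y)⁻¹ * (φ v + φ v * φ y) = φ v := by
      field_simp
    rw [this]
    abel
  let h : Matrix.GeneralLinearGroup (Fin n) F :=
    ⟨LinearMap.toMatrix' L, LinearMap.toMatrix' L', by rw [← LinearMap.toMatrix'_comp, h1, LinearMap.toMatrix'_id],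
      by rw [← LinearMap.toMatrix'_comp, h2, LinearMap.toMatrix'_id]⟩
  have hh : ∀ v, Cfsg.glToMat (Fin n) F h *ᵥ v = L v := fun v => LinearMap.toMatrix'_mulVec L v
  refine ⟨h, ?_, ?_⟩
  · apply mem_stabilizing_of_forall
    intro v hv
    rw [hh, hL, hφU v hv, zero_smul, add_zero]
    exact hv
  · intro hmem
    have := (hmem x).mp hxU'
    rw [hh, hL, hφx, one_smul] at this
    apply hy
    have h3 := U'.sub_mem this hxU'
    simpa using h3

theorem eq_of_stab_eq (U U' : Submodule F (Fin n → F)) (hU : U ≠ ⊤) (hU' : U' ≠ ⊤)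
    (h : Cfsg.stabilizing (Cfsg.glToMat (Fin n) F) (U : Set (Fin n → F)) =
      Cfsg.stabilizing (Cfsg.glToMat (Fin n) F) (U' : Set (Fin n → F))) : U = U' := by
  apply le_antisymm
  · intro x hx
    by_contra hx'
    obtain ⟨g, hg1, hg2⟩ := exists_stab_not_stab U' U hx hx' hU
    exact hg2 (h ▸ hg1)
  · intro x hx
    by_contra hx'
    obtain ⟨g, hg1, hg2⟩ := exists_stab_not_stab U U' hx hx' hU'
    exact hg2 (h ▸ hg1)

end

/-- The stabilisers in GL_n(F), F finite, of the coordinate subspaces of dimensions k and n − k are isomorphic groups, but when 2k ≠ n (and 0 < k < n) no element of GL_n conjugates one onto the other. -/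
theorem result {F : Type*} [Field F] [Finite F] (n k : ℕ) (hk0 : 0 < k) (hkn : k < n) (h2 : 2 * k ≠ n) : Nonempty (↥(Cfsg.stabilizing (Cfsg.glToMat (Fin n) F) {v : Fin n → F | ∀ i : Fin n, k ≤ (i : ℕ) → v i = 0}) ≃* ↥(Cfsg.stabilizing (Cfsg.glToMat (Fin n) F) {v : Fin n → F | ∀ i : Fin n, n - k ≤ (i : ℕ) → v i = 0})) ∧ ∀ g : Matrix.GeneralLinearGroup (Fin n) F, (Cfsg.stabilizing (Cfsg.glToMat (Fin n) F) {v : Fin n → F | ∀ i : Fin n, k ≤ (i : ℕ) → v i = 0}).map (MulAut.conj g).toMonoidHom ≠ Cfsg.stabilizing (Cfsg.glToMat (Fin n) F) {v : Fin n → F | ∀ i : Fin n, n - k ≤ (i : ℕ) → v i = 0} := by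
  constructor
  · have hmap : (Cfsg.stabilizing (Cfsg.glToMat (Fin n) F) {v : Fin n → F | ∀ i : Fin n, k ≤ (i : ℕ) → v i = 0}).map
        (τ (F := F) (n := n)).toMonoidHom =
        Cfsg.stabilizing (Cfsg.glToMat (Fin n) F) {v : Fin n → F | ∀ i : Fin n, n - k ≤ (i : ℕ) → v i = 0} := by
      ext x
      rw [Subgroup.mem_map_equiv, ← Subgroup.inv_mem_iff (x := x), mem_stab_coord_iff, mem_stab_coord_iff]
      constructor
      · intro h i j hi hj
        have := h (Fin.rev j) (Fin.rev i) (by rw [Fin.val_rev]; omega) (by rw [Fin.val_rev]; omega)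
        rw [τ_symm_apply, Fin.rev_rev, Fin.rev_rev] at this
        exact this
      · intro h i j hi hj
        rw [τ_symm_apply]
        exact h _ _ (by rw [Fin.val_rev]; omega) (by rw [Fin.val_rev]; have := i.2; omega)
    exact ⟨((τ (F := F) (n := n)).subgroupMap _).trans (MulEquiv.subgroupCongr hmap)⟩
  · intro g hg
    let U : Submodule F (Fin n → F) := (coordSub F n k).map (Matrix.toLin' (g : Matrix (Fin n) (Fin n) F))
    have hginj : Function.Injective (Matrix.toLin' (g : Matrix (Fin n) (Fin n) F)) := by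
      intro a b hab
      simp only [Matrix.toLin'_apply] at hab
      have := congrArg (fun x => ((g⁻¹ : Matrix.GeneralLinearGroup (Fin n) F) : Matrix (Fin n) (Fin n) F) *ᵥ x) hab
      simpa only [Matrix.mulVec_mulVec, Units.inv_mul, Matrix.one_mulVec] using this
    have hUfin : Module.finrank F U = k := by
      rw [← (Submodule.equivMapOfInjective _ hginj (coordSub F n k)).finrank_eq, finrank_coordSub hkn.le]
    have hU'fin : Module.finrank F (coordSub F n (n - k)) = n - k := finrank_coordSub (Nat.sub_le n k)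
    have hUtop : U ≠ ⊤ := by
      intro h
      rw [h, finrank_top, Module.finrank_fin_fun] at hUfin
      omega
    have hU'top : coordSub F n (n - k) ≠ ⊤ := by
      intro h
      rw [h, finrank_top, Module.finrank_fin_fun] at hU'fin
      omega
    have hstab : Cfsg.stabilizing (Cfsg.glToMat (Fin n) F) (U : Set (Fin n → F)) =
        (Cfsg.stabilizing (Cfsg.glToMat (Fin n) F) {v : Fin n → F | ∀ i : Fin n, k ≤ (i : ℕ) → v i = 0}).map
          (MulAut.conj g).toMonoidHom := by
      ext x
      rw [Subgroup.mem_map_equiv, ← coe_coordSub, mem_stabilizing_iff_forall, mem_stabilizing_iff_forall]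
      simp only [MulAut.conj_symm_apply, map_mul, Units.coeHom_apply]
      constructor
      · intro h v hv
        obtain ⟨s, hs, hsv⟩ := h _ (Submodule.mem_map_of_mem (f := Matrix.toLin' (g : Matrix (Fin n) (Fin n) F)) hv)
        simp only [Matrix.toLin'_apply] at hsv
        rw [← Matrix.mulVec_mulVec, ← Matrix.mulVec_mulVec, ← hsv, Matrix.mulVec_mulVec, Units.inv_mul,
          Matrix.one_mulVec]
        exact hs
      · rintro h _ ⟨s, hs, rfl⟩
        refine ⟨_, h s hs, ?_⟩
        simp only [Matrix.toLin'_apply, Matrix.mulVec_mulVec, ← mul_assoc, Units.mul_inv, one_mul]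
    have heq : U = coordSub F n (n - k) := by
      apply eq_of_stab_eq U _ hUtop hU'top
      rw [hstab, hg]
      rfl
    rw [heq, hU'fin] at hUfin
    omega

end Cfsg.Agent.S0773
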