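import Cfsg.Statements.S0774
-- import your own Cfsg.Agent.* helpers here
import Cfsg.Agent.Lib.Helper17.Stab
import Cfsg.Agent.S0769

set_option autoImplicit false
open Cfsg

namespace Cfsg.Agent.S0774

open Cfsg.Agent.Lib.Helper17 Matrix

section
variable {F : Type*} [Field F] {m : ℕ}

/-- the members of the standard isotropic flag -/
def flagSub (F : Type*) [Field F] (m : ℕ) (k : Fin m) : Submodule F (Fin m ⊕ Fin m → F) where
  carrier := {v | (∀ i : Fin m, (k : ℕ) < (i : ℕ) → v (Sum.inl i) = 0) ∧ ∀ i : Fin m, v (Sum.inr i) = 0}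
  add_mem' := by
    intro a b ha hb
    refine ⟨fun i hi => ?_, fun i => ?_⟩
    · simp [ha.1 i hi, hb.1 i hi]
    · simp [ha.2 i, hb.2 i]
  zero_mem' := ⟨fun _ _ => rfl, fun _ => rfl⟩
  smul_mem' := by
    intro c a ha
    refine ⟨fun i hi => ?_, fun i => ?_⟩
    · simp [ha.1 i hi]
    · simp [ha.2 i]

theorem mem_borel_iff (g : Matrix.symplecticGroup (Fin m) F) :
    g ∈ (⨅ k : Fin m, Cfsg.stabilizing (Cfsg.spToMat m F) {v : Fin m ⊕ Fin m → F |
      (∀ i : Fin m, (k : ℕ) < (i : ℕ) → v (Sum.inl i) = 0) ∧ ∀ i : Fin m, v (Sum.inr i) = 0}) ↔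
    (∀ i j : Fin m, (g : Matrix (Fin m ⊕ Fin m) (Fin m ⊕ Fin m) F) (Sum.inr i) (Sum.inl j) = 0) ∧
    (∀ i j : Fin m, j < i → (g : Matrix (Fin m ⊕ Fin m) (Fin m ⊕ Fin m) F) (Sum.inl i) (Sum.inl j) = 0) := by
  rw [Subgroup.mem_iInf]
  have key : ∀ k : Fin m, g ∈ Cfsg.stabilizing (Cfsg.spToMat m F) {v : Fin m ⊕ Fin m → F |
      (∀ i : Fin m, (k : ℕ) < (i : ℕ) → v (Sum.inl i) = 0) ∧ ∀ i : Fin m, v (Sum.inr i) = 0} ↔
      ∀ v ∈ flagSub F m k, (g : Matrix (Fin m ⊕ Fin m) (Fin m ⊕ Fin m) F) *ᵥ v ∈ flagSub F m k :=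
    fun k => mem_stabilizing_iff_forall (Cfsg.spToMat m F) (flagSub F m k) g
  simp only [key]
  constructor
  · intro h
    have h1 : ∀ j : Fin m, (Pi.single (Sum.inl j) 1 : Fin m ⊕ Fin m → F) ∈ flagSub F m j := by
      intro j
      refine ⟨fun i hi => ?_, fun i => ?_⟩
      · have : i ≠ j := by
          intro h'; rw [h'] at hi; omega
        simp [this]
      · simp
    refine ⟨fun i j => ?_, fun i j hij => ?_⟩
    · have := (h j _ (h1 j)).2 i
      simpa using this
    · have := (h j _ (h1 j)).1 i hij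
      simpa using this
  · rintro ⟨h1, h2⟩ k v hv
    refine ⟨fun i hi => ?_, fun i => ?_⟩
    · rw [Matrix.mulVec, dotProduct, Fintype.sum_sum_type]
      rw [Finset.sum_eq_zero, Finset.sum_eq_zero, add_zero]
      · intro j _
        rw [hv.2 j, mul_zero]
      · intro j _
        by_cases hj : (k : ℕ) < (j : ℕ)
        · rw [hv.1 j hj, mul_zero]
        · rw [h2 i j (by rw [Fin.lt_def]; omega), zero_mul]
    · rw [Matrix.mulVec, dotProduct, Fintype.sum_sum_type]
      rw [Finset.sum_eq_zero, Finset.sum_eq_zero, add_zero]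
      · intro j _
        rw [hv.2 j, mul_zero]
      · intro j _
        rw [h1 i j, zero_mul]

theorem param_mem (L : Matrix.GeneralLinearGroup (Fin m) F) (S : Matrix (Fin m) (Fin m) F) (hS : Sᵀ = S) :
    fromBlocks (L : Matrix (Fin m) (Fin m) F)ᵀ ((L : Matrix (Fin m) (Fin m) F)ᵀ * S) 0
      ((L⁻¹ : Matrix.GeneralLinearGroup (Fin m) F) : Matrix (Fin m) (Fin m) F) ∈ Matrix.symplecticGroup (Fin m) F := by
  have h1 : (L : Matrix (Fin m) (Fin m) F) * ((L⁻¹ : Matrix.GeneralLinearGroup (Fin m) F) : Matrix (Fin m) (Fin m) F) = 1 := by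
    rw [← Units.val_mul, mul_inv_cancel, Units.val_one]
  rw [SymplecticGroup.fromBlocks_mem_iff]
  refine ⟨by simp, ?_, ?_⟩
  · rw [Matrix.transpose_mul, Matrix.transpose_transpose, hS, Matrix.mul_assoc, h1, Matrix.mul_one,
      ← Matrix.mul_assoc, ← Matrix.transpose_mul, h1, Matrix.transpose_one, Matrix.one_mul]
  · rw [Matrix.transpose_transpose, h1]
    simp

end

/-- Borel subgroup of the symplectic group: the elements of Sp_2m(q) stabilising each of the totally isotropic coordinate subspaces ⟨e_0, ..., e_k⟩ (k < m) form a subgroup of order q^(m²) (q − 1)^m. -/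
theorem result {F : Type*} [Field F] [Fintype F] {q : ℕ} (hF : Fintype.card F = q) (m : ℕ) : Nat.card ↥(⨅ k : Fin m, Cfsg.stabilizing (Cfsg.spToMat m F) {v : Fin m ⊕ Fin m → F | (∀ i : Fin m, (k : ℕ) < (i : ℕ) → v (Sum.inl i) = 0) ∧ ∀ i : Fin m, v (Sum.inr i) = 0}) = q ^ (m ^ 2) * (q - 1) ^ m := by
  classical
  let UT := {g : Matrix.GeneralLinearGroup (Fin m) F // ∀ i j : Fin m, i < j → (g : Matrix (Fin m) (Fin m) F) i j = 0}
  let Sy := {f : Fin m → Fin m → F // ∀ a b, f a b = f b a}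
  have hUT : Nat.card UT = q ^ (m * (m - 1) / 2) * (q - 1) ^ m := Cfsg.Agent.S0769.result hF m
  have hSy : Nat.card Sy = q ^ ((m + 1) * m / 2) := by
    rw [Nat.card_congr Sym2.lift, Nat.card_eq_fintype_card, Fintype.card_fun, hF, Sym2.card, Fintype.card_fin,
      Nat.choose_two_right, Nat.add_sub_cancel]
  let f : UT × Sy → ↥(⨅ k : Fin m, Cfsg.stabilizing (Cfsg.spToMat m F) {v : Fin m ⊕ Fin m → F |
      (∀ i : Fin m, (k : ℕ) < (i : ℕ) → v (Sum.inl i) = 0) ∧ ∀ i : Fin m, v (Sum.inr i) = 0}) := fun p =>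
    ⟨⟨_, param_mem p.1.1 (Matrix.of p.2.1) (by ext a b; exact p.2.2 b a)⟩, by
      rw [mem_borel_iff]
      refine ⟨fun i j => rfl, fun i j hij => ?_⟩
      exact p.1.2 j i hij⟩
  have hf : ∀ p, ((f p : Matrix.symplecticGroup (Fin m) F) : Matrix (Fin m ⊕ Fin m) (Fin m ⊕ Fin m) F) =
      fromBlocks (p.1.1 : Matrix (Fin m) (Fin m) F)ᵀ ((p.1.1 : Matrix (Fin m) (Fin m) F)ᵀ * Matrix.of p.2.1) 0
      ((p.1.1⁻¹ : Matrix.GeneralLinearGroup (Fin m) F) : Matrix (Fin m) (Fin m) F) := fun p => rfl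
  have hbij : Function.Bijective f := by
    constructor
    · intro p p' h
      have h1 := hf p
      rw [h, hf p', Matrix.fromBlocks_inj] at h1
      obtain ⟨e1, e2, -, -⟩ := h1
      have e3 : p'.1.1 = p.1.1 := Units.ext (Matrix.transpose_injective e1)
      have e4 : Matrix.of p'.2.1 = Matrix.of p.2.1 := by
        rw [e3] at e2
        have hu : IsUnit (p.1.1 : Matrix (Fin m) (Fin m) F)ᵀ := by
          rw [Matrix.isUnit_transpose]
          exact p.1.1.isUnit
        exact hu.mul_left_cancel e2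
      exact (Prod.ext (Subtype.ext e3) (Subtype.ext (Matrix.of.injective e4))).symm
    · rintro ⟨g, hg⟩
      have hg' := (mem_borel_iff g).mp hg
      set A := (g : Matrix (Fin m ⊕ Fin m) (Fin m ⊕ Fin m) F).toBlocks₁₁ with hA
      set B := (g : Matrix (Fin m ⊕ Fin m) (Fin m ⊕ Fin m) F).toBlocks₁₂ with hB
      set D := (g : Matrix (Fin m ⊕ Fin m) (Fin m ⊕ Fin m) F).toBlocks₂₂ with hD
      have hC : (g : Matrix (Fin m ⊕ Fin m) (Fin m ⊕ Fin m) F).toBlocks₂₁ = 0 := by
        ext i j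
        exact hg'.1 i j
      have hgb : (g : Matrix (Fin m ⊕ Fin m) (Fin m ⊕ Fin m) F) = fromBlocks A B 0 D := by
        rw [← hC]
        exact (Matrix.fromBlocks_toBlocks _).symm
      have hmem := g.2
      rw [hgb, SymplecticGroup.fromBlocks_mem_iff] at hmem
      obtain ⟨-, h2, h3⟩ := hmem
      simp only [Matrix.transpose_zero, Matrix.zero_mul, sub_zero] at h3
      have h3' : D * Aᵀ = 1 := mul_eq_one_comm.mp h3
      let L : Matrix.GeneralLinearGroup (Fin m) F := ⟨Aᵀ, D, h3, h3'⟩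
      have hLinv : ((L⁻¹ : Matrix.GeneralLinearGroup (Fin m) F) : Matrix (Fin m) (Fin m) F) = D := rfl
      refine ⟨(⟨L, fun i j hij => hg'.2 j i hij⟩, ⟨fun a b => (Dᵀ * B) a b, fun a b => ?_⟩), ?_⟩
      · have : (Dᵀ * B)ᵀ = Dᵀ * B := by
          rw [Matrix.transpose_mul, Matrix.transpose_transpose, h2]
        exact (congrFun (congrFun this b) a)
      · apply Subtype.ext
        apply Subtype.ext
        rw [hf]
        refine Eq.trans ?_ hgb.symm
        change fromBlocks Aᵀᵀ (Aᵀᵀ * (Dᵀ * B)) 0 D = _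
        rw [Matrix.transpose_transpose, ← Matrix.mul_assoc]
        have : A * Dᵀ = 1 := by
          have := congrArg Matrix.transpose h3'
          rwa [Matrix.transpose_mul, Matrix.transpose_transpose, Matrix.transpose_one] at this
        rw [this, Matrix.one_mul]
  rw [← Nat.card_congr (Equiv.ofBijective f hbij), Nat.card_prod, hUT, hSy]
  have hexp : m * (m - 1) / 2 + (m + 1) * m / 2 = m ^ 2 := by
    obtain ⟨r, hr⟩ := Nat.even_mul_pred_self m
    have h1 : (m + 1) * m = r + r + 2 * m := by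
      rw [← hr]
      cases m with
      | zero => rfl
      | succ n => simp only [Nat.add_sub_cancel]; ring
    have h2 : m ^ 2 = r + r + m := by
      rw [← hr]
      cases m with
      | zero => rfl
      | succ n => simp only [Nat.add_sub_cancel]; ring
    rw [hr, h1, h2]
    omega
  rw [← hexp, pow_add]
  ring

end Cfsg.Agent.S0774
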