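import Cfsg.Statements.S0775
-- import your own Cfsg.Agent.* helpers here
import Cfsg.Agent.Lib.Helper17.SympFrame
import Cfsg.Agent.S0245

set_option autoImplicit false
open Cfsg

namespace Cfsg.Agent.S0775

open Cfsg.Agent.Lib.Helper17 Matrix

theorem arith (q m : ℕ) : ∀ k, k ≤ m →
    q ^ (k * (k + 1) / 2 + 2 * k * (m - k)) * (q ^ ((m - k) ^ 2) * ∏ i ∈ Finset.range (m - k), (q ^ (2 * (i + 1)) - 1)) *
      ∏ i ∈ Finset.range k, (q ^ (2 * m - i) - q ^ i) =
    q ^ (m ^ 2) * ∏ i ∈ Finset.range m, (q ^ (2 * (i + 1)) - 1) := by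
  intro k
  induction k with
  | zero =>
    intro _
    simp
  | succ k ih =>
    intro hk
    obtain ⟨d, rfl⟩ : ∃ d, m = k + 1 + d := ⟨m - (k + 1), by omega⟩
    have ih' := ih (by omega)
    have e1 : k + 1 + d - k = d + 1 := by omega
    have e2 : k + 1 + d - (k + 1) = d := by omega
    rw [e1] at ih'
    rw [e2, ← ih', Finset.prod_range_succ, Finset.prod_range_succ]
    have e3 : q ^ (2 * (k + 1 + d) - k) - q ^ k = q ^ k * (q ^ (2 * (d + 1)) - 1) := by
      rw [Nat.mul_sub, mul_one, ← pow_add]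
      congr 2
      omega
    have ht : (k + 1) * (k + 1 + 1) / 2 = k * (k + 1) / 2 + (k + 1) := by
      have : (k + 1) * (k + 1 + 1) = k * (k + 1) + 2 * (k + 1) := by ring
      rw [this, Nat.add_mul_div_left _ _ (by norm_num)]
    rw [e3, ht]
    have e4 : q ^ (k * (k + 1) / 2 + 2 * k * (d + 1)) * q ^ ((d + 1) ^ 2) =
        q ^ (k * (k + 1) / 2 + (k + 1) + 2 * (k + 1) * d) * q ^ (d ^ 2) * q ^ k := by
      rw [← pow_add, ← pow_add, ← pow_add]
      congr 1
      ring
    calc _ = (q ^ (k * (k + 1) / 2 + (k + 1) + 2 * (k + 1) * d) * q ^ (d ^ 2) * q ^ k) *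
          ((∏ i ∈ Finset.range d, (q ^ (2 * (i + 1)) - 1)) * (q ^ (2 * (d + 1)) - 1) *
            ∏ i ∈ Finset.range k, (q ^ (2 * (k + 1 + d) - i) - q ^ i)) := by ring
      _ = _ := by
        rw [← e4]
        ring

/-- Maximal parabolics of the symplectic group: if W is a k-dimensional subspace of F^(2m) on which the symplectic form vanishes identically, its stabiliser in Sp_2m(q) has order q^(k(k+1)/2 + 2k(m−k)) · |Sp_(2m−2k)(q)| · |GL_k(q)|. -/
theorem result {F : Type*} [Field F] [Fintype F] {q : ℕ} (hF : Fintype.card F = q) (m k : ℕ) (hk : k ≤ m) (W : Submodule F (Fin m ⊕ Fin m → F)) (hWk : Module.finrank F W = k) (hW : ∀ u ∈ W, ∀ v ∈ W, Cfsg.sympForm m F u v = 0) : Nat.card ↥(Cfsg.stabilizing (Cfsg.spToMat m F) (W : Set (Fin m ⊕ Fin m → F))) = q ^ (k * (k + 1) / 2 + 2 * k * (m - k)) * (q ^ ((m - k) ^ 2) * ∏ i ∈ Finset.range (m - k), (q ^ (2 * (i + 1)) - 1)) * ∏ i : Fin k, (q ^ k - q ^ (i : ℕ)) := by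
  classical
  subst hF
  have hq : 2 ≤ Fintype.card F := Fintype.one_lt_card
  let bW := Module.finBasisOfFinrankEq F W hWk
  let b : Fin k → (Fin m ⊕ Fin m → F) := fun i => (bW i : Fin m ⊕ Fin m → F)
  have hb : LinearIndependent F b := by
    have := bW.linearIndependent.map' W.subtype (Submodule.ker_subtype W)
    exact this
  have hbW : ∀ i, b i ∈ W := fun i => (bW i).2
  have hspan : Submodule.span F (Set.range b) = W := by
    apply Submodule.eq_of_le_of_finrank_eq
    · rw [Submodule.span_le]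
      rintro _ ⟨i, rfl⟩
      exact hbW i
    · rw [finrank_span_eq_card hb, Fintype.card_fin, hWk]
  have hiso : ∀ i j, Cfsg.sympForm m F (b i) (b j) = 0 := fun i j => hW _ (hbW i) _ (hbW j)
  have hchain := card_fixFrame_mul m k b hb hiso
  have hstab : Nat.card ↥(Cfsg.stabilizing (Cfsg.spToMat m F) (W : Set (Fin m ⊕ Fin m → F))) =
      Nat.card {s : Fin k → (Fin m ⊕ Fin m → F) | LinearIndependent F s ∧ ∀ i, s i ∈ W} *
        Nat.card (fixFrame m b) := by
    apply orbit_count (fun (g : Matrix.symplecticGroup (Fin m) F) (s : Fin k → (Fin m ⊕ Fin m → F)) =>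
        fun i => (g : Matrix (Fin m ⊕ Fin m) (Fin m ⊕ Fin m) F) *ᵥ s i)
        (fun g h s => funext fun i => sp_coe_mul_mulVec m g h (s i))
        (fun s => funext fun i => by simp) _ _ b
    · intro g
      constructor
      · intro hg
        refine ⟨?_, funext fun i => hg i⟩
        apply mem_stabilizing_of_forall
        intro v hv
        change (g : Matrix (Fin m ⊕ Fin m) (Fin m ⊕ Fin m) F) *ᵥ v ∈ W
        rw [fixFrame_span hg v (hspan ▸ hv)]
        exact hv
      · rintro ⟨-, h2⟩ i
        exact congrFun h2 i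
    · intro y
      constructor
      · rintro ⟨hy1, hy2⟩
        obtain ⟨A, hA⟩ := sp_witt_frame m b y hb hy1 (by
          intro i j
          rw [hiso, hW _ (hy2 i) _ (hy2 j)])
        refine ⟨A, ?_, funext hA⟩
        apply mem_stabilizing_of_forall
        intro v hv
        change (A : Matrix (Fin m ⊕ Fin m) (Fin m ⊕ Fin m) F) *ᵥ v ∈ W
        rw [← hspan] at hv
        induction hv using Submodule.span_induction with
        | mem w hw =>
          obtain ⟨i, rfl⟩ := hw
          rw [hA]
          exact hy2 i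
        | zero => simp
        | add a c _ _ ha hc =>
          rw [Matrix.mulVec_add]
          exact W.add_mem ha hc
        | smul c a _ ha =>
          rw [Matrix.mulVec_smul]
          exact W.smul_mem c ha
      · rintro ⟨g, hg, rfl⟩
        refine ⟨?_, fun i => (hg (b i)).mp (hbW i)⟩
        have hker : LinearMap.ker (Matrix.toLin' (g : Matrix (Fin m ⊕ Fin m) (Fin m ⊕ Fin m) F)) = ⊥ := by
          rw [LinearMap.ker_eq_bot]
          intro u v huv
          simp only [Matrix.toLin'_apply] at huv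
          have := congrArg (fun v => ((g⁻¹ : Matrix.symplecticGroup (Fin m) F) :
              Matrix (Fin m ⊕ Fin m) (Fin m ⊕ Fin m) F) *ᵥ v) huv
          simpa only [sp_inv_mulVec] using this
        have h3 := hb.map' _ hker
        have h4 : (fun i => (g : Matrix (Fin m ⊕ Fin m) (Fin m ⊕ Fin m) F) *ᵥ b i) =
            (Matrix.toLin' (g : Matrix (Fin m ⊕ Fin m) (Fin m ⊕ Fin m) F)) ∘ b := by
          funext i
          simp only [Function.comp_apply, Matrix.toLin'_apply]
        rw [h4]
        exact h3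
  have hGL : Nat.card {s : Fin k → (Fin m ⊕ Fin m → F) | LinearIndependent F s ∧ ∀ i, s i ∈ W} =
      ∏ i : Fin k, (Fintype.card F ^ k - Fintype.card F ^ (i : ℕ)) := by
    have h1 := card_linearIndependent (K := F) (V := W) (k := k) hWk.ge
    rw [hWk] at h1
    rw [← h1]
    apply Nat.card_congr
    refine
      { toFun := fun s => ⟨fun i => ⟨s.1 i, s.2.2 i⟩, ?_⟩
        invFun := fun s => ⟨fun i => (s.1 i : Fin m ⊕ Fin m → F), ?_, fun i => (s.1 i).2⟩
        left_inv := fun s => rfl
        right_inv := fun s => rfl }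
    · apply LinearIndependent.of_comp W.subtype
      exact s.2.1
    · exact s.2.map' W.subtype (Submodule.ker_subtype W)
  have hSp := Cfsg.Agent.S0245.result (F := F) rfl m
  have hN : 0 < ∏ i ∈ Finset.range k, (Fintype.card F ^ (2 * m - i) - Fintype.card F ^ i) := by
    apply Finset.prod_pos
    intro i hi
    rw [Finset.mem_range] at hi
    exact Nat.sub_pos_of_lt (Nat.pow_lt_pow_right hq (by omega))
  have hC : Nat.card (fixFrame m b) = Fintype.card F ^ (k * (k + 1) / 2 + 2 * k * (m - k)) *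
      (Fintype.card F ^ ((m - k) ^ 2) * ∏ i ∈ Finset.range (m - k), (Fintype.card F ^ (2 * (i + 1)) - 1)) := by
    apply Nat.eq_of_mul_eq_mul_right hN
    rw [hchain, hSp, arith _ m k hk]
  rw [hstab, hGL, hC]
  ring

end Cfsg.Agent.S0775
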