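import Cfsg.Statements.S0776
-- import your own Cfsg.Agent.* helpers here
import Cfsg.Agent.Lib.Helper17.SympCoord
import Cfsg.Agent.Lib.Helper17.Stab

set_option autoImplicit false
open Cfsg

namespace Cfsg.Agent.S0776

open Cfsg.Agent.Lib.Helper17 Matrix

section
variable {F : Type*} [Field F] {m k l : ℕ}

/-- the linear map which is block diagonal in the coordinates `Φ` -/
noncomputable def T (Φ : ((Fin k ⊕ Fin k → F) × (Fin l ⊕ Fin l → F)) ≃ₗ[F] (Fin m ⊕ Fin m → F))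
    (A : Matrix.symplecticGroup (Fin k) F × Matrix.symplecticGroup (Fin l) F) :
    (Fin m ⊕ Fin m → F) →ₗ[F] (Fin m ⊕ Fin m → F) :=
  (Φ : _ →ₗ[F] _) ∘ₗ (LinearMap.prodMap (Matrix.toLin' (A.1 : Matrix (Fin k ⊕ Fin k) (Fin k ⊕ Fin k) F))
    (Matrix.toLin' (A.2 : Matrix (Fin l ⊕ Fin l) (Fin l ⊕ Fin l) F))) ∘ₗ (Φ.symm : _ →ₗ[F] _)

theorem T_apply (Φ : ((Fin k ⊕ Fin k → F) × (Fin l ⊕ Fin l → F)) ≃ₗ[F] (Fin m ⊕ Fin m → F))
    (A : Matrix.symplecticGroup (Fin k) F × Matrix.symplecticGroup (Fin l) F) (v : Fin m ⊕ Fin m → F) :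
    T Φ A v = Φ ((A.1 : Matrix (Fin k ⊕ Fin k) (Fin k ⊕ Fin k) F) *ᵥ (Φ.symm v).1,
      (A.2 : Matrix (Fin l ⊕ Fin l) (Fin l ⊕ Fin l) F) *ᵥ (Φ.symm v).2) := rfl

theorem T_isom (Φ : ((Fin k ⊕ Fin k → F) × (Fin l ⊕ Fin l → F)) ≃ₗ[F] (Fin m ⊕ Fin m → F))
    (hΦ : ∀ p p', Cfsg.sympForm m F (Φ p) (Φ p') = Cfsg.sympForm k F p.1 p'.1 + Cfsg.sympForm l F p.2 p'.2)
    (A : Matrix.symplecticGroup (Fin k) F × Matrix.symplecticGroup (Fin l) F) (u v : Fin m ⊕ Fin m → F) :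
    Cfsg.sympForm m F (T Φ A u) (T Φ A v) = Cfsg.sympForm m F u v := by
  rw [T_apply, T_apply, hΦ]
  simp only [sp_sympForm]
  rw [← hΦ]
  simp

/-- the embedding of the product of symplectic groups -/
noncomputable def Ψ (Φ : ((Fin k ⊕ Fin k → F) × (Fin l ⊕ Fin l → F)) ≃ₗ[F] (Fin m ⊕ Fin m → F))
    (hΦ : ∀ p p', Cfsg.sympForm m F (Φ p) (Φ p') = Cfsg.sympForm k F p.1 p'.1 + Cfsg.sympForm l F p.2 p'.2) :
    Matrix.symplecticGroup (Fin k) F × Matrix.symplecticGroup (Fin l) F →* Matrix.symplecticGroup (Fin m) F where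
  toFun A := spOfLinear m (T Φ A) (T_isom Φ hΦ A)
  map_one' := by
    apply Subtype.ext
    rw [Matrix.ext_iff_mulVec]
    intro v
    rw [spOfLinear_mulVec, T_apply]
    simp
  map_mul' A A' := by
    apply Subtype.ext
    rw [Matrix.ext_iff_mulVec]
    intro v
    rw [sp_coe_mul_mulVec, spOfLinear_mulVec, spOfLinear_mulVec, spOfLinear_mulVec, T_apply, T_apply, T_apply]
    simp only [LinearEquiv.symm_apply_apply, Prod.fst_mul, Prod.snd_mul, sp_coe_mul_mulVec]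

theorem main (W : Submodule F (Fin m ⊕ Fin m → F))
    (Φ : ((Fin k ⊕ Fin k → F) × (Fin l ⊕ Fin l → F)) ≃ₗ[F] (Fin m ⊕ Fin m → F))
    (hΦ : ∀ p p', Cfsg.sympForm m F (Φ p) (Φ p') = Cfsg.sympForm k F p.1 p'.1 + Cfsg.sympForm l F p.2 p'.2)
    (hW : ∀ v, v ∈ W ↔ (Φ.symm v).2 = 0) :
    Nonempty (↥(Cfsg.stabilizing (Cfsg.spToMat m F) (W : Set (Fin m ⊕ Fin m → F))) ≃*
      Matrix.symplecticGroup (Fin k) F × Matrix.symplecticGroup (Fin l) F) := by
  have hΨ : ∀ A v, ((Ψ Φ hΦ A : Matrix.symplecticGroup (Fin m) F) : Matrix (Fin m ⊕ Fin m) (Fin m ⊕ Fin m) F) *ᵥ v =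
      T Φ A v := fun A v => spOfLinear_mulVec m (T Φ A) (T_isom Φ hΦ A) v
  have hinj : Function.Injective (Ψ Φ hΦ) := by
    intro A A' h
    have h1 : ∀ p, T Φ A (Φ p) = T Φ A' (Φ p) := by
      intro p
      rw [← hΨ, ← hΨ, h]
    simp only [T_apply, LinearEquiv.symm_apply_apply, EmbeddingLike.apply_eq_iff_eq, Prod.mk.injEq] at h1
    apply Prod.ext
    · apply Subtype.ext
      rw [Matrix.ext_iff_mulVec]
      intro x
      exact (h1 (x, 0)).1
    · apply Subtype.ext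
      rw [Matrix.ext_iff_mulVec]
      intro y
      exact (h1 (0, y)).2
  have hrange : (Ψ Φ hΦ).range = Cfsg.stabilizing (Cfsg.spToMat m F) (W : Set (Fin m ⊕ Fin m → F)) := by
    ext g
    constructor
    · rintro ⟨A, rfl⟩
      apply mem_stabilizing_of_forall
      intro v hv
      change ((Ψ Φ hΦ A : Matrix.symplecticGroup (Fin m) F) : Matrix (Fin m ⊕ Fin m) (Fin m ⊕ Fin m) F) *ᵥ v ∈ W
      rw [hΨ, T_apply, hW, LinearEquiv.symm_apply_apply]
      simp only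
      rw [(hW v).mp hv, Matrix.mulVec_zero]
    · intro hg
      have hgW : ∀ v, v ∈ W ↔ (g : Matrix (Fin m ⊕ Fin m) (Fin m ⊕ Fin m) F) *ᵥ v ∈ W := hg
      -- images of the two factors
      have h1 : ∀ x, (Φ.symm ((g : Matrix (Fin m ⊕ Fin m) (Fin m ⊕ Fin m) F) *ᵥ Φ (x, 0))).2 = 0 := by
        intro x
        rw [← hW, ← hgW, hW]
        simp
      have h2 : ∀ y, (Φ.symm ((g : Matrix (Fin m ⊕ Fin m) (Fin m ⊕ Fin m) F) *ᵥ Φ (0, y))).1 = 0 := by
        intro y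
        apply sympForm_left_eq_zero k
        intro x
        set w := ((g⁻¹ : Matrix.symplecticGroup (Fin m) F) : Matrix (Fin m ⊕ Fin m) (Fin m ⊕ Fin m) F) *ᵥ Φ (x, 0)
          with hw
        have hgw : (g : Matrix (Fin m ⊕ Fin m) (Fin m ⊕ Fin m) F) *ᵥ w = Φ (x, 0) := by
          rw [hw, sp_mulVec_inv]
        have hwW : w ∈ W := by
          rw [hgW, hgw, hW]
          simp
        have e1 := hΦ (Φ.symm ((g : Matrix (Fin m ⊕ Fin m) (Fin m ⊕ Fin m) F) *ᵥ Φ (0, y))) (x, 0)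
        rw [LinearEquiv.apply_symm_apply, ← hgw, sp_sympForm] at e1
        have e2 := hΦ (0, y) (Φ.symm w)
        rw [LinearEquiv.apply_symm_apply, (hW w).mp hwW] at e2
        simp only [sympForm_zero_left, sympForm_zero_right, add_zero] at e1 e2
        rw [← e1, e2]
      let L₁ : (Fin k ⊕ Fin k → F) →ₗ[F] (Fin k ⊕ Fin k → F) :=
        LinearMap.fst F (Fin k ⊕ Fin k → F) (Fin l ⊕ Fin l → F) ∘ₗ Φ.symm.toLinearMap ∘ₗ
          Matrix.toLin' (g : Matrix (Fin m ⊕ Fin m) (Fin m ⊕ Fin m) F) ∘ₗ Φ.toLinearMap ∘ₗ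
          LinearMap.inl F (Fin k ⊕ Fin k → F) (Fin l ⊕ Fin l → F)
      let L₂ : (Fin l ⊕ Fin l → F) →ₗ[F] (Fin l ⊕ Fin l → F) :=
        LinearMap.snd F (Fin k ⊕ Fin k → F) (Fin l ⊕ Fin l → F) ∘ₗ Φ.symm.toLinearMap ∘ₗ
          Matrix.toLin' (g : Matrix (Fin m ⊕ Fin m) (Fin m ⊕ Fin m) F) ∘ₗ Φ.toLinearMap ∘ₗ
          LinearMap.inr F (Fin k ⊕ Fin k → F) (Fin l ⊕ Fin l → F)
      have hL₁ : ∀ x, (g : Matrix (Fin m ⊕ Fin m) (Fin m ⊕ Fin m) F) *ᵥ Φ (x, 0) = Φ (L₁ x, 0) := by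
        intro x
        rw [← LinearEquiv.symm_apply_eq]
        exact Prod.ext rfl (h1 x)
      have hL₂ : ∀ y, (g : Matrix (Fin m ⊕ Fin m) (Fin m ⊕ Fin m) F) *ᵥ Φ (0, y) = Φ (0, L₂ y) := by
        intro y
        rw [← LinearEquiv.symm_apply_eq]
        exact Prod.ext (h2 y) rfl
      have hI₁ : ∀ x x', Cfsg.sympForm k F (L₁ x) (L₁ x') = Cfsg.sympForm k F x x' := by
        intro x x'
        have e1 := hΦ (L₁ x, 0) (L₁ x', 0)
        have e2 := hΦ (x, 0) (x', 0)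
        rw [← hL₁, ← hL₁, sp_sympForm, e2] at e1
        simp only [sympForm_zero_left, add_zero] at e1
        exact e1.symm
      have hI₂ : ∀ y y', Cfsg.sympForm l F (L₂ y) (L₂ y') = Cfsg.sympForm l F y y' := by
        intro y y'
        have e1 := hΦ (0, L₂ y) (0, L₂ y')
        have e2 := hΦ (0, y) (0, y')
        rw [← hL₂, ← hL₂, sp_sympForm, e2] at e1
        simp only [sympForm_zero_left, zero_add] at e1
        exact e1.symm
      refine ⟨(spOfLinear k L₁ hI₁, spOfLinear l L₂ hI₂), ?_⟩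
      apply Subtype.ext
      rw [Matrix.ext_iff_mulVec]
      intro v
      rw [hΨ, T_apply]
      simp only [spOfLinear_mulVec]
      have hv : v = Φ ((Φ.symm v).1, 0) + Φ (0, (Φ.symm v).2) := by
        rw [← map_add]
        simp
      conv_rhs => rw [hv, Matrix.mulVec_add, hL₁, hL₂, ← map_add]
      simp
  exact ⟨((MonoidHom.ofInjective hinj).trans (MulEquiv.subgroupCongr hrange)).symm⟩

end

/-- If W ≤ F^(2m) is a 2k-dimensional subspace on which the symplectic form is non-degenerate, then the stabiliser of W in Sp_2m(F) is isomorphic to Sp_2k(F) × Sp_(2m−2k)(F). -/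
theorem result {F : Type*} [Field F] (m k : ℕ) (hk : k ≤ m) (W : Submodule F (Fin m ⊕ Fin m → F)) (hWk : Module.finrank F W = 2 * k) (hW : ∀ u ∈ W, (∀ v ∈ W, Cfsg.sympForm m F u v = 0) → u = 0) : Nonempty (↥(Cfsg.stabilizing (Cfsg.spToMat m F) (W : Set (Fin m ⊕ Fin m → F))) ≃* Matrix.symplecticGroup (Fin k) F × Matrix.symplecticGroup (Fin (m - k)) F) := by
  classical
  set B := sympB m F with hBdef
  have hA : B.IsAlt := sympB_isAlt m
  have hBn : B.Nondegenerate := sympB_nondegenerate m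
  have hrefl : B.IsRefl := LinearMap.IsAlt.isRefl hA
  have hBapp : ∀ u v, B u v = Cfsg.sympForm m F u v := fun u v => sympB_apply m u v
  have hresW : (B.restrict W).Nondegenerate := by
    constructor
    · intro x hx
      apply Subtype.ext
      apply hW x x.2
      intro v hv
      rw [← hBapp]
      exact hx ⟨v, hv⟩
    · intro y hy
      apply Subtype.ext
      apply hW y y.2
      intro v hv
      rw [sympForm_swap, ← hBapp]
      have := hy ⟨v, hv⟩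
      simp only [LinearMap.BilinForm.restrict_apply, LinearMap.domRestrict_apply] at this
      rw [this, neg_zero]
  have hc : IsCompl W (B.orthogonal W) := LinearMap.BilinForm.isCompl_orthogonal_of_restrict_nondegenerate hrefl hresW
  have hfin' : Module.finrank F (B.orthogonal W) = 2 * (m - k) := by
    rw [LinearMap.BilinForm.finrank_orthogonal hBn, hWk, Module.finrank_fintype_fun_eq_card, Fintype.card_sum,
      Fintype.card_fin]
    omega
  have hperp : ∀ w ∈ W, ∀ w' ∈ B.orthogonal W, Cfsg.sympForm m F w w' = 0 := by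
    intro w hw w' hw'
    rw [← hBapp]
    exact (LinearMap.BilinForm.mem_orthogonal_iff.mp hw') w hw
  obtain ⟨Φ₁, hΦ₁⟩ := exists_symp_coords (B.restrict W) (fun x => hA x) hresW.1 hWk
  obtain ⟨Φ₂, hΦ₂⟩ := exists_symp_coords (B.restrict (B.orthogonal W)) (fun x => hA x) (by
    intro x hx
    apply Subtype.ext
    apply hBn.1
    intro v
    obtain ⟨w, hw, w', hw', rfl⟩ := Submodule.mem_sup.mp (hc.sup_eq_top ▸ Submodule.mem_top (x := v))
    rw [map_add, hBapp, hBapp, sympForm_swap, hperp w hw x x.2, neg_zero, zero_add, ← hBapp]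
    exact hx ⟨w', hw'⟩) hfin'
  let Φ : ((Fin k ⊕ Fin k → F) × (Fin (m - k) ⊕ Fin (m - k) → F)) ≃ₗ[F] (Fin m ⊕ Fin m → F) :=
    (Φ₁.prodCongr Φ₂).trans (Submodule.prodEquivOfIsCompl W (B.orthogonal W) hc)
  have hΦapp : ∀ p, Φ p = (Φ₁ p.1 : Fin m ⊕ Fin m → F) + (Φ₂ p.2 : Fin m ⊕ Fin m → F) := fun p => rfl
  apply main W Φ
  · intro p p'
    rw [hΦapp, hΦapp, sympForm_add_left, sympForm_add_right, sympForm_add_right,
      hperp _ (Φ₁ p.1).2 _ (Φ₂ p'.2).2, sympForm_swap m (Φ₂ p.2 : Fin m ⊕ Fin m → F) (Φ₁ p'.1 : Fin m ⊕ Fin m → F),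
      hperp _ (Φ₁ p'.1).2 _ (Φ₂ p.2).2, ← hΦ₁, ← hΦ₂]
    simp only [LinearMap.BilinForm.restrict_apply, LinearMap.domRestrict_apply, hBapp]
    ring
  · intro v
    constructor
    · intro hv
      have : Φ.symm v = (Φ₁.symm ⟨v, hv⟩, 0) := by
        rw [LinearEquiv.symm_apply_eq, hΦapp]
        simp
      rw [this]
    · intro hv
      have h1 : v = Φ (Φ.symm v) := by simp
      rw [h1, hΦapp, hv]
      simp

end Cfsg.Agent.S0776
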