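import Cfsg.Statements.S0777
-- import your own Cfsg.Agent.* helpers here
import Cfsg.Agent.Lib.Helper17.Stab

set_option autoImplicit false
open Cfsg

namespace Cfsg.Agent.S0777

open Cfsg.Agent.Lib.Helper17 Matrix

section
variable {F : Type*} [Field F] {m : ℕ}

/-- the swap of the two halves of the index set -/
def tau (m : ℕ) : Equiv.Perm (Fin m ⊕ Fin m) := Equiv.sumComm _ _

theorem tau_tau (a : Fin m ⊕ Fin m) : tau m (tau m a) = a := by
  cases a <;> rfl

theorem tau_ne (a : Fin m ⊕ Fin m) : tau m a ≠ a := by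
  cases a <;> simp [tau]

/-- the sign of `J a (tau a)` -/
def sg (F : Type*) [Field F] (m : ℕ) : Fin m ⊕ Fin m → F := Sum.elim (fun _ => -1) (fun _ => 1)

theorem sg_ne_zero (a : Fin m ⊕ Fin m) : sg F m a ≠ 0 := by
  cases a <;> simp [sg]

theorem sg_tau (a : Fin m ⊕ Fin m) : sg F m (tau m a) = - sg F m a := by
  cases a <;> simp [sg, tau]

theorem J_apply' (a a' : Fin m ⊕ Fin m) : J (Fin m) F a a' = if a' = tau m a then sg F m a else 0 := by
  rcases a with i | i <;> rcases a' with j | j <;> simp [Matrix.J, Matrix.one_apply, tau, sg, eq_comm] <;>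
    split_ifs <;> simp

/-- monomial matrices -/
def monoMat (p : Fin m ⊕ Fin m → Fin m ⊕ Fin m) (w : Fin m ⊕ Fin m → F) :
    Matrix (Fin m ⊕ Fin m) (Fin m ⊕ Fin m) F := Matrix.of fun a b => if a = p b then w b else 0

theorem monoMat_apply (p : Fin m ⊕ Fin m → Fin m ⊕ Fin m) (w : Fin m ⊕ Fin m → F) (a b : Fin m ⊕ Fin m) :
    monoMat p w a b = if a = p b then w b else 0 := rfl

theorem monoMat_mem_iff (p : Fin m ⊕ Fin m → Fin m ⊕ Fin m) (w : Fin m ⊕ Fin m → F) :
    monoMat p w ∈ Matrix.symplecticGroup (Fin m) F ↔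
      ∀ b b', w b * w b' * J (Fin m) F (p b) (p b') = J (Fin m) F b b' := by
  rw [SymplecticGroup.mem_iff']
  have key : ∀ b b', ((monoMat p w)ᵀ * J (Fin m) F * monoMat p w) b b' =
      w b * w b' * J (Fin m) F (p b) (p b') := by
    intro b b'
    simp only [Matrix.mul_apply, Matrix.transpose_apply, monoMat_apply, ite_mul, zero_mul, mul_ite, mul_zero,
      Finset.sum_ite_eq', Finset.mem_univ, if_true]
    ring
  constructor
  · intro h b b'
    rw [← key, h]
  · intro h
    ext b b'
    rw [key, h]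

theorem mono_facts (p : Fin m ⊕ Fin m → Fin m ⊕ Fin m) (w : Fin m ⊕ Fin m → F)
    (h : monoMat p w ∈ Matrix.symplecticGroup (Fin m) F) :
    (∀ b, w b ≠ 0) ∧ (∀ b, p (tau m b) = tau m (p b)) ∧ Function.Injective p ∧
      ∀ b, w b * w (tau m b) * sg F m (p b) = sg F m b := by
  rw [monoMat_mem_iff] at h
  have h1 : ∀ b, w b * w (tau m b) * J (Fin m) F (p b) (p (tau m b)) = sg F m b := by
    intro b
    rw [h, J_apply', if_pos rfl]
  have hw : ∀ b, w b ≠ 0 := by
    intro b hb
    have := h1 b
    rw [hb] at this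
    simp only [zero_mul] at this
    exact sg_ne_zero b this.symm
  have hp : ∀ b, p (tau m b) = tau m (p b) := by
    intro b
    by_contra hne
    have := h1 b
    rw [J_apply', if_neg hne, mul_zero] at this
    exact sg_ne_zero b this.symm
  refine ⟨hw, hp, ?_, ?_⟩
  · intro b b' hbb
    have h2 := h b' (tau m b)
    rw [← hbb, hp, J_apply', if_pos rfl, J_apply'] at h2
    by_contra hne
    rw [if_neg (by
      intro h3
      exact hne ((tau m).injective h3))] at h2
    exact mul_ne_zero (mul_ne_zero (hw _) (hw _)) (sg_ne_zero _) h2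
  · intro b
    have := h1 b
    rwa [hp, J_apply', if_pos rfl] at this

theorem mem_torus_iff (t : Matrix.symplecticGroup (Fin m) F) :
    t ∈ (⨅ i : Fin m ⊕ Fin m, Cfsg.stabilizing (Cfsg.spToMat m F)
      ((Submodule.span F {(Pi.single i (1 : F) : Fin m ⊕ Fin m → F)} : Submodule F (Fin m ⊕ Fin m → F)) :
        Set (Fin m ⊕ Fin m → F))) ↔
    ∀ a b, a ≠ b → (t : Matrix (Fin m ⊕ Fin m) (Fin m ⊕ Fin m) F) a b = 0 := by
  rw [Subgroup.mem_iInf]
  simp only [mem_stabilizing_iff_forall]
  constructor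
  · intro h a b hab
    have h1 := h b (Pi.single b 1) (Submodule.mem_span_singleton_self _)
    obtain ⟨c, hc⟩ := Submodule.mem_span_singleton.mp h1
    have h2 := congrFun hc a
    simp only [Pi.smul_apply, Pi.single_apply, if_neg hab, smul_eq_mul, mul_zero] at h2
    rw [h2]
    change _ = ((t : Matrix (Fin m ⊕ Fin m) (Fin m ⊕ Fin m) F) *ᵥ Pi.single b 1) a
    simp
  · intro h i v hv
    obtain ⟨c, rfl⟩ := Submodule.mem_span_singleton.mp hv
    rw [Submodule.mem_span_singleton]
    refine ⟨c * (t : Matrix (Fin m ⊕ Fin m) (Fin m ⊕ Fin m) F) i i, ?_⟩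
    change _ = (t : Matrix (Fin m ⊕ Fin m) (Fin m ⊕ Fin m) F) *ᵥ (c • Pi.single i 1)
    funext a
    rw [Matrix.mulVec_smul]
    simp only [Pi.smul_apply, Matrix.mulVec_single_one, Matrix.col_apply, smul_eq_mul, Pi.single_apply]
    by_cases hai : a = i
    · subst hai
      simp
    · simp [hai, h a i hai]

/-- diagonal entries of the basic torus elements -/
def dd (a : Fin m ⊕ Fin m) (x : F) : Fin m ⊕ Fin m → F :=
  fun k => if k = a then x else if k = tau m a then x⁻¹ else 1

theorem tor_mem (a : Fin m ⊕ Fin m) (x : F) (hx : x ≠ 0) :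
    monoMat id (dd a x) ∈ Matrix.symplecticGroup (Fin m) F := by
  rw [monoMat_mem_iff]
  intro b b'
  simp only [id, J_apply']
  by_cases hb : b' = tau m b
  · subst hb
    simp only [if_true]
    have : dd a x b * dd a x (tau m b) = 1 := by
      unfold dd
      by_cases h1 : b = a
      · subst h1
        simp [tau_ne, hx]
      · by_cases h2 : b = tau m a
        · subst h2
          simp [tau_ne, tau_tau, hx]
        · have h3 : tau m b ≠ a := by
            intro h
            apply h2
            rw [← h, tau_tau]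
          have h4 : tau m b ≠ tau m a := fun h => h1 ((tau m).injective h)
          simp [h1, h2, h3, h4]
    rw [this, one_mul]
  · simp [hb]

theorem mem_normalizer_iff_mono (hq : ∃ x : F, x ≠ 0 ∧ x * x ≠ 1) (g : Matrix.symplecticGroup (Fin m) F) :
    g ∈ Subgroup.normalizer ((⨅ i : Fin m ⊕ Fin m, Cfsg.stabilizing (Cfsg.spToMat m F)
      ((Submodule.span F {(Pi.single i (1 : F) : Fin m ⊕ Fin m → F)} : Submodule F (Fin m ⊕ Fin m → F)) :
        Set (Fin m ⊕ Fin m → F)) : Subgroup (Matrix.symplecticGroup (Fin m) F)) :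
          Set (Matrix.symplecticGroup (Fin m) F)) ↔
    ∃ p w, (g : Matrix (Fin m ⊕ Fin m) (Fin m ⊕ Fin m) F) = monoMat p w := by
  classical
  rw [Subgroup.mem_normalizer_iff'']
  have hconj : ∀ t : Matrix.symplecticGroup (Fin m) F,
      (g : Matrix (Fin m ⊕ Fin m) (Fin m ⊕ Fin m) F) *
        ((g⁻¹ * t * g : Matrix.symplecticGroup (Fin m) F) : Matrix (Fin m ⊕ Fin m) (Fin m ⊕ Fin m) F) =
      (t : Matrix (Fin m ⊕ Fin m) (Fin m ⊕ Fin m) F) * (g : Matrix (Fin m ⊕ Fin m) (Fin m ⊕ Fin m) F) := by
    intro t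
    rw [← Submonoid.coe_mul, ← Submonoid.coe_mul]
    congr 1
    group
  constructor
  · intro hg
    obtain ⟨x, hx0, hx1⟩ := hq
    have hex : ∀ b, ∃ a, (g : Matrix (Fin m ⊕ Fin m) (Fin m ⊕ Fin m) F) a b ≠ 0 := by
      intro b
      by_contra hcon
      push Not at hcon
      have h1 : (((g⁻¹ * g : Matrix.symplecticGroup (Fin m) F)) : Matrix (Fin m ⊕ Fin m) (Fin m ⊕ Fin m) F) b b
          = 1 := by
        rw [inv_mul_cancel]; simp
      rw [Submonoid.coe_mul, Matrix.mul_apply] at h1
      simp [hcon] at h1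
    choose p hp using hex
    have huniq : ∀ a b, a ≠ p b → (g : Matrix (Fin m ⊕ Fin m) (Fin m ⊕ Fin m) F) a b = 0 := by
      intro a' b hne
      by_contra hga'
      set a := p b with ha
      let t : Matrix.symplecticGroup (Fin m) F := ⟨monoMat id (dd a x), tor_mem a x hx0⟩
      have ht : ∀ k l, (t : Matrix (Fin m ⊕ Fin m) (Fin m ⊕ Fin m) F) k l = if k = l then dd a x l else 0 :=
        fun k l => rfl
      have htT := (hg t).mp ((mem_torus_iff t).mpr (by
        intro k l hkl
        rw [ht, if_neg hkl]))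
      rw [mem_torus_iff] at htT
      set u := ((g⁻¹ * t * g : Matrix.symplecticGroup (Fin m) F) : Matrix (Fin m ⊕ Fin m) (Fin m ⊕ Fin m) F)
        with hu
      have hgu := hconj t
      rw [← hu] at hgu
      have entry : ∀ k, (g : Matrix (Fin m ⊕ Fin m) (Fin m ⊕ Fin m) F) k b * u b b =
          dd a x k * (g : Matrix (Fin m ⊕ Fin m) (Fin m ⊕ Fin m) F) k b := by
        intro k
        have h1 := congrFun (congrFun hgu k) b
        rw [Matrix.mul_apply, Matrix.mul_apply, Finset.sum_eq_single b, Finset.sum_eq_single k] at h1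
        · rw [h1, ht, if_pos rfl]
        · intro l _ hl
          rw [ht, if_neg (Ne.symm hl), zero_mul]
        · intro h; exact absurd (Finset.mem_univ _) h
        · intro l _ hl
          rw [htT l b hl, mul_zero]
        · intro h; exact absurd (Finset.mem_univ _) h
      have e1 : u b b = x := by
        have h1 := entry a
        have h2 : dd a x a = x := by simp [dd]
        rw [h2, mul_comm] at h1
        exact mul_right_cancel₀ (hp b) h1
      have e2 : u b b = dd a x a' := by
        have h1 := entry a'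
        rw [mul_comm] at h1
        exact mul_right_cancel₀ hga' h1
      rw [e1] at e2
      unfold dd at e2
      rw [if_neg hne] at e2
      split_ifs at e2
      · apply hx1
        nth_rewrite 1 [e2]
        exact inv_mul_cancel₀ hx0
      · apply hx1
        rw [e2, mul_one]
    refine ⟨p, fun b => (g : Matrix (Fin m ⊕ Fin m) (Fin m ⊕ Fin m) F) (p b) b, ?_⟩
    ext a b
    rw [monoMat_apply]
    split_ifs with h
    · rw [h]
    · exact huniq a b h
  · rintro ⟨p, w, hg⟩
    have hmem : monoMat p w ∈ Matrix.symplecticGroup (Fin m) F := hg ▸ g.2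
    obtain ⟨hw, -, hinj, -⟩ := mono_facts p w hmem
    have hsurj : Function.Surjective p := Finite.injective_iff_surjective.mp hinj
    intro t
    set u := ((g⁻¹ * t * g : Matrix.symplecticGroup (Fin m) F) : Matrix (Fin m ⊕ Fin m) (Fin m ⊕ Fin m) F)
      with hu
    have hgu := hconj t
    rw [← hu, hg] at hgu
    have key : ∀ k b, w k * u k b = (t : Matrix (Fin m ⊕ Fin m) (Fin m ⊕ Fin m) F) (p k) (p b) * w b := by
      intro k b
      have h1 := congrFun (congrFun hgu (p k)) b
      rw [Matrix.mul_apply, Matrix.mul_apply, Finset.sum_eq_single k, Finset.sum_eq_single (p b)] at h1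
      · rw [monoMat_apply, monoMat_apply, if_pos rfl, if_pos rfl] at h1
        exact h1
      · intro l _ hl
        rw [monoMat_apply, if_neg hl, mul_zero]
      · intro h; exact absurd (Finset.mem_univ _) h
      · intro l _ hl
        rw [monoMat_apply, if_neg (fun h => hl (hinj h).symm), zero_mul]
      · intro h; exact absurd (Finset.mem_univ _) h
    rw [mem_torus_iff, mem_torus_iff]
    constructor
    · intro ht k b hkb
      have h1 := key k b
      rw [ht _ _ (fun h => hkb (hinj h)), zero_mul] at h1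
      exact (mul_eq_zero.mp h1).resolve_left (hw k)
    · intro hu' a a' haa
      obtain ⟨k, rfl⟩ := hsurj a
      obtain ⟨b, rfl⟩ := hsurj a'
      have h1 := key k b
      rw [← hu] at hu'
      rw [hu' k b (fun h => haa (by rw [h])), mul_zero] at h1
      exact (mul_eq_zero.mp h1.symm).resolve_right (hw b)

theorem card_centralizer_tau (m : ℕ) :
    Nat.card (Subgroup.centralizer {tau m}) = 2 ^ m * Nat.factorial m := by
  classical
  have h2 : (tau m) ^ 2 = 1 := by
    ext a
    simp [pow_two, tau_tau]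
  haveI : Fact (Nat.Prime 2) := ⟨Nat.prime_two⟩
  have hct := Equiv.Perm.cycleType_of_pow_prime_eq_one h2
  have hsupp : (tau m).support = Finset.univ := by
    ext a
    simp [tau_ne]
  have hsum := (tau m).sum_cycleType
  rw [hsupp, Finset.card_univ, Fintype.card_sum, Fintype.card_fin] at hsum
  have hcard : Multiset.card (tau m).cycleType = m := by
    rw [hct, Multiset.sum_replicate, smul_eq_mul] at hsum
    omega
  rw [hcard] at hct
  rw [Equiv.Perm.nat_card_centralizer, hct, Multiset.sum_replicate, Multiset.prod_replicate, Fintype.card_sum,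
    Fintype.card_fin, smul_eq_mul]
  have h0 : m + m - m * 2 = 0 := by omega
  rw [h0, Nat.factorial_zero, one_mul]
  congr 1
  by_cases hm : m = 0
  · subst hm
    simp
  · rw [Multiset.toFinset_replicate, if_neg hm, Finset.prod_singleton, Multiset.count_replicate_self]

end

/-- Weyl group of type C_m: for q ≥ 4 the diagonal matrices of Sp_2m(q) form a torus T ≅ (C_(q−1))^m (the elements stabilising every coordinate axis), and the normaliser of T in Sp_2m(q) has order 2^m · m! · (q − 1)^m. -/
theorem result {F : Type*} [Field F] [Fintype F] {q : ℕ} (hF : Fintype.card F = q) (hq : 4 ≤ q) (m : ℕ) : Nat.card ↥(Subgroup.normalizer (⨅ i : Fin m ⊕ Fin m, Cfsg.stabilizing (Cfsg.spToMat m F) ((Submodule.span F {(Pi.single i (1 : F) : Fin m ⊕ Fin m → F)} : Submodule F (Fin m ⊕ Fin m → F)) : Set (Fin m ⊕ Fin m → F)) : Set (Matrix.symplecticGroup (Fin m) F))) = 2 ^ m * Nat.factorial m * (q - 1) ^ m := by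
  classical
  have hset : (⨅ i : Fin m ⊕ Fin m, Cfsg.stabilizing (Cfsg.spToMat m F) ((Submodule.span F {(Pi.single i (1 : F) : Fin m ⊕ Fin m → F)} : Submodule F (Fin m ⊕ Fin m → F)) : Set (Fin m ⊕ Fin m → F)) : Set (Matrix.symplecticGroup (Fin m) F)) =
      ((⨅ i : Fin m ⊕ Fin m, Cfsg.stabilizing (Cfsg.spToMat m F)
      ((Submodule.span F {(Pi.single i (1 : F) : Fin m ⊕ Fin m → F)} : Submodule F (Fin m ⊕ Fin m → F)) :
        Set (Fin m ⊕ Fin m → F)) : Subgroup (Matrix.symplecticGroup (Fin m) F)) :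
          Set (Matrix.symplecticGroup (Fin m) F)) := by
    rw [Subgroup.coe_iInf, Set.iInf_eq_iInter]
  rw [hset]
  have hx : ∃ x : F, x ≠ 0 ∧ x * x ≠ 1 := by
    by_contra hcon
    push Not at hcon
    have hsub : (Finset.univ : Finset F) ⊆ {0, 1, -1} := by
      intro x _
      by_cases hx0 : x = 0
      · simp [hx0]
      · have := hcon x hx0
        have h2 : (x - 1) * (x + 1) = 0 := by linear_combination this
        rcases mul_eq_zero.mp h2 with h | h
        · simp [sub_eq_zero.mp h]
        · simp [eq_neg_of_add_eq_zero_left h]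
    have := Finset.card_le_card hsub
    have h3 : ({0, 1, -1} : Finset F).card ≤ 3 := Finset.card_le_three
    rw [Finset.card_univ, hF] at this
    omega
  let wOf : (Fin m ⊕ Fin m → Fin m ⊕ Fin m) → (Fin m → Fˣ) → Fin m ⊕ Fin m → F := fun p c =>
    Sum.elim (fun i => (c i : F)) (fun i => -((c i : F) * sg F m (p (Sum.inl i)))⁻¹)
  have hcomm : ∀ (p : ↥(Subgroup.centralizer {tau m})) b, (p : Equiv.Perm (Fin m ⊕ Fin m)) (tau m b) =
      tau m ((p : Equiv.Perm (Fin m ⊕ Fin m)) b) := by
    intro p b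
    have h1 := Subgroup.mem_centralizer_singleton_iff.mp p.2
    have h2 := congrArg (fun f : Equiv.Perm (Fin m ⊕ Fin m) => f b) h1
    simp only [Equiv.Perm.mul_apply] at h2
    first | exact h2 | exact h2.symm
  have hmem : ∀ (p : ↥(Subgroup.centralizer {tau m})) (c : Fin m → Fˣ),
      monoMat (p : Equiv.Perm (Fin m ⊕ Fin m)) (wOf (p : Equiv.Perm (Fin m ⊕ Fin m)) c) ∈
        Matrix.symplecticGroup (Fin m) F := by
    intro p c
    rw [monoMat_mem_iff]
    intro b b'
    rw [J_apply', J_apply', ← hcomm]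
    by_cases hb : b' = tau m b
    · subst hb
      rw [if_pos rfl, if_pos rfl]
      rcases b with i | i
      · have h1 : sg F m ((p : Equiv.Perm (Fin m ⊕ Fin m)) (Sum.inl i)) ≠ 0 := sg_ne_zero _
        have h2 : (c i : F) ≠ 0 := (c i).ne_zero
        change (c i : F) * (-((c i : F) * sg F m ((p : Equiv.Perm (Fin m ⊕ Fin m)) (Sum.inl i)))⁻¹) *
          sg F m ((p : Equiv.Perm (Fin m ⊕ Fin m)) (Sum.inl i)) = -1
        field_simp
      · have h1 : sg F m ((p : Equiv.Perm (Fin m ⊕ Fin m)) (Sum.inl i)) ≠ 0 := sg_ne_zero _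
        have h2 : (c i : F) ≠ 0 := (c i).ne_zero
        have h3 : sg F m ((p : Equiv.Perm (Fin m ⊕ Fin m)) (Sum.inr i)) =
            - sg F m ((p : Equiv.Perm (Fin m ⊕ Fin m)) (Sum.inl i)) := by
          rw [← sg_tau, ← hcomm]
          rfl
        change (-((c i : F) * sg F m ((p : Equiv.Perm (Fin m ⊕ Fin m)) (Sum.inl i)))⁻¹) * (c i : F) *
          sg F m ((p : Equiv.Perm (Fin m ⊕ Fin m)) (Sum.inr i)) = 1
        rw [h3]
        field_simp
    · rw [if_neg hb, if_neg (fun h => hb ((p : Equiv.Perm (Fin m ⊕ Fin m)).injective h)), mul_zero]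
  let Φ : ↥(Subgroup.centralizer {tau m}) × (Fin m → Fˣ) →
      ↥(Subgroup.normalizer ((⨅ i : Fin m ⊕ Fin m, Cfsg.stabilizing (Cfsg.spToMat m F)
      ((Submodule.span F {(Pi.single i (1 : F) : Fin m ⊕ Fin m → F)} : Submodule F (Fin m ⊕ Fin m → F)) :
        Set (Fin m ⊕ Fin m → F)) : Subgroup (Matrix.symplecticGroup (Fin m) F)) :
          Set (Matrix.symplecticGroup (Fin m) F))) :=
    fun x => ⟨⟨monoMat (x.1 : Equiv.Perm (Fin m ⊕ Fin m)) (wOf (x.1 : Equiv.Perm (Fin m ⊕ Fin m)) x.2), hmem x.1 x.2⟩,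
      (mem_normalizer_iff_mono hx _).mpr ⟨_, _, rfl⟩⟩
  have hΦ : Function.Bijective Φ := by
    constructor
    · rintro ⟨p, c⟩ ⟨p', c'⟩ h
      have h1 : monoMat (p : Equiv.Perm (Fin m ⊕ Fin m)) (wOf (p : Equiv.Perm (Fin m ⊕ Fin m)) c) =
          monoMat (p' : Equiv.Perm (Fin m ⊕ Fin m)) (wOf (p' : Equiv.Perm (Fin m ⊕ Fin m)) c') :=
        congrArg (fun z => ((z.1 : Matrix.symplecticGroup (Fin m) F) : Matrix (Fin m ⊕ Fin m) (Fin m ⊕ Fin m) F)) h
      have hw := (mono_facts _ _ (hmem p c)).1
      have h2 : ∀ b, (p : Equiv.Perm (Fin m ⊕ Fin m)) b = (p' : Equiv.Perm (Fin m ⊕ Fin m)) b ∧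
          wOf (p : Equiv.Perm (Fin m ⊕ Fin m)) c b = wOf (p' : Equiv.Perm (Fin m ⊕ Fin m)) c' b := by
        intro b
        have h3 := congrFun (congrFun h1 ((p : Equiv.Perm (Fin m ⊕ Fin m)) b)) b
        rw [monoMat_apply, monoMat_apply, if_pos rfl] at h3
        split_ifs at h3 with h4
        · exact ⟨h4, h3⟩
        · exact absurd h3 (hw b)
      apply Prod.ext
      · apply Subtype.ext
        ext b
        exact (h2 b).1
      · funext i
        apply Units.ext
        exact (h2 (Sum.inl i)).2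
    · rintro ⟨g, hg⟩
      obtain ⟨p₀, w, hgw⟩ := (mem_normalizer_iff_mono hx g).mp hg
      have hmem0 : monoMat p₀ w ∈ Matrix.symplecticGroup (Fin m) F := hgw ▸ g.2
      obtain ⟨hw, hpt, hinj, hrel⟩ := mono_facts p₀ w hmem0
      have hsurj : Function.Surjective p₀ := Finite.injective_iff_surjective.mp hinj
      let p : Equiv.Perm (Fin m ⊕ Fin m) := Equiv.ofBijective p₀ ⟨hinj, hsurj⟩
      have hp : p ∈ Subgroup.centralizer {tau m} := by
        rw [Subgroup.mem_centralizer_singleton_iff]
        ext b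
        simp only [Equiv.Perm.mul_apply]
        first | exact (hpt b) | exact (hpt b).symm
      refine ⟨(⟨p, hp⟩, fun i => Units.mk0 (w (Sum.inl i)) (hw _)), ?_⟩
      apply Subtype.ext
      apply Subtype.ext
      refine Eq.trans ?_ hgw.symm
      change monoMat p₀ (wOf p₀ (fun i => Units.mk0 (w (Sum.inl i)) (hw _))) = monoMat p₀ w
      congr 1
      funext b
      rcases b with i | i
      · rfl
      · change -(w (Sum.inl i) * sg F m (p₀ (Sum.inl i)))⁻¹ = w (Sum.inr i)
        have h1 := hrel (Sum.inl i)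
        have h2 : sg F m (p₀ (Sum.inl i)) ≠ 0 := sg_ne_zero _
        have h3 := hw (Sum.inl i)
        change w (Sum.inl i) * w (Sum.inr i) * sg F m (p₀ (Sum.inl i)) = -1 at h1
        field_simp
        linear_combination -h1
  rw [← Nat.card_congr (Equiv.ofBijective Φ hΦ), Nat.card_prod, card_centralizer_tau, Nat.card_fun,
    Nat.card_eq_fintype_card, Nat.card_eq_fintype_card, Fintype.card_units, Fintype.card_fin, hF]

end Cfsg.Agent.S0777
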