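import Cfsg.Statements.S0778
-- import your own Cfsg.Agent.* helpers here

set_option autoImplicit false
open Cfsg

namespace Cfsg.Agent.S0778

open Matrix in
theorem diag_mem {F : Type*} [Field F] (m : ℕ) (X : Matrix.GeneralLinearGroup (Fin m) F) :
    Matrix.fromBlocks (X : Matrix (Fin m) (Fin m) F) 0 0 ((X⁻¹ : Matrix.GeneralLinearGroup (Fin m) F) :
      Matrix (Fin m) (Fin m) F)ᵀ ∈ Matrix.symplecticGroup (Fin m) F := by
  rw [SymplecticGroup.fromBlocks_mem_iff]
  refine ⟨by simp, by simp, ?_⟩
  rw [← Matrix.transpose_mul]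
  simp

open Matrix in
/-- The block diagonal embedding of `GL_m` in the symplectic group. -/
noncomputable def ψ {F : Type*} [Field F] (m : ℕ) :
    Matrix.GeneralLinearGroup (Fin m) F →* Matrix.symplecticGroup (Fin m) F where
  toFun X := ⟨_, diag_mem m X⟩
  map_one' := by
    apply Subtype.ext
    simp
  map_mul' X Y := by
    apply Subtype.ext
    simp only [Submonoid.coe_mul, Matrix.fromBlocks_multiply, _root_.mul_inv_rev, Units.val_mul, Matrix.transpose_mul]
    simp

/-- The elements of Sp_2m(F) stabilising both W = ⟨e_1..e_m⟩ and U = ⟨f_1..f_m⟩ form a subgroup isomorphic to GL_m(F) (block-diagonal matrices diag(X, X^(−ᵀ)) up to the sign convention of J), for m ≥ 1 or m = 0 alike. -/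
theorem result {F : Type*} [Field F] (m : ℕ) : Nonempty (↥(Cfsg.stabilizing (Cfsg.spToMat m F) {v : Fin m ⊕ Fin m → F | ∀ i : Fin m, v (Sum.inr i) = 0} ⊓ Cfsg.stabilizing (Cfsg.spToMat m F) {v : Fin m ⊕ Fin m → F | ∀ i : Fin m, v (Sum.inl i) = 0}) ≃* Matrix.GeneralLinearGroup (Fin m) F) := by
  have hinj : Function.Injective (ψ (F := F) m) := by
    intro X Y h
    have h1 := congrArg Subtype.val h
    simp only [ψ, MonoidHom.coe_mk, OneHom.coe_mk, Matrix.fromBlocks_inj] at h1
    exact Units.ext h1.1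
  have hrange : (ψ (F := F) m).range = Cfsg.stabilizing (Cfsg.spToMat m F) {v : Fin m ⊕ Fin m → F | ∀ i : Fin m, v (Sum.inr i) = 0} ⊓ Cfsg.stabilizing (Cfsg.spToMat m F) {v : Fin m ⊕ Fin m → F | ∀ i : Fin m, v (Sum.inl i) = 0} := by
    ext A
    constructor
    · rintro ⟨X, rfl⟩
      constructor
      · intro v
        change (∀ i, v (Sum.inr i) = 0) ↔ ∀ i, (Matrix.mulVec (Matrix.fromBlocks _ _ _ _) v) (Sum.inr i) = 0
        simp only [Matrix.fromBlocks_mulVec, Sum.elim_inr, Matrix.zero_mulVec, zero_add]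
        constructor
        · intro h i
          have : v ∘ Sum.inr = 0 := funext h
          rw [this]
          simp
        · intro h i
          have h1 : Matrix.mulVec ((X⁻¹ : Matrix.GeneralLinearGroup (Fin m) F) :
              Matrix (Fin m) (Fin m) F).transpose (v ∘ Sum.inr) = 0 := funext h
          have h2 := congrArg (Matrix.mulVec (X : Matrix (Fin m) (Fin m) F).transpose) h1
          rw [Matrix.mulVec_mulVec, ← Matrix.transpose_mul] at h2
          simp only [Units.inv_mul, Matrix.transpose_one, Matrix.one_mulVec, Matrix.mulVec_zero] at h2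
          exact congrFun h2 i
      · intro v
        change (∀ i, v (Sum.inl i) = 0) ↔ ∀ i, (Matrix.mulVec (Matrix.fromBlocks _ _ _ _) v) (Sum.inl i) = 0
        simp only [Matrix.fromBlocks_mulVec, Sum.elim_inl, Matrix.zero_mulVec, add_zero]
        constructor
        · intro h i
          have : v ∘ Sum.inl = 0 := funext h
          rw [this]
          simp
        · intro h i
          have h1 : Matrix.mulVec (X : Matrix (Fin m) (Fin m) F) (v ∘ Sum.inl) = 0 := funext h
          have h2 := congrArg (Matrix.mulVec ((X⁻¹ : Matrix.GeneralLinearGroup (Fin m) F) :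
              Matrix (Fin m) (Fin m) F)) h1
          rw [Matrix.mulVec_mulVec] at h2
          simp only [Units.inv_mul, Matrix.one_mulVec, Matrix.mulVec_zero] at h2
          exact congrFun h2 i
    · rintro ⟨hW, hU⟩
      have h21 : (A : Matrix (Fin m ⊕ Fin m) (Fin m ⊕ Fin m) F).toBlocks₂₁ = 0 := by
        ext i j
        have := (hW (Pi.single (Sum.inl j) 1)).mp (by intro i; simp) i
        simpa [Matrix.toBlocks₂₁] using this
      have h12 : (A : Matrix (Fin m ⊕ Fin m) (Fin m ⊕ Fin m) F).toBlocks₁₂ = 0 := by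
        ext i j
        have := (hU (Pi.single (Sum.inr j) 1)).mp (by intro i; simp) i
        simpa [Matrix.toBlocks₁₂] using this
      have hA := A.2
      rw [← Matrix.fromBlocks_toBlocks (A : Matrix (Fin m ⊕ Fin m) (Fin m ⊕ Fin m) F), h21, h12,
        SymplecticGroup.fromBlocks_mem_iff] at hA
      have h3 : (A : Matrix (Fin m ⊕ Fin m) (Fin m ⊕ Fin m) F).toBlocks₂₂.transpose *
          (A : Matrix (Fin m ⊕ Fin m) (Fin m ⊕ Fin m) F).toBlocks₁₁ = 1 := by
        have := congrArg Matrix.transpose hA.2.2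
        simpa using this
      refine ⟨⟨(A : Matrix (Fin m ⊕ Fin m) (Fin m ⊕ Fin m) F).toBlocks₁₁,
        (A : Matrix (Fin m ⊕ Fin m) (Fin m ⊕ Fin m) F).toBlocks₂₂.transpose, mul_eq_one_comm.mp h3, h3⟩, ?_⟩
      apply Subtype.ext
      simp only [ψ, MonoidHom.coe_mk, OneHom.coe_mk]
      conv_rhs => rw [← Matrix.fromBlocks_toBlocks (A : Matrix (Fin m ⊕ Fin m) (Fin m ⊕ Fin m) F), h21, h12]
      simp
  exact ⟨((MonoidHom.ofInjective hinj).trans (MulEquiv.subgroupCongr hrange)).symm⟩

end Cfsg.Agent.S0778
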