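import Cfsg.Statements.S0782
-- import your own Cfsg.Agent.* helpers here
import Cfsg.Agent.Lib.Helper17.UnitStab
import Cfsg.Agent.S0277

set_option autoImplicit false
open Cfsg

namespace Cfsg.Agent.S0782

open Cfsg.Agent.Lib.Helper17 Matrix

/-- the order formula of `GU_m(q)` -/
def G (q m : ℕ) : ℕ :=
  q ^ (m * (m - 1) / 2) * ∏ i ∈ Finset.range m, (if Even i then q ^ (i + 1) + 1 else q ^ (i + 1) - 1)

theorem G_step (q d : ℕ) : G q (d + 2) = q ^ (2 * d + 1) * isoCount q (d + 2) * G q d := by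
  unfold G isoCount
  have e1 : (d + 2) * (d + 2 - 1) / 2 = d * (d - 1) / 2 + (2 * d + 1) := by
    have : (d + 2) * (d + 2 - 1) = d * (d - 1) + 2 * (2 * d + 1) := by
      cases d with
      | zero => rfl
      | succ d =>
        have a1 : d + 1 + 2 - 1 = d + 2 := rfl
        have a2 : d + 1 - 1 = d := rfl
        rw [a1, a2]
        ring
    rw [this, Nat.add_mul_div_left _ _ (by norm_num)]
  rw [e1, Finset.prod_range_succ, Finset.prod_range_succ, pow_add]
  have e2 : d + 2 - 1 = d + 1 := rfl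
  rw [e2]
  by_cases hd : Even d
  · have h1 : ¬ Even (d + 1) := by rw [Nat.even_add_one]; simpa using hd
    have h2 : Even (d + 2) := by rw [Nat.even_add]; simpa using hd
    rw [if_pos hd, if_neg h1, if_pos h2]
    ring
  · have h1 : Even (d + 1) := by rw [Nat.even_add_one]; exact hd
    have h2 : ¬ Even (d + 2) := by rw [Nat.even_add]; simpa using hd
    rw [if_neg hd, if_pos h1, if_neg h2]
    ring

theorem arith (q n : ℕ) : ∀ k, 2 * k ≤ n →
    q ^ (k * (2 * n - 3 * k)) * G q (n - 2 * k) * ∏ i ∈ Finset.range k, (q ^ (2 * i) * isoCount q (n - 2 * i)) =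
      G q n := by
  intro k
  induction k with
  | zero => intro _; simp
  | succ k ih =>
    intro hk
    obtain ⟨d, rfl⟩ : ∃ d, n = d + 2 + 2 * k := ⟨n - 2 - 2 * k, by omega⟩
    have ih' := ih (by omega)
    have e1 : d + 2 + 2 * k - 2 * k = d + 2 := by omega
    have e2 : d + 2 + 2 * k - 2 * (k + 1) = d := by omega
    have e3 : 2 * (d + 2 + 2 * k) - 3 * k = 2 * d + 4 + k := by omega
    have e4 : 2 * (d + 2 + 2 * k) - 3 * (k + 1) = 2 * d + 1 + k := by omega
    rw [e1, e3, G_step] at ih'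
    rw [Finset.prod_range_succ, e1, e2, e4, ← ih']
    have e5 : q ^ (k * (2 * d + 4 + k)) * q ^ (2 * d + 1) = q ^ ((k + 1) * (2 * d + 1 + k)) * q ^ (2 * k) := by
      rw [← pow_add, ← pow_add]
      congr 1
      ring
    calc _ = (q ^ ((k + 1) * (2 * d + 1 + k)) * q ^ (2 * k)) * (G q d * isoCount q (d + 2) *
          ∏ i ∈ Finset.range k, (q ^ (2 * i) * isoCount q (d + 2 + 2 * k - 2 * i))) := by ring
      _ = _ := by
        rw [← e5]
        ring

/-- Maximal parabolics of SU_n(q): if W is a k-dimensional subspace of F^n (n ≥ 1, |F| = q²) on which the Hermitian form vanishes, then (q + 1) times the order of its stabiliser in SU_n(q) equals q^(k(2n−3k)) · |GL_k(q²)| · |GU_(n−2k)(q)|, where |GU_m(q)| = q^(m(m−1)/2) Π_(i=1..m) (q^i − (−1)^i). -/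
theorem result {F : Type*} [Field F] [Fintype F] {q : ℕ} (hF : Fintype.card F = q ^ 2) (n k : ℕ) (hn : 1 ≤ n) (hk : 2 * k ≤ n) (W : Submodule F (Fin n → F)) (hWk : Module.finrank F W = k) (hW : ∀ u ∈ W, ∀ v ∈ W, Cfsg.hermForm n F q u v = 0) : (q + 1) * Nat.card ↥((Cfsg.stabilizing (Cfsg.slToMat n F) (W : Set (Fin n → F))).subgroupOf (Cfsg.SU n F q)) = q ^ (k * (2 * n - 3 * k)) * (∏ i : Fin k, ((q ^ 2) ^ k - (q ^ 2) ^ (i : ℕ))) * (q ^ ((n - 2 * k) * ((n - 2 * k) - 1) / 2) * ∏ i ∈ Finset.range (n - 2 * k), (if Even i then q ^ (i + 1) + 1 else q ^ (i + 1) - 1)) := by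
  have h1 := card_stab_SU_mul hF n hn W hW
  have h2 := card_stab_GU_mul hF n k (by omega) W hWk hW
  have h3 : Nat.card ↥(Cfsg.GU n F q) = G q n := Cfsg.Agent.S0277.result hF n
  have h4 := arith q n k hk
  have hpos : 0 < Nat.card ↥(Cfsg.GU n F q) := Nat.card_pos
  have hFr : 0 < ∏ i ∈ Finset.range k, (q ^ (2 * i) * isoCount q (n - 2 * i)) := by
    rcases Nat.eq_zero_or_pos (∏ i ∈ Finset.range k, (q ^ (2 * i) * isoCount q (n - 2 * i))) with h | h
    · rw [h, mul_zero] at h4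
      omega
    · exact h
  rw [h1]
  apply Nat.eq_of_mul_eq_mul_right hFr
  rw [h2, h3, ← h4]
  unfold G
  ring

end Cfsg.Agent.S0782
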