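import Cfsg.Statements.S0785
-- import your own Cfsg.Agent.* helpers here
import Cfsg.Agent.Lib.Helper17.Refl

set_option autoImplicit false
open Cfsg

namespace Cfsg.Agent.S0785



/-- det(I) = {±1}: for a quadratic form on F^n whose polar form is non-degenerate, every element of the isometry group has determinant 1 or −1, and as soon as Q takes a non-zero value some isometry has determinant −1. -/
theorem result {F : Type*} [Field F] {n : ℕ} (Q : QuadraticForm F (Fin n → F)) (hQ : (QuadraticMap.polarBilin Q).Nondegenerate) : (∀ g : ↥(Cfsg.isometryGroup F ⇑Q), ((g : Matrix.GeneralLinearGroup (Fin n) F) : Matrix (Fin n) (Fin n) F).det = 1 ∨ ((g : Matrix.GeneralLinearGroup (Fin n) F) : Matrix (Fin n) (Fin n) F).det = -1) ∧ ((∃ v, Q v ≠ 0) → ∃ g : ↥(Cfsg.isometryGroup F ⇑Q), ((g : Matrix.GeneralLinearGroup (Fin n) F) : Matrix (Fin n) (Fin n) F).det = -1) := by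
  constructor
  · intro g
    set A : Matrix (Fin n) (Fin n) F := ((g : Matrix.GeneralLinearGroup (Fin n) F) : Matrix (Fin n) (Fin n) F) with hA
    have hg : ∀ x, Q (A.mulVec x) = Q x := (Cfsg.Agent.Lib.Helper17.mem_isometryGroup_iff _ _).mp g.2
    set B : LinearMap.BilinForm F (Fin n → F) := QuadraticMap.polarBilin Q with hBdef
    have hcomp : B.comp (Matrix.toLin' A) (Matrix.toLin' A) = B := by
      ext x y
      simp only [LinearMap.BilinForm.comp_apply, Matrix.toLin'_apply, hBdef, QuadraticMap.polarBilin_apply_apply,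
        QuadraticMap.polar, LinearMap.coe_comp, Function.comp_apply, LinearMap.coe_single]
      rw [← Matrix.mulVec_add, hg, hg, hg]
    have hM := congrArg LinearMap.BilinForm.toMatrix' hcomp
    rw [LinearMap.BilinForm.toMatrix'_comp, LinearMap.toMatrix'_toLin'] at hM
    have hdet := congrArg Matrix.det hM
    rw [Matrix.det_mul, Matrix.det_mul, Matrix.det_transpose] at hdet
    have hne : (LinearMap.BilinForm.toMatrix' B).det ≠ 0 :=
      (LinearMap.BilinForm.nondegenerate_toMatrix'_iff.mpr hQ).det_ne_zero
    have h1 : (A.det - 1) * (A.det + 1) = 0 := by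
      have : (A.det * A.det - 1) * (LinearMap.BilinForm.toMatrix' B).det = 0 := by linear_combination hdet
      rcases mul_eq_zero.mp this with h | h
      · linear_combination h
      · exact absurd h hne
    rcases mul_eq_zero.mp h1 with h | h
    · left; linear_combination h
    · right; linear_combination h
  · rintro ⟨v, hv⟩
    exact ⟨Cfsg.Agent.Lib.Helper17.reflIso Q v hv, by
      rw [Cfsg.Agent.Lib.Helper17.reflIso_coe, Cfsg.Agent.Lib.Helper17.reflectionMatrix_det Q v hv]⟩

end Cfsg.Agent.S0785
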