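import Cfsg.Statements.S0792
import Cfsg.Agent.Lib.Helper18.OrthCD

set_option autoImplicit false
open Cfsg
open Cfsg.Agent.Lib.Helper18

namespace Cfsg.Agent.S0792

/-- For q odd and Q with non-degenerate polar form on F^n, the determinant-one isometries form the subgroup generated by all products r_u r_v of two reflections (Q(u), Q(v) ≠ 0). -/
theorem result {F : Type*} [Field F] [Fintype F] (h2 : (2 : F) ≠ 0) {n : ℕ} (Q : QuadraticForm F (Fin n → F)) (hQ : (QuadraticMap.polarBilin Q).Nondegenerate) : Cfsg.specialIsometryGroup F ⇑Q = Subgroup.closure {g : ↥(Cfsg.isometryGroup F ⇑Q) | ∃ u v : Fin n → F, Q u ≠ 0 ∧ Q v ≠ 0 ∧ ((g : Matrix.GeneralLinearGroup (Fin n) F) : Matrix (Fin n) (Fin n) F) = Cfsg.reflectionMatrix ⇑Q u * Cfsg.reflectionMatrix ⇑Q v} := by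
  have hmem : ∀ g : ↥(Cfsg.isometryGroup F ⇑Q),
      g ∈ Cfsg.specialIsometryGroup F ⇑Q ↔ (mat g).det = 1 := by
    intro g
    unfold Cfsg.specialIsometryGroup
    rw [MonoidHom.mem_ker, Units.ext_iff]
    rfl
  set S : Set ↥(Cfsg.isometryGroup F ⇑Q) := {g : ↥(Cfsg.isometryGroup F ⇑Q) | ∃ u v : Fin n → F, Q u ≠ 0 ∧ Q v ≠ 0 ∧ ((g : Matrix.GeneralLinearGroup (Fin n) F) : Matrix (Fin n) (Fin n) F) = Cfsg.reflectionMatrix ⇑Q u * Cfsg.reflectionMatrix ⇑Q v} with hS
  have hpair : ∀ u v : Fin n → F, Q u ≠ 0 → Q v ≠ 0 → refl Q u * refl Q v ∈ Subgroup.closure S := by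
    intro u v hu hv
    exact Subgroup.subset_closure ⟨u, v, hu, hv, rfl⟩
  have hdetmul : ∀ g h : ↥(Cfsg.isometryGroup F ⇑Q), (mat (g * h)).det = (mat g).det * (mat h).det := by
    intro g h
    show (mat g * mat h).det = _
    rw [Matrix.det_mul]
  apply le_antisymm
  · intro g hg
    rw [hmem] at hg
    have hP : ∀ g : ↥(Cfsg.isometryGroup F ⇑Q), g ∈ Subgroup.closure (reflSet Q) →
        ((mat g).det = 1 ∧ g ∈ Subgroup.closure S) ∨
        ((mat g).det = -1 ∧ ∀ v, Q v ≠ 0 → refl Q v * g ∈ Subgroup.closure S) := by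
      intro g hg
      have step : ∀ x ∈ reflSet Q, ∀ y : ↥(Cfsg.isometryGroup F ⇑Q),
          (((mat y).det = 1 ∧ y ∈ Subgroup.closure S) ∨
            ((mat y).det = -1 ∧ ∀ v, Q v ≠ 0 → refl Q v * y ∈ Subgroup.closure S)) →
          (((mat (x * y)).det = 1 ∧ x * y ∈ Subgroup.closure S) ∨
            ((mat (x * y)).det = -1 ∧ ∀ v, Q v ≠ 0 → refl Q v * (x * y) ∈ Subgroup.closure S)) := by
        rintro x ⟨u, hu, rfl⟩ y (⟨hd, hy⟩ | ⟨hd, hy⟩)
        · right
          refine ⟨by rw [hdetmul, hd, mat_refl, det_reflectionMatrix Q hu]; ring, fun v hv => ?_⟩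
          rw [← mul_assoc]
          exact Subgroup.mul_mem _ (hpair v u hv hu) hy
        · left
          exact ⟨by rw [hdetmul, hd, mat_refl, det_reflectionMatrix Q hu]; ring, hy u hu⟩
      induction hg using Subgroup.closure_induction_left with
      | one => left; exact ⟨by simp [mat], Subgroup.one_mem _⟩
      | mul_left x hx y _ ih => exact step x hx y ih
      | inv_mul_cancel x hx y _ ih =>
        obtain ⟨u, hu, rfl⟩ := hx
        rw [refl_inv]
        exact step _ ⟨u, hu, rfl⟩ y ih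
    rcases hP g (by rw [closure_reflSet_eq_top Q h2 hQ]; trivial) with ⟨_, h⟩ | ⟨hd, _⟩
    · exact h
    · exfalso
      rw [hg] at hd
      apply h2
      linear_combination hd
  · rw [Subgroup.closure_le]
    rintro g ⟨u, v, hu, hv, hg⟩
    rw [SetLike.mem_coe, hmem]
    show (((g : Matrix.GeneralLinearGroup (Fin n) F) : Matrix (Fin n) (Fin n) F)).det = 1
    rw [hg, Matrix.det_mul, det_reflectionMatrix Q hu, det_reflectionMatrix Q hv]
    ring

end Cfsg.Agent.S0792
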