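import Cfsg.Statements.S0793
import Cfsg.Agent.Lib.Helper18.OrthBasic

set_option autoImplicit false
open Cfsg
open Cfsg.Agent.Lib.Helper18

namespace Cfsg.Agent.S0793

/-- Root elements: if Q(u) = Q(v) = 0 and f(u, v) = 0 (f the polar form), then for every c the Siegel matrix T_(u,v)(c) preserves Q, fixes u and v, and T(c) T(d) = T(c + d). -/
theorem result {F : Type*} [Field F] {n : ℕ} (Q : QuadraticForm F (Fin n → F)) (u v : Fin n → F) (hu : Q u = 0) (hv : Q v = 0) (huv : QuadraticMap.polar ⇑Q u v = 0) : (∀ c x, Q ((Cfsg.siegelMatrix ⇑Q u v c).mulVec x) = Q x) ∧ (∀ c, (Cfsg.siegelMatrix ⇑Q u v c).mulVec u = u ∧ (Cfsg.siegelMatrix ⇑Q u v c).mulVec v = v) ∧ ∀ c d, Cfsg.siegelMatrix ⇑Q u v c * Cfsg.siegelMatrix ⇑Q u v d = Cfsg.siegelMatrix ⇑Q u v (c + d) := by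
  have huu : QuadraticMap.polar ⇑Q u u = 0 := by rw [QuadraticMap.polar_self, hu, smul_zero]
  have hvv : QuadraticMap.polar ⇑Q v v = 0 := by rw [QuadraticMap.polar_self, hv, smul_zero]
  have hvu : QuadraticMap.polar ⇑Q v u = 0 := by rw [QuadraticMap.polar_comm, huv]
  refine ⟨?_, ?_, ?_⟩
  · intro c x
    rw [siegelMatrix_mulVec, QuadraticMap.map_add (⇑Q), QuadraticMap.map_smul, sub_eq_add_neg, ← neg_smul,
      QuadraticMap.map_add (⇑Q), QuadraticMap.map_smul, QuadraticMap.map_smul, hu, hv]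
    simp only [QuadraticMap.polar_smul_right, QuadraticMap.polar_smul_left, QuadraticMap.polar_add_right,
      hvu, smul_eq_mul, QuadraticMap.polar_comm (⇑Q) x u, QuadraticMap.polar_comm (⇑Q) x v]
    ring
  · intro c
    constructor
    · rw [siegelMatrix_mulVec, huu, hvu]; simp
    · rw [siegelMatrix_mulVec, huv, hvv]; simp
  · intro c d
    rw [Matrix.ext_iff_mulVec]
    intro x
    rw [← Matrix.mulVec_mulVec, siegelMatrix_mulVec, siegelMatrix_mulVec, siegelMatrix_mulVec]
    simp only [QuadraticMap.polar_smul_right, QuadraticMap.polar_add_right, QuadraticMap.polar_sub_right,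
      huu, hvv, huv, hvu, smul_eq_mul, mul_zero, sub_zero, add_zero]
    rw [add_smul, add_assoc, add_comm (d • _)]

end Cfsg.Agent.S0793
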