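import Cfsg.Statements.S0794
import Cfsg.Agent.Lib.Helper18.OrthCD
import Cfsg.Agent.S0793

set_option autoImplicit false
open Cfsg
open Cfsg.Agent.Lib.Helper18 QuadraticMap

namespace Cfsg.Agent.S0794

theorem comm_of_mul_eq {G : Type*} [Group G] (a b t : G) (h : a * b = t * b * a) :
    t ∈ commutatorSet G := by
  refine ⟨a, b, ?_⟩
  rw [commutatorElement_def, h]
  group

section
variable {F : Type*} [Field F] {ι : Type} [Fintype ι] [DecidableEq ι] (Q : QuadraticForm F (ι → F))

/-- a vector orthogonal to `v` but not to `u`, for independent `u`, `v` -/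
theorem exists_partner (hQ : (QuadraticMap.polarBilin Q).Nondegenerate) (u v : ι → F)
    (hv0 : v ≠ 0) (hind : ∀ l : F, u ≠ l • v) :
    ∃ w, polar ⇑Q u w = 1 ∧ polar ⇑Q v w = 0 := by
  have hsep : ∀ x : ι → F, (∀ y, polar ⇑Q x y = 0) → x = 0 := fun x hx => hQ.1 x hx
  obtain ⟨w0, hw0⟩ : ∃ w0, polar ⇑Q v w0 ≠ 0 := by
    by_contra hcon
    push Not at hcon
    exact hv0 (hsep v hcon)
  obtain ⟨w, hw1, hw2⟩ : ∃ w, polar ⇑Q v w = 0 ∧ polar ⇑Q u w ≠ 0 := by
    by_contra hcon
    push Not at hcon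
    apply hind (polar ⇑Q u w0 / polar ⇑Q v w0)
    rw [← sub_eq_zero]
    apply hsep
    intro x
    have h1 := hcon (x - (polar ⇑Q v x / polar ⇑Q v w0) • w0) (by
      rw [polar_sub_right, polar_smul_right, smul_eq_mul]
      field_simp
      ring)
    rw [polar_sub_right, polar_smul_right, smul_eq_mul] at h1
    rw [polar_sub_left, polar_smul_left, smul_eq_mul]
    field_simp at h1 ⊢
    linear_combination h1
  refine ⟨(polar ⇑Q u w)⁻¹ • w, ?_, ?_⟩
  · rw [polar_smul_right, smul_eq_mul, inv_mul_cancel₀ hw2]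
  · rw [polar_smul_right, hw1, smul_zero]

end

/-- For q odd, n ≥ 5 and Q with non-degenerate polar form: an isometry whose matrix is a Siegel transformation T_(u,v)(c) (u, v singular and orthogonal) is a commutator in the isometry group, so lies in Ω. -/
theorem result {F : Type*} [Field F] [Fintype F] (h2 : (2 : F) ≠ 0) {n : ℕ} (hn : 5 ≤ n) (Q : QuadraticForm F (Fin n → F)) (hQ : (QuadraticMap.polarBilin Q).Nondegenerate) (u v : Fin n → F) (hu : Q u = 0) (hv : Q v = 0) (huv : QuadraticMap.polar ⇑Q u v = 0) (c : F) (g : ↥(Cfsg.isometryGroup F ⇑Q)) (hg : ((g : Matrix.GeneralLinearGroup (Fin n) F) : Matrix (Fin n) (Fin n) F) = Cfsg.siegelMatrix ⇑Q u v c) : g ∈ commutatorSet ↥(Cfsg.isometryGroup F ⇑Q) ∧ g ∈ Cfsg.Omega F ⇑Q := by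
  have huu : polar ⇑Q u u = 0 := by rw [polar_self, hu, smul_zero]
  have hvv : polar ⇑Q v v = 0 := by rw [polar_self, hv, smul_zero]
  have hvu : polar ⇑Q v u = 0 := by rw [polar_comm, huv]
  have hactg : ∀ x, act g x = x + c • (polar ⇑Q u x • v - polar ⇑Q v x • u) := by
    intro x
    rw [act_def]
    show ((g : Matrix.GeneralLinearGroup (Fin n) F) : Matrix (Fin n) (Fin n) F).mulVec x = _
    rw [hg, siegelMatrix_mulVec]
  suffices hmain : g ∈ commutatorSet ↥(Cfsg.isometryGroup F ⇑Q) by
    refine ⟨hmain, ?_⟩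
    show g ∈ commutator _
    rw [commutator_eq_closure]
    exact Subgroup.subset_closure hmain
  have htriv : (∀ x, polar ⇑Q u x • v - polar ⇑Q v x • u = 0) →
      g ∈ commutatorSet ↥(Cfsg.isometryGroup F ⇑Q) := by
    intro h
    have : g = 1 := by
      apply ext_act
      intro x
      rw [hactg, h, smul_zero, add_zero, act_one]
    rw [this]
    exact ⟨1, 1, by simp⟩
  by_cases hv0 : v = 0
  · apply htriv
    intro x
    subst hv0
    simp
  by_cases hind : ∃ l : F, u = l • v
  · obtain ⟨l, rfl⟩ := hind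
    apply htriv
    intro x
    rw [polar_smul_left, smul_smul, smul_eq_mul, mul_comm, sub_self]
  push Not at hind
  obtain ⟨w, hw1, hw2⟩ := exists_partner Q hQ u v hv0 hind
  set u' := w - Q w • u with hu'
  have hQu' : Q u' = 0 := by
    rw [hu', Q_sub, QuadraticMap.map_smul, polar_smul_right, polar_comm, hw1, hu]
    simp
  have huu' : polar ⇑Q u u' = 1 := by
    rw [hu', polar_sub_right, polar_smul_right, huu, hw1]; simp
  have hvu' : polar ⇑Q v u' = 0 := by
    rw [hu', polar_sub_right, polar_smul_right, hvu, hw2]; simp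
  have hu'u' : polar ⇑Q u' u' = 0 := by rw [polar_self, hQu', smul_zero]
  have hQp : Q (u + u') = 1 := by rw [QuadraticMap.map_add (⇑Q), hu, hQu', huu']; ring
  have hQm : Q (u - u') = -1 := by rw [Q_sub, hu, hQu', huu']; ring
  obtain ⟨h, hhu, hhv⟩ : ∃ h : ↥(Cfsg.isometryGroup F ⇑Q), act h u = -u ∧ act h v = v := by
    refine ⟨refl Q (u + u') * refl Q (u - u'), ?_, ?_⟩
    · have h1 : act (refl Q (u - u')) u = u' := by
        rw [act_refl, hQm, polar_sub_left, huu, polar_comm (⇑Q) u' u, huu']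
        have : ((-1 : F))⁻¹ * (0 - 1) = 1 := by norm_num
        rw [this, one_smul]; abel
      rw [act_mul, h1, act_refl, hQp, polar_add_left, huu', hu'u']
      have : ((1 : F))⁻¹ * (1 + 0) = 1 := by norm_num
      rw [this, one_smul]; abel
    · have h1 : act (refl Q (u - u')) v = v :=
        act_refl_of_polar_eq_zero Q (by rw [polar_sub_left, huv, polar_comm, hvu', sub_zero])
      have h3 : act (refl Q (u + u')) v = v :=
        act_refl_of_polar_eq_zero Q (by rw [polar_add_left, huv, polar_comm, hvu', add_zero])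
      rw [act_mul, h1, h3]
  obtain ⟨hT1, -, hT3⟩ := Cfsg.Agent.S0793.result Q u v hu hv huv
  have hT0 : Cfsg.siegelMatrix ⇑Q u v 0 = 1 := by simp [Cfsg.siegelMatrix]
  set c' : F := -c / 2 with hc'
  let t : ↥(Cfsg.isometryGroup F ⇑Q) :=
    mkIso (Cfsg.siegelMatrix ⇑Q u v c') (Cfsg.siegelMatrix ⇑Q u v (-c'))
      (by rw [hT3, add_neg_cancel, hT0]) (by rw [hT3, neg_add_cancel, hT0]) (hT1 c')
  have hactt : ∀ x, act t x = x + c' • (polar ⇑Q u x • v - polar ⇑Q v x • u) := by
    intro x
    exact siegelMatrix_mulVec Q u v c' x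
  apply comm_of_mul_eq h t g
  apply ext_act
  intro x
  have e1 : polar ⇑Q u (act h x) = - polar ⇑Q u x := by
    have := polar_act h u x
    rw [hhu, polar_neg_left] at this
    rw [← this, neg_neg]
  have e2 : polar ⇑Q v (act h x) = polar ⇑Q v x := by
    have := polar_act h v x
    rwa [hhv] at this
  rw [act_mul, act_mul, act_mul, hactt, hactg, hactt, act_add, act_smul, act_sub, act_smul, act_smul,
    hhu, hhv]
  simp only [polar_add_right, polar_smul_right, polar_sub_right, e1, e2, huu, hvv, huv, hvu, smul_eq_mul,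
    mul_zero, sub_zero, add_zero]
  have hcc : c = -2 * c' := by rw [hc']; field_simp
  rw [hcc]
  module

end Cfsg.Agent.S0794
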