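import Cfsg.Statements.S0795
-- import your own Cfsg.Agent.* helpers here
import Cfsg.Agent.Lib.Helper17.OmSiegFive
import Cfsg.Agent.Lib.Helper49.Transfer
import Cfsg.Agent.S0794

set_option autoImplicit false
open Cfsg

namespace Cfsg.Agent.S0795



/-- Generation of Ω by root elements: for q odd, n ≥ 5 and Q with non-degenerate polar form on F^n, the commutator subgroup of the isometry group equals the subgroup generated by the isometries whose matrices are Siegel transformations T_(u,v)(c) with u, v singular and orthogonal. -/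
theorem result {F : Type*} [Field F] [Fintype F] (h2 : (2 : F) ≠ 0) {n : ℕ} (hn : 5 ≤ n) (Q : QuadraticForm F (Fin n → F)) (hQ : (QuadraticMap.polarBilin Q).Nondegenerate) : Cfsg.Omega F ⇑Q = Subgroup.closure {g : ↥(Cfsg.isometryGroup F ⇑Q) | ∃ (u v : Fin n → F) (c : F), Q u = 0 ∧ Q v = 0 ∧ QuadraticMap.polar ⇑Q u v = 0 ∧ ((g : Matrix.GeneralLinearGroup (Fin n) F) : Matrix (Fin n) (Fin n) F) = Cfsg.siegelMatrix ⇑Q u v c} := by
  apply le_antisymm
  · intro g hg
    set C : Subgroup ↥(Cfsg.isometryGroup F ⇑Q) := Subgroup.closure {g : ↥(Cfsg.isometryGroup F ⇑Q) | ∃ (u v : Fin n → F) (c : F), Q u = 0 ∧ Q v = 0 ∧ QuadraticMap.polar ⇑Q u v = 0 ∧ ((g : Matrix.GeneralLinearGroup (Fin n) F) : Matrix (Fin n) (Fin n) F) = Cfsg.siegelMatrix ⇑Q u v c} with hC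
    have key := Cfsg.Agent.Lib.Helper17.OmSiegFive.commutator_le_of_sg hQ h2
      (by rw [Module.finrank_fin_fun]; omega)
      (C.map (Cfsg.Agent.Lib.Helper49.isoEquiv Q).toMonoidHom) (by
        intro u v h
        refine ⟨(Cfsg.Agent.Lib.Helper49.isoEquiv Q).symm (Cfsg.Agent.Lib.Helper95.sg h), ?_, ?_⟩
        · apply Subgroup.subset_closure
          refine ⟨u, v, 1, h.qu, h.qv, h.uv, ?_⟩
          apply Matrix.mulVec_injective
          funext x
          rw [Cfsg.Agent.Lib.Helper49.isoEquiv_symm_mulVec,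
            Cfsg.Agent.Lib.Helper18.siegelMatrix_mulVec, Cfsg.Agent.Lib.Helper95.sg_apply,
            one_smul]
          abel
        · simp)
    obtain ⟨c, hc, hcg⟩ := key ((Cfsg.Agent.Lib.Helper49.mem_Omega_iff Q g).1 hg)
    have : c = g := (Cfsg.Agent.Lib.Helper49.isoEquiv Q).injective hcg
    rw [← this]; exact hc
  · rw [Subgroup.closure_le]
    rintro g ⟨u, v, c, hu, hv, huv, hg⟩
    exact (Cfsg.Agent.S0794.result h2 hn Q hQ u v hu hv huv c g hg).2

end Cfsg.Agent.S0795
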