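import Cfsg.Statements.S0796
-- import your own Cfsg.Agent.* helpers here

set_option autoImplicit false
open Cfsg

namespace Cfsg.Agent.S0796

/-- If G is finite and acts faithfully and primitively on X, H is the stabiliser of a point, A is a normal subgroup of H whose normal closure in G is G, then for every non-trivial normal subgroup K of G the quotient G ⧸ K is isomorphic to A ⧸ B for some normal subgroup B of A. -/
theorem result {G X : Type*} [Group G] [Finite G] [MulAction G X] [FaithfulSMul G X] (hprim : MulAction.IsPreprimitive G X) (x : X) (A : Subgroup G) (hA : A ≤ MulAction.stabilizer G x) (hAn : (A.subgroupOf (MulAction.stabilizer G x)).Normal) (hgen : Subgroup.normalClosure (A : Set G) = ⊤) (K : Subgroup G) [K.Normal] (hK : K ≠ ⊥) : ∃ (B : Subgroup A) (_ : B.Normal), Nonempty (G ⧸ K ≃* A ⧸ B) := by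
  classical
  have := hprim
  have hfix : MulAction.fixedPoints K X ≠ Set.univ := by
    intro h
    apply hK
    refine K.eq_bot_iff_forall.mpr fun n hn => ?_
    apply FaithfulSMul.eq_of_smul_eq_smul (α := X)
    intro y
    rw [one_smul]
    exact Set.eq_univ_iff_forall.mp h y ⟨n, hn⟩
  have htrans : MulAction.IsPretransitive K X :=
    MulAction.IsQuasiPreprimitive.isPretransitive_of_normal hfix
  have hsup : A ⊔ K = ⊤ := by
    rw [eq_top_iff, ← hgen, Subgroup.normalClosure, Subgroup.closure_le]
    intro y hy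
    rw [Group.mem_conjugatesOfSet_iff] at hy
    obtain ⟨a, ha, hc⟩ := hy
    rw [isConj_iff] at hc
    obtain ⟨g, rfl⟩ := hc
    obtain ⟨k, hk⟩ := MulAction.exists_smul_eq K x (g • x)
    have hkx : (k : G) • x = g • x := hk
    set h : G := (k : G)⁻¹ * g with hh
    have hstab : h ∈ MulAction.stabilizer G x := by
      rw [MulAction.mem_stabilizer_iff, hh, mul_smul, ← hkx, inv_smul_smul]
    have hconj : h * a * h⁻¹ ∈ A := by
      have := hAn.conj_mem ⟨a, hA ha⟩ (by simpa [Subgroup.mem_subgroupOf] using ha) ⟨h, hstab⟩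
      simpa [Subgroup.mem_subgroupOf] using this
    have hg : g = k * h := by rw [hh]; group
    have : g * a * g⁻¹ = k * (h * a * h⁻¹) * (k : G)⁻¹ := by rw [hg]; group
    rw [SetLike.mem_coe, this]
    have hk' : (k : G) ∈ A ⊔ K := Subgroup.mem_sup_right k.2
    exact (A ⊔ K).mul_mem ((A ⊔ K).mul_mem hk' (Subgroup.mem_sup_left hconj)) ((A ⊔ K).inv_mem hk')
  let φ : A →* G ⧸ K := (QuotientGroup.mk' K).comp A.subtype
  have hsurj : Function.Surjective φ := by
    intro y
    obtain ⟨g, rfl⟩ := QuotientGroup.mk'_surjective K y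
    have hg : g ∈ ((A ⊔ K : Subgroup G) : Set G) := by rw [hsup]; trivial
    rw [Subgroup.mul_normal] at hg
    obtain ⟨a, ha, k, hk, rfl⟩ := hg
    refine ⟨⟨a, ha⟩, ?_⟩
    show (QuotientGroup.mk' K) a = (QuotientGroup.mk' K) (a * k)
    have hk1 : (QuotientGroup.mk' K) k = 1 := (QuotientGroup.eq_one_iff (N := K) k).mpr hk
    rw [map_mul, hk1, mul_one]
  exact ⟨φ.ker, inferInstance, ⟨(QuotientGroup.quotientKerEquivOfSurjective φ hsurj).symm⟩⟩

end Cfsg.Agent.S0796
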