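import Cfsg.Statements.S0797
import Cfsg.Agent.Lib.Helper18.OrthOmega

set_option autoImplicit false
open Cfsg
open Cfsg.Agent.Lib.Helper18

namespace Cfsg.Agent.S0797

theorem commutator_le_of_index_two {G : Type*} [Group G] (H : Subgroup G) (h : H.index = 2) :
    commutator G ≤ H := by
  rw [commutator_eq_closure, Subgroup.closure_le]
  rintro _ ⟨a, b, rfl⟩
  rw [SetLike.mem_coe, commutatorElement_def, Subgroup.mul_mem_iff_of_index_two h,
    Subgroup.mul_mem_iff_of_index_two h, Subgroup.mul_mem_iff_of_index_two h, inv_mem_iff, inv_mem_iff]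
  tauto

theorem card_index_two_klein :
    Nat.card {H : Subgroup (ℤˣ × ℤˣ) // H.index = 2} = 3 := by
  have hcardK : Nat.card (ℤˣ × ℤˣ) = 4 := by rw [Nat.card_prod]; simp
  have hsq : ∀ x : ℤˣ × ℤˣ, x * x = 1 := by decide
  have hord : ∀ x : ℤˣ × ℤˣ, x ≠ 1 → orderOf x = 2 := by
    intro x hx
    exact orderOf_eq_prime (by rw [pow_two]; exact hsq x) hx
  have hidx : ∀ x : ℤˣ × ℤˣ, x ≠ 1 → (Subgroup.zpowers x).index = 2 := by
    intro x hx
    have h1 := Subgroup.card_mul_index (Subgroup.zpowers x)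
    rw [Nat.card_zpowers, hord x hx, hcardK] at h1
    omega
  let f : {x : ℤˣ × ℤˣ // x ≠ 1} → {H : Subgroup (ℤˣ × ℤˣ) // H.index = 2} :=
    fun x => ⟨Subgroup.zpowers x.1, hidx x.1 x.2⟩
  have hmemz : ∀ x y : ℤˣ × ℤˣ, y ∈ Subgroup.zpowers x → y = 1 ∨ y = x := by
    intro x y hy
    obtain ⟨k, rfl⟩ := Subgroup.mem_zpowers_iff.1 hy
    rcases Int.even_or_odd' k with ⟨m, rfl | rfl⟩
    · left
      rw [zpow_mul, zpow_two, hsq, one_zpow]
    · right
      rw [zpow_add, zpow_mul, zpow_two, hsq, one_zpow, one_mul, zpow_one]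
  have hf : Function.Bijective f := by
    constructor
    · intro x y hxy
      have h1 : Subgroup.zpowers x.1 = Subgroup.zpowers y.1 := congrArg Subtype.val hxy
      have h2 : y.1 ∈ Subgroup.zpowers x.1 := by rw [h1]; exact Subgroup.mem_zpowers _
      rcases hmemz _ _ h2 with h3 | h3
      · exact absurd h3 y.2
      · exact Subtype.ext h3.symm
    · rintro ⟨H, hH⟩
      have h1 := Subgroup.card_mul_index H
      rw [hH, hcardK] at h1
      have hcH : Nat.card H = 2 := by omega
      have hne : H ≠ ⊥ := by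
        rintro rfl
        simp at hcH
      obtain ⟨x, hxH, hx1⟩ : ∃ x ∈ H, x ≠ 1 := by
        by_contra hcon
        push Not at hcon
        exact hne ((Subgroup.eq_bot_iff_forall H).2 hcon)
      refine ⟨⟨x, hx1⟩, Subtype.ext ?_⟩
      show Subgroup.zpowers x = H
      have hle : Subgroup.zpowers x ≤ H := by
        rw [Subgroup.zpowers_le]; exact hxH
      apply Subgroup.eq_of_le_of_card_ge hle
      rw [hcH, Nat.card_zpowers, hord x hx1]
  rw [← Nat.card_congr (Equiv.ofBijective f hf)]
  rw [Nat.card_eq_fintype_card]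
  decide

/-- O^ε_2m(q) ≅ Ω.2² for q odd: if F is finite of odd characteristic, n ≥ 2 is even and Q has non-degenerate polar form on F^n, the isometry group of Q has exactly three subgroups of index 2. -/
theorem result {F : Type*} [Field F] [Fintype F] (h2 : (2 : F) ≠ 0) {n : ℕ} (hn : 2 ≤ n) (heven : Even n) (Q : QuadraticForm F (Fin n → F)) (hQ : (QuadraticMap.polarBilin Q).Nondegenerate) : Nat.card {H : Subgroup ↥(Cfsg.isometryGroup F ⇑Q) // H.index = 2} = 3 := by
  obtain ⟨δ, hδ⟩ := FiniteField.exists_nonsquare (ringChar_ne_two h2)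
  have hn' : 2 ≤ Fintype.card (Fin n) := by simpa using hn
  have hker := commutator_eq_ker Q h2 hQ hn' hδ
  have hsurj := sgn_prod_surjective Q h2 hQ hn' hδ
  set φ := (sgn ⇑Q 1).prod (sgn ⇑Q δ) with hφ
  rw [← card_index_two_klein]
  apply Nat.card_congr
  refine
    { toFun := fun H => ⟨H.1.map φ, ?_⟩
      invFun := fun H => ⟨H.1.comap φ, ?_⟩
      left_inv := ?_
      right_inv := ?_ }
  · rw [Subgroup.index_map_eq _ hsurj (by rw [← hker]; exact commutator_le_of_index_two _ H.2)]
    exact H.2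
  · rw [Subgroup.index_comap_of_surjective _ hsurj]
    exact H.2
  · intro H
    apply Subtype.ext
    exact Subgroup.comap_map_eq_self (by rw [← hker]; exact commutator_le_of_index_two _ H.2)
  · intro H
    apply Subtype.ext
    exact Subgroup.map_comap_eq_self_of_surjective hsurj _

end Cfsg.Agent.S0797
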