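import Cfsg.Statements.S0798
import Cfsg.Agent.Lib.Helper49.ReflClassMat

set_option autoImplicit false
open Cfsg Cfsg.Agent.Lib.Helper49

namespace Cfsg.Agent.S0798

/-- For q odd, n ≥ 2 even, Q with non-degenerate polar form (n, |F|) ≠ (4, 3), and a fixed c ≠ 0: the subgroup of the isometry group generated by the reflections r_v with Q(v) ∈ c·(F^×)² has index 2. -/
theorem result {F : Type*} [Field F] [Fintype F] (h2 : (2 : F) ≠ 0) {n : ℕ} (hn : 2 ≤ n) (heven : Even n) (Q : QuadraticForm F (Fin n → F)) (hQ : (QuadraticMap.polarBilin Q).Nondegenerate) (h43 : ¬ (n = 4 ∧ Fintype.card F = 3)) (c : F) (hc : c ≠ 0) : (Subgroup.closure {g : ↥(Cfsg.isometryGroup F ⇑Q) | ∃ (v : Fin n → F) (t : F), t ≠ 0 ∧ Q v = c * t ^ 2 ∧ ((g : Matrix.GeneralLinearGroup (Fin n) F) : Matrix (Fin n) (Fin n) F) = Cfsg.reflectionMatrix ⇑Q v}).index = 2 := by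
  rw [closure_sq_class_eq_comap, index_comap_isoEquiv]
  apply index_reflSub Q h2 hQ _ (by simpa using hn) hc
  rw [Module.finrank_fintype_fun_eq_card, Fintype.card_fin]
  by_cases hq : Fintype.card F = 3
  · right
    obtain ⟨k, hk⟩ := heven
    have : n ≠ 4 := fun h4 => h43 ⟨h4, hq⟩
    omega
  · exact Or.inl hq

end Cfsg.Agent.S0798
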