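import Cfsg.Statements.S0799
import Cfsg.Agent.Lib.Helper7.PSL2Exc
import Cfsg.Agent.Lib.Helper7.PSL2Tor
import Cfsg.Agent.Lib.Helper7.SL2
import Cfsg.Agent.Lib.Helper18.SL2.PartCFinal
-- import your own Cfsg.Agent.* helpers here

set_option autoImplicit false
open Cfsg

namespace Cfsg.Agent.S0799

open Matrix MatrixGroups Subgroup Cfsg.Agent.Lib.Helper46 Cfsg.Agent.Lib.Helper18.SL2
open Cfsg.Agent.Lib.Helper7 Cfsg.Agent.Lib.Helper7.PMax


/-- Dickson's classification of the subgroups of PSL_2(q), q a power of the prime p, d = gcd(2, q − 1): every subgroup H is (a) cyclic or dihedral with k dividing (q+1)/d or (q−1)/d (cyclic of order k, or dihedral of order 2k), (b) isomorphic to a subgroup of the normaliser of a Sylow p-subgroup, (c) isomorphic to A_4, S_4 or A_5, or (d) isomorphic to PSL_2(K) or PGL_2(K) for a finite field K with |K|^m = q. -/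
theorem result {F : Type*} [Field F] [Fintype F] {q : ℕ} (hF : Fintype.card F = q) (p : ℕ) [Fact p.Prime] [CharP F p] (H : Subgroup (Matrix.ProjectiveSpecialLinearGroup (Fin 2) F)) : (∃ k : ℕ, (k ∣ (q + 1) / Nat.gcd 2 (q - 1) ∨ k ∣ (q - 1) / Nat.gcd 2 (q - 1)) ∧ ((IsCyclic H ∧ Nat.card H = k) ∨ Nonempty (H ≃* DihedralGroup k))) ∨ (∃ (P : Sylow p (Matrix.ProjectiveSpecialLinearGroup (Fin 2) F)) (K : Subgroup (Matrix.ProjectiveSpecialLinearGroup (Fin 2) F)), K ≤ Subgroup.normalizer ((P : Subgroup (Matrix.ProjectiveSpecialLinearGroup (Fin 2) F)) : Set (Matrix.ProjectiveSpecialLinearGroup (Fin 2) F)) ∧ Nonempty (H ≃* K)) ∨ Nonempty (H ≃* alternatingGroup (Fin 4)) ∨ Nonempty (H ≃* Equiv.Perm (Fin 4)) ∨ Nonempty (H ≃* alternatingGroup (Fin 5)) ∨ (∃ (K : Type) (_ : Field K) (_ : Fintype K) (m : ℕ), Fintype.card K ^ m = q ∧ (Nonempty (H ≃* Matrix.ProjectiveSpecialLinearGroup (Fin 2) K) ∨ Nonempty (H ≃* Matrix.ProjGenLinGroup (Fin 2) K))) := by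
  classical
  subst hF
  have hzpos := zc_pos F
  rcases dickson p (pre H) (center_le_pre H) with ⟨g, hg⟩ | h | ⟨h, -⟩ | ⟨K, D, hIn, -⟩
  · right; left
    obtain ⟨PU, hPU⟩ := exists_sylow_eq_USL (F := F) p
    have hsurj : Function.Surjective
        (QuotientGroup.mk' (center (SpecialLinearGroup (Fin 2) F))) :=
      QuotientGroup.mk'_surjective _
    refine ⟨PU.mapSurjective hsurj,
      H.map (MulAut.conj (QuotientGroup.mk g :
        ProjectiveSpecialLinearGroup (Fin 2) F)).toMonoidHom, ?_,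
      ⟨H.equivMapOfInjective _ (MulEquiv.injective _)⟩⟩
    rintro _ ⟨a, ha, rfl⟩
    induction a using QuotientGroup.induction_on with | H x =>
    have hx : x ∈ pre H := ha
    have h1 := mem_normalizer_USL_of_lower_zero (hg x hx)
    have h2 := Subgroup.le_normalizer_map
      (QuotientGroup.mk' (center (SpecialLinearGroup (Fin 2) F))) (H := USL F)
      (Subgroup.mem_map_of_mem _ h1)
    rw [Sylow.coe_mapSurjective, hPU]
    exact h2
  · left
    obtain ⟨k, hk, hs⟩ := tor_struct H h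
    refine ⟨k, ?_, ?_⟩
    · rw [← zc_eq_gcd]
      rcases hk with hk | hk
      · left; exact Nat.dvd_div_of_mul_dvd hk
      · right; exact Nat.dvd_div_of_mul_dvd hk
    · rcases hs with hs | ⟨-, hs⟩
      · exact Or.inl hs
      · exact Or.inr hs
  · right; right
    rcases exc_recog h with h | h | h
    · exact Or.inl h
    · exact Or.inr (Or.inl h)
    · exact Or.inr (Or.inr (Or.inl h))
  · right; right; right; right; right
    have e : Shrink.{0} K ≃+* K := Shrink.ringEquiv.{0} K
    have : Fintype (Shrink.{0} K) := Fintype.ofFinite _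
    have hcard : Fintype.card (Shrink.{0} K) = Nat.card K := by
      rw [← Nat.card_eq_fintype_card]
      exact Nat.card_congr e.toEquiv
    refine ⟨Shrink.{0} K, inferInstance, inferInstance, Module.finrank K F, ?_, ?_⟩
    · rw [hcard, ← Module.natCard_eq_pow_finrank, Nat.card_eq_fintype_card]
    · rcases hIn.equiv H (fun g => Iff.rfl) with ⟨⟨f⟩⟩ | ⟨⟨f⟩⟩
      · left
        exact ⟨f.trans (Cfsg.Agent.Lib.Helper6.pslEquiv e.symm)⟩
      · right
        exact ⟨f.trans (pglEquiv e.symm)⟩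

end Cfsg.Agent.S0799
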