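import Cfsg.Statements.S0800
import Cfsg.Agent.Lib.Helper46.SL2Order

set_option autoImplicit false
open Cfsg
open Cfsg.Agent.Lib.Helper46

namespace Cfsg.Agent.S0800

/-- Tori of SL_2(q): if g ∈ SL_2(q) has order coprime to the characteristic p, then the order of g divides q − 1 or q + 1. -/
theorem result {F : Type*} [Field F] [Fintype F] {q : ℕ} (hF : Fintype.card F = q) (p : ℕ) [Fact p.Prime] [CharP F p] (g : Matrix.SpecialLinearGroup (Fin 2) F) (hg : Nat.Coprime (orderOf g) p) : orderOf g ∣ q - 1 ∨ orderOf g ∣ q + 1 := by
  subst hF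
  by_cases hns : ∀ a : F, a ^ 2 - tr g * a + 1 ≠ 0
  · right
    exact orderOf_dvd_of_pow_eq_one (pow_card_add_one_of_nonsplit g hns)
  · left
    push Not at hns
    obtain ⟨a, ha⟩ := hns
    by_cases ha2 : a ^ 2 = 1
    · have htr : tr g ^ 2 = 4 := by
        have h1 : tr g * a = 2 := by linear_combination ha2 - ha
        have h2 : tr g ^ 2 * a ^ 2 = 4 := by
          have : tr g ^ 2 * a ^ 2 = (tr g * a) ^ 2 := by ring
          rw [this, h1]; norm_num
        rwa [ha2, mul_one] at h2
      have hc := pow_char_mem_center p g htr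
      have h1 := sq_eq_one_of_mem_center _ hc
      have h2 : g ^ (p * 2) = 1 := by
        rw [pow_mul, pow_two]; exact h1
      have h3 : orderOf g ∣ p * 2 := orderOf_dvd_of_pow_eq_one h2
      have h4 : orderOf g ∣ 2 := hg.dvd_of_dvd_mul_left h3
      by_cases hp : p = 2
      · subst hp
        have : orderOf g ∣ 1 := by
          have := Nat.dvd_gcd (dvd_refl _) h4
          rwa [Nat.Coprime.gcd_eq_one hg] at this
        exact this.trans (one_dvd _)
      · apply h4.trans
        have hodd : Odd (Fintype.card F) := by
          obtain ⟨n, hp', hn⟩ := FiniteField.card F p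
          rw [hn]
          exact ((Fact.out : p.Prime).odd_of_ne_two hp).pow
        obtain ⟨k, hk⟩ := hodd
        rw [hk]
        simp
    · obtain ⟨u, P, hu, hP⟩ := conj_dd_of_root g a ha ha2
      apply orderOf_dvd_of_pow_eq_one
      rw [← hP, conj_pow', dd_pow]
      have : u ^ (Fintype.card F - 1) = 1 := by
        classical
        rw [← Fintype.card_units]
        exact pow_card_eq_one
      rw [this, dd_one]
      group

end Cfsg.Agent.S0800
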