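import Cfsg.Statements.S0805
-- import your own Cfsg.Agent.* helpers here
import Cfsg.Agent.Lib.Helper18.SL2.PGLSub
import Cfsg.Agent.Lib.Helper7.SL2Center
import Cfsg.Agent.Lib.Helper46.SL2Torus
import Cfsg.Agent.Lib.Helper46.SL2Spectrum

set_option autoImplicit false
open Cfsg

namespace Cfsg.Agent.S0805

set_option linter.unusedSimpArgs false
open Matrix MatrixGroups

theorem exists_ringHom {F K : Type*} [Field F] [Fintype F] [Field K] [Fintype K] (m : ℕ)
    (hm : 1 ≤ m) (h : Fintype.card K ^ m = Fintype.card F) : Nonempty (K →+* F) := by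
  obtain ⟨p, hchar⟩ := CharP.exists K
  have hp : Fact p.Prime := ⟨CharP.char_is_prime K p⟩
  have : NeZero m := ⟨by omega⟩
  have : Fintype (FiniteField.Extension K p m) := Fintype.ofFinite _
  have hc : Fintype.card (FiniteField.Extension K p m) = Fintype.card F := by
    rw [← h, ← Nat.card_eq_fintype_card, FiniteField.natCard_extension, Nat.card_eq_fintype_card]
  exact ⟨(FiniteField.ringEquivOfCardEq hc).toRingHom.comp
    (algebraMap K (FiniteField.Extension K p m))⟩

theorem exists_subgroup_of_pgl {F : Type*} [Field F] {A : Type*} [Group A]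
    (ψ : A →* PGL(Fin 2, F)) (hinj : Function.Injective ψ)
    (hr : ∀ a, ψ a ∈ (ProjectiveSpecialLinearGroup.toPGL (n := Fin 2) (R := F)).range) :
    ∃ H : Subgroup (ProjectiveSpecialLinearGroup (Fin 2) F), Nonempty (H ≃* A) := by
  let e := MonoidHom.ofInjective
    (ProjectiveSpecialLinearGroup.toPGL_injective (n := Fin 2) (R := F))
  let θ : A →* ProjectiveSpecialLinearGroup (Fin 2) F :=
    e.symm.toMonoidHom.comp (ψ.codRestrict _ hr)
  have hθ : Function.Injective θ := by
    intro a b hab
    apply hinj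
    have := e.symm.injective hab
    exact congrArg Subtype.val this
  exact ⟨θ.range, ⟨(MonoidHom.ofInjective hθ).symm⟩⟩

theorem card_PGL2 {K : Type*} [Field K] [Fintype K] :
    Nat.card (PGL(Fin 2, K)) = Fintype.card K * (Fintype.card K ^ 2 - 1) := by
  have hq : 2 ≤ Fintype.card K := Fintype.one_lt_card
  have h1 := Subgroup.card_eq_card_quotient_mul_card_subgroup (Subgroup.center (GL (Fin 2) K))
  have h2 : Nat.card (Subgroup.center (GL (Fin 2) K)) = Fintype.card K - 1 := by
    rw [GeneralLinearGroup.center_eq_range_scalar]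
    have hinj : Function.Injective (GeneralLinearGroup.scalar (Fin 2) : Kˣ →* GL (Fin 2) K) := by
      intro u v huv
      have := congrArg (fun M : GL (Fin 2) K => (M : Matrix (Fin 2) (Fin 2) K) 0 0) huv
      simp only [GeneralLinearGroup.coe_scalar] at this
      ext
      simpa using this
    rw [← Nat.card_congr (MonoidHom.ofInjective hinj).toEquiv, Nat.card_units,
      Nat.card_eq_fintype_card]
  rw [Matrix.card_GL_field, h2] at h1
  simp only [Fin.prod_univ_two, Fin.val_zero, Fin.val_one, pow_zero, pow_one] at h1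
  have h3 : Nat.card (PGL(Fin 2, K)) = Nat.card (GL (Fin 2) K ⧸ Subgroup.center (GL (Fin 2) K)) := rfl
  rw [h3]
  obtain ⟨r, hr⟩ : ∃ r, Fintype.card K = r + 2 := ⟨Fintype.card K - 2, by omega⟩
  rw [hr] at h1 ⊢
  have e1 : (r + 2) ^ 2 - (r + 2) = (r + 2) * (r + 1) := by
    have : (r + 2) ^ 2 = (r + 2) * (r + 1) + (r + 2) := by ring
    omega
  have e2 : r + 2 - 1 = r + 1 := by omega
  rw [e1, e2] at h1
  have : (r + 1) * (Nat.card (GL (Fin 2) K ⧸ Subgroup.center (GL (Fin 2) K))) =
      (r + 1) * ((r + 2) * ((r + 2) ^ 2 - 1)) := by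
    rw [mul_comm (r + 1), ← h1]; ring
  exact Nat.eq_of_mul_eq_mul_left (by omega) this

theorem geom_mod_two (x : ℕ) (hx : x % 2 = 1) (n : ℕ) :
    (∑ i ∈ Finset.range n, x ^ i) % 2 = n % 2 := by
  induction n with
  | zero => simp
  | succ n ih =>
    rw [Finset.sum_range_succ, Nat.add_mod, ih, Nat.pow_mod, hx, one_pow]
    omega

/-- Subfield subgroups: let F be a finite field of odd order q and K a finite field with |K|^m = q, m ≥ 1. Then PSL_2(F) has a subgroup isomorphic to PSL_2(K), and has a subgroup isomorphic to PGL_2(K) if and only if m is even. -/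
theorem result {F K : Type*} [Field F] [Fintype F] [Field K] [Fintype K] {q : ℕ} (hF : Fintype.card F = q) (hodd : Odd q) (m : ℕ) (hm : 1 ≤ m) (hK : Fintype.card K ^ m = q) : (∃ H : Subgroup (Matrix.ProjectiveSpecialLinearGroup (Fin 2) F), Nonempty (H ≃* Matrix.ProjectiveSpecialLinearGroup (Fin 2) K)) ∧ ((∃ H : Subgroup (Matrix.ProjectiveSpecialLinearGroup (Fin 2) F), Nonempty (H ≃* Matrix.ProjGenLinGroup (Fin 2) K)) ↔ Even m) := by
  classical
  subst hF
  obtain ⟨φ⟩ := exists_ringHom m hm hK
  have hoddF : Fintype.card F % 2 = 1 := Nat.odd_iff.mp hodd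
  have hoddK : Fintype.card K % 2 = 1 := by
    rw [← hK] at hodd
    by_contra h
    have hev : Even (Fintype.card K) := Nat.even_iff.mpr (by omega)
    have := hev.pow_of_ne_zero (n := m) (by omega)
    exact (Nat.not_even_iff_odd.mpr hodd) this
  have h2 : (2 : F) ≠ 0 := by
    rcases Cfsg.Agent.Lib.Helper46.parity_cases (F := F) with ⟨h, -⟩ | ⟨-, h⟩
    · exact h
    · omega
  have hch : ringChar F ≠ 2 := by
    intro h
    have := FiniteField.even_card_of_char_two h
    omega
  have hfinS : Finite (SpecialLinearGroup (Fin 2) F) := Cfsg.Agent.Lib.Helper46.finite_SL2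
  have hfinG : Finite (ProjectiveSpecialLinearGroup (Fin 2) F) := Quotient.finite _
  constructor
  · apply exists_subgroup_of_pgl
      ((ProjGenLinGroup.map (n := Fin 2) φ).comp ProjectiveSpecialLinearGroup.toPGL)
    · exact (Cfsg.Agent.Lib.Helper18.SL2.pgl_map_injective φ).comp
        ProjectiveSpecialLinearGroup.toPGL_injective
    · intro a
      obtain ⟨X, rfl⟩ := QuotientGroup.mk_surjective a
      show ProjGenLinGroup.map φ (ProjGenLinGroup.mk (SpecialLinearGroup.toGL X)) ∈ _
      rw [ProjGenLinGroup.map_mk]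
      apply Cfsg.Agent.Lib.Helper18.SL2.mk_mem_range_toPGL
      rw [GeneralLinearGroup.map_det]
      refine ⟨1, ?_⟩
      simp
  · constructor
    · rintro ⟨H, ⟨e⟩⟩
      by_contra hm2
      have hm2' : m % 2 = 1 := by
        rw [Nat.not_even_iff] at hm2
        exact hm2
      have h1 : Nat.card H = Fintype.card K * (Fintype.card K ^ 2 - 1) := by
        rw [Nat.card_congr e.toEquiv]
        exact card_PGL2
      obtain ⟨c, hc⟩ := Subgroup.card_subgroup_dvd_card H
      have h3 := Cfsg.Agent.Lib.Helper7.card_PSL2 (F := F) h2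
      rw [hc, h1, ← hK] at h3
      obtain ⟨a, ha⟩ : ∃ a, Fintype.card K = 2 * a + 1 := ⟨Fintype.card K / 2, by omega⟩
      have ha1 : 1 ≤ a := by
        have : 2 ≤ Fintype.card K := Fintype.one_lt_card
        omega
      rw [ha] at h3
      have e : (2 * a + 1) ^ 2 = 4 * a * (a + 1) + 1 := by ring
      have e3 : ((2 * a + 1) ^ m) ^ 2 = (4 * a * (a + 1) + 1) ^ m := by
        rw [← pow_mul, mul_comm m 2, pow_mul, e]
      rw [e3, e, ← geom_sum_mul_add (4 * a * (a + 1)) m, Nat.add_sub_cancel, Nat.add_sub_cancel] at h3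
      have hS := geom_mod_two (4 * a * (a + 1) + 1) (by
        have : 4 * a * (a + 1) = 2 * (2 * a * (a + 1)) := by ring
        omega) m
      set S := ∑ i ∈ Finset.range m, (4 * a * (a + 1) + 1) ^ i with hSdef
      have hpos : 0 < 4 * a * (a + 1) := by positivity
      have h4 : (4 * a * (a + 1)) * ((2 * a + 1) * c * 2) = (4 * a * (a + 1)) * ((2 * a + 1) ^ m * S) := by
        linarith
      have h5 := Nat.eq_of_mul_eq_mul_left hpos h4
      have h6 : ((2 * a + 1) ^ m * S) % 2 = 1 := by
        rw [Nat.mul_mod, Nat.pow_mod, hS, hm2']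
        have : (2 * a + 1) % 2 = 1 := by omega
        rw [this]
        simp
      omega
    · intro hev
      apply exists_subgroup_of_pgl (ProjGenLinGroup.map (n := Fin 2) φ)
        (Cfsg.Agent.Lib.Helper18.SL2.pgl_map_injective φ)
      intro a
      induction a using Matrix.ProjGenLinGroup.induction_on with | mk g =>
      rw [ProjGenLinGroup.map_mk]
      apply Cfsg.Agent.Lib.Helper18.SL2.mk_mem_range_toPGL
      rw [GeneralLinearGroup.map_det]
      show IsSquare (φ (g.det : K))
      have hd0 : (g.det : K) ≠ 0 := g.det.ne_zero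
      rw [FiniteField.isSquare_iff hch ((map_ne_zero φ).mpr hd0), ← map_pow]
      obtain ⟨k, hk⟩ := hev
      -- `(r - 1) ∣ q / 2`
      have hdvd : (Fintype.card K - 1) ∣ Fintype.card F / 2 := by
        obtain ⟨a, ha⟩ : ∃ a, Fintype.card K = 2 * a + 1 := ⟨Fintype.card K / 2, by omega⟩
        rw [← hK, hk, ha, ← two_mul, pow_mul]
        have e : (2 * a + 1) ^ 2 = 4 * a * (a + 1) + 1 := by ring
        rw [e, ← geom_sum_mul_add (4 * a * (a + 1)) k]
        refine ⟨(∑ i ∈ Finset.range k, (4 * a * (a + 1) + 1) ^ i) * (a + 1), ?_⟩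
        have e2 : (∑ i ∈ Finset.range k, (4 * a * (a + 1) + 1) ^ i) * (4 * a * (a + 1)) + 1
            = 2 * ((2 * a + 1 - 1) * ((∑ i ∈ Finset.range k, (4 * a * (a + 1) + 1) ^ i) * (a + 1))) + 1 := by
          rw [Nat.add_sub_cancel]; ring
        rw [e2]
        omega
      obtain ⟨c, hc⟩ := hdvd
      rw [hc, pow_mul, FiniteField.pow_card_sub_one_eq_one _ hd0, one_pow, map_one]

end Cfsg.Agent.S0805
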