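import Cfsg.Statements.S0806
import Cfsg.Agent.Lib.Helper7.PSL2Bor
-- import your own Cfsg.Agent.* helpers here

set_option autoImplicit false
open Cfsg

namespace Cfsg.Agent.S0806

open Cfsg.Agent.Lib.Helper7 Cfsg.Agent.Lib.Helper7.PMax

theorem idx_bound {a idx q : ℕ} (hq : 2 ≤ q) (ha : a ≤ q * (q - 1)) (h : a * idx = q * (q ^ 2 - 1)) :
    q + 1 ≤ idx := by
  obtain ⟨n, rfl⟩ : ∃ n, q = n + 2 := ⟨q - 2, by omega⟩
  have e1 : (n + 2) ^ 2 - 1 = (n + 1) * (n + 3) := by
    have : (n + 2) ^ 2 = (n + 1) * (n + 3) + 1 := by ring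
    omega
  have e2 : n + 2 - 1 = n + 1 := by omega
  rw [e1] at h
  rw [e2] at ha
  by_contra hlt
  have hidx : idx ≤ n + 2 := by omega
  have h1 : a * idx ≤ (n + 2) * (n + 1) * (n + 2) := Nat.mul_le_mul ha hidx
  have h2 : (n + 2) * (n + 1) * (n + 2) < (n + 2) * ((n + 1) * (n + 3)) := by nlinarith
  omega

theorem mono_qq {a b : ℕ} (h : a ≤ b) : a * (a - 1) ≤ b * (b - 1) :=
  Nat.mul_le_mul h (Nat.sub_le_sub_right h 1)

theorem sub_bound {q₀ : ℕ} (h : 2 ≤ q₀) : 2 * (q₀ * (q₀ ^ 2 - 1)) ≤ q₀ ^ 2 * (q₀ ^ 2 - 1) := by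
  have : 2 * q₀ ≤ q₀ ^ 2 := by nlinarith
  calc 2 * (q₀ * (q₀ ^ 2 - 1)) = (2 * q₀) * (q₀ ^ 2 - 1) := by ring
    _ ≤ q₀ ^ 2 * (q₀ ^ 2 - 1) := Nat.mul_le_mul_right _ this

/-- Minimal index (Galois): if q ∉ {2, 3, 5, 7, 9, 11} then every proper subgroup of PSL_2(q) has index ≥ q + 1, and some subgroup has index exactly q + 1. -/
theorem result {F : Type*} [Field F] [Fintype F] {q : ℕ} (hF : Fintype.card F = q) (hq : q ∉ ({2, 3, 5, 7, 9, 11} : Finset ℕ)) : (∀ H : Subgroup (Matrix.ProjectiveSpecialLinearGroup (Fin 2) F), H ≠ ⊤ → q + 1 ≤ H.index) ∧ ∃ H : Subgroup (Matrix.ProjectiveSpecialLinearGroup (Fin 2) F), H.index = q + 1 := by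
  classical
  obtain ⟨p, hchar⟩ := CharP.exists F
  haveI : Fact p.Prime := ⟨CharP.char_is_prime F p⟩
  have hpp : p.Prime := Fact.out
  have hq2 : 2 ≤ q := by rw [← hF]; exact Fintype.one_lt_card
  simp only [Finset.mem_insert, Finset.mem_singleton, not_or] at hq
  obtain ⟨q_2, q_3, q_5, q_7, q_9, q_11⟩ := hq
  have hP := card_PSL (F := F)
  rw [hF] at hP
  have hzc := zc_cases F
  obtain ⟨n, -, hn⟩ := FiniteField.card F p
  rw [hF] at hn
  refine ⟨fun H hH => ?_, ⟨img (BorS F), by rw [index_img_BorS, hF]⟩⟩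
  have hidx := H.card_mul_index
  have hHP : Nat.card H ∣ Nat.card (Matrix.ProjectiveSpecialLinearGroup (Fin 2) F) :=
    Subgroup.card_subgroup_dvd_card H
  apply idx_bound (a := zc F * Nat.card H) hq2 _ (by rw [mul_assoc, hidx, hP])
  rcases psl_dickson_num p H with ⟨-, -, h⟩ | ⟨-, h⟩ | h | ⟨q₀, m, h3, hqm, h⟩
  · rw [hF] at h; exact h
  · rw [hF] at h
    refine h.trans ?_
    obtain ⟨k, rfl⟩ : ∃ k, q = k + 4 := ⟨q - 4, by omega⟩
    have : k + 4 - 1 = k + 3 := by omega
    rw [this]; nlinarith
  · by_cases h2 : (2 : F) = 0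
    · have hz : zc F = 1 := zc_of_two_eq h2
      rw [hz, one_mul] at hP ⊢
      have hp2 : p = 2 := by
        have h' : ((2 : ℕ) : F) = 0 := by exact_mod_cast h2
        rw [CharP.cast_eq_zero_iff F p] at h'
        exact (Nat.prime_dvd_prime_iff_eq hpp Nat.prime_two).1 h'
      rw [hp2] at hn
      rcases Nat.lt_or_ge (n : ℕ) 4 with hn4 | hn4
      · have hn' : (n : ℕ) = 1 ∨ (n : ℕ) = 2 ∨ (n : ℕ) = 3 := by
          have := n.pos
          omega
        rcases hn' with e | e | e
        · rw [e] at hn; omega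
        · rw [e] at hn
          have hq4 : q = 4 := by rw [hn]; norm_num
          subst hq4
          have hP' : Nat.card (Matrix.ProjectiveSpecialLinearGroup (Fin 2) F) = 60 := by
            rw [hP]; norm_num
          rw [hP'] at hHP
          rcases h with h | h | h
          · rw [h]
          · rw [h] at hHP; norm_num at hHP
          · exfalso
            apply hH
            apply eq_top_of_card
            right
            rw [h, hF]; norm_num
        · rw [e] at hn
          have hq8 : q = 8 := by rw [hn]; norm_num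
          subst hq8
          have hP' : Nat.card (Matrix.ProjectiveSpecialLinearGroup (Fin 2) F) = 504 := by
            rw [hP]; norm_num
          rw [hP'] at hHP
          rcases h with h | h | h
          · rw [h]; norm_num
          · rw [h]; norm_num
          · rw [h] at hHP; norm_num at hHP
      · have hq16 : 16 ≤ q := by
          rw [hn]
          calc 16 = 2 ^ 4 := by norm_num
            _ ≤ 2 ^ (n : ℕ) := Nat.pow_le_pow_right (by norm_num) hn4
        have := mono_qq hq16
        rcases h with h | h | h <;> rw [h] <;> omega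
    · have hz : zc F = 2 := zc_of_two_ne h2
      rw [hz]
      have hodd : Odd q := by
        rw [hn]
        apply Odd.pow
        rcases hpp.eq_two_or_odd' with h' | h'
        · exfalso
          apply h2
          have := CharP.cast_eq_zero F p
          rw [h'] at this
          exact_mod_cast this
        · exact h'
      have hq13 : 13 ≤ q := by
        obtain ⟨k, hk⟩ := hodd
        omega
      have := mono_qq hq13
      rcases h with h | h | h <;> rw [h] <;> omega
  · rw [hF] at hqm
    have hm : 2 ≤ m := by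
      by_contra hlt
      have : m = 0 ∨ m = 1 := by omega
      rcases this with rfl | rfl
      · rw [pow_zero] at hqm; omega
      · rw [pow_one] at hqm
        apply hH
        apply eq_top_of_card
        rw [hF, hqm]; exact h
    have hle : q₀ ^ 2 ≤ q := by
      rw [hqm]; exact Nat.pow_le_pow_right (by omega) hm
    have h1 := mono_qq hle
    have h4 := sub_bound (show 2 ≤ q₀ by omega)
    have h5 : zc F * Nat.card H ≤ 2 * (q₀ * (q₀ ^ 2 - 1)) := by
      rcases h with h | h
      · rw [h]; omega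
      · rw [h]
        apply Nat.mul_le_mul_right
        rcases hzc with e | e <;> omega
    omega

end Cfsg.Agent.S0806
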