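import Cfsg.Statements.S0811
import Cfsg.Agent.Lib.Helper7.PSL2Num
-- import your own Cfsg.Agent.* helpers here

set_option autoImplicit false
open Cfsg

namespace Cfsg.Agent.S0811

open Matrix Subgroup Cfsg.Agent.Lib.Helper46 Cfsg.Agent.Lib.Helper7 Cfsg.Agent.Lib.Helper7.PMax

theorem no_dvd {q₀ m : ℕ} (h2 : 2 ≤ q₀) (hm : 2 ≤ m) (h : q₀ ^ m + 1 ∣ q₀ * (q₀ ^ 2 - 1)) :
    False := by
  have h4 : 4 ≤ q₀ ^ 2 := by nlinarith
  have hpos : 0 < q₀ * (q₀ ^ 2 - 1) := Nat.mul_pos (by omega) (by omega)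
  have hle := Nat.le_of_dvd hpos h
  have h3 : q₀ * (q₀ ^ 2 - 1) < q₀ ^ 3 := by
    have : q₀ ^ 3 = q₀ * q₀ ^ 2 := by ring
    rw [this]
    exact Nat.mul_lt_mul_of_pos_left (by omega) (by omega)
  have hm3 : m < 3 := by
    by_contra hge
    have : q₀ ^ 3 ≤ q₀ ^ m := Nat.pow_le_pow_right (by omega) (by omega)
    omega
  have hm2 : m = 2 := by omega
  subst hm2
  have e : q₀ * (q₀ ^ 2 - 1) + 2 * q₀ = q₀ * (q₀ ^ 2 + 1) := by
    obtain ⟨s, hs⟩ : ∃ s, q₀ ^ 2 = s + 1 := ⟨q₀ ^ 2 - 1, by omega⟩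
    rw [hs, Nat.add_sub_cancel]; ring
  have h5 : q₀ ^ 2 + 1 ∣ 2 * q₀ := by
    have : q₀ ^ 2 + 1 ∣ q₀ * (q₀ ^ 2 - 1) + 2 * q₀ := by rw [e]; exact Dvd.intro_left q₀ rfl
    exact (Nat.dvd_add_right h).1 this
  have := Nat.le_of_dvd (by omega) h5
  nlinarith

/-- For q ∉ {2, 7, 9}, PSL_2(q) has a maximal subgroup isomorphic to the dihedral group of order 2(q + 1)/d, d = gcd(2, q − 1). -/
theorem result {F : Type*} [Field F] [Fintype F] {q : ℕ} (hF : Fintype.card F = q) (hq : q ∉ ({2, 7, 9} : Finset ℕ)) : ∃ H : Subgroup (Matrix.ProjectiveSpecialLinearGroup (Fin 2) F), IsCoatom H ∧ Nonempty (H ≃* DihedralGroup ((q + 1) / Nat.gcd 2 (q - 1))) := by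
  classical
  obtain ⟨p, hchar⟩ := CharP.exists F
  haveI : Fact p.Prime := ⟨CharP.char_is_prime F p⟩
  have hq2 : 2 ≤ q := by rw [← hF]; exact Fintype.one_lt_card
  simp only [Finset.mem_insert, Finset.mem_singleton, not_or] at hq
  obtain ⟨q_2, q_7, q_9⟩ := hq
  have hq3 : 3 ≤ Fintype.card F := by rw [hF]; omega
  obtain ⟨X₀, -, hroot⟩ := Cfsg.Agent.Lib.Helper47.exists_nonsplit (F := F)
  have hs : tr X₀ ^ 2 ≠ 4 := by
    intro h
    have h' : (tr X₀ - 2) * (tr X₀ + 2) = 0 := by linear_combination h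
    rcases mul_eq_zero.1 h' with h1 | h1
    · exact hroot 1 (by linear_combination -h1)
    · exact hroot (-1) (by linear_combination h1)
  have hxc : X₀ ∉ center (SpecialLinearGroup (Fin 2) F) := fun h => hs (tr_sq_of_mem_center X₀ h)
  have hC : Nat.card (centralizer ({X₀} : Set (SpecialLinearGroup (Fin 2) F))) =
      Fintype.card F + 1 := by
    rcases Cfsg.Agent.Lib.Helper47.card_centralizer_cases X₀ hxc with ⟨-, h2⟩ | ⟨⟨a, ha, -⟩, -⟩ |
      ⟨h2, -⟩
    · exact h2
    · exact absurd ha (hroot a)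
    · exact absurd h2 hs
  have hzpos := zc_pos F
  obtain ⟨n, hn⟩ : zc F ∣ Fintype.card F + 1 := by
    rw [← hC]
    exact card_dvd_of_le (Subgroup.center_le_centralizer _)
  have hnq : (q + 1) / Nat.gcd 2 (q - 1) = n := by
    rw [← hF, ← zc_eq_gcd, hn]
    exact Nat.mul_div_cancel_left n hzpos
  obtain ⟨hcard, hiso⟩ := img_torN_dihedral hs hq3 (n := n) (by rw [hC, hn]) (by rw [hC]; omega)
  refine ⟨img (torN X₀), ?_, by rw [hnq]; exact hiso⟩
  have hcardN := card_torN hs hq3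
  rw [hC, hF] at hcardN
  constructor
  · intro h
    have h1 : Nat.card (pre (img (torN X₀))) = q * (q ^ 2 - 1) := by
      rw [h, card_pre, Subgroup.card_top, card_PSL, hF]
    rw [pre_img (center_le_torN X₀), hcardN] at h1
    obtain ⟨k, rfl⟩ : ∃ k, q = k + 3 := ⟨q - 3, by omega⟩
    have e1 : (k + 3) ^ 2 - 1 = (k + 2) * (k + 4) := by
      have : (k + 3) ^ 2 = (k + 2) * (k + 4) + 1 := by ring
      omega
    rw [e1] at h1
    nlinarith
  · intro M hlt
    have hNG : torN X₀ ≤ pre M := by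
      rw [← pre_img (center_le_torN X₀), pre_le_pre]
      exact hlt.le
    have hdvdN : 2 * (q + 1) ∣ Nat.card (pre M) := hcardN ▸ card_dvd_of_le hNG
    have hdvd := card_pre_dvd M
    rw [hF] at hdvd
    rcases torN_overgroup p hs hq3 (by rw [hC]; omega) M hlt with ⟨-, h⟩ | ⟨K, D, hIn, hK⟩
    · rw [hC, hF] at h
      rcases h with ⟨h1, h2⟩ | ⟨h1, h2 | h2 | h2⟩ | ⟨h1, h2 | h2 | h2⟩
      · have : q = 3 := by omega
        subst this
        apply eq_top_of_card_pre
        rw [h1, hF]; norm_num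
      · have : q = 3 := by omega
        subst this
        rw [h1] at hdvd; norm_num at hdvd
      · have : q = 5 := by omega
        subst this
        rw [h1] at hdvd; norm_num at hdvd
      · omega
      · have : q = 3 := by omega
        subst this
        rw [h1] at hdvd; norm_num at hdvd
      · have : q = 5 := by omega
        subst this
        apply eq_top_of_card_pre
        rw [h1, hF]; norm_num
      · omega
    · obtain ⟨h1, h2⟩ := InSub.card_dvd hIn
      have hpow := card_eq_pow K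
      rw [hF] at hpow
      set q₀ := Nat.card K with hq₀
      set m := Module.finrank K F with hm
      by_cases hm2 : 2 ≤ m
      · exfalso
        have h3 : 2 * (q + 1) ∣ 2 * (q₀ * (q₀ ^ 2 - 1)) := hdvdN.trans h1
        have h4 : q + 1 ∣ q₀ * (q₀ ^ 2 - 1) := Nat.dvd_of_mul_dvd_mul_left (by norm_num) h3
        rw [hpow] at h4
        exact no_dvd (by omega) hm2 h4
      · have : m = 0 ∨ m = 1 := by omega
        rcases this with e | e
        · rw [e, pow_zero] at hpow; omega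
        · rw [e, pow_one] at hpow
          exact h2 (by rw [hF, hpow])

end Cfsg.Agent.S0811
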