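import Cfsg.Statements.S0812
import Cfsg.Agent.Lib.Helper7.PSL2Num
-- import your own Cfsg.Agent.* helpers here

set_option autoImplicit false
open Cfsg

namespace Cfsg.Agent.S0812

open Matrix Subgroup Cfsg.Agent.Lib.Helper46 Cfsg.Agent.Lib.Helper7 Cfsg.Agent.Lib.Helper7.PMax

theorem torus_in_subfield {F : Type*} [Field F] [Fintype F] (p : ℕ) [Fact p.Prime] [CharP F p]
    {K : Subfield F} (u : Fˣ) (h : ((u : F) + (u : F)⁻¹) ^ 2 ∈ K) :
    u ^ (2 * (Nat.card K - 1)) = 1 ∨ u ^ (2 * (Nat.card K + 1)) = 1 := by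
  have hpp : p.Prime := Fact.out
  have := Fintype.ofFinite K
  set q₀ := Nat.card K with hq₀
  have hq₀pos : 1 ≤ q₀ := Nat.card_pos
  obtain ⟨k, hk⟩ : ∃ k, q₀ = p ^ k := by
    obtain ⟨n, -, hn⟩ := FiniteField.card F p
    have hpow := card_eq_pow K
    have hm : Module.finrank K F ≠ 0 := Module.finrank_pos.ne'
    have hd : q₀ ∣ p ^ (n : ℕ) := by
      rw [← hn, hpow]; exact dvd_pow_self _ hm
    obtain ⟨k, -, hk⟩ := (Nat.dvd_prime_pow hpp).1 hd
    exact ⟨k, hk⟩
  have hu : (u : F) ≠ 0 := u.ne_zero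
  set s : F := (u : F) ^ 2 with hs
  have hs0 : s ≠ 0 := pow_ne_zero 2 hu
  have hσ : s + s⁻¹ ∈ K := by
    have e : s + s⁻¹ = ((u : F) + (u : F)⁻¹) ^ 2 - 2 := by
      rw [hs]; field_simp; ring
    rw [e]
    exact K.sub_mem h (by
      have : (2 : F) = 1 + 1 := by norm_num
      rw [this]; exact K.add_mem K.one_mem K.one_mem)
  have hfix : (s + s⁻¹) ^ q₀ = s + s⁻¹ := by
    have h1 := FiniteField.pow_card (⟨s + s⁻¹, hσ⟩ : K)
    rw [← Nat.card_eq_fintype_card, ← hq₀] at h1
    exact congrArg Subtype.val h1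
  rw [hk, add_pow_char_pow, ← hk] at hfix
  set y := s ^ q₀ with hy
  have hy0 : y ≠ 0 := pow_ne_zero _ hs0
  have hinv : s⁻¹ ^ q₀ = y⁻¹ := by rw [inv_pow]
  rw [hinv] at hfix
  have hprod : (y - s) * (y - s⁻¹) = 0 := by
    have e1 : y * y⁻¹ = 1 := mul_inv_cancel₀ hy0
    have e2 : s * s⁻¹ = 1 := mul_inv_cancel₀ hs0
    linear_combination y * hfix + e2 - e1
  rcases mul_eq_zero.1 hprod with h1 | h1
  · left
    have h2 : s ^ (q₀ - 1) * s = 1 * s := by
      rw [← pow_succ, Nat.sub_add_cancel hq₀pos, one_mul]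
      linear_combination h1
    have h3 := mul_right_cancel₀ hs0 h2
    apply Units.ext
    rw [Units.val_pow_eq_pow_val, pow_mul, Units.val_one]
    exact h3
  · right
    have h2 : s ^ (q₀ + 1) = 1 := by
      rw [pow_succ, ← hy]
      have : y = s⁻¹ := by linear_combination h1
      rw [this, inv_mul_cancel₀ hs0]
    apply Units.ext
    rw [Units.val_pow_eq_pow_val, pow_mul, Units.val_one]
    exact h2

/-- For q ∉ {2, 3, 5, 7, 9, 11}, PSL_2(q) has a maximal subgroup isomorphic to the dihedral group of order 2(q − 1)/d, d = gcd(2, q − 1). -/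
theorem result {F : Type*} [Field F] [Fintype F] {q : ℕ} (hF : Fintype.card F = q) (hq : q ∉ ({2, 3, 5, 7, 9, 11} : Finset ℕ)) : ∃ H : Subgroup (Matrix.ProjectiveSpecialLinearGroup (Fin 2) F), IsCoatom H ∧ Nonempty (H ≃* DihedralGroup ((q - 1) / Nat.gcd 2 (q - 1))) := by
  classical
  obtain ⟨p, hchar⟩ := CharP.exists F
  haveI : Fact p.Prime := ⟨CharP.char_is_prime F p⟩
  have hq2 : 2 ≤ q := by rw [← hF]; exact Fintype.one_lt_card
  simp only [Finset.mem_insert, Finset.mem_singleton, not_or] at hq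
  obtain ⟨q_2, q_3, q_5, q_7, q_9, q_11⟩ := hq
  have hq3 : 3 ≤ Fintype.card F := by rw [hF]; omega
  obtain ⟨u, hu⟩ := Cfsg.Agent.Lib.Helper47.exists_unit_order (F := F)
  rw [hF] at hu
  have hu2 : u ^ 2 ≠ 1 := by
    intro h
    have := Nat.le_of_dvd (by norm_num) (orderOf_dvd_of_pow_eq_one h)
    omega
  have hs : tr (dd u) ^ 2 ≠ 4 := tr_dd_sq_ne u hu2
  have hxc : dd u ∉ center (SpecialLinearGroup (Fin 2) F) :=
    fun h => hs (tr_sq_of_mem_center _ h)
  have hC : Nat.card (centralizer ({dd u} : Set (SpecialLinearGroup (Fin 2) F))) =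
      Fintype.card F - 1 := by
    rcases Cfsg.Agent.Lib.Helper47.card_centralizer_cases (dd u) hxc with ⟨h1, -⟩ | ⟨-, h2⟩ |
      ⟨h2, -⟩
    · exact absurd (Cfsg.Agent.Lib.Helper47.dd_root u) (h1 u)
    · exact h2
    · exact absurd h2 hs
  have hzpos := zc_pos F
  obtain ⟨n, hn⟩ : zc F ∣ Fintype.card F - 1 := by
    rw [← hC]
    exact card_dvd_of_le (Subgroup.center_le_centralizer _)
  have hnq : (q - 1) / Nat.gcd 2 (q - 1) = n := by
    rw [← hF, ← zc_eq_gcd, hn]
    exact Nat.mul_div_cancel_left n hzpos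
  have hc : Fintype.card F + 1 <
      2 * Nat.card (centralizer ({dd u} : Set (SpecialLinearGroup (Fin 2) F))) := by
    rw [hC, hF]; omega
  obtain ⟨hcard, hiso⟩ := img_torN_dihedral hs hq3 (n := n) (by rw [hC, hn]) hc
  refine ⟨img (torN (dd u)), ?_, by rw [hnq]; exact hiso⟩
  have hcardN := card_torN hs hq3
  rw [hC, hF] at hcardN
  constructor
  · intro h
    have h1 : Nat.card (pre (img (torN (dd u)))) = q * (q ^ 2 - 1) := by
      rw [h, card_pre, Subgroup.card_top, card_PSL, hF]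
    rw [pre_img (center_le_torN _), hcardN] at h1
    obtain ⟨k, rfl⟩ : ∃ k, q = k + 3 := ⟨q - 3, by omega⟩
    have e1 : (k + 3) ^ 2 - 1 = (k + 2) * (k + 4) := by
      have : (k + 3) ^ 2 = (k + 2) * (k + 4) + 1 := by ring
      omega
    have e2 : k + 3 - 1 = k + 2 := by omega
    rw [e1, e2] at h1
    nlinarith
  · intro M hlt
    have hNG : torN (dd u) ≤ pre M := by
      rw [← pre_img (center_le_torN _), pre_le_pre]
      exact hlt.le
    rcases torN_overgroup p hs hq3 hc M hlt with ⟨-, h⟩ | ⟨K, D, hIn, hK⟩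
    · exfalso
      rw [hC, hF] at h
      omega
    · obtain ⟨-, h2⟩ := InSub.card_dvd hIn
      have hpow := card_eq_pow K
      rw [hF] at hpow
      have htr := InSub.tr_sq_mem hIn (hNG (self_mem_torN (dd u)))
      rw [tr_dd] at htr
      have hord := torus_in_subfield p u htr
      set q₀ := Nat.card K with hq₀
      set m := Module.finrank K F with hm
      by_cases hm2 : 2 ≤ m
      · exfalso
        have hle : q₀ ^ 2 ≤ q := by
          rw [hpow]; exact Nat.pow_le_pow_right (by omega) hm2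
        have hbound : q - 1 ≤ 2 * (q₀ + 1) := by
          rcases hord with h | h
          · have := Nat.le_of_dvd (by omega) (orderOf_dvd_of_pow_eq_one h)
            omega
          · have := Nat.le_of_dvd (by omega) (orderOf_dvd_of_pow_eq_one h)
            omega
        have hq₀3 : q₀ = 3 := by
          by_contra hne
          have h4 : 4 ≤ q₀ := by omega
          have h5 : 4 * q₀ ≤ q₀ ^ 2 := by nlinarith
          omega
        rw [hq₀3] at hle hbound hpow
        have hq9 : q = 9 := by omega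
        exact q_9 hq9
      · have : m = 0 ∨ m = 1 := by omega
        rcases this with e | e
        · rw [e, pow_zero] at hpow; omega
        · rw [e, pow_one] at hpow
          exact h2 (by rw [hF, hpow])

end Cfsg.Agent.S0812
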