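import Cfsg.Statements.S0817
import Cfsg.Agent.Lib.Helper95.AutP.Plus
import Cfsg.Agent.Lib.Helper95.AutP.D4

set_option autoImplicit false
open Cfsg

namespace Cfsg.Agent.S0817

/-- |Aut(PΩ⁺_2m(q))| for q = p^f, m ≥ 4: |PΩ⁺_2m(q)| times f, times 3 when m = 4, times 2 if p = 2, and times 8 or 4 if p is odd according as m(q−1)/2 is even or odd. -/
theorem result {F : Type*} [Field F] [Fintype F] (p f : ℕ) [Fact p.Prime] (hf : 1 ≤ f) (hF : Fintype.card F = p ^ f) (m : ℕ) (hm : 4 ≤ m) : Nat.card (MulAut (Cfsg.POmega F (Cfsg.quadFormPlus m F))) = (if m = 4 then 3 else 1) * (if p = 2 then 2 else (if Even (m * (p ^ f - 1) / 2) then 8 else 4)) * f * Nat.card (Cfsg.POmega F (Cfsg.quadFormPlus m F)) := by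
  by_cases h4 : m = 4
  · subst h4
    rw [Cfsg.Agent.Lib.Helper95.AutP.card_mulAut_plus_four p f hF, if_pos rfl]
    by_cases hp : p = 2
    · subst hp
      rw [if_pos rfl]
      have h1 : Nat.gcd 2 (2 ^ f - 1) = 1 := by
        have h2 : 2 ^ f % 2 = 0 := by
          obtain ⟨k, rfl⟩ : ∃ k, f = k + 1 := ⟨f - 1, by omega⟩
          rw [pow_succ]; omega
        have h3 : 0 < 2 ^ f := by positivity
        have h4 : (2 ^ f - 1) % 2 = 1 := by omega
        have h5 : Nat.Coprime 2 (2 ^ f - 1) := by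
          rw [Nat.coprime_two_left]
          exact Nat.odd_iff.2 h4
        exact h5
      rw [h1]
      norm_num
    · rw [if_neg hp]
      have hpodd : Odd p := (Fact.out : p.Prime).odd_of_ne_two hp
      have hodd : Odd (p ^ f) := hpodd.pow
      have h4 : (p ^ f - 1) % 2 = 0 := by
        have := Nat.odd_iff.1 hodd
        omega
      have h1 : Nat.gcd 2 (p ^ f - 1) = 2 := Nat.gcd_eq_left (Nat.dvd_of_mod_eq_zero h4)
      have h2 : Even (4 * (p ^ f - 1) / 2) := by
        have : 4 * (p ^ f - 1) / 2 = 2 * (p ^ f - 1) := by omega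
        rw [this]
        exact even_two_mul _
      rw [h1, if_pos h2]
      norm_num
  · rw [Cfsg.Agent.Lib.Helper95.AutP.card_mulAut_plus p f hF m (by omega), if_neg h4, one_mul]

end Cfsg.Agent.S0817
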