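import Cfsg.Statements.S0819
import Cfsg.Agent.Lib.Helper18.F4

set_option autoImplicit false
open Cfsg
open Cfsg.Agent.Lib.Helper18 Polynomial

namespace Cfsg.Agent.S0819

theorem fin {F : Type*} [Field F] (M : Matrix (Fin 3) (Fin 3) F) (p : F[X]) (hp : aeval M p = 0)
    (k : ℕ) (s : F) (q : F[X]) (h : X ^ k - C s = p * q) : M ^ k = Matrix.scalar (Fin 3) s := by
  have h1 : aeval M (X ^ k - C s) = 0 := by rw [h, map_mul, hp, zero_mul]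
  rw [map_sub, map_pow, aeval_X, aeval_C, sub_eq_zero] at h1
  rw [h1]
  rfl

theorem charpoly_form {F : Type*} [Field F] (M : Matrix (Fin 3) (Fin 3) F) (hdet : M.det = 1) :
    ∃ a b : F, M.charpoly = X ^ 3 + C a * X ^ 2 + C b * X - 1 := by
  have hmon := M.charpoly_monic
  have hdeg : M.charpoly.natDegree = 3 := by simp
  have h0 : M.charpoly.coeff 0 = -1 := by
    have := M.det_eq_sign_charpoly_coeff
    rw [hdet] at this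
    simp at this
    linear_combination this
  have h3 : M.charpoly.coeff 3 = 1 := by
    have := hmon.coeff_natDegree
    rwa [hdeg] at this
  refine ⟨M.charpoly.coeff 2, M.charpoly.coeff 1, ?_⟩
  conv_lhs => rw [M.charpoly.as_sum_range_C_mul_X_pow, hdeg]
  simp only [Finset.sum_range_succ, Finset.sum_range_zero, h0, h3]
  simp
  ring

theorem key {F : Type*} [Field F] [Fintype F] (hF : Fintype.card F = 4)
    (M : Matrix (Fin 3) (Fin 3) F) (hdet : M.det = 1) :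
    ∃ k ∈ ({3, 4, 5, 7} : Finset ℕ), ∃ s : F, M ^ k = Matrix.scalar (Fin 3) s := by
  have h2 := f4_two hF
  obtain ⟨ω, hω, hall⟩ := f4_struct hF
  obtain ⟨a, b, hchar⟩ := charpoly_form M hdet
  have hCH : aeval M M.charpoly = 0 := M.aeval_self_charpoly
  set W : F[X] := C ω with hW
  have h2' : (2 : F[X]) = 0 := by
    have : (C (2 : F) : F[X]) = 0 := by rw [h2, map_zero]
    rwa [map_ofNat] at this
  have hω' : W ^ 2 + W + 1 = 0 := by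
    have : (C (ω ^ 2 + ω + 1) : F[X]) = 0 := by rw [hω, map_zero]
    simpa using this
  have hchar' : M.charpoly = X ^ 3 + C a * X ^ 2 + C b * X + 1 := by
    rw [hchar]; linear_combination -h2'
  rcases hall a with ha | ha | ha | ha <;> rcases hall b with hb | hb | hb | hb
  · refine ⟨3, by simp, 1, fin M _ hCH 3 1 (1 * X ^ 0) ?_⟩
    rw [hchar', ha, hb]
    simp only [map_add, map_one, map_zero, ← hW]
    linear_combination ((-1) * W ^ 0 * X ^ 0) * h2' + (0) * hω'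
  · refine ⟨7, by simp, 1, fin M _ hCH 7 1 (1 * X ^ 0 + 1 * X ^ 1 + 1 * X ^ 2 + 1 * X ^ 4) ?_⟩
    rw [hchar', ha, hb]
    simp only [map_add, map_one, map_zero, ← hW]
    linear_combination ((-1) * W ^ 0 * X ^ 0 + (-1) * W ^ 0 * X ^ 1 + (-1) * W ^ 0 * X ^ 2 + (-1) * W ^ 0 * X ^ 3 + (-1) * W ^ 0 * X ^ 4 + (-1) * W ^ 0 * X ^ 5) * h2' + (0) * hω'
  · refine ⟨7, by simp, (ω + 1), fin M _ hCH 7 (ω + 1) ((W + 1) * X ^ 0 + 1 * X ^ 1 + W * X ^ 2 + 1 * X ^ 4) ?_⟩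
    rw [hchar', ha, hb]
    simp only [map_add, map_one, map_zero, ← hW]
    linear_combination ((-1) * W ^ 0 * X ^ 0 + (-1) * W ^ 0 * X ^ 4 + (-1) * W ^ 1 * X ^ 0 + (-1) * W ^ 1 * X ^ 2 + (-1) * W ^ 1 * X ^ 5) * h2' + ((-1) * W ^ 0 * X ^ 1 + (-1) * W ^ 0 * X ^ 3) * hω'
  · refine ⟨7, by simp, ω, fin M _ hCH 7 ω (W * X ^ 0 + 1 * X ^ 1 + (W + 1) * X ^ 2 + 1 * X ^ 4) ?_⟩
    rw [hchar', ha, hb]
    simp only [map_add, map_one, map_zero, ← hW]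
    linear_combination ((-1) * W ^ 0 * X ^ 2 + (-1) * W ^ 0 * X ^ 4 + (-1) * W ^ 0 * X ^ 5 + (-1) * W ^ 1 * X ^ 0 + (-1) * W ^ 1 * X ^ 2 + (-1) * W ^ 1 * X ^ 3 + (-1) * W ^ 1 * X ^ 5) * h2' + ((-1) * W ^ 0 * X ^ 1 + (-1) * W ^ 0 * X ^ 3) * hω'
  · refine ⟨7, by simp, 1, fin M _ hCH 7 1 (1 * X ^ 0 + 1 * X ^ 2 + 1 * X ^ 3 + 1 * X ^ 4) ?_⟩
    rw [hchar', ha, hb]
    simp only [map_add, map_one, map_zero, ← hW]
    linear_combination ((-1) * W ^ 0 * X ^ 0 + (-1) * W ^ 0 * X ^ 2 + (-1) * W ^ 0 * X ^ 3 + (-1) * W ^ 0 * X ^ 4 + (-1) * W ^ 0 * X ^ 5 + (-1) * W ^ 0 * X ^ 6) * h2' + (0) * hω'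
  · refine ⟨4, by simp, 1, fin M _ hCH 4 1 (1 * X ^ 0 + 1 * X ^ 1) ?_⟩
    rw [hchar', ha, hb]
    simp only [map_add, map_one, map_zero, ← hW]
    linear_combination ((-1) * W ^ 0 * X ^ 0 + (-1) * W ^ 0 * X ^ 1 + (-1) * W ^ 0 * X ^ 2 + (-1) * W ^ 0 * X ^ 3) * h2' + (0) * hω'
  · refine ⟨5, by simp, (ω + 1), fin M _ hCH 5 (ω + 1) ((W + 1) * X ^ 0 + 1 * X ^ 1 + 1 * X ^ 2) ?_⟩
    rw [hchar', ha, hb]
    simp only [map_add, map_one, map_zero, ← hW]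
    linear_combination ((-1) * W ^ 0 * X ^ 0 + (-1) * W ^ 0 * X ^ 2 + (-1) * W ^ 0 * X ^ 3 + (-1) * W ^ 0 * X ^ 4 + (-1) * W ^ 1 * X ^ 0 + (-1) * W ^ 1 * X ^ 2 + (-1) * W ^ 1 * X ^ 3) * h2' + ((-1) * W ^ 0 * X ^ 1) * hω'
  · refine ⟨5, by simp, ω, fin M _ hCH 5 ω (W * X ^ 0 + 1 * X ^ 1 + 1 * X ^ 2) ?_⟩
    rw [hchar', ha, hb]
    simp only [map_add, map_one, map_zero, ← hW]
    linear_combination ((-1) * W ^ 0 * X ^ 2 + (-1) * W ^ 0 * X ^ 3 + (-1) * W ^ 0 * X ^ 4 + (-1) * W ^ 1 * X ^ 0 + (-1) * W ^ 1 * X ^ 2 + (-1) * W ^ 1 * X ^ 3) * h2' + ((-1) * W ^ 0 * X ^ 1) * hω'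
  · refine ⟨7, by simp, ω, fin M _ hCH 7 ω (W * X ^ 0 + (W + 1) * X ^ 2 + W * X ^ 3 + 1 * X ^ 4) ?_⟩
    rw [hchar', ha, hb]
    simp only [map_add, map_one, map_zero, ← hW]
    linear_combination ((-1) * W ^ 1 * X ^ 0 + (-1) * W ^ 1 * X ^ 3 + (-1) * W ^ 1 * X ^ 6) * h2' + ((-1) * W ^ 0 * X ^ 2 + (-1) * W ^ 0 * X ^ 4 + (-1) * W ^ 0 * X ^ 5) * hω'
  · refine ⟨5, by simp, ω, fin M _ hCH 5 ω (W * X ^ 0 + W * X ^ 1 + 1 * X ^ 2) ?_⟩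
    rw [hchar', ha, hb]
    simp only [map_add, map_one, map_zero, ← hW]
    linear_combination ((-1) * W ^ 1 * X ^ 0 + (-1) * W ^ 1 * X ^ 1 + (-1) * W ^ 1 * X ^ 4) * h2' + ((-1) * W ^ 0 * X ^ 2 + (-1) * W ^ 0 * X ^ 3) * hω'
  · refine ⟨5, by simp, 1, fin M _ hCH 5 1 (1 * X ^ 0 + W * X ^ 1 + 1 * X ^ 2) ?_⟩
    rw [hchar', ha, hb]
    simp only [map_add, map_one, map_zero, ← hW]
    linear_combination ((-1) * W ^ 0 * X ^ 0 + (-1) * W ^ 1 * X ^ 1 + (-1) * W ^ 1 * X ^ 4) * h2' + ((-1) * W ^ 0 * X ^ 2 + (-1) * W ^ 0 * X ^ 3) * hω'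
  · refine ⟨4, by simp, ω, fin M _ hCH 4 ω (W * X ^ 0 + 1 * X ^ 1) ?_⟩
    rw [hchar', ha, hb]
    simp only [map_add, map_one, map_zero, ← hW]
    linear_combination ((-1) * W ^ 1 * X ^ 0 + (-1) * W ^ 1 * X ^ 3) * h2' + ((-1) * W ^ 0 * X ^ 1 + (-1) * W ^ 0 * X ^ 2) * hω'
  · refine ⟨7, by simp, (ω + 1), fin M _ hCH 7 (ω + 1) ((W + 1) * X ^ 0 + W * X ^ 2 + (W + 1) * X ^ 3 + 1 * X ^ 4) ?_⟩
    rw [hchar', ha, hb]
    simp only [map_add, map_one, map_zero, ← hW]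
    linear_combination ((-1) * W ^ 0 * X ^ 0 + (-1) * W ^ 0 * X ^ 3 + (-1) * W ^ 0 * X ^ 6 + (-1) * W ^ 1 * X ^ 0 + (-1) * W ^ 1 * X ^ 2 + (-1) * W ^ 1 * X ^ 3 + (-1) * W ^ 1 * X ^ 5 + (-1) * W ^ 1 * X ^ 6) * h2' + ((-1) * W ^ 0 * X ^ 2 + (-1) * W ^ 0 * X ^ 4 + (-1) * W ^ 0 * X ^ 5) * hω'
  · refine ⟨5, by simp, (ω + 1), fin M _ hCH 5 (ω + 1) ((W + 1) * X ^ 0 + (W + 1) * X ^ 1 + 1 * X ^ 2) ?_⟩
    rw [hchar', ha, hb]
    simp only [map_add, map_one, map_zero, ← hW]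
    linear_combination ((-1) * W ^ 0 * X ^ 0 + (-1) * W ^ 0 * X ^ 1 + (-1) * W ^ 0 * X ^ 2 + (-1) * W ^ 0 * X ^ 3 + (-1) * W ^ 0 * X ^ 4 + (-1) * W ^ 1 * X ^ 0 + (-1) * W ^ 1 * X ^ 1 + (-1) * W ^ 1 * X ^ 2 + (-1) * W ^ 1 * X ^ 3 + (-1) * W ^ 1 * X ^ 4) * h2' + ((-1) * W ^ 0 * X ^ 2 + (-1) * W ^ 0 * X ^ 3) * hω'
  · refine ⟨4, by simp, (ω + 1), fin M _ hCH 4 (ω + 1) ((W + 1) * X ^ 0 + 1 * X ^ 1) ?_⟩
    rw [hchar', ha, hb]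
    simp only [map_add, map_one, map_zero, ← hW]
    linear_combination ((-1) * W ^ 0 * X ^ 0 + (-1) * W ^ 0 * X ^ 3 + (-1) * W ^ 1 * X ^ 0 + (-1) * W ^ 1 * X ^ 2 + (-1) * W ^ 1 * X ^ 3) * h2' + ((-1) * W ^ 0 * X ^ 1 + (-1) * W ^ 0 * X ^ 2) * hω'
  · refine ⟨5, by simp, 1, fin M _ hCH 5 1 (1 * X ^ 0 + (W + 1) * X ^ 1 + 1 * X ^ 2) ?_⟩
    rw [hchar', ha, hb]
    simp only [map_add, map_one, map_zero, ← hW]
    linear_combination ((-1) * W ^ 0 * X ^ 0 + (-1) * W ^ 0 * X ^ 1 + (-1) * W ^ 0 * X ^ 2 + (-1) * W ^ 0 * X ^ 3 + (-1) * W ^ 0 * X ^ 4 + (-1) * W ^ 1 * X ^ 1 + (-1) * W ^ 1 * X ^ 2 + (-1) * W ^ 1 * X ^ 3 + (-1) * W ^ 1 * X ^ 4) * h2' + ((-1) * W ^ 0 * X ^ 2 + (-1) * W ^ 0 * X ^ 3) * hω'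

/-- No element of PSL_3(4) has order 15. -/
theorem result {F : Type*} [Field F] [Fintype F] (hF : Fintype.card F = 4) (g : Matrix.ProjectiveSpecialLinearGroup (Fin 3) F) : orderOf g ≠ 15 := by
  intro hord
  obtain ⟨A, rfl⟩ := QuotientGroup.mk_surjective g
  obtain ⟨k, hk, s, hs⟩ := key hF (A : Matrix (Fin 3) (Fin 3) F) A.2
  have hcen : A ^ k ∈ Subgroup.center (Matrix.SpecialLinearGroup (Fin 3) F) := by
    rw [Matrix.SpecialLinearGroup.mem_center_iff]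
    refine ⟨s, ?_, ?_⟩
    · have hd : ((A : Matrix (Fin 3) (Fin 3) F) ^ k).det = 1 := by
        rw [Matrix.det_pow, A.2, one_pow]
      rw [hs] at hd
      simpa using hd
    · rw [← hs]; simp
  have h1 : ((A : Matrix.SpecialLinearGroup (Fin 3) F) :
      Matrix.ProjectiveSpecialLinearGroup (Fin 3) F) ^ k = 1 := by
    rw [← QuotientGroup.mk_pow]
    exact (QuotientGroup.eq_one_iff _).2 hcen
  have hdvd := orderOf_dvd_of_pow_eq_one h1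
  rw [hord] at hdvd
  simp only [Finset.mem_insert, Finset.mem_singleton] at hk
  rcases hk with rfl | rfl | rfl | rfl <;> omega

end Cfsg.Agent.S0819
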