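import Cfsg.Statements.S0820
import Cfsg.Agent.Lib.Helper18.F4

set_option autoImplicit false
open Cfsg
open Cfsg.Agent.Lib.Helper18 Matrix

namespace Cfsg.Agent.S0820

/-- the standard transvection -/
def T0 (F : Type*) [Field F] : Matrix.SpecialLinearGroup (Fin 3) F :=
  ⟨Matrix.transvection 0 2 1, Matrix.det_transvection_of_ne 0 2 (by decide) 1⟩

theorem exists_ker_vec {F : Type*} [Field F] (N : Matrix (Fin 3) (Fin 3) F) (hN2 : N * N = 0)
    (e1 : Fin 3 → F) (he1 : N *ᵥ e1 = 0) :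
    ∃ e2 : Fin 3 → F, N *ᵥ e2 = 0 ∧ e2 ∉ Submodule.span F {e1} := by
  set f := N.mulVecLin with hf
  have h1 := LinearMap.finrank_range_add_finrank_ker f
  rw [Module.finrank_fin_fun] at h1
  have hle : LinearMap.range f ≤ LinearMap.ker f := by
    rintro _ ⟨x, rfl⟩
    rw [LinearMap.mem_ker, hf, Matrix.mulVecLin_apply, Matrix.mulVecLin_apply, Matrix.mulVec_mulVec, hN2,
      Matrix.zero_mulVec]
  have h2 := Submodule.finrank_mono hle
  have h3 : 2 ≤ Module.finrank F (LinearMap.ker f) := by omega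
  have hlt : Submodule.span F {e1} < LinearMap.ker f := by
    refine lt_of_le_of_ne ?_ ?_
    · rw [Submodule.span_singleton_le_iff_mem, LinearMap.mem_ker]
      exact he1
    · intro h
      have h4 : Module.finrank F (Submodule.span F {e1}) ≤ 1 :=
        le_trans (finrank_span_le_card {e1}) (by simp)
      rw [h] at h4
      omega
  obtain ⟨e2, he2, hne⟩ := SetLike.exists_of_lt hlt
  exact ⟨e2, he2, hne⟩

theorem conj_T0 {F : Type*} [Field F] (A : Matrix.SpecialLinearGroup (Fin 3) F)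
    (N : Matrix (Fin 3) (Fin 3) F) (hA : (A : Matrix (Fin 3) (Fin 3) F) = 1 + N) (hN2 : N * N = 0)
    (hN0 : N ≠ 0) : IsConj (T0 F) A := by
  obtain ⟨v, hv⟩ : ∃ v, N *ᵥ v ≠ 0 := by
    by_contra hcon
    push Not at hcon
    apply hN0
    rw [Matrix.ext_iff_mulVec]
    intro x
    rw [hcon x, Matrix.zero_mulVec]
  set e1 := N *ᵥ v with he1
  have hNe1 : N *ᵥ e1 = 0 := by rw [he1, Matrix.mulVec_mulVec, hN2, Matrix.zero_mulVec]
  obtain ⟨e2, hNe2, he2⟩ := exists_ker_vec N hN2 e1 hNe1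
  let P : F → Matrix (Fin 3) (Fin 3) F := fun t => Matrix.of (fun i j => ![e1 i, t * e2 i, v i] j)
  have hPmul : ∀ t (c : Fin 3 → F), P t *ᵥ c = c 0 • e1 + (c 1 * t) • e2 + c 2 • v := by
    intro t c
    ext i
    simp [P, Matrix.mulVec, dotProduct, Fin.sum_univ_three]
    ring
  have hdet1 : (P 1).det ≠ 0 := by
    intro hd
    obtain ⟨c, hc0, hc⟩ := Matrix.exists_mulVec_eq_zero_iff.2 hd
    rw [hPmul, mul_one] at hc
    have h1 := congrArg (fun x => N *ᵥ x) hc
    simp only [Matrix.mulVec_add, Matrix.mulVec_smul, hNe1, hNe2, smul_zero, zero_add,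
      Matrix.mulVec_zero] at h1
    have hc2 : c 2 = 0 := (smul_eq_zero.1 h1).resolve_right hv
    rw [hc2, zero_smul, add_zero] at hc
    have hc1 : c 1 = 0 := by
      by_contra h
      apply he2
      rw [Submodule.mem_span_singleton]
      refine ⟨-(c 1)⁻¹ * c 0, ?_⟩
      have : c 1 • e2 = -(c 0 • e1) := by
        rw [eq_neg_iff_add_eq_zero, add_comm]; exact hc
      calc (-(c 1)⁻¹ * c 0) • e1 = (c 1)⁻¹ • (-(c 0 • e1)) := by
            rw [smul_neg, smul_smul, neg_mul, neg_smul]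
        _ = (c 1)⁻¹ • (c 1 • e2) := by rw [this]
        _ = e2 := by rw [smul_smul, inv_mul_cancel₀ h, one_smul]
    rw [hc1, zero_smul, add_zero] at hc
    have hc0' : c 0 = 0 := (smul_eq_zero.1 hc).resolve_right hv
    apply hc0
    ext i
    fin_cases i
    · exact hc0'
    · exact hc1
    · exact hc2
  have hdett : ∀ t, (P t).det = t * (P 1).det := by
    intro t
    rw [Matrix.det_fin_three, Matrix.det_fin_three]
    simp [P]
    ring
  set d := (P 1).det with hd
  let B : Matrix.SpecialLinearGroup (Fin 3) F := ⟨P d⁻¹, by rw [hdett, inv_mul_cancel₀ hdet1]⟩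
  rw [isConj_iff]
  refine ⟨B, ?_⟩
  rw [mul_inv_eq_iff_eq_mul]
  apply Subtype.ext
  show P d⁻¹ * Matrix.transvection 0 2 1 = (A : Matrix (Fin 3) (Fin 3) F) * P d⁻¹
  rw [Matrix.ext_iff_mulVec]
  intro c
  rw [← Matrix.mulVec_mulVec, ← Matrix.mulVec_mulVec, hPmul, hPmul, hA, Matrix.add_mulVec,
    Matrix.one_mulVec]
  simp only [Matrix.mulVec_add, Matrix.mulVec_smul, hNe1, hNe2, smul_zero, zero_add, ← he1]
  have h0 : (Matrix.transvection (0 : Fin 3) 2 (1 : F) *ᵥ c) 0 = c 0 + c 2 := by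
    simp [Matrix.transvection, Matrix.add_mulVec, Matrix.mulVec, dotProduct, Fin.sum_univ_three,
      Matrix.single]
  have h1 : (Matrix.transvection (0 : Fin 3) 2 (1 : F) *ᵥ c) 1 = c 1 := by
    simp [Matrix.transvection, Matrix.add_mulVec, Matrix.mulVec, dotProduct, Fin.sum_univ_three,
      Matrix.single]
  have h2 : (Matrix.transvection (0 : Fin 3) 2 (1 : F) *ᵥ c) 2 = c 2 := by
    simp [Matrix.transvection, Matrix.add_mulVec, Matrix.mulVec, dotProduct, Fin.sum_univ_three,
      Matrix.single]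
  rw [h0, h1, h2]
  module

theorem conj_mk_T0 {F : Type*} [Field F] [Fintype F] (hF : Fintype.card F = 4)
    (x : Matrix.ProjectiveSpecialLinearGroup (Fin 3) F) (hx : orderOf x = 2) :
    IsConj (QuotientGroup.mk (T0 F) : Matrix.ProjectiveSpecialLinearGroup (Fin 3) F) x := by
  have h2 := f4_two hF
  obtain ⟨A, rfl⟩ := QuotientGroup.mk_surjective x
  have hx2 : ((A : Matrix.SpecialLinearGroup (Fin 3) F) :
      Matrix.ProjectiveSpecialLinearGroup (Fin 3) F) ^ 2 = 1 := by
    rw [← hx]; exact pow_orderOf_eq_one _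
  have hx1 : ((A : Matrix.SpecialLinearGroup (Fin 3) F) :
      Matrix.ProjectiveSpecialLinearGroup (Fin 3) F) ≠ 1 := by
    intro h
    rw [h, orderOf_one] at hx
    omega
  rw [← QuotientGroup.mk_pow] at hx2
  have hcen : A ^ 2 ∈ Subgroup.center (Matrix.SpecialLinearGroup (Fin 3) F) :=
    (QuotientGroup.eq_one_iff _).1 hx2
  rw [Matrix.SpecialLinearGroup.mem_center_iff] at hcen
  obtain ⟨s, hs3, hs⟩ := hcen
  simp only [Fintype.card_fin] at hs3
  let Z : Matrix.SpecialLinearGroup (Fin 3) F := ⟨Matrix.scalar (Fin 3) s, by simp [hs3]⟩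
  have hZ : Z ∈ Subgroup.center (Matrix.SpecialLinearGroup (Fin 3) F) := by
    rw [Matrix.SpecialLinearGroup.mem_center_iff]
    exact ⟨s, by simpa using hs3, rfl⟩
  have hmk : ((Z * A : Matrix.SpecialLinearGroup (Fin 3) F) :
      Matrix.ProjectiveSpecialLinearGroup (Fin 3) F) = (A : Matrix.SpecialLinearGroup (Fin 3) F) := by
    rw [QuotientGroup.mk_mul, (QuotientGroup.eq_one_iff Z).2 hZ, one_mul]
  rw [← hmk]
  apply MonoidHom.map_isConj
    (QuotientGroup.mk' (Subgroup.center (Matrix.SpecialLinearGroup (Fin 3) F)))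
  set M : Matrix (Fin 3) (Fin 3) F := (A : Matrix (Fin 3) (Fin 3) F) with hM
  have hMM : M * M = s • (1 : Matrix (Fin 3) (Fin 3) F) := by
    have : M * M = Matrix.scalar (Fin 3) s := by
      rw [hs]; simp [pow_two, hM]
    rw [this, Matrix.scalar_apply, Matrix.smul_one_eq_diagonal]
  have hZA : ((Z * A : Matrix.SpecialLinearGroup (Fin 3) F) : Matrix (Fin 3) (Fin 3) F) = s • M := by
    show Matrix.scalar (Fin 3) s * M = s • M
    rw [Matrix.scalar_apply, ← Matrix.smul_eq_diagonal_mul]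
  have hsq : (s • M) * (s • M) = 1 := by
    rw [Matrix.smul_mul, Matrix.mul_smul, hMM, smul_smul, smul_smul]
    have : s * s * s = 1 := by linear_combination hs3
    rw [this, one_smul]
  apply conj_T0 (Z * A) (s • M - 1)
  · rw [hZA]; abel
  · generalize s • M = X at hsq
    have : (X - 1) * (X - 1) = X * X - (2 : F) • X + 1 := by
      rw [two_smul]; noncomm_ring
    rw [this, hsq, h2, zero_smul]
    have h11 : (1 : Matrix (Fin 3) (Fin 3) F) - 0 + 1 = (2 : F) • 1 := by rw [two_smul]; abel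
    rw [h11, h2, zero_smul]
  · intro h
    apply hx1
    rw [← hmk]
    have : Z * A = 1 := by
      apply Subtype.ext
      rw [hZA]
      exact sub_eq_zero.1 h
    rw [this]; rfl

/-- Any two elements of order 2 of PSL_3(4) are conjugate. -/
theorem result {F : Type*} [Field F] [Fintype F] (hF : Fintype.card F = 4) (x y : Matrix.ProjectiveSpecialLinearGroup (Fin 3) F) (hx : orderOf x = 2) (hy : orderOf y = 2) : IsConj x y := by
  exact (conj_mk_T0 hF x hx).symm.trans (conj_mk_T0 hF y hy)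

end Cfsg.Agent.S0820
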