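import Cfsg.Statements.S0823
import Cfsg.Agent.S1012
import Cfsg.Agent.S0286
import Cfsg.Agent.Lib.Helper49.OrthBasic

set_option autoImplicit false
open Cfsg

namespace Cfsg.Agent.S0823

open Matrix

abbrev I3 := Unit ⊕ (Fin 1 ⊕ Fin 1)
abbrev R := ZMod 3

def vec {K : Type*} (x y z : K) : I3 → K := Sum.elim (fun _ => x) (Sum.elim (fun _ => y) (fun _ => z))

def mk (a b c d e f g h i : R) : Matrix I3 I3 R :=
  Matrix.of (fun r s => vec (vec a b c s) (vec d e f s) (vec g h i s) r)

theorem Q_mk (a b c d e f g h i x y z : R) :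
    Cfsg.quadFormOdd 1 R (mk a b c d e f g h i *ᵥ vec x y z) =
      (a * x + b * y + c * z) ^ 2 + (d * x + e * y + f * z) * (g * x + h * y + i * z) := by
  simp [Cfsg.quadFormOdd, mk, vec, Matrix.mulVec, dotProduct, Fintype.sum_sum_type, add_assoc]

theorem Q_vec (x y z : R) : Cfsg.quadFormOdd 1 R (vec x y z) = x ^ 2 + y * z := by
  simp [Cfsg.quadFormOdd, vec]

set_option maxRecDepth 1000000 in
theorem key' : ∀ a d g : R, a ^ 2 + d * g = 1 → ∀ b e h : R, b ^ 2 + e * h = 0 →
    (a + b) ^ 2 + (d + e) * (g + h) = 1 → ∀ c f i : R, c ^ 2 + f * i = 0 →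
    (a + c) ^ 2 + (d + f) * (g + i) = 1 → (b + c) ^ 2 + (e + f) * (h + i) = 1 →
    (mk a b c d e f g h i).det = 1 →
    (mk a b c d e f g h i) ^ 6 = 1 →
    (mk a b c d e f g h i) ^ 2 = 1 ∨ (mk a b c d e f g h i) ^ 3 = 1 := by
  decide +kernel

theorem eq_mk (M : Matrix I3 I3 R) :
    M = mk (M (.inl ()) (.inl ())) (M (.inl ()) (.inr (.inl 0))) (M (.inl ()) (.inr (.inr 0)))
      (M (.inr (.inl 0)) (.inl ())) (M (.inr (.inl 0)) (.inr (.inl 0)))
      (M (.inr (.inl 0)) (.inr (.inr 0)))
      (M (.inr (.inr 0)) (.inl ())) (M (.inr (.inr 0)) (.inr (.inl 0)))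
      (M (.inr (.inr 0)) (.inr (.inr 0))) := by
  ext r s
  rcases r with ⟨⟩ | r | r <;> rcases s with ⟨⟩ | s | s <;>
  simp [mk, vec, Subsingleton.elim _ (0 : Fin 1)]

theorem key (M : Matrix I3 I3 R) (hM : ∀ w, Cfsg.quadFormOdd 1 R (M *ᵥ w) = Cfsg.quadFormOdd 1 R w)
    (hdet : M.det = 1) (h6 : M ^ 6 = 1) : M ^ 2 = 1 ∨ M ^ 3 = 1 := by
  rw [eq_mk M] at hM hdet h6 ⊢
  generalize M (.inl ()) (.inl ()) = a at *
  generalize M (.inl ()) (.inr (.inl 0)) = b at *
  generalize M (.inl ()) (.inr (.inr 0)) = c at *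
  generalize M (.inr (.inl 0)) (.inl ()) = d at *
  generalize M (.inr (.inl 0)) (.inr (.inl 0)) = e at *
  generalize M (.inr (.inl 0)) (.inr (.inr 0)) = f at *
  generalize M (.inr (.inr 0)) (.inl ()) = g at *
  generalize M (.inr (.inr 0)) (.inr (.inl 0)) = h at *
  generalize M (.inr (.inr 0)) (.inr (.inr 0)) = i at *
  have h1 := hM (vec 1 0 0)
  have h2 := hM (vec 0 1 0)
  have h3 := hM (vec 0 0 1)
  have h4 := hM (vec 1 1 0)
  have h5 := hM (vec 1 0 1)
  have h7 := hM (vec 0 1 1)
  rw [Q_mk, Q_vec] at h1 h2 h3 h4 h5 h7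
  apply key' a d g (by simpa using h1) b e h (by simpa using h2) (by simpa using h4) c f i
    (by simpa using h3) (by simpa using h5) (by simpa using h7) hdet h6

section
variable {F : Type*} [Field F]

theorem Q_map (e : F ≃+* R) (v : I3 → F) :
    Cfsg.quadFormOdd 1 R (fun k => e (v k)) = e (Cfsg.quadFormOdd 1 F v) := by
  simp [Cfsg.quadFormOdd]

theorem key_F (e : F ≃+* R) (A : Matrix I3 I3 F)
    (hA : ∀ w, Cfsg.quadFormOdd 1 F (A *ᵥ w) = Cfsg.quadFormOdd 1 F w)
    (hdet : A.det = 1) (h6 : A ^ 6 = 1) : A ^ 2 = 1 ∨ A ^ 3 = 1 := by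
  set Φ := (e : F →+* R).mapMatrix (m := I3) with hΦ
  have hinj : Function.Injective Φ := by
    intro X Y h
    ext r s
    have := congrFun (congrFun h r) s
    exact e.injective this
  have hM : ∀ w, Cfsg.quadFormOdd 1 R (Φ A *ᵥ w) = Cfsg.quadFormOdd 1 R w := by
    intro w
    have hw : w = fun k => e (e.symm (w k)) := by ext k; simp
    have h1 : Φ A *ᵥ w = fun k => e ((A *ᵥ fun k => e.symm (w k)) k) := by
      ext k
      conv_lhs => rw [hw]
      exact (RingHom.map_mulVec (e : F →+* R) A (fun k => e.symm (w k)) k).symm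
    rw [h1, Q_map, hA, ← Q_map, ← hw]
  have hd : (Φ A).det = 1 := by
    rw [hΦ, ← RingHom.map_det, hdet, map_one]
  have h6' : (Φ A) ^ 6 = 1 := by rw [← map_pow, h6, map_one]
  rcases key _ hM hd h6' with h | h
  · left
    apply hinj
    rw [map_pow, h, map_one]
  · right
    apply hinj
    rw [map_pow, h, map_one]

end

/-- SO_3(3) ≅ S_4: the determinant-one isometries of the form x_0² + x_1y_1 over the field with 3 elements form a group isomorphic to the symmetric group on 4 letters. -/
theorem result {F : Type*} [Field F] [Fintype F] (hF : Fintype.card F = 3) : Nonempty (↥(Cfsg.specialIsometryGroup F (Cfsg.quadFormOdd 1 F)) ≃* Equiv.Perm (Fin 4)) := by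
  have e : F ≃+* R := by
    have : Fact (Nat.Prime 3) := ⟨by norm_num⟩
    exact (ZMod.ringEquivOfPrime F (by norm_num) hF).symm
  set Q := Cfsg.quadFormOdd 1 F with hQ
  set O := Cfsg.isometryGroup F Q with hO
  set SO := Cfsg.specialIsometryGroup F Q with hSO
  apply Cfsg.Agent.S1012.result
  · have hOc : Nat.card O = 48 := by
      have := Cfsg.Agent.S0286.result hF (by decide) 1
      rw [this]
      norm_num [Finset.prod_range_one]
    set δ := (Matrix.GeneralLinearGroup.det.comp O.subtype) with hδ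
    have hker : SO = δ.ker := rfl
    have hidx : SO.index = 2 := by
      rw [hker, Subgroup.index_ker]
      have hU : Nat.card Fˣ = 2 := by
        classical
        rw [Nat.card_eq_fintype_card, Fintype.card_units, hF]
      have hd : Nat.card δ.range ∣ 2 := hU ▸ Subgroup.card_subgroup_dvd_card _
      have hne : Nat.card δ.range ≠ 1 := by
        intro h1
        rw [Subgroup.card_eq_one] at h1
        have hmem : (-1 : Matrix.GeneralLinearGroup I3 F) ∈ O := by
          rw [hO, Cfsg.Agent.Lib.Helper49.mem_isometryGroup_iff]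
          intro v
          have : ((-1 : Matrix.GeneralLinearGroup I3 F) : Matrix I3 I3 F) *ᵥ v = -v := by
            simp [Matrix.neg_mulVec]
          rw [this, hQ]
          simp [Cfsg.quadFormOdd]
        have h2 : δ ⟨-1, hmem⟩ ∈ δ.range := ⟨_, rfl⟩
        rw [h1, Subgroup.mem_bot] at h2
        have h3 : ((-1 : Matrix.GeneralLinearGroup I3 F) : Matrix I3 I3 F).det = 1 :=
          congrArg Units.val h2
        have h4 : ((-1 : Matrix.GeneralLinearGroup I3 F) : Matrix I3 I3 F).det = -1 := by
          simp [Matrix.det_neg]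
          ring
        rw [h4] at h3
        have h5 : (2 : F) = 0 := by linear_combination -h3
        have h6 : (3 : F) = 0 := by
          have := Nat.cast_card_eq_zero F
          rw [hF] at this
          exact_mod_cast this
        have h7 : (1 : F) = 0 := by linear_combination h6 - h5
        exact one_ne_zero h7
      have hle : Nat.card δ.range ≤ 2 := Nat.le_of_dvd (by norm_num) hd
      have hpos : 0 < Nat.card δ.range := Nat.card_pos
      omega
    have := SO.card_mul_index
    rw [hidx, hOc] at this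
    omega
  · intro g hg
    have hA : ∀ n : ℕ, g ^ n = 1 ↔
        (((g : O) : Matrix.GeneralLinearGroup I3 F) : Matrix I3 I3 F) ^ n = 1 := by
      intro n
      constructor
      · intro h
        have := congrArg (fun x : SO => (((x : O) : Matrix.GeneralLinearGroup I3 F) :
          Matrix I3 I3 F)) h
        simpa using this
      · intro h
        apply Subtype.ext
        apply Subtype.ext
        apply Units.ext
        simpa using h
    have h6 : g ^ 6 = 1 := by rw [← hg]; exact pow_orderOf_eq_one _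
    have hdet : (((g : O) : Matrix.GeneralLinearGroup I3 F) : Matrix I3 I3 F).det = 1 := by
      have := g.2
      have h2 : Matrix.GeneralLinearGroup.det ((g : O) : Matrix.GeneralLinearGroup I3 F) = 1 := this
      exact congrArg Units.val h2
    rcases key_F e _ (Cfsg.Agent.Lib.Helper49.isometryGroup_apply Q (g : O)) hdet ((hA 6).1 h6)
      with h | h
    · have := orderOf_dvd_of_pow_eq_one ((hA 2).2 h)
      rw [hg] at this
      omega
    · have := orderOf_dvd_of_pow_eq_one ((hA 3).2 h)
      rw [hg] at this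
      omega

end Cfsg.Agent.S0823
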