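import Cfsg.Statements.S0825
import Cfsg.Agent.S0287
import Cfsg.Agent.Lib.Helper6.Heart8
import Cfsg.Agent.Lib.Helper6.IsomTransport

set_option autoImplicit false
open Cfsg

namespace Cfsg.Agent.S0825

open Cfsg.Agent.Lib.Helper6

/-- O⁺_6(2) ≅ S_8: the isometry group of the hyperbolic form x_1y_1 + x_2y_2 + x_3y_3 over the field with 2 elements is isomorphic to the symmetric group on 8 letters. -/
theorem result {F : Type*} [Field F] [Fintype F] (hF : Fintype.card F = 2) : Nonempty (↥(Cfsg.isometryGroup F (Cfsg.quadFormPlus 3 F)) ≃* Equiv.Perm (Fin 8)) := by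
  classical
  let e : ZMod 2 ≃+* F := ZMod.ringEquivOfPrime F Nat.prime_two hF
  have hQ : ∀ w : Fin 3 ⊕ Fin 3 → ZMod 2, Cfsg.quadFormPlus 3 F (fun i => e (w i)) =
      e (Cfsg.quadFormPlus 3 (ZMod 2) w) := by
    intro w
    simp [Cfsg.quadFormPlus, map_sum, map_mul]
  apply nonempty_mulEquiv_of_injective_of_card
    (homIsometry e (Cfsg.quadFormPlus 3 (ZMod 2)) (Cfsg.quadFormPlus 3 F) hQ Heart8.rep8
      Heart8.rep8_pres)
    (homIsometry_injective e _ _ hQ Heart8.rep8 Heart8.rep8_pres Heart8.rep8_injective)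
  rw [Cfsg.Agent.S0287.result hF 3 (by norm_num), Nat.card_eq_fintype_card, Fintype.card_perm,
    Fintype.card_fin]
  decide

end Cfsg.Agent.S0825
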