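import Cfsg.Statements.S0826
import Cfsg.Agent.Lib.Helper48.EvenRep
import Cfsg.Agent.Lib.Helper48.QuadF2Class

set_option autoImplicit false
open Cfsg

namespace Cfsg.Agent.S0826


open Matrix Cfsg.Agent.Lib.Helper48

theorem neg_eq_self_zmod2 (x : ZMod 2) : -x = x := by
  revert x
  decide

theorem pol_eq_J (m : ℕ) (u v : V2 m) : pol m u v = u ⬝ᵥ (J (Fin m) (ZMod 2) *ᵥ v) := by
  rw [pol_eq]
  simp only [dotProduct, mulVec, J, Fintype.sum_sum_type, fromBlocks_apply₁₁, fromBlocks_apply₁₂,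
    fromBlocks_apply₂₁, fromBlocks_apply₂₂, Matrix.zero_apply, zero_mul, Finset.sum_const_zero,
    zero_add, add_zero, Matrix.neg_apply, one_apply, neg_mul, ite_mul, one_mul,
    Finset.sum_neg_distrib, Finset.sum_ite_eq, Finset.mem_univ, if_true, neg_eq_self_zmod2,
    Finset.sum_add_distrib]

theorem mem_symplectic_of_pol (m : ℕ) (A : Matrix (Fin m ⊕ Fin m) (Fin m ⊕ Fin m) (ZMod 2))
    (h : ∀ u v, pol m (A *ᵥ u) (A *ᵥ v) = pol m u v) : A ∈ symplecticGroup (Fin m) (ZMod 2) := by
  rw [SymplecticGroup.mem_iff']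
  have key : ∀ (N : Matrix (Fin m ⊕ Fin m) (Fin m ⊕ Fin m) (ZMod 2)) i j,
      N i j = (Pi.single i 1 : V2 m) ⬝ᵥ (N *ᵥ Pi.single j 1) := by
    intro N i j
    simp
  ext i j
  rw [key (Aᵀ * J (Fin m) (ZMod 2) * A), key (J (Fin m) (ZMod 2)), ← pol_eq_J, ← h, pol_eq_J,
    Matrix.mul_assoc, ← mulVec_mulVec, ← mulVec_mulVec, dotProduct_mulVec, vecMul_transpose]

theorem evenB_rep {ι : Type*} [Fintype ι] [DecidableEq ι] (heven : Even (Fintype.card ι))
    (σ : Equiv.Perm (ι ⊕ Fin 2)) (u v : ι → ZMod 2) :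
    evenB (evenRep heven σ u) (evenRep heven σ v) = evenB u v := by
  rw [evenB_apply, evenB_apply, evenRep_apply, evenRep_apply, ext0_repFun heven, ext0_repFun heven]
  simp only [dotProduct, add_mul, mul_add, Finset.sum_add_distrib, ← Finset.mul_sum,
    ← Finset.sum_mul, sum_perm_ext0, mul_zero, zero_mul, add_zero]
  rw [Equiv.sum_comp σ⁻¹ (fun p => ext0 u p * ext0 v p)]
  have hc : ((Fintype.card ι : ℕ) : ZMod 2) + 2 = 0 := by
    obtain ⟨k, hk⟩ := heven
    rw [hk]
    have : (2 : ZMod 2) = 0 := by decide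
    push_cast
    linear_combination (k + 1 : ZMod 2) * this
  simp [hc]

/-- S_2n ≤ Sp_(2n−2)(2) for n ≥ 3: there is an injective homomorphism from the symmetric group on 2n letters into the symplectic group of degree 2n − 2 over the field with two elements. -/
theorem result (n : ℕ) (hn : 3 ≤ n) : ∃ f : Equiv.Perm (Fin (2 * n)) →* Matrix.symplecticGroup (Fin (n - 1)) (ZMod 2), Function.Injective f := by
  classical
  obtain ⟨m, rfl⟩ : ∃ m, n = m + 1 := ⟨n - 1, by omega⟩
  show ∃ f : Equiv.Perm (Fin (2 * (m + 1))) →* Matrix.symplecticGroup (Fin m) (ZMod 2), Function.Injective f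
  have heven : Even (Fintype.card (Fin (2 * m))) := by
    rw [Fintype.card_fin]
    exact even_two_mul m
  let ρ : Equiv.Perm (Fin (2 * (m + 1))) →* Module.End (ZMod 2) (Fin (2 * m) → ZMod 2) :=
    (evenRep heven).comp
      (Equiv.permCongrHom (Fintype.equivOfCardEq (by simp; ring) :
        Fin (2 * (m + 1)) ≃ Fin (2 * m) ⊕ Fin 2)).toMonoidHom
  have hρ : Function.Injective ρ :=
    (evenRep_injective heven (by rw [Fintype.card_fin]; omega)).comp (MulEquiv.injective _)
  have hB : ∀ σ u v, evenB (ρ σ u) (ρ σ v) = evenB u v := fun σ u v => evenB_rep heven _ u v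
  obtain ⟨g, hg⟩ := exists_symplectic_equiv (evenB : LinearMap.BilinForm (ZMod 2) (Fin (2 * m) → ZMod 2))
    (isAlt_of_polar evenQ evenB evenQ_add) (evenB_nondeg heven) m
    (by rw [Fintype.card_fun, ZMod.card, Fintype.card_fin])
  let M : Equiv.Perm (Fin (2 * (m + 1))) →* Matrix (Fin m ⊕ Fin m) (Fin m ⊕ Fin m) (ZMod 2) :=
    { toFun := fun σ => LinearMap.toMatrix'
        ((g.symm : (Fin (2 * m) → ZMod 2) →ₗ[ZMod 2] V2 m) ∘ₗ ρ σ ∘ₗ
          (g : V2 m →ₗ[ZMod 2] (Fin (2 * m) → ZMod 2)))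
      map_one' := by
        rw [map_one, ← LinearMap.toMatrix'_id]
        congr 1
        apply LinearMap.ext
        intro v
        simp
      map_mul' := by
        intro σ τ
        rw [map_mul, ← LinearMap.toMatrix'_comp]
        congr 1
        apply LinearMap.ext
        intro v
        simp }
  have hM : ∀ σ v, Matrix.mulVec (M σ) v = g.symm (ρ σ (g v)) := by
    intro σ v
    simp only [M, MonoidHom.coe_mk, OneHom.coe_mk, LinearMap.toMatrix'_mulVec]
    rfl
  refine ⟨M.codRestrict (Matrix.symplecticGroup (Fin m) (ZMod 2)) (fun σ => ?_), ?_⟩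
  · apply mem_symplectic_of_pol
    intro u v
    rw [hM, hM, ← hg, LinearEquiv.apply_symm_apply, LinearEquiv.apply_symm_apply, hB, hg]
  · intro σ τ h
    apply hρ
    have h1 : M σ = M τ := congrArg Subtype.val h
    apply LinearMap.ext
    intro y
    have h2 := hM σ (g.symm y)
    rw [h1, hM, LinearEquiv.apply_symm_apply] at h2
    exact (g.symm.injective h2).symm

end Cfsg.Agent.S0826
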