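import Cfsg.Statements.S0828
-- import your own Cfsg.Agent.* helpers here
import Cfsg.Agent.Lib.Helper17.SympIso

set_option autoImplicit false
open Cfsg

namespace Cfsg.Agent.S0828

open Cfsg.Agent.Lib.Helper17 Matrix

/-- The symplectic generalised quadrangle over a field with q elements: the number of 2-dimensional subspaces of F^4 on which the symplectic form vanishes is (q + 1)(q² + 1), and every non-zero vector lies in exactly q + 1 of them. -/
theorem result {F : Type*} [Field F] [Fintype F] {q : ℕ} (hF : Fintype.card F = q) : Nat.card {W : Submodule F (Fin 2 ⊕ Fin 2 → F) // Module.finrank F W = 2 ∧ ∀ u ∈ W, ∀ v ∈ W, Cfsg.sympForm 2 F u v = 0} = (q + 1) * (q ^ 2 + 1) ∧ ∀ v : Fin 2 ⊕ Fin 2 → F, v ≠ 0 → Nat.card {W : Submodule F (Fin 2 ⊕ Fin 2 → F) // Module.finrank F W = 2 ∧ v ∈ W ∧ ∀ u ∈ W, ∀ w ∈ W, Cfsg.sympForm 2 F u w = 0} = q + 1 := by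
  classical
  subst hF
  set q := Fintype.card F with hq
  have hq2 : 2 ≤ q := Fintype.one_lt_card
  have p1 : q ≤ q ^ 2 := by nlinarith
  have p2 : 1 ≤ q ^ 2 := by nlinarith
  have p3 : q ≤ q ^ 3 := by nlinarith [pow_pos (show 0 < q by omega) 2]
  have p4 : 1 ≤ q ^ 4 := Nat.one_le_pow _ _ (by omega)
  have p5 : q < q ^ 2 := by nlinarith
  constructor
  · have h := card_isotropic_subspaces_symp_mul (F := F) 2 2
    rw [← hq] at h
    simp only [Fin.prod_univ_two, Finset.prod_range_succ, Finset.prod_range_zero, one_mul, Fin.val_zero, Fin.val_one,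
      pow_zero, pow_one] at h
    have e : (q + 1) * (q ^ 2 + 1) * ((q ^ 2 - 1) * (q ^ 2 - q)) = (q ^ (2 * 2 - 0) - 1) * (q ^ (2 * 2 - 1) - q) := by
      have e1 : 2 * 2 - 0 = 4 := rfl
      have e2 : 2 * 2 - 1 = 3 := rfl
      rw [e1, e2]
      zify [p1, p2, p3, p4]
      ring
    rw [← e] at h
    exact Nat.eq_of_mul_eq_mul_right (Nat.mul_pos (by omega) (by omega)) h
  · intro v hv
    have hvv : ∀ u ∈ Submodule.span F {v}, ∀ w ∈ Submodule.span F {v}, Cfsg.sympForm 2 F u w = 0 := by
      intro u hu w hw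
      obtain ⟨a, rfl⟩ := Submodule.mem_span_singleton.mp hu
      obtain ⟨b, rfl⟩ := Submodule.mem_span_singleton.mp hw
      rw [sympForm_smul_left, sympForm_smul_right, sympForm_self]
      simp
    have hE := card_perp_diff 2 (Submodule.span F {v}) hvv
    rw [finrank_span_singleton hv, ← hq] at hE
    let S := {W : Submodule F (Fin 2 ⊕ Fin 2 → F) // Module.finrank F W = 2 ∧ v ∈ W ∧
      ∀ u ∈ W, ∀ w ∈ W, Cfsg.sympForm 2 F u w = 0}
    let E := {u : Fin 2 ⊕ Fin 2 → F | (∀ w ∈ Submodule.span F {v}, Cfsg.sympForm 2 F w u = 0) ∧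
      u ∉ Submodule.span F {v}}
    have hli : ∀ u : E, LinearIndependent F ![v, u.1] := by
      intro u
      rw [LinearIndependent.pair_iff' hv]
      intro a ha
      exact u.2.2 (Submodule.mem_span_singleton.mpr ⟨a, ha⟩)
    let f : E → S := fun u => ⟨Submodule.span F (Set.range ![v, u.1]), by
        rw [finrank_span_eq_card (hli u), Fintype.card_fin],
      Submodule.subset_span ⟨0, rfl⟩, isotropic_span (by
        have h1 : Cfsg.sympForm 2 F v u.1 = 0 := u.2.1 v (Submodule.mem_span_singleton_self v)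
        have h2 : Cfsg.sympForm 2 F u.1 v = 0 := by rw [sympForm_swap, h1, neg_zero]
        intro i j
        fin_cases i <;> fin_cases j <;> simp [sympForm_self, h1, h2])⟩
    have hfib : ∀ W : S, Nat.card {u // f u = W} = q ^ 2 - q := by
      intro W
      have hvW : (Submodule.span F {v} : Set (Fin 2 ⊕ Fin 2 → F)) ⊆ (W.1 : Set (Fin 2 ⊕ Fin 2 → F)) := by
        intro x hx
        exact (Submodule.span_singleton_le_iff_mem v W.1).mpr W.2.2.1 hx
      have h1 : Nat.card ((W.1 : Set (Fin 2 ⊕ Fin 2 → F)) \ (Submodule.span F {v} : Set (Fin 2 ⊕ Fin 2 → F)) :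
          Set (Fin 2 ⊕ Fin 2 → F)) = q ^ 2 - q := by
        rw [Nat.card_coe_set_eq, Set.ncard_sdiff hvW, ← Nat.card_coe_set_eq, ← Nat.card_coe_set_eq]
        have e1 : Nat.card (W.1 : Set (Fin 2 ⊕ Fin 2 → F)) = q ^ 2 := by
          have := Module.natCard_eq_pow_finrank (K := F) (V := W.1)
          rw [W.2.1, Nat.card_eq_fintype_card (α := F)] at this
          exact this
        have e2 : Nat.card (Submodule.span F {v} : Set (Fin 2 ⊕ Fin 2 → F)) = q := by
          have := Module.natCard_eq_pow_finrank (K := F) (V := Submodule.span F {v})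
          rw [finrank_span_singleton hv, pow_one, Nat.card_eq_fintype_card (α := F)] at this
          exact this
        rw [e1, e2]
      rw [← h1]
      apply Nat.card_congr
      refine
        { toFun := fun u => ⟨u.1.1, ?_, u.1.2.2⟩
          invFun := fun u => ⟨⟨u.1, ?_, u.2.2⟩, ?_⟩
          left_inv := fun u => rfl
          right_inv := fun u => rfl }
      · have h2 : Submodule.span F (Set.range ![v, u.1.1]) = W.1 := congrArg Subtype.val u.2
        change u.1.1 ∈ W.1
        rw [← h2]
        exact Submodule.subset_span ⟨1, rfl⟩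
      · intro w hw
        exact W.2.2.2 w (hvW hw) u.1 u.2.1
      · apply Subtype.ext
        change Submodule.span F (Set.range ![v, u.1]) = W.1
        have hli' : LinearIndependent F ![v, u.1] := by
          rw [LinearIndependent.pair_iff' hv]
          intro a ha
          exact u.2.2 (Submodule.mem_span_singleton.mpr ⟨a, ha⟩)
        apply Submodule.eq_of_le_of_finrank_eq
        · rw [Submodule.span_le]
          rintro _ ⟨i, rfl⟩
          fin_cases i
          · exact W.2.2.1
          · exact u.2.1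
        · rw [finrank_span_eq_card hli', Fintype.card_fin, W.2.1]
    have : Finite S := by
      have : Finite (Submodule F (Fin 2 ⊕ Fin 2 → F)) :=
        Finite.of_injective (fun W => (W : Set (Fin 2 ⊕ Fin 2 → F))) SetLike.coe_injective
      infer_instance
    have := Fintype.ofFinite S
    have htot : Nat.card E = Nat.card S * (q ^ 2 - q) := by
      rw [← Nat.card_congr (Equiv.sigmaFiberEquiv f), Nat.card_sigma, Finset.sum_congr rfl (fun a _ => hfib a),
        Finset.sum_const, Finset.card_univ, smul_eq_mul, Nat.card_eq_fintype_card]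
    rw [hE] at htot
    have e : (q + 1) * (q ^ 2 - q) = q ^ (2 * 2 - 1) - q ^ 1 := by
      have e2 : 2 * 2 - 1 = 3 := rfl
      rw [e2, pow_one]
      zify [p1, p3]
      ring
    rw [← e] at htot
    exact (Nat.eq_of_mul_eq_mul_right (by omega) htot).symm

end Cfsg.Agent.S0828
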