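import Cfsg.Statements.S0829
-- import your own Cfsg.Agent.* helpers here
import Cfsg.Agent.Lib.Helper17.UnitIso

set_option autoImplicit false
open Cfsg

namespace Cfsg.Agent.S0829

open Cfsg.Agent.Lib.Helper17 Matrix

/-- The unitary quadrangle of PSU_4(q): with |F| = q², the number of 2-dimensional subspaces of F^4 on which the Hermitian form Σ x_i y_i^q vanishes is (q + 1)(q³ + 1). -/
theorem result {F : Type*} [Field F] [Fintype F] {q : ℕ} (hF : Fintype.card F = q ^ 2) : Nat.card {W : Submodule F (Fin 4 → F) // Module.finrank F W = 2 ∧ ∀ u ∈ W, ∀ v ∈ W, Cfsg.hermForm 4 F q u v = 0} = (q + 1) * (q ^ 3 + 1) := by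
  have hq2 : 2 ≤ q := two_le_of_card_sq hF
  have h := card_isotropic_subspaces_herm_mul hF 4 2 (by norm_num)
  simp only [Fin.prod_univ_two, Finset.prod_range_succ, Finset.prod_range_zero, one_mul, Fin.val_zero, Fin.val_one,
    pow_zero, pow_one, mul_zero, mul_one, Nat.sub_zero] at h
  have e4 : isoCount q 4 = (q ^ 4 - 1) * (q ^ 3 + 1) := by
    unfold isoCount
    rw [if_pos (by decide)]
  have e2 : isoCount q (4 - 2) = (q ^ 2 - 1) * (q + 1) := by
    unfold isoCount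
    rw [if_pos (by decide)]
    norm_num
  rw [e4, e2] at h
  have p1 : 1 ≤ q ^ 2 := Nat.one_le_pow _ _ (by omega)
  have p2 : 1 ≤ q ^ 4 := Nat.one_le_pow _ _ (by omega)
  have p3 : 1 ≤ (q ^ 2) ^ 2 := Nat.one_le_pow _ _ (by omega)
  have p4 : q ^ 2 < (q ^ 2) ^ 2 := by nlinarith
  have e : (q + 1) * (q ^ 3 + 1) * (((q ^ 2) ^ 2 - 1) * ((q ^ 2) ^ 2 - q ^ 2)) =
      (q ^ 4 - 1) * (q ^ 3 + 1) * (q ^ 2 * ((q ^ 2 - 1) * (q + 1))) := by
    zify [p1, p2, p3, p4.le]
    ring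
  rw [← e] at h
  exact Nat.eq_of_mul_eq_mul_right (Nat.mul_pos (by omega) (by omega)) h

end Cfsg.Agent.S0829
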