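import Cfsg.Statements.S0831
import Cfsg.Agent.Lib.Helper49.PlusLagr

set_option autoImplicit false
open Cfsg Cfsg.Agent.Lib.Helper49

namespace Cfsg.Agent.S0831

/-- The two families of maximal totally singular subspaces of the hyperbolic quadric: for the form Σ x_i y_i on F^(2m), m ≥ 1, and m-dimensional subspaces U, W, X on which it vanishes, the parities of m − dim(U ∩ W), m − dim(W ∩ X) and m − dim(U ∩ X) sum to an even number (so 'even codimension of the intersection' is an equivalence relation), and there exist two such subspaces meeting in codimension 1 (so there are exactly two classes). -/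
theorem result {F : Type*} [Field F] (m : ℕ) (hm : 1 ≤ m) : (∀ U W X : Submodule F (Fin m ⊕ Fin m → F), (Module.finrank F U = m ∧ ∀ w ∈ U, Cfsg.quadFormPlus m F w = 0) → (Module.finrank F W = m ∧ ∀ w ∈ W, Cfsg.quadFormPlus m F w = 0) → (Module.finrank F X = m ∧ ∀ w ∈ X, Cfsg.quadFormPlus m F w = 0) → Even ((m - Module.finrank F ↥(U ⊓ W)) + (m - Module.finrank F ↥(W ⊓ X)) + (m - Module.finrank F ↥(U ⊓ X)))) ∧ ∃ U W : Submodule F (Fin m ⊕ Fin m → F), (Module.finrank F U = m ∧ ∀ w ∈ U, Cfsg.quadFormPlus m F w = 0) ∧ (Module.finrank F W = m ∧ ∀ w ∈ W, Cfsg.quadFormPlus m F w = 0) ∧ Module.finrank F ↥(U ⊓ W) + 1 = m := by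
  refine ⟨fun U W X hU hW hX => even_codim_triangle (isLagr_plus hU.1 hU.2) (isLagr_plus hW.1 hW.2)
    (isLagr_plus hX.1 hX.2), ?_⟩
  obtain ⟨x, hx⟩ : ∃ x, plusQF m F x ≠ 0 := by
    let i0 : Fin m := ⟨0, hm⟩
    refine ⟨Pi.single (Sum.inl i0) 1 + Pi.single (Sum.inr i0) 1, ?_⟩
    rw [plusQF_coe]
    have : Cfsg.quadFormPlus m F (Pi.single (Sum.inl i0) 1 + Pi.single (Sum.inr i0) 1) = 1 := by
      simp only [Cfsg.quadFormPlus, Pi.add_apply]
      rw [Finset.sum_eq_single i0]
      · simp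
      · intro b _ hb
        simp [hb]
      · simp
    rw [this]
    exact one_ne_zero
  have hL := isLagr_stdLagr (m := m) (F := F)
  have hL' := hL.map (refl (plusQF m F) x)
  have h3 := hL.finrank_inf_map_refl (plusQF_nondegenerate m F) hL x hx
  generalize (stdLagr m F).map
    ((refl (plusQF m F) x).1 : (Fin m ⊕ Fin m → F) →ₗ[F] (Fin m ⊕ Fin m → F)) = W at hL' h3
  have hfin := finrank_stdLagr (m := m) (F := F)
  generalize stdLagr m F = U at hL h3 hfin
  have hU0 : ∀ w ∈ U, Cfsg.quadFormPlus m F w = 0 := by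
    intro w hw
    rw [← plusQF_coe]
    exact hL.1 w hw
  have hW0 : ∀ w ∈ W, Cfsg.quadFormPlus m F w = 0 := by
    intro w hw
    rw [← plusQF_coe]
    exact hL'.1 w hw
  refine ⟨U, W, ⟨hfin, hU0⟩, ⟨hL'.finrank_plus, hW0⟩, ?_⟩
  rw [inf_idem, hfin] at h3
  rcases h3 with h | h
  · exact h
  · exfalso
    have : Module.finrank F ↥(U ⊓ W) ≤ m := (Submodule.finrank_mono inf_le_left).trans hfin.le
    omega

end Cfsg.Agent.S0831
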