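import Cfsg.Statements.S0832
import Cfsg.Agent.Lib.Helper18.PlusGeom
import Cfsg.Agent.S0750

set_option autoImplicit false
open Cfsg
open Cfsg.Agent.Lib.Helper18 QuadraticMap

namespace Cfsg.Agent.S0832

section
variable {F : Type*} [Field F] (m : ℕ) (j0 : Fin m)

def J1 : Set (Fin m ⊕ Fin m) := {k | ∃ i, k = Sum.inr i}
def J2 : Set (Fin m ⊕ Fin m) := {k | (∃ i, i ≠ j0 ∧ k = Sum.inr i) ∨ k = Sum.inl j0}
def J0 : Set (Fin m ⊕ Fin m) := {k | (∃ i, k = Sum.inr i) ∨ k = Sum.inl j0}

theorem finrank_W1 : Module.finrank F (coordSub F (J1 m)) = m := by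
  have e : Fin m ≃ {k : Fin m ⊕ Fin m // k ∉ J1 m} :=
    Equiv.ofBijective (fun i => ⟨Sum.inl i, by simp [J1]⟩) (by
      constructor
      · intro a b h
        simpa using h
      · rintro ⟨k, hk⟩
        rcases k with i | i
        · exact ⟨i, rfl⟩
        · exact absurd ⟨i, rfl⟩ hk)
  rw [finrank_coordSub _ e, Fintype.card_fin]

theorem finrank_W2 : Module.finrank F (coordSub F (J2 m j0)) = m := by
  have e : Fin m ≃ {k : Fin m ⊕ Fin m // k ∉ J2 m j0} :=
    Equiv.ofBijective (fun i => if h : i = j0 then ⟨Sum.inr j0, by simp [J2]⟩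
      else ⟨Sum.inl i, by simp [J2, h]⟩) (by
      constructor
      · intro a b h
        by_cases ha : a = j0 <;> by_cases hb : b = j0 <;> simp_all
      · rintro ⟨k, hk⟩
        rcases k with i | i
        · have hi : i ≠ j0 := by
            rintro rfl
            exact hk (Or.inr rfl)
          exact ⟨i, by simp [hi]⟩
        · have hi : i = j0 := by
            by_contra hne
            exact hk (Or.inl ⟨i, hne, rfl⟩)
          subst hi
          exact ⟨i, by simp⟩)
  rw [finrank_coordSub _ e, Fintype.card_fin]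

theorem finrank_U0 : Module.finrank F (coordSub F (J0 m j0)) + 1 = m := by
  have e : {i : Fin m // i ≠ j0} ≃ {k : Fin m ⊕ Fin m // k ∉ J0 m j0} :=
    Equiv.ofBijective (fun i => ⟨Sum.inl i.1, by simp [J0, i.2]⟩) (by
      constructor
      · intro a b h
        apply Subtype.ext
        simpa using h
      · rintro ⟨k, hk⟩
        rcases k with i | i
        · have hi : i ≠ j0 := by
            rintro rfl
            exact hk (Or.inr rfl)
          exact ⟨⟨i, hi⟩, rfl⟩
        · exact absurd (Or.inl ⟨i, rfl⟩) hk)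
  rw [finrank_coordSub _ e, Fintype.card_subtype_compl, Fintype.card_fin]
  simp
  have := j0.2
  omega

theorem W1_sing (v : Fin m ⊕ Fin m → F) (hv : v ∈ coordSub F (J1 m)) : plusForm m F v = 0 := by
  rw [plusForm_apply]
  apply Finset.sum_eq_zero
  intro i _
  rw [hv (Sum.inr i) ⟨i, rfl⟩, mul_zero]

theorem W2_sing (v : Fin m ⊕ Fin m → F) (hv : v ∈ coordSub F (J2 m j0)) : plusForm m F v = 0 := by
  rw [plusForm_apply]
  apply Finset.sum_eq_zero
  intro i _
  by_cases hi : i = j0
  · subst hi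
    rw [hv (Sum.inl i) (Or.inr rfl), zero_mul]
  · rw [hv (Sum.inr i) (Or.inl ⟨i, hi, rfl⟩), mul_zero]

theorem classify (W : Submodule F (Fin m ⊕ Fin m → F)) (hfr : Module.finrank F W = m)
    (hs : ∀ w ∈ W, plusForm m F w = 0) (hU : coordSub F (J0 m j0) ≤ W) :
    W = coordSub F (J1 m) ∨ W = coordSub F (J2 m j0) := by
  have h1 : ∀ w ∈ W, ∀ i, i ≠ j0 → w (Sum.inr i) = 0 := by
    intro w hw i hi
    have he : (Pi.single (Sum.inl i) 1 : Fin m ⊕ Fin m → F) ∈ W := by
      apply hU
      intro k hk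
      rcases hk with ⟨i', rfl⟩ | rfl
      · simp
      · simp [hi.symm]
    rw [← polar_plusForm_single_inl m w i]
    unfold polar
    rw [hs _ (W.add_mem hw he), hs _ hw, hs _ he]
    ring
  have h2 : ∀ w ∈ W, w (Sum.inl j0) * w (Sum.inr j0) = 0 := by
    intro w hw
    have := hs w hw
    rw [plusForm_apply, Finset.sum_eq_single j0 (fun i _ hi => by rw [h1 w hw i hi, mul_zero])
      (fun h => absurd (Finset.mem_univ _) h)] at this
    exact this
  by_cases hall : ∀ w ∈ W, w (Sum.inr j0) = 0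
  · left
    apply Submodule.eq_of_le_of_finrank_eq
    · intro w hw k hk
      obtain ⟨i, rfl⟩ := hk
      by_cases hi : i = j0
      · subst hi; exact hall w hw
      · exact h1 w hw i hi
    · rw [hfr, finrank_W1]
  · right
    push Not at hall
    obtain ⟨w0, hw0, hne⟩ := hall
    have hw0l : w0 (Sum.inl j0) = 0 := (mul_eq_zero.1 (h2 w0 hw0)).resolve_right hne
    apply Submodule.eq_of_le_of_finrank_eq
    · intro w hw k hk
      rcases hk with ⟨i, hi, rfl⟩ | rfl
      · exact h1 w hw i hi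
      · by_contra hwl
        have hwr : w (Sum.inr j0) = 0 := (mul_eq_zero.1 (h2 w hw)).resolve_left hwl
        have := h2 (w + w0) (W.add_mem hw hw0)
        simp only [Pi.add_apply, hw0l, hwr, add_zero, zero_add] at this
        rcases mul_eq_zero.1 this with h | h
        · exact hwl h
        · exact hne h
    · rw [hfr, finrank_W2]

theorem count_std :
    Nat.card {W : Submodule F (Fin m ⊕ Fin m → F) // Module.finrank F W = m ∧
      (∀ w ∈ W, plusForm m F w = 0) ∧ coordSub F (J0 m j0) ≤ W} = 2 := by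
  have hset : {W : Submodule F (Fin m ⊕ Fin m → F) | Module.finrank F W = m ∧
      (∀ w ∈ W, plusForm m F w = 0) ∧ coordSub F (J0 m j0) ≤ W} =
      {coordSub F (J1 m), coordSub F (J2 m j0)} := by
    ext W
    simp only [Set.mem_ofPred_eq, Set.mem_insert_iff, Set.mem_singleton_iff]
    constructor
    · rintro ⟨h1, h2, h3⟩
      exact classify m j0 W h1 h2 h3
    · rintro (rfl | rfl)
      · refine ⟨finrank_W1 m, W1_sing m, ?_⟩
        intro v hv k hk
        exact hv k (Or.inl hk)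
      · refine ⟨finrank_W2 m j0, W2_sing m j0, ?_⟩
        intro v hv k hk
        rcases hk with ⟨i, _, rfl⟩ | rfl
        · exact hv _ (Or.inl ⟨i, rfl⟩)
        · exact hv _ (Or.inr rfl)
  have hne : coordSub F (J1 m) ≠ coordSub F (J2 m j0) := by
    intro h
    have h1 : (Pi.single (Sum.inl j0) 1 : Fin m ⊕ Fin m → F) ∈ coordSub F (J1 m) := by
      rintro k ⟨i, rfl⟩
      simp
    rw [h] at h1
    have := h1 (Sum.inl j0) (Or.inr rfl)
    simp at this
  show Nat.card ↥{W : Submodule F (Fin m ⊕ Fin m → F) | Module.finrank F W = m ∧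
      (∀ w ∈ W, plusForm m F w = 0) ∧ coordSub F (J0 m j0) ≤ W} = 2
  rw [hset, Nat.card_coe_set_eq, Set.ncard_pair hne]

end

/-- For the form Σ x_i y_i on F^(2m) over a finite field, m ≥ 1: an (m−1)-dimensional subspace on which the form vanishes is contained in exactly two m-dimensional subspaces on which it vanishes. -/
theorem result {F : Type*} [Field F] [Finite F] (m : ℕ) (hm : 1 ≤ m) (U : Submodule F (Fin m ⊕ Fin m → F)) (hU : Module.finrank F U + 1 = m ∧ ∀ u ∈ U, Cfsg.quadFormPlus m F u = 0) : Nat.card {W : Submodule F (Fin m ⊕ Fin m → F) // Module.finrank F W = m ∧ (∀ w ∈ W, Cfsg.quadFormPlus m F w = 0) ∧ U ≤ W} = 2 := by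
  rw [← plusForm_coe m] at hU ⊢
  obtain ⟨hUfr, hUs⟩ := hU
  let j0 : Fin m := ⟨m - 1, by omega⟩
  set U0 := coordSub F (J0 m j0) with hU0
  have hfr0 : Module.finrank F U0 + 1 = m := finrank_U0 m j0
  have hU0s : ∀ u ∈ U0, plusForm m F u = 0 := by
    intro u hu
    apply W1_sing m u
    intro k hk
    exact hu k (Or.inl hk)
  let φ : U ≃ₗ[F] U0 := LinearEquiv.ofFinrankEq U U0 (by omega)
  obtain ⟨g, hg1, hg2⟩ := Cfsg.Agent.S0750.result (plusForm m F) (plusForm_nondeg' m) U U0 φ
    (fun x => by rw [hU0s _ (φ x).2, hUs _ x.2])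
  have hmap : U.map (g : (Fin m ⊕ Fin m → F) →ₗ[F] (Fin m ⊕ Fin m → F)) = U0 := by
    apply Submodule.eq_of_le_of_finrank_eq
    · rintro _ ⟨x, hx, rfl⟩
      have := hg2 ⟨x, hx⟩
      simp only [LinearEquiv.coe_coe]
      rw [this]
      exact (φ ⟨x, hx⟩).2
    · rw [LinearEquiv.finrank_map_eq]; omega
  rw [← count_std (F := F) m j0]
  apply Nat.card_congr
  apply Equiv.subtypeEquiv (Submodule.orderIsoMapComap g).toEquiv
  intro W
  show _ ↔ (Module.finrank F (W.map (g : (Fin m ⊕ Fin m → F) →ₗ[F] (Fin m ⊕ Fin m → F))) = m ∧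
    (∀ w ∈ W.map (g : (Fin m ⊕ Fin m → F) →ₗ[F] (Fin m ⊕ Fin m → F)), plusForm m F w = 0) ∧
    U0 ≤ W.map (g : (Fin m ⊕ Fin m → F) →ₗ[F] (Fin m ⊕ Fin m → F)))
  rw [LinearEquiv.finrank_map_eq, ← hmap, Submodule.map_le_map_iff_of_injective g.injective]
  constructor
  · rintro ⟨h1, h2, h3⟩
    refine ⟨h1, ?_, h3⟩
    rintro _ ⟨w, hw, rfl⟩
    simp only [LinearEquiv.coe_coe]
    rw [hg1]; exact h2 w hw
  · rintro ⟨h1, h2, h3⟩
    refine ⟨h1, ?_, h3⟩
    intro w hw
    rw [← hg1]
    exact h2 _ ⟨w, hw, rfl⟩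

end Cfsg.Agent.S0832
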