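import Cfsg.Statements.S0833
import Cfsg.Agent.Lib.Helper18.TensorForm
import Cfsg.Agent.S0752

set_option autoImplicit false
open Cfsg
open Cfsg.Agent.Lib.Helper18 TensorProduct

namespace Cfsg.Agent.S0833

/-- If B₁, B₂ are non-degenerate alternating forms on U (dim 2k) and W (dim 2l), then B₁ ⊗ B₂ on U ⊗ W is symmetric, non-degenerate, and vanishes identically on some subspace of dimension 2kl (half of dim U ⊗ W). -/
theorem result {F U W : Type*} [Field F] [Fintype F] [AddCommGroup U] [Module F U] [FiniteDimensional F U] [AddCommGroup W] [Module F W] [FiniteDimensional F W] (B₁ : LinearMap.BilinForm F U) (B₂ : LinearMap.BilinForm F W) (h₁ : B₁.Nondegenerate) (h₂ : B₂.Nondegenerate) (hA₁ : B₁.IsAlt) (hA₂ : B₂.IsAlt) (k l : ℕ) (hU : Module.finrank F U = 2 * k) (hW : Module.finrank F W = 2 * l) : (B₁.tmul B₂).IsSymm ∧ (B₁.tmul B₂).Nondegenerate ∧ (∃ X : Submodule F (TensorProduct F U W), Module.finrank F X = 2 * k * l ∧ ∀ x ∈ X, ∀ y ∈ X, (B₁.tmul B₂) x y = 0) := by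
  refine ⟨?_, tmul_nondegenerate B₁ B₂ h₁ h₂, ?_⟩
  · rw [LinearMap.isSymm_iff_eq_flip]
    apply TensorProduct.ext'
    intro u w
    apply TensorProduct.ext'
    intro u' w'
    rw [LinearMap.flip_apply, tmul_apply_tmul, tmul_apply_tmul, ← hA₁.neg_eq u u', ← hA₂.neg_eq w w']
    ring
  · obtain ⟨m, k', b, hb1, hb2, hb3, hb4⟩ := Cfsg.Agent.S0752.result B₁ hA₁
    have hk' : k' = 0 := by
      by_contra hne
      have hpos : 0 < k' := Nat.pos_of_ne_zero hne
      have h0 : b (Sum.inr ⟨0, hpos⟩) = 0 := h₁.1 _ (hb4 ⟨0, hpos⟩)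
      exact b.ne_zero _ h0
    have hcard := Module.finrank_eq_card_basis b
    simp only [Fintype.card_sum, Fintype.card_fin] at hcard
    have hm : m = k := by omega
    let f := Module.finBasis F W
    let g : Fin m × Fin (Module.finrank F W) → U ⊗[F] W :=
      fun p => (b.tensorProduct f) (Sum.inl (Sum.inl p.1), p.2)
    have hli : LinearIndependent F g := by
      apply (b.tensorProduct f).linearIndependent.comp
      intro p q hpq
      simp only [Prod.mk.injEq, Sum.inl.injEq] at hpq
      exact Prod.ext hpq.1 hpq.2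
    refine ⟨Submodule.span F (Set.range g), ?_, ?_⟩
    · rw [finrank_span_eq_card hli]
      simp only [Fintype.card_prod, Fintype.card_fin]
      rw [hW, hm]; ring
    · apply isotropic_span
      intro p q
      simp only [g]
      rw [Module.Basis.tensorProduct_apply, Module.Basis.tensorProduct_apply, tmul_apply_tmul, hb2,
        zero_mul]

end Cfsg.Agent.S0833
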