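import Cfsg.Statements.S0834
import Cfsg.Agent.Lib.Helper18.SymmClass

set_option autoImplicit false
open Cfsg
open Cfsg.Agent.Lib.Helper18

namespace Cfsg.Agent.S0834

/-- Over a finite field with 2 ≠ 0: if B₁ on U (dim 2k, k ≥ 1) and B₂ on W (dim 2l, l ≥ 1) are non-degenerate symmetric forms admitting no totally isotropic subspaces of dimensions k, resp. l (minus type), then B₁ ⊗ B₂ admits a totally isotropic subspace of dimension 2kl (plus type). -/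
theorem result {F U W : Type*} [Field F] [Fintype F] [AddCommGroup U] [Module F U] [FiniteDimensional F U] [AddCommGroup W] [Module F W] [FiniteDimensional F W] (h2 : (2 : F) ≠ 0) (B₁ : LinearMap.BilinForm F U) (B₂ : LinearMap.BilinForm F W) (h₁ : B₁.Nondegenerate) (h₂ : B₂.Nondegenerate) (hS₁ : B₁.IsSymm) (hS₂ : B₂.IsSymm) (k l : ℕ) (hk : 1 ≤ k) (hl : 1 ≤ l) (hU : Module.finrank F U = 2 * k) (hW : Module.finrank F W = 2 * l) (hm₁ : ¬ (∃ X : Submodule F (U), Module.finrank F X = k ∧ ∀ x ∈ X, ∀ y ∈ X, (B₁) x y = 0)) (hm₂ : ¬ (∃ X : Submodule F (W), Module.finrank F X = l ∧ ∀ x ∈ X, ∀ y ∈ X, (B₂) x y = 0)) : (∃ X : Submodule F (TensorProduct F U W), Module.finrank F X = 2 * k * l ∧ ∀ x ∈ X, ∀ y ∈ X, (B₁.tmul B₂) x y = 0) := by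
  obtain ⟨δ₁, hd₁⟩ := exists_hasDisc B₁
  obtain ⟨δ₂, hd₂⟩ := exists_hasDisc B₂
  have hδ₁ := hd₁.ne_zero h₁
  have hδ₂ := hd₂.ne_zero h₂
  have hd := hd₁.tmul hd₂
  rw [hU, hW] at hd
  have hd' : HasDisc (B₁.tmul B₂) ((-1) ^ (2 * k * l)) := by
    have h3 := hd.mul_sq (t := (δ₁ ^ l * δ₂ ^ k)⁻¹)
      (inv_ne_zero (mul_ne_zero (pow_ne_zero _ hδ₁) (pow_ne_zero _ hδ₂)))
    have h4 : δ₁ ^ (2 * l) * δ₂ ^ (2 * k) * ((δ₁ ^ l * δ₂ ^ k)⁻¹) ^ 2 = (-1) ^ (2 * k * l) := by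
      rw [mul_assoc 2 k l, pow_mul (-1 : F) 2, neg_one_sq, one_pow]
      have : δ₁ ^ l * δ₂ ^ k ≠ 0 := mul_ne_zero (pow_ne_zero _ hδ₁) (pow_ne_zero _ hδ₂)
      field_simp
      ring
    rwa [h4] at h3
  refine exists_isotropic_of_hasDisc h2 (B₁.tmul B₂) (LinearMap.BilinForm.isSymm_iff.2 (LinearMap.IsSymm.tmul (LinearMap.BilinForm.isSymm_iff.1 hS₁) (LinearMap.BilinForm.isSymm_iff.1 hS₂))) (tmul_nondegenerate B₁ B₂ h₁ h₂)
    (2 * k * l) ?_ ?_ hd'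
  · have : 1 ≤ k * l := Nat.mul_pos hk hl
    nlinarith
  · rw [Module.finrank_tensorProduct, hU, hW]
    ring

end Cfsg.Agent.S0834
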