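import Cfsg.Statements.S0835
import Cfsg.Agent.Lib.Helper18.SymmClass

set_option autoImplicit false
open Cfsg
open Cfsg.Agent.Lib.Helper18

namespace Cfsg.Agent.S0835

/-- Over a finite field with 2 ≠ 0: if B₁ on U (dim 2k, k ≥ 1) is non-degenerate symmetric of minus type (no totally isotropic k-subspace) and B₂ on W (dim 2l + 1) is non-degenerate symmetric, then B₁ ⊗ B₂ (dimension 2k(2l+1)) admits no totally isotropic subspace of dimension k(2l+1) (minus type). -/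
theorem result {F U W : Type*} [Field F] [Fintype F] [AddCommGroup U] [Module F U] [FiniteDimensional F U] [AddCommGroup W] [Module F W] [FiniteDimensional F W] (h2 : (2 : F) ≠ 0) (B₁ : LinearMap.BilinForm F U) (B₂ : LinearMap.BilinForm F W) (h₁ : B₁.Nondegenerate) (h₂ : B₂.Nondegenerate) (hS₁ : B₁.IsSymm) (hS₂ : B₂.IsSymm) (k l : ℕ) (hk : 1 ≤ k) (hU : Module.finrank F U = 2 * k) (hW : Module.finrank F W = 2 * l + 1) (hm₁ : ¬ (∃ X : Submodule F (U), Module.finrank F X = k ∧ ∀ x ∈ X, ∀ y ∈ X, (B₁) x y = 0)) : ¬ (∃ X : Submodule F (TensorProduct F U W), Module.finrank F X = k * (2 * l + 1) ∧ ∀ x ∈ X, ∀ y ∈ X, (B₁.tmul B₂) x y = 0) := by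
  rintro ⟨X, hX, hiso⟩
  apply hm₁
  obtain ⟨δ₁, hd₁⟩ := exists_hasDisc B₁
  obtain ⟨δ₂, hd₂⟩ := exists_hasDisc B₂
  have hδ₁ := hd₁.ne_zero h₁
  have hδ₂ := hd₂.ne_zero h₂
  have hd := hd₁.tmul hd₂
  rw [hU, hW] at hd
  have hfr : Module.finrank F (TensorProduct F U W) = 2 * (k * (2 * l + 1)) := by
    rw [Module.finrank_tensorProduct, hU, hW]
    ring
  have hd' := hasDisc_of_isotropic (B₁.tmul B₂) (tmul_nondegenerate B₁ B₂ h₁ h₂) (LinearMap.BilinForm.isSymm_iff.2 (LinearMap.IsSymm.tmul (LinearMap.BilinForm.isSymm_iff.1 hS₁) (LinearMap.BilinForm.isSymm_iff.1 hS₂)))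
    (k * (2 * l + 1)) hfr X hX hiso
  obtain ⟨t, ht, het⟩ := hd.unique hd'
  refine exists_isotropic_of_hasDisc h2 B₁ hS₁ h₁ k hk hU ?_
  have h3 := hd₁.mul_sq (t := δ₁ ^ l * δ₂ ^ k * t * (-1) ^ (k * l))
    (mul_ne_zero (mul_ne_zero (mul_ne_zero (pow_ne_zero _ hδ₁) (pow_ne_zero _ hδ₂)) ht)
      (pow_ne_zero _ (neg_ne_zero.2 one_ne_zero)))
  have h4 : δ₁ * (δ₁ ^ l * δ₂ ^ k * t * (-1) ^ (k * l)) ^ 2 = (-1) ^ k := by
    have h5 : δ₁ * (δ₁ ^ l * δ₂ ^ k * t * (-1) ^ (k * l)) ^ 2 =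
        (δ₁ ^ (2 * l + 1) * δ₂ ^ (2 * k) * t ^ 2) * ((-1) ^ (k * l)) ^ 2 := by ring
    rw [h5, ← het]
    have h6 : ((-1 : F) ^ (k * l)) ^ 2 = 1 := by
      rw [← pow_mul, mul_comm, pow_mul, neg_one_sq, one_pow]
    have h7 : (-1 : F) ^ (k * (2 * l + 1)) = (-1) ^ k * ((-1) ^ (k * l)) ^ 2 := by ring
    rw [h7, h6]
    ring
  rwa [h4] at h3

end Cfsg.Agent.S0835
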