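import Cfsg.Statements.S0837
-- import your own Cfsg.Agent.* helpers here
import Cfsg.Agent.Lib.Helper17.UnitCoord
import Cfsg.Agent.Lib.Helper17.Stab

set_option autoImplicit false
open Cfsg

namespace Cfsg.Agent.S0837

open Cfsg.Agent.Lib.Helper17 Matrix

section
variable {F : Type*} [Field F] [Fintype F] {q : ℕ} {n k l : ℕ}

/-- the linear map which is block diagonal in the coordinates `Φ` -/
noncomputable def T (Φ : ((Fin k → F) × (Fin l → F)) ≃ₗ[F] (Fin n → F))
    (A : ↥(Cfsg.GU k F q) × ↥(Cfsg.GU l F q)) : (Fin n → F) →ₗ[F] (Fin n → F) :=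
  Φ.toLinearMap ∘ₗ (LinearMap.prodMap (guEquiv A.1).toLinearMap (guEquiv A.2).toLinearMap) ∘ₗ Φ.symm.toLinearMap

theorem T_apply (Φ : ((Fin k → F) × (Fin l → F)) ≃ₗ[F] (Fin n → F))
    (A : ↥(Cfsg.GU k F q) × ↥(Cfsg.GU l F q)) (v : Fin n → F) :
    T Φ A v = Φ (((A.1 : Matrix.GeneralLinearGroup (Fin k) F) : Matrix (Fin k) (Fin k) F) *ᵥ (Φ.symm v).1,
      ((A.2 : Matrix.GeneralLinearGroup (Fin l) F) : Matrix (Fin l) (Fin l) F) *ᵥ (Φ.symm v).2) := rfl

theorem T_isom (Φ : ((Fin k → F) × (Fin l → F)) ≃ₗ[F] (Fin n → F))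
    (hΦ : ∀ p p', Cfsg.hermForm n F q (Φ p) (Φ p') = Cfsg.hermForm k F q p.1 p'.1 + Cfsg.hermForm l F q p.2 p'.2)
    (A : ↥(Cfsg.GU k F q) × ↥(Cfsg.GU l F q)) (u v : Fin n → F) :
    Cfsg.hermForm n F q (T Φ A u) (T Φ A v) = Cfsg.hermForm n F q u v := by
  rw [T_apply, T_apply, hΦ]
  simp only [gu_hermForm]
  rw [← hΦ]
  simp

theorem gu_ext {m : ℕ} {A B : ↥(Cfsg.GU m F q)}
    (h : ∀ v, ((A : Matrix.GeneralLinearGroup (Fin m) F) : Matrix (Fin m) (Fin m) F) *ᵥ v =
      ((B : Matrix.GeneralLinearGroup (Fin m) F) : Matrix (Fin m) (Fin m) F) *ᵥ v) : A = B := by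
  apply Subtype.ext
  apply Units.ext
  rw [Matrix.ext_iff_mulVec]
  exact h

/-- the embedding of the product of unitary groups -/
noncomputable def Ψ (hF : Fintype.card F = q ^ 2) (Φ : ((Fin k → F) × (Fin l → F)) ≃ₗ[F] (Fin n → F))
    (hΦ : ∀ p p', Cfsg.hermForm n F q (Φ p) (Φ p') = Cfsg.hermForm k F q p.1 p'.1 + Cfsg.hermForm l F q p.2 p'.2) :
    ↥(Cfsg.GU k F q) × ↥(Cfsg.GU l F q) →* ↥(Cfsg.GU n F q) where
  toFun A := guOfLinear hF (T Φ A) (T_isom Φ hΦ A)
  map_one' := by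
    apply gu_ext
    intro v
    rw [guOfLinear_mulVec, T_apply]
    simp
  map_mul' A A' := by
    apply gu_ext
    intro v
    rw [gu_coe_mul_mulVec, guOfLinear_mulVec, guOfLinear_mulVec, guOfLinear_mulVec, T_apply, T_apply, T_apply]
    simp only [LinearEquiv.symm_apply_apply, Prod.fst_mul, Prod.snd_mul, gu_coe_mul_mulVec]

theorem main (hF : Fintype.card F = q ^ 2) (W : Submodule F (Fin n → F))
    (Φ : ((Fin k → F) × (Fin l → F)) ≃ₗ[F] (Fin n → F))
    (hΦ : ∀ p p', Cfsg.hermForm n F q (Φ p) (Φ p') = Cfsg.hermForm k F q p.1 p'.1 + Cfsg.hermForm l F q p.2 p'.2)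
    (hW : ∀ v, v ∈ W ↔ (Φ.symm v).2 = 0) :
    Nonempty (↥((Cfsg.stabilizing (Cfsg.glToMat (Fin n) F) (W : Set (Fin n → F))).subgroupOf (Cfsg.GU n F q)) ≃*
      ↥(Cfsg.GU k F q) × ↥(Cfsg.GU l F q)) := by
  have hq0 : q ≠ 0 := by have := two_le_of_card_sq hF; omega
  have hΨ : ∀ A v, ((Ψ hF Φ hΦ A : Matrix.GeneralLinearGroup (Fin n) F) : Matrix (Fin n) (Fin n) F) *ᵥ v =
      T Φ A v := fun A v => guOfLinear_mulVec hF (T Φ A) (T_isom Φ hΦ A) v
  have hinj : Function.Injective (Ψ hF Φ hΦ) := by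
    intro A A' h
    have h1 : ∀ p, T Φ A (Φ p) = T Φ A' (Φ p) := by
      intro p
      rw [← hΨ, ← hΨ, h]
    simp only [T_apply, LinearEquiv.symm_apply_apply, EmbeddingLike.apply_eq_iff_eq, Prod.mk.injEq] at h1
    apply Prod.ext
    · apply gu_ext
      intro x
      exact (h1 (x, 0)).1
    · apply gu_ext
      intro y
      exact (h1 (0, y)).2
  have hrange : (Ψ hF Φ hΦ).range =
      (Cfsg.stabilizing (Cfsg.glToMat (Fin n) F) (W : Set (Fin n → F))).subgroupOf (Cfsg.GU n F q) := by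
    ext g
    rw [Subgroup.mem_subgroupOf]
    constructor
    · rintro ⟨A, rfl⟩
      apply mem_stabilizing_of_forall
      intro v hv
      change ((Ψ hF Φ hΦ A : Matrix.GeneralLinearGroup (Fin n) F) : Matrix (Fin n) (Fin n) F) *ᵥ v ∈ W
      rw [hΨ, T_apply, hW, LinearEquiv.symm_apply_apply]
      simp only
      rw [(hW v).mp hv, Matrix.mulVec_zero]
    · intro hg
      have hgW : ∀ v, v ∈ W ↔ ((g : Matrix.GeneralLinearGroup (Fin n) F) : Matrix (Fin n) (Fin n) F) *ᵥ v ∈ W := hg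
      have h1 : ∀ x, (Φ.symm (((g : Matrix.GeneralLinearGroup (Fin n) F) : Matrix (Fin n) (Fin n) F) *ᵥ
          Φ (x, 0))).2 = 0 := by
        intro x
        rw [← hW, ← hgW, hW]
        simp
      have h2 : ∀ y, (Φ.symm (((g : Matrix.GeneralLinearGroup (Fin n) F) : Matrix (Fin n) (Fin n) F) *ᵥ
          Φ (0, y))).1 = 0 := by
        intro y
        apply hermForm_left_eq_zero hF k
        intro x
        set w := (((g⁻¹ : ↥(Cfsg.GU n F q)) : Matrix.GeneralLinearGroup (Fin n) F) : Matrix (Fin n) (Fin n) F) *ᵥ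
          Φ (x, 0) with hw
        have hgw : ((g : Matrix.GeneralLinearGroup (Fin n) F) : Matrix (Fin n) (Fin n) F) *ᵥ w = Φ (x, 0) := by
          rw [hw, gu_mulVec_inv]
        have hwW : w ∈ W := by
          rw [hgW, hgw, hW]
          simp
        have e1 := hΦ (Φ.symm (((g : Matrix.GeneralLinearGroup (Fin n) F) : Matrix (Fin n) (Fin n) F) *ᵥ
          Φ (0, y))) (x, 0)
        rw [LinearEquiv.apply_symm_apply, ← hgw, gu_hermForm] at e1
        have e2 := hΦ (0, y) (Φ.symm w)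
        rw [LinearEquiv.apply_symm_apply, (hW w).mp hwW] at e2
        simp only [hermForm_zero_left, hermForm_zero_right hq0, add_zero] at e1 e2
        rw [← e1, e2]
      let L₁ : (Fin k → F) →ₗ[F] (Fin k → F) :=
        LinearMap.fst F (Fin k → F) (Fin l → F) ∘ₗ Φ.symm.toLinearMap ∘ₗ (guEquiv g).toLinearMap ∘ₗ Φ.toLinearMap ∘ₗ
          LinearMap.inl F (Fin k → F) (Fin l → F)
      let L₂ : (Fin l → F) →ₗ[F] (Fin l → F) :=
        LinearMap.snd F (Fin k → F) (Fin l → F) ∘ₗ Φ.symm.toLinearMap ∘ₗ (guEquiv g).toLinearMap ∘ₗ Φ.toLinearMap ∘ₗ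
          LinearMap.inr F (Fin k → F) (Fin l → F)
      have hL₁ : ∀ x, ((g : Matrix.GeneralLinearGroup (Fin n) F) : Matrix (Fin n) (Fin n) F) *ᵥ Φ (x, 0) =
          Φ (L₁ x, 0) := by
        intro x
        rw [← LinearEquiv.symm_apply_eq]
        exact Prod.ext rfl (h1 x)
      have hL₂ : ∀ y, ((g : Matrix.GeneralLinearGroup (Fin n) F) : Matrix (Fin n) (Fin n) F) *ᵥ Φ (0, y) =
          Φ (0, L₂ y) := by
        intro y
        rw [← LinearEquiv.symm_apply_eq]
        exact Prod.ext (h2 y) rfl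
      have hI₁ : ∀ x x', Cfsg.hermForm k F q (L₁ x) (L₁ x') = Cfsg.hermForm k F q x x' := by
        intro x x'
        have e1 := hΦ (L₁ x, 0) (L₁ x', 0)
        have e2 := hΦ (x, 0) (x', 0)
        rw [← hL₁, ← hL₁, gu_hermForm, e2] at e1
        simp only [hermForm_zero_left, add_zero] at e1
        exact e1.symm
      have hI₂ : ∀ y y', Cfsg.hermForm l F q (L₂ y) (L₂ y') = Cfsg.hermForm l F q y y' := by
        intro y y'
        have e1 := hΦ (0, L₂ y) (0, L₂ y')
        have e2 := hΦ (0, y) (0, y')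
        rw [← hL₂, ← hL₂, gu_hermForm, e2] at e1
        simp only [hermForm_zero_left, zero_add] at e1
        exact e1.symm
      refine ⟨(guOfLinear hF L₁ hI₁, guOfLinear hF L₂ hI₂), ?_⟩
      apply gu_ext
      intro v
      rw [hΨ, T_apply]
      simp only [guOfLinear_mulVec]
      have hv : v = Φ ((Φ.symm v).1, 0) + Φ (0, (Φ.symm v).2) := by
        rw [← map_add]
        simp
      conv_rhs => rw [hv, Matrix.mulVec_add, hL₁, hL₂, ← map_add]
      simp
  exact ⟨((MonoidHom.ofInjective hinj).trans (MulEquiv.subgroupCongr hrange)).symm⟩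

end

/-- If W ≤ F^n (|F| = q²) is a k-dimensional subspace on which the Hermitian form Σ x_i y_i^q is non-degenerate, then the stabiliser of W in GU_n(q) is isomorphic to GU_k(q) × GU_(n−k)(q). -/
theorem result {F : Type*} [Field F] [Fintype F] {q : ℕ} (hF : Fintype.card F = q ^ 2) (n k : ℕ) (hk : k ≤ n) (W : Submodule F (Fin n → F)) (hWk : Module.finrank F W = k) (hW : ∀ u ∈ W, (∀ v ∈ W, Cfsg.hermForm n F q u v = 0) → u = 0) : Nonempty (↥((Cfsg.stabilizing (Cfsg.glToMat (Fin n) F) (W : Set (Fin n → F))).subgroupOf (Cfsg.GU n F q)) ≃* ↥(Cfsg.GU k F q) × ↥(Cfsg.GU (n - k) F q)) := by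
  classical
  obtain ⟨l, rfl⟩ : ∃ l, n = k + l := ⟨n - k, by omega⟩
  rw [Nat.add_sub_cancel_left]
  obtain ⟨Φ₁, hΦ₁⟩ := exists_herm_coords_sub hF W hW hWk
  let x : Fin k → (Fin (k + l) → F) := fun i => appendEquiv F k l (Pi.single i 1, 0)
  let y : Fin k → (Fin (k + l) → F) := fun i => (Φ₁ (Pi.single i 1) : Fin (k + l) → F)
  have hx : LinearIndependent F x := by
    have h1 := (Pi.basisFun F (Fin k)).linearIndependent.map'
      ((appendEquiv F k l).toLinearMap ∘ₗ LinearMap.inl F (Fin k → F) (Fin l → F)) (by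
        rw [LinearMap.ker_eq_bot]
        exact (appendEquiv F k l).injective.comp LinearMap.inl_injective)
    have h2 : x = ((appendEquiv F k l).toLinearMap ∘ₗ LinearMap.inl F (Fin k → F) (Fin l → F)) ∘
        (Pi.basisFun F (Fin k)) := by
      funext i
      simp [x]
    rw [h2]
    exact h1
  have hy : LinearIndependent F y := by
    have h1 := (Pi.basisFun F (Fin k)).linearIndependent.map' (W.subtype ∘ₗ Φ₁.toLinearMap) (by
        rw [LinearMap.ker_eq_bot]
        exact W.subtype_injective.comp Φ₁.injective)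
    have h2 : y = (W.subtype ∘ₗ Φ₁.toLinearMap) ∘ (Pi.basisFun F (Fin k)) := by
      funext i
      simp [y]
    rw [h2]
    exact h1
  obtain ⟨A, hA⟩ := gu_witt_frame hF (k + l) x y hx hy (by
    intro i j
    simp only [x, y]
    rw [hΦ₁, hermForm_append]
    simp [hermForm_zero_left])
  let Φ : ((Fin k → F) × (Fin l → F)) ≃ₗ[F] (Fin (k + l) → F) := (appendEquiv F k l).trans (guEquiv A)
  have hΦapp : ∀ p, Φ p = ((A : Matrix.GeneralLinearGroup (Fin (k + l)) F) :
      Matrix (Fin (k + l)) (Fin (k + l)) F) *ᵥ (appendEquiv F k l p) := fun p => rfl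
  have hkey : ∀ a, Φ (a, 0) = (Φ₁ a : Fin (k + l) → F) := by
    intro a
    have h1 : Φ.toLinearMap ∘ₗ LinearMap.inl F (Fin k → F) (Fin l → F) = W.subtype ∘ₗ Φ₁.toLinearMap := by
      apply (Pi.basisFun F (Fin k)).ext
      intro i
      simp only [Pi.basisFun_apply, LinearMap.comp_apply, LinearMap.inl_apply, LinearEquiv.coe_coe,
        Submodule.subtype_apply]
      rw [hΦapp]
      exact hA i
    exact LinearMap.congr_fun h1 a
  apply main hF W Φ
  · intro p p'
    rw [hΦapp, hΦapp, gu_hermForm, hermForm_append]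
  · intro v
    constructor
    · intro hv
      have : Φ.symm v = (Φ₁.symm ⟨v, hv⟩, 0) := by
        rw [LinearEquiv.symm_apply_eq, hkey]
        simp
      rw [this]
    · intro hv
      have h1 : v = Φ ((Φ.symm v).1, 0) := by
        rw [← hv]
        simp
      rw [h1, hkey]
      exact (Φ₁ _).2

end Cfsg.Agent.S0837
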