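import Cfsg.Statements.S0838
import Cfsg.Agent.S0756

set_option autoImplicit false
open Cfsg
open QuadraticMap

namespace Cfsg.Agent.S0838

section
variable {F : Type*} [Field F]

theorem Q_eq_half_polar {V : Type*} [AddCommGroup V] [Module F V] (h2 : (2 : F) ≠ 0)
    (Q : QuadraticForm F V) (v : V) : Q v = 2⁻¹ * polar ⇑Q v v := by
  rw [polar_self]
  simp only [nsmul_eq_mul]
  field_simp
  norm_num

theorem iso_of_bases {V : Type*} [AddCommGroup V] [Module F V] (h2 : (2 : F) ≠ 0) {ι : Type*}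
    (Q Q' : QuadraticForm F V) (b b' : Module.Basis ι F V)
    (h : ∀ i j, polar ⇑Q' (b' i) (b' j) = polar ⇑Q (b i) (b j)) :
    ∃ g : V ≃ₗ[F] V, ∀ v, Q' (g v) = Q v := by
  refine ⟨b.equiv b' (Equiv.refl ι), fun v => ?_⟩
  set g := b.equiv b' (Equiv.refl ι) with hg
  have hB : LinearMap.BilinForm.comp (polarBilin Q') (g : V →ₗ[F] V) (g : V →ₗ[F] V) = polarBilin Q := by
    apply LinearMap.BilinForm.ext_basis b
    intro i j
    simp only [LinearMap.BilinForm.comp_apply, LinearEquiv.coe_coe, polarBilin_apply_apply]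
    rw [hg, Module.Basis.equiv_apply, Module.Basis.equiv_apply]
    exact h i j
  have h1 := LinearMap.BilinForm.congr_fun hB v v
  simp only [LinearMap.BilinForm.comp_apply, LinearEquiv.coe_coe, polarBilin_apply_apply] at h1
  rw [Q_eq_half_polar h2 Q', Q_eq_half_polar h2 Q, h1]

theorem nondeg_smul {V : Type*} [AddCommGroup V] [Module F V] (Q : QuadraticForm F V)
    (hQ : (polarBilin Q).Nondegenerate) {a : F} (ha : a ≠ 0) : (polarBilin (a • Q)).Nondegenerate := by
  have hp : ∀ x y, polar ⇑(a • Q) x y = a * polar ⇑Q x y := by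
    intro x y
    simp only [polar, smul_apply, smul_eq_mul]
    ring
  constructor
  · intro x hx
    apply hQ.1 x
    intro y
    have := hx y
    rw [polarBilin_apply_apply, hp] at this
    exact (mul_eq_zero.1 this).resolve_left ha
  · intro y hy
    apply hQ.2 y
    intro x
    have := hy x
    rw [polarBilin_apply_apply, hp] at this
    exact (mul_eq_zero.1 this).resolve_left ha

theorem sq_of_similar {n : ℕ} (h2 : (2 : F) ≠ 0) (Q : QuadraticForm F (Fin n → F))
    (hQ : (polarBilin Q).Nondegenerate) (a : F) (g : (Fin n → F) ≃ₗ[F] (Fin n → F))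
    (hg : ∀ v, Q (g v) = a * Q v) : IsSquare (a ^ n) := by
  set B : LinearMap.BilinForm F (Fin n → F) := polarBilin Q with hB
  have hcomp : B.comp (g : (Fin n → F) →ₗ[F] (Fin n → F)) (g : (Fin n → F) →ₗ[F] (Fin n → F)) = a • B := by
    apply LinearMap.BilinForm.ext
    intro u v
    simp only [LinearMap.BilinForm.comp_apply, LinearEquiv.coe_coe, hB, polarBilin_apply_apply,
      LinearMap.smul_apply, smul_eq_mul, polar]
    rw [← map_add, hg, hg, hg]
    ring
  have hmat := congrArg LinearMap.BilinForm.toMatrix' hcomp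
  rw [LinearMap.BilinForm.toMatrix'_comp, map_smul] at hmat
  have hdet := congrArg Matrix.det hmat
  rw [Matrix.det_mul, Matrix.det_mul, Matrix.det_transpose, Matrix.det_smul, Fintype.card_fin] at hdet
  have hne : (LinearMap.BilinForm.toMatrix' B).det ≠ 0 := by
    rw [← Matrix.nondegenerate_iff_det_ne_zero, LinearMap.BilinForm.nondegenerate_toMatrix'_iff]
    exact hQ
  refine ⟨(LinearMap.toMatrix' (g : (Fin n → F) →ₗ[F] (Fin n → F))).det, ?_⟩
  apply mul_right_cancel₀ hne
  rw [← hdet]; ring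

end

/-- Over a finite field with 2 ≠ 0 and n odd: two quadratic forms Q₁, Q₂ on F^n with non-degenerate polar forms are similar — there are an invertible linear map g and a scalar c ≠ 0 with Q₂ (g v) = c · Q₁ v for all v. -/
theorem result {F : Type*} [Field F] [Fintype F] (h2 : (2 : F) ≠ 0) {n : ℕ} (hn : Odd n) (Q₁ Q₂ : QuadraticForm F (Fin n → F)) (h₁ : (QuadraticMap.polarBilin Q₁).Nondegenerate) (h₂ : (QuadraticMap.polarBilin Q₂).Nondegenerate) : ∃ (g : (Fin n → F) ≃ₗ[F] (Fin n → F)) (c : F), c ≠ 0 ∧ ∀ v, Q₂ (g v) = c * Q₁ v := by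
  obtain ⟨m, rfl⟩ : ∃ m, n = m + 1 := by
    obtain ⟨k, hk⟩ := hn
    exact ⟨2 * k, hk⟩
  have hchar : ringChar F ≠ 2 := by
    intro h
    apply h2
    have := ringChar.Nat.cast_ringChar (R := F)
    rw [h] at this
    exact_mod_cast this
  obtain ⟨α, hα⟩ := FiniteField.exists_nonsquare hchar
  have hα0 : α ≠ 0 := by
    rintro rfl
    exact hα IsSquare.zero
  have hfr : Module.finrank F (Fin (m + 1) → F) = m + 1 := by simp
  have hsymm : ∀ Q : QuadraticForm F (Fin (m + 1) → F), LinearMap.BilinForm.IsSymm (polarBilin Q) :=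
    fun Q => ⟨fun x y => polar_comm _ x y⟩
  have nf : ∀ Q : QuadraticForm F (Fin (m + 1) → F), (polarBilin Q).Nondegenerate →
      ∃ (b : Module.Basis (Fin (m + 1)) F (Fin (m + 1) → F)) (e : F), (e = 1 ∨ e = α) ∧
        ∀ i j, polar ⇑Q (b i) (b j) = if i = j then (if i = Fin.last m then e else 1) else 0 := by
    intro Q hQ
    obtain ⟨b, h1, h3, h4⟩ := Cfsg.Agent.S0756.result h2 (polarBilin Q) (hsymm Q) hQ hfr α hα
    refine ⟨b, polar ⇑Q (b (Fin.last m)) (b (Fin.last m)), h4, fun i j => ?_⟩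
    by_cases hij : i = j
    · subst hij
      by_cases hi : i = Fin.last m
      · subst hi; simp
      · simp only [if_true, hi, if_false]
        exact h3 i hi
    · simp only [hij, if_false]
      exact h1 i j hij
  obtain ⟨b1, e1, he1, hb1⟩ := nf Q₁ h₁
  obtain ⟨b2, e2, he2, hb2⟩ := nf Q₂ h₂
  obtain ⟨b3, e3, he3, hb3⟩ := nf (α • Q₁) (nondeg_smul Q₁ h₁ hα0)
  by_cases h12 : e1 = e2
  · obtain ⟨g, hg⟩ := iso_of_bases h2 Q₁ Q₂ b1 b2 (fun i j => by rw [hb1, hb2, h12])
    exact ⟨g, 1, one_ne_zero, fun v => by rw [hg, one_mul]⟩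
  by_cases h32 : e3 = e2
  · obtain ⟨g, hg⟩ := iso_of_bases h2 (α • Q₁) Q₂ b3 b2 (fun i j => by rw [hb3, hb2, h32])
    exact ⟨g, α, hα0, fun v => by rw [hg]; rfl⟩
  exfalso
  have h13 : e1 = e3 := by
    rcases he1 with rfl | rfl <;> rcases he2 with rfl | rfl <;> rcases he3 with rfl | rfl <;> simp_all
  obtain ⟨g, hg⟩ := iso_of_bases h2 (α • Q₁) Q₁ b3 b1 (fun i j => by rw [hb3, hb1, h13])
  have hsq := sq_of_similar h2 Q₁ h₁ α g (fun v => by rw [hg]; rfl)
  obtain ⟨k, hk⟩ := hn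
  apply hα
  obtain ⟨s, hs⟩ := hsq
  refine ⟨s / α ^ k, ?_⟩
  have hk' : α ^ (m + 1) = α * (α ^ k) ^ 2 := by rw [hk]; ring
  rw [hk'] at hs
  have hαk : α ^ k ≠ 0 := pow_ne_zero _ hα0
  field_simp
  linear_combination hs

end Cfsg.Agent.S0838
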