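import Cfsg.Statements.S0839
-- import your own Cfsg.Agent.* helpers here

set_option autoImplicit false
open Cfsg

namespace Cfsg.Agent.S0839

/-- Every transvection t ∈ SL_(n+2)(F) (rank(t − 1) = 1, (t − 1)² = 0) is conjugate in SL_(n+2)(F) to 1 + v·e_0ᵀ for some column vector v with v_0 = 0 (the group A of matrices that are the identity except in the first column below the diagonal); the dimension is written n + 2 ≥ 2. -/
theorem result {F : Type*} [Field F] (n : ℕ) (t : Matrix.SpecialLinearGroup (Fin (n + 2)) F) (ht : Cfsg.IsTransvection (t : Matrix (Fin (n + 2)) (Fin (n + 2)) F)) : ∃ (g : Matrix.SpecialLinearGroup (Fin (n + 2)) F) (v : Fin (n + 2) → F), v 0 = 0 ∧ ((g⁻¹ * t * g : Matrix.SpecialLinearGroup (Fin (n + 2)) F) : Matrix (Fin (n + 2)) (Fin (n + 2)) F) = 1 + Matrix.vecMulVec v (Pi.single 0 1) := by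
  classical
  obtain ⟨hrank, hsq⟩ := ht
  set N : Matrix (Fin (n + 2)) (Fin (n + 2)) F := (t : Matrix (Fin (n + 2)) (Fin (n + 2)) F) - 1 with hN
  -- `N` is a product of a column and a row
  obtain ⟨a, φ, hNa⟩ : ∃ a φ : Fin (n + 2) → F, N = Matrix.vecMulVec a φ := by
    have h1 : Module.finrank F (LinearMap.range N.mulVecLin) = 1 := hrank
    obtain ⟨a, -, ha⟩ := finrank_eq_one_iff'.1 h1
    have h2 : ∀ j, ∃ c : F, c • (a : Fin (n + 2) → F) = N.mulVec (Pi.single j 1) := by
      intro j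
      obtain ⟨c, hc⟩ := ha ⟨N.mulVec (Pi.single j 1), ⟨_, rfl⟩⟩
      exact ⟨c, congrArg Subtype.val hc⟩
    choose φ hφ using h2
    refine ⟨a, φ, ?_⟩
    ext i j
    have := congrFun (hφ j) i
    rw [Matrix.mulVec_single_one] at this
    rw [Matrix.vecMulVec_apply, mul_comm]
    exact this.symm
  have hφ0 : φ ≠ 0 := by
    rintro rfl
    have : N = 0 := by rw [hNa]; ext i j; simp [Matrix.vecMulVec_apply]
    rw [this, Matrix.rank_zero] at hrank
    exact zero_ne_one hrank
  have he0 : (Pi.single 0 1 : Fin (n + 2) → F) ≠ 0 := by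
    intro h
    have := congrFun h 0
    simp at this
  -- move the row to a multiple of the first coordinate form
  obtain ⟨h, hh⟩ := MulAction.exists_smul_eq (Matrix.SpecialLinearGroup (Fin (n + 2)) F)
    (Projectivization.mk F φ hφ0) (Projectivization.mk F (Pi.single 0 1 : Fin (n + 2) → F) he0)
  rw [Projectivization.smul_mk, Projectivization.mk_eq_mk_iff'] at hh
  obtain ⟨c, hc⟩ := hh
  have hc' : (h : Matrix (Fin (n + 2)) (Fin (n + 2)) F).mulVec φ = c • Pi.single 0 1 := hc.symm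
  set g : Matrix.SpecialLinearGroup (Fin (n + 2)) F := h.transpose with hg
  set v : Fin (n + 2) → F := c • ((g⁻¹ : Matrix.SpecialLinearGroup (Fin (n + 2)) F) :
    Matrix (Fin (n + 2)) (Fin (n + 2)) F).mulVec a with hv
  have hgg : ((g⁻¹ : Matrix.SpecialLinearGroup (Fin (n + 2)) F) :
      Matrix (Fin (n + 2)) (Fin (n + 2)) F) * (g : Matrix (Fin (n + 2)) (Fin (n + 2)) F) = 1 := by
    rw [← Matrix.SpecialLinearGroup.coe_mul, inv_mul_cancel, Matrix.SpecialLinearGroup.coe_one]
  have hgg' : (g : Matrix (Fin (n + 2)) (Fin (n + 2)) F) * ((g⁻¹ : Matrix.SpecialLinearGroup (Fin (n + 2)) F) :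
      Matrix (Fin (n + 2)) (Fin (n + 2)) F) = 1 := by
    rw [← Matrix.SpecialLinearGroup.coe_mul, mul_inv_cancel, Matrix.SpecialLinearGroup.coe_one]
  have hconj : ((g⁻¹ : Matrix.SpecialLinearGroup (Fin (n + 2)) F) :
      Matrix (Fin (n + 2)) (Fin (n + 2)) F) * N * (g : Matrix (Fin (n + 2)) (Fin (n + 2)) F) =
      Matrix.vecMulVec v (Pi.single 0 1) := by
    rw [hNa, Matrix.mul_vecMulVec, Matrix.vecMulVec_mul, hg, Matrix.SpecialLinearGroup.coe_transpose,
      Matrix.vecMul_transpose, hc', Matrix.vecMulVec_smul, ← Matrix.smul_vecMulVec]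
  have hmat : ((g⁻¹ * t * g : Matrix.SpecialLinearGroup (Fin (n + 2)) F) :
      Matrix (Fin (n + 2)) (Fin (n + 2)) F) = 1 + Matrix.vecMulVec v (Pi.single 0 1) := by
    have ht' : (t : Matrix (Fin (n + 2)) (Fin (n + 2)) F) = 1 + N := by rw [hN]; abel
    rw [Matrix.SpecialLinearGroup.coe_mul, Matrix.SpecialLinearGroup.coe_mul, ht', mul_add, add_mul,
      mul_one, hgg, hconj]
  refine ⟨g, v, ?_, hmat⟩
  have h5 : Matrix.vecMulVec v (Pi.single 0 1) * Matrix.vecMulVec v (Pi.single 0 1 : Fin (n + 2) → F) = 0 := by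
    rw [← hconj]
    calc _ = ((g⁻¹ : Matrix.SpecialLinearGroup (Fin (n + 2)) F) :
      Matrix (Fin (n + 2)) (Fin (n + 2)) F) * (N * ((g : Matrix (Fin (n + 2)) (Fin (n + 2)) F) *
        ((g⁻¹ : Matrix.SpecialLinearGroup (Fin (n + 2)) F) :
      Matrix (Fin (n + 2)) (Fin (n + 2)) F)) * N) * (g : Matrix (Fin (n + 2)) (Fin (n + 2)) F) := by
          simp only [Matrix.mul_assoc]
      _ = 0 := by rw [hgg', mul_one, hsq, mul_zero, zero_mul]
  have h6 := congrFun (congrFun h5 0) 0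
  rw [Matrix.mul_apply] at h6
  simp only [Matrix.vecMulVec_apply, Matrix.zero_apply] at h6
  rw [Finset.sum_eq_single 0 (by intro b _ hb; simp [hb]) (by simp)] at h6
  simpa using h6

end Cfsg.Agent.S0839
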