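import Cfsg.Statements.S0840
import Mathlib
import Cfsg.Agent.Lib.Helper20.CharColumn
import Cfsg.Agent.Lib.Helper82.ClassSum

set_option autoImplicit false
open scoped ComplexConjugate
open Cfsg

namespace Cfsg.Agent.S0840

open Cfsg.Agent.Lib.Helper20

theorem sum_conj_eq {G : Type*} [Group G] [Fintype G] (a : G) (f : G → ℂ)
    [DecidablePred (fun x => IsConj a x)] :
    ∑ s : G, f (s * a * s⁻¹)
      = (Nat.card (Subgroup.centralizer ({a} : Set G)) : ℂ) * ∑ x : G, (if IsConj a x then f x else 0) := by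
  classical
  rw [← Finset.sum_fiberwise Finset.univ (fun s : G => s * a * s⁻¹), Finset.mul_sum]
  apply Finset.sum_congr rfl
  intro x _
  have h1 : ∀ s ∈ Finset.univ.filter (fun s : G => s * a * s⁻¹ = x), f (s * a * s⁻¹) = f x := by
    intro s hs
    rw [Finset.mem_filter] at hs
    rw [hs.2]
  rw [Finset.sum_congr rfl h1, Finset.sum_const, nsmul_eq_mul]
  split_ifs with hx
  · congr 2
    obtain ⟨s₀, hs₀⟩ := isConj_iff.mp hx
    rw [← Fintype.card_subtype, ← Nat.card_eq_fintype_card]
    apply Nat.card_congr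
    refine ⟨fun s => ⟨s₀⁻¹ * s.1, ?_⟩, fun z => ⟨s₀ * z.1, ?_⟩, ?_, ?_⟩
    · rw [Subgroup.mem_centralizer_singleton_iff]
      have h2 := s.2.trans hs₀.symm
      have h3 : s₀⁻¹ * (s.1 * a * s.1⁻¹) * s.1 = s₀⁻¹ * (s₀ * a * s₀⁻¹) * s.1 := by rw [h2]
      simp only [mul_assoc, inv_mul_cancel, mul_one, inv_mul_cancel_left] at h3
      simp only [mul_assoc]
      exact h3
    · have h2 := Subgroup.mem_centralizer_singleton_iff.mp z.2
      rw [← hs₀, mul_inv_rev]
      calc s₀ * z.1 * a * (z.1⁻¹ * s₀⁻¹) = s₀ * (z.1 * a) * z.1⁻¹ * s₀⁻¹ := by group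
        _ = s₀ * (a * z.1) * z.1⁻¹ * s₀⁻¹ := by rw [h2]
        _ = s₀ * a * s₀⁻¹ := by group
    · intro s; apply Subtype.ext; simp
    · intro z; apply Subtype.ext; simp
  · have : Finset.univ.filter (fun s : G => s * a * s⁻¹ = x) = ∅ := by
      rw [Finset.filter_eq_empty_iff]
      intro s _ hs
      exact hx (isConj_iff.mpr ⟨s, hs⟩)
    rw [this]
    simp


/-- Class multiplication coefficients from the character table: for elements a, b, c of a finite group G, the number of ordered pairs (x, y) with x conjugate to a, y conjugate to b and x * y = c equals the product of the sizes of the conjugacy classes of a and b, divided by the order of G, times the sum over the irreducible characters χ of χ a * χ b * conj (χ c) / χ 1. -/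
theorem result {G : Type*} [Group G] [Finite G] (a b c : G) : (Nat.card {p : G × G // IsConj a p.1 ∧ IsConj b p.2 ∧ p.1 * p.2 = c} : ℂ) = (Nat.card {x : G // IsConj a x} : ℂ) * (Nat.card {x : G // IsConj b x} : ℂ) / (Nat.card G : ℂ) * ∑ᶠ χ : Cfsg.IrrCharacter G, (χ : G → ℂ) a * (χ : G → ℂ) b * conj ((χ : G → ℂ) c) / (χ : G → ℂ) 1 := by
  classical
  haveI := Fintype.ofFinite G
  haveI := finite_irrCharacter (G := G)
  haveI := Fintype.ofFinite (IrrCharacter G)
  rw [finsum_eq_sum_of_fintype]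
  have hG : (Nat.card G : ℂ) ≠ 0 := card_ne_zero_complex
  have hcent : ∀ z : G, (Nat.card (Subgroup.centralizer ({z} : Set G)) : ℂ)
      * (Nat.card {x : G // IsConj z x} : ℂ) = (Nat.card G : ℂ) := by
    intro z
    rw [card_isConj_eq_index]
    exact_mod_cast (Subgroup.centralizer ({z} : Set G)).card_mul_index
  have hcne : ∀ z : G, (Nat.card (Subgroup.centralizer ({z} : Set G)) : ℂ) ≠ 0 := by
    intro z h0
    have := hcent z
    rw [h0, zero_mul] at this
    exact hG this.symm
  -- step 1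
  have h1 : (Nat.card {p : G × G // IsConj a p.1 ∧ IsConj b p.2 ∧ p.1 * p.2 = c} : ℂ)
      = ∑ x : G, (if IsConj a x then (if IsConj b (x⁻¹ * c) then (1 : ℂ) else 0) else 0) := by
    have e : {p : G × G // IsConj a p.1 ∧ IsConj b p.2 ∧ p.1 * p.2 = c}
        ≃ {x : G // IsConj a x ∧ IsConj b (x⁻¹ * c)} :=
      { toFun := fun p => ⟨p.1.1, p.2.1, by
          have h := p.2.2.2
          have : p.1.1⁻¹ * c = p.1.2 := inv_mul_eq_iff_eq_mul.mpr h.symm
          rw [this]; exact p.2.2.1⟩
        invFun := fun x => ⟨(x.1, x.1⁻¹ * c), x.2.1, x.2.2, by simp⟩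
        left_inv := by
          intro p
          apply Subtype.ext
          apply Prod.ext
          · rfl
          · have h := p.2.2.2
            exact inv_mul_eq_iff_eq_mul.mpr h.symm
        right_inv := by intro x; rfl }
    rw [Nat.card_congr e, Nat.card_eq_fintype_card, Fintype.card_subtype, Finset.card_filter]
    push_cast
    apply Finset.sum_congr rfl
    intro x _
    rw [ite_and]
  -- step 2
  have h2 : ∀ g : G, (if IsConj b g then (1 : ℂ) else 0)
      = (Nat.card (Subgroup.centralizer ({b} : Set G)) : ℂ)⁻¹ *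
        ∑ χ : IrrCharacter G, (χ : G → ℂ) b * conj ((χ : G → ℂ) g) := by
    intro g
    rw [sum_irr_mul_conj b g]
    split_ifs
    · rw [inv_mul_cancel₀ (hcne b)]
    · rw [mul_zero]
  have h3 := sum_conj_eq a (fun x => (if IsConj b (x⁻¹ * c) then (1 : ℂ) else 0))
  have h4 : ∑ x : G, (if IsConj a x then (if IsConj b (x⁻¹ * c) then (1 : ℂ) else 0) else 0)
      = (Nat.card (Subgroup.centralizer ({a} : Set G)) : ℂ)⁻¹ *
        ∑ s : G, (if IsConj b ((s * a * s⁻¹)⁻¹ * c) then (1 : ℂ) else 0) := by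
    rw [h3, ← mul_assoc, inv_mul_cancel₀ (hcne a), one_mul]
  rw [h1, h4]
  simp only [h2]
  rw [← Finset.mul_sum, Finset.sum_comm]
  have h5 : ∀ χ : IrrCharacter G, ∑ s : G, (χ : G → ℂ) b * conj ((χ : G → ℂ) ((s * a * s⁻¹)⁻¹ * c))
      = (Nat.card G : ℂ) * ((χ : G → ℂ) a * (χ : G → ℂ) b * conj ((χ : G → ℂ) c) / (χ : G → ℂ) 1) := by
    intro χ
    have hχc := isCharacter_of_isIrrCharacter χ.2
    rw [← Finset.mul_sum, ← map_sum]
    have e1 : ∀ s : G, (s * a * s⁻¹)⁻¹ * c = s * a⁻¹ * s⁻¹ * c := by intro s; group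
    simp only [e1]
    rw [Cfsg.Agent.Lib.Helper82.isIrr_sum_conj_mul χ.2 a⁻¹ c, isCharacter_inv hχc a]
    obtain ⟨n, hn⟩ := isCharacter_apply_one hχc
    simp only [map_div₀, map_mul, Complex.conj_conj, map_natCast, hn]
    ring
  simp only [h5]
  rw [← Finset.mul_sum]
  have ha := hcent a
  have hb := hcent b
  have hA := hcne a
  have hB := hcne b
  rw [← mul_assoc, ← mul_assoc]
  congr 1
  rw [eq_div_iff hG]
  have : (Nat.card {x : G // IsConj a x} : ℂ) = (Nat.card G : ℂ) / (Nat.card (Subgroup.centralizer ({a} : Set G)) : ℂ) := by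
    rw [eq_div_iff hA, mul_comm]; exact ha
  rw [this]
  have : (Nat.card {x : G // IsConj b x} : ℂ) = (Nat.card G : ℂ) / (Nat.card (Subgroup.centralizer ({b} : Set G)) : ℂ) := by
    rw [eq_div_iff hB, mul_comm]; exact hb
  rw [this]
  field_simp

end Cfsg.Agent.S0840
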