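import Cfsg.Statements.S0841
import Mathlib

set_option autoImplicit false
open Cfsg

namespace Cfsg.Agent.S0841

/-- If the commutator subgroup of G lies in the centre, then for all x, y in G and every natural number n one has (x * y) ^ n = x ^ n * y ^ n * c ^ (n * (n - 1) / 2) with c = y⁻¹ * x⁻¹ * y * x. -/
theorem result {G : Type*} [Group G] (hG : commutator G ≤ Subgroup.center G) (x y : G) (n : ℕ) : (x * y) ^ n = x ^ n * y ^ n * (y⁻¹ * x⁻¹ * y * x) ^ (n * (n - 1) / 2) := by
  have hc : ∀ z : G, (y⁻¹ * x⁻¹ * y * x) * z = z * (y⁻¹ * x⁻¹ * y * x) := by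
    intro z
    have hmem : y⁻¹ * x⁻¹ * y * x ∈ Subgroup.center G := by
      apply hG
      have h := Subgroup.commutator_mem_commutator (Subgroup.mem_top y⁻¹) (Subgroup.mem_top x⁻¹)
      rw [commutatorElement_def] at h
      rw [commutator_def]
      simpa using h
    exact ((Subgroup.mem_center_iff.mp hmem) z).symm
  set c := y⁻¹ * x⁻¹ * y * x with hcdef
  have hcp : ∀ (k : ℕ) (z : G), c ^ k * z = z * c ^ k := by
    intro k z
    exact ((Commute.pow_left (show Commute c z from hc z) k)).eq
  have hyx : y * x = x * y * c := by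
    rw [hcdef]; group
  have h1 : ∀ k : ℕ, y ^ k * x = x * y ^ k * c ^ k := by
    intro k
    induction k with
    | zero => simp
    | succ k ih =>
      calc y ^ (k + 1) * x = y ^ k * (y * x) := by rw [pow_succ, mul_assoc]
        _ = y ^ k * (x * y * c) := by rw [hyx]
        _ = (y ^ k * x) * y * c := by simp only [mul_assoc]
        _ = x * y ^ k * c ^ k * y * c := by rw [ih]
        _ = x * y ^ k * (c ^ k * y) * c := by simp only [mul_assoc]
        _ = x * y ^ k * (y * c ^ k) * c := by rw [hcp k y]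
        _ = x * y ^ (k + 1) * c ^ (k + 1) := by simp only [pow_succ, mul_assoc]
  induction n with
  | zero => simp
  | succ n ih =>
    have hn : (n + 1) * (n + 1 - 1) / 2 = n * (n - 1) / 2 + n := by
      have h2 : (n + 1) * (n + 1 - 1) = n * (n - 1) + n * 2 := by
        cases n with
        | zero => simp
        | succ m => simp; ring
      rw [h2, Nat.add_mul_div_right _ _ (by norm_num)]
    rw [hn, pow_succ, ih]
    calc x ^ n * y ^ n * c ^ (n * (n - 1) / 2) * (x * y)
        = x ^ n * y ^ n * (c ^ (n * (n - 1) / 2) * (x * y)) := by simp only [mul_assoc]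
      _ = x ^ n * y ^ n * ((x * y) * c ^ (n * (n - 1) / 2)) := by rw [hcp]
      _ = x ^ n * (y ^ n * x) * y * c ^ (n * (n - 1) / 2) := by simp only [mul_assoc]
      _ = x ^ n * (x * y ^ n * c ^ n) * y * c ^ (n * (n - 1) / 2) := by rw [h1]
      _ = x ^ n * x * y ^ n * (c ^ n * y) * c ^ (n * (n - 1) / 2) := by simp only [mul_assoc]
      _ = x ^ n * x * y ^ n * (y * c ^ n) * c ^ (n * (n - 1) / 2) := by rw [hcp n y]
      _ = x ^ (n + 1) * y ^ (n + 1) * (c ^ n * c ^ (n * (n - 1) / 2)) := by
          simp only [pow_succ, mul_assoc]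
      _ = x ^ (n + 1) * y ^ (n + 1) * c ^ (n * (n - 1) / 2 + n) := by
          rw [← pow_add, add_comm n (n * (n - 1) / 2)]

end Cfsg.Agent.S0841
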