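import Cfsg.Statements.S0845
import Cfsg.Agent.Lib.Helper19.BSNormal

set_option autoImplicit false
open Cfsg

namespace Cfsg.Agent.S0845

/-- Suppose a Sylow 2-subgroup S of the finite group G is generalized quaternion of order at least 16. Then G has a normal subgroup M of even order such that G / M is non-abelian, that is, M does not contain the commutator subgroup of G. -/
theorem result {G : Type*} [Group G] [Finite G] (S : Sylow 2 G) (n : ℕ) (e : (S : Subgroup G) ≃* QuaternionGroup (2 ^ (n + 2))) : ∃ M : Subgroup G, M.Normal ∧ Even (Nat.card M) ∧ ¬ commutator G ≤ M := by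
  obtain ⟨M, hM, hinv, hcomm⟩ := Cfsg.Agent.Lib.Helper19.bs_normal S n e
  refine ⟨M, hM, ?_, hcomm⟩
  haveI : Fact (Nat.Prime 2) := ⟨Nat.prime_two⟩
  have h2 : 2 ∣ Nat.card G := by
    have h1 : Nat.card (S : Subgroup G) = 4 * 2 ^ (n + 2) := by
      rw [Nat.card_congr e.toEquiv, Nat.card_eq_fintype_card, QuaternionGroup.card]
    refine dvd_trans ?_ (Subgroup.card_subgroup_dvd_card (S : Subgroup G))
    rw [h1]
    exact ⟨2 * 2 ^ (n + 2), by ring⟩
  obtain ⟨t, ht⟩ := exists_prime_orderOf_dvd_card' 2 h2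
  rw [even_iff_two_dvd, ← ht]
  have := orderOf_dvd_natCard (⟨t, hinv t ht⟩ : M)
  rwa [← Subgroup.orderOf_coe] at this

end Cfsg.Agent.S0845
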