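import Cfsg.Statements.S0849
import Mathlib
import Cfsg.Agent.Lib.Helper19.IndFun

set_option autoImplicit false
open Cfsg

namespace Cfsg.Agent.S0849

/-- Let H be a subgroup of a finite group G and S a subset of H that is mapped to itself under conjugation by H, is disjoint from its conjugate by any element outside H, and is closed under inverses. Let φ be a class function of H vanishing on H away from S, and let u, v be involutions of G. Then the sum of the induced function of φ over all products a * b with a conjugate to u and b conjugate to v equals the index of H times the sum of φ (a * b) over such pairs with a and b in H. -/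
theorem result {G : Type*} [Group G] [Fintype G] (H : Subgroup G) (S : Set G) (hSH : S ⊆ H) (hHS : ∀ h ∈ H, ∀ s ∈ S, h * s * h⁻¹ ∈ S) (hTI : ∀ g : G, g ∉ H → ∀ s ∈ S, g * s * g⁻¹ ∉ S) (hinv : ∀ s ∈ S, s⁻¹ ∈ S) (φ : H → ℂ) (hφ : Cfsg.IsClassFunction H φ) (hφS : ∀ x : H, (x : G) ∉ S → φ x = 0) (u v : G) (hu : orderOf u = 2) (hv : orderOf v = 2) : ∑ᶠ p ∈ {p : G × G | IsConj u p.1 ∧ IsConj v p.2}, Cfsg.indFun H φ (p.1 * p.2) = (H.index : ℂ) * ∑ᶠ p ∈ {p : H × H | IsConj u (p.1 : G) ∧ IsConj v (p.2 : G)}, φ (p.1 * p.2) := by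
  classical
  open Cfsg.Agent.Lib.Helper19 in
  rw [finsum_mem_eq_finite_toFinset_sum _ (Set.toFinite _),
    finsum_mem_eq_finite_toFinset_sum _ (Set.toFinite _)]
  set A : Finset (G × G) := (Set.toFinite {p : G × G | IsConj u p.1 ∧ IsConj v p.2}).toFinset with hA
  set B : Finset (H × H) :=
    (Set.toFinite {p : H × H | IsConj u (p.1 : G) ∧ IsConj v (p.2 : G)}).toFinset with hB
  have memA : ∀ p : G × G, p ∈ A ↔ IsConj u p.1 ∧ IsConj v p.2 := by
    intro p; rw [hA, Set.Finite.mem_toFinset]; rfl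
  have memB : ∀ p : H × H, p ∈ B ↔ IsConj u (p.1 : G) ∧ IsConj v (p.2 : G) := by
    intro p; rw [hB, Set.Finite.mem_toFinset]; rfl
  -- step 1
  have step1 : ∀ x : G, ∑ p ∈ A, extendByZero H φ (x⁻¹ * (p.1 * p.2) * x)
      = ∑ p ∈ A, extendByZero H φ (p.1 * p.2) := by
    intro x
    refine Finset.sum_equiv
      ((MulAut.conj x⁻¹).toEquiv.prodCongr (MulAut.conj x⁻¹).toEquiv) ?_ ?_
    · intro p
      rw [memA, memA]
      simp only [Equiv.prodCongr_apply, Prod.map_fst, Prod.map_snd, MulEquiv.toEquiv_eq_coe,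
        MulEquiv.coe_toEquiv, MulAut.conj_apply, inv_inv]
      constructor
      · rintro ⟨h1, h2⟩
        exact ⟨h1.trans (isConj_iff.mpr ⟨x⁻¹, by simp⟩), h2.trans (isConj_iff.mpr ⟨x⁻¹, by simp⟩)⟩
      · rintro ⟨h1, h2⟩
        exact ⟨h1.trans (isConj_iff.mpr ⟨x, by group⟩), h2.trans (isConj_iff.mpr ⟨x, by group⟩)⟩
    · intro p _
      simp only [Equiv.prodCongr_apply, Prod.map_fst, Prod.map_snd, MulEquiv.toEquiv_eq_coe,
        MulEquiv.coe_toEquiv, MulAut.conj_apply, inv_inv]
      congr 1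
      group
  have step2 : ∑ p ∈ A, indFun H φ (p.1 * p.2)
      = (H.index : ℂ) * ∑ p ∈ A, extendByZero H φ (p.1 * p.2) := by
    simp only [Cfsg.Agent.Lib.Helper19.indFun_apply]
    rw [← Finset.mul_sum, Finset.sum_comm]
    simp only [step1]
    rw [Finset.sum_const, Cfsg.Agent.Lib.Helper19.index_eq_div, Finset.card_univ, nsmul_eq_mul,
      Nat.card_eq_fintype_card (α := G), mul_assoc]
  rw [step2]
  congr 1
  -- step 3
  let emb : H × H ↪ G × G :=
    ⟨fun q => ((q.1 : G), (q.2 : G)), by
      intro q q' h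
      simp only [Prod.mk.injEq] at h
      exact Prod.ext (Subtype.ext h.1) (Subtype.ext h.2)⟩
  have step3 : ∑ q ∈ B, φ (q.1 * q.2) = ∑ p ∈ B.map emb, extendByZero H φ (p.1 * p.2) := by
    rw [Finset.sum_map]
    apply Finset.sum_congr rfl
    intro q _
    have : (emb q).1 * (emb q).2 = ((q.1 * q.2 : H) : G) := rfl
    rw [this, Cfsg.Agent.Lib.Helper19.extendByZero_coe]
  rw [step3]
  symm
  apply Finset.sum_subset
  · intro p hp
    rw [Finset.mem_map] at hp
    obtain ⟨q, hq, rfl⟩ := hp
    rw [memA]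
    exact (memB q).mp hq
  · intro p hp hnp
    obtain ⟨h1, h2⟩ := (memA p).mp hp
    by_cases hH : p.1 * p.2 ∈ H
    · rw [Cfsg.Agent.Lib.Helper19.extendByZero_of_mem H φ hH]
      apply hφS
      intro hS
      apply hnp
      have inv_of : ∀ w z : G, orderOf w = 2 → IsConj w z → z⁻¹ = z := by
        intro w z hw hwz
        obtain ⟨c, hc⟩ := isConj_iff.mp hwz
        have hw2 : w * w = 1 := by
          have := pow_orderOf_eq_one w
          rw [hw, pow_two] at this; exact this
        have : z * z = 1 := by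
          rw [← hc]
          calc c * w * c⁻¹ * (c * w * c⁻¹) = c * (w * w) * c⁻¹ := by group
            _ = 1 := by rw [hw2]; group
        exact inv_eq_of_mul_eq_one_left this
      have i1 := inv_of u p.1 hu h1
      have i2 := inv_of v p.2 hv h2
      have hinvS := hinv _ hS
      have m1 : p.1 ∈ H := by
        by_contra hcon
        apply hTI p.1 hcon _ hS
        have : p.1 * (p.1 * p.2) * p.1⁻¹ = (p.1 * p.2)⁻¹ := by
          rw [mul_inv_rev, i1, i2]
          have hh : p.1 * p.1 = 1 := by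
            nth_rewrite 1 [← i1]; exact inv_mul_cancel _
          rw [← mul_assoc, hh, one_mul]
        rw [this]; exact hinvS
      have m2 : p.2 ∈ H := by
        have := H.mul_mem (H.inv_mem m1) hH
        simpa using this
      rw [Finset.mem_map]
      exact ⟨(⟨p.1, m1⟩, ⟨p.2, m2⟩), (memB _).mpr ⟨h1, h2⟩, rfl⟩
    · exact Cfsg.Agent.Lib.Helper19.extendByZero_of_not_mem H φ hH

end Cfsg.Agent.S0849
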