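import Cfsg.Statements.S0850
import Mathlib
import Cfsg.Agent.Lib.Helper19.IndFun

set_option autoImplicit false
open Cfsg

namespace Cfsg.Agent.S0850

theorem part1 {G : Type*} [Group G] [Finite G] (K : Subgroup G)
    (hTI : ∀ g : G, g ∉ Subgroup.normalizer (K : Set G) → ∀ k ∈ K, g * k * g⁻¹ ∈ K → k = 1)
    (hC : ∀ k ∈ K, k ≠ 1 → Subgroup.centralizer ({k} : Set G) ≤ K) :
    ∀ x ∈ Subgroup.normalizer (K : Set G), x ∉ K → ∀ g : G, g * x * g⁻¹ ∉ K := by
  intro x hxN hxK g hy
  have hgN : g ∉ Subgroup.normalizer (K : Set G) := by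
    intro hg
    apply hxK
    exact (Subgroup.mem_normalizer_iff.mp hg x).mpr hy
  have hx1 : x ≠ 1 := fun h => hxK (h ▸ K.one_mem)
  have hox : orderOf x ≠ 1 := fun h => hx1 (orderOf_eq_one_iff.mp h)
  set p := (orderOf x).minFac with hp
  have hpp : p.Prime := Nat.minFac_prime hox
  haveI : Fact p.Prime := ⟨hpp⟩
  have hpd : p ∣ orderOf x := Nat.minFac_dvd _
  set z := x ^ (orderOf x / p) with hz
  have hoz : orderOf z = p := orderOf_pow_orderOf_div (orderOf_pos x).ne' hpd
  have hzN : z ∈ Subgroup.normalizer (K : Set G) := Subgroup.pow_mem _ hxN _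
  have hgz : g * z * g⁻¹ ∈ K := by
    have : g * z * g⁻¹ = (g * x * g⁻¹) ^ (orderOf x / p) := by
      rw [hz, conj_pow]
    rw [this]; exact K.pow_mem hy _
  have hz1 : z ≠ 1 := by
    intro h
    rw [h, orderOf_one] at hoz
    exact hpp.one_lt.ne hoz
  have hzK : z ∉ K := fun h => hz1 (hTI g hgN z h hgz)
  let z' : Subgroup.normalizer (K : Set G) := ⟨z, hzN⟩
  have hoz' : orderOf z' = p := by
    rw [← hoz]
    exact (Subgroup.orderOf_mk z hzN)
  have hZ : IsPGroup p (Subgroup.zpowers z') := by
    apply IsPGroup.of_card (n := 1)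
    rw [Nat.card_zpowers, hoz', pow_one]
  have hmod := hZ.card_modEq_card_fixedPoints K
  have hfix : Nat.card (MulAction.fixedPoints (Subgroup.zpowers z') K) = 1 := by
    rw [Nat.card_eq_one_iff_unique]
    refine ⟨⟨?_⟩, ⟨⟨1, ?_⟩⟩⟩
    · have key : ∀ k : MulAction.fixedPoints (Subgroup.zpowers z') K, (k : K) = 1 := by
        intro k
        by_contra hk
        have h1 := k.2 ⟨z', Subgroup.mem_zpowers z'⟩
        have h2 : z * ((k : K) : G) * z⁻¹ = ((k : K) : G) := congrArg Subtype.val h1
        have hk1 : ((k : K) : G) ≠ 1 := fun h => hk (Subtype.ext h)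
        apply hzK
        apply hC _ (k : K).2 hk1
        rw [Subgroup.mem_centralizer_singleton_iff]
        have := congrArg (fun w => w * z) h2
        simpa [mul_assoc] using this
      intro k k'
      exact Subtype.ext ((key k).trans (key k').symm)
    · intro w
      exact smul_one w
  rw [hfix] at hmod
  have hdvd : p ∣ Nat.card K := by
    have h1 : orderOf (⟨g * z * g⁻¹, hgz⟩ : K) = p := by
      rw [Subgroup.orderOf_mk]
      rw [← hoz]
      have hs : SemiconjBy g z (g * z * g⁻¹) := by
        unfold SemiconjBy; group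
      exact (hs.orderOf_eq g).symm
    rw [← h1]
    exact orderOf_dvd_natCard _
  have h0 : Nat.card K ≡ 0 [MOD p] := (Nat.modEq_zero_iff_dvd).mpr hdvd
  have h01 : 0 ≡ 1 [MOD p] := h0.symm.trans hmod
  have := (Nat.modEq_iff_dvd' (by norm_num)).mp h01
  simp at this
  exact hpp.one_lt.ne' this

theorem part2 {G : Type*} [Group G] [Fintype G] (K N : Subgroup G)
    (hTI : ∀ g : G, g ∉ N → ∀ k ∈ K, g * k * g⁻¹ ∈ K → k = 1)
    (p1 : ∀ x ∈ N, x ∉ K → ∀ g : G, g * x * g⁻¹ ∉ K) :
    ∀ (ϑ : N → ℂ), Cfsg.IsClassFunction N ϑ → (∀ x : N, (x : G) ∉ K → ϑ x = 0) → ϑ 1 = 0 →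
      ∀ x : N, Cfsg.indFun N ϑ x = ϑ x := by
  classical
  intro ϑ hcl hoff h1 x
  rw [Cfsg.Agent.Lib.Helper19.indFun_apply]
  by_cases hxK : (x : G) ∈ K
  · by_cases hx1 : x = 1
    · subst hx1
      rw [h1]
      have : ∀ g : G, extendByZero N ϑ (g⁻¹ * ((1 : N) : G) * g) = 0 := by
        intro g
        have : g⁻¹ * ((1 : N) : G) * g = ((1 : N) : G) := by simp
        rw [this, Cfsg.Agent.Lib.Helper19.extendByZero_coe, h1]
      rw [Finset.sum_eq_zero (fun g _ => this g), mul_zero]
    · have hx1' : (x : G) ≠ 1 := fun h => hx1 (Subtype.ext h)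
      have hterm : ∀ g : G, extendByZero N ϑ (g⁻¹ * (x : G) * g) = if g ∈ N then ϑ x else 0 := by
        intro g
        split_ifs with hg
        · have hmem : g⁻¹ * (x : G) * g ∈ N := N.mul_mem (N.mul_mem (N.inv_mem hg) x.2) hg
          rw [Cfsg.Agent.Lib.Helper19.extendByZero_of_mem N ϑ hmem]
          have := hcl x (⟨g, hg⟩⁻¹ : N)
          rw [← this]
          congr 1
          apply Subtype.ext
          simp
        · by_cases hmem : g⁻¹ * (x : G) * g ∈ N
          · rw [Cfsg.Agent.Lib.Helper19.extendByZero_of_mem N ϑ hmem]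
            apply hoff
            intro hK
            have hg' : g⁻¹ ∉ N := fun h => hg (by simpa using N.inv_mem h)
            apply hx1'
            apply hTI g⁻¹ hg' _ hxK
            simpa using hK
          · exact Cfsg.Agent.Lib.Helper19.extendByZero_of_not_mem N ϑ hmem
      simp only [hterm]
      rw [Finset.sum_ite, Finset.sum_const_zero, add_zero, Finset.sum_const, nsmul_eq_mul, ← mul_assoc]
      have hcard : ((Finset.univ.filter fun g : G => g ∈ N).card : ℂ) = (Nat.card N : ℂ) := by
        congr 1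
        rw [Nat.card_eq_fintype_card, Fintype.card_subtype]
      rw [hcard, inv_mul_cancel₀ (Cfsg.Agent.Lib.Helper19.card_ne_zero_complex N), one_mul]
  · rw [hoff x hxK]
    have : ∀ g : G, extendByZero N ϑ (g⁻¹ * (x : G) * g) = 0 := by
      intro g
      by_cases hmem : g⁻¹ * (x : G) * g ∈ N
      · rw [Cfsg.Agent.Lib.Helper19.extendByZero_of_mem N ϑ hmem]
        apply hoff
        have := p1 x x.2 hxK g⁻¹
        simpa using this
      · exact Cfsg.Agent.Lib.Helper19.extendByZero_of_not_mem N ϑ hmem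
    simp [this]


/-- Let K be a subgroup of the finite group G that meets each conjugate by an element outside its normalizer N trivially, is properly contained in N, and contains the centralizer of each of its non-identity elements (a T.I. subgroup with Frobenius normalizer). Then no element of N outside K is conjugate in G to an element of K, and for every class function ϑ of N that vanishes on N away from K and at the identity, the function induced from ϑ to G agrees with ϑ on all of N. -/
theorem result {G : Type*} [Group G] [Fintype G] (K : Subgroup G) (hTI : ∀ g : G, g ∉ Subgroup.normalizer (K : Set G) → ∀ k ∈ K, g * k * g⁻¹ ∈ K → k = 1) (hlt : K < Subgroup.normalizer (K : Set G)) (hC : ∀ k ∈ K, k ≠ 1 → Subgroup.centralizer ({k} : Set G) ≤ K) : (∀ x ∈ Subgroup.normalizer (K : Set G), x ∉ K → ∀ g : G, g * x * g⁻¹ ∉ K) ∧ ∀ (ϑ : Subgroup.normalizer (K : Set G) → ℂ), Cfsg.IsClassFunction (Subgroup.normalizer (K : Set G)) ϑ → (∀ x : Subgroup.normalizer (K : Set G), (x : G) ∉ K → ϑ x = 0) → ϑ 1 =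 0 → ∀ x : Subgroup.normalizer (K : Set G), Cfsg.indFun (Subgroup.normalizer (K : Set G)) ϑ x = ϑ x := by
  have p1 := part1 K hTI hC
  exact ⟨p1, part2 K _ hTI p1⟩

end Cfsg.Agent.S0850
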