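import Cfsg.Statements.S0851
import Cfsg.Agent.Lib.Helper5.FrobChar
import Cfsg.Agent.Lib.Helper19.GramRigid
import Cfsg.Agent.S0170

set_option autoImplicit false
open Cfsg

namespace Cfsg.Agent.S0851

open Cfsg.Agent.Lib.Helper5 Cfsg.Agent.Lib.Helper82

/-- Let K be a subgroup of the finite group G that meets each conjugate by an element outside its normalizer N trivially, is properly contained in N, and contains the centralizer of each of its non-identity elements (a T.I. subgroup with Frobenius normalizer). Suppose K is abelian, let e be the index of K in N, and call an irreducible character of N relevant when it takes at some element of K a value different from its degree. Then either there is exactly one relevant character and K is an elementary abelian p-group of order e + 1 for some prime p, or there are a sign ε and an injective map f from the relevant characters to the irreducible characters of G such that inducing χ - ξ to G gives ε (f χ - f ξ) for all relevant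 χ and ξ. -/
theorem result {G : Type*} [Group G] [Fintype G] (K : Subgroup G) (hTI : ∀ g : G, g ∉ Subgroup.normalizer (K : Set G) → ∀ k ∈ K, g * k * g⁻¹ ∈ K → k = 1) (hlt : K < Subgroup.normalizer (K : Set G)) (hC : ∀ k ∈ K, k ≠ 1 → Subgroup.centralizer ({k} : Set G) ≤ K) (hab : ∀ a ∈ K, ∀ b ∈ K, a * b = b * a) : (Nat.card {χ : Cfsg.IrrCharacter (Subgroup.normalizer (K : Set G)) // ∃ k : Subgroup.normalizer (K : Set G), (k : G) ∈ K ∧ (χ : ↥(Subgroup.normalizer (K : Set G)) → ℂ) k ≠ (χ : ↥(Subgroup.normalizer (K : Set G)) → ℂ) 1} = 1 ∧ ∃ p : ℕ, p.Prime ∧ Cfsg.IsElementaryAbelian p K ∧ Nat.card K = (K.subgroupOf (Subgroup.normalizer (K : Set G))).index + 1) ∨ ∃ (ε : ℂ) (f : {χ : Cfsg.IrrCharacter (Subgroup.normalizer (K : Set G)) // ∃ k : Subgroup.normalizer (K : Set G), (k : G) ∈ K ∧ (χ : ↥(Subgroup.normalizer (K : Set G)) → ℂ) k ≠ (χ : ↥(Subgroup.normalizer (K : Set G)) → ℂ) 1} → Cfsg.IrrCharacter G), (ε = 1 ∨ ε = -1) ∧ Function.Injective f ∧ ∀ χ ξ, Cfsg.indFun (Subgroup.normalizer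 (K : Set G)) ((χ.1 : ↥(Subgroup.normalizer (K : Set G)) → ℂ) - (ξ.1 : ↥(Subgroup.normalizer (K : Set G)) → ℂ)) = ε • ((f χ : G → ℂ) - (f ξ : G → ℂ)) := by
  classical
  set N : Subgroup G := Subgroup.normalizer (K : Set G) with hNdef
  have hKN : K ≤ N := Subgroup.le_normalizer
  set K' : Subgroup N := K.subgroupOf N with hK'def
  have hK'n : K'.Normal := Subgroup.normal_in_normalizer
  have hab' : ∀ a ∈ K', ∀ b ∈ K', a * b = b * a := fun a ha b hb =>
    Subtype.ext (hab a ha b hb)
  have hC' : ∀ k ∈ K', k ≠ 1 → Subgroup.centralizer ({k} : Set N) ≤ K' := by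
    intro k hk hk1 x hx
    have h1 : (k : G) ≠ 1 := fun h => hk1 (Subtype.ext h)
    apply hC k hk h1
    rw [Subgroup.mem_centralizer_singleton_iff] at hx ⊢
    exact congrArg Subtype.val hx
  have hcardK : Nat.card K' = Nat.card K :=
    Nat.card_congr (Subgroup.subgroupOfEquivOfLe hKN).toEquiv
  have hcount := frob_card_relevant hK'n hab' hC'
  have hrel : ∀ χ : {χ : Cfsg.IrrCharacter N // ∃ k : N, (k : G) ∈ K ∧
      (χ : N → ℂ) k ≠ (χ : N → ℂ) 1}, ∃ k ∈ K', (χ.1 : N → ℂ) k ≠ (χ.1 : N → ℂ) 1 := by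
    intro χ
    obtain ⟨k, hk, hne⟩ := χ.2
    exact ⟨k, hk, hne⟩
  have hcongr : Nat.card {χ : Cfsg.IrrCharacter N // ∃ k : N, (k : G) ∈ K ∧
      (χ : N → ℂ) k ≠ (χ : N → ℂ) 1} =
      Nat.card {χ : IrrCharacter N // ∃ k ∈ K', (χ : N → ℂ) k ≠ (χ : N → ℂ) 1} := by
    apply Nat.card_congr
    apply Equiv.subtypeEquivRight
    intro χ
    constructor
    · rintro ⟨k, hk, hne⟩
      exact ⟨k, hk, hne⟩
    · rintro ⟨k, hk, hne⟩
      exact ⟨k, hk, hne⟩
  rw [← hcongr] at hcount
  have hfin : Finite {χ : Cfsg.IrrCharacter N // ∃ k : N, (k : G) ∈ K ∧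
      (χ : N → ℂ) k ≠ (χ : N → ℂ) 1} := by
    have := Cfsg.Agent.Lib.Helper82.finite_irrCharacter (G := N)
    infer_instance
  by_cases hr : Nat.card {χ : Cfsg.IrrCharacter N // ∃ k : N, (k : G) ∈ K ∧
      (χ : N → ℂ) k ≠ (χ : N → ℂ) 1} = 1
  · left
    refine ⟨hr, ?_⟩
    rw [hr, one_mul] at hcount
    obtain ⟨p, hp, hexp⟩ := frob_exponent hK'n hab' hC' hcount.symm
    refine ⟨p, hp, ⟨⟨⟨fun a b => Subtype.ext (hab a a.2 b b.2)⟩⟩, ?_⟩, ?_⟩
    · intro a ha
      have := hexp ⟨a, hKN ha⟩ ha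
      exact congrArg Subtype.val this
    · rw [← hcardK, ← hcount]
  · right
    set r := Nat.card {χ : Cfsg.IrrCharacter N // ∃ k : N, (k : G) ∈ K ∧
      (χ : N → ℂ) k ≠ (χ : N → ℂ) 1} with hrdef
    rcases Nat.lt_or_ge r 2 with hlt | hge
    · have hr0 : r = 0 := by omega
      have hemp : IsEmpty {χ : Cfsg.IrrCharacter N // ∃ k : N, (k : G) ∈ K ∧
          (χ : N → ℂ) k ≠ (χ : N → ℂ) 1} := by
        rcases (Nat.card_eq_zero.mp hr0) with h | h
        · exact h
        · exact absurd hfin (not_finite_iff_infinite.mpr h)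
      exact ⟨1, fun χ => isEmptyElim χ, Or.inl rfl, fun χ => isEmptyElim χ, fun χ => isEmptyElim χ⟩
    · have e : {χ : Cfsg.IrrCharacter N // ∃ k : N, (k : G) ∈ K ∧
          (χ : N → ℂ) k ≠ (χ : N → ℂ) 1} ≃ Fin r := Finite.equivFin _
      obtain ⟨ε, hε, θ, hθirr, hθinj, hθ⟩ := Cfsg.Agent.S0170.result (K : Set G) hKN hTI r hge
        (fun i => ((e.symm i).1 : N → ℂ)) (fun i => (e.symm i).1.2)
        (by
          intro i j hij
          exact e.symm.injective (Subtype.ext (Subtype.ext hij)))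
        (by
          intro i x hx
          exact (frob_degree_and_vanish hK'n hab' hC' (e.symm i).1.2 (hrel _)).2 x hx)
        (by
          intro i j
          rw [(frob_degree_and_vanish hK'n hab' hC' (e.symm i).1.2 (hrel _)).1,
            (frob_degree_and_vanish hK'n hab' hC' (e.symm j).1.2 (hrel _)).1])
      refine ⟨ε, fun χ => ⟨θ (e χ), hθirr _⟩, hε, ?_, ?_⟩
      · intro χ ξ h
        exact e.injective (hθinj (congrArg Subtype.val h))
      · intro χ ξ
        have h1 := hθ (e χ) (e ξ)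
        simp only [Equiv.symm_apply_apply] at h1
        rw [← h1, sub_eq_add_neg, Cfsg.Agent.Lib.Helper19.indFun_add, ← neg_one_smul ℂ,
          Cfsg.Agent.Lib.Helper19.indFun_smul, neg_one_smul, ← sub_eq_add_neg]

end Cfsg.Agent.S0851
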