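import Cfsg.Statements.S0852
import Cfsg.Agent.Lib.Helper5.Coherent

set_option autoImplicit false
open Cfsg

namespace Cfsg.Agent.S0852

open Cfsg.Agent.Lib.Helper5 Cfsg.Agent.Lib.Helper82 Cfsg.Agent.Lib.Helper20 Cfsg.Agent.Lib.Helper32
open scoped ComplexConjugate

/-- Let K be a subgroup of the finite group G that meets each conjugate by an element outside its normalizer N trivially, is properly contained in N, and contains the centralizer of each of its non-identity elements (a T.I. subgroup with Frobenius normalizer). Let S be the set of irreducible characters of N taking at some element of K a value different from their degree, suppose S has at least two members, and let star be a linear isometry on the integer span of S into the generalized characters of G that agrees with induction on the members vanishing at the identity (so S is coherent, with star as the extending isometry). Then an irreducible character ψ of G is of the form star χ or -star χ for some χ in S if and only if ψ is not constant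 on the non-identity elements of K. -/
theorem result {G : Type*} [Group G] [Fintype G] (K : Subgroup G) (hTI : ∀ g : G, g ∉ Subgroup.normalizer (K : Set G) → ∀ k ∈ K, g * k * g⁻¹ ∈ K → k = 1) (hlt : K < Subgroup.normalizer (K : Set G)) (hC : ∀ k ∈ K, k ≠ 1 → Subgroup.centralizer ({k} : Set G) ≤ K) [Fintype ↥(Subgroup.normalizer (K : Set G))] (S : Set (↥(Subgroup.normalizer (K : Set G)) → ℂ)) (hS : S = {χ : ↥(Subgroup.normalizer (K : Set G)) → ℂ | Cfsg.IsIrrCharacter ↥(Subgroup.normalizer (K : Set G)) χ ∧ ∃ k : ↥(Subgroup.normalizer (K : Set G)), (k : G) ∈ K ∧ χ k ≠ χ 1}) (htwo : ∃ χ ∈ S, ∃ ξ ∈ S, χ ≠ ξ) (star : (↥(Subgroup.normalizer (K : Set G)) → ℂ) → (G → ℂ)) (hstar : Cfsg.IsLinearIsometryOn (Cfsg.zspan S) star) (hext : ∀ α ∈ Cfsg.zspanOn S ({1}ᶜ : Set ↥(Subgroup.normalizer (K : Set G))), star α = Cfsg.indFun (Subgroup.normalizer (K : Set G)) α) (ψ : G → ℂ) (hψ : Cfsg.IsIrrCharacter G ψ) : (∃ χ ∈ S, ψ = star χ ∨ ψ = -star χ) ↔ ∃ a ∈ K, ∃ b ∈ K, a ≠ 1 ∧ b ≠ 1 ∧ ψ a ≠ ψ b := by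
  classical
  have hKN : K ≤ Subgroup.normalizer (K : Set G) := Subgroup.le_normalizer
  have hK'n : (K.subgroupOf (Subgroup.normalizer (K : Set G))).Normal :=
    Subgroup.normal_in_normalizer
  have hC' : ∀ k ∈ K.subgroupOf (Subgroup.normalizer (K : Set G)), k ≠ 1 →
      Subgroup.centralizer ({k} : Set (Subgroup.normalizer (K : Set G))) ≤
        K.subgroupOf (Subgroup.normalizer (K : Set G)) := by
    intro k hk hk1 x hx
    have h1 : (k : G) ≠ 1 := fun h => hk1 (Subtype.ext h)
    apply hC k hk h1
    rw [Subgroup.mem_centralizer_singleton_iff] at hx ⊢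
    exact congrArg Subtype.val hx
  have hSirr : ∀ χ ∈ S, IsIrrCharacter (Subgroup.normalizer (K : Set G)) χ := by
    rw [hS]; exact fun χ h => h.1
  have hSrel : ∀ χ ∈ S, ∃ k ∈ K.subgroupOf (Subgroup.normalizer (K : Set G)), χ k ≠ χ 1 := by
    rw [hS]
    rintro χ ⟨-, k, hk, hne⟩
    exact ⟨k, hk, hne⟩
  have hSmem : ∀ χ, IsIrrCharacter (Subgroup.normalizer (K : Set G)) χ →
      (∃ k ∈ K.subgroupOf (Subgroup.normalizer (K : Set G)), χ k ≠ χ 1) → χ ∈ S := by
    rw [hS]
    rintro χ h1 ⟨k, hk, hne⟩
    exact ⟨h1, k, hk, hne⟩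
  have hψc : IsClassFunction G ψ := isChar_isClassFunction (isIrr_isChar hψ)
  have hdeg : ∀ χ ∈ S, ∃ d : ℤ, d ≠ 0 ∧ χ 1 = d := by
    intro χ hχ
    obtain ⟨n, hn, h1⟩ := Cfsg.Agent.Lib.Helper83.isIrr_one (hSirr χ hχ)
    exact ⟨n, by exact_mod_cast hn.ne', by rw [h1]; simp⟩
  constructor
  · rintro ⟨χ₀, hχ₀, hψeq⟩
    by_contra hcon
    push Not at hcon
    obtain ⟨ξ, hξ, hne⟩ : ∃ ξ ∈ S, χ₀ ≠ ξ := by
      obtain ⟨x, hx, y, hy, hxy⟩ := htwo
      by_cases h : χ₀ = x
      · exact ⟨y, hy, h ▸ hxy⟩
      · exact ⟨x, hx, h⟩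
    obtain ⟨dχ, hdχ0, h1⟩ := hdeg χ₀ hχ₀
    obtain ⟨dξ, hdξ0, h2⟩ := hdeg ξ hξ
    have hrec := star_reciprocity hstar hext hχ₀ hξ h1 h2 hψc
    obtain ⟨k₁, hk₁, hk₁ne⟩ := hSrel χ₀ hχ₀
    have hk₁1 : k₁ ≠ 1 := by
      rintro rfl
      exact hk₁ne rfl
    have hform : ∀ η ∈ S, classInner η (fun n : Subgroup.normalizer (K : Set G) => ψ n) =
        ((Nat.card (Subgroup.normalizer (K : Set G)) : ℂ)⁻¹ * (conj (ψ 1) - conj (ψ k₁))) * η 1 := by
      intro η hη
      have hvan := frob_vanish' hK'n hC' (hSirr η hη) (hSrel η hη)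
      have hne1 : η ≠ fun _ => 1 := by
        rintro rfl
        obtain ⟨k, -, hk⟩ := hSrel _ hη
        exact hk rfl
      have h0 := classInner_irr_ne (hSirr η hη) Cfsg.Agent.Lib.Helper4.isIrrCharacter_one hne1
      unfold classInner at h0 ⊢
      have hcard : (Nat.card (Subgroup.normalizer (K : Set G)) : ℂ)⁻¹ ≠ 0 := by
        apply inv_ne_zero
        exact_mod_cast Nat.card_pos.ne'
      have hsum0 : ∑ n : Subgroup.normalizer (K : Set G), η n = 0 := by
        rcases mul_eq_zero.mp h0 with h | h
        · exact absurd h hcard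
        · simpa using h
      have hpt : ∀ n : Subgroup.normalizer (K : Set G), η n * conj (ψ n) =
          η n * conj (ψ k₁) + if n = 1 then η 1 * (conj (ψ 1) - conj (ψ k₁)) else 0 := by
        intro n
        by_cases hn1 : n = 1
        · subst hn1
          rw [if_pos rfl]
          simp only [Subgroup.coe_one]
          ring
        · rw [if_neg hn1, add_zero]
          by_cases hnK : n ∈ K.subgroupOf (Subgroup.normalizer (K : Set G))
          · rw [hcon n hnK k₁ hk₁ (fun h => hn1 (Subtype.ext h)) (fun h => hk₁1 (Subtype.ext h))]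
          · rw [hvan n hnK, zero_mul, zero_mul]
      rw [Finset.sum_congr rfl (fun n _ => hpt n), Finset.sum_add_distrib, ← Finset.sum_mul, hsum0,
        zero_mul, zero_add, Finset.sum_ite_eq' Finset.univ (1 : Subgroup.normalizer (K : Set G)),
        if_pos (Finset.mem_univ _)]
      ring
    rw [hform χ₀ hχ₀, hform ξ hξ, h1, h2] at hrec
    have hR : (dξ : ℂ) * classInner (star χ₀) ψ - dχ * classInner (star ξ) ψ = 0 := by
      rw [hrec]; ring
    have hself := star_self hSirr hstar hχ₀
    have hort := star_ortho hSirr hstar hξ hχ₀ hne.symm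
    have hdξ0' : (dξ : ℂ) ≠ 0 := by exact_mod_cast hdξ0
    rcases hψeq with h | h
    · rw [h, hself, hort] at hR
      apply hdξ0'
      simpa using hR
    · rw [h, classInner_neg_right, classInner_neg_right, hself, hort] at hR
      apply hdξ0'
      simpa using hR
  · rintro ⟨a, ha, b, hb, ha1, hb1, hab⟩
    by_contra hcon
    push Not at hcon
    apply hab
    have hzero : ∀ χ ∈ S, classInner (star χ) ψ = 0 := by
      intro χ hχ
      obtain ⟨h1, h2⟩ := hcon χ hχ
      rcases star_signed hSirr hstar hχ with h | h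
      · exact classInner_irr_ne h hψ (fun h' => h1 h'.symm)
      · have := classInner_irr_ne h hψ (fun h' => h2 h'.symm)
        rw [classInner_neg_left] at this
        exact neg_eq_zero.mp this
    obtain ⟨χ₀, hχ₀, -⟩ := htwo
    obtain ⟨dχ, hdχ0, h1⟩ := hdeg χ₀ hχ₀
    have hdχ0' : (dχ : ℂ) ≠ 0 := by exact_mod_cast hdχ0
    have hres : IsClassFunction (Subgroup.normalizer (K : Set G))
        (fun n : Subgroup.normalizer (K : Set G) => ψ n) :=
      isChar_isClassFunction (isCharacter_restrict (isIrr_isChar hψ) _)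
    have key := const_of_proportional (K.subgroupOf (Subgroup.normalizer (K : Set G))) hres
      (classInner (fun n : Subgroup.normalizer (K : Set G) => ψ n) χ₀ / dχ) (by
        intro η hη hrel
        have hηS := hSmem η hη hrel
        obtain ⟨dη, -, h2⟩ := hdeg η hηS
        have hrec := star_reciprocity hstar hext hχ₀ hηS h1 h2 hψc
        rw [hzero χ₀ hχ₀, hzero η hηS, mul_zero, mul_zero, sub_zero] at hrec
        have hrec' := congrArg conj hrec
        simp only [map_zero, map_sub, map_mul, map_intCast, classInner_conj_symm] at hrec'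
        rw [h2]
        field_simp
        linear_combination hrec')
      (a := ⟨a, hKN ha⟩) (b := ⟨b, hKN hb⟩) ha hb (fun h => ha1 (congrArg Subtype.val h))
      (fun h => hb1 (congrArg Subtype.val h))
    exact key

end Cfsg.Agent.S0852
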