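import Cfsg.Statements.S0855
import Cfsg.Agent.Lib.Helper19.CliffordDeg
import Cfsg.Agent.Lib.Helper58.NormalComplement
import Cfsg.Agent.Lib.Helper2.PResidual
import Cfsg.Agent.S0134
import Cfsg.Agent.S0135
import Cfsg.Agent.S0154
import Cfsg.Agent.S0169
import Cfsg.Agent.S0187

set_option autoImplicit false
open Cfsg

namespace Cfsg.Agent.S0855


open Cfsg.Agent.Lib.Helper20 Cfsg.Agent.Lib.Helper19

/-- the hypothesis passes to normal subgroups -/
theorem hyp_normal {G : Type*} [Group G] [Finite G] (p : ℕ) (hp : p.Prime)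
    (h : ∀ χ : Cfsg.IrrCharacter G, ∃ k : ℕ, (χ : G → ℂ) 1 = (p : ℂ) ^ k)
    (N : Subgroup G) (hN : N.Normal) :
    ∀ χ : Cfsg.IrrCharacter N, ∃ k : ℕ, (χ : N → ℂ) 1 = (p : ℂ) ^ k := by
  classical
  haveI := Fintype.ofFinite G
  intro χ
  obtain ⟨θ, hθ, a, b, ha, hb, hab⟩ := exists_irr_over_degree_dvd hN χ.2
  obtain ⟨k, hk⟩ := h ⟨θ, hθ⟩
  have h1 : a = p ^ k := by
    have : (a : ℂ) = ((p ^ k : ℕ) : ℂ) := by rw [← ha]; push_cast; exact hk
    exact_mod_cast this
  rw [h1] at hab
  obtain ⟨j, -, hj⟩ := (Nat.dvd_prime_pow hp).mp hab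
  exact ⟨j, by rw [hb, hj]; push_cast; rfl⟩

/-- `p` divides the index of the commutator subgroup -/
theorem dvd_index_commutator {G : Type*} [Group G] [Finite G] (p : ℕ)
    (h : ∀ χ : Cfsg.IrrCharacter G, ∃ k : ℕ, (χ : G → ℂ) 1 = (p : ℂ) ^ k)
    (hpG : p ∣ Nat.card G) (hp1 : p ≠ 1) : p ∣ (commutator G).index := by
  classical
  haveI := finite_irrCharacter (G := G)
  haveI := Fintype.ofFinite (Cfsg.IrrCharacter G)
  choose k hk using h
  have h1 := Cfsg.Agent.S0134.result (G := G)
  rw [finsum_eq_sum_of_fintype] at h1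
  have h2 : ∑ χ : Cfsg.IrrCharacter G, (p ^ k χ) ^ 2 = Nat.card G := by
    have : ((∑ χ : Cfsg.IrrCharacter G, (p ^ k χ) ^ 2 : ℕ) : ℂ) = (Nat.card G : ℂ) := by
      rw [← h1]
      push_cast
      exact Finset.sum_congr rfl (fun χ _ => by rw [hk χ])
    exact_mod_cast this
  rw [← Finset.sum_filter_add_sum_filter_not Finset.univ (fun χ => k χ = 0)] at h2
  have h3 : p ∣ ∑ χ ∈ Finset.univ.filter (fun χ : Cfsg.IrrCharacter G => ¬ k χ = 0),
      (p ^ k χ) ^ 2 := by
    apply Finset.dvd_sum
    intro χ hχ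
    rw [Finset.mem_filter] at hχ
    exact dvd_pow (dvd_pow_self p hχ.2) two_ne_zero
  have h4 : ∑ χ ∈ Finset.univ.filter (fun χ : Cfsg.IrrCharacter G => k χ = 0), (p ^ k χ) ^ 2
      = (commutator G).index := by
    rw [← Cfsg.Agent.S0154.result, Nat.card_eq_fintype_card, Fintype.card_subtype]
    rw [Finset.card_eq_sum_ones]
    have hfil : Finset.univ.filter (fun χ : Cfsg.IrrCharacter G => k χ = 0) =
        Finset.univ.filter (fun χ : Cfsg.IrrCharacter G => (χ : G → ℂ) 1 = 1) := by
      ext χ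
      simp only [Finset.mem_filter, Finset.mem_univ, true_and]
      rw [hk χ]
      constructor
      · intro h0; rw [h0, pow_zero]
      · intro h0
        by_contra hne
        have h5 : p ^ k χ = 1 := by exact_mod_cast h0
        rcases Nat.pow_eq_one.mp h5 with h6 | h6
        · exact hp1 h6
        · exact hne h6
    rw [← hfil]
    apply Finset.sum_congr rfl
    intro χ hχ
    rw [Finset.mem_filter] at hχ
    rw [hχ.2]
    simp
  rw [h4] at h2
  have h5 : p ∣ (commutator G).index + ∑ χ ∈ Finset.univ.filter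
      (fun χ : Cfsg.IrrCharacter G => ¬ k χ = 0), (p ^ k χ) ^ 2 := by rw [h2]; exact hpG
  exact (Nat.dvd_add_left h3).mp h5

theorem comm_aux {Q : Type*} [CommGroup Q] [Finite Q] (p : ℕ) [Fact p.Prime]
    (h : p ∣ Nat.card Q) : ∃ H : Subgroup Q, H.index ≠ 1 ∧ ∃ k : ℕ, H.index = p ^ k := by
  classical
  obtain ⟨P⟩ : Nonempty (Sylow p Q) := inferInstance
  obtain ⟨H, hH⟩ := Subgroup.exists_right_complement'_of_coprime (N := (P : Subgroup Q))
    P.card_coprime_index
  have hHi : H.index = Nat.card P := hH.index_eq_card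
  obtain ⟨j, hj⟩ := P.2.exists_card_eq
  refine ⟨H, ?_, j, by rw [hHi, hj]⟩
  intro h1
  rw [hHi] at h1
  have h3 := P.dvd_card_of_dvd_card h
  rw [h1] at h3
  exact (Fact.out : p.Prime).one_lt.ne' (Nat.dvd_one.mp h3)

/-- a proper normal subgroup of `p`-power index -/
theorem exists_normal_index_pow {G : Type*} [Group G] [Finite G] (p : ℕ) [Fact p.Prime]
    (h : p ∣ (commutator G).index) :
    ∃ N : Subgroup G, N.Normal ∧ N ≠ ⊤ ∧ ∃ k : ℕ, N.index = p ^ k := by
  classical
  have h2 : p ∣ Nat.card (Abelianization G) := by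
    have : Nat.card (Abelianization G) = (commutator G).index := (Subgroup.index_eq_card _).symm
    rw [this]; exact h
  obtain ⟨H, hH1, j, hj⟩ := comm_aux p h2
  refine ⟨H.comap (Abelianization.of), inferInstance, ?_, j, ?_⟩
  · intro htop
    have h1 : (H.comap (Abelianization.of)).index = 1 := by rw [htop]; exact Subgroup.index_top
    rw [Subgroup.index_comap_of_surjective H (QuotientGroup.mk_surjective)] at h1
    exact hH1 h1
  · rw [Subgroup.index_comap_of_surjective H (QuotientGroup.mk_surjective), hj]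

theorem npc_aux (p : ℕ) [hp : Fact p.Prime] : ∀ (n : ℕ) (G : Type*) [Group G] [Finite G],
    Nat.card G = n → (∀ χ : Cfsg.IrrCharacter G, ∃ k : ℕ, (χ : G → ℂ) 1 = (p : ℂ) ^ k) →
    Cfsg.HasNormalPComplement p G := by
  intro n
  induction n using Nat.strong_induction_on with
  | _ n ih =>
    intro G _ _ hn h
    by_cases hpG : p ∣ Nat.card G
    · obtain ⟨N, hN, hNtop, k, hk⟩ := exists_normal_index_pow p
        (dvd_index_commutator p h hpG hp.out.one_lt.ne')
      have hlt : Nat.card N < n := by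
        rw [← hn]
        have h1 := N.card_mul_index
        have h2 : N.index ≠ 1 := fun h => hNtop (Subgroup.index_eq_one.mp h)
        have h3 : 0 < N.index := Nat.pos_of_ne_zero N.index_ne_zero_of_finite
        have h4 : 0 < Nat.card N := Nat.card_pos
        have h5 : 2 ≤ N.index := by omega
        nlinarith
      have := ih (Nat.card N) hlt N rfl (hyp_normal p hp.out h N hN)
      exact Cfsg.Agent.Lib.Helper58.hasNormalPComplement_of_normal_index_pow N k hk this
    · apply Cfsg.Agent.Lib.Helper58.hasNormalPComplement_of_card (⊤ : Subgroup G) 0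
      · simp
      · rw [Subgroup.card_top]
        exact ((Nat.Prime.coprime_iff_not_dvd hp.out).mpr hpG).symm


/-- For a finite group G and a prime p: every irreducible character of G has degree a power of p if and only if G has an abelian normal subgroup whose order is prime to p and whose index is a power of p. -/
theorem result {G : Type*} [Group G] [Finite G] (p : ℕ) (hp : p.Prime) : (∀ χ : Cfsg.IrrCharacter G, ∃ k : ℕ, (χ : G → ℂ) 1 = (p : ℂ) ^ k) ↔ ∃ A : Subgroup G, A.Normal ∧ (∀ a ∈ A, ∀ b ∈ A, a * b = b * a) ∧ Nat.Coprime (Nat.card A) p ∧ ∃ k : ℕ, A.index = p ^ k := by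
  classical
  haveI : Fact p.Prime := ⟨hp⟩
  constructor
  · intro h
    have h1 := npc_aux p (Nat.card G) G rfl h
    obtain ⟨A, hA, hcop, k, hk⟩ := Cfsg.Agent.Lib.Helper2.hasNormalPComplement_iff_exists.mp h1
    refine ⟨A, hA, ?_, hcop, k, hk⟩
    have h2 : ∀ a b : A, a * b = b * a := by
      rw [Cfsg.Agent.S0187.result]
      intro χ
      obtain ⟨j, hj⟩ := hyp_normal p hp h A hA χ
      obtain ⟨d, ρ, hρ, hχ⟩ := χ.2
      haveI := hρ
      have h3 := Cfsg.Agent.S0135.result ρ
      have h4 : (χ : A → ℂ) 1 = d := by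
        rw [← hχ, Representation.char_one]; simp
      have h5 : d = p ^ j := by
        have : (d : ℂ) = ((p ^ j : ℕ) : ℂ) := by rw [← h4, hj]; push_cast; rfl
        exact_mod_cast this
      rw [Module.finrank_fin_fun, h5] at h3
      have h6 : j = 0 := by
        by_contra hne
        have h7 : p ∣ Nat.card A := (dvd_pow_self p hne).trans h3
        have h8 := Nat.Coprime.eq_one_of_dvd hcop.symm h7
        exact hp.one_lt.ne' h8
      rw [hj, h6, pow_zero]
    intro a ha b hb
    exact congrArg Subtype.val (h2 ⟨a, ha⟩ ⟨b, hb⟩)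
  · rintro ⟨A, hA, hab, -, k, hk⟩ χ
    obtain ⟨d, ρ, hρ, hχ⟩ := χ.2
    haveI := hρ
    have h3 := Cfsg.Agent.S0169.result ρ A hab
    rw [Module.finrank_fin_fun, hk] at h3
    obtain ⟨j, -, hj⟩ := (Nat.dvd_prime_pow hp).mp h3
    refine ⟨j, ?_⟩
    rw [← hχ, Representation.char_one, Module.finrank_fin_fun, hj]
    push_cast
    rfl

end Cfsg.Agent.S0855
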