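import Cfsg.Statements.S0859
import Cfsg.Agent.Lib.Helper19.RelM2
import Cfsg.Agent.S0854

set_option autoImplicit false
open Cfsg

namespace Cfsg.Agent.S0859


open Cfsg.Agent.Lib.Helper20 Cfsg.Agent.Lib.Helper19 Cfsg.Agent.Lib.Helper5

/-- the inclusion of `N ⊓ T` (inside `T`) into `N` -/
def incl {H : Type*} [Group H] (N T : Subgroup H) : N.subgroupOf T →* N where
  toFun a := ⟨a.1.1, a.2⟩
  map_one' := rfl
  map_mul' _ _ := rfl

theorem incl_injective {H : Type*} [Group H] (N T : Subgroup H) :
    Function.Injective (incl N T) := by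
  intro a b h
  apply Subtype.ext
  apply Subtype.ext
  exact congrArg (fun x : N => (x : H)) h

theorem claimC : ∀ (n : ℕ) (H : Type*) [Group H] [Fintype H] [Group.IsSolvable H]
    (N : Subgroup H) [N.Normal], Nat.card H = n → AbSyl N → ∀ ψ : H → ℂ,
    Cfsg.IsIrrCharacter H ψ → Cfsg.IsIrrCharacter N (fun n : N => ψ n) →
    ∃ (U : Subgroup H) (lam : U → ℂ), Cfsg.IsCharacter U lam ∧ lam 1 = 1 ∧
      Cfsg.indFun U lam = ψ := by
  intro n
  induction n using Nat.strong_induction_on with
  | _ n ih =>
    intro H _ _ _ N _ hn hAS ψ hψ hN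
    classical
    have hψc := isCharacter_of_isIrrCharacter hψ
    have hψcl := isClassFunction_of_isCharacter hψc
    by_cases hhom : ∀ (M : Subgroup H) [Fintype M] (hM : M.Normal), M ≤ N → ∀ φ : M → ℂ,
        Cfsg.IsIrrCharacter M φ → Cfsg.classInner (fun m : M => ψ m) φ ≠ 0 → inertia hM φ = ⊤
    · have h1 := linear_of_homogeneous N hAS hψ hN hhom
      exact ⟨⊤, fun x => ψ x, isCharacter_restrict hψc ⊤, h1, indFun_top_restrict hψcl⟩
    · push Not at hhom
      obtain ⟨M, _, hM, hMN, φ, hφ, hc, hT⟩ := hhom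
      set T := inertia hM φ with hTdef
      haveI : Fintype T := Fintype.ofFinite T
      have hMT : M ≤ T :=
        le_inertia hM (isClassFunction_of_isCharacter (isCharacter_of_isIrrCharacter hφ))
      obtain ⟨η, hη, hηind, -⟩ := Cfsg.Agent.S0854.result M φ hφ T
        (fun g => mem_inertia' hM φ g) hMT ψ hψ hc
      have hirr := irr_restrict_of_induced T N hη hψ hηind hN
      have hltc : Nat.card T < n := by
        rw [← hn]
        exact lt_of_le_of_ne (Subgroup.card_le_card_group T)
          (fun h => hT (Subgroup.eq_top_of_card_eq T h))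
      obtain ⟨U', lam', hl, hl1, hlind⟩ := ih (Nat.card T) hltc T (N.subgroupOf T) rfl
        (hAS.of_injective (incl N T) (incl_injective N T)) η hη hirr
      refine ⟨U'.map T.subtype, liftFun T U' lam', isCharacter_liftFun T U' hl, ?_, ?_⟩
      · have := liftFun_apply T U' lam' 1 (Subgroup.one_mem _) (Subgroup.one_mem _)
        rw [← hl1]
        exact this
      · rw [indFun_liftFun, hlind, hηind]


/-- Let G be a finite solvable group and N a normal subgroup such that for every prime p every Sylow p-subgroup of N is abelian. Suppose every irreducible character of G is induced from an irreducible character of some subgroup containing N whose restriction to N is irreducible. Then every irreducible character of G is induced from a character of degree 1 of some subgroup. -/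
theorem result {G : Type*} [Group G] [Fintype G] [Group.IsSolvable G] (N : Subgroup G) [N.Normal] (hab : ∀ (p : ℕ) [Fact p.Prime] (P : Sylow p N), ∀ a ∈ P, ∀ b ∈ P, a * b = b * a) (hrel : ∀ χ : G → ℂ, Cfsg.IsIrrCharacter G χ → ∃ (H : Subgroup G) (hNH : N ≤ H) (ψ : H → ℂ), Cfsg.IsIrrCharacter H ψ ∧ Cfsg.indFun H ψ = χ ∧ Cfsg.IsIrrCharacter N (fun n : N => ψ ⟨(n : G), hNH n.2⟩)) (χ : G → ℂ) (hχ : Cfsg.IsIrrCharacter G χ) : ∃ (U : Subgroup G) (lam : U → ℂ), Cfsg.IsCharacter U lam ∧ lam 1 = 1 ∧ Cfsg.indFun U lam = χ := by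
  classical
  obtain ⟨H, hNH, ψ, hψ, hind, hres⟩ := hrel χ hχ
  haveI : Fintype H := Fintype.ofFinite H
  have hAS : AbSyl N := fun p _ P a ha b hb => hab p P a ha b hb
  have hirr : Cfsg.IsIrrCharacter (N.subgroupOf H) (fun a : N.subgroupOf H => ψ a) :=
    isIrrCharacter_comp_equiv (Subgroup.subgroupOfEquivOfLe hNH) hres
  obtain ⟨U', lam', hl, hl1, hlind⟩ := claimC (Nat.card H) H (N.subgroupOf H) rfl
    (hAS.of_injective (incl N H) (incl_injective N H)) ψ hψ hirr
  refine ⟨U'.map H.subtype, liftFun H U' lam', isCharacter_liftFun H U' hl, ?_, ?_⟩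
  · have := liftFun_apply H U' lam' 1 (Subgroup.one_mem _) (Subgroup.one_mem _)
    rw [← hl1]
    exact this
  · rw [indFun_liftFun, hlind, hind]

end Cfsg.Agent.S0859
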