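import Cfsg.Statements.S0861
import Cfsg.Agent.Lib.Helper19.PElementNonvanish
import Cfsg.Agent.Lib.Helper79.GaloisNorm
import Cfsg.Agent.Lib.Helper82.CharKer
import Cfsg.Agent.Lib.Helper82.Ortho
import Cfsg.Agent.S0169
import Cfsg.Agent.S0187

set_option autoImplicit false
open Cfsg

namespace Cfsg.Agent.S0861


open Cfsg.Agent.Lib.Helper20 Cfsg.Agent.Lib.Helper19
open scoped ComplexConjugate

theorem centralizer_pow {G : Type*} [Group G] (g : G) (k : ℕ) (hk : Nat.Coprime k (orderOf g)) :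
    Subgroup.centralizer ({g ^ k} : Set G) = Subgroup.centralizer ({g} : Set G) := by
  obtain ⟨v, hv⟩ := exists_pow_eq_self_of_coprime hk
  ext h
  simp only [Subgroup.mem_centralizer_singleton_iff]
  constructor
  · intro h1
    have h2 : Commute h (g ^ k) := h1
    have h3 : Commute h ((g ^ k) ^ v) := h2.pow_right v
    rw [hv] at h3
    exact h3
  · intro h1
    have h2 : Commute h g := h1
    exact h2.pow_right k


/-- Let P be a normal abelian Sylow p-subgroup of the finite group G and suppose some element g of P has centralizer exactly P. Then the number of irreducible characters of G is at most the order of P, and if equality holds then G / P is abelian (the commutator subgroup lies in P). -/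
theorem result {G : Type*} [Group G] [Finite G] (p : ℕ) [Fact p.Prime] (P : Sylow p G) [(P : Subgroup G).Normal] (hab : ∀ a ∈ P, ∀ b ∈ P, a * b = b * a) (g : G) (hg : g ∈ P) (hC : Subgroup.centralizer ({g} : Set G) = P) : Nat.card (Cfsg.IrrCharacter G) ≤ Nat.card P ∧ (Nat.card (Cfsg.IrrCharacter G) = Nat.card P → commutator G ≤ P) := by
  classical
  haveI := finite_irrCharacter (G := G)
  haveI := Fintype.ofFinite (Cfsg.IrrCharacter G)
  set n := orderOf g with hn
  haveI : NeZero n := ⟨(orderOf_pos g).ne'⟩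
  obtain ⟨a, ha⟩ := (P.2 ⟨g, hg⟩)
  have hga : g ^ (p ^ a) = 1 := by
    have := congrArg Subtype.val ha
    simpa using this
  -- nonvanishing
  have hne : ∀ χ : Cfsg.IrrCharacter G, (χ : G → ℂ) g ≠ 0 := by
    intro χ
    obtain ⟨d, ρ, hρ, hχ⟩ := χ.2
    haveI := hρ
    have h3 := Cfsg.Agent.S0169.result ρ (P : Subgroup G) hab
    rw [Module.finrank_fin_fun] at h3
    apply isCharacter_ne_zero_of_pElement p (isCharacter_of_isIrrCharacter χ.2) g a hga d
    · rw [← hχ, Representation.char_one, Module.finrank_fin_fun]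
    · intro hpd
      exact P.not_dvd_index (hpd.trans h3)
  -- lower bounds
  have hlow : ∀ χ : Cfsg.IrrCharacter G, (Fintype.card (ZMod n)ˣ : ℝ) ≤
      ∑ u : (ZMod n)ˣ, ‖(χ : G → ℂ) (g ^ (u : ZMod n).val)‖ ^ 2 := fun χ =>
    Cfsg.Agent.Lib.Helper79.IsCharacter.card_units_le_sum_norm_sq
      (isCharacter_of_isIrrCharacter χ.2) n g (pow_orderOf_eq_one g) (hne χ)
  -- column orthogonality
  have hcol : ∀ u : (ZMod n)ˣ, ∑ χ : Cfsg.IrrCharacter G,
      ‖(χ : G → ℂ) (g ^ (u : ZMod n).val)‖ ^ 2 = (Nat.card P : ℝ) := by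
    intro u
    have h1 := Cfsg.Agent.Lib.Helper82.finsum_irr_mul_conj_self (g ^ (u : ZMod n).val)
    rw [centralizer_pow g _ (ZMod.val_coe_unit_coprime u), hC, finsum_eq_sum_of_fintype] at h1
    have h2 : ((∑ χ : Cfsg.IrrCharacter G, ‖(χ : G → ℂ) (g ^ (u : ZMod n).val)‖ ^ 2 : ℝ) : ℂ)
        = ((Nat.card P : ℝ) : ℂ) := by
      push_cast
      rw [← h1]
      apply Finset.sum_congr rfl
      intro χ _
      rw [Complex.mul_conj, Complex.normSq_eq_norm_sq]
      push_cast
      rfl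
    exact_mod_cast h2
  have htot : ∑ χ : Cfsg.IrrCharacter G, ∑ u : (ZMod n)ˣ,
      ‖(χ : G → ℂ) (g ^ (u : ZMod n).val)‖ ^ 2 = (Fintype.card (ZMod n)ˣ : ℝ) * Nat.card P := by
    rw [Finset.sum_comm, Finset.sum_congr rfl (fun u _ => hcol u)]
    simp
  have hφ : (0 : ℝ) < Fintype.card (ZMod n)ˣ := by exact_mod_cast Fintype.card_pos
  constructor
  · have h1 : ∑ χ : Cfsg.IrrCharacter G, (Fintype.card (ZMod n)ˣ : ℝ) ≤
        (Fintype.card (ZMod n)ˣ : ℝ) * Nat.card P := by
      rw [← htot]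
      exact Finset.sum_le_sum (fun χ _ => hlow χ)
    rw [Finset.sum_const, Finset.card_univ, nsmul_eq_mul, mul_comm] at h1
    have h2 := le_of_mul_le_mul_left h1 hφ
    rw [Nat.card_eq_fintype_card]
    exact_mod_cast h2
  · intro heq
    have heq' : ∀ χ : Cfsg.IrrCharacter G, (Fintype.card (ZMod n)ˣ : ℝ) =
        ∑ u : (ZMod n)ˣ, ‖(χ : G → ℂ) (g ^ (u : ZMod n).val)‖ ^ 2 := by
      have h1 : ∑ χ : Cfsg.IrrCharacter G, (Fintype.card (ZMod n)ˣ : ℝ) =
          ∑ χ : Cfsg.IrrCharacter G, ∑ u : (ZMod n)ˣ,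
            ‖(χ : G → ℂ) (g ^ (u : ZMod n).val)‖ ^ 2 := by
        rw [htot, Finset.sum_const, Finset.card_univ, nsmul_eq_mul, ← heq,
          Nat.card_eq_fintype_card, mul_comm]
      intro χ
      exact (Finset.sum_eq_sum_iff_of_le (fun χ _ => hlow χ)).mp h1 χ (Finset.mem_univ χ)
    have hcomm : ∀ x y : G ⧸ (P : Subgroup G), x * y = y * x := by
      rw [Cfsg.Agent.S0187.result]
      intro ψ
      have hψ := Cfsg.Agent.Lib.Helper82.isIrr_inflate ψ.2
      have h1 := heq' ⟨_, hψ⟩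
      have h2 : ∀ u : (ZMod n)ˣ, ((g ^ (u : ZMod n).val : G) : G ⧸ (P : Subgroup G)) = 1 := by
        intro u
        rw [QuotientGroup.eq_one_iff]
        exact Subgroup.pow_mem _ hg _
      simp only [h2] at h1
      rw [Finset.sum_const, Finset.card_univ, nsmul_eq_mul] at h1
      have h3 : ‖(ψ : G ⧸ (P : Subgroup G) → ℂ) 1‖ ^ 2 = 1 := by
        have h30 : (Fintype.card (ZMod n)ˣ : ℝ) * 1 =
            (Fintype.card (ZMod n)ˣ : ℝ) * ‖(ψ : G ⧸ (P : Subgroup G) → ℂ) 1‖ ^ 2 := by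
          rw [mul_one]; exact h1
        exact (mul_left_cancel₀ hφ.ne' h30).symm
      obtain ⟨d, hd⟩ := isCharacter_apply_one (isCharacter_of_isIrrCharacter ψ.2)
      rw [hd] at h3 ⊢
      rw [Complex.norm_natCast] at h3
      have h4 : d ^ 2 = 1 := by exact_mod_cast h3
      have h5 : d = 1 := by
        rcases Nat.pow_eq_one.mp h4 with h | h
        · exact h
        · omega
      rw [h5]; simp
    rw [commutator_def, Subgroup.commutator_le]
    intro x _ y _
    rw [← QuotientGroup.eq_one_iff]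
    have h1 := hcomm (x : G ⧸ (P : Subgroup G)) (y : G ⧸ (P : Subgroup G))
    show ((x * y * x⁻¹ * y⁻¹ : G) : G ⧸ (P : Subgroup G)) = 1
    rw [QuotientGroup.mk_mul, QuotientGroup.mk_mul, QuotientGroup.mk_mul, h1,
      QuotientGroup.mk_inv, QuotientGroup.mk_inv]
    group

end Cfsg.Agent.S0861
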