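import Cfsg.Statements.S0869
import Mathlib

set_option autoImplicit false
open Cfsg

namespace Cfsg.Agent.S0869

/-- Let S be a nonempty finite type and R an additive subgroup of the integer-valued functions on S that is closed under pointwise multiplication. If the constant function 1 is not in R, then there exist a point x of S and a prime p such that p divides f x for every f in R. -/
theorem result {S : Type*} [Finite S] [Nonempty S] (R : AddSubgroup (S → ℤ)) (hmul : ∀ f ∈ R, ∀ g ∈ R, f * g ∈ R) (h1 : (1 : S → ℤ) ∉ R) : ∃ (x : S) (p : ℕ), p.Prime ∧ ∀ f ∈ R, (p : ℤ) ∣ f x := by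
  classical
  by_contra hcon
  push Not at hcon
  have hone : ∀ x : S, ∃ f ∈ R, f x = 1 := by
    intro x
    let I : AddSubgroup ℤ := R.map (Pi.evalAddMonoidHom (fun _ : S => ℤ) x)
    obtain ⟨n, hn⟩ := Int.subgroup_cyclic I
    have hdvd : ∀ f ∈ R, n ∣ f x := by
      intro f hf
      have : f x ∈ I := ⟨f, hf, rfl⟩
      rw [hn, AddSubgroup.mem_closure_singleton] at this
      obtain ⟨k, hk⟩ := this
      exact ⟨k, by rw [← hk]; simp [mul_comm]⟩
    have hn1 : n.natAbs = 1 := by
      by_contra hne
      obtain ⟨p, hp, hpn⟩ := Nat.exists_prime_and_dvd hne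
      obtain ⟨f, hf, hpf⟩ := hcon x p hp
      apply hpf
      have h1 : (p : ℤ) ∣ n := Int.natCast_dvd.mpr hpn
      exact h1.trans (hdvd f hf)
    have hnI : n ∈ I := by
      rw [hn]; exact AddSubgroup.subset_closure rfl
    have h1I : (1 : ℤ) ∈ I := by
      rcases Int.natAbs_eq n with h | h
      · rw [hn1] at h; simpa [h] using hnI
      · rw [hn1] at h
        have := I.neg_mem hnI
        rw [h] at this
        simpa using this
    obtain ⟨f, hf, hfx⟩ := h1I
    exact ⟨f, hf, hfx⟩
  choose F hFR hF1 using hone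
  haveI := Fintype.ofFinite S
  have key : ∀ T : Finset S, ∃ r ∈ R, ∏ x ∈ T, (1 - F x) = 1 - r := by
    intro T
    induction T using Finset.induction_on with
    | empty => exact ⟨0, R.zero_mem, by simp⟩
    | insert a T ha ih =>
      obtain ⟨r, hr, hprod⟩ := ih
      refine ⟨F a + r - F a * r, R.sub_mem (R.add_mem (hFR a) hr) (hmul _ (hFR a) _ hr), ?_⟩
      rw [Finset.prod_insert ha, hprod]
      ring
  obtain ⟨r, hr, hprod⟩ := key Finset.univ
  have hzero : ∏ x ∈ (Finset.univ : Finset S), (1 - F x) = 0 := by
    funext y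
    rw [Finset.prod_apply]
    apply Finset.prod_eq_zero (Finset.mem_univ y)
    simp [hF1 y]
  rw [hzero] at hprod
  have : r = 1 := by
    have := sub_eq_zero.mp hprod.symm
    exact this.symm
  exact h1 (this ▸ hr)

end Cfsg.Agent.S0869
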