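import Cfsg.Statements.S0877
import Cfsg.Agent.Lib.Helper4.BrauerR
import Cfsg.Agent.Lib.Helper4.PiPart2
import Cfsg.Agent.Lib.Helper32.GenChar
import Cfsg.Agent.Lib.Helper20.CharColumn
import Cfsg.Agent.Lib.Helper82.CharKer
import Cfsg.Agent.Lib.Helper4.CharIntegral

set_option autoImplicit false
open Cfsg

namespace Cfsg.Agent.S0877

open Cfsg.Agent.Lib.Helper4 Cfsg.Agent.Lib.Helper32
open scoped ComplexConjugate

universe u

theorem isElementary_of_isCyclic (p : ℕ) [hp : Fact p.Prime] (E : Type*) [Group E] [Finite E]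
    [hE : IsCyclic E] : IsElementary p E := by
  obtain ⟨w, hw⟩ := hE.exists_generator
  have hN : orderOf w = Nat.card E := orderOf_eq_card_of_forall_mem_zpowers hw
  have hN0 : Nat.card E ≠ 0 := Nat.card_pos.ne'
  have hord : orderOf (w ^ (p ^ (Nat.card E).factorization p)) =
      Nat.card E / p ^ (Nat.card E).factorization p := by
    rw [orderOf_pow_of_dvd (pow_pos hp.out.pos _).ne' (by rw [hN]; exact Nat.ordProj_dvd _ _), hN]
  refine ⟨w ^ (p ^ (Nat.card E).factorization p), ?_, ?_, (Nat.card E).factorization p, ?_⟩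
  · rw [Subgroup.mem_center_iff]
    intro g
    have := hE.isMulCommutative
    exact (this.is_comm.comm _ _)
  · rw [hord]
    exact (Nat.coprime_ordCompl hp.out hN0).symm
  · have h1 := Subgroup.index_mul_card (Subgroup.zpowers (w ^ (p ^ (Nat.card E).factorization p)))
    rw [Nat.card_zpowers, hord] at h1
    have h2 := Nat.ordProj_mul_ordCompl_eq_self (Nat.card E) p
    have h3 : 0 < Nat.card E / p ^ (Nat.card E).factorization p := Nat.ordCompl_pos p hN0
    exact Nat.eq_of_mul_eq_mul_right h3 (h1.trans h2.symm)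

theorem genChar_of_classInner_int {G : Type u} [Group G] [Fintype G] {θ : G → ℂ}
    (hθ : IsClassFunction G θ)
    (h : ∀ χ : G → ℂ, IsIrrCharacter G χ → ∃ z : ℤ, classInner θ χ = z) :
    IsGeneralizedCharacter G θ := by
  classical
  have := finite_irrCharacter (G := G)
  have := Fintype.ofFinite (IrrCharacter G)
  rw [Cfsg.Agent.Lib.Helper20.eq_sum_classInner_smul hθ]
  apply genChar_sum
  intro χ _
  obtain ⟨z, hz⟩ := h χ χ.2
  rw [hz]
  exact genChar_intCast_smul (genChar_of_irr χ.2) z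

section main

variable {G : Type u} [Group G] [Fintype G] {H : Subgroup G} {m n k : ℕ}

theorem exists_retraction (hmn : Nat.card G = m * n) (hn : n = Nat.card H) (hk0 : m ∣ k)
    (helem : ∀ (E : Subgroup G) (p : ℕ), p.Prime → Cfsg.IsElementary p E →
      Nat.card E ∣ Nat.card H → ∃ g : G, E.map (MulAut.conj g).toMonoidHom ≤ H) :
    ∃ r : G → H, ∀ x, IsConj (x ^ k) (r x : G) := by
  have key : ∀ x : G, ∃ h : H, IsConj (x ^ k) (h : G) := by
    intro x
    have : Fact (Nat.Prime 2) := ⟨Nat.prime_two⟩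
    obtain ⟨g, hg⟩ := helem (Subgroup.zpowers (x ^ k)) 2 Nat.prime_two
      (isElementary_of_isCyclic 2 _)
      (by rw [Nat.card_zpowers, ← hn]; exact orderOf_pow_part_dvd hmn hk0 x)
    exact ⟨⟨g * x ^ k * g⁻¹, hg ⟨x ^ k, Subgroup.mem_zpowers _, rfl⟩⟩, isConj_iff.mpr ⟨g, rfl⟩⟩
  choose r hr using key
  exact ⟨r, hr⟩

theorem isConj_of_isConj (hfus : ∀ x ∈ H, ∀ y ∈ H, IsConj x y → ∃ h ∈ H, h * x * h⁻¹ = y)
    {h₁ h₂ : H} (hc : IsConj (h₁ : G) (h₂ : G)) : IsConj h₁ h₂ := by
  obtain ⟨t, ht, hth⟩ := hfus h₁ h₁.2 h₂ h₂.2 hc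
  exact isConj_iff.mpr ⟨⟨t, ht⟩, Subtype.ext hth⟩

theorem eq_of_isConj {θ : H → ℂ} (hθ : IsClassFunction H θ) {h₁ h₂ : H} (hc : IsConj h₁ h₂) :
    θ h₁ = θ h₂ := by
  obtain ⟨t, ht⟩ := isConj_iff.mp hc
  rw [← ht]
  exact (hθ h₁ t).symm

theorem apply_r (hfus : ∀ x ∈ H, ∀ y ∈ H, IsConj x y → ∃ h ∈ H, h * x * h⁻¹ = y)
    {r : G → H} (hr : ∀ x, IsConj (x ^ k) (r x : G)) {θ : H → ℂ} (hθ : IsClassFunction H θ)
    {x : G} {h : H} (hc : IsConj (x ^ k) (h : G)) : θ (r x) = θ h :=
  eq_of_isConj hθ (isConj_of_isConj hfus ((hr x).symm.trans hc))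

theorem pow_k_of_mem (hn : n = Nat.card H) (hk1 : k ≡ 1 [MOD n]) (h : H) : (h : G) ^ k = h := by
  apply pow_eq_self_of_orderOf_dvd _ hk1
  rw [hn, Subgroup.orderOf_coe]
  exact orderOf_dvd_natCard h

theorem classFunction_comp_r (hfus : ∀ x ∈ H, ∀ y ∈ H, IsConj x y → ∃ h ∈ H, h * x * h⁻¹ = y)
    {r : G → H} (hr : ∀ x, IsConj (x ^ k) (r x : G)) {θ : H → ℂ} (hθ : IsClassFunction H θ) :
    IsClassFunction G (fun x => θ (r x)) := by
  intro x a
  apply apply_r hfus hr hθ
  rw [conj_pow]
  have h1 : IsConj (x ^ k) (a * x ^ k * a⁻¹) := isConj_iff.mpr ⟨a, rfl⟩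
  exact h1.symm.trans (hr x)

theorem inner_int_comp_r (hmn : Nat.card G = m * n) (hcop : m.Coprime n) (hn : n = Nat.card H)
    (hk0 : m ∣ k) (hk1 : k ≡ 1 [MOD n])
    (hfus : ∀ x ∈ H, ∀ y ∈ H, IsConj x y → ∃ h ∈ H, h * x * h⁻¹ = y)
    (helem : ∀ (E : Subgroup G) (p : ℕ), p.Prime → Cfsg.IsElementary p E →
      Nat.card E ∣ Nat.card H → ∃ g : G, E.map (MulAut.conj g).toMonoidHom ≤ H)
    {r : G → H} (hr : ∀ x, IsConj (x ^ k) (r x : G)) {θ : H → ℂ} (hθ : IsCharacter H θ)
    {χ : G → ℂ} (hχ : IsCharacter G χ) : ∃ z : ℤ, classInner (fun x => θ (r x)) χ = z := by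
  have hθc := isClassFunction_of_char hθ
  have hmem : classInner (fun x => θ (r x)) χ ∈ (Int.castAddHom ℂ).range := by
    refine section_coeff _ hmn hcop hk0 hk1 (classFunction_comp_r hfus hr hθc) ?_ ?_ hχ
    · intro x
      apply apply_r hfus hr hθc
      rw [pow_part_pow_part hmn hk0 hk1]
      exact hr x
    · intro B _ _ ι hι hB hcard β hβ
      obtain ⟨p, hp, hB⟩ := hB
      have e : B ≃* ι.range := MonoidHom.ofInjective hι
      obtain ⟨g, hg⟩ := helem ι.range p hp (isElementary_of_mulEquiv e hB)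
        (by rw [← Nat.card_congr e.toEquiv, ← hn]; exact hcard)
      let f : B →* H := ((MulAut.conj g).toMonoidHom.comp ι).codRestrict H
        (fun b => hg ⟨ι b, ⟨b, rfl⟩, rfl⟩)
      have hf : (fun b => θ (r (ι b))) = fun b => θ (f b) := by
        funext b
        apply apply_r hfus hr hθc
        have h1 : (ι b) ^ k = ι b := by
          apply pow_eq_self_of_orderOf_dvd _ hk1
          rw [orderOf_injective ι hι]
          exact dvd_trans (orderOf_dvd_natCard b) hcard
        rw [h1]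
        exact isConj_iff.mpr ⟨g, rfl⟩
      rw [hf]
      obtain ⟨N, hN⟩ := classInner_char_char (isCharacter_comp_hom hθ f) (isCharacter_of_irr hβ)
      exact ⟨N, by rw [hN]; simp⟩
  obtain ⟨z, hz⟩ := hmem
  exact ⟨z, by rw [← hz]; simp⟩

end main

section delta

variable {H : Type u} [Group H] [Fintype H] [Fintype (IrrCharacter H)]

/-- `|C_H(h)|` times the indicator function of the class of `h`, written with characters -/
noncomputable def delta (h : H) : H → ℂ :=
  ∑ θ : IrrCharacter H, conj ((θ : H → ℂ) h) • (θ : H → ℂ)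

theorem delta_apply (h y : H) [Decidable (IsConj y h)] : delta h y =
    if IsConj y h then (Nat.card (Subgroup.centralizer ({y} : Set H)) : ℂ) else 0 := by
  rw [← Cfsg.Agent.Lib.Helper20.sum_irr_mul_conj y h]
  unfold delta
  simp only [Finset.sum_apply, Pi.smul_apply, smul_eq_mul]
  exact Finset.sum_congr rfl fun θ _ => mul_comm _ _

theorem sum_smul_delta {φ : H → ℂ} (hφ : IsClassFunction H φ) :
    ∑ h : H, φ h • delta h = (Nat.card H : ℂ) • φ := by
  conv_rhs => rw [Cfsg.Agent.Lib.Helper20.eq_sum_classInner_smul hφ]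
  unfold delta
  simp only [Finset.smul_sum, smul_smul]
  rw [Finset.sum_comm]
  apply Finset.sum_congr rfl
  intro θ _
  rw [← Finset.sum_smul]
  congr 1
  unfold classInner
  rw [← mul_assoc, mul_inv_cancel₀ card_ne_zero', one_mul]

end delta

section main2

variable {G : Type u} [Group G] [Fintype G] {H : Subgroup G} [Fintype H]
  [Fintype (IrrCharacter H)] {m n k : ℕ}

theorem a_int_pos (hmn : Nat.card G = m * n) (hcop : m.Coprime n) (hn : n = Nat.card H)
    (hk0 : m ∣ k) (hk1 : k ≡ 1 [MOD n])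
    (hfus : ∀ x ∈ H, ∀ y ∈ H, IsConj x y → ∃ h ∈ H, h * x * h⁻¹ = y)
    (helem : ∀ (E : Subgroup G) (p : ℕ), p.Prime → Cfsg.IsElementary p E →
      Nat.card E ∣ Nat.card H → ∃ g : G, E.map (MulAut.conj g).toMonoidHom ≤ H)
    {r : G → H} (hr : ∀ x, IsConj (x ^ k) (r x : G)) (h : H) :
    ∃ z : ℤ, 1 ≤ z ∧ classInner (fun x => delta h (r x)) (fun _ => 1) = z := by
  classical
  have h1 : classInner (fun x => delta h (r x)) (fun _ => 1) =
      ∑ θ : IrrCharacter H, conj ((θ : H → ℂ) h) *
        classInner (fun x => (θ : H → ℂ) (r x)) (fun _ => 1) := by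
    have h0 : (fun x => delta h (r x)) =
        ∑ θ : IrrCharacter H, conj ((θ : H → ℂ) h) • (fun x => (θ : H → ℂ) (r x)) := by
      funext x
      simp [delta]
    rw [h0, classInner_sum_left]
    simp only [classInner_smul_left]
  have hint : IsIntegral ℤ (classInner (fun x => delta h (r x)) (fun _ => 1)) := by
    rw [h1]
    apply IsIntegral.sum
    intro θ _
    obtain ⟨z, hz⟩ := inner_int_comp_r hmn hcop hn hk0 hk1 hfus helem hr
      (isCharacter_of_irr θ.2) (isCharacter_one (G := G))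
    rw [hz, ← char_apply_inv (isCharacter_of_irr θ.2)]
    exact (Cfsg.Agent.Lib.Helper20.isCharacter_isIntegral (isCharacter_of_irr θ.2) _).mul
      (isIntegral_intCast z)
  obtain ⟨N, hN⟩ : ∃ N : ℕ, N = ∑ x : G, if IsConj (r x) h then
      Nat.card (Subgroup.centralizer ({r x} : Set H)) else 0 := ⟨_, rfl⟩
  have h2 : classInner (fun x => delta h (r x)) (fun _ => 1) =
      (((N : ℚ) / (Nat.card G : ℚ) : ℚ) : ℂ) := by
    have h2a : ∑ x : G, delta h (r x) = (N : ℂ) := by
      rw [hN]
      simp only [delta_apply, Nat.cast_sum, Nat.cast_ite, Nat.cast_zero]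
    unfold classInner
    simp only [map_one, mul_one]
    rw [h2a]
    push_cast
    rw [div_eq_inv_mul]
  have hpos : 0 < N := by
    rw [hN]
    apply Finset.sum_pos'
    · intro x _
      exact Nat.zero_le _
    · refine ⟨(h : G), Finset.mem_univ _, ?_⟩
      have hc : IsConj (r (h : G)) h := by
        apply isConj_of_isConj hfus
        have := hr (h : G)
        rw [pow_k_of_mem hn hk1] at this
        exact this.symm
      rw [if_pos hc]
      exact Nat.card_pos
  rw [h2] at hint
  obtain ⟨z, hz⟩ := exists_int_of_isIntegral_rat hint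
  refine ⟨z, ?_, ?_⟩
  · have h3 : (0 : ℚ) < z := by
      rw [← hz]
      apply div_pos
      · exact_mod_cast hpos
      · exact_mod_cast Nat.card_pos
    have h4 : 0 < z := by exact_mod_cast h3
    omega
  · rw [h2, hz]
    simp

omit [Fintype (IrrCharacter H)] in
theorem card_mul_inner [Fintype (IrrCharacter H)] {r : G → H} {φ : H → ℂ}
    (hφ : IsClassFunction H φ) :
    (Nat.card H : ℂ) * classInner (fun x => φ (r x)) (fun _ => 1) =
      ∑ h : H, φ h * classInner (fun x => delta h (r x)) (fun _ => 1) := by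
  have h1 := sum_smul_delta hφ
  have h2 : (fun x => ((Nat.card H : ℂ) • φ) (r x)) = ∑ h : H, φ h • (fun x => delta h (r x)) := by
    rw [← h1]
    funext x
    simp
  have h3 : (fun x : G => ((Nat.card H : ℂ) • φ) (r x)) =
      (Nat.card H : ℂ) • (fun x => φ (r x)) := rfl
  rw [← classInner_smul_left, ← h3, h2, classInner_sum_left]
  simp only [classInner_smul_left]

theorem a_eq_one (hmn : Nat.card G = m * n) (hcop : m.Coprime n) (hn : n = Nat.card H)
    (hk0 : m ∣ k) (hk1 : k ≡ 1 [MOD n])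
    (hfus : ∀ x ∈ H, ∀ y ∈ H, IsConj x y → ∃ h ∈ H, h * x * h⁻¹ = y)
    (helem : ∀ (E : Subgroup G) (p : ℕ), p.Prime → Cfsg.IsElementary p E →
      Nat.card E ∣ Nat.card H → ∃ g : G, E.map (MulAut.conj g).toMonoidHom ≤ H)
    {r : G → H} (hr : ∀ x, IsConj (x ^ k) (r x : G)) (h : H) :
    classInner (fun x => delta h (r x)) (fun _ => 1) = 1 := by
  choose z hz1 hz using a_int_pos hmn hcop hn hk0 hk1 hfus helem hr
  have h1 := card_mul_inner (r := r) (φ := fun _ => 1) (fun _ _ => rfl)
  rw [classInner_irr_self isIrrCharacter_one, mul_one] at h1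
  simp only [one_mul, hz] at h1
  have h2 : ∑ h : H, (z h - 1) = 0 := by
    have : ((∑ h : H, (z h - 1) : ℤ) : ℂ) = 0 := by
      push_cast
      rw [Finset.sum_sub_distrib, ← h1]
      simp [Nat.card_eq_fintype_card]
    exact_mod_cast this
  have h3 := (Finset.sum_eq_zero_iff_of_nonneg (fun h _ => by linarith [hz1 h])).mp h2 h
    (Finset.mem_univ h)
  have h4 : z h = 1 := by linarith
  rw [hz h, h4]
  simp

theorem inner_comp_r (hmn : Nat.card G = m * n) (hcop : m.Coprime n) (hn : n = Nat.card H)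
    (hk0 : m ∣ k) (hk1 : k ≡ 1 [MOD n])
    (hfus : ∀ x ∈ H, ∀ y ∈ H, IsConj x y → ∃ h ∈ H, h * x * h⁻¹ = y)
    (helem : ∀ (E : Subgroup G) (p : ℕ), p.Prime → Cfsg.IsElementary p E →
      Nat.card E ∣ Nat.card H → ∃ g : G, E.map (MulAut.conj g).toMonoidHom ≤ H)
    {r : G → H} (hr : ∀ x, IsConj (x ^ k) (r x : G)) {φ : H → ℂ} (hφ : IsClassFunction H φ) :
    classInner (fun x => φ (r x)) (fun _ => 1) = classInner φ (fun _ => 1) := by
  have h1 := card_mul_inner (r := r) hφ
  simp only [a_eq_one hmn hcop hn hk0 hk1 hfus helem hr, mul_one] at h1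
  have h0 : (Nat.card H : ℂ) ≠ 0 := card_ne_zero'
  apply mul_left_cancel₀ h0
  rw [h1]
  unfold classInner
  rw [← mul_assoc, mul_inv_cancel₀ h0, one_mul]
  simp

theorem irr_comp_r (hmn : Nat.card G = m * n) (hcop : m.Coprime n) (hn : n = Nat.card H)
    (hk0 : m ∣ k) (hk1 : k ≡ 1 [MOD n])
    (hfus : ∀ x ∈ H, ∀ y ∈ H, IsConj x y → ∃ h ∈ H, h * x * h⁻¹ = y)
    (helem : ∀ (E : Subgroup G) (p : ℕ), p.Prime → Cfsg.IsElementary p E →
      Nat.card E ∣ Nat.card H → ∃ g : G, E.map (MulAut.conj g).toMonoidHom ≤ H)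
    {r : G → H} (hr : ∀ x, IsConj (x ^ k) (r x : G)) {θ : H → ℂ} (hθ : IsIrrCharacter H θ) :
    IsIrrCharacter G (fun x => θ (r x)) := by
  have hθc := isClassFunction_of_char (isCharacter_of_irr hθ)
  have hgen : IsGeneralizedCharacter G (fun x => θ (r x)) := by
    apply genChar_of_classInner_int (classFunction_comp_r hfus hr hθc)
    intro χ hχ
    exact inner_int_comp_r hmn hcop hn hk0 hk1 hfus helem hr (isCharacter_of_irr hθ)
      (isCharacter_of_irr hχ)
  have hnorm : classInner (fun x => θ (r x)) (fun x => θ (r x)) = 1 := by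
    have h1 : classInner (fun x => θ (r x)) (fun x => θ (r x)) =
        classInner (fun x => (fun y => θ y * conj (θ y)) (r x)) (fun _ => 1) := by
      unfold classInner
      simp
    have hφ : IsClassFunction H (fun y => θ y * conj (θ y)) := by
      intro g x
      change θ (x * g * x⁻¹) * conj (θ (x * g * x⁻¹)) = _
      rw [hθc g x]
    have h2 : classInner (fun y => θ y * conj (θ y)) (fun _ => 1) = classInner θ θ := by
      unfold classInner
      simp
    rw [h1, inner_comp_r hmn hcop hn hk0 hk1 hfus helem hr hφ, h2, classInner_irr_self hθ]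
  have h1 : θ (r 1) = θ 1 := by
    apply apply_r hfus hr hθc
    simp
  rcases genChar_norm_one hgen hnorm with h | h
  · exact h
  · exfalso
    obtain ⟨a, ha, ha1⟩ := Cfsg.Agent.Lib.Helper4.irr_apply_one h
    obtain ⟨b, hb, hb1⟩ := Cfsg.Agent.Lib.Helper4.irr_apply_one hθ
    have h2 : -(θ (r 1)) = a := ha1
    rw [h1, hb1] at h2
    have h3 : ((a + b : ℕ) : ℂ) = 0 := by
      push_cast
      rw [← h2]
      ring
    have h4 : a + b = 0 := by exact_mod_cast h3
    omega

end main2


/-- Let H be a subgroup of the finite group G whose order is coprime to its index. Suppose that elements of H conjugate in G are conjugate in H, and that every subgroup E of G that is elementary for some prime (in the sense used for Brauer's characterisation of characters) and whose order divides the order of H is conjugate to a subgroup of H. Then there is a normal subgroup K with K ⊔ H = ⊤ and K ⊓ H trivial. -/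
theorem result {G : Type*} [Group G] [Finite G] (H : Subgroup G) (hHall : Nat.Coprime (Nat.card H) H.index) (hfus : ∀ x ∈ H, ∀ y ∈ H, IsConj x y → ∃ h ∈ H, h * x * h⁻¹ = y) (helem : ∀ (E : Subgroup G) (p : ℕ), p.Prime → Cfsg.IsElementary p E → Nat.card E ∣ Nat.card H → ∃ g : G, E.map (MulAut.conj g).toMonoidHom ≤ H) : ∃ K : Subgroup G, K.Normal ∧ K ⊔ H = ⊤ ∧ K ⊓ H = ⊥ := by
  classical
  have := Fintype.ofFinite G
  have := finite_irrCharacter (G := H)
  have := Fintype.ofFinite (IrrCharacter H)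
  have hmn : Nat.card G = H.index * Nat.card H := (Subgroup.index_mul_card H).symm
  have hcop : (H.index).Coprime (Nat.card H) := hHall.symm
  obtain ⟨k, hk0, hk1⟩ := exists_part_exponent hcop
  obtain ⟨r, hr⟩ := exists_retraction hmn rfl hk0 helem
  have hirr : ∀ θ : IrrCharacter H, IsIrrCharacter G (fun x => (θ : H → ℂ) (r x)) :=
    fun θ => irr_comp_r hmn hcop rfl hk0 hk1 hfus helem hr θ.2
  have hKn : (⨅ θ : IrrCharacter H, Cfsg.Agent.Lib.Helper82.charKer _
      (isCharacter_of_irr (hirr θ))).Normal := Subgroup.normal_iInf_normal (fun θ => inferInstance)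
  have hr1 : r 1 = 1 := by
    have h1 := hr 1
    rw [one_pow] at h1
    exact Subtype.ext (isConj_one_right.mp h1)
  have hK : ∀ g : G, g ∈ (⨅ θ : IrrCharacter H, Cfsg.Agent.Lib.Helper82.charKer _
      (isCharacter_of_irr (hirr θ))) ↔ r g = 1 := by
    intro g
    constructor
    · intro hg
      have hg' : ∀ θ : IrrCharacter H, (θ : H → ℂ) (r g) = (θ : H → ℂ) 1 := by
        intro θ
        have h1 := (Subgroup.mem_iInf.mp hg) θ
        rw [Cfsg.Agent.Lib.Helper82.mem_charKer] at h1
        simpa [hr1] using h1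
      have h1 : delta (1 : H) (r g) = delta (1 : H) 1 := by
        unfold delta
        simp only [Finset.sum_apply, Pi.smul_apply, hg']
      rw [delta_apply, delta_apply, if_pos (IsConj.refl 1)] at h1
      by_contra hne
      rw [if_neg (by rwa [isConj_one_left])] at h1
      exact (Nat.cast_ne_zero.mpr Nat.card_pos.ne') h1.symm
    · intro hg
      rw [Subgroup.mem_iInf]
      intro θ
      rw [Cfsg.Agent.Lib.Helper82.mem_charKer]
      simp only [hg, hr1]
  have hdisj : (⨅ θ : IrrCharacter H, Cfsg.Agent.Lib.Helper82.charKer _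
      (isCharacter_of_irr (hirr θ))) ⊓ H = ⊥ := by
    rw [eq_bot_iff]
    rintro h ⟨hhK, hhH⟩
    have h1 := (hK h).mp hhK
    have h2 := hr h
    have h3 := pow_k_of_mem rfl hk1 (⟨h, hhH⟩ : H)
    simp only at h3
    rw [h3, h1] at h2
    exact isConj_one_left.mp h2
  have hcard : Nat.card (⨅ θ : IrrCharacter H, Cfsg.Agent.Lib.Helper82.charKer _
      (isCharacter_of_irr (hirr θ)) : Subgroup G) * Nat.card H = Nat.card G := by
    have h1 := a_eq_one hmn hcop rfl hk0 hk1 hfus helem hr (1 : H)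
    unfold classInner at h1
    have h2 : ∀ x : G, delta (1 : H) (r x) =
        if x ∈ (⨅ θ : IrrCharacter H, Cfsg.Agent.Lib.Helper82.charKer _
          (isCharacter_of_irr (hirr θ))) then (Nat.card H : ℂ) else 0 := by
      intro x
      rw [delta_apply]
      split_ifs with ha hb hb
      · rw [(hK x).mp hb]
        have h3 : Subgroup.centralizer ({1} : Set H) = ⊤ := by
          ext y
          simp [Subgroup.mem_centralizer_iff]
        rw [h3, Subgroup.card_top]
      · exact absurd ((hK x).mpr (isConj_one_left.mp ha)) hb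
      · exact absurd (isConj_one_left.mpr ((hK x).mp hb)) ha
      · rfl
    simp only [h2, map_one, mul_one] at h1
    rw [← Finset.sum_filter, Finset.sum_const, nsmul_eq_mul] at h1
    have h3 : (Finset.univ.filter (fun x => x ∈ (⨅ θ : IrrCharacter H,
        Cfsg.Agent.Lib.Helper82.charKer _ (isCharacter_of_irr (hirr θ))))).card =
        Nat.card (⨅ θ : IrrCharacter H, Cfsg.Agent.Lib.Helper82.charKer _
          (isCharacter_of_irr (hirr θ)) : Subgroup G) := by
      rw [Nat.card_eq_fintype_card, Fintype.card_subtype]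
    rw [h3] at h1
    have h0 : (Nat.card G : ℂ) ≠ 0 := card_ne_zero'
    have h4 : ((Nat.card (⨅ θ : IrrCharacter H, Cfsg.Agent.Lib.Helper82.charKer _
      (isCharacter_of_irr (hirr θ)) : Subgroup G) * Nat.card H : ℕ) : ℂ) = (Nat.card G : ℂ) := by
      push_cast
      field_simp at h1
      exact h1
    exact_mod_cast h4
  have hc := Subgroup.isComplement'_of_card_mul_and_disjoint hcard (disjoint_iff.mpr hdisj)
  exact ⟨_, hKn, hc.sup_eq_top, hdisj⟩

end Cfsg.Agent.S0877
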