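import Cfsg.Statements.S0879
-- import your own Cfsg.Agent.* helpers here

set_option autoImplicit false
open Cfsg

namespace Cfsg.Agent.S0879

/-- Let G be a Zassenhaus group on the finite set Ω and E the stabilizer of two distinct points a, b. Then an element outside the normalizer of E conjugates no non-identity element of E into E, and E has index 2 in its normalizer. -/
theorem result {G Ω : Type*} [Group G] [Finite G] [MulAction G Ω] [Fintype Ω] (hZ : Cfsg.IsZassenhausGroup G Ω) {a b : Ω} (hab : a ≠ b) : (∀ g : G, g ∉ Subgroup.normalizer ((MulAction.stabilizer G a ⊓ MulAction.stabilizer G b : Subgroup G) : Set G) → ∀ x ∈ (MulAction.stabilizer G a ⊓ MulAction.stabilizer G b : Subgroup G), g * x * g⁻¹ ∈ (MulAction.stabilizer G a ⊓ MulAction.stabilizer G b : Subgroup G) → x = 1) ∧ ((MulAction.stabilizer G a ⊓ MulAction.stabilizer G b : Subgroup G).subgroupOf (Subgroup.normalizer ((MulAction.stabilizer G a ⊓ MulAction.stabilizer G b : Subgroup G) : Set G))).index = 2 :=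 by
  classical
  obtain ⟨hfaith, h2t, h3, ⟨g0, hg0, a0, b0, hab0, hga0, hgb0⟩, -⟩ := hZ
  rw [MulAction.is_two_pretransitive_iff] at h2t
  set E : Subgroup G := MulAction.stabilizer G a ⊓ MulAction.stabilizer G b with hE
  have memE : ∀ x : G, x ∈ E ↔ x • a = a ∧ x • b = b := by
    intro x
    rw [hE, Subgroup.mem_inf, MulAction.mem_stabilizer_iff, MulAction.mem_stabilizer_iff]
  -- fixed points of nonidentity elements of E
  have fixE : ∀ x ∈ E, x ≠ 1 → ∀ c : Ω, x • c = c → c = a ∨ c = b := by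
    intro x hx hx1 c hc
    by_contra hcon
    push Not at hcon
    exact hx1 (h3 x a b c hab (Ne.symm hcon.2) (Ne.symm hcon.1) ((memE x).mp hx).1 ((memE x).mp hx).2 hc)
  -- E is nontrivial
  obtain ⟨k, hka, hkb⟩ := h2t hab0 hab
  have hx0E : k * g0 * k⁻¹ ∈ E := by
    rw [memE]
    constructor
    · rw [mul_smul, mul_smul, ← hka, inv_smul_smul, hga0]
    · rw [mul_smul, mul_smul, ← hkb, inv_smul_smul, hgb0]
  have hx01 : k * g0 * k⁻¹ ≠ 1 := by
    intro h
    apply hg0
    have := congrArg (fun z => k⁻¹ * z * k) h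
    simpa [mul_assoc] using this
  -- setwise stabilizer elements normalize E
  have norm_of : ∀ g : G, ((g • a = a ∧ g • b = b) ∨ (g • a = b ∧ g • b = a)) →
      ∀ x ∈ E, g * x * g⁻¹ ∈ E := by
    intro g hg x hx
    obtain ⟨hxa, hxb⟩ := (memE x).mp hx
    rw [memE]
    rcases hg with ⟨h1, h2⟩ | ⟨h1, h2⟩
    · constructor
      · rw [mul_smul, mul_smul, inv_smul_eq_iff.mpr h1.symm, hxa, h1]
      · rw [mul_smul, mul_smul, inv_smul_eq_iff.mpr h2.symm, hxb, h2]
    · constructor
      · rw [mul_smul, mul_smul, inv_smul_eq_iff.mpr h2.symm, hxb, h2]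
      · rw [mul_smul, mul_smul, inv_smul_eq_iff.mpr h1.symm, hxa, h1]
  have inv_of : ∀ g : G, ((g • a = a ∧ g • b = b) ∨ (g • a = b ∧ g • b = a)) →
      ((g⁻¹ • a = a ∧ g⁻¹ • b = b) ∨ (g⁻¹ • a = b ∧ g⁻¹ • b = a)) := by
    intro g hg
    rcases hg with ⟨h1, h2⟩ | ⟨h1, h2⟩
    · left; exact ⟨inv_smul_eq_iff.mpr h1.symm, inv_smul_eq_iff.mpr h2.symm⟩
    · right; exact ⟨inv_smul_eq_iff.mpr h2.symm, inv_smul_eq_iff.mpr h1.symm⟩
  have mem_norm_of : ∀ g : G, ((g • a = a ∧ g • b = b) ∨ (g • a = b ∧ g • b = a)) →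
      g ∈ Subgroup.normalizer (E : Set G) := by
    intro g hg
    rw [Subgroup.mem_normalizer_iff]
    intro x
    constructor
    · exact norm_of g hg x
    · intro h
      have := norm_of g⁻¹ (inv_of g hg) _ h
      simpa [mul_assoc] using this
  -- conjugating a nonidentity element of E into E forces setwise stabilization
  have setwise : ∀ g : G, ∀ x ∈ E, x ≠ 1 → g * x * g⁻¹ ∈ E →
      ((g • a = a ∧ g • b = b) ∨ (g • a = b ∧ g • b = a)) := by
    intro g x hx hx1 hgx
    obtain ⟨hxa, hxb⟩ := (memE x).mp hx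
    have hne : g * x * g⁻¹ ≠ 1 := by
      intro h
      apply hx1
      have := congrArg (fun z => g⁻¹ * z * g) h
      simpa [mul_assoc] using this
    have f1 : (g * x * g⁻¹) • (g • a) = g • a := by
      rw [mul_smul, mul_smul, inv_smul_smul, hxa]
    have f2 : (g * x * g⁻¹) • (g • b) = g • b := by
      rw [mul_smul, mul_smul, inv_smul_smul, hxb]
    have hgab : g • a ≠ g • b := fun h => hab (MulAction.injective g h)
    rcases fixE _ hgx hne _ f1 with h1 | h1 <;> rcases fixE _ hgx hne _ f2 with h2 | h2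
    · exact absurd (h1.trans h2.symm) hgab
    · left; exact ⟨h1, h2⟩
    · right; exact ⟨h1, h2⟩
    · exact absurd (h1.trans h2.symm) hgab
  refine ⟨?_, ?_⟩
  · intro g hg x hx hgx
    by_contra hx1
    exact hg (mem_norm_of g (setwise g x hx hx1 hgx))
  · obtain ⟨t, hta, htb⟩ := h2t hab (Ne.symm hab)
    have htN : t ∈ Subgroup.normalizer (E : Set G) := mem_norm_of t (Or.inr ⟨hta, htb⟩)
    rw [Subgroup.index_eq_two_iff]
    refine ⟨⟨t, htN⟩, ?_⟩
    intro g
    have hg := setwise (g : G) _ hx0E hx01 ((Subgroup.mem_normalizer_iff.mp g.2 _).mp hx0E)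
    simp only [Subgroup.mem_subgroupOf, Subgroup.coe_mul, memE]
    rcases hg with ⟨h1, h2⟩ | ⟨h1, h2⟩
    · right
      refine ⟨⟨h1, h2⟩, ?_⟩
      rintro ⟨h3', -⟩
      rw [mul_smul, hta, h2] at h3'
      exact hab h3'.symm
    · left
      refine ⟨?_, ?_⟩
      · constructor
        · rw [mul_smul, hta, h2]
        · rw [mul_smul, htb, h1]
      · rintro ⟨h3', -⟩
        rw [h1] at h3'
        exact hab h3'.symm

end Cfsg.Agent.S0879
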