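import Cfsg.Statements.S0880
import Cfsg.Agent.Lib.Helper54.ZassCount

set_option autoImplicit false
open Cfsg

namespace Cfsg.Agent.S0880

/-- Let G be a finite simple Zassenhaus group on Ω with n points whose two-point stabilizer E has odd order less than n - 2. Then there are two elements of G, each fixing no point of Ω, that are not conjugate. -/
theorem result {G Ω : Type*} [Group G] [Finite G] [MulAction G Ω] [Fintype Ω] (hZ : Cfsg.IsZassenhausGroup G Ω) {a b : Ω} (hab : a ≠ b) [IsSimpleGroup G] (hodd : Odd (Nat.card ↥(MulAction.stabilizer G a ⊓ MulAction.stabilizer G b : Subgroup G))) (hlt : Nat.card ↥(MulAction.stabilizer G a ⊓ MulAction.stabilizer G b : Subgroup G) < Fintype.card Ω - 2) : ∃ x y : G, (∀ c : Ω, x • c ≠ c) ∧ (∀ c : Ω, y • c ≠ c) ∧ ¬ IsConj x y := by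
  classical
  obtain ⟨hF, h2, h3, ⟨g0, hg0, a0, b0, hab0, h0a, h0b⟩, hreg⟩ := hZ
  obtain ⟨e, he⟩ : ∃ e, e = Nat.card ↥(MulAction.stabilizer G a ⊓ MulAction.stabilizer G b : Subgroup G) :=
    ⟨_, rfl⟩
  rw [← he] at hodd hlt
  obtain ⟨n, hn⟩ : ∃ n, n = Fintype.card Ω := ⟨_, rfl⟩
  rw [← hn] at hlt
  have hG := Lib.Helper54.Zass.card_group h2 hab
  have hFc := Lib.Helper54.Zass.card_fpf h2 h3 hab
  rw [← he, ← hn] at hG
  rw [← hn] at hFc
  obtain ⟨F, hFdef⟩ : ∃ F, F = Nat.card {g : G // ∀ c : Ω, g • c ≠ c} := ⟨_, rfl⟩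
  rw [← hFdef] at hFc
  -- e > 1
  have he1 : 1 < e := by
    rw [he, ← Lib.Helper54.Zass.card_stab2_eq h2 hab hab0]
    rw [Finite.one_lt_card_iff_nontrivial]
    refine ⟨⟨⟨g0, ?_⟩, 1, ?_⟩⟩
    · exact Subgroup.mem_inf.mpr ⟨h0a, h0b⟩
    · intro h
      exact hg0 (congrArg Subtype.val h)
  obtain ⟨k, hk⟩ := hodd
  obtain ⟨h, hh⟩ : ∃ h, n = h + 1 := ⟨n - 1, by omega⟩
  have hFval : F = h * (k * (h + 1) + 1) := by
    rw [hG] at hFc
    subst hh hk
    have e1 : h + 1 - 1 = h := by omega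
    obtain ⟨j, rfl⟩ : ∃ j, h = j + 1 := ⟨h - 1, by omega⟩
    have e2 : j + 1 + 1 - 2 = j := by omega
    rw [e1, e2] at hFc
    nlinarith
  by_contra hcon
  push Not at hcon
  have hFpos : 0 < F := by
    rw [hFval]
    have : 0 < h := by omega
    positivity
  obtain ⟨⟨x, hx⟩⟩ : Nonempty {g : G // ∀ c : Ω, g • c ≠ c} := by
    rw [hFdef] at hFpos
    exact (Nat.card_pos_iff.mp hFpos).1
  have horb : MulAction.orbit (ConjAct G) x = {g : G | ∀ c : Ω, g • c ≠ c} := by
    ext g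
    rw [ConjAct.mem_orbit_conjAct]
    constructor
    · intro hgx c hc
      obtain ⟨t, ht⟩ := isConj_iff.mp hgx.symm
      apply hx (t⁻¹ • c)
      rw [← ht, mul_smul, mul_smul] at hc
      exact eq_inv_smul_iff.mpr hc
    · intro hg
      exact hcon g x hg hx
  have hdvd : F ∣ Nat.card G := by
    have h1 : F = (MulAction.stabilizer (ConjAct G) x).index := by
      rw [MulAction.index_stabilizer, horb, hFdef]
      rfl
    rw [h1]
    exact Subgroup.index_dvd_card _
  rw [hG, hFval, hh] at hdvd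
  have e1 : h + 1 - 1 = h := by omega
  rw [e1] at hdvd
  have hd2 : (k * (h + 1) + 1) ∣ (h + 1) * e := by
    have : (h + 1) * h * e = h * ((h + 1) * e) := by ring
    rw [this] at hdvd
    exact Nat.dvd_of_mul_dvd_mul_left (by omega) hdvd
  have hcop : Nat.Coprime (k * (h + 1) + 1) (h + 1) := by
    simp
  have hd3 := hcop.dvd_of_dvd_mul_left hd2
  have hle := Nat.le_of_dvd (by omega) hd3
  have hk1 : 1 ≤ k := by omega
  have : k * 4 ≤ k * (h + 1) := Nat.mul_le_mul_left k (by omega)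
  omega

end Cfsg.Agent.S0880
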