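import Cfsg.Statements.S0890
import Cfsg.Agent.Lib.Helper79.Berger

set_option autoImplicit false
open Cfsg

namespace Cfsg.Agent.S0890

/-- Let L ≤ H < G with L normal in G, H a maximal subgroup and G / L solvable. Let ϑ be an irreducible character of H whose restriction to L is irreducible and whose induction χ to G is irreducible. Then there is a normal subgroup M of G containing L such that the restriction of χ to M is not a natural-number multiple of a single irreducible character of M. -/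
theorem result {G : Type*} [Group G] [Fintype G] (L H : Subgroup G) [L.Normal] (hLH : L ≤ H) (hmax : IsCoatom H) (hsolv : Group.IsSolvable (G ⧸ L)) (ϑ : H → ℂ) (hϑ : Cfsg.IsIrrCharacter H ϑ) (hϑL : Cfsg.IsIrrCharacter L (fun x : L => ϑ ⟨(x : G), hLH x.2⟩)) (hind : Cfsg.IsIrrCharacter G (Cfsg.indFun H ϑ)) : ∃ M : Subgroup G, M.Normal ∧ L ≤ M ∧ ¬ ∃ (φ : M → ℂ) (e : ℕ), Cfsg.IsIrrCharacter M φ ∧ (fun m : M => Cfsg.indFun H ϑ m) = (e : ℂ) • φ := by
  by_contra hno
  have hqp : ∀ M : Subgroup G, M.Normal → L ≤ M → ∃ (φ : M → ℂ) (e : ℕ),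
      Cfsg.IsIrrCharacter M φ ∧ (fun m : M => Cfsg.indFun H ϑ m) = (e : ℂ) • φ := by
    intro M hM hLM
    by_contra h
    exact hno ⟨M, hM, hLM, h⟩
  exact Cfsg.Agent.Lib.Helper79.berger_relative L hsolv hind hqp H hLH hmax.1 ϑ
    (Cfsg.Agent.Lib.Helper20.isCharacter_of_isIrrCharacter hϑ) rfl

end Cfsg.Agent.S0890
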