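import Cfsg.Statements.S0892
import Cfsg.Agent.Lib.Helper43.Alt4
import Cfsg.Agent.Lib.Helper43.AltInd

set_option autoImplicit false
open Cfsg

namespace Cfsg.Agent.S0892

/-- Let n ≥ 4 with n ≠ 6 and n ≠ 7, and let Γ be a finite group with a subgroup Z contained in both the centre and the commutator subgroup of Γ such that Γ / Z is isomorphic to the alternating group on n letters. Then Z has order at most 2. -/
theorem result (n : ℕ) (hn : 4 ≤ n) (h6 : n ≠ 6) (h7 : n ≠ 7) {Γ : Type*} [Group Γ] [Finite Γ] (Z : Subgroup Γ) [Z.Normal] (hZc : Z ≤ Subgroup.center Γ) (hZd : Z ≤ commutator Γ) (e : Γ ⧸ Z ≃* alternatingGroup (Fin n)) : Nat.card Z ≤ 2 := by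
  have hall : ∀ m, 8 ≤ m → Cfsg.Agent.Lib.Helper43.AI.Bd.{u_1} (alternatingGroup (Fin m)) 2 := by
    intro m hm
    induction m, hm using Nat.le_induction with
    | base => exact fun Γ _ _ σ hσ => Cfsg.Agent.Lib.Helper43.AM.upper8 σ hσ
    | succ k hk ih => exact Cfsg.Agent.Lib.Helper43.AI.step k 2 (by omega) ih
  have hB : Cfsg.Agent.Lib.Helper43.AI.Bd.{u_1} (alternatingGroup (Fin n)) 2 := by
    rcases Nat.lt_or_ge n 8 with h | h
    · have h45 : n = 4 ∨ n = 5 := by omega
      rcases h45 with rfl | rfl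
      · exact fun Γ _ _ σ hσ => Cfsg.Agent.Lib.Helper43.AM.upper4 σ hσ
      · exact fun Γ _ _ σ hσ => Cfsg.Agent.Lib.Helper43.AM.upper5 σ hσ
    · exact hall n h
  have hker : (e.toMonoidHom.comp (QuotientGroup.mk' Z)).ker = Z := by
    ext x
    rw [MonoidHom.mem_ker]
    show e (QuotientGroup.mk' Z x) = 1 ↔ _
    rw [MulEquiv.map_eq_one_iff, ← MonoidHom.mem_ker, QuotientGroup.ker_mk']
  have hσ : IsStemExtension (e.toMonoidHom.comp (QuotientGroup.mk' Z)) :=
    ⟨e.surjective.comp (QuotientGroup.mk'_surjective Z), by rw [hker]; exact hZc, by rw [hker]; exact hZd⟩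
  have := hB Γ _ hσ
  rwa [hker] at this

end Cfsg.Agent.S0892
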