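import Cfsg.Statements.S0893
import Cfsg.Agent.Lib.Helper5.ExtraChar
import Cfsg.Agent.Lib.Helper82.Constituent
import Cfsg.Agent.Lib.Helper82.Linear
import Cfsg.Agent.Lib.Helper19.IndChar

set_option autoImplicit false
open Cfsg

namespace Cfsg.Agent.S0893

open Cfsg.Agent.Lib.Helper5 Cfsg.Agent.Lib.Helper82

/-- Let P be an extraspecial p-group of order p ^ (2 * n + 1), A an abelian subgroup of order p ^ (n + 1), and λ a character of A of degree 1 that is not identically 1 on the elements of A lying in the centre of P. Then the function induced from λ to P is an irreducible character of P and vanishes at every element outside the centre. -/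
theorem result {P : Type*} [Group P] [Fintype P] (p n : ℕ) [Fact p.Prime] (hP : Cfsg.IsExtraspecial p P) (hcard : Nat.card P = p ^ (2 * n + 1)) (A : Subgroup P) (hab : ∀ a ∈ A, ∀ b ∈ A, a * b = b * a) (hA : Nat.card A = p ^ (n + 1)) (lam : A → ℂ) (hlam : Cfsg.IsCharacter A lam ∧ lam 1 = 1) (hZ : ∃ a : A, (a : P) ∈ Subgroup.center P ∧ lam a ≠ 1) : Cfsg.IsIrrCharacter P (Cfsg.indFun A lam) ∧ ∀ x : P, x ∉ Subgroup.center P → Cfsg.indFun A lam x = 0 := by
  classical
  have hp : p.Prime := Fact.out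
  obtain ⟨⟨_, _, hc⟩, hZc⟩ := hP
  obtain ⟨hl, hl1⟩ := hlam
  have hφ : IsCharacter P (Cfsg.indFun A lam) := Cfsg.Agent.Lib.Helper19.isCharacter_indFun A lam hl
  have hidx : A.index = p ^ n := by
    have := A.card_mul_index
    rw [hA, hcard] at this
    have h4 : p ^ (n + 1) * A.index = p ^ (n + 1) * p ^ n := by
      rw [this]; ring
    exact Nat.eq_of_mul_eq_mul_left (pow_pos hp.pos _) h4
  have hdl : charDegree lam = 1 := by
    have := isChar_one_eq hl
    rw [hl1] at this
    exact_mod_cast this.symm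
  have hdφ : charDegree (Cfsg.indFun A lam) = p ^ n := by
    rw [charDegree_indFun A hl, hidx, hdl, mul_one]
  have hφ1 : Cfsg.indFun A lam 1 ≠ 0 := by
    rw [isChar_one_eq hφ, hdφ]
    exact_mod_cast (pow_pos hp.pos n).ne'
  obtain ⟨χ, hχ⟩ := exists_irr_constituent hφ hφ1
  have hχ1 : (χ : P → ℂ) 1 ≠ 1 := by
    intro h1
    rw [Cfsg.Agent.Lib.Helper19.frobenius_reciprocity A lam _
      (isChar_isClassFunction (isIrr_isChar χ.2))] at hχ
    have hr : IsIrrCharacter A (fun a : A => (χ : P → ℂ) a) :=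
      isChar_linear_isIrr (Cfsg.Agent.Lib.Helper20.isCharacter_restrict (isIrr_isChar χ.2) A) h1
    have hli : IsIrrCharacter A lam := isChar_linear_isIrr hl hl1
    have heq : lam = fun a : A => (χ : P → ℂ) a := by
      by_contra hne
      exact hχ (Cfsg.Agent.Lib.Helper20.classInner_irr_ne hli hr hne)
    obtain ⟨a, ha, hla⟩ := hZ
    apply hla
    rw [heq]
    exact isChar_linear_commutator (isIrr_isChar χ.2) h1 (hc ▸ ha)
  have hdχ := es_degree hp hc hZc hcard χ.2 hχ1
  have heq : Cfsg.indFun A lam = χ :=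
    eq_of_constituent_of_degree_le hφ χ.2 hχ (by rw [hdφ, hdχ])
  rw [heq]
  exact ⟨χ.2, fun x hx => es_vanish hp hc hZc χ.2 hχ1 hx⟩

end Cfsg.Agent.S0893
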