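import Cfsg.Statements.S0894
import Cfsg.Agent.Lib.Helper5.ExtraChar

set_option autoImplicit false
open Cfsg

namespace Cfsg.Agent.S0894

open Cfsg.Agent.Lib.Helper5 Cfsg.Agent.Lib.Helper82

/-- Let P be an extraspecial p-group of order p ^ (2 * n + 1). Then every irreducible character of P has degree 1 or p ^ n, and exactly p - 1 of them have degree p ^ n. -/
theorem result {P : Type*} [Group P] [Finite P] (p n : ℕ) [Fact p.Prime] (hP : Cfsg.IsExtraspecial p P) (hcard : Nat.card P = p ^ (2 * n + 1)) : (∀ χ : Cfsg.IrrCharacter P, (χ : P → ℂ) 1 = 1 ∨ (χ : P → ℂ) 1 = (p : ℂ) ^ n) ∧ Nat.card {χ : Cfsg.IrrCharacter P // (χ : P → ℂ) 1 = (p : ℂ) ^ n} = p - 1 := by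
  classical
  have hp : p.Prime := Fact.out
  obtain ⟨⟨_, _, hc⟩, hZ⟩ := hP
  have hn := es_n_pos hp hc hZ hcard
  have := Cfsg.Agent.Lib.Helper82.finite_irrCharacter (G := P)
  have := Fintype.ofFinite (IrrCharacter P)
  have hdeg : ∀ χ : IrrCharacter P, (χ : P → ℂ) 1 ≠ 1 → charDegree (χ : P → ℂ) = p ^ n :=
    fun χ h => es_degree hp hc hZ hcard χ.2 h
  have hpn : (p : ℂ) ^ n ≠ 1 := by
    have : p ^ n ≠ 1 := (Nat.one_lt_pow hn.ne' hp.one_lt).ne'
    exact_mod_cast this
  have hiff : ∀ χ : IrrCharacter P, (χ : P → ℂ) 1 = (p : ℂ) ^ n ↔ (χ : P → ℂ) 1 ≠ 1 := by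
    intro χ
    constructor
    · intro h
      rw [h]
      exact hpn
    · intro h
      rw [isChar_one_eq (isIrr_isChar χ.2), hdeg χ h]
      push_cast
      rfl
  refine ⟨fun χ => ?_, ?_⟩
  · by_cases h : (χ : P → ℂ) 1 = 1
    · exact Or.inl h
    · exact Or.inr ((hiff χ).mpr h)
  · have hsum := sum_sq_charDegree (G := P)
    rw [← Finset.sum_filter_add_sum_filter_not Finset.univ (fun χ : IrrCharacter P => (χ : P → ℂ) 1 = 1)]
      at hsum
    have h1 : ∑ χ ∈ Finset.univ.filter (fun χ : IrrCharacter P => (χ : P → ℂ) 1 = 1),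
        charDegree (χ : P → ℂ) ^ 2 = (commutator P).index := by
      rw [← card_linear_eq_index, Nat.card_eq_fintype_card, Fintype.card_subtype,
        Finset.card_eq_sum_ones]
      apply Finset.sum_congr rfl
      intro χ hχ
      have h2 : (χ : P → ℂ) 1 = 1 := (Finset.mem_filter.mp hχ).2
      rw [isChar_one_eq (isIrr_isChar χ.2)] at h2
      have h3 : charDegree (χ : P → ℂ) = 1 := by exact_mod_cast h2
      rw [h3]; rfl
    have h2 : ∑ χ ∈ Finset.univ.filter (fun χ : IrrCharacter P => ¬ (χ : P → ℂ) 1 = 1),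
        charDegree (χ : P → ℂ) ^ 2 =
        (Finset.univ.filter (fun χ : IrrCharacter P => ¬ (χ : P → ℂ) 1 = 1)).card * (p ^ n) ^ 2 := by
      rw [Finset.card_eq_sum_ones, Finset.sum_mul]
      apply Finset.sum_congr rfl
      intro χ hχ
      rw [hdeg χ (Finset.mem_filter.mp hχ).2, one_mul]
    have h3 : (commutator P).index = (p ^ n) ^ 2 := by
      have := (commutator P).card_mul_index
      rw [hc, hZ, hcard] at this
      have h4 : p * (Subgroup.center P).index = p * (p ^ n) ^ 2 := by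
        rw [this]; ring
      rw [hc]
      exact Nat.eq_of_mul_eq_mul_left hp.pos h4
    rw [h1, h2, h3, hcard] at hsum
    have h4 : Nat.card {χ : IrrCharacter P // (χ : P → ℂ) 1 = (p : ℂ) ^ n} =
        (Finset.univ.filter (fun χ : IrrCharacter P => ¬ (χ : P → ℂ) 1 = 1)).card := by
      rw [Nat.card_congr (Equiv.subtypeEquivRight hiff), Nat.card_eq_fintype_card,
        Fintype.card_subtype]
    rw [h4]
    set k := (Finset.univ.filter (fun χ : IrrCharacter P => ¬ (χ : P → ℂ) 1 = 1)).card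
    have h5 : (1 + k) * (p ^ n) ^ 2 = p * (p ^ n) ^ 2 := by
      rw [add_mul, one_mul, hsum]; ring
    have h6 : 1 + k = p := Nat.eq_of_mul_eq_mul_right (pow_pos (pow_pos hp.pos n) 2) h5
    omega

end Cfsg.Agent.S0894
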