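import Cfsg.Statements.S0896
import Cfsg.Agent.Lib.Helper19.Dade2

set_option autoImplicit false
open scoped ComplexConjugate
open Cfsg

namespace Cfsg.Agent.S0896

/-- Let N be a normal subgroup of the finite group G with the index of N a power of the prime p, and ϑ an irreducible character of N invariant under conjugation by G. Then there are a p-elementary subgroup E of G with E ⊔ N = ⊤ and an irreducible character φ of the subgroup E ⊓ N, invariant under conjugation by E, such that the inner product of the restriction of ϑ to E ⊓ N with φ is an integer not divisible by p. -/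
theorem result {G : Type*} [Group G] [Fintype G] (p : ℕ) (hp : p.Prime) (N : Subgroup G) [hN : N.Normal] (hind : ∃ k : ℕ, N.index = p ^ k) (ϑ : N → ℂ) (hϑ : Cfsg.IsIrrCharacter N ϑ) (hinv : ∀ (g : G) (n : N), ϑ ⟨g * n * g⁻¹, hN.conj_mem (n : G) n.2 g⟩ = ϑ n) : ∃ (E : Subgroup G) (φ : ↥(E ⊓ N) → ℂ), Cfsg.IsElementary p E ∧ E ⊔ N = ⊤ ∧ Cfsg.IsIrrCharacter ↥(E ⊓ N) φ ∧ (∀ (g : G) (hg : g ∈ E) (x : ↥(E ⊓ N)), φ ⟨g * x * g⁻¹, ⟨(E.mul_mem (E.mul_mem hg x.2.1) (E.inv_mem hg)), hN.conj_mem (x : G) x.2.2 g⟩⟩ = φ x) ∧ ∃ m : ℕ, ¬ p ∣ m ∧ (Nat.card ↥(E ⊓ N) : ℂ)⁻¹ * ∑ᶠ x : ↥(E ⊓ N), ϑ ⟨(x : G), x.2.2⟩ * conj (φ x) = (m : ℂ) := by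
  classical
  obtain ⟨E, ψ, instD, a, hel, hψ, htop, hpa, ha⟩ :=
    Cfsg.Agent.Lib.Helper19.exists_elementary_sup_top p hp N hind ϑ hϑ hinv
  haveI : Fintype E := Fintype.ofFinite _
  have hD : (N.subgroupOf E).Normal := inferInstance
  have hindD : ∃ k : ℕ, (N.subgroupOf E).index = p ^ k := by
    obtain ⟨k, hk⟩ := hind
    refine ⟨k, ?_⟩
    have := Subgroup.relIndex_mul_index (le_sup_right : N ≤ E ⊔ N)
    rw [Subgroup.relIndex_sup_right, htop, Subgroup.index_top, mul_one, hk] at this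
    exact this
  have hΘ : Cfsg.IsCharacter ↥(N.subgroupOf E) (Cfsg.Agent.Lib.Helper19.resSub E N ϑ) :=
    Cfsg.Agent.Lib.Helper20.isCharacter_comp_hom
      (Cfsg.Agent.Lib.Helper20.isCharacter_of_isIrrCharacter hϑ)
      ((Subgroup.inclusion (inf_le_right : E ⊓ N ≤ N)).comp
        (Cfsg.Agent.Lib.Helper19.infEquiv E N).symm.toMonoidHom)
  have hΘinv : ∀ g : E, Cfsg.Agent.Lib.Helper5.cjF hD (Cfsg.Agent.Lib.Helper19.resSub E N ϑ) g
      = Cfsg.Agent.Lib.Helper19.resSub E N ϑ := by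
    intro g
    funext d
    rw [Cfsg.Agent.Lib.Helper5.cjF_apply]
    exact hinv (g : G) ⟨((d : E) : G), Subgroup.mem_subgroupOf.mp d.2⟩
  obtain ⟨φ', hφ', hφinv, m, hm, hinner⟩ :=
    Cfsg.Agent.Lib.Helper19.exists_invariant_constituent hp (N.subgroupOf E) hD hindD _ hΘ hΘinv
      ψ hψ a ha hpa
  refine ⟨E, φ' ∘ (Cfsg.Agent.Lib.Helper19.infEquiv E N), hel, htop,
    Cfsg.Agent.Lib.Helper5.isIrrCharacter_comp_equiv _ hφ', ?_, m, hm, ?_⟩
  · intro g hg x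
    have h1 := congrFun (hφinv ⟨g, hg⟩) (Cfsg.Agent.Lib.Helper19.infEquiv E N x)
    rw [Cfsg.Agent.Lib.Helper5.cjF_apply] at h1
    exact h1
  · haveI : Fintype ↥(E ⊓ N) := Fintype.ofFinite _
    rw [finsum_eq_sum_of_fintype, ← hinner,
      ← Cfsg.Agent.Lib.Helper5.classInner_comp_equiv (Cfsg.Agent.Lib.Helper19.infEquiv E N)]
    rfl

end Cfsg.Agent.S0896
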