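import Cfsg.Statements.S0900
import Cfsg.Agent.Lib.Helper79.FullyRamified2

set_option autoImplicit false
open Cfsg

namespace Cfsg.Agent.S0900

/-- Let N be a normal subgroup of the finite group G, χ an irreducible character of G and ϑ an irreducible character of N having nonzero inner product with the restriction of χ. Consider: (a) the restriction of χ to N is e • ϑ for a natural number e with e ^ 2 equal to the index of N; (b) χ vanishes outside N and ϑ is invariant under conjugation by G; (c) ϑ is invariant and every irreducible character of G having nonzero inner product with the function induced from ϑ equals χ. Then (a) ↔ (b) and (a) ↔ (c). -/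
theorem result {G : Type*} [Group G] [Fintype G] (N : Subgroup G) [hN : N.Normal] [Fintype N] (χ : G → ℂ) (hχ : Cfsg.IsIrrCharacter G χ) (ϑ : N → ℂ) (hϑ : Cfsg.IsIrrCharacter N ϑ) (hcon : Cfsg.classInner (fun n : N => χ n) ϑ ≠ 0) : ((∃ e : ℕ, (fun n : N => χ n) = (e : ℂ) • ϑ ∧ e ^ 2 = N.index) ↔ ((∀ g : G, g ∉ N → χ g = 0) ∧ ∀ (g : G) (n : N), ϑ ⟨g * n * g⁻¹, hN.conj_mem (n : G) n.2 g⟩ = ϑ n)) ∧ ((∃ e : ℕ, (fun n : N => χ n) = (e : ℂ) • ϑ ∧ e ^ 2 = N.index) ↔ (∀ (g : G) (n : N), ϑ ⟨g * n * g⁻¹, hN.conj_mem (n : G) n.2 g⟩ = ϑ n ∧ ∀ ψ : G → ℂ, Cfsg.IsIrrCharacter G ψ → Cfsg.classInner (Cfsg.indFun N ϑ) ψ ≠ 0 → ψ = χ)) := by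
  classical
  have hχc := Lib.Helper20.isCharacter_of_isIrrCharacter hχ
  have he0' : ∀ e : ℕ, e ^ 2 = N.index → (e : ℂ) ≠ 0 := by
    intro e he
    have : e ≠ 0 := by
      rintro rfl
      exact N.index_ne_zero_of_finite (by simpa using he.symm)
    exact_mod_cast this
  have ha_inv : (∃ e : ℕ, (fun n : N => χ n) = (e : ℂ) • ϑ ∧ e ^ 2 = N.index) →
      ∀ (g : G) (n : N), ϑ ⟨g * n * g⁻¹, hN.conj_mem (n : G) n.2 g⟩ = ϑ n := by
    rintro ⟨e, h1, h2⟩
    exact Lib.Helper79.invariant_of_restrict_eq_mul N hχc e (he0' e h2) (fun n => congrFun h1 n)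
  have ha_van : (∃ e : ℕ, (fun n : N => χ n) = (e : ℂ) • ϑ ∧ e ^ 2 = N.index) →
      ∀ g : G, g ∉ N → χ g = 0 := by
    rintro ⟨e, h1, h2⟩
    exact Lib.Helper79.vanish_off_of_fully_ramified N hχ hϑ e h2 (fun n => congrFun h1 n)
  constructor
  · constructor
    · intro ha
      exact ⟨ha_van ha, ha_inv ha⟩
    · rintro ⟨hvan, hinv⟩
      obtain ⟨e, he0, h1, h2⟩ := Lib.Helper79.restrict_eq_smul_of_invariant N hχ hϑ hcon hinv
      exact ⟨e, h1, Lib.Helper79.sq_eq_index_of_vanish_off N hχ hϑ e (fun n => congrFun h1 n) hvan⟩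
  · constructor
    · intro ha g n
      refine ⟨ha_inv ha g n, ?_⟩
      intro ψ hψ hne
      by_contra hψχ
      apply hne
      rw [Lib.Helper19.frobenius_reciprocity N ϑ ψ (Lib.Helper20.isClassFunction_of_isCharacter
        (Lib.Helper20.isCharacter_of_isIrrCharacter hψ))]
      have h3 := Lib.Helper79.classInner_restrict_eq_zero_of_vanish_off N hχ hψ hψχ (ha_van ha)
      obtain ⟨e, h1, h2⟩ := ha
      rw [h1, Lib.Helper20.classInner_smul_left] at h3
      exact (mul_eq_zero.mp h3).resolve_left (he0' e h2)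
    · intro hc
      have hinv : ∀ (g : G) (n : N), ϑ ⟨g * n * g⁻¹, hN.conj_mem (n : G) n.2 g⟩ = ϑ n :=
        fun g n => (hc g n).1
      have huniq := (hc 1 1).2
      obtain ⟨e, he0, h1, h2⟩ := Lib.Helper79.restrict_eq_smul_of_invariant N hχ hϑ hcon hinv
      refine ⟨e, h1, ?_⟩
      have := Lib.Helper20.finite_irrCharacter (G := G)
      have := Fintype.ofFinite (Cfsg.IrrCharacter G)
      have hexp := Lib.Helper20.eq_sum_classInner_smul (Lib.Helper19.indFun_isClassFunction N ϑ)
      rw [Finset.sum_eq_single (⟨χ, hχ⟩ : Cfsg.IrrCharacter G) (by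
        intro ψ _ hψ
        have : Cfsg.classInner (Cfsg.indFun N ϑ) (ψ : G → ℂ) = 0 := by
          by_contra hne
          exact hψ (Subtype.ext (huniq ψ ψ.2 hne))
        rw [this, zero_smul]) (by simp)] at hexp
      have hin : Cfsg.classInner (Cfsg.indFun N ϑ) χ = e := by
        rw [Lib.Helper19.frobenius_reciprocity N ϑ χ
          (Lib.Helper20.isClassFunction_of_isCharacter hχc), ← Lib.Helper20.classInner_conj_symm, h2]
        simp
      have h4 := congrFun hexp 1
      rw [Lib.Helper19.indFun_apply_one] at h4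
      simp only [Pi.smul_apply, smul_eq_mul, hin] at h4
      have h5 : χ 1 = (e : ℂ) * ϑ 1 := congrFun h1 1
      rw [h5, ← mul_assoc] at h4
      have h6 := mul_right_cancel₀ (Lib.Helper79.IsIrrCharacter.one_ne_zero hϑ) h4
      have h7 : N.index = e * e := by exact_mod_cast h6
      rw [h7, sq]

end Cfsg.Agent.S0900
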