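import Cfsg.Statements.S0901
import Mathlib

set_option autoImplicit false
open Cfsg

namespace Cfsg.Agent.S0901

/-- Let M be a maximal ideal of the ring of algebraic integers containing the prime p, and let U be the set of complex roots of unity of order prime to p. Then reduction modulo M is injective on U, and every algebraic integer not in M is congruent modulo M to an element of U (so U maps bijectively onto the nonzero residues). -/
theorem result (p : ℕ) [Fact p.Prime] (M : Ideal Cfsg.AlgInt) (hM : Cfsg.IsPModular p M) : (∀ ε₁ ε₂ : Cfsg.AlgInt, (∃ m : ℕ, ¬ p ∣ m ∧ (ε₁ : ℂ) ^ m = 1) → (∃ m : ℕ, ¬ p ∣ m ∧ (ε₂ : ℂ) ^ m = 1) → ε₁ - ε₂ ∈ M → ε₁ = ε₂) ∧ (∀ a : Cfsg.AlgInt, a ∉ M → ∃ ε : Cfsg.AlgInt, (∃ m : ℕ, ¬ p ∣ m ∧ (ε : ℂ) ^ m = 1) ∧ a - ε ∈ M) := by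
  classical
  have hp : p.Prime := hM.1
  haveI hmax : M.IsMaximal := hM.2.1
  have hprime : M.IsPrime := hmax.isPrime
  have hpM : (p : Cfsg.AlgInt) ∈ M := hM.2.2
  have hnat : ∀ m : ℕ, ¬ p ∣ m → (m : Cfsg.AlgInt) ∉ M := by
    intro m hm hmem
    have hc : Nat.Coprime p m := (Nat.Prime.coprime_iff_not_dvd hp).2 hm
    have h1 : ((Nat.gcd p m : ℕ) : ℤ) = (p : ℤ) * Nat.gcdA p m + (m : ℤ) * Nat.gcdB p m :=
      Nat.gcd_eq_gcd_ab p m
    rw [hc] at h1
    have h2 : (1 : Cfsg.AlgInt) = (p : Cfsg.AlgInt) * ((Nat.gcdA p m : ℤ) : Cfsg.AlgInt)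
        + (m : Cfsg.AlgInt) * ((Nat.gcdB p m : ℤ) : Cfsg.AlgInt) := by
      have := congrArg (fun z : ℤ => (z : Cfsg.AlgInt)) h1
      simpa using this
    apply hprime.ne_top
    rw [Ideal.eq_top_iff_one, h2]
    exact M.add_mem (M.mul_mem_right _ hpM) (M.mul_mem_right _ hmem)
  constructor
  · rintro ε₁ ε₂ ⟨m₁, hm₁, h₁⟩ ⟨m₂, hm₂, h₂⟩ hmem
    have h₁' : ε₁ ^ m₁ = 1 := by apply Subtype.ext; simpa using h₁
    have h₂' : ε₂ ^ m₂ = 1 := by apply Subtype.ext; simpa using h₂
    set m := m₁ * m₂ with hm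
    have hpm : ¬ p ∣ m := by
      intro h; rcases (Nat.Prime.dvd_mul hp).1 h with h | h
      · exact hm₁ h
      · exact hm₂ h
    have hm0 : m ≠ 0 := by rintro h; apply hpm; rw [h]; exact dvd_zero _
    have e1 : ε₁ ^ m = 1 := by rw [hm, pow_mul, h₁', one_pow]
    have e2 : ε₂ ^ m = 1 := by rw [hm, mul_comm, pow_mul, h₂', one_pow]
    obtain ⟨k, hk⟩ : ∃ k, m = k + 1 := Nat.exists_eq_succ_of_ne_zero hm0
    set η := ε₁ * ε₂ ^ k with hη
    have hη1 : η ^ m = 1 := by rw [hη, mul_pow, e1, ← pow_mul, mul_comm k m, pow_mul, e2]; simp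
    have hηM : η - 1 ∈ M := by
      have : η - 1 = ε₂ ^ k * (ε₁ - ε₂) := by
        have : ε₂ ^ k * ε₂ = 1 := by rw [← pow_succ, ← hk, e2]
        rw [hη, mul_sub, this]; ring
      rw [this]; exact M.mul_mem_left _ hmem
    by_contra hne
    have hη2 : η ≠ 1 := by
      intro h
      apply hne
      have h3 : ε₂ ^ k * ε₂ = 1 := by rw [← pow_succ, ← hk, e2]
      calc ε₁ = ε₁ * (ε₂ ^ k * ε₂) := by rw [h3, mul_one]
        _ = η * ε₂ := by rw [hη]; ring
        _ = ε₂ := by rw [h, one_mul]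
    have hgeom : (∑ i ∈ Finset.range m, η ^ i) * (η - 1) = η ^ m - 1 := geom_sum_mul η m
    rw [hη1, sub_self] at hgeom
    have hsum0 : ∑ i ∈ Finset.range m, η ^ i = 0 := by
      rcases mul_eq_zero.1 hgeom with h | h
      · exact h
      · exact absurd (sub_eq_zero.1 h) hη2
    apply hnat m hpm
    have hpow : ∀ i : ℕ, η ^ i - 1 ∈ M := by
      intro i
      have : η ^ i - 1 = (∑ j ∈ Finset.range i, η ^ j) * (η - 1) := (geom_sum_mul η i).symm
      rw [this]; exact M.mul_mem_left _ hηM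
    have : (m : Cfsg.AlgInt) = - ∑ i ∈ Finset.range m, (η ^ i - 1) := by
      rw [Finset.sum_sub_distrib, hsum0]; simp
    rw [this]
    exact M.neg_mem (M.sum_mem (fun i _ => hpow i))
  · intro a ha
    letI : Field (Cfsg.AlgInt ⧸ M) := Ideal.Quotient.field M
    haveI hchar : CharP (Cfsg.AlgInt ⧸ M) p := by
      rw [CharP.charP_iff_prime_eq_zero hp]
      have : ((p : Cfsg.AlgInt ⧸ M)) = Ideal.Quotient.mk M (p : Cfsg.AlgInt) := by simp
      rw [this, Ideal.Quotient.eq_zero_iff_mem]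
      exact hpM
    letI : Algebra (ZMod p) (Cfsg.AlgInt ⧸ M) := ZMod.algebra _ p
    set ā : Cfsg.AlgInt ⧸ M := Ideal.Quotient.mk M a with hā
    have hā0 : ā ≠ 0 := by
      rw [hā, Ne, Ideal.Quotient.eq_zero_iff_mem]; exact ha
    have hint0 : IsIntegral ℤ a := IsIntegralClosure.isIntegral ℤ ℂ a
    have hint1 : IsIntegral ℤ ā := hint0.map (Ideal.Quotient.mkₐ ℤ M)
    have hint : IsIntegral (ZMod p) ā := hint1.tower_top
    haveI : FiniteDimensional (ZMod p) (IntermediateField.adjoin (ZMod p) {ā}) :=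
      IntermediateField.adjoin.finiteDimensional hint
    haveI : Finite (IntermediateField.adjoin (ZMod p) {ā}) := Module.finite_of_finite (ZMod p)
    haveI : Fintype (IntermediateField.adjoin (ZMod p) {ā}) := Fintype.ofFinite _
    haveI : CharP (IntermediateField.adjoin (ZMod p) {ā}) p := by
      exact inferInstance
    obtain ⟨n, -, hn⟩ := FiniteField.card (IntermediateField.adjoin (ZMod p) {ā}) p
    set x : IntermediateField.adjoin (ZMod p) {ā} :=
      ⟨ā, IntermediateField.mem_adjoin_simple_self (ZMod p) ā⟩ with hx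
    have hx0 : x ≠ 0 := by
      intro h; apply hā0; exact congrArg Subtype.val h
    have hpow := FiniteField.pow_card_sub_one_eq_one x hx0
    rw [hn] at hpow
    set N := p ^ (n : ℕ) - 1 with hN
    have hpow' : ā ^ N = 1 := by
      have := congrArg Subtype.val hpow
      simpa using this
    have hp1 : 1 < p ^ (n : ℕ) := Nat.one_lt_pow n.pos.ne' hp.one_lt
    have hNpos : 0 < N := by omega
    have hpN : ¬ p ∣ N := by
      intro h
      have h1 : p ∣ p ^ (n : ℕ) := dvd_pow_self p n.pos.ne'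
      have h2 : p ∣ 1 := by
        have : p ^ (n : ℕ) = N + 1 := by omega
        rw [this] at h1
        exact (Nat.dvd_add_right h).1 h1
      exact hp.one_lt.ne' (Nat.dvd_one.1 h2)
    have hmemM : a ^ N - 1 ^ N ∈ M := by
      rw [one_pow, ← Ideal.Quotient.eq_zero_iff_mem, map_sub, map_pow, map_one, ← hā, hpow', sub_self]
    have hζC : IsPrimitiveRoot (Complex.exp (2 * Real.pi * Complex.I / N)) N :=
      Complex.isPrimitiveRoot_exp N hNpos.ne'
    set ζ : Cfsg.AlgInt := ⟨Complex.exp (2 * Real.pi * Complex.I / N), hζC.isIntegral hNpos⟩ with hζ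
    have hζp : IsPrimitiveRoot ζ N := by
      apply IsPrimitiveRoot.of_map_of_injective (f := Cfsg.AlgInt.val) (hf := Subtype.val_injective)
      exact hζC
    rw [hζp.pow_sub_pow_eq_prod_sub_mul a 1 hNpos] at hmemM
    obtain ⟨ε, hε, hεM⟩ := (hprime.prod_mem_iff).1 hmemM
    refine ⟨ε, ⟨N, hpN, ?_⟩, by simpa using hεM⟩
    have := (Polynomial.mem_nthRootsFinset hNpos 1).1 hε
    have h2 := congrArg Subtype.val this
    simpa using h2

end Cfsg.Agent.S0901
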