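import Cfsg.Statements.S0902
import Cfsg.Agent.Lib.Helper78.BlockIndep

set_option autoImplicit false
open Cfsg

namespace Cfsg.Agent.S0902

/-- If two irreducible characters of a finite group lie in the same block relative to one maximal ideal M of the algebraic integers containing the prime p, then at every element the difference of their central characters is an algebraic integer lying in every maximal ideal containing p; in particular they lie in the same block relative to any such ideal. -/
theorem result {G : Type*} [Group G] [Finite G] (p : ℕ) [Fact p.Prime] (M : Ideal Cfsg.AlgInt) (hM : Cfsg.IsPModular p M) (χ ψ : Cfsg.IrrCharacter G) (h : Cfsg.SameBlock M (χ : G → ℂ) (ψ : G → ℂ)) (M' : Ideal Cfsg.AlgInt) (hM' : Cfsg.IsPModular p M') (g : G) : ∃ r : Cfsg.AlgInt, r ∈ M' ∧ (r : ℂ) = Cfsg.centralChar (χ : G → ℂ) g - Cfsg.centralChar (ψ : G → ℂ) g := by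
  classical
  have : Fintype G := Fintype.ofFinite G
  have h1 := Cfsg.Agent.Lib.Helper78.sameBlock_indep hM hM' h g
  have h2 : IsIntegral ℤ (Cfsg.centralChar (χ : G → ℂ) g - Cfsg.centralChar (ψ : G → ℂ) g) :=
    (Cfsg.Agent.Lib.Helper81.centralChar_isIntegral χ g).sub
      (Cfsg.Agent.Lib.Helper81.centralChar_isIntegral ψ g)
  refine ⟨⟨_, h2⟩, ?_, rfl⟩
  exact (Cfsg.Agent.Lib.Helper81.memLocalIdeal_algInt_iff hM' ⟨_, h2⟩).1 h1


end Cfsg.Agent.S0902
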