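import Cfsg.Statements.S0903


set_option autoImplicit false
open Cfsg

namespace Cfsg.Agent.S0903

/-- Let P be a p-subgroup of the finite group G, let c centralize P and let g, h ∈ G. The number of pairs (x, y) with x conjugate to g, y conjugate to h and x * y = c is congruent modulo p to the number of such pairs in which x and y both centralize P. (This is why the Brauer map on class sums is multiplicative.) -/
theorem result {G : Type*} [Group G] [Finite G] (p : ℕ) [Fact p.Prime] (P : Subgroup G) (hP : IsPGroup p P) (c : G) (hc : c ∈ Subgroup.centralizer (P : Set G)) (g h : G) : Nat.card {xy : G × G // IsConj g xy.1 ∧ IsConj h xy.2 ∧ xy.1 * xy.2 = c} ≡ Nat.card {xy : G × G // IsConj g xy.1 ∧ IsConj h xy.2 ∧ xy.1 * xy.2 = c ∧ xy.1 ∈ Subgroup.centralizer (P : Set G) ∧ xy.2 ∈ Subgroup.centralizer (P : Set G)} [MOD p] := by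
  classical
  let X := {xy : G × G // IsConj g xy.1 ∧ IsConj h xy.2 ∧ xy.1 * xy.2 = c}
  letI act : MulAction P X :=
    { smul := fun u xy => ⟨((u : G) * xy.1.1 * (u : G)⁻¹, (u : G) * xy.1.2 * (u : G)⁻¹),
        xy.2.1.trans (isConj_iff.2 ⟨u, rfl⟩), xy.2.2.1.trans (isConj_iff.2 ⟨u, rfl⟩), by
          have h1 : (u : G) * xy.1.1 * (u : G)⁻¹ * ((u : G) * xy.1.2 * (u : G)⁻¹) =
              (u : G) * (xy.1.1 * xy.1.2) * (u : G)⁻¹ := by group
          have h2 : (u : G) * c = c * (u : G) := (Subgroup.mem_centralizer_iff.1 hc u u.2)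
          show (u : G) * xy.1.1 * (u : G)⁻¹ * ((u : G) * xy.1.2 * (u : G)⁻¹) = c
          rw [h1, xy.2.2.2, h2]; group⟩
      one_smul := fun xy => by
        apply Subtype.ext
        show (((1 : P) : G) * xy.1.1 * ((1 : P) : G)⁻¹, ((1 : P) : G) * xy.1.2 * ((1 : P) : G)⁻¹) = xy.1
        simp
      mul_smul := fun u v xy => by
        apply Subtype.ext
        show (((u * v : P) : G) * xy.1.1 * ((u * v : P) : G)⁻¹,
          ((u * v : P) : G) * xy.1.2 * ((u * v : P) : G)⁻¹) =
          ((u : G) * ((v : G) * xy.1.1 * (v : G)⁻¹) * (u : G)⁻¹,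
            (u : G) * ((v : G) * xy.1.2 * (v : G)⁻¹) * (u : G)⁻¹)
        simp [mul_assoc] }
  have hsmul : ∀ (u : P) (xy : X), (u • xy).1 =
      ((u : G) * xy.1.1 * (u : G)⁻¹, (u : G) * xy.1.2 * (u : G)⁻¹) := fun _ _ => rfl
  have key := hP.card_modEq_card_fixedPoints X
  refine key.trans ?_
  have e : MulAction.fixedPoints P X ≃ {xy : G × G // IsConj g xy.1 ∧ IsConj h xy.2 ∧
      xy.1 * xy.2 = c ∧ xy.1 ∈ Subgroup.centralizer (P : Set G) ∧
      xy.2 ∈ Subgroup.centralizer (P : Set G)} :=
    { toFun := fun w => ⟨w.1.1, w.1.2.1, w.1.2.2.1, w.1.2.2.2, by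
          rw [Subgroup.mem_centralizer_iff]
          intro u hu
          have := congrArg Prod.fst (congrArg Subtype.val (w.2 ⟨u, hu⟩))
          rw [hsmul] at this
          exact mul_inv_eq_iff_eq_mul.1 this, by
          rw [Subgroup.mem_centralizer_iff]
          intro u hu
          have := congrArg Prod.snd (congrArg Subtype.val (w.2 ⟨u, hu⟩))
          rw [hsmul] at this
          exact mul_inv_eq_iff_eq_mul.1 this⟩
      invFun := fun w => ⟨⟨w.1, w.2.1, w.2.2.1, w.2.2.2.1⟩, by
          intro u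
          apply Subtype.ext
          rw [hsmul]
          have h1 := Subgroup.mem_centralizer_iff.1 w.2.2.2.2.1 u u.2
          have h2 := Subgroup.mem_centralizer_iff.1 w.2.2.2.2.2 u u.2
          apply Prod.ext
          · exact mul_inv_eq_iff_eq_mul.2 h1
          · exact mul_inv_eq_iff_eq_mul.2 h2⟩
      left_inv := fun w => rfl
      right_inv := fun w => rfl }
  rw [Nat.card_congr e]

end Cfsg.Agent.S0903
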