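import Cfsg.Statements.S0904
-- import your own Cfsg.Agent.* helpers here
import Cfsg.Agent.Lib.Helper51.PrimePowerDeg

set_option autoImplicit false
open Cfsg

namespace Cfsg.Agent.S0904

/-- Let G be a finite simple group of order p ^ a * q ^ b * r with p, q, r distinct primes. Then every Sylow r-subgroup S of G satisfies C_G(S) = S. -/
theorem result {G : Type*} [Group G] [Finite G] [IsSimpleGroup G] (p q r a b : ℕ) (hp : p.Prime) (hq : q.Prime) [Fact r.Prime] (hpq : p ≠ q) (hpr : p ≠ r) (hqr : q ≠ r) (hcard : Nat.card G = p ^ a * q ^ b * r) (S : Sylow r G) : Subgroup.centralizer (S : Set G) = (S : Subgroup G) := by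
  classical
  have hr : r.Prime := Fact.out
  have hcS : Nat.card (S : Subgroup G) = r := by
    rw [Sylow.card_eq_multiplicity, hcard]
    have h1 : (p ^ a * q ^ b * r).factorization r = 1 := by
      rw [Nat.factorization_mul (by positivity [hp.pos, hq.pos]) hr.ne_zero,
        Nat.factorization_mul (pow_ne_zero _ hp.ne_zero) (pow_ne_zero _ hq.ne_zero),
        hp.factorization_pow, hq.factorization_pow, hr.factorization]
      simp [hpr, hqr]
    rw [h1, pow_one]
  have hnt : Nontrivial (S : Subgroup G) := by
    apply Finite.one_lt_card_iff_nontrivial.1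
    rw [hcS]; exact hr.one_lt
  obtain ⟨⟨x, hxS⟩, hx1⟩ := exists_ne (1 : (S : Subgroup G))
  have hx1' : x ≠ 1 := fun h => hx1 (Subtype.ext h)
  have hle : Subgroup.zpowers x ≤ (S : Subgroup G) := by
    rw [Subgroup.zpowers_le]; exact hxS
  have hord : orderOf x = r := by
    have h1 : orderOf x ∣ r := by
      have := Subgroup.card_dvd_of_le hle
      rwa [Nat.card_zpowers, hcS] at this
    rcases (Nat.dvd_prime hr).1 h1 with h | h
    · exact absurd (orderOf_eq_one_iff.1 h) hx1'
    · exact h
  have hSx : Subgroup.zpowers x = (S : Subgroup G) := by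
    apply Subgroup.eq_of_le_of_card_ge hle
    rw [Nat.card_zpowers, hord, hcS]
  have hcen := Cfsg.Agent.Lib.Helper51.centralizer_prime_elt p q r a b hp hq hr hpr hqr hcard x hord
  apply le_antisymm
  · rw [← hSx, ← hcen]
    apply Subgroup.centralizer_le
    intro y hy
    rw [Set.mem_singleton_iff] at hy
    rw [hy]
    exact hxS
  · intro y hy
    rw [Subgroup.mem_centralizer_iff]
    intro z hz
    rw [← hSx] at hy
    have hz' : z ∈ Subgroup.zpowers x := by rw [hSx]; exact hz
    obtain ⟨m, rfl⟩ := Subgroup.mem_zpowers_iff.1 hy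
    obtain ⟨n, rfl⟩ := Subgroup.mem_zpowers_iff.1 hz'
    exact ((Commute.refl x).zpow_zpow n m)

end Cfsg.Agent.S0904
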