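import Cfsg.Statements.S0905
import Cfsg.Agent.Lib.Helper20.ClassNilp2
import Cfsg.Agent.Lib.Helper80.Cores

set_option autoImplicit false
open Cfsg

namespace Cfsg.Agent.S0905

/-- Let F be a field of characteristic p and let g be an element of the finite group G no conjugate of which centralizes O_p(G). Then the class sum of g is a nilpotent element of the group algebra F[G]. -/
theorem result {G : Type*} [Group G] [Finite G] (p : ℕ) [Fact p.Prime] (F : Type*) [Field F] [CharP F p] (g : G) (hg : ∀ x : G, IsConj g x → x ∉ Subgroup.centralizer (Cfsg.pCore p G : Set G)) : IsNilpotent (∑ᶠ x ∈ ConjClasses.carrier (ConjClasses.mk g), MonoidAlgebra.single x (1 : F) : MonoidAlgebra F G) := by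
  classical
  have := Fintype.ofFinite G
  obtain ⟨hn, hp⟩ := Cfsg.Agent.Lib.Helper80.pCore_spec (G := G) p
  set K : Finset G := Finset.univ.filter (fun x => IsConj g x) with hK
  have h1 : (∑ᶠ x ∈ ConjClasses.carrier (ConjClasses.mk g), MonoidAlgebra.single x (1 : F) :
      MonoidAlgebra F G) = ∑ x ∈ K, MonoidAlgebra.single x (1 : F) := by
    rw [finsum_mem_eq_finite_toFinset_sum _ (Set.toFinite _)]
    apply Finset.sum_congr
    · ext x
      simp only [Set.Finite.mem_toFinset, ConjClasses.mem_carrier_iff_mk_eq, hK, Finset.mem_filter,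
        Finset.mem_univ, true_and, ConjClasses.mk_eq_mk_iff_isConj]
      exact isConj_comm
    · intro _ _; rfl
  rw [h1]
  obtain ⟨n, hn⟩ := Cfsg.Agent.Lib.Helper20.exists_powCount_dvd p (Cfsg.pCore p G) hp K
    (by
      intro x hx c
      rw [hK, Finset.mem_filter] at hx ⊢
      exact ⟨Finset.mem_univ _, hx.2.trans (isConj_iff.2 ⟨c, rfl⟩)⟩)
    (by
      intro x hx
      rw [hK, Finset.mem_filter] at hx
      exact hg x hx.2)
  refine ⟨n, ?_⟩
  rw [Cfsg.Agent.Lib.Helper20.sum_single_pow]
  apply Finset.sum_eq_zero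
  intro c _
  rw [(CharP.cast_eq_zero_iff F p _).2 (hn c)]
  simp

end Cfsg.Agent.S0905
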