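import Cfsg.Statements.S0910
import Cfsg.Agent.Lib.Helper81.LocalRing
import Cfsg.Agent.Lib.Helper82.Linear
import Cfsg.Agent.Lib.Helper82.Codegree
import Cfsg.Agent.S0142
import Cfsg.Agent.S0138
import Cfsg.Agent.S0139

set_option autoImplicit false
open Cfsg
open Cfsg.Agent.Lib.Helper20

namespace Cfsg.Agent.S0910

/-- Let G be a non-abelian finite simple group and p a prime. If an irreducible character χ lies in the principal block (relative to a maximal ideal of the algebraic integers containing p) and χ 1 is a power of p, then χ is the principal character. -/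
theorem result {G : Type*} [Group G] [Finite G] (p : ℕ) [Fact p.Prime] (M : Ideal Cfsg.AlgInt) (hM : Cfsg.IsPModular p M) [IsSimpleGroup G] (hna : ∃ a b : G, a * b ≠ b * a) (χ : Cfsg.IrrCharacter G) (hχ : χ ∈ Cfsg.principalBlock M G) (k : ℕ) (hdeg : (χ : G → ℂ) 1 = (p : ℂ) ^ k) : (χ : G → ℂ) = fun _ => 1 := by
  classical
  have := Fintype.ofFinite G
  have hχc := isCharacter_of_isIrrCharacter χ.2
  have hp : p.Prime := Fact.out
  rcases Nat.eq_zero_or_pos k with hk | hk
  · -- linear character of a perfect group
    subst hk
    rw [pow_zero] at hdeg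
    have hcomm : commutator G = ⊤ := by
      rcases (inferInstance : (commutator G).Normal).eq_bot_or_eq_top with h | h
      · exfalso
        obtain ⟨a, b, hab⟩ := hna
        apply hab
        have h1 : a * b * a⁻¹ * b⁻¹ ∈ commutator G :=
          Subgroup.commutator_mem_commutator (Subgroup.mem_top a) (Subgroup.mem_top b)
        rw [h, Subgroup.mem_bot] at h1
        have h2 : a * b = (a * b * a⁻¹ * b⁻¹) * (b * a) := by group
        rw [h2, h1, one_mul]
      · exact h
    funext g
    exact Cfsg.Agent.Lib.Helper82.isChar_linear_commutator hχc hdeg (by rw [hcomm]; trivial)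
  · exfalso
    have hdeg' : charDegree (χ : G → ℂ) = p ^ k := by
      have h1 := Cfsg.Agent.Lib.Helper82.isChar_one_eq hχc
      rw [hdeg] at h1
      exact_mod_cast h1.symm
    have hdvd : p ∣ Nat.card G :=
      (dvd_pow_self p hk.ne').trans (hdeg' ▸ Cfsg.Agent.Lib.Helper82.isIrr_charDegree_dvd_card χ.2)
    obtain ⟨P⟩ : Nonempty (Sylow p G) := inferInstance
    have hPnt : Nontrivial (P : Subgroup G) := by
      rw [Subgroup.nontrivial_iff_ne_bot]
      exact P.ne_bot_of_dvd_card hdvd
    have hcen : Nontrivial (Subgroup.center (P : Subgroup G)) := P.2.center_nontrivial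
    obtain ⟨⟨z, hz⟩, hz1⟩ := exists_ne (1 : Subgroup.center (P : Subgroup G))
    have hz1' : (z : G) ≠ 1 := by
      intro h
      apply hz1
      apply Subtype.ext
      apply Subtype.ext
      exact h
    have hPle : (P : Subgroup G) ≤ Subgroup.centralizer ({(z : G)} : Set G) := by
      intro x hx
      rw [Subgroup.mem_centralizer_iff]
      intro y hy
      rw [Set.mem_singleton_iff] at hy
      subst hy
      have := Subgroup.mem_center_iff.mp hz ⟨x, hx⟩
      exact (congrArg Subtype.val this).symm
    have hnd : ¬ p ∣ (Subgroup.centralizer ({(z : G)} : Set G)).index := fun h =>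
      P.not_dvd_index (h.trans (Subgroup.index_dvd_of_le hPle))
    obtain ⟨n, ρ, hirr, hρ⟩ := χ.2
    have hn : n = p ^ k := by
      have h1 : ρ.character 1 = (n : ℂ) := by
        rw [Representation.char_one]
        simp
      rw [hρ, hdeg] at h1
      exact_mod_cast h1.symm
    have hfr : Module.finrank ℂ (Fin n → ℂ) = n := by simp
    have hcop : Nat.Coprime (Module.finrank ℂ (Fin n → ℂ))
        (Subgroup.centralizer ({(z : G)} : Set G)).index := by
      rw [hfr, hn]
      exact Nat.Coprime.pow_left k ((Nat.Prime.coprime_iff_not_dvd hp).mpr hnd)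
    rcases Cfsg.Agent.S0142.result ρ (z : G) hcop with h0 | h0
    · have h1 := hχ (z : G)
      have h2 : centralChar (fun _ : G => (1 : ℂ)) (z : G) - centralChar (χ : G → ℂ) (z : G)
          = ((Subgroup.centralizer ({(z : G)} : Set G)).index : ℂ) := by
        unfold centralChar
        rw [← hρ, h0]
        simp
      rw [h2, Cfsg.Agent.Lib.Helper81.memLocalIdeal_natCast_iff hM] at h1
      exact hnd h1
    · obtain ⟨ω, hω⟩ := (Cfsg.Agent.S0138.result ρ (z : G)).mp h0
      rcases (MonoidHom.normal_ker ρ).eq_bot_or_eq_top with hker | hker
      · -- faithful: z is central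
        have hzc : (z : G) ∈ Subgroup.center G := by
          rw [Subgroup.mem_center_iff]
          intro g
          have h1 : ρ (g * z) = ρ (z * g) := by
            rw [map_mul, map_mul, hω]
            refine LinearMap.ext fun v => ?_
            simp [Module.End.mul_apply]
          exact (MonoidHom.ker_eq_bot_iff ρ).mp hker h1
        rcases (inferInstance : (Subgroup.center G).Normal).eq_bot_or_eq_top with h | h
        · rw [h, Subgroup.mem_bot] at hzc
          exact hz1' hzc
        · obtain ⟨a, b, hab⟩ := hna
          apply hab
          have : b ∈ Subgroup.center G := by rw [h]; trivial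
          exact (Subgroup.mem_center_iff.mp this a)
      · -- trivial representation
        have h1 : ∀ g : G, (χ : G → ℂ) g = (n : ℂ) := by
          intro g
          have : g ∈ ρ.ker := by rw [hker]; trivial
          rw [← hρ]
          unfold Representation.character
          rw [MonoidHom.mem_ker.mp this]
          simp
        have h2 := classInner_irr_self χ.2
        unfold classInner at h2
        simp only [h1] at h2
        rw [Finset.sum_const, Finset.card_univ, ← Nat.card_eq_fintype_card, nsmul_eq_mul,
          ← mul_assoc, inv_mul_cancel₀ card_ne_zero_complex, one_mul] at h2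
        have h3 : ((n * n : ℕ) : ℂ) = 1 := by
          push_cast
          simpa using h2
        have h4 : n * n = 1 := by exact_mod_cast h3
        have h5 : n = 1 := Nat.eq_one_of_mul_eq_one_left h4
        rw [hn] at h5
        have h6 : 1 < p ^ k := Nat.one_lt_pow hk.ne' hp.one_lt
        omega

end Cfsg.Agent.S0910
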