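import Cfsg.Statements.S0923
import Cfsg.Agent.Lib.Helper81.SecondMain3
import Cfsg.Agent.S0919

set_option autoImplicit false
open Cfsg

namespace Cfsg.Agent.S0923

/-- Brauer's Second Main Theorem, in terms of ordinary characters. Let x be a p-element of the finite group G with centralizer C, let χ lie in the block B of G and let b be a block of C that does not induce B (relative to a maximal ideal M of the algebraic integers containing p). Form the class function ϑ(c) = χ(x c) on C and its b-part (the sum over ψ ∈ b of the inner product of ϑ with ψ, times ψ). Then the b-part of ϑ vanishes at every p-regular element of C. (Equivalently, the generalized decomposition numbers of χ with respect to b are zero.) -/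
theorem result {G : Type*} [Group G] [Finite G] (p : ℕ) [Fact p.Prime] (M : Ideal Cfsg.AlgInt) (hM : Cfsg.IsPModular p M) (x : G) (hx : ∃ k : ℕ, orderOf x = p ^ k) (B : Set (Cfsg.IrrCharacter G)) (hB : Cfsg.IsPBlock M B) (χ : Cfsg.IrrCharacter G) (hχ : χ ∈ B) (b : Set (Cfsg.IrrCharacter (Subgroup.centralizer ({x} : Set G)))) (hb : Cfsg.IsPBlock M b) (hnot : ¬ Cfsg.IsInducedBlock M (Subgroup.centralizer ({x} : Set G)) b B) (y : Subgroup.centralizer ({x} : Set G)) (hy : ¬ p ∣ orderOf y) : Cfsg.blockPart b (fun c : Subgroup.centralizer ({x} : Set G) => (χ : G → ℂ) (x * (c : G))) y = 0 := by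
  classical
  have := Fintype.ofFinite G
  have hdef : Cfsg.InducedBlockDefined M (Subgroup.centralizer ({x} : Set G)) b := by
    refine Cfsg.Agent.S0919.result p M hM (Subgroup.zpowers x) (Subgroup.centralizer ({x} : Set G))
      ?_ ?_ ?_ ?_ b hb
    · obtain ⟨k, hk⟩ := hx
      apply IsPGroup.of_card (n := k)
      rw [Nat.card_zpowers, hk]
    · rw [Subgroup.zpowers_le, Subgroup.mem_centralizer_iff]
      intro v hv; rw [Set.mem_singleton_iff] at hv; rw [hv]
    · apply Subgroup.centralizer_le
      intro v hv; rw [Set.mem_singleton_iff] at hv; rw [hv]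
      exact Subgroup.mem_zpowers x
    · intro c hc
      rw [Subgroup.mem_normalizer_iff]
      intro v
      have hcx : x * c = c * x := Subgroup.mem_centralizer_iff.1 hc x rfl
      have hcv : ∀ w ∈ Subgroup.zpowers x, c * w * c⁻¹ = w := by
        intro w hw
        obtain ⟨n, rfl⟩ := Subgroup.mem_zpowers_iff.1 hw
        have : Commute c x := hcx.symm
        rw [(this.zpow_right n).eq, mul_inv_cancel_right]
      constructor
      · intro hv
        have := hcv v hv
        show c * v * c⁻¹ ∈ Subgroup.zpowers x
        rw [this]; exact hv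
      · intro hv
        have h1 := hcv _ hv
        have h2 : c * v * c⁻¹ = v := by
          have h3 : c * (c * v * c⁻¹) * c⁻¹ = c * v * c⁻¹ := h1
          have h4 : c * (c * v * c⁻¹) = c * v := mul_right_cancel h3
          exact mul_left_cancel h4
        show v ∈ Subgroup.zpowers x
        rw [← h2]; exact hv
  exact Cfsg.Agent.Lib.Helper81.second_main_char hM x hx B hB χ hχ b hdef hnot y hy

end Cfsg.Agent.S0923
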