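import Cfsg.Statements.S0926
import Cfsg.Agent.Lib.Helper20.HeightZero
import Cfsg.Agent.Lib.Helper20.CharCongr
import Cfsg.Agent.Lib.Helper81.Vanish
open Cfsg.Agent.Lib.Helper20 Cfsg.Agent.Lib.Helper81 Cfsg.Agent.Lib.Helper21

set_option autoImplicit false
open Cfsg

namespace Cfsg.Agent.S0926

/-- Let B be a block of the finite group G with defect group D (relative to a maximal ideal M of the algebraic integers containing p), let χ ∈ B have height zero, and let x be a p-element. Then some conjugate of x lies in D if and only if χ does not vanish on the whole p-section of x (the elements whose p-part is conjugate to x). -/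
theorem result {G : Type*} [Group G] [Finite G] (p : ℕ) [Fact p.Prime] (M : Ideal Cfsg.AlgInt) (hM : Cfsg.IsPModular p M) (B : Set (Cfsg.IrrCharacter G)) (hB : Cfsg.IsPBlock M B) (D : Subgroup G) (hD : Cfsg.IsDefectGroup p M B D) (χ : Cfsg.IrrCharacter G) (hχ : χ ∈ B) (h0 : Cfsg.blockHeight p B (χ : G → ℂ) = 0) (x : G) (hx : ∃ k : ℕ, orderOf x = p ^ k) : (∃ g : G, g * x * g⁻¹ ∈ D) ↔ ∃ u : G, (∃ z : G, Cfsg.IsPPart p u z ∧ IsConj x z) ∧ (χ : G → ℂ) u ≠ 0 := by
  classical
  haveI : Fintype G := Fintype.ofFinite G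
  obtain ⟨y, hy, P, hDP⟩ := hD
  have hyreg : ¬ p ∣ orderOf y := by
    intro h
    apply hy.2.1
    rw [blockCoeff_eq_zero_of_singular hM B hB h]
    exact memLocalIdeal_zero hM
  constructor
  · rintro ⟨g, hg⟩
    obtain ⟨k, hk⟩ := hx
    set x' := g * x * g⁻¹ with hx'
    have hord : orderOf x' = p ^ k := by rw [hx', orderOf_conj_eq, hk]
    have hcomm : Commute x' y := by
      rw [hDP] at hg
      obtain ⟨c, _, hc⟩ := Subgroup.mem_map.1 hg
      have h1 : (c : G) = x' := hc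
      rw [← h1]
      exact ((Subgroup.mem_centralizer_iff.1 c.2) y rfl).symm
    refine ⟨x' * y, ⟨x', ⟨y, rfl, hcomm, ⟨k, hord⟩, hyreg⟩, isConj_iff.2 ⟨g, rfl⟩⟩, ?_⟩
    have h1 := isCharacter_mul_sub_memLocalIdeal hM (isCharacter_of_isIrrCharacter χ.2) hcomm
      (k := k) (by rw [← hord, pow_orderOf_eq_one]) hyreg
    have h2 := height_zero_apply_defectClass hM B hB χ hχ h0 hy
    have h3 := not_memLocalIdeal_of_sub hM h1 h2
    exact ne_zero_of_not_memLocalIdeal hM h3
  · rintro ⟨u, ⟨z, hz, hxz⟩, hu⟩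
    have h1 : ∃ D' : Subgroup G, Cfsg.IsDefectGroup p M B D' ∧ z ∈ D' := by
      by_contra hcon
      push Not at hcon
      exact hu (vanish_off_defect_groups hM B hB hz hcon χ hχ)
    obtain ⟨D', ⟨y', hy', P', hD'⟩, hzD'⟩ := h1
    have hD'p : IsPGroup p D' := by
      rw [hD']
      exact P'.2.map _
    have hD'c : D' ≤ Subgroup.centralizer ({y'} : Set G) := by
      rw [hD']
      exact Subgroup.map_subtype_le _
    obtain ⟨c, hc⟩ := minmax_le_conj hM B hB y y' hy.2.2 hy'.2.1 D ⟨P, hDP.symm⟩ D' hD'p hD'c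
    obtain ⟨w, hw⟩ := isConj_iff.1 hxz
    refine ⟨c * w, ?_⟩
    have h2 : c * z * c⁻¹ ∈ D := by
      apply hc
      exact Subgroup.mem_map.2 ⟨z, hzD', rfl⟩
    rw [← hw] at h2
    have h3 : c * w * x * (c * w)⁻¹ = c * (w * x * w⁻¹) * c⁻¹ := by group
    rw [h3]
    exact h2

end Cfsg.Agent.S0926
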