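import Cfsg.Statements.S0934
import Cfsg.Agent.Lib.Helper20.InducedBlock

set_option autoImplicit false
open Cfsg

namespace Cfsg.Agent.S0934

/-- Let H be a subgroup of the finite group G and fix a maximal ideal M of the algebraic integers containing the prime p. If the block b of H induces the block B of G and ξ ∈ b, then there is χ ∈ B whose restriction to H has nonzero inner product with ξ. -/
theorem result {G : Type*} [Group G] [Fintype G] (p : ℕ) [Fact p.Prime] (M : Ideal Cfsg.AlgInt) (hM : Cfsg.IsPModular p M) (H : Subgroup G) [Fintype H] (b : Set (Cfsg.IrrCharacter H)) (B : Set (Cfsg.IrrCharacter G)) (hind : Cfsg.IsInducedBlock M H b B) (ξ : Cfsg.IrrCharacter H) (hξ : ξ ∈ b) : ∃ χ ∈ B, Cfsg.classInner (fun h : H => (χ : G → ℂ) h) (ξ : H → ℂ) ≠ 0 := by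
  classical
  have : Finite (Cfsg.IrrCharacter G) := Cfsg.Agent.Lib.Helper20.finite_irrCharacter
  have : Fintype (Cfsg.IrrCharacter G) := Fintype.ofFinite _
  obtain ⟨hb, hB, hcong⟩ := hind
  obtain ⟨χ0, hχ0⟩ := Cfsg.Agent.Lib.Helper81.isPBlock_nonempty hM hB
  by_contra hcon
  push Not at hcon
  have h1 := Cfsg.Agent.Lib.Helper20.omega_res_sub_omega hM H (ξ : H → ℂ) χ0
    (fun g => hcong ξ hξ χ0 hχ0 g) (Cfsg.Agent.Lib.Helper81.blockCoeff_classFunction B)
    (Cfsg.Agent.Lib.Helper81.osima hM B hB)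
  rw [Cfsg.Agent.Lib.Helper81.omega_blockCoeff, if_pos hχ0] at h1
  have hH : (Nat.card H : ℂ) ≠ 0 := by exact_mod_cast Nat.card_pos.ne'
  have h0 : ∀ χ ∈ B, ∑ h : H, (starRingEnd ℂ) ((χ : G → ℂ) h) * (ξ : H → ℂ) h = 0 := by
    intro χ hχ
    have h5 := hcon χ hχ
    rw [Cfsg.classInner, mul_eq_zero] at h5
    have h6 := h5.resolve_left (inv_ne_zero hH)
    have h7 := congrArg (starRingEnd ℂ) h6
    rw [map_sum, map_zero] at h7
    rw [← h7]
    apply Finset.sum_congr rfl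
    intro h _
    rw [map_mul, Complex.conj_conj]
  have h2 : Cfsg.Agent.Lib.Helper81.omega (ξ : H → ℂ) (fun h : H => Cfsg.blockCoeff B (h : G)) = 0 := by
    simp only [Cfsg.Agent.Lib.Helper81.omega, Cfsg.blockCoeff,
      Cfsg.Agent.Lib.Helper81.finsum_mem_irr]
    rw [← Finset.sum_div]
    have h3 : ∑ h : H, (Nat.card G : ℂ)⁻¹ * (∑ χ : Cfsg.IrrCharacter G,
        if χ ∈ B then (χ : G → ℂ) 1 * (starRingEnd ℂ) ((χ : G → ℂ) h) else 0) * (ξ : H → ℂ) h
        = 0 := by
      have h4 : ∀ h : H, (Nat.card G : ℂ)⁻¹ * (∑ χ : Cfsg.IrrCharacter G,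
        if χ ∈ B then (χ : G → ℂ) 1 * (starRingEnd ℂ) ((χ : G → ℂ) h) else 0) * (ξ : H → ℂ) h
        = ∑ χ : Cfsg.IrrCharacter G, (Nat.card G : ℂ)⁻¹ * (if χ ∈ B then (χ : G → ℂ) 1 *
          ((starRingEnd ℂ) ((χ : G → ℂ) h) * (ξ : H → ℂ) h) else 0) := by
        intro h
        rw [Finset.mul_sum, Finset.sum_mul]
        apply Finset.sum_congr rfl
        intro χ _
        split_ifs <;> ring
      rw [Finset.sum_congr rfl (fun h _ => h4 h), Finset.sum_comm]
      apply Finset.sum_eq_zero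
      intro χ _
      rw [← Finset.mul_sum]
      by_cases hχ : χ ∈ B
      · simp only [if_pos hχ]
        rw [← Finset.mul_sum, h0 χ hχ, mul_zero, mul_zero]
      · simp [if_neg hχ]
    rw [h3, zero_div]
  rw [h2, zero_sub] at h1
  have h4 := Cfsg.Agent.Lib.Helper81.memLocalIdeal_neg h1
  rw [neg_neg] at h4
  exact Cfsg.Agent.Lib.Helper81.not_memLocalIdeal_one hM h4

end Cfsg.Agent.S0934
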