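import Cfsg.Statements.S0935
import Cfsg.Agent.Lib.Helper20.HeightZero
open Cfsg.Agent.Lib.Helper20 Cfsg.Agent.Lib.Helper81 Cfsg.Agent.Lib.Helper21

set_option autoImplicit false
open Cfsg

namespace Cfsg.Agent.S0935

/-- Let H be a subgroup of the finite group G and χ an irreducible character of G whose restriction to H is irreducible; fix a maximal ideal M of the algebraic integers containing the prime p and suppose χ and its restriction have height zero in their blocks B and b. If e is a block of H whose induced block is defined, then e induces B if and only if e = b. -/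
theorem result {G : Type*} [Group G] [Finite G] (p : ℕ) [Fact p.Prime] (M : Ideal Cfsg.AlgInt) (hM : Cfsg.IsPModular p M) (H : Subgroup G) (χ : Cfsg.IrrCharacter G) (hres : Cfsg.IsIrrCharacter H (fun h : H => (χ : G → ℂ) h)) (hχ0 : Cfsg.blockHeight p (Cfsg.blockOf M (χ : G → ℂ)) (χ : G → ℂ) = 0) (hψ0 : Cfsg.blockHeight p (Cfsg.blockOf M (fun h : H => (χ : G → ℂ) h)) (fun h : H => (χ : G → ℂ) h) = 0) (e : Set (Cfsg.IrrCharacter H)) (he : Cfsg.InducedBlockDefined M H e) : Cfsg.IsInducedBlock M H e (Cfsg.blockOf M (χ : G → ℂ)) ↔ e = Cfsg.blockOf M (fun h : H => (χ : G → ℂ) h) := by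
  classical
  haveI : Fintype G := Fintype.ofFinite G
  haveI : Fintype H := Fintype.ofFinite H
  let ψ : Cfsg.IrrCharacter H := ⟨fun h : H => (χ : G → ℂ) h, hres⟩
  have hzc := zreg_classFunction (p := p) (irr_classFunction χ)
  have hzR := zreg_memLocalRing (p := p) hM (isCharacter_of_isIrrCharacter χ.2)
  have hres' : (fun h : H => zreg p (χ : G → ℂ) (h : G)) = zreg p (ψ : H → ℂ) := zreg_res H _
  have hUG := omega_zreg_self_unit hM _ ⟨χ, rfl⟩ χ (mem_blockOf_self hM χ) hχ0
  have hUH := omega_zreg_self_unit hM _ ⟨ψ, rfl⟩ ψ (mem_blockOf_self hM ψ) hψ0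
  constructor
  · rintro ⟨he1, _, hc⟩
    obtain ⟨ξ, hξ⟩ := isPBlock_nonempty hM he1
    have h1 := omega_res_sub_omega hM H (ξ : H → ℂ) χ
      (fun g => hc ξ hξ χ (mem_blockOf_self hM χ) g) hzc hzR
    rw [hres'] at h1
    have h2 : SameBlock M (ξ : H → ℂ) (ψ : H → ℂ) := by
      by_contra hcon
      rw [omega_zreg_eq_zero hM hcon, zero_sub] at h1
      have h3 := memLocalIdeal_neg h1
      rw [neg_neg] at h3
      exact hUG h3
    rw [isPBlock_eq_blockOf hM he1 hξ]
    exact blockOf_eq_of_mem hM (sameBlock_symm h2)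
  · intro he'
    obtain ⟨B', he1, hB', hc⟩ := he
    have hψe : ψ ∈ e := by rw [he']; exact mem_blockOf_self hM ψ
    obtain ⟨χ', hχ'⟩ := isPBlock_nonempty hM hB'
    have h1 := omega_res_sub_omega hM H (ψ : H → ℂ) χ'
      (fun g => hc ψ hψe χ' hχ' g) hzc hzR
    rw [hres'] at h1
    have h2 : SameBlock M (χ' : G → ℂ) (χ : G → ℂ) := by
      by_contra hcon
      rw [omega_zreg_eq_zero hM hcon, sub_zero] at h1
      exact hUH h1
    have h3 : B' = Cfsg.blockOf M (χ : G → ℂ) := by
      rw [isPBlock_eq_blockOf hM hB' hχ']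
      exact blockOf_eq_of_mem hM (sameBlock_symm h2)
    rw [← h3]
    exact ⟨he1, hB', hc⟩

end Cfsg.Agent.S0935
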