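import Cfsg.Statements.S0937
import Cfsg.Agent.Lib.Helper20.HeightZero
open Cfsg.Agent.Lib.Helper20 Cfsg.Agent.Lib.Helper81 Cfsg.Agent.Lib.Helper21

set_option autoImplicit false
open Cfsg

namespace Cfsg.Agent.S0937

/-- Let H be a subgroup of the finite group G and fix a maximal ideal M of the algebraic integers containing the prime p. If the block b of H induces the block B of G and χ ∈ B has height zero, then there is ξ ∈ b of height zero whose multiplicity in the restriction of χ to H is a natural number not divisible by p. -/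
theorem result {G : Type*} [Group G] [Fintype G] (p : ℕ) [Fact p.Prime] (M : Ideal Cfsg.AlgInt) (hM : Cfsg.IsPModular p M) (H : Subgroup G) [Fintype H] (b : Set (Cfsg.IrrCharacter H)) (B : Set (Cfsg.IrrCharacter G)) (hind : Cfsg.IsInducedBlock M H b B) (χ : Cfsg.IrrCharacter G) (hχ : χ ∈ B) (h0 : Cfsg.blockHeight p B (χ : G → ℂ) = 0) : ∃ ξ ∈ b, Cfsg.blockHeight p b (ξ : H → ℂ) = 0 ∧ ∃ n : ℕ, Cfsg.classInner (fun h : H => (χ : G → ℂ) h) (ξ : H → ℂ) = (n : ℂ) ∧ ¬ p ∣ n := by
  classical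
  have : Finite (Cfsg.IrrCharacter H) := finite_irrCharacter
  have : Fintype (Cfsg.IrrCharacter H) := Fintype.ofFinite _
  obtain ⟨hb, hB, hc⟩ := hind
  obtain ⟨ξ0, hξ0, hmin, hle⟩ := exists_height_zero p b (isPBlock_nonempty hM hb)
  have hzc := zreg_classFunction (p := p) (irr_classFunction χ)
  have hzR := zreg_memLocalRing (p := p) hM (isCharacter_of_isIrrCharacter χ.2)
  have hU := omega_zreg_self_unit hM B hB χ hχ h0
  set θ : H → ℂ := fun h : H => (χ : G → ℂ) h with hθ
  have hθc : Cfsg.IsCharacter H θ := isCharacter_restrict (isCharacter_of_isIrrCharacter χ.2) H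
  have hres' : (fun h : H => zreg p (χ : G → ℂ) (h : G)) = zreg p θ := zreg_res H _
  have h1 := omega_res_sub_omega hM H (ξ0 : H → ℂ) χ (fun g => hc ξ0 hξ0 χ hχ g) hzc hzR
  rw [hres'] at h1
  have h2 : ¬ Cfsg.MemLocalIdeal M (omega (ξ0 : H → ℂ) (zreg p θ)) :=
    not_memLocalIdeal_of_sub hM h1 hU
  by_contra hcon
  push Not at hcon
  apply h2
  have hn : ∀ ξ : Cfsg.IrrCharacter H, ∃ n : ℕ, Cfsg.classInner θ (ξ : H → ℂ) = n :=
    fun ξ => isCharacter_classInner_nat hθc ξ.2
  choose n hn using hn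
  have hexp : θ = ∑ ξ : Cfsg.IrrCharacter H, (n ξ : ℂ) • (ξ : H → ℂ) := by
    have := eq_sum_classInner_smul (isClassFunction_of_isCharacter hθc)
    simp only [hn] at this
    exact this
  have h3 : omega (ξ0 : H → ℂ) (zreg p θ) = ∑ ξ : Cfsg.IrrCharacter H, (n ξ : ℂ) *
      ((Nat.card H : ℂ) / (ξ0 : H → ℂ) 1 *
        Cfsg.classInner (Cfsg.pRegularPart p (ξ0 : H → ℂ)) (ξ : H → ℂ)) := by
    rw [omega_zreg]
    conv_lhs => rw [hexp]
    rw [classInner_sum_right, Finset.mul_sum]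
    apply Finset.sum_congr rfl
    intro ξ _
    rw [classInner_smul_right]
    simp only [Complex.conj_natCast]
    ring
  rw [h3]
  apply memLocalIdeal_sum hM
  intro ξ _
  by_cases hξ : ξ ∈ b
  · have h4 : (Nat.card H : ℂ) / (ξ0 : H → ℂ) 1 *
        Cfsg.classInner (Cfsg.pRegularPart p (ξ0 : H → ℂ)) (ξ : H → ℂ)
        = ((Cfsg.charDegree (ξ : H → ℂ) : ℂ) / (Cfsg.charDegree (ξ0 : H → ℂ) : ℂ)) *
          omega (ξ : H → ℂ) (zreg p (ξ0 : H → ℂ)) := by
      rw [omega_zreg, classInner_pRegularPart_symm (isCharacter_of_isIrrCharacter ξ0.2)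
        (isCharacter_of_isIrrCharacter ξ.2), irr_one_eq_charDegree, irr_one_eq_charDegree]
      have h6 : (Cfsg.charDegree (ξ : H → ℂ) : ℂ) ≠ 0 := by
        exact_mod_cast (Cfsg.Agent.Lib.Helper82.isIrr_charDegree_pos ξ.2).ne'
      have h7 : (Cfsg.charDegree (ξ0 : H → ℂ) : ℂ) ≠ 0 := by
        exact_mod_cast (Cfsg.Agent.Lib.Helper82.isIrr_charDegree_pos ξ0.2).ne'
      field_simp
    rw [h4]
    have h5 : Cfsg.MemLocalRing M (omega (ξ : H → ℂ) (zreg p (ξ0 : H → ℂ))) :=
      omega_memLocalRing hM ξ (zreg_classFunction (irr_classFunction ξ0))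
        (zreg_memLocalRing hM (isCharacter_of_isIrrCharacter ξ0.2))
    have h60 := (Cfsg.Agent.Lib.Helper82.isIrr_charDegree_pos ξ0.2).ne'
    by_cases hh : Cfsg.blockHeight p b (ξ : H → ℂ) = 0
    · have h6 := hcon ξ hξ hh (n ξ) (hn ξ)
      apply memLocalIdeal_mul_right hM ((memLocalIdeal_natCast_iff hM _).2 h6)
      apply memLocalRing_mul hM _ h5
      apply memLocalRing_natCast_div hM h60
      exact (pow_dvd_pow p (hle ξ hξ)).trans (Nat.ordProj_dvd _ p)
    · apply memLocalIdeal_mul_left hM (memLocalRing_natCast hM _)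
      apply memLocalIdeal_mul_right hM _ h5
      apply memLocalIdeal_natCast_div hM h60
      have h7 : (Cfsg.charDegree (ξ0 : H → ℂ)).factorization p + 1
          ≤ (Cfsg.charDegree (ξ : H → ℂ)).factorization p := by
        rw [Cfsg.blockHeight, ← hmin] at hh
        omega
      exact (pow_dvd_pow p h7).trans (Nat.ordProj_dvd _ p)
  · have h4 : Cfsg.classInner (Cfsg.pRegularPart p (ξ0 : H → ℂ)) (ξ : H → ℂ) = 0 := by
      apply classInner_pRegularPart_eq_zero hM
      intro h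
      apply hξ
      rw [isPBlock_eq_blockOf hM hb hξ0]
      exact h
    rw [h4, mul_zero, mul_zero]
    exact memLocalIdeal_zero hM

end Cfsg.Agent.S0937
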