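import Cfsg.Statements.S0940
import Cfsg.Agent.S0164
import Cfsg.Agent.S0925
import Cfsg.Agent.Lib.Helper32.GenChar
import Cfsg.Agent.Lib.Helper81.PRegChar
import Cfsg.Agent.Lib.Helper84.Induced
import Cfsg.Agent.Lib.Helper20.FongReynolds
import Cfsg.Agent.Lib.Helper84.BlockQuot
import Cfsg.Agent.Lib.Helper81.Contrib
-- import your own Cfsg.Agent.* helpers here

set_option autoImplicit false
open Cfsg
open scoped ComplexConjugate
open Cfsg.Agent.Lib.Helper20 Cfsg.Agent.Lib.Helper81 Cfsg.Agent.Lib.Helper84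

namespace Cfsg.Agent.S0940

/-- The permutation character on the cosets of a normal subgroup. -/
theorem isCharacter_index_ind {E : Type*} [Group E] [Finite E] (H : Subgroup E) [H.Normal]
    [DecidablePred (· ∈ H)] :
    IsCharacter E (fun e => if e ∈ H then (H.index : ℂ) else 0) := by
  classical
  have h1 := Cfsg.Agent.Lib.Helper4.isCharacter_fixedBy (G := E) (X := E ⧸ H)
  convert h1 using 1
  funext e
  by_cases he : e ∈ H
  · rw [if_pos he]
    have : MulAction.fixedBy (E ⧸ H) e = Set.univ := by
      ext q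
      simp only [MulAction.mem_fixedBy, Set.mem_univ, iff_true]
      induction q using QuotientGroup.induction_on with
      | H a =>
        show ((e * a : E) : E ⧸ H) = (a : E ⧸ H)
        rw [QuotientGroup.eq]
        have h3 : (e * a)⁻¹ * a = a⁻¹ * e⁻¹ * a⁻¹⁻¹ := by group
        rw [h3]
        exact Subgroup.Normal.conj_mem inferInstance _ (H.inv_mem he) _
    rw [this, Nat.card_coe_set_eq, Set.ncard_univ, ← Subgroup.index_eq_card]
  · rw [if_neg he]
    have : MulAction.fixedBy (E ⧸ H) e = ∅ := by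
      ext q
      simp only [MulAction.mem_fixedBy, Set.mem_empty_iff_false, iff_false]
      induction q using QuotientGroup.induction_on with
      | H a =>
        intro h
        have h' : ((e * a : E) : E ⧸ H) = (a : E ⧸ H) := h
        rw [QuotientGroup.eq] at h'
        apply he
        have h4 := Subgroup.Normal.conj_mem (inferInstance : H.Normal) _ (H.inv_mem h') a
        have h3 : a * ((e * a)⁻¹ * a)⁻¹ * a⁻¹ = e := by group
        rwa [h3] at h4
    rw [this]
    simp

/-- An elementary group is nilpotent. -/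
theorem isNilpotent_of_isElementary {E : Type*} [Group E] [Finite E] {q : ℕ} (hq : q.Prime)
    (hE : IsElementary q E) : Group.IsNilpotent E := by
  obtain ⟨x, hx, -, k, hk⟩ := hE
  have : Fact q.Prime := ⟨hq⟩
  have hnorm : (Subgroup.zpowers x).Normal := by
    constructor
    intro y hy g
    obtain ⟨m, rfl⟩ := Subgroup.mem_zpowers_iff.1 hy
    have hc : x ^ m ∈ Subgroup.center E := Subgroup.zpow_mem _ hx m
    rw [Subgroup.mem_center_iff] at hc
    rw [hc g, mul_inv_cancel_right]
    exact Subgroup.zpow_mem_zpowers x m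
  have hp : IsPGroup q (E ⧸ Subgroup.zpowers x) :=
    IsPGroup.of_card (n := k) (by rw [← Subgroup.index_eq_card, hk])
  have : Group.IsNilpotent (E ⧸ Subgroup.zpowers x) := hp.isNilpotent
  apply Subgroup.isNilpotent_of_ker_le_center (QuotientGroup.mk' (Subgroup.zpowers x))
  rw [QuotientGroup.ker_mk', Subgroup.zpowers_le]
  exact hx

/-- Indicator of the `p`-elements. -/
noncomputable def pInd (p : ℕ) (G : Type*) [Group G] : G → ℂ := fun g => by
  classical exact if ∃ k : ℕ, orderOf g = p ^ k then 1 else 0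

theorem pInd_classFunction {G : Type*} [Group G] (p : ℕ) : IsClassFunction G (pInd p G) := by
  intro g h
  have : orderOf (h * g * h⁻¹) = orderOf g := (MulAut.conj h).orderOf_eq g
  have h2 : (∃ k : ℕ, orderOf (h * g * h⁻¹) = p ^ k) ↔ ∃ k : ℕ, orderOf g = p ^ k := by rw [this]
  by_cases h3 : ∃ k : ℕ, orderOf g = p ^ k
  · simp only [pInd, if_pos h3, if_pos (h2.2 h3)]
  · simp only [pInd, if_neg h3, if_neg (fun h' => h3 (h2.1 h'))]

theorem pInd_inv {G : Type*} [Group G] (p : ℕ) (g : G) : pInd p G g⁻¹ = pInd p G g := by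
  have h2 : (∃ k : ℕ, orderOf g⁻¹ = p ^ k) ↔ ∃ k : ℕ, orderOf g = p ^ k := by rw [orderOf_inv]
  by_cases h3 : ∃ k : ℕ, orderOf g = p ^ k
  · simp only [pInd, if_pos h3, if_pos (h2.2 h3)]
  · simp only [pInd, if_neg h3, if_neg (fun h' => h3 (h2.1 h'))]

/-- `|G|_{p'}` times the indicator of the `p`-elements is a generalized character. -/
theorem isGeneralizedCharacter_pInd {G : Type*} [Group G] [Finite G] (p : ℕ) [Fact p.Prime] :
    IsGeneralizedCharacter G (fun g => ((Nat.card G / p ^ (Nat.card G).factorization p : ℕ) : ℂ)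
      * pInd p G g) := by
  classical
  have hp : p.Prime := Fact.out
  apply Cfsg.Agent.S0164.result
  · intro g h
    simp only [pInd_classFunction p g h]
  · intro E q hq hE
    have hnil : Group.IsNilpotent E := isNilpotent_of_isElementary hq hE
    obtain ⟨T⟩ : Nonempty (Sylow p E) := inferInstance
    have hTn : (T : Subgroup E).Normal := inferInstance
    have hmem : ∀ e : E, e ∈ (T : Subgroup E) ↔ ∃ k : ℕ, orderOf (e : G) = p ^ k := by
      intro e
      rw [Subgroup.orderOf_coe]
      constructor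
      · intro he
        obtain ⟨k, hk⟩ := (IsPGroup.iff_orderOf.1 T.isPGroup') ⟨e, he⟩
        exact ⟨k, by rw [← hk, Subgroup.orderOf_mk e he]⟩
      · rintro ⟨k, hk⟩
        have hz : IsPGroup p (Subgroup.zpowers e) :=
          IsPGroup.of_card (n := k) (by rw [Nat.card_zpowers, hk])
        obtain ⟨T', hT'⟩ := hz.exists_le_sylow
        have : Subsingleton (Sylow p E) := (Sylow.unique_of_normal T hTn).instSubsingleton
        rw [Subsingleton.elim T T']
        exact hT' (Subgroup.mem_zpowers e)
    have hdvd : (T : Subgroup E).index ∣ Nat.card G / p ^ (Nat.card G).factorization p := by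
      have h1 : (T : Subgroup E).index ∣ Nat.card G :=
        ((T : Subgroup E).index_dvd_card).trans (Subgroup.card_subgroup_dvd_card E)
      have h2 : Nat.Coprime (T : Subgroup E).index (p ^ (Nat.card G).factorization p) :=
        Nat.Coprime.pow_right _ ((Nat.Prime.coprime_iff_not_dvd hp).2 T.not_dvd_index).symm
      rw [← Nat.ordProj_mul_ordCompl_eq_self (Nat.card G) p] at h1
      exact h2.dvd_of_dvd_mul_left h1
    obtain ⟨c, hc⟩ := hdvd
    have h3 := isCharacter_natCast_mul c (isCharacter_index_ind (T : Subgroup E))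
    refine ⟨_, 0, h3, isCharacter_zero, ?_⟩
    funext e
    simp only [Pi.sub_apply, Pi.zero_apply, sub_zero, pInd]
    rw [hc]
    by_cases he : e ∈ (T : Subgroup E)
    · rw [if_pos he, if_pos ((hmem e).1 he)]
      push_cast; ring
    · rw [if_neg he, if_neg (fun h => he ((hmem e).2 h))]
      simp

theorem classInner_pInd_memLocalRing {G : Type*} [Group G] [Fintype G] {p : ℕ} [Fact p.Prime]
    {M : Ideal AlgInt} (hM : IsPModular p M) (χ : IrrCharacter G) :
    MemLocalRing M (classInner (pInd p G) (χ : G → ℂ)) := by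
  obtain ⟨n, hn⟩ := Cfsg.Agent.Lib.Helper32.genChar_inner_irr_int
    (isGeneralizedCharacter_pInd (G := G) p) χ.2
  set m : ℕ := Nat.card G / p ^ (Nat.card G).factorization p with hm
  have h1 : (fun g => (m : ℂ) * pInd p G g) = (m : ℂ) • pInd p G := rfl
  rw [h1, classInner_smul_left] at hn
  have hu : ¬ MemLocalIdeal M (m : ℂ) := not_memLocalIdeal_ordCompl hM Nat.card_pos.ne'
  have hm0 : (m : ℂ) ≠ 0 := fun h => hu (h ▸ memLocalIdeal_zero hM)
  have h2 : classInner (pInd p G) (χ : G → ℂ) = (n : ℂ) / (m : ℂ) := by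
    rw [← hn]; field_simp
  rw [h2]
  exact memLocalRing_div hM (memLocalRing_intCast hM n) (memLocalRing_natCast hM m) hu

/-- The block part of the indicator of the `p`-elements, at a `p`-regular element. -/
theorem blockPart_pInd {G : Type*} [Group G] [Fintype G] {p : ℕ} [Fact p.Prime]
    {M : Ideal AlgInt} (hM : IsPModular p M) (B : Set (IrrCharacter G)) (hB : IsPBlock M B)
    {g : G} (hg : ¬ p ∣ orderOf g) :
    ∑ᶠ χ ∈ B, classInner (pInd p G) (χ : G → ℂ) * (χ : G → ℂ) g⁻¹ = blockCoeff B g := by
  classical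
  have : Finite (IrrCharacter G) := finite_irrCharacter
  have : Fintype (IrrCharacter G) := Fintype.ofFinite _
  have hp : p.Prime := Fact.out
  let δ : G → ℂ := fun x => if x = 1 then 1 else 0
  let ϑ : G → ℂ := fun x => pInd p G x - δ x
  have hδc : IsClassFunction G δ := by
    intro x h
    have : h * x * h⁻¹ = 1 ↔ x = 1 := by
      constructor
      · intro h1
        have : x = h⁻¹ * (h * x * h⁻¹) * h := by group
        rw [this, h1]; group
      · rintro rfl; group
    simp only [δ, this]
  have hϑc : IsClassFunction G ϑ := by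
    intro x h
    simp only [ϑ, pInd_classFunction p x h, hδc x h]
  have hginv : ¬ p ∣ orderOf g⁻¹ := by rwa [orderOf_inv]
  have h0 := (Cfsg.Agent.S0925.result p M hM).1 ϑ hϑc 1 ⟨0, by simp⟩ ?_ B hB g⁻¹ 1
    (isPPart_one_of_regular hginv) (IsConj.refl 1)
  · rw [blockPart_eq_finsum] at h0
    have h1 : ∀ χ : IrrCharacter G, classInner ϑ (χ : G → ℂ) =
        classInner (pInd p G) (χ : G → ℂ) - (Nat.card G : ℂ)⁻¹ * (χ : G → ℂ) 1 := by
      intro χ
      have : ϑ = pInd p G - δ := rfl
      rw [this, classInner_sub_left]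
      congr 1
      rw [classInner, Finset.sum_eq_single (1 : G)]
      · simp only [δ, if_true, one_mul]
        rw [Cfsg.Agent.Lib.Helper82.isChar_one_eq (Cfsg.Agent.Lib.Helper82.isIrr_isChar χ.2)]
        simp
      · intro x _ hx
        simp [δ, hx]
      · intro h; exact absurd (Finset.mem_univ _) h
    simp only [h1, finsum_mem_irr] at h0
    rw [finsum_mem_irr, blockCoeff, finsum_mem_irr, Finset.mul_sum, ← sub_eq_zero,
      ← Finset.sum_sub_distrib]
    refine Eq.trans ?_ h0
    apply Finset.sum_congr rfl; intro χ _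
    by_cases hχ : χ ∈ B
    · simp only [if_pos hχ]
      rw [isCharacter_inv (isCharacter_of_isIrrCharacter χ.2)]
      ring
    · simp [if_neg hχ]
  · intro u z hu hz
    have hz1 : z = 1 := (isConj_one_right.1 hz)
    subst hz1
    obtain ⟨y, hy, -, -, hyo⟩ := hu
    rw [one_mul] at hy
    subst hy
    simp only [ϑ, δ, pInd]
    by_cases hy1 : y = 1
    · subst hy1
      rw [if_pos ⟨0, by simp⟩, if_pos rfl, sub_self]
    · rw [if_neg hy1, if_neg, sub_self]
      rintro ⟨k, hk⟩
      rcases Nat.eq_zero_or_pos k with rfl | hk0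
      · rw [pow_zero, orderOf_eq_one_iff] at hk
        exact hy1 hk
      · exact hyo (hk ▸ dvd_pow_self p hk0.ne')

theorem card_pairs_eq {G : Type*} [Group G] [Fintype G] (p : ℕ) (g : G) :
    (Nat.card {xy : G × G // (∃ k : ℕ, orderOf xy.1 = p ^ k) ∧ ¬ p ∣ orderOf xy.2 ∧
      xy.1 * xy.2 = g} : ℂ) = ∑ x : G, pInd p G x * pRegInd p G (x⁻¹ * g) := by
  classical
  let e : {xy : G × G // (∃ k : ℕ, orderOf xy.1 = p ^ k) ∧ ¬ p ∣ orderOf xy.2 ∧ xy.1 * xy.2 = g} ≃
      {x : G // (∃ k : ℕ, orderOf x = p ^ k) ∧ ¬ p ∣ orderOf (x⁻¹ * g)} :=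
    { toFun := fun xy => ⟨xy.1.1, xy.2.1, by
        have h := xy.2.2.2
        have h2 : xy.1.1⁻¹ * g = xy.1.2 := inv_mul_eq_iff_eq_mul.2 h.symm
        rw [h2]; exact xy.2.2.1⟩
      invFun := fun x => ⟨(x.1, x.1⁻¹ * g), x.2.1, x.2.2, by simp⟩
      left_inv := by
        rintro ⟨⟨x, y⟩, h1, h2, h3⟩
        simp only [Subtype.mk.injEq, Prod.mk.injEq, true_and]
        rw [← h3]; group
      right_inv := by
        rintro ⟨x, h1, h2⟩
        rfl }
  rw [Nat.card_congr e, Nat.card_eq_fintype_card, Fintype.card_subtype, Finset.card_filter]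
  push_cast
  apply Finset.sum_congr rfl; intro x _
  by_cases h1 : ∃ k : ℕ, orderOf x = p ^ k <;> by_cases h2 : p ∣ orderOf (x⁻¹ * g) <;>
    simp [pInd, pRegInd, h1, h2]


/-- Let G be a finite group and M a maximal ideal of the algebraic integers containing the prime p. For every p-regular g, the idempotent coefficient of the principal block at g (the inverse of the group order times the sum over χ in the principal block of χ 1 * conj (χ g)) is congruent modulo the local ideal at M to N / R, where N is the number of pairs (x, y) with x of p-power order, y of order prime to p and x * y = g, and R is the number of elements of G of order prime to p. -/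
theorem result {G : Type*} [Group G] [Finite G] (p : ℕ) [Fact p.Prime] (M : Ideal Cfsg.AlgInt) (hM : Cfsg.IsPModular p M) (g : G) (hg : ¬ p ∣ orderOf g) : Cfsg.MemLocalIdeal M (Cfsg.blockCoeff (Cfsg.principalBlock M G) g - (Nat.card {xy : G × G // (∃ k : ℕ, orderOf xy.1 = p ^ k) ∧ ¬ p ∣ orderOf xy.2 ∧ xy.1 * xy.2 = g} : ℂ) / (Nat.card {y : G // ¬ p ∣ orderOf y} : ℂ)) := by
  classical
  have := Fintype.ofFinite G
  have : Finite (IrrCharacter G) := finite_irrCharacter
  have : Fintype (IrrCharacter G) := Fintype.ofFinite _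
  let t : IrrCharacter G := ⟨fun _ => 1, Cfsg.Agent.Lib.Helper4.isIrrCharacter_one⟩
  have hB : IsPBlock M (principalBlock M G) := ⟨t, rfl⟩
  set R : ℂ := (Nat.card {y : G // ¬ p ∣ orderOf y} : ℂ) with hR
  have hRu : ¬ MemLocalIdeal M R := not_memLocalIdeal_card_pReg hM
  have hRr : MemLocalRing M R := memLocalRing_natCast hM _
  rw [card_pairs_eq]
  -- character expansion
  have h1 : ∑ x : G, pInd p G x * pRegInd p G (x⁻¹ * g) =
      ∑ χ : IrrCharacter G, classInner (pInd p G) (χ : G → ℂ) *
        (omega (χ : G → ℂ) (pRegInd p G) * (χ : G → ℂ) g⁻¹) := by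
    have hexp : ∀ x : G, pInd p G x =
        ∑ χ : IrrCharacter G, classInner (pInd p G) (χ : G → ℂ) * (χ : G → ℂ) x⁻¹ := by
      intro x
      rw [← pInd_inv]
      have := congrFun (eq_sum_classInner_smul (pInd_classFunction (G := G) p)) x⁻¹
      rw [Finset.sum_apply] at this
      exact this
    simp only [hexp, Finset.sum_mul]
    rw [Finset.sum_comm]
    apply Finset.sum_congr rfl; intro χ _
    rw [← sum_mul_char_mul χ.2 (pRegInd_classFunction p) g⁻¹, Finset.mul_sum]
    rw [← Equiv.sum_comp ((Equiv.inv G).trans (Equiv.mulRight g))]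
    apply Finset.sum_congr rfl; intro x _
    simp only [Equiv.trans_apply, Equiv.inv_apply, Equiv.coe_mulRight]
    have h2 : (x⁻¹ * g)⁻¹ = g⁻¹ * x := by group
    have h3 : pRegInd p G (g⁻¹ * x * g) = pRegInd p G x := by
      have := pRegInd_classFunction (G := G) p x g⁻¹
      rwa [inv_inv] at this
    rw [h2, h3]; ring
  rw [h1]
  have h2 : MemLocalIdeal M (∑ χ : IrrCharacter G, classInner (pInd p G) (χ : G → ℂ) *
        (omega (χ : G → ℂ) (pRegInd p G) * (χ : G → ℂ) g⁻¹) -
      R * blockCoeff (principalBlock M G) g) := by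
    rw [← blockPart_pInd hM _ hB hg, finsum_mem_irr, Finset.mul_sum, ← Finset.sum_sub_distrib]
    apply memLocalIdeal_sum hM
    intro χ _
    by_cases hχ : χ ∈ principalBlock M G
    · rw [if_pos hχ]
      have h3 : SameBlock M (χ : G → ℂ) (t : G → ℂ) := sameBlock_symm hχ
      have h4 := omega_sub_memLocalIdeal hM h3 (pRegInd_classFunction p) (pRegInd_memLocalRing hM)
      have h5 : omega (t : G → ℂ) (pRegInd p G) = R := omega_one_pRegInd p
      rw [h5] at h4
      have h6 : classInner (pInd p G) (χ : G → ℂ) *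
          (omega (χ : G → ℂ) (pRegInd p G) * (χ : G → ℂ) g⁻¹) -
          R * (classInner (pInd p G) (χ : G → ℂ) * (χ : G → ℂ) g⁻¹) =
          (classInner (pInd p G) (χ : G → ℂ) * (χ : G → ℂ) g⁻¹) *
            (omega (χ : G → ℂ) (pRegInd p G) - R) := by ring
      rw [h6]
      exact memLocalIdeal_mul_left hM (memLocalRing_mul hM (classInner_pInd_memLocalRing hM χ)
        (memLocalRing_of_isIntegral hM
          (isCharacter_isIntegral (isCharacter_of_isIrrCharacter χ.2) _))) h4
    · rw [if_neg hχ, omega_pRegInd_eq_zero hM χ hχ]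
      simp only [zero_mul, mul_zero, sub_zero]
      exact memLocalIdeal_zero hM
  have hR0 : R ≠ 0 := fun h => hRu (h ▸ memLocalIdeal_zero hM)
  have h3 := memLocalIdeal_neg (memLocalIdeal_div hM h2 hRr hRu)
  convert h3 using 1
  field_simp
  ring

end Cfsg.Agent.S0940
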