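import Cfsg.Statements.S0943
-- import your own Cfsg.Agent.* helpers here
import Mathlib
import Cfsg.Agent.Lib.Helper79.Central

set_option autoImplicit false
open Cfsg

namespace Cfsg.Agent.S0943

/-- Let χ be an irreducible character of the finite group G and u, v ∈ G. If χ (x * y) = χ (u * v) whenever x is conjugate to u and y is conjugate to v, then χ u * χ v = χ 1 * χ (u * v). (Multiply the class sums of u and v and apply the central character of χ.) -/
theorem result {G : Type*} [Group G] [Finite G] (χ : Cfsg.IrrCharacter G) (u v : G) (hc : ∀ x y : G, IsConj u x → IsConj v y → (χ : G → ℂ) (x * y) = (χ : G → ℂ) (u * v)) : (χ : G → ℂ) u * (χ : G → ℂ) v = (χ : G → ℂ) 1 * (χ : G → ℂ) (u * v) := by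
  classical
  haveI := Fintype.ofFinite G
  have h1 := Cfsg.Agent.Lib.Helper79.IsIrrCharacter.one_ne_zero χ.2
  obtain ⟨χ, d, ρ, hρ, rfl⟩ := χ
  simp only at hc h1 ⊢
  set T : Module.End ℂ (Fin d → ℂ) := ∑ a : G, ρ (a * v * a⁻¹) with hTdef
  have hT : ∀ g, T ∘ₗ ρ g = ρ g ∘ₗ T := by
    intro g
    show T * ρ g = ρ g * T
    rw [hTdef, Finset.sum_mul, Finset.mul_sum]
    simp only [← map_mul]
    symm
    apply Fintype.sum_equiv (Equiv.mulLeft g)
    intro a
    congr 1
    simp [mul_assoc]
  obtain ⟨c, hcT⟩ := Cfsg.Agent.Lib.Helper79.schur_scalar ρ T hT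
  have htr1 : LinearMap.trace ℂ _ T = (Fintype.card G : ℂ) * ρ.character v := by
    rw [hTdef, map_sum]
    have : ∀ a : G, LinearMap.trace ℂ _ (ρ (a * v * a⁻¹)) = ρ.character v := fun a =>
      Representation.char_conj ρ v a
    rw [Finset.sum_congr rfl (fun a _ => this a)]
    simp
  have htr2 : LinearMap.trace ℂ _ T = c * ρ.character 1 := by
    rw [hcT, map_smul, smul_eq_mul, Representation.char_one]
    congr 1
    exact LinearMap.trace_id ℂ _
  have htr3 : LinearMap.trace ℂ _ (ρ u * T) = (Fintype.card G : ℂ) * ρ.character (u * v) := by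
    rw [hTdef, Finset.mul_sum, map_sum]
    simp only [← map_mul]
    have : ∀ a : G, LinearMap.trace ℂ _ (ρ (u * (a * v * a⁻¹))) = ρ.character (u * v) := fun a =>
      hc u (a * v * a⁻¹) (IsConj.refl u) (isConj_iff.2 ⟨a, rfl⟩)
    rw [Finset.sum_congr rfl (fun a _ => this a)]
    simp
  have htr4 : LinearMap.trace ℂ _ (ρ u * T) = c * ρ.character u := by
    rw [hcT, mul_smul_comm, map_smul, smul_eq_mul]
    congr 1
  have hG : (Fintype.card G : ℂ) ≠ 0 := by exact_mod_cast Fintype.card_ne_zero
  have e1 : (Fintype.card G : ℂ) * ρ.character v = c * ρ.character 1 := htr1.symm.trans htr2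
  have e2 : (Fintype.card G : ℂ) * ρ.character (u * v) = c * ρ.character u := htr3.symm.trans htr4
  apply mul_left_cancel₀ hG
  calc (Fintype.card G : ℂ) * (ρ.character u * ρ.character v)
      = ρ.character u * ((Fintype.card G : ℂ) * ρ.character v) := by ring
    _ = ρ.character u * (c * ρ.character 1) := by rw [e1]
    _ = ρ.character 1 * (c * ρ.character u) := by ring
    _ = ρ.character 1 * ((Fintype.card G : ℂ) * ρ.character (u * v)) := by rw [e2]
    _ = (Fintype.card G : ℂ) * (ρ.character 1 * ρ.character (u * v)) := by ring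

end Cfsg.Agent.S0943
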