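import Cfsg.Statements.S0945
-- import your own Cfsg.Agent.* helpers here
import Mathlib
import Cfsg.Agent.Lib.Helper21.Homocyclic

set_option autoImplicit false
open Cfsg

namespace Cfsg.Agent.S0945

/-- Let P be a Sylow 2-subgroup of the finite group G isomorphic to Z/2^m × Z/2^m with m ≥ 1. Then (i) the index of C_G(P) in N_G(P) is 1 or 3, and (ii) if it is not 1, then for every z ≠ 1 in P, C_G(z) ∩ N_G(P) = C_G(P). -/
theorem result {G : Type*} [Group G] [Finite G] (P : Sylow 2 G) (m : ℕ) (hm : 1 ≤ m) (e : (P : Subgroup G) ≃* Multiplicative (ZMod (2 ^ m) × ZMod (2 ^ m))) : ((Subgroup.centralizer (P : Set G)).relIndex (Subgroup.normalizer (P : Set G)) = 1 ∨ (Subgroup.centralizer (P : Set G)).relIndex (Subgroup.normalizer (P : Set G)) = 3) ∧ ((Subgroup.centralizer (P : Set G)).relIndex (Subgroup.normalizer (P : Set G)) ≠ 1 → ∀ z ∈ (P : Subgroup G), z ≠ 1 → Subgroup.centralizer ({z} : Set G) ⊓ Subgroup.normalizer (P : Set G) = Subgroup.centralizer (P : Set G)) := by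
  have h := Cfsg.Agent.Lib.Helper21.homocyclic_relIndex P m hm e
  refine ⟨h, ?_⟩
  intro hne z hz hz1
  have h3 := h.resolve_left hne
  apply le_antisymm
  · rintro g ⟨hgz, hgN⟩
    obtain ⟨k, hk⟩ := (IsPGroup.iff_orderOf.1 P.2) ⟨z, hz⟩
    rw [← Subgroup.orderOf_coe] at hk
    have hk' : orderOf z = 2 ^ k := hk
    have hk0 : k ≠ 0 := by
      rintro rfl
      rw [pow_zero, orderOf_eq_one_iff] at hk'
      exact hz1 hk'
    obtain ⟨j, rfl⟩ : ∃ j, k = j + 1 := ⟨k - 1, by omega⟩
    have ht2 : orderOf (z ^ 2 ^ j) = 2 := by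
      rw [orderOf_pow_of_dvd (by positivity) (by rw [hk']; exact pow_dvd_pow 2 (by omega)), hk',
        pow_succ, Nat.mul_div_cancel_left _ (by positivity)]
    have hc : Commute g z := Subgroup.mem_centralizer_singleton_iff.1 hgz
    exact Cfsg.Agent.Lib.Helper21.homocyclic_mem_centralizer_of_fix P m hm e h3 g hgN (z ^ 2 ^ j)
      (Subgroup.pow_mem _ hz _) ht2 (hc.pow_right _)
  · exact le_inf (Subgroup.centralizer_le (Set.singleton_subset_iff.2 hz)) (Subgroup.centralizer_le_normalizer _)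

end Cfsg.Agent.S0945
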