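import Cfsg.Statements.S0949
-- import your own Cfsg.Agent.* helpers here
import Cfsg.Agent.Lib.Helper2.BrauerHomoG
import Cfsg.Agent.S0945

set_option autoImplicit false
open Cfsg

namespace Cfsg.Agent.S0949

/-- Let the finite group G have a Sylow 2-subgroup P isomorphic to Z/2^m × Z/2^m with m ≥ 2, and suppose G has no nontrivial normal subgroup of odd order. Then P is normal in G, C_G(P) = P, and the index of P is 1 or 3. -/
theorem result {G : Type*} [Group G] [Finite G] (P : Sylow 2 G) (m : ℕ) (hm : 2 ≤ m) (e : (P : Subgroup G) ≃* Multiplicative (ZMod (2 ^ m) × ZMod (2 ^ m))) (hO : ∀ N : Subgroup G, N.Normal → Odd (Nat.card N) → N = ⊥) : (P : Subgroup G).Normal ∧ Subgroup.centralizer (P : Set G) = (P : Subgroup G) ∧ ((P : Subgroup G).index = 1 ∨ (P : Subgroup G).index = 3) := by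
  classical
  have hm1 : 1 ≤ m := by omega
  obtain ⟨hidx, hfr⟩ := Cfsg.Agent.S0945.result P m hm1 e
  have hab : IsMulCommutative (P : Subgroup G) := by
    refine ⟨⟨fun a b => ?_⟩⟩
    apply e.injective
    rw [map_mul, map_mul, mul_comm]
  have hPC : (P : Subgroup G) ≤ Subgroup.centralizer (P : Set G) := by
    intro y hy
    rw [Subgroup.mem_centralizer_iff]
    intro w hw
    exact congrArg Subtype.val (hab.is_comm.comm ⟨w, hw⟩ ⟨y, hy⟩)
  rcases hidx with h1 | h3
  · -- Burnside
    have hNC : Subgroup.normalizer ((P : Subgroup G) : Set G)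
        ≤ Subgroup.centralizer ((P : Subgroup G) : Set G) := Subgroup.relIndex_eq_one.1 h1
    have hcompl := MonoidHom.ker_transferSylow_isComplement' P hNC
    have hodd : Odd (Nat.card (MonoidHom.transferSylow P hNC).ker) := by
      rw [← hcompl.index_eq_card]
      have := P.not_dvd_index
      exact Nat.odd_iff.2 (by omega)
    have hbot := hO _ inferInstance hodd
    rw [hbot] at hcompl
    have htop : (P : Subgroup G) = ⊤ := Subgroup.isComplement'_bot_left.1 hcompl
    refine ⟨by rw [htop]; infer_instance, le_antisymm (by rw [htop]; exact le_top) hPC, Or.inl ?_⟩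
    rw [htop]; exact Subgroup.index_top
  · have hfrob := hfr (by rw [h3]; norm_num)
    have hn : (2 : ℕ) ^ m = 4 * 2 ^ (m - 2) := by
      obtain ⟨k, rfl⟩ : ∃ k, m = k + 2 := ⟨m - 2, by omega⟩
      rw [Nat.add_sub_cancel, pow_add]; ring
    have hcard : Nat.card (P : Subgroup G) = 2 ^ m * 2 ^ m := by
      rw [Nat.card_congr e.toEquiv]
      show Nat.card (ZMod (2 ^ m) × ZMod (2 ^ m)) = _
      rw [Nat.card_prod, Nat.card_zmod]
    have h16 : 16 ∣ Nat.card (P : Subgroup G) := by
      rw [hcard, hn]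
      exact ⟨2 ^ (m - 2) * 2 ^ (m - 2), by ring⟩
    have h2lt : 2 < 2 ^ m := by
      rw [hn]
      have : 0 < 2 ^ (m - 2) := by positivity
      omega
    have hhalf : (2 : ℕ) ^ m = 2 ^ (m - 1) + 2 ^ (m - 1) := by
      obtain ⟨k, rfl⟩ : ∃ k, m = k + 1 := ⟨m - 1, by omega⟩
      rw [Nat.add_sub_cancel, pow_succ]; ring
    have key : ∀ j : ℕ, (e.symm (Multiplicative.ofAdd (((j : ℕ) : ZMod (2 ^ m)), (0 : ZMod (2 ^ m)))) = 1)
        ↔ 2 ^ m ∣ j := by
      intro j
      rw [← ZMod.natCast_eq_zero_iff, MulEquiv.map_eq_one_iff, ofAdd_eq_one, Prod.mk_eq_zero]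
      simp
    have hmul : ∀ i j : ℕ,
        e.symm (Multiplicative.ofAdd (((i : ℕ) : ZMod (2 ^ m)), (0 : ZMod (2 ^ m)))) *
        e.symm (Multiplicative.ofAdd (((j : ℕ) : ZMod (2 ^ m)), (0 : ZMod (2 ^ m))))
        = e.symm (Multiplicative.ofAdd ((((i + j : ℕ)) : ZMod (2 ^ m)), (0 : ZMod (2 ^ m)))) := by
      intro i j
      rw [← map_mul, ← ofAdd_add]
      simp
    obtain ⟨hn1, hn2, hn3⟩ := Cfsg.Agent.Lib.Helper2.brauer_endgame P hab h3 hfrob h16
      (e.symm (Multiplicative.ofAdd (((2 ^ (m - 1) : ℕ) : ZMod (2 ^ m)), (0 : ZMod (2 ^ m)))))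
      (e.symm (Multiplicative.ofAdd (((1 : ℕ) : ZMod (2 ^ m)), (0 : ZMod (2 ^ m)))))
      (by
        rw [Ne, key]
        intro hd
        have h5 := Nat.le_of_dvd (by positivity) hd
        have : 0 < 2 ^ (m - 1) := by positivity
        omega)
      (by rw [hmul, key, ← hhalf])
      (by
        rw [hmul, Ne, key]
        intro hd
        have h5 := Nat.le_of_dvd (by norm_num) hd
        omega) hO
    exact ⟨hn1, hn2, Or.inr hn3⟩

end Cfsg.Agent.S0949
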