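import Cfsg.Statements.S0950
import Cfsg.Agent.Lib.Helper71.Q8Act
import Cfsg.Agent.Lib.Helper71.QuatOdd

set_option autoImplicit false
open Cfsg

namespace Cfsg.Agent.S0950

/-- Let S be a Sylow 2-subgroup of the finite group G that is isomorphic to the quaternion group of order 8, and suppose S has no normal complement in G. Then any two subgroups of order 4 of S are conjugate by an element of the normalizer of S. -/
theorem result {G : Type*} [Group G] [Finite G] (S : Sylow 2 G) (e : (S : Subgroup G) ≃* QuaternionGroup 2) (hnc : ∀ N : Subgroup G, N.Normal → ¬ Subgroup.IsComplement' N (S : Subgroup G)) (A B : Subgroup G) (hA : A ≤ S) (hB : B ≤ S) (hA4 : Nat.card A = 4) (hB4 : Nat.card B = 4) : ∃ n ∈ Subgroup.normalizer ((S : Subgroup G) : Set G), B = A.map (MulAut.conj n).toMonoidHom := by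
  classical
  have : Fact (Nat.Prime 2) := ⟨Nat.prime_two⟩
  have hnpc : ¬ Lib.Helper77.NPC 2 G := by
    rintro ⟨K, hKn, hKc, k, hk⟩
    exact hnc K hKn (Lib.Helper77.isComplement'_of_npc hKc hk S)
  rw [Lib.Helper77.npc_iff_frobCond] at hnpc
  obtain ⟨Q, hQT, g, hgN, hgo, hgC⟩ : ∃ Q : Subgroup G, Q ≤ (S : Subgroup G) ∧
      ∃ g ∈ Subgroup.normalizer (Q : Set G), (orderOf g).Coprime 2 ∧
        g ∉ Subgroup.centralizer (Q : Set G) := by
    by_contra hcon
    push Not at hcon
    exact hnpc (Lib.Helper77.frobCond_of_sylow S (fun Q hQ g hg ho => hcon Q hQ g hg ho))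
  have huniq : ∀ x ∈ Q, ∀ y ∈ Q, orderOf x = 2 → orderOf y = 2 → x = y := by
    intro x hx y hy hx2 hy2
    have := Lib.Helper19.quatX_involution_unique e ⟨x, hQT hx⟩ ⟨y, hQT hy⟩
      (by rw [Subgroup.orderOf_mk]; exact hx2) (by rw [Subgroup.orderOf_mk]; exact hy2)
    exact congrArg Subtype.val this
  have hQp : IsPGroup 2 Q := S.2.to_le hQT
  have hnc' : ∃ q ∈ Q, g * q ≠ q * g := by
    by_contra hcon
    push Not at hcon
    apply hgC
    rw [Subgroup.mem_centralizer_iff]
    intro q hq
    exact (hcon q hq).symm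
  obtain ⟨eQ⟩ := Lib.Helper71.q8_of_odd_action Q hQp huniq g hgN hgo hnc'
  have hQS : Q = (S : Subgroup G) := by
    apply Subgroup.eq_of_le_of_card_ge hQT
    rw [Nat.card_congr eQ.toEquiv, Nat.card_congr e.toEquiv]
  have hodd : Odd (orderOf g) := (Nat.coprime_two_right).1 hgo
  obtain ⟨i, j, hiQ, hjQ, hi, hj, hji, hjn, hgi, hgj, hall, h3⟩ := Lib.Helper71.q8_action Q eQ g
    (fun u hu => (Subgroup.mem_normalizer_iff.1 hgN u).1 hu) (orderOf g) hodd (pow_orderOf_eq_one g)
    (by
      obtain ⟨q, hq, hne⟩ := hnc'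
      refine ⟨q, hq, fun h => hne ?_⟩
      calc g * q = (g * q * g⁻¹) * g := by group
        _ = q * g := by rw [h])
  rw [hQS] at hgN hall h3
  have hz1 : i ^ 2 ≠ 1 := by
    intro h
    have := orderOf_dvd_of_pow_eq_one h
    rw [hi] at this
    omega
  have hz2 : i ^ 2 * i ^ 2 = 1 := by
    rw [← pow_add]
    have h := pow_orderOf_eq_one i
    rw [hi] at h
    exact h
  -- classification of the subgroups of order four
  have hcls : ∀ X : Subgroup G, X ≤ (S : Subgroup G) → Nat.card X = 4 →
      X = Subgroup.zpowers i ∨ X = Subgroup.zpowers j ∨ X = Subgroup.zpowers (i * j) := by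
    intro X hX hX4
    obtain ⟨u, huX, hu⟩ : ∃ u ∈ X, u * u = i ^ 2 := by
      by_contra hcon
      push Not at hcon
      have hsub : ∀ x : X, x = 1 ∨ (x : G) = i ^ 2 := by
        intro x
        rcases h3 x (hX x.2) with h | h | h
        · exact Or.inl (Subtype.ext h)
        · exact Or.inr h
        · exact absurd h (hcon x x.2)
      have hle : Nat.card X ≤ 2 := by
        have hinj : Function.Injective (fun x : X => (if x = 1 then (0 : Fin 2) else 1)) := by
          intro x y hxy
          simp only at hxy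
          by_cases hx : x = 1 <;> by_cases hy : y = 1
          · rw [hx, hy]
          · simp [hx, hy] at hxy
          · simp [hx, hy] at hxy
          · apply Subtype.ext
            rw [(hsub x).resolve_left hx, (hsub y).resolve_left hy]
        have := Nat.card_le_card_of_injective _ hinj
        simpa using this
      omega
    have hu4 : orderOf u = 4 := by
      have := orderOf_eq_prime_pow (x := u) (p := 2) (n := 1)
        (by rw [pow_one, pow_two, hu]; exact hz1)
        (by
          have : u ^ 2 ^ (1 + 1) = (u * u) * (u * u) := by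
            simp only [pow_succ, pow_zero, one_mul, mul_assoc]
            norm_num [pow_succ, mul_assoc]
          rw [this, hu, hz2])
      simpa using this
    have hXu : X = Subgroup.zpowers u := by
      symm
      apply Subgroup.eq_of_le_of_card_ge
      · rw [Subgroup.zpowers_le]; exact huX
      · rw [Nat.card_zpowers, hu4, hX4]
    rw [hXu]
    rcases hall u (hX huX) hu with h | h | h | h | h | h
    · left; rw [h]
    · left; rw [h, Subgroup.zpowers_inv]
    · right; left; rw [h]
    · right; left; rw [h, Subgroup.zpowers_inv]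
    · right; right; rw [h]
    · right; right; rw [h, Subgroup.zpowers_inv]
  have hmap : ∀ x : G, (Subgroup.zpowers x).map (MulAut.conj g).toMonoidHom
      = Subgroup.zpowers (g * x * g⁻¹) := by
    intro x
    rw [MonoidHom.map_zpowers]
    rfl
  have c1 := hmap i
  have c2 := hmap j
  have c3 := hmap (i * j)
  rw [hgi] at c1
  rw [hgj] at c2
  have hgij : g * (i * j) * g⁻¹ = i := by
    have h1 : g * (i * j) * g⁻¹ = (g * i * g⁻¹) * (g * j * g⁻¹) := by group
    rw [h1, hgi, hgj]
    calc j * (i * j) = (j * i * j⁻¹) * (j * j) := by group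
      _ = i⁻¹ * i ^ 2 := by rw [hji, hj]
      _ = i := by rw [pow_two]; group
  rw [hgij] at c3
  have one : ∀ X : Subgroup G, ∃ n ∈ Subgroup.normalizer ((S : Subgroup G) : Set G),
      X = X.map (MulAut.conj n).toMonoidHom := by
    intro X
    refine ⟨1, Subgroup.one_mem _, ?_⟩
    rw [map_one]
    exact (Subgroup.map_id X).symm
  have step : ∀ X Y : Subgroup G, X.map (MulAut.conj g).toMonoidHom = Y →
      ∃ n ∈ Subgroup.normalizer ((S : Subgroup G) : Set G), Y = X.map (MulAut.conj n).toMonoidHom :=
    fun X Y h => ⟨g, hgN, h.symm⟩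
  have step2 : ∀ X Y Z : Subgroup G, X.map (MulAut.conj g).toMonoidHom = Y →
      Y.map (MulAut.conj g).toMonoidHom = Z →
      ∃ n ∈ Subgroup.normalizer ((S : Subgroup G) : Set G), Z = X.map (MulAut.conj n).toMonoidHom := by
    intro X Y Z h1 h2
    refine ⟨g * g, Subgroup.mul_mem _ hgN hgN, ?_⟩
    rw [← h2, ← h1, Subgroup.map_map, map_mul]
    rfl
  rcases hcls A hA hA4 with rfl | rfl | rfl <;> rcases hcls B hB hB4 with rfl | rfl | rfl
  · exact one _
  · exact step _ _ c1
  · exact step2 _ _ _ c1 c2
  · exact step2 _ _ _ c2 c3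
  · exact one _
  · exact step _ _ c2
  · exact step _ _ c3
  · exact step2 _ _ _ c3 c1
  · exact one _

end Cfsg.Agent.S0950
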