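import Cfsg.Statements.S0954
-- import your own Cfsg.Agent.* helpers here
import Mathlib
import Cfsg.Agent.Lib.Helper21.Cover3

set_option autoImplicit false
open Cfsg
open Cfsg.Agent.Lib.Helper20 Cfsg.Agent.Lib.Helper81 Cfsg.Agent.Lib.Helper21 Cfsg.Agent.Lib.Helper5

namespace Cfsg.Agent.S0954

/-- Let N be a normal subgroup of the finite group G of order prime to p and of p-power index (a normal p-complement), and fix a maximal ideal M of the algebraic integers containing p. Then two irreducible characters χ, ψ of G lie in the same block if and only if some irreducible character of N has nonzero inner product with both the restriction of χ and the restriction of ψ. -/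
theorem result {G : Type*} [Group G] [Fintype G] (p : ℕ) [Fact p.Prime] (M : Ideal Cfsg.AlgInt) (hM : Cfsg.IsPModular p M) (N : Subgroup G) [N.Normal] [Fintype N] (hN : ¬ p ∣ Nat.card N) (hidx : ∃ k : ℕ, N.index = p ^ k) (χ ψ : Cfsg.IrrCharacter G) : Cfsg.SameBlock M (χ : G → ℂ) (ψ : G → ℂ) ↔ ∃ θ : Cfsg.IrrCharacter N, Cfsg.classInner (fun n : N => (χ : G → ℂ) n) (θ : N → ℂ) ≠ 0 ∧ Cfsg.classInner (fun n : N => (ψ : G → ℂ) n) (θ : N → ℂ) ≠ 0 := by
  have hNn : N.Normal := inferInstance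
  constructor
  · intro h
    obtain ⟨θ, hθ⟩ := exists_constituent_res N χ
    obtain ⟨ψ', hψ'⟩ := exists_constituent_res N ψ
    have h1 := mem_conjClosure_of_covers hM hNn (B := blockOf M (χ : G → ℂ)) ⟨χ, rfl⟩
      (b := blockOf M (θ : N → ℂ)) ⟨θ, rfl⟩
      ⟨χ, mem_blockOf_self hM χ, θ, mem_blockOf_self hM θ, hθ⟩ (χ' := ψ) h hψ'
    obtain ⟨g, hg⟩ := (mem_conjClosure hNn _ ψ').1 h1
    have h2 : θ = cjIrr hNn g ψ' := eq_of_sameBlock_of_not_dvd_card hM hN hg
    refine ⟨θ, hθ, ?_⟩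
    rw [h2, constituent_cjIrr]
    exact hψ'
  · rintro ⟨θ, h1, h2⟩
    have h3 := covers_unique_of_index_pow hM hNn hidx (B := blockOf M (χ : G → ℂ))
      (B' := blockOf M (ψ : G → ℂ)) ⟨χ, rfl⟩ ⟨ψ, rfl⟩ (b := blockOf M (θ : N → ℂ)) ⟨θ, rfl⟩
      ⟨χ, mem_blockOf_self hM χ, θ, mem_blockOf_self hM θ, h1⟩
      ⟨ψ, mem_blockOf_self hM ψ, θ, mem_blockOf_self hM θ, h2⟩
    have h4 : ψ ∈ blockOf M (χ : G → ℂ) := by rw [h3]; exact mem_blockOf_self hM ψ
    exact h4

end Cfsg.Agent.S0954
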