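import Cfsg.Statements.S0955
-- import your own Cfsg.Agent.* helpers here
import Mathlib
import Cfsg.Agent.Lib.Helper21.FirstMain

set_option autoImplicit false
open Cfsg
open Cfsg.Agent.Lib.Helper20 Cfsg.Agent.Lib.Helper81 Cfsg.Agent.Lib.Helper21

namespace Cfsg.Agent.S0955

/-- Let D be a defect group of a block of the finite group G relative to a maximal ideal M of the algebraic integers containing the prime p. Then D is the largest normal p-subgroup of its own normalizer: O_p(N_G(D)) = D. -/
theorem result {G : Type*} [Group G] [Finite G] (p : ℕ) [Fact p.Prime] (M : Ideal Cfsg.AlgInt) (hM : Cfsg.IsPModular p M) (B : Set (Cfsg.IrrCharacter G)) (hB : Cfsg.IsPBlock M B) (D : Subgroup G) (hD : Cfsg.IsDefectGroup p M B D) : (Cfsg.pCore p (Subgroup.normalizer (D : Set G))).map (Subgroup.normalizer (D : Set G)).subtype = D := by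
  classical
  haveI : Fintype G := Fintype.ofFinite G
  haveI : Fintype (Subgroup.normalizer (D : Set G)) := Fintype.ofFinite _
  have hDp : IsPGroup p D := by
    obtain ⟨g, _, S, rfl⟩ := hD
    exact S.2.map _
  obtain ⟨b, hb1, hb2, _⟩ := exists_block_normalizer hM D hDp B hB hD
  have h1 : Cfsg.pCore p (Subgroup.normalizer (D : Set G))
      = D.subgroupOf (Subgroup.normalizer (D : Set G)) := by
    apply le_antisymm
    · apply sSup_le
      rintro N ⟨hN1, hN2⟩
      exact normal_pSubgroup_le_defectGroup hM b hb1 _ hb2 N hN2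
    · exact le_sSup ⟨Subgroup.normal_in_normalizer, hDp.comap_subtype⟩
  rw [h1, Subgroup.map_subgroupOf_eq_of_le Subgroup.le_normalizer]

end Cfsg.Agent.S0955
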