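import Cfsg.Statements.S0956
import Cfsg.Agent.Lib.Helper84.Green
import Cfsg.Agent.Lib.Helper21.FirstMain
import Cfsg.Agent.Lib.Helper21.DefectCard
import Cfsg.Agent.Lib.Helper77.Frobenius
-- import your own Cfsg.Agent.* helpers here

set_option autoImplicit false
open Cfsg
open scoped ComplexConjugate
open Cfsg.Agent.Lib.Helper20 Cfsg.Agent.Lib.Helper81 Cfsg.Agent.Lib.Helper21 Cfsg.Agent.Lib.Helper84

namespace Cfsg.Agent.S0956


/-- Let D be a defect group of a block of the finite group G (relative to a maximal ideal M of the algebraic integers containing the prime p) and P a Sylow p-subgroup containing D. Then there is an element x of order prime to p such that D is a Sylow p-subgroup of the centralizer of x and D = P ∩ x P x⁻¹. -/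
theorem result {G : Type*} [Group G] [Finite G] (p : ℕ) [Fact p.Prime] (M : Ideal Cfsg.AlgInt) (hM : Cfsg.IsPModular p M) (B : Set (Cfsg.IrrCharacter G)) (hB : Cfsg.IsPBlock M B) (D : Subgroup G) (hD : Cfsg.IsDefectGroup p M B D) (P : Sylow p G) (hDP : D ≤ P) : ∃ x : G, ¬ p ∣ orderOf x ∧ (∃ S : Sylow p (Subgroup.centralizer ({x} : Set G)), (S : Subgroup (Subgroup.centralizer ({x} : Set G))).map (Subgroup.centralizer ({x} : Set G)).subtype = D) ∧ (P : Subgroup G) ⊓ (P : Subgroup G).map (MulAut.conj x).toMonoidHom = D := by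
  classical
  have := Fintype.ofFinite G
  have hDp : IsPGroup p D := P.isPGroup'.to_le hDP
  set N := Subgroup.normalizer (D : Set G) with hN
  have : Fintype N := Fintype.ofFinite _
  obtain ⟨b, hb, hbD, -⟩ := exists_block_normalizer hM D hDp B hB hD
  set D' : Subgroup N := D.subgroupOf N with hD'
  have hDN : D ≤ N := Subgroup.le_normalizer
  have hcD' : Nat.card D' = Nat.card D :=
    Nat.card_congr (Subgroup.subgroupOfEquivOfLe hDN).toEquiv
  have hcard := card_defectGroup hM b hb D' hbD
  have hD'n : D'.Normal := Subgroup.normal_in_normalizer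
  have hD'p : IsPGroup p D' := hDp.comap_subtype
  -- a Sylow subgroup of `N` containing `N_P(D)`
  have hP₁ : IsPGroup p (((P : Subgroup G) ⊓ N).subgroupOf N) :=
    (P.isPGroup'.to_le inf_le_left).comap_subtype
  obtain ⟨P₂, hP₂⟩ := hP₁.exists_le_sylow
  obtain ⟨z, hz1, hz2, hz3, hz4⟩ := green_aux hM b hb P₂
  have hD'P₂ : D' ≤ P₂ := hD'p.le_sylow_of_normal P₂
  have hQ₂ : interConj (P₂ : Subgroup N) z = D' := by
    symm
    apply Subgroup.eq_of_le_of_card_ge
    · intro u hu
      rw [mem_interConj]
      refine ⟨hD'P₂ hu, hD'P₂ ?_⟩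
      have := hD'n.conj_mem u hu z⁻¹
      simpa using this
    · rw [hz2, hcard]
  set x : G := (z : G) with hx
  have hxD : ∀ u ∈ D, u * x = x * u := by
    intro u hu
    have h1 : (⟨u, hDN hu⟩ : N) ∈ interConj (P₂ : Subgroup N) z := by
      rw [hQ₂]; exact Subgroup.mem_subgroupOf.2 hu
    exact congrArg Subtype.val (hz3 _ h1)
  refine ⟨x, ?_, ?_, ?_⟩
  · rw [hx, Subgroup.orderOf_coe]; exact hz1
  · set C := Subgroup.centralizer ({x} : Set G) with hC
    have hDC : D ≤ C := by
      intro u hu
      rw [hC, Subgroup.mem_centralizer_singleton_iff]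
      exact hxD u hu
    have hDCp : IsPGroup p (D.subgroupOf C) := hDp.comap_subtype
    obtain ⟨S, hS⟩ := hDCp.exists_le_sylow
    refine ⟨S, ?_⟩
    set R : Subgroup G := (S : Subgroup C).map C.subtype with hR
    have hRp : IsPGroup p R := S.isPGroup'.map _
    have hDR : D ≤ R := by
      intro u hu
      exact ⟨⟨u, hDC hu⟩, hS (Subgroup.mem_subgroupOf.2 hu), rfl⟩
    by_contra hne
    have hlt : D < R := lt_of_le_of_ne hDR (fun h => hne h.symm)
    obtain ⟨n, hnR, hnN, hnD⟩ := Cfsg.Agent.Lib.Helper77.exists_normalizer_notMem R hRp D hlt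
    -- the `p`-subgroup `R ⊓ N` of `N` centralises `z`
    have h1 := hz4 ((R ⊓ N).subgroupOf N) ((hRp.to_le inf_le_left).comap_subtype) ?_
    · have h2 : Nat.card ((R ⊓ N).subgroupOf N) = Nat.card (R ⊓ N : Subgroup G) :=
        Nat.card_congr (Subgroup.subgroupOfEquivOfLe inf_le_right).toEquiv
      rw [h2, ← hcard, hcD'] at h1
      have h3 : D < R ⊓ N := by
        apply lt_of_le_of_ne (le_inf hDR hDN)
        intro h
        apply hnD
        rw [h]
        exact ⟨hnR, hnN⟩
      have h4 := Subgroup.eq_of_le_of_card_ge h3.le h1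
      exact h3.ne h4
    · intro u hu
      have hu' : (u : G) ∈ R := (Subgroup.mem_subgroupOf.1 hu).1
      obtain ⟨s, -, hs⟩ := hu'
      apply Subtype.ext
      show (u : G) * x = x * u
      rw [← hs]
      exact Subgroup.mem_centralizer_singleton_iff.1 s.2
  · apply le_antisymm
    · by_contra hnle
      set Q := (P : Subgroup G) ⊓ (P : Subgroup G).map (MulAut.conj x).toMonoidHom with hQ
      have hQp : IsPGroup p Q := P.isPGroup'.to_le inf_le_left
      have hDQ : D ≤ Q := by
        intro u hu
        show u ∈ interConj (P : Subgroup G) x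
        rw [mem_interConj]
        refine ⟨hDP hu, ?_⟩
        have : x⁻¹ * u * x = u := by
          rw [mul_assoc, hxD u hu]; group
        rw [this]; exact hDP hu
      have hlt : D < Q := lt_of_le_of_ne hDQ (fun h => hnle h.symm.le)
      obtain ⟨n, hnQ, hnN, hnD⟩ := Cfsg.Agent.Lib.Helper77.exists_normalizer_notMem Q hQp D hlt
      have hnQ' : n ∈ interConj (P : Subgroup G) x := hnQ
      rw [mem_interConj] at hnQ'
      apply hnD
      have h1 : (⟨n, hnN⟩ : N) ∈ interConj (P₂ : Subgroup N) z := by
        rw [mem_interConj]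
        constructor
        · apply hP₂
          exact Subgroup.mem_subgroupOf.2 ⟨hnQ'.1, hnN⟩
        · apply hP₂
          refine Subgroup.mem_subgroupOf.2 ⟨hnQ'.2, ?_⟩
          exact (z⁻¹ * ⟨n, hnN⟩ * z : N).2
      rw [hQ₂] at h1
      exact Subgroup.mem_subgroupOf.1 h1
    · intro u hu
      show u ∈ interConj (P : Subgroup G) x
      rw [mem_interConj]
      refine ⟨hDP hu, ?_⟩
      have : x⁻¹ * u * x = u := by
        rw [mul_assoc, hxD u hu]; group
      rw [this]; exact hDP hu

end Cfsg.Agent.S0956
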