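import Cfsg.Statements.S0957
-- import your own Cfsg.Agent.* helpers here
import Mathlib

set_option autoImplicit false
open Cfsg

namespace Cfsg.Agent.S0957

theorem dvd_card_of_orbits {H X : Type*} [Group H] [MulAction H X] [Finite X] (d : ℕ)
    (hdiv : ∀ x : X, d ∣ Nat.card (MulAction.orbit H x)) : d ∣ Nat.card X := by
  classical
  haveI : Fintype (Quotient (MulAction.orbitRel H X)) := Fintype.ofFinite _
  rw [Nat.card_congr (MulAction.selfEquivSigmaOrbits H X), Nat.card_sigma]
  exact Finset.dvd_sum (fun ω _ => hdiv _)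

theorem card_centralizer_conj {G : Type*} [Group G] (g c : G) :
    Nat.card (Subgroup.centralizer ({c * g * c⁻¹} : Set G)) =
      Nat.card (Subgroup.centralizer ({g} : Set G)) := by
  have h : Subgroup.centralizer ({c * g * c⁻¹} : Set G) =
      (Subgroup.centralizer ({g} : Set G)).map (MulAut.conj c).toMonoidHom := by
    ext x
    rw [Subgroup.mem_map_equiv, Subgroup.mem_centralizer_singleton_iff,
      Subgroup.mem_centralizer_singleton_iff, MulAut.conj_symm_apply]
    constructor
    · intro h
      have : c⁻¹ * (x * (c * g * c⁻¹)) * c = c⁻¹ * (c * g * c⁻¹ * x) * c := by rw [h]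
      simpa [mul_assoc] using this
    · intro h
      have : c * (c⁻¹ * x * c * g) * c⁻¹ = c * (g * (c⁻¹ * x * c)) * c⁻¹ := by rw [h]
      simpa [mul_assoc] using this
  rw [h, Subgroup.card_map_of_injective (MulAut.conj c).injective]

/-- The set of pairs being counted. -/
abbrev Pairs {G : Type*} [Group G] (P : Subgroup G) (g h : G) : Type _ :=
  {yz : G × G // IsConj g yz.1 ∧ IsConj h yz.2 ∧ yz.2 * yz.1⁻¹ ∈ P}

/-- `P` acts on the pairs by simultaneous conjugation. -/
instance pairsAction {G : Type*} [Group G] (P : Subgroup G) (g h : G) :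
    MulAction P (Pairs P g h) where
  smul u x := ⟨(u * x.1.1 * (u : G)⁻¹, u * x.1.2 * (u : G)⁻¹),
    x.2.1.trans (isConj_iff.2 ⟨u, rfl⟩), x.2.2.1.trans (isConj_iff.2 ⟨u, rfl⟩), by
      have : (u : G) * x.1.2 * (u : G)⁻¹ * ((u : G) * x.1.1 * (u : G)⁻¹)⁻¹ =
          u * (x.1.2 * x.1.1⁻¹) * (u : G)⁻¹ := by group
      show (u : G) * x.1.2 * (u : G)⁻¹ * ((u : G) * x.1.1 * (u : G)⁻¹)⁻¹ ∈ P
      rw [this]
      exact P.mul_mem (P.mul_mem u.2 x.2.2.2) (P.inv_mem u.2)⟩
  one_smul x := by
    apply Subtype.ext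
    show (((1 : P) : G) * x.1.1 * ((1 : P) : G)⁻¹, ((1 : P) : G) * x.1.2 * ((1 : P) : G)⁻¹) = x.1
    simp
  mul_smul u v x := by
    apply Subtype.ext
    show (((u * v : P) : G) * x.1.1 * ((u * v : P) : G)⁻¹, ((u * v : P) : G) * x.1.2 * ((u * v : P) : G)⁻¹) =
      ((u : G) * ((v : G) * x.1.1 * (v : G)⁻¹) * (u : G)⁻¹, (u : G) * ((v : G) * x.1.2 * (v : G)⁻¹) * (u : G)⁻¹)
    simp [mul_assoc]

theorem pairs_smul_fst {G : Type*} [Group G] (P : Subgroup G) (g h : G) (u : P) (x : Pairs P g h) :
    (u • x).1.1 = u * x.1.1 * (u : G)⁻¹ := rfl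

/-- Let P be a Sylow p-subgroup of the finite group G, let g, h ∈ G and let p ^ d be the order of a Sylow p-subgroup of the centralizer of g. Then the number of pairs (y, z) with y conjugate to g, z conjugate to h and z * y⁻¹ ∈ P is divisible by the order of P divided by p ^ d. -/
theorem result {G : Type*} [Group G] [Finite G] (p : ℕ) [Fact p.Prime] (P : Sylow p G) (g h : G) (S : Sylow p (Subgroup.centralizer ({g} : Set G))) : Nat.card P / Nat.card S ∣ Nat.card {yz : G × G // IsConj g yz.1 ∧ IsConj h yz.2 ∧ yz.2 * yz.1⁻¹ ∈ (P : Subgroup G)} := by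
  classical
  have hpp : p.Prime := Fact.out
  apply dvd_card_of_orbits (H := (P : Subgroup G)) (X := Pairs (P : Subgroup G) g h)
  intro x
  rw [Nat.card_coe_set_eq, ← MulAction.index_stabilizer]
  set St := MulAction.stabilizer (P : Subgroup G) x with hSt
  obtain ⟨c, hc⟩ := isConj_iff.1 x.2.1
  -- the stabilizer embeds in the centralizer of y
  have hle : St.map (P : Subgroup G).subtype ≤ Subgroup.centralizer ({x.1.1} : Set G) := by
    rintro _ ⟨u, hu, rfl⟩
    rw [Subgroup.mem_centralizer_singleton_iff]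
    have h1 : u • x = x := hu
    have h2 : (u : G) * x.1.1 * (u : G)⁻¹ = x.1.1 := by
      rw [← pairs_smul_fst, h1]
    show (u : G) * x.1.1 = x.1.1 * u
    exact mul_inv_eq_iff_eq_mul.1 h2
  have hStp : IsPGroup p (St.map (P : Subgroup G).subtype) := (P.2.to_subgroup St).map _
  have hStp' : IsPGroup p ((St.map (P : Subgroup G).subtype).subgroupOf
      (Subgroup.centralizer ({x.1.1} : Set G))) := hStp.comap_subtype
  obtain ⟨S', hS'⟩ := hStp'.exists_le_sylow
  have hcardS' : Nat.card S' = Nat.card S := by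
    rw [S'.card_eq_multiplicity, S.card_eq_multiplicity, ← hc, card_centralizer_conj]
  have h1 : Nat.card St ∣ Nat.card S := by
    rw [← hcardS']
    have h2 := Subgroup.card_dvd_of_le hS'
    have h3 : Nat.card ((St.map (P : Subgroup G).subtype).subgroupOf
      (Subgroup.centralizer ({x.1.1} : Set G))) = Nat.card St := by
      rw [← Subgroup.card_map_of_injective (Subgroup.subtype_injective _),
        Subgroup.subgroupOf_map_subtype, inf_of_le_left hle,
        Subgroup.card_map_of_injective (Subgroup.subtype_injective _)]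
    rwa [h3] at h2
  have h2 : Nat.card S ∣ Nat.card P := by
    have hSp : IsPGroup p ((S : Subgroup _).map (Subgroup.centralizer ({g} : Set G)).subtype) := S.2.map _
    obtain ⟨P', hP'⟩ := hSp.exists_le_sylow
    have h3 := Subgroup.card_dvd_of_le hP'
    rw [Subgroup.card_map_of_injective (Subgroup.subtype_injective _)] at h3
    have h4 : Nat.card P' = Nat.card P := by
      rw [P'.card_eq_multiplicity, P.card_eq_multiplicity]
    rwa [← h4]
  have h3 : St.index = Nat.card P / Nat.card St := by
    rw [← St.card_mul_index, Nat.mul_div_cancel_left _ Nat.card_pos]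
  rw [h3]
  exact Nat.div_dvd_div_left h2 h1

end Cfsg.Agent.S0957
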