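import Cfsg.Statements.S0958
-- import your own Cfsg.Agent.* helpers here
import Mathlib
import Cfsg.Agent.Lib.Helper21.FirstMain

set_option autoImplicit false
open Cfsg
open Cfsg.Agent.Lib.Helper20 Cfsg.Agent.Lib.Helper81 Cfsg.Agent.Lib.Helper21

namespace Cfsg.Agent.S0958

/-- Let P be a p-subgroup of the finite group G and H a subgroup with P ⊔ C_G(P) ≤ H ≤ N_G(P); fix a maximal ideal M of the algebraic integers containing p. Then a block B of G is induced by some block of H if and only if some conjugate of P is contained in a defect group of B. -/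
theorem result {G : Type*} [Group G] [Finite G] (p : ℕ) [Fact p.Prime] (M : Ideal Cfsg.AlgInt) (hM : Cfsg.IsPModular p M) (P H : Subgroup G) (hP : IsPGroup p P) (hPH : P ⊔ Subgroup.centralizer (P : Set G) ≤ H) (hHN : H ≤ Subgroup.normalizer (P : Set G)) (B : Set (Cfsg.IrrCharacter G)) (hB : Cfsg.IsPBlock M B) : (∃ b : Set (Cfsg.IrrCharacter H), Cfsg.IsInducedBlock M H b B) ↔ ∃ D : Subgroup G, Cfsg.IsDefectGroup p M B D ∧ ∃ x : G, P.map (MulAut.conj x).toMonoidHom ≤ D := by
  classical
  haveI : Fintype G := Fintype.ofFinite G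
  haveI : Fintype H := Fintype.ofFinite _
  have hPH' : P ≤ H := le_sup_left.trans hPH
  have hCH : Subgroup.centralizer (P : Set G) ≤ H := le_sup_right.trans hPH
  constructor
  · rintro ⟨b, hb⟩
    obtain ⟨Q, hQ⟩ := exists_isDefectGroup hM b hb.1
    haveI : (P.subgroupOf H).Normal := (Subgroup.normal_subgroupOf_iff_le_normalizer hPH').2 hHN
    have h1 : P.subgroupOf H ≤ Q :=
      normal_pSubgroup_le_defectGroup hM b hb.1 Q hQ _ hP.comap_subtype
    obtain ⟨E, hE, hQE⟩ := defectGroup_le_of_induced hM hb Q hQ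
    refine ⟨E, hE, 1, ?_⟩
    have h2 : P.map (MulAut.conj (1 : G)).toMonoidHom = P := by
      ext y; simp [mem_map_conj]
    rw [h2, ← Subgroup.map_subgroupOf_eq_of_le hPH']
    exact (Subgroup.map_mono h1).trans hQE
  · rintro ⟨D, hD, x, hx⟩
    have hD' := isDefectGroup_conj hD x⁻¹
    rw [← inv_inv x, ← le_map_conj_iff] at hx
    rw [isDefectGroup_iff] at hD'
    obtain ⟨g, hg, hgD⟩ := hD'
    exact exists_induced_of_unit_coeff hM hP hPH' hCH hHN B hB g
      (le_centralizer_singleton_iff.1 (hx.trans hgD.le)) hg.2.1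

end Cfsg.Agent.S0958
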