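import Cfsg.Statements.S0959
-- import your own Cfsg.Agent.* helpers here
import Mathlib
import Cfsg.Agent.Lib.Helper21.MinMax

set_option autoImplicit false
open Cfsg
open Cfsg.Agent.Lib.Helper20 Cfsg.Agent.Lib.Helper81 Cfsg.Agent.Lib.Helper21

namespace Cfsg.Agent.S0959

/-- Let B be a block of the finite group G with defect group D (relative to a maximal ideal M of the algebraic integers containing the prime p), and let P be a p-subgroup. Then there is an element g whose idempotent coefficient for B is a local integer outside the local ideal at M and which has a conjugate centralizing P, if and only if some conjugate of P is contained in D. -/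
theorem result {G : Type*} [Group G] [Finite G] (p : ℕ) [Fact p.Prime] (M : Ideal Cfsg.AlgInt) (hM : Cfsg.IsPModular p M) (B : Set (Cfsg.IrrCharacter G)) (hB : Cfsg.IsPBlock M B) (D : Subgroup G) (hD : Cfsg.IsDefectGroup p M B D) (P : Subgroup G) (hP : IsPGroup p P) : (∃ g : G, Cfsg.MemLocalRing M (Cfsg.blockCoeff B g) ∧ ¬ Cfsg.MemLocalIdeal M (Cfsg.blockCoeff B g) ∧ ∃ c : G, IsConj g c ∧ c ∈ Subgroup.centralizer (P : Set G)) ↔ ∃ x : G, P.map (MulAut.conj x).toMonoidHom ≤ D := by
  classical
  haveI : Fintype G := Fintype.ofFinite G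
  obtain ⟨g0, hg0, S, rfl⟩ := hD
  have hD : SylowIn p (Subgroup.centralizer ({g0} : Set G))
      ((S : Subgroup (Subgroup.centralizer ({g0} : Set G))).map
        (Subgroup.centralizer ({g0} : Set G)).subtype) := ⟨S, rfl⟩
  constructor
  · rintro ⟨g, _, hg, c, hgc, hc⟩
    have hb : blockCoeff B g = blockCoeff B c := classFunction_isConj (blockCoeff_classFunction B) hgc
    rw [hb] at hg
    apply minmax_le_conj hM B hB g0 c hg0.2.2 hg _ hD P hP
    intro q hq
    rw [Subgroup.mem_centralizer_singleton_iff]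
    rw [Subgroup.mem_centralizer_iff] at hc
    exact hc q hq
  · rintro ⟨x, hx⟩
    refine ⟨g0, hg0.1, hg0.2.1, x⁻¹ * g0 * x, isConj_iff.2 ⟨x⁻¹, by simp⟩, ?_⟩
    rw [Subgroup.mem_centralizer_iff]
    intro q hq
    have h1 : x * q * x⁻¹ ∈ Subgroup.centralizer ({g0} : Set G) := by
      apply hD.le
      apply hx
      exact ⟨q, hq, rfl⟩
    rw [Subgroup.mem_centralizer_singleton_iff] at h1
    have h2 : x⁻¹ * (x * q * x⁻¹ * g0) * x = x⁻¹ * (g0 * (x * q * x⁻¹)) * x := by rw [h1]
    simpa [mul_assoc] using h2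

end Cfsg.Agent.S0959
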