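import Cfsg.Statements.S0962
-- import your own Cfsg.Agent.* helpers here
import Mathlib
import Cfsg.Agent.Lib.Helper21.DefectCard

set_option autoImplicit false
open Cfsg
open Cfsg.Agent.Lib.Helper20 Cfsg.Agent.Lib.Helper81 Cfsg.Agent.Lib.Helper21

namespace Cfsg.Agent.S0962

/-- Fix a maximal ideal M of the algebraic integers containing the prime p and a natural number d. The number of blocks of the finite group G of defect at least d is at most the number of conjugacy classes of p-regular elements of G of defect at least d, where the defect of a class is the exponent of p in the order of the centralizer of any of its elements. -/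
theorem result {G : Type*} [Group G] [Finite G] (p : ℕ) [Fact p.Prime] (M : Ideal Cfsg.AlgInt) (hM : Cfsg.IsPModular p M) (d : ℕ) : Nat.card {B : Set (Cfsg.IrrCharacter G) // Cfsg.IsPBlock M B ∧ d ≤ Cfsg.blockDefect p B} ≤ Nat.card {C : ConjClasses G // ∃ g : G, ConjClasses.mk g = C ∧ Cfsg.IsPRegular p g ∧ d ≤ (Nat.card (Subgroup.centralizer ({g} : Set G))).factorization p} := by
  classical
  haveI : Fintype G := Fintype.ofFinite G
  haveI : Finite (IrrCharacter G) := finite_irrCharacter
  haveI : Fintype (IrrCharacter G) := Fintype.ofFinite _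
  haveI : Fintype (ConjClasses G) := Fintype.ofFinite _
  set 𝔅 := {B : Set (Cfsg.IrrCharacter G) // Cfsg.IsPBlock M B ∧ d ≤ Cfsg.blockDefect p B} with h𝔅
  set Kp : ConjClasses G → Prop := fun C => ∃ g : G, ConjClasses.mk g = C ∧ Cfsg.IsPRegular p g ∧
    d ≤ (Nat.card (Subgroup.centralizer ({g} : Set G))).factorization p with hKp
  haveI : Fintype 𝔅 := Fintype.ofFinite _
  have hne : ∀ B : 𝔅, ∃ χ : IrrCharacter G, χ ∈ B.1 := fun B => isPBlock_nonempty hM B.2.1
  choose χ hχ using hne
  let A : Matrix 𝔅 {C : ConjClasses G // Kp C} ℂ := fun B C => blockCoeff B.1 (Quotient.out C.1)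
  let L : Matrix {C : ConjClasses G // Kp C} 𝔅 ℂ :=
    fun C B => centralChar (χ B : G → ℂ) (Quotient.out C.1)
  have hdet : (A * L).det ≠ 0 := by
    apply det_ne_zero_of_congr_one hM
    intro B B'
    have h1 : omega (χ B' : G → ℂ) (blockCoeff B.1) = (1 : Matrix 𝔅 𝔅 ℂ) B B' := by
      rw [omega_blockCoeff, Matrix.one_apply]
      by_cases hBB : B = B'
      · rw [if_pos hBB, if_pos (hBB ▸ hχ B')]
      · rw [if_neg hBB, if_neg]
        intro hmem
        apply hBB
        apply Subtype.ext
        rw [isPBlock_eq_blockOf hM B.2.1 hmem, isPBlock_eq_blockOf hM B'.2.1 (hχ B')]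
    rw [Matrix.sub_apply, ← h1, omega_eq_sum_classes (irr_classFunction _)
      (blockCoeff_classFunction _), ← Fintype.sum_subtype_add_sum_subtype Kp, Matrix.mul_apply]
    have h5 : ∀ a b c : ℂ, a = b → a - (b + c) = -c := by intro a b c h; rw [h]; ring
    rw [h5 _ _ _ rfl]
    apply memLocalIdeal_neg
    apply memLocalIdeal_sum hM
    intro C _
    have hC := C.2
    by_cases hreg : p ∣ orderOf (Quotient.out C.1)
    · rw [blockCoeff_eq_zero_of_singular hM B.1 B.2.1 hreg, zero_mul]
      exact memLocalIdeal_zero hM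
    · apply memLocalIdeal_mul_left hM (osima hM B.1 B.2.1 _)
      by_contra hunit
      apply hC
      refine ⟨Quotient.out C.1, Quotient.out_eq _, hreg, B'.2.2.trans ?_⟩
      apply blockDefect_le_factorization_centralizer hM B'.1 B'.2.1
      exact centralChar_unit_of_exists hM B'.1 B'.2.1 _ ⟨χ B', hχ B', hunit⟩
  have hunit : IsUnit (A * L) := (Matrix.isUnit_iff_isUnit_det _).2 (isUnit_iff_ne_zero.2 hdet)
  have h2 := Matrix.rank_of_isUnit (A * L) hunit
  have h3 := Matrix.rank_mul_le_left A L
  have h4 := Matrix.rank_le_card_width A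
  rw [← Nat.card_eq_fintype_card] at h2 h4
  exact (h2 ▸ h3).trans h4

end Cfsg.Agent.S0962
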