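import Cfsg.Statements.S0967
import Mathlib
import Cfsg.Agent.Lib.Helper84.BlockQuot
-- import your own Cfsg.Agent.* helpers here

set_option autoImplicit false
open Cfsg
open Cfsg.Agent.Lib.Helper81 Cfsg.Agent.Lib.Helper82 Cfsg.Agent.Lib.Helper84

namespace Cfsg.Agent.S0967


/-- Let N be a normal subgroup of the finite group G of order prime to p and fix a maximal ideal M of the algebraic integers containing p. If χ is an irreducible character of G ⧸ N and ψ lies in the block of its inflation χ ∘ (quotient map), then ψ is itself inflated from an irreducible character ψ' of G ⧸ N lying in the block of χ. (Over a normal p'-subgroup, blocks of the quotient are whole blocks of G.) -/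
theorem result {G : Type*} [Group G] [Finite G] (p : ℕ) [Fact p.Prime] (M : Ideal Cfsg.AlgInt) (hM : Cfsg.IsPModular p M) (N : Subgroup G) [N.Normal] (hN : ¬ p ∣ Nat.card N) (χ : Cfsg.IrrCharacter (G ⧸ N)) (ψ : Cfsg.IrrCharacter G) (hψ : ψ ∈ Cfsg.blockOf M ((χ : G ⧸ N → ℂ) ∘ QuotientGroup.mk)) : ∃ ψ' : Cfsg.IrrCharacter (G ⧸ N), (ψ : G → ℂ) = (ψ' : G ⧸ N → ℂ) ∘ QuotientGroup.mk ∧ Cfsg.SameBlock M (χ : G ⧸ N → ℂ) (ψ' : G ⧸ N → ℂ) := by
  classical
  have := Fintype.ofFinite G
  have := Fintype.ofFinite (G ⧸ N)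
  let χ' : IrrCharacter G := (irrQuotEquiv N χ).1
  have hχ' : χ' ∈ overKer N := (irrQuotEquiv N χ).2
  have hχ'f : (χ' : G → ℂ) = fun g : G => (χ : G ⧸ N → ℂ) (g : G ⧸ N) := rfl
  have hsame : SameBlock M (χ' : G → ℂ) (ψ : G → ℂ) := hψ
  have hψk : ψ ∈ overKer N := overKer_union_of_blocks hM N hN hχ' hsame
  let ψ' : IrrCharacter (G ⧸ N) := (irrQuotEquiv N).symm ⟨ψ, hψk⟩
  have hψ' : (ψ : G → ℂ) = fun g : G => (ψ' : G ⧸ N → ℂ) (g : G ⧸ N) := by
    funext g
    exact (irrQuotEquiv_symm_apply N ⟨ψ, hψk⟩ g).symm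
  refine ⟨ψ', hψ', fun q => ?_⟩
  have hz : IsClassFunction G (fun g : G => classInd q (g : G ⧸ N)) := by
    intro g h
    have := classInd_classFunction q (g : G ⧸ N) (h : G ⧸ N)
    simpa using this
  have hzR : ∀ g : G, MemLocalRing M (classInd q (g : G ⧸ N)) := by
    intro g
    unfold classInd
    split_ifs
    · exact memLocalRing_one hM
    · exact memLocalRing_zero hM
  have h1 := omega_sub_memLocalIdeal hM hsame hz hzR
  rw [hχ'f, hψ', omega_inflate, omega_inflate, omega_classInd (irr_classFunction χ),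
    omega_classInd (irr_classFunction ψ'), ← mul_sub] at h1
  have h2 := (memLocalIdeal_mul_iff hM (memLocalRing_natCast hM _)
    (memLocalRing_sub hM (centralChar_memLocalRing hM χ q) (centralChar_memLocalRing hM ψ' q))).1 h1
  rcases h2 with h2 | h2
  · exact absurd ((memLocalIdeal_natCast_iff hM _).1 h2) hN
  · exact h2

end Cfsg.Agent.S0967
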