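import Cfsg.Statements.S0971
-- import your own Cfsg.Agent.* helpers here
import Mathlib
import Cfsg.Agent.Lib.Helper21.Cover3
import Cfsg.Agent.S0919

set_option autoImplicit false
open Cfsg
open Cfsg.Agent.Lib.Helper20 Cfsg.Agent.Lib.Helper81 Cfsg.Agent.Lib.Helper21 Cfsg.Agent.Lib.Helper5

namespace Cfsg.Agent.S0971

/-- Let Q be a normal p-subgroup of the finite group G, let N = Q ⊔ C_G(Q) (a normal subgroup) and let b be a block of N relative to a maximal ideal M of the algebraic integers containing p. Then b induces some block of G, and every block B of G containing a character whose restriction to N has a constituent in b is induced by b. -/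
theorem result {G : Type*} [Group G] [Fintype G] (p : ℕ) [Fact p.Prime] (M : Ideal Cfsg.AlgInt) (hM : Cfsg.IsPModular p M) (Q : Subgroup G) [Q.Normal] (hQ : IsPGroup p Q) [Fintype ↥(Q ⊔ Subgroup.centralizer (Q : Set G))] (b : Set (Cfsg.IrrCharacter ↥(Q ⊔ Subgroup.centralizer (Q : Set G)))) (hb : Cfsg.IsPBlock M b) : Cfsg.InducedBlockDefined M (Q ⊔ Subgroup.centralizer (Q : Set G)) b ∧ ∀ B : Set (Cfsg.IrrCharacter G), Cfsg.IsPBlock M B → (∃ χ ∈ B, ∃ θ ∈ b, Cfsg.classInner (fun n : ↥(Q ⊔ Subgroup.centralizer (Q : Set G)) => (χ : G → ℂ) n) (θ : ↥(Q ⊔ Subgroup.centralizer (Q : Set G)) → ℂ) ≠ 0) → Cfsg.IsInducedBlock M (Q ⊔ Subgroup.centralizer (Q : Set G)) b B := by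
  have hN : (Q ⊔ Subgroup.centralizer (Q : Set G)).Normal := inferInstance
  have hHN : Q ⊔ Subgroup.centralizer (Q : Set G) ≤ Subgroup.normalizer (Q : Set G) := by
    rw [Subgroup.normalizer_eq_top]; exact le_top
  refine ⟨Cfsg.Agent.S0919.result p M hM Q _ hQ le_sup_left le_sup_right hHN b hb, ?_⟩
  intro B hB hcov
  have h1 := (covers_iff hM hN hB hb).1 hcov
  refine ⟨hb, hB, ?_⟩
  intro ξ hξ χ hχ g
  by_cases hg : g ∈ Q ⊔ Subgroup.centralizer (Q : Set G)
  · have := memLocalIdeal_neg (h1 χ hχ ξ hξ ⟨g, hg⟩)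
    rwa [neg_sub] at this
  · rw [inducedCentralChar_eq_zero_of_not_mem hN _ hg, zero_sub]
    apply memLocalIdeal_neg
    apply centralChar_memLocalIdeal_of_not_mem_centralizer hM Q hQ χ g
    intro hc
    exact hg (le_sup_right (a := Q) hc)

end Cfsg.Agent.S0971
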