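import Cfsg.Statements.S0972
import Cfsg.Agent.Lib.Helper20.NormalDefect
import Cfsg.Agent.Lib.Helper5.DegHyp
import Cfsg.Agent.S0169
open Cfsg.Agent.Lib.Helper20 Cfsg.Agent.Lib.Helper81 Cfsg.Agent.Lib.Helper21

set_option autoImplicit false
open Cfsg

namespace Cfsg.Agent.S0972

/-- Let B be a block of the finite group G (relative to a maximal ideal M of the algebraic integers containing the prime p) with a defect group P that is normal in G. Then P is commutative if and only if every member of B has height zero. -/
theorem result {G : Type*} [Group G] [Finite G] (p : ℕ) [Fact p.Prime] (M : Ideal Cfsg.AlgInt) (hM : Cfsg.IsPModular p M) (B : Set (Cfsg.IrrCharacter G)) (hB : Cfsg.IsPBlock M B) (P : Subgroup G) [P.Normal] (hP : Cfsg.IsDefectGroup p M B P) : (∀ a ∈ P, ∀ c ∈ P, a * c = c * a) ↔ ∀ χ ∈ B, Cfsg.blockHeight p B (χ : G → ℂ) = 0 := by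
  classical
  haveI : Fintype G := Fintype.ofFinite G
  haveI : Fintype P := Fintype.ofFinite P
  have hp : p.Prime := Fact.out
  have hi : P.index ≠ 0 := Subgroup.index_ne_zero_of_finite
  have c1 := card_defectGroup hM B hB P hP
  have hPg : IsPGroup p P := by
    rw [IsPGroup.iff_card]; exact ⟨_, c1⟩
  have d1 := blockDefect_add (p := p) (isPBlock_nonempty hM hB)
  have d3 : (Nat.card G).factorization p = (Nat.card P).factorization p
      + P.index.factorization p := by
    rw [← P.card_mul_index, Nat.factorization_mul Nat.card_pos.ne' hi]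
    rfl
  rw [c1, hp.factorization_pow, Finsupp.single_eq_same] at d3
  have hmin : minDeg p B = P.index.factorization p := by omega
  constructor
  · intro hab χ hχ
    have h1 : Cfsg.charDegree (χ : G → ℂ) ∣ P.index := by
      obtain ⟨n, ρ, hρ, e⟩ := χ.2
      haveI := hρ
      have h2 := Cfsg.Agent.S0169.result ρ P hab
      have h3 : Cfsg.charDegree (χ : G → ℂ) = Module.finrank ℂ (Fin n → ℂ) := by
        rw [← e]
        simp [Cfsg.charDegree, Representation.char_one]
      rw [h3]; exact h2
    have h4 := (Nat.factorization_le_iff_dvd (charDegree_ne_zero χ) hi).2 h1 p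
    have h5 := blockHeight_add (p := p) hχ
    unfold nuDeg at h5
    omega
  · intro hht
    obtain ⟨θ, hθ⟩ := isPBlock_nonempty hM hB
    have hlin : ∀ η : Cfsg.IrrCharacter P, Cfsg.charDegree (η : P → ℂ) = 1 := by
      intro η
      obtain ⟨ψ, hψ, hc⟩ := exists_over_of_canonical hM hPg hB hθ η
      have h1 := factorization_degree_ge hM hP hψ hc
      have h2 := blockHeight_add (p := p) hψ
      rw [hht ψ hψ] at h2
      unfold nuDeg at h2
      have h3 : (Cfsg.charDegree (η : P → ℂ)).factorization p = 0 := by omega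
      have h4 : Cfsg.charDegree (η : P → ℂ) ∣ p ^ Cfsg.blockDefect p B := by
        rw [← c1]
        exact Cfsg.Agent.Lib.Helper82.isIrr_charDegree_dvd_card η.2
      obtain ⟨j, -, hj⟩ := (Nat.dvd_prime_pow hp).1 h4
      rw [hj, hp.factorization_pow, Finsupp.single_eq_same] at h3
      rw [hj, h3, pow_zero]
    have hcomm := Cfsg.Agent.Lib.Helper5.comm_of_all_linear hlin
    intro a ha c hc
    have := hcomm ⟨a, ha⟩ ⟨c, hc⟩
    exact congrArg Subtype.val this

end Cfsg.Agent.S0972
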