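import Cfsg.Statements.S0985
-- import your own Cfsg.Agent.* helpers here
import Mathlib

set_option autoImplicit false
open Cfsg

namespace Cfsg.Agent.S0985

theorem card_modEq_one_of_orbits {H X : Type*} [Group H] [MulAction H X] [Finite X] (m : ℕ) (x0 : X)
    (hx0 : ∀ h : H, h • x0 = x0) (hdiv : ∀ x : X, x ≠ x0 → m ∣ Nat.card (MulAction.orbit H x)) :
    Nat.card X ≡ 1 [MOD m] := by
  classical
  haveI : Fintype (Quotient (MulAction.orbitRel H X)) := Fintype.ofFinite _
  rw [Nat.card_congr (MulAction.selfEquivSigmaOrbits H X), Nat.card_sigma]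
  set ω0 : Quotient (MulAction.orbitRel H X) := Quotient.mk'' x0 with hω0
  have horb : MulAction.orbit H x0 = {x0} := by
    ext y
    simp only [MulAction.mem_orbit_iff, Set.mem_singleton_iff]
    constructor
    · rintro ⟨h, rfl⟩; exact hx0 h
    · rintro rfl; exact ⟨1, one_smul _ _⟩
  have hout : ω0.out = x0 := by
    have h1 : (MulAction.orbitRel H X) ω0.out x0 := Quotient.exact (Quotient.out_eq ω0)
    rw [MulAction.orbitRel_apply, horb] at h1
    exact h1
  rw [← Finset.add_sum_erase _ _ (Finset.mem_univ ω0), hout, horb]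
  have h2 : m ∣ ∑ ω ∈ Finset.univ.erase ω0, Nat.card (MulAction.orbit H (Quotient.out ω)) := by
    apply Finset.dvd_sum
    intro ω hω
    apply hdiv
    intro h
    apply (Finset.mem_erase.1 hω).1
    rw [hω0, ← h]
    exact (Quotient.out_eq ω).symm
  obtain ⟨c, hc⟩ := h2
  rw [hc]
  simp [Nat.ModEq]

/-- If the number of Sylow p-subgroups of a finite group is not congruent to 1 modulo p^k, then there are two distinct Sylow p-subgroups P and R such that the index of P ∩ R in P is at most p^(k-1). -/
theorem result {G : Type*} [Group G] [Finite G] (p k : ℕ) [Fact p.Prime] (h : ¬ Nat.card (Sylow p G) ≡ 1 [MOD p ^ k]) : ∃ P R : Sylow p G, P ≠ R ∧ ((R : Subgroup G).subgroupOf (P : Subgroup G)).index ≤ p ^ (k - 1) := by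
  classical
  have hp : p.Prime := Fact.out
  by_contra hcon
  push Not at hcon
  apply h
  obtain ⟨P⟩ : Nonempty (Sylow p G) := inferInstance
  apply card_modEq_one_of_orbits (H := (P : Subgroup G)) (p ^ k) P
  · intro x
    have : P ∈ MulAction.fixedPoints (P : Subgroup G) (Sylow p G) :=
      P.2.sylow_mem_fixedPoints_iff.2 le_rfl
    exact this x
  · intro R hR
    have h1 := hcon P R hR.symm
    have hstab : MulAction.stabilizer (P : Subgroup G) R = (R : Subgroup G).subgroupOf (P : Subgroup G) := by
      ext x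
      rw [MulAction.mem_stabilizer_iff, Subgroup.mem_subgroupOf]
      have h2 : (x • R = R) ↔ (x : G) ∈ Subgroup.normalizer ((R : Subgroup G) : Set G) :=
        Sylow.smul_eq_iff_mem_normalizer
      rw [h2]
      have h3 := P.2.inf_normalizer_sylow R
      constructor
      · intro hx
        exact (h3.le ⟨x.2, hx⟩).2
      · intro hx
        exact Subgroup.le_normalizer hx
    have hcard : Nat.card (MulAction.orbit (P : Subgroup G) R) = ((R : Subgroup G).subgroupOf (P : Subgroup G)).index := by
      rw [← hstab, MulAction.index_stabilizer, Nat.card_coe_set_eq]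
    rw [hcard]
    obtain ⟨n, hn⟩ := P.2.exists_card_eq
    have hdvd : ((R : Subgroup G).subgroupOf (P : Subgroup G)).index ∣ p ^ n := by
      rw [← hn]; exact Subgroup.index_dvd_card _
    obtain ⟨j, _, hj⟩ := (Nat.dvd_prime_pow hp).1 hdvd
    rw [hj] at h1 ⊢
    apply pow_dvd_pow
    have := (Nat.pow_lt_pow_iff_right hp.one_lt).1 h1
    omega

end Cfsg.Agent.S0985
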