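import Cfsg.Statements.S0986
-- import your own Cfsg.Agent.* helpers here
import Mathlib

set_option autoImplicit false
open Cfsg

namespace Cfsg.Agent.S0986

theorem exists_mem_normalizer_not_mem {G : Type*} [Group G] [Finite G] (p : ℕ) [Fact p.Prime]
    (P : Sylow p G) (D : Subgroup G) (hD : D ≤ P) (hne : D ≠ (P : Subgroup G)) :
    ∃ x ∈ (P : Subgroup G), x ∈ Subgroup.normalizer (D : Set G) ∧ x ∉ D := by
  haveI : Group.IsNilpotent (P : Subgroup G) := P.2.isNilpotent
  have hnc : NormalizerCondition (P : Subgroup G) := Group.normalizerCondition_of_isNilpotent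
  have hlt : D.subgroupOf (P : Subgroup G) < ⊤ := by
    rw [lt_top_iff_ne_top]
    intro h
    rw [Subgroup.subgroupOf_eq_top] at h
    exact hne (le_antisymm hD h)
  have h1 := hnc _ hlt
  obtain ⟨x, hx1, hx2⟩ := SetLike.exists_of_lt h1
  rw [← Subgroup.subgroupOf_normalizer_eq hD] at hx1
  exact ⟨x, x.2, hx1, hx2⟩

theorem aux {G : Type*} [Group G] [Finite G] (p : ℕ) [Fact p.Prime] (P Q : Sylow p G) (hPQ : P ≠ Q)
    (D N : Subgroup G) (hDdef : D = (P : Subgroup G) ⊓ (Q : Subgroup G))
    (hNdef : N = Subgroup.normalizer (D : Set G))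
    (hmax : ∀ P' Q' : Sylow p G, P' ≠ Q' → Nat.card ↥((P' : Subgroup G) ⊓ (Q' : Subgroup G)) ≤ Nat.card D) :
    1 < Nat.card (Sylow p N) ∧
    (∀ S T : Sylow p N, S ≠ T → (S : Subgroup N) ⊓ (T : Subgroup N) = D.subgroupOf N) ∧
    ∀ S : Sylow p N, ∃! T : Sylow p G, (S : Subgroup N).map N.subtype ≤ (T : Subgroup G) := by
  classical
  have hDP : D ≤ P := hDdef ▸ inf_le_left
  have hDQ : D ≤ Q := hDdef ▸ inf_le_right
  have hDN : D ≤ N := hNdef ▸ Subgroup.le_normalizer
  have hDneP : D ≠ (P : Subgroup G) := by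
    intro h
    apply hPQ
    have : (P : Subgroup G) ≤ Q := h ▸ hDQ
    exact Sylow.ext (P.3 Q.2 this).symm
  have hDneQ : D ≠ (Q : Subgroup G) := by
    intro h
    apply hPQ
    have : (Q : Subgroup G) ≤ P := h ▸ hDP
    exact Sylow.ext (Q.3 P.2 this)
  have hDp : IsPGroup p D := P.2.to_le hDP
  haveI hDnorm : (D.subgroupOf N).Normal := by
    rw [Subgroup.normal_subgroupOf_iff_le_normalizer hDN, hNdef]
  have hDp' : IsPGroup p (D.subgroupOf N) := hDp.comap_subtype
  have hDS : ∀ S : Sylow p N, D.subgroupOf N ≤ S := fun S => hDp'.le_sylow_of_normal S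
  have hDS' : ∀ S : Sylow p N, D ≤ (S : Subgroup N).map N.subtype := by
    intro S x hx
    exact ⟨⟨x, hDN hx⟩, hDS S hx, rfl⟩
  -- any Sylow subgroup R of G strictly containing D meets N in something bigger than D
  have key : ∀ R : Sylow p G, D ≤ R → D ≠ (R : Subgroup G) → ∀ S : Sylow p N,
      ((R : Subgroup G).subgroupOf N ≤ S) → Nat.card D < Nat.card ((S : Subgroup N).map N.subtype) := by
    intro R hDR hne S hRS
    obtain ⟨x, hxR, hxN, hxD⟩ := exists_mem_normalizer_not_mem p R D hDR hne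
    have hlt : D < (S : Subgroup N).map N.subtype := by
      refine lt_of_le_of_ne (hDS' S) ?_
      intro h
      apply hxD
      rw [h]
      exact ⟨⟨x, hNdef ▸ hxN⟩, hRS hxR, rfl⟩
    exact Set.ncard_lt_ncard (s := (D : Set G)) hlt (Set.toFinite _)
  have hcardS : ∀ S : Sylow p N, Nat.card D < Nat.card ((S : Subgroup N).map N.subtype) := by
    intro S
    obtain ⟨S0, hS0⟩ := (P.2.comap_subtype (K := N)).exists_le_sylow
    have h1 := key P hDP hDneP S0 hS0
    rw [Subgroup.card_map_of_injective N.subtype_injective] at h1 ⊢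
    rw [S.card_eq_multiplicity, ← S0.card_eq_multiplicity]
    exact h1
  have huniq : ∀ S : Sylow p N, ∀ T T' : Sylow p G, (S : Subgroup N).map N.subtype ≤ (T : Subgroup G) →
      (S : Subgroup N).map N.subtype ≤ (T' : Subgroup G) → T = T' := by
    intro S T T' hT hT'
    by_contra hne
    have h1 := hmax T T' hne
    have h2 : Nat.card ((S : Subgroup N).map N.subtype) ≤ Nat.card ↥((T : Subgroup G) ⊓ (T' : Subgroup G)) :=
      Subgroup.card_le_of_le (le_inf hT hT')
    have h3 := hcardS S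
    omega
  have hex : ∀ S : Sylow p N, ∃ T : Sylow p G, (S : Subgroup N).map N.subtype ≤ (T : Subgroup G) := by
    intro S
    exact (S.2.map N.subtype).exists_le_sylow
  refine ⟨?_, ?_, ?_⟩
  · by_contra hcon
    have hsub : Subsingleton (Sylow p N) := by
      have : Nat.card (Sylow p N) ≤ 1 := not_lt.1 hcon
      exact (Finite.card_le_one_iff_subsingleton).1 this
    obtain ⟨S1, hS1⟩ := (P.2.comap_subtype (K := N)).exists_le_sylow
    obtain ⟨S2, hS2⟩ := (Q.2.comap_subtype (K := N)).exists_le_sylow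
    have hS12 : S2 = S1 := Subsingleton.elim _ _
    rw [hS12] at hS2
    obtain ⟨T, hT⟩ := hex S1
    -- P = T
    have hPT : P = T := by
      by_contra hne
      have h1 := hmax P T hne
      obtain ⟨x, hxR, hxN, hxD⟩ := exists_mem_normalizer_not_mem p P D hDP hDneP
      have hlt : D < (P : Subgroup G) ⊓ (T : Subgroup G) := by
        refine lt_of_le_of_ne (le_inf hDP ((hDS' S1).trans hT)) ?_
        intro h
        apply hxD
        rw [h]
        exact ⟨hxR, hT ⟨⟨x, hNdef ▸ hxN⟩, hS1 hxR, rfl⟩⟩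
      have := Set.ncard_lt_ncard (s := (D : Set G)) hlt (Set.toFinite _)
      exact absurd h1 (not_le.2 this)
    have hQT : Q = T := by
      by_contra hne
      have h1 := hmax Q T hne
      obtain ⟨x, hxR, hxN, hxD⟩ := exists_mem_normalizer_not_mem p Q D hDQ hDneQ
      have hlt : D < (Q : Subgroup G) ⊓ (T : Subgroup G) := by
        refine lt_of_le_of_ne (le_inf hDQ ((hDS' S1).trans hT)) ?_
        intro h
        apply hxD
        rw [h]
        exact ⟨hxR, hT ⟨⟨x, hNdef ▸ hxN⟩, hS2 hxR, rfl⟩⟩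
      have := Set.ncard_lt_ncard (s := (D : Set G)) hlt (Set.toFinite _)
      exact absurd h1 (not_le.2 this)
    exact hPQ (hPT.trans hQT.symm)
  · intro S T hST
    obtain ⟨S', hS'⟩ := hex S
    obtain ⟨T', hT'⟩ := hex T
    have hne : S' ≠ T' := by
      intro h
      apply hST
      rw [← h] at hT'
      have hp' : IsPGroup p ((S' : Subgroup G).subgroupOf N) := S'.2.comap_subtype
      have h1 : (S : Subgroup N) ≤ (S' : Subgroup G).subgroupOf N := by
        intro x hx
        exact hS' ⟨x, hx, rfl⟩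
      have h2 : (T : Subgroup N) ≤ (S' : Subgroup G).subgroupOf N := by
        intro x hx
        exact hT' ⟨x, hx, rfl⟩
      exact Sylow.ext ((S.3 hp' h1).symm.trans (T.3 hp' h2))
    have h1 := hmax S' T' hne
    have hle : D ≤ (S' : Subgroup G) ⊓ (T' : Subgroup G) :=
      le_inf ((hDS' S).trans hS') ((hDS' T).trans hT')
    have heq : D = (S' : Subgroup G) ⊓ (T' : Subgroup G) := Subgroup.eq_of_le_of_card_ge hle h1
    apply le_antisymm
    · intro x hx
      rw [Subgroup.mem_subgroupOf, heq]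
      exact ⟨hS' ⟨x, hx.1, rfl⟩, hT' ⟨x, hx.2, rfl⟩⟩
    · exact le_inf (hDS S) (hDS T)
  · intro S
    obtain ⟨T, hT⟩ := hex S
    exact ⟨T, hT, fun T' hT' => huniq S T' T hT' hT⟩

/-- Let P and Q be distinct Sylow p-subgroups of a finite group G chosen so that the order of P ∩ Q is as large as possible among intersections of two distinct Sylow p-subgroups, and let N be the normalizer of P ∩ Q. Then N has more than one Sylow p-subgroup, any two distinct Sylow p-subgroups of N intersect exactly in P ∩ Q, and each Sylow p-subgroup of N lies in exactly one Sylow p-subgroup of G. -/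
theorem result {G : Type*} [Group G] [Finite G] (p : ℕ) [Fact p.Prime] (P Q : Sylow p G) (hPQ : P ≠ Q) (hmax : ∀ P' Q' : Sylow p G, P' ≠ Q' → Nat.card ↥((P' : Subgroup G) ⊓ (Q' : Subgroup G)) ≤ Nat.card ↥((P : Subgroup G) ⊓ (Q : Subgroup G))) : 1 < Nat.card (Sylow p ↥(Subgroup.normalizer (((P : Subgroup G) ⊓ (Q : Subgroup G) : Subgroup G) : Set G))) ∧ (∀ S T : Sylow p ↥(Subgroup.normalizer (((P : Subgroup G) ⊓ (Q : Subgroup G) : Subgroup G) : Set G)), S ≠ T → (S : Subgroup _) ⊓ (T : Subgroup _) = ((P : Subgroup G) ⊓ (Q : Subgroup G)).subgroupOf (Subgroup.normalizer (((P : Subgroup G) ⊓ (Q : Subgroup G) : Subgroup G) : Set G))) ∧ ∀ S : Sylow p ↥(Subgroup.normalizer (((P : Subgroup G) ⊓ (Q : Subgroup G) : Subgroup G) : Set G)), ∃! T : Sylow p G, (S : Subgroup _).map (Subgroup.normalizer (((P : Subgroup G) ⊓ (Q : Subgroup G) : Subgroup G) : Set G)).subtype ≤ (T : Subgroup G) := by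
  exact aux p P Q hPQ _ _ rfl rfl hmax

end Cfsg.Agent.S0986
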