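import Cfsg.Statements.S0987
-- import your own Cfsg.Agent.* helpers here
import Mathlib

set_option autoImplicit false
open Cfsg

namespace Cfsg.Agent.S0987

/-- If a finite group has order pqr for primes p < q < r, then its Sylow r-subgroups are normal. -/
theorem result {G : Type*} [Group G] [Finite G] (p q r : ℕ) (hp : p.Prime) (hq : q.Prime) [Fact r.Prime] (hpq : p < q) (hqr : q < r) (hG : Nat.card G = p * q * r) (R : Sylow r G) : (R : Subgroup G).Normal := by
  classical
  have hr : r.Prime := Fact.out
  haveI : Fact p.Prime := ⟨hp⟩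
  have hpr : p < r := hpq.trans hqr
  -- the smallest prime factor is p
  have hmin : (Nat.card G).minFac = p := by
    rw [hG]
    have h1 : (p * q * r).minFac ∣ p * q * r := Nat.minFac_dvd _
    have hne : p * q * r ≠ 1 := by
      have := hp.two_le; have := hq.two_le; have := hr.two_le
      intro h
      have h2 : p ∣ 1 := h ▸ (Dvd.intro (q * r) (by ring) : p ∣ p * q * r)
      exact hp.one_lt.ne' (Nat.dvd_one.1 h2)
    have hpm : (p * q * r).minFac.Prime := Nat.minFac_prime hne
    have hle : (p * q * r).minFac ≤ p := Nat.minFac_le_of_dvd hp.two_le (Dvd.intro (q * r) (by ring))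
    rcases (Nat.Prime.dvd_mul hpm).1 h1 with h | h
    · rcases (Nat.Prime.dvd_mul hpm).1 h with h | h
      · exact (Nat.prime_dvd_prime_iff_eq hpm hp).1 h
      · have := (Nat.prime_dvd_prime_iff_eq hpm hq).1 h
        omega
    · have := (Nat.prime_dvd_prime_iff_eq hpm hr).1 h
      omega
  obtain ⟨P⟩ : Nonempty (Sylow p G) := inferInstance
  have hfp : (p * q * r).factorization p = 1 := by
    rw [Nat.factorization_mul (Nat.mul_ne_zero hp.ne_zero hq.ne_zero) hr.ne_zero,
      Nat.factorization_mul hp.ne_zero hq.ne_zero]
    simp only [Finsupp.add_apply, hp.factorization_self]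
    rw [Nat.factorization_eq_zero_of_not_dvd (n := q), Nat.factorization_eq_zero_of_not_dvd (n := r)]
    · intro h; have := (Nat.prime_dvd_prime_iff_eq hp hr).1 h; omega
    · intro h; have := (Nat.prime_dvd_prime_iff_eq hp hq).1 h; omega
  have hfr : (p * q * r).factorization r = 1 := by
    rw [Nat.factorization_mul (Nat.mul_ne_zero hp.ne_zero hq.ne_zero) hr.ne_zero,
      Nat.factorization_mul hp.ne_zero hq.ne_zero]
    simp only [Finsupp.add_apply, hr.factorization_self]
    rw [Nat.factorization_eq_zero_of_not_dvd (n := q), Nat.factorization_eq_zero_of_not_dvd (n := p)]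
    · intro h; have := (Nat.prime_dvd_prime_iff_eq hr hp).1 h; omega
    · intro h; have := (Nat.prime_dvd_prime_iff_eq hr hq).1 h; omega
  have hPcard : Nat.card P = p := by
    rw [P.card_eq_multiplicity, hG, hfp, pow_one]
  have hRcard : Nat.card R = r := by
    rw [R.card_eq_multiplicity, hG, hfr, pow_one]
  have hPcyc : IsCyclic P := isCyclic_of_prime_card hPcard
  set K := (MonoidHom.transferSylow P (hPcyc.normalizer_le_centralizer hmin)).ker with hK
  have hcompl : K.IsComplement' P := hPcyc.isComplement' hmin
  have hKn : K.Normal := by rw [hK]; infer_instance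
  have hKcard : Nat.card K = q * r := by
    have h1 := hcompl.card_mul_card
    rw [hPcard, hG] at h1
    have : Nat.card K * p = (q * r) * p := by rw [h1]; ring
    exact Nat.eq_of_mul_eq_mul_right hp.pos this
  obtain ⟨R0⟩ : Nonempty (Sylow r K) := inferInstance
  have hfr' : (q * r).factorization r = 1 := by
    rw [Nat.factorization_mul hq.ne_zero hr.ne_zero]
    simp only [Finsupp.add_apply, hr.factorization_self]
    rw [Nat.factorization_eq_zero_of_not_dvd (n := q)]
    intro h; have := (Nat.prime_dvd_prime_iff_eq hr hq).1 h; omega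
  have hR0card : Nat.card R0 = r := by
    rw [R0.card_eq_multiplicity, hKcard, hfr', pow_one]
  have hR0idx : (R0 : Subgroup K).index = q := by
    have h1 := (R0 : Subgroup K).card_mul_index
    rw [hR0card, hKcard] at h1
    have : r * (R0 : Subgroup K).index = r * q := by rw [h1]; ring
    exact Nat.eq_of_mul_eq_mul_left hr.pos this
  have hn1 : Nat.card (Sylow r K) = 1 := by
    have h1 : Nat.card (Sylow r K) ∣ q := hR0idx ▸ R0.card_dvd_index
    have h2 : Nat.card (Sylow r K) ≡ 1 [MOD r] := card_sylow_modEq_one r K
    rcases (Nat.dvd_prime hq).1 h1 with h | h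
    · exact h
    · exfalso
      rw [h] at h2
      have h3 : q % r = 1 % r := h2
      rw [Nat.mod_eq_of_lt hqr, Nat.mod_eq_of_lt hr.one_lt] at h3
      exact hq.one_lt.ne' h3
  have hR0n : (R0 : Subgroup K).Normal := by
    haveI : Subsingleton (Sylow r K) := (Nat.card_eq_one_iff_unique.1 hn1).1
    exact R0.normal_of_subsingleton
  haveI hR0c : (R0 : Subgroup K).Characteristic := R0.characteristic_of_normal hR0n
  have hNn : ((R0 : Subgroup K).map K.subtype).Normal :=
    ConjAct.normal_of_characteristic_of_normal
  set N := (R0 : Subgroup K).map K.subtype with hN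
  have hNcard : Nat.card N = r := by
    rw [hN, Subgroup.card_map_of_injective K.subtype_injective, hR0card]
  have hNp : IsPGroup r N := IsPGroup.of_card (n := 1) (by rw [hNcard, pow_one])
  obtain ⟨Q, hQ⟩ := hNp.exists_le_sylow
  have hQcard : Nat.card Q = r := by
    rw [Q.card_eq_multiplicity, hG, hfr, pow_one]
  have hNQ : N = (Q : Subgroup G) :=
    Subgroup.eq_of_le_of_card_ge hQ (by rw [hNcard]; exact hQcard.le)
  have hQn : (Q : Subgroup G).Normal := hNQ ▸ hNn
  haveI := Q.unique_of_normal hQn
  rw [Subsingleton.elim R Q]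
  exact hQn

end Cfsg.Agent.S0987
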