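import Cfsg.Statements.S0988
import Cfsg.Agent.Lib.Helper11.SimpleOrder
import Cfsg.Agent.S0144

set_option autoImplicit false
open Cfsg

namespace Cfsg.Agent.S0988

open Cfsg.Agent.Lib.Helper11


theorem aut_fixed (P : Type*) [Group P] [Finite P] (p l : ℕ) [hl : Fact l.Prime] (hp : p.Prime)
    (hcard : Nat.card P = p ^ 2) (φ : MulAut P) (hφ : φ ^ l = 1) (hne : φ ≠ 1) (hlt : p < l) :
    p = 2 ∧ l = 3 := by
  classical
  let F : Subgroup P :=
    { carrier := {y | φ y = y}
      mul_mem' := by
        intro a b ha hb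
        simp only [Set.mem_ofPred_eq] at ha hb ⊢
        rw [map_mul, ha, hb]
      one_mem' := by simp
      inv_mem' := by
        intro a ha
        simp only [Set.mem_ofPred_eq] at ha ⊢
        rw [map_inv, ha] }
  have hPG : IsPGroup l (Subgroup.zpowers φ) := by
    apply IsPGroup.of_card (n := 1)
    rw [Nat.card_zpowers, pow_one]
    exact orderOf_eq_prime hφ hne
  have hmod := hPG.card_modEq_card_fixedPoints P
  have hfix : Nat.card (MulAction.fixedPoints (Subgroup.zpowers φ) P) = Nat.card F := by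
    apply Nat.card_congr
    apply Equiv.setCongr
    ext y
    constructor
    · intro hy
      exact hy ⟨φ, Subgroup.mem_zpowers φ⟩
    · intro hy
      rintro ⟨g, k, rfl⟩
      change (φ ^ k) y = y
      have h1 : ∀ n : ℕ, (φ ^ n) y = y := by
        intro n
        induction n with
        | zero => simp
        | succ n ih => rw [pow_succ, MulAut.mul_apply, show φ y = y from hy, ih]
      have h2 : ∀ n : ℕ, (φ ^ n)⁻¹ y = y := by
        intro n
        rw [MulAut.inv_apply, MulEquiv.symm_apply_eq, h1]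
      rcases Int.eq_nat_or_neg k with ⟨n, rfl | rfl⟩
      · rw [zpow_natCast]; exact h1 n
      · rw [zpow_neg, zpow_natCast]; exact h2 n
  rw [hfix, hcard] at hmod
  have hFd : Nat.card F ∣ p ^ 2 := hcard ▸ Subgroup.card_subgroup_dvd_card F
  obtain ⟨j, hj2, hj⟩ := (Nat.dvd_prime_pow hp).1 hFd
  have hp2 := hp.two_le
  have hj3 : j = 0 ∨ j = 1 ∨ j = 2 := by omega
  rcases hj3 with rfl | rfl | rfl
  · -- l ∣ p^2 - 1
    rw [hj, pow_zero] at hmod
    have h1 : l ∣ p ^ 2 - 1 := (Nat.modEq_iff_dvd' (by nlinarith)).1 hmod.symm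
    have h2 : p ^ 2 - 1 = (p - 1) * (p + 1) := by
      obtain ⟨k, rfl⟩ : ∃ k, p = k + 1 := ⟨p - 1, by omega⟩
      simp only [Nat.add_sub_cancel]
      have : (k + 1) ^ 2 = k * (k + 1 + 1) + 1 := by ring
      omega
    rw [h2] at h1
    rcases (Nat.Prime.dvd_mul hl.out).1 h1 with h3 | h3
    · have := Nat.le_of_dvd (by omega) h3
      omega
    · have h4 := Nat.le_of_dvd (by omega) h3
      have h5 : l = p + 1 := by omega
      rcases hp.eq_two_or_odd' with h6 | h6
      · omega
      · exfalso
        rcases hl.out.eq_two_or_odd' with h7 | h7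
        · omega
        · rw [h5] at h7
          exact (Nat.not_even_iff_odd.2 h7) (Odd.add_one h6)
  · exfalso
    rw [hj, pow_one] at hmod
    have h1 : l ∣ p ^ 2 - p := (Nat.modEq_iff_dvd' (by nlinarith)).1 hmod.symm
    have h2 : p ^ 2 - p = p * (p - 1) := by
      rw [Nat.mul_sub, mul_one, sq]
    rw [h2] at h1
    rcases (Nat.Prime.dvd_mul hl.out).1 h1 with h3 | h3
    · have := Nat.le_of_dvd (by omega) h3
      omega
    · have := Nat.le_of_dvd (by omega) h3
      omega
  · exfalso
    apply hne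
    have hF : F = ⊤ := by
      apply Subgroup.eq_top_of_card_eq
      rw [hj, hcard]
    ext y
    have : y ∈ F := hF ▸ Subgroup.mem_top y
    exact this

theorem no_small {G : Type*} [Group G] [Finite G] [IsSimpleGroup G] (hG : ¬ IsCyclic G) (s m : ℕ)
    (hs : s.Prime) (hm : ¬ s ∣ m) (hcard : Nat.card G = s ^ 1 * m)
    (hbig : ∀ t : ℕ, t.Prime → t ∣ m → s < t) : False := by
  have : Fact s.Prime := ⟨hs⟩
  obtain ⟨P⟩ : Nonempty (Sylow s G) := inferInstance
  obtain ⟨d, -, hdm, -, -, -, -, h6⟩ := sylow_numerics hG s 1 m (by norm_num) hm hcard P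
  apply h6 rfl
  by_contra hne
  obtain ⟨t, ht, htd⟩ := Nat.exists_prime_and_dvd hne
  have h1 : t ∣ m := (htd.trans (Nat.gcd_dvd_left _ _)).trans (Nat.div_dvd_of_dvd hdm)
  have h2 : t ∣ s - 1 := htd.trans (Nat.gcd_dvd_right _ _)
  have h3 := hbig t ht h1
  have h4 := Nat.le_of_dvd (by have := hs.two_le; omega) h2
  omega

theorem final_step {G : Type*} [Group G] [Finite G] [IsSimpleGroup G] (hG : ¬ IsCyclic G) (t : ℕ)
    (ht : t.Prime) (h3 : 3 < t) (hcard : Nat.card G = t ^ 1 * 12) : Nat.card G = 60 := by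
  have : Fact t.Prime := ⟨ht⟩
  obtain ⟨P⟩ : Nonempty (Sylow t G) := inferInstance
  have hm : ¬ t ∣ 12 := by
    intro h
    have h1 : t ∣ 2 ^ 2 * 3 := by norm_num; exact h
    rcases (Nat.Prime.dvd_mul ht).1 h1 with h2 | h2
    · have := (Nat.prime_dvd_prime_iff_eq ht Nat.prime_two).1 (ht.dvd_of_dvd_pow h2)
      omega
    · have := (Nat.prime_dvd_prime_iff_eq ht Nat.prime_three).1 h2
      omega
  obtain ⟨d, -, hdm, hmod, hd1, -, h5, -⟩ := sylow_numerics hG t 1 12 (by norm_num) hm hcard P
  have hd12 : d ≤ 12 := Nat.le_of_dvd (by norm_num) hdm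
  have hdt : t ∣ d - 1 := by
    have h1 : d % t = 1 % t := by rw [hmod, Nat.mod_eq_of_lt ht.one_lt]
    exact (Nat.modEq_iff_dvd' (by
      rcases Nat.eq_zero_or_pos d with rfl | h
      · simp at hmod
      · exact h)).1 (show 1 ≡ d [MOD t] from h1.symm)
  have h5' := h5 (by norm_num)
  interval_cases d <;> simp_all
  all_goals first
    | (have := Nat.le_of_dvd (by norm_num) hdt; omega)
    | skip
  · have h6 := (Nat.prime_dvd_prime_iff_eq ht (by norm_num : Nat.Prime 5)).1 hdt
    subst h6
    rfl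


/-- If a finite simple group has order p^2 * q * r with p, q and r prime, then its order is 60. -/
theorem result {G : Type*} [Group G] [Finite G] [IsSimpleGroup G] (p q r : ℕ) (hp : p.Prime) (hq : q.Prime) (hr : r.Prime) (hG : Nat.card G = p ^ 2 * q * r) : Nat.card G = 60 := by
  classical
  have hp2 := hp.two_le
  have hq2 := hq.two_le
  have hr2 := hr.two_le
  have hnc : ¬ IsCyclic G := by
    intro hc
    let _ : CommGroup G := IsCyclic.commGroup
    have h1 := IsSimpleGroup.prime_card (α := G)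
    rw [hG, show p ^ 2 * q * r = p * (p * q * r) by ring] at h1
    exact Nat.not_prime_mul (by omega) (by
      have : 2 * 2 * 2 ≤ p * q * r := by gcongr
      omega) h1
  have hsolv : ¬ Group.IsSolvable G := by
    intro hs
    have hcomm := IsSimpleGroup.comm_iff_isSolvable.2 hs
    let _ : CommGroup G := { (inferInstance : Group G) with mul_comm := hcomm }
    exact hnc inferInstance
  have hpq : p ≠ q := by
    rintro rfl
    exact hsolv (Cfsg.Agent.S0144.result p r 3 1 hp hr (by rw [hG]; ring))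
  have hpr : p ≠ r := by
    rintro rfl
    exact hsolv (Cfsg.Agent.S0144.result p q 3 1 hp hq (by rw [hG]; ring))
  have hqr : q ≠ r := by
    rintro rfl
    exact hsolv (Cfsg.Agent.S0144.result p q 2 2 hp hq (by rw [hG]; ring))
  have hdvd : ∀ a b c t : ℕ, a.Prime → b.Prime → t.Prime → t ∣ a ^ 2 * b → t = a ∨ t = b := by
    intro a b c t ha hb ht h
    rcases (Nat.Prime.dvd_mul ht).1 h with h1 | h1
    · left; exact (Nat.prime_dvd_prime_iff_eq ht ha).1 (ht.dvd_of_dvd_pow h1)
    · right; exact (Nat.prime_dvd_prime_iff_eq ht hb).1 h1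
  have hsmall : p < q ∧ p < r := by
    by_contra hcon
    have hmin : (q < p ∧ q < r) ∨ (r < p ∧ r < q) := by omega
    rcases hmin with ⟨h1, h2⟩ | ⟨h1, h2⟩
    · refine no_small hnc q (p ^ 2 * r) hq ?_ (by rw [hG]; ring) ?_
      · intro h
        rcases hdvd p r 0 q hp hr hq h with h3 | h3 <;> omega
      · intro t ht h
        rcases hdvd p r 0 t hp hr ht h with h3 | h3 <;> omega
    · refine no_small hnc r (p ^ 2 * q) hr ?_ (by rw [hG]; ring) ?_
      · intro h
        rcases hdvd p q 0 r hp hq hr h with h3 | h3 <;> omega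
      · intro t ht h
        rcases hdvd p q 0 t hp hq ht h with h3 | h3 <;> omega
  obtain ⟨hpq', hpr'⟩ := hsmall
  have hpf : Fact p.Prime := ⟨hp⟩
  obtain ⟨P⟩ : Nonempty (Sylow p G) := inferInstance
  have hpm : ¬ p ∣ q * r := by
    intro h
    rcases (Nat.Prime.dvd_mul hp).1 h with h1 | h1
    · exact hpq ((Nat.prime_dvd_prime_iff_eq hp hq).1 h1)
    · exact hpr ((Nat.prime_dvd_prime_iff_eq hp hr).1 h1)
  obtain ⟨hPc, hPi⟩ := sylow_card_index p 2 (q * r) hpm (by rw [hG]; ring) P
  have hpG : p ∣ Nat.card G := by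
    rw [hG]; exact Dvd.intro _ (by ring : p * (p * q * r) = p ^ 2 * q * r)
  have hB := not_normalizer_le_centralizer hnc p hpG P
  have hcommP : IsMulCommutative (P : Subgroup G) := IsPGroup.isMulCommutative_of_card_eq_prime_sq hPc
  have hPC : (P : Subgroup G) ≤ Subgroup.centralizer ((P : Subgroup G) : Set G) := by
    intro x hx
    rw [Subgroup.mem_centralizer_iff]
    intro y hy
    exact congrArg Subtype.val (hcommP.is_comm.comm ⟨y, hy⟩ ⟨x, hx⟩)
  set N := Subgroup.normalizer ((P : Subgroup G) : Set G) with hN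
  set f := (P : Subgroup G).normalizerMonoidHom with hf
  have hrange : Nat.card f.range = (Subgroup.centralizer ((P : Subgroup G) : Set G)).relIndex N := by
    rw [← Subgroup.index_ker, hf, Subgroup.normalizerMonoidHom_ker]
    rfl
  have hd1 : Nat.card f.range ∣ q * r := by
    rw [hrange, ← hPi]
    exact (Subgroup.relIndex_dvd_of_le_left N hPC).trans
      (Subgroup.relIndex_dvd_index_of_le Subgroup.le_normalizer)
  have hne1 : Nat.card f.range ≠ 1 := by
    rw [hrange]
    intro h
    exact hB (Subgroup.relIndex_eq_one.1 h)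
  obtain ⟨l, hl, hld⟩ := Nat.exists_prime_and_dvd hne1
  have hlf : Fact l.Prime := ⟨hl⟩
  obtain ⟨x, hx⟩ := exists_prime_orderOf_dvd_card' l hld
  have hlqr : l = q ∨ l = r := by
    rcases (Nat.Prime.dvd_mul hl).1 (hld.trans hd1) with h1 | h1
    · left; exact (Nat.prime_dvd_prime_iff_eq hl hq).1 h1
    · right; exact (Nat.prime_dvd_prime_iff_eq hl hr).1 h1
  have hx1 : (x : MulAut (P : Subgroup G)) ^ l = 1 := by
    have := pow_orderOf_eq_one x
    rw [hx] at this
    exact_mod_cast congrArg Subtype.val this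
  have hx2 : (x : MulAut (P : Subgroup G)) ≠ 1 := by
    intro h
    have h1 : x = 1 := Subtype.ext h
    rw [h1, orderOf_one] at hx
    exact hl.one_lt.ne hx
  have hlt : p < l := by rcases hlqr with h | h <;> omega
  obtain ⟨hp2', hl3⟩ := aut_fixed (P : Subgroup G) p l hp hPc x hx1 hx2 hlt
  subst hp2'
  rcases hlqr with h | h
  · have hq3 : q = 3 := by omega
    subst hq3
    exact final_step hnc r hr (by omega) (by rw [hG]; ring)
  · have hr3 : r = 3 := by omega
    subst hr3
    exact final_step hnc q hq (by omega) (by rw [hG]; ring)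

end Cfsg.Agent.S0988
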