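import Cfsg.Statements.S0989
-- import your own Cfsg.Agent.* helpers here
import Mathlib

set_option autoImplicit false
open Cfsg

namespace Cfsg.Agent.S0989

/-- In the symmetric group on p or p + 1 letters, p a prime, the normalizer of a Sylow p-subgroup has order p * (p - 1). -/
theorem result {α : Type*} [Fintype α] [DecidableEq α] (p : ℕ) [Fact p.Prime] (hα : Fintype.card α = p ∨ Fintype.card α = p + 1) (P : Sylow p (Equiv.Perm α)) : Nat.card ↥(Subgroup.normalizer ((P : Subgroup (Equiv.Perm α)) : Set (Equiv.Perm α))) = p * (p - 1) := by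
  classical
  have hpp : p.Prime := Fact.out
  have hp2 := hpp.two_le
  have hn2 : Fintype.card α < 2 * p := by rcases hα with h | h <;> omega
  have hfac : ((Fintype.card α).factorial).factorization p = 1 := by
    have h0 : ((p - 1).factorial).factorization p = 0 := by
      apply Nat.factorization_eq_zero_of_not_dvd
      rw [hpp.dvd_factorial]
      omega
    have h1 : (p.factorial).factorization p = 1 := by
      rw [← Nat.mul_factorial_pred hpp.ne_zero, Nat.factorization_mul hpp.ne_zero (Nat.factorial_ne_zero _)]
      simp [h0, hpp.factorization_self]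
    rcases hα with h | h
    · rw [h, h1]
    · rw [h, Nat.factorial_succ, Nat.factorization_mul (by omega) (Nat.factorial_ne_zero _)]
      have h2 : (p + 1).factorization p = 0 := by
        apply Nat.factorization_eq_zero_of_not_dvd
        intro hd
        have : p ∣ 1 := (Nat.dvd_add_right (dvd_refl p)).1 hd
        exact hpp.one_lt.ne' (Nat.dvd_one.1 this)
      simp [h1, h2]
  have hPcard : Nat.card P = p := by
    rw [P.card_eq_multiplicity, Nat.card_perm, Nat.card_eq_fintype_card, hfac, pow_one]
  haveI hcyc : IsCyclic P := isCyclic_of_prime_card hPcard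
  obtain ⟨σ, hσ⟩ := hcyc.exists_generator
  have hσord : orderOf σ = p := by
    rw [orderOf_eq_card_of_forall_mem_zpowers hσ, hPcard]
  have hct : ∀ x : P, orderOf x = p → (x : Equiv.Perm α).cycleType = {p} := by
    intro x hx
    have hx' : orderOf (x : Equiv.Perm α) = p := by rw [Subgroup.orderOf_coe, hx]
    have hc : (x : Equiv.Perm α).IsCycle :=
      Equiv.Perm.isCycle_of_prime_order' (hx'.symm ▸ hpp) (hx'.symm ▸ hn2)
    rw [hc.cycleType, ← hc.orderOf, hx']
  set N := Subgroup.normalizer ((P : Subgroup (Equiv.Perm α)) : Set (Equiv.Perm α)) with hN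
  have hsurj : Function.Surjective (P : Subgroup (Equiv.Perm α)).normalizerMonoidHom := by
    intro φ
    have hx : orderOf (φ σ) = p := by rw [MulEquiv.orderOf_eq, hσord]
    have hconj : IsConj (σ : Equiv.Perm α) (φ σ : Equiv.Perm α) := by
      rw [Equiv.Perm.isConj_iff_cycleType_eq, hct σ hσord, hct _ hx]
    obtain ⟨τ, hτ⟩ := isConj_iff.1 hconj
    have hτP : τ • P = P := by
      symm
      apply Sylow.ext
      apply (τ • P).3 P.2
      intro y hy
      rw [Sylow.coe_subgroup_smul, Subgroup.mem_smul_pointwise_iff_exists] at hy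
      obtain ⟨z, hz, rfl⟩ := hy
      obtain ⟨k, hk⟩ := hσ ⟨z, hz⟩
      have hk' : (σ : Equiv.Perm α) ^ k = z := by
        have := congrArg Subtype.val hk
        simpa using this
      rw [MulAut.smul_def, MulAut.conj_apply, ← hk', ← conj_zpow, hτ]
      exact Subgroup.zpow_mem _ (φ σ).2 k
    have hτN : τ ∈ N := Sylow.smul_eq_iff_mem_normalizer.1 hτP
    refine ⟨⟨τ, hτN⟩, ?_⟩
    apply MulEquiv.ext
    intro y
    obtain ⟨k, hk⟩ := hσ y
    have hk' : σ ^ k = y := hk
    rw [← hk', map_zpow, map_zpow]
    congr 1
    apply Subtype.ext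
    exact hτ
  have hrange : Nat.card (P : Subgroup (Equiv.Perm α)).normalizerMonoidHom.range = p - 1 := by
    rw [MonoidHom.range_eq_top.2 hsurj, Subgroup.card_top, IsCyclic.card_mulAut, hPcard,
      Nat.totient_prime hpp]
  have hcent : Subgroup.centralizer ((P : Subgroup (Equiv.Perm α)) : Set (Equiv.Perm α)) =
      Subgroup.centralizer {(σ : Equiv.Perm α)} := by
    ext g
    rw [Subgroup.mem_centralizer_iff, Subgroup.mem_centralizer_singleton_iff]
    constructor
    · intro h
      exact (h σ σ.2).symm
    · intro h z hz
      obtain ⟨k, hk⟩ := hσ ⟨z, hz⟩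
      have hk' : (σ : Equiv.Perm α) ^ k = z := by
        have := congrArg Subtype.val hk
        simpa using this
      rw [← hk']
      have hc : Commute (σ : Equiv.Perm α) g := h.symm
      exact (hc.zpow_left k)
  have hker : Nat.card (P : Subgroup (Equiv.Perm α)).normalizerMonoidHom.ker = p := by
    rw [Subgroup.normalizerMonoidHom_ker, ← Subgroup.card_map_of_injective (Subgroup.subtype_injective _),
      Subgroup.subgroupOf_map_subtype, inf_of_le_left (Subgroup.centralizer_le_normalizer _), hcent,
      Equiv.Perm.nat_card_centralizer, hct σ hσord]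
    have : (Fintype.card α - p).factorial = 1 := by
      rcases hα with h | h
      · rw [h]; simp
      · rw [h]; simp
    simp [this]
  have := (P : Subgroup (Equiv.Perm α)).normalizerMonoidHom.ker.card_mul_index
  rw [Subgroup.index_ker, hrange, hker] at this
  exact this.symm

end Cfsg.Agent.S0989
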