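import Cfsg.Statements.S0991
-- import your own Cfsg.Agent.* helpers here
import Mathlib

set_option autoImplicit false
open Cfsg

namespace Cfsg.Agent.S0991

/-- Embedding Theorem: if a non-abelian finite simple group has a proper subgroup of index n, then it is isomorphic to a subgroup of the alternating group of degree n. -/
theorem result {G : Type*} [Group G] [Finite G] [IsSimpleGroup G] (hG : ¬ IsMulCommutative G) (H : Subgroup G) (hH : H ≠ ⊤) : ∃ f : G →* ↥(alternatingGroup (Fin H.index)), Function.Injective f := by
  classical
  have e : (G ⧸ H) ≃ Fin H.index := by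
    have : Nat.card (G ⧸ H) = H.index := rfl
    exact (Finite.equivFinOfCardEq this)
  let f0 : G →* Equiv.Perm (G ⧸ H) := MulAction.toPermHom G (G ⧸ H)
  let f1 : G →* Equiv.Perm (Fin H.index) := (e.permCongrHom.toMonoidHom).comp f0
  have hker0 : f0.ker = H.normalCore := (Subgroup.normalCore_eq_ker H).symm
  have hinj0 : Function.Injective f0 := by
    rw [← MonoidHom.ker_eq_bot_iff, hker0]
    rcases (Subgroup.Normal.eq_bot_or_eq_top (H := H.normalCore) inferInstance) with h | h
    · exact h
    · exfalso
      apply hH
      rw [eq_top_iff, ← h]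
      exact Subgroup.normalCore_le H
  have hinj1 : Function.Injective f1 := by
    intro a b hab
    apply hinj0
    exact e.permCongrHom.injective hab
  have hsign : ∀ g : G, Equiv.Perm.sign (f1 g) = 1 := by
    let s : G →* ℤˣ := Equiv.Perm.sign.comp f1
    rcases (Subgroup.Normal.eq_bot_or_eq_top (H := s.ker) inferInstance) with h | h
    · exfalso
      apply hG
      have hs : Function.Injective s := (MonoidHom.ker_eq_bot_iff s).1 h
      refine ⟨⟨fun a b => hs ?_⟩⟩
      rw [map_mul, map_mul, mul_comm]
    · intro g
      have : g ∈ s.ker := by rw [h]; trivial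
      exact this
  refine ⟨f1.codRestrict (alternatingGroup (Fin H.index)) (fun g => by
    rw [Equiv.Perm.mem_alternatingGroup]; exact hsign g), ?_⟩
  intro a b hab
  apply hinj1
  exact congrArg Subtype.val hab

end Cfsg.Agent.S0991
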