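import Cfsg.Statements.S0992
-- import your own Cfsg.Agent.* helpers here
import Mathlib
import Cfsg.Agent.Lib.Helper21.Homocyclic

set_option autoImplicit false
open Cfsg

namespace Cfsg.Agent.S0992

/-- Let G be a non-abelian finite simple group of even order not divisible by 8, and T a Sylow 2-subgroup. Then T is a Klein four-group and the centralizer of T has index 3 in the normalizer of T. -/
theorem result {G : Type*} [Group G] [Finite G] [IsSimpleGroup G] (hG : ¬ IsMulCommutative G) (h2 : Even (Nat.card G)) (h8 : ¬ 8 ∣ Nat.card G) (T : Sylow 2 G) : IsKleinFour ↥(T : Subgroup G) ∧ (Subgroup.centralizer ((T : Subgroup G) : Set G)).relIndex (Subgroup.normalizer ((T : Subgroup G) : Set G)) = 3 := by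
  classical
  have h2' : 2 ∣ Nat.card G := even_iff_two_dvd.1 h2
  have hT2 : 2 ∣ Nat.card T := T.dvd_card_of_dvd_card h2'
  -- no normal complement if T is commutative
  have hnc : (∀ a b : (T : Subgroup G), a * b = b * a) → ∀ K : Subgroup G, K.Normal →
      ¬ Subgroup.IsComplement' K (T : Subgroup G) := by
    intro hcomm K hK hc
    have hcard := hc.card_mul_card
    rcases hK.eq_bot_or_eq_top with h | h
    · rw [h, Subgroup.card_bot, one_mul] at hcard
      have htop : (T : Subgroup G) = ⊤ := Subgroup.eq_top_of_card_eq _ hcard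
      apply hG
      refine ⟨⟨fun a b => ?_⟩⟩
      have ha : a ∈ (T : Subgroup G) := htop ▸ Subgroup.mem_top a
      have hb : b ∈ (T : Subgroup G) := htop ▸ Subgroup.mem_top b
      exact congrArg Subtype.val (hcomm ⟨a, ha⟩ ⟨b, hb⟩)
    · rw [h, Subgroup.card_top] at hcard
      have hpos : 0 < Nat.card G := Nat.card_pos
      have : Nat.card T = 1 := by
        have h3 : Nat.card G * Nat.card T = Nat.card G * 1 := by rw [mul_one]; exact hcard
        exact Nat.eq_of_mul_eq_mul_left hpos h3
      rw [this] at hT2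
      omega
  have hncyc : ¬ IsCyclic (T : Subgroup G) := by
    intro hcyc
    have hmin : (Nat.card G).minFac = 2 := (Nat.minFac_eq_two_iff _).2 h2'
    refine hnc ?_ _ inferInstance (hcyc.isComplement' hmin)
    intro a b
    obtain ⟨g, hg⟩ := hcyc.exists_generator
    obtain ⟨i, rfl⟩ := hg a
    obtain ⟨j, rfl⟩ := hg b
    exact (Commute.refl g).zpow_zpow i j
  obtain ⟨k, hk⟩ := T.2.exists_card_eq
  have hk3 : k < 3 := by
    by_contra hcon
    apply h8
    have h3 : (2 : ℕ) ^ 3 ∣ 2 ^ k := pow_dvd_pow 2 (not_lt.1 hcon)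
    rw [← hk] at h3
    exact h3.trans (Subgroup.card_subgroup_dvd_card _)
  have hcard4 : Nat.card (T : Subgroup G) = 4 := by
    interval_cases k
    · rw [hk] at hT2; omega
    · exfalso
      apply hncyc
      haveI : Fact (Nat.Prime 2) := ⟨Nat.prime_two⟩
      exact isCyclic_of_prime_card (p := 2) (by rw [hk]; norm_num)
    · rw [hk]; norm_num
  have hsq : ∀ x : (T : Subgroup G), x ^ 2 = 1 := by
    intro x
    have hd : orderOf x ∣ 4 := hcard4 ▸ orderOf_dvd_natCard x
    have hne : orderOf x ≠ 4 := by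
      intro h
      exact hncyc (isCyclic_of_orderOf_eq_card x (by rw [h, hcard4]))
    have hle : orderOf x ≤ 4 := Nat.le_of_dvd (by norm_num) hd
    have hd2 : orderOf x ∣ 2 := by
      interval_cases h : orderOf x <;> simp_all (decide := true)
    exact orderOf_dvd_iff_pow_eq_one.1 hd2
  haveI hK4 : IsKleinFour (T : Subgroup G) := by
    refine ⟨hcard4, ?_⟩
    have hd : Monoid.exponent (T : Subgroup G) ∣ 2 := Monoid.exponent_dvd_of_forall_pow_eq_one hsq
    rcases (Nat.dvd_prime Nat.prime_two).1 hd with h | h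
    · exfalso
      rw [Monoid.exp_eq_one_iff] at h
      have := Nat.card_eq_one_iff_unique.2 ⟨h, ⟨1⟩⟩
      omega
    · exact h
  refine ⟨hK4, ?_⟩
  obtain ⟨e0⟩ : Nonempty ((T : Subgroup G) ≃* Multiplicative (ZMod 2 × ZMod 2)) :=
    IsKleinFour.nonempty_mulEquiv
  have e : (T : Subgroup G) ≃* Multiplicative (ZMod (2 ^ 1) × ZMod (2 ^ 1)) := e0
  rcases Cfsg.Agent.Lib.Helper21.homocyclic_relIndex T 1 le_rfl e with h1 | h3
  · exfalso
    have hNC : Subgroup.normalizer (T : Set G) ≤ Subgroup.centralizer (T : Set G) :=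
      Subgroup.relIndex_eq_one.1 h1
    exact hnc (Cfsg.Agent.Lib.Helper21.homocyclic_comm T 1 e) _ inferInstance
      (MonoidHom.ker_transferSylow_isComplement' T hNC)
  · exact h3

end Cfsg.Agent.S0992
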