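import Cfsg.Statements.S0995
-- import your own Cfsg.Agent.* helpers here
import Cfsg.Agent.Lib.Helper54.StronglyEmbedded

set_option autoImplicit false
open Cfsg

namespace Cfsg.Agent.S0995

theorem card_isConj_eq_index' {G : Type*} [Group G] (h : G) :
    Nat.card {x // IsConj h x} = (Subgroup.centralizer {h}).index := by
  have h1 := MulAction.index_stabilizer (ConjAct G) h
  rw [ConjAct.stabilizer_eq_centralizer] at h1
  have h2 : (Subgroup.centralizer {ConjAct.toConjAct h} : Subgroup (ConjAct G)).index =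
    (Subgroup.centralizer {h} : Subgroup G).index := rfl
  rw [← h2, h1, ← Nat.card_coe_set_eq]
  apply Nat.card_congr
  apply Equiv.subtypeEquivRight
  intro x
  rw [ConjAct.mem_orbit_conjAct, isConj_comm]

theorem index_centralizer_conj {G : Type*} [Group G] {g g' : G} (h : IsConj g g') :
    (Subgroup.centralizer {g}).index = (Subgroup.centralizer {g'}).index := by
  rw [← card_isConj_eq_index', ← card_isConj_eq_index']
  apply Nat.card_congr
  apply Equiv.subtypeEquivRight
  intro x
  exact ⟨fun hx => h.symm.trans hx, fun hx => h.trans hx⟩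

theorem card_eq_mul_of_fibers {α β : Type*} [Finite α] [Finite β] (f : α → β) (k : ℕ)
    (h : ∀ b, Nat.card {a // f a = b} = k) : Nat.card α = Nat.card β * k := by
  cases nonempty_fintype β
  rw [Nat.card_congr (Equiv.sigmaFiberEquiv f).symm, Nat.card_sigma]
  simp only [h]
  rw [Finset.sum_const, Finset.card_univ, smul_eq_mul, Nat.card_eq_fintype_card]

theorem card_ne_one {α : Type*} [Finite α] (a : α) : Nat.card {x : α // x ≠ a} = Nat.card α - 1 := by
  classical
  cases nonempty_fintype α
  rw [Nat.card_eq_fintype_card, Nat.card_eq_fintype_card]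
  exact Set.card_ne_eq a

/-- Let G be a finite perfect group containing an element z of prime order p whose centralizer is the cyclic group it generates. Let t be the number of conjugacy classes of elements of order p. Then t divides p - 1, the number of Sylow p-subgroups has the form 1 + n * p, and |G| * t = (p - 1) * p * (1 + n * p). -/
theorem result {G : Type*} [Group G] [Finite G] (hperf : commutator G = ⊤) (p : ℕ) [Fact p.Prime] (z : G) (hz : orderOf z = p) (hC : Subgroup.centralizer ({z} : Set G) = Subgroup.zpowers z) : ∃ n t : ℕ, t = Nat.card {c : ConjClasses G // ∃ g : G, ConjClasses.mk g = c ∧ orderOf g = p} ∧ t ∣ p - 1 ∧ Nat.card (Sylow p G) = 1 + n * p ∧ Nat.card G * t = (p - 1) * p * (1 + n * p) := by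
  classical
  have hp : p.Prime := Fact.out
  have hzp : IsPGroup p ↥(Subgroup.zpowers z) := IsPGroup.of_card (n := 1) (by rw [Nat.card_zpowers, hz, pow_one])
  obtain ⟨P, hP⟩ := hzp.exists_le_sylow
  -- generators of zpowers z
  have hgen : ∀ c ∈ Subgroup.zpowers z, c ≠ 1 → Subgroup.zpowers c = Subgroup.zpowers z := by
    intro c hc hc1
    apply Subgroup.eq_of_le_of_card_ge (Subgroup.zpowers_le.mpr hc)
    rw [Nat.card_zpowers, Nat.card_zpowers, hz]
    have h1 : orderOf c ∣ p := by
      have := Subgroup.orderOf_dvd_natCard _ hc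
      rwa [Nat.card_zpowers, hz] at this
    rcases (Nat.dvd_prime hp).mp h1 with h | h
    · exact absurd (orderOf_eq_one_iff.mp h) hc1
    · exact h.ge
  have hPz : (P : Subgroup G) = Subgroup.zpowers z := by
    apply le_antisymm _ hP
    have hne : (P : Subgroup G) ≠ ⊥ := by
      intro h
      have : z ∈ (⊥ : Subgroup G) := h ▸ hP (Subgroup.mem_zpowers z)
      rw [Subgroup.mem_bot] at this
      rw [this, orderOf_one] at hz
      exact hp.one_lt.ne hz
    obtain ⟨c, hcP, hco, hcc⟩ := Cfsg.Agent.Lib.Helper54.exists_central_orderOf_eq (P : Subgroup G) P.2 hne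
    have hc1 : c ≠ 1 := by
      rintro rfl
      rw [orderOf_one] at hco
      exact hp.one_lt.ne hco
    have hcz : c ∈ Subgroup.zpowers z := by
      rw [← hC, Subgroup.mem_centralizer_singleton_iff]
      exact (hcc z (hP (Subgroup.mem_zpowers z))).symm
    have hzc : z ∈ Subgroup.zpowers c := by rw [hgen c hcz hc1]; exact Subgroup.mem_zpowers z
    obtain ⟨i, hi⟩ := Subgroup.mem_zpowers_iff.mp hzc
    intro y hy
    rw [← hC, Subgroup.mem_centralizer_singleton_iff, ← hi]
    exact ((show Commute y c from hcc y hy).zpow_right i).eq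
  have hcardP : Nat.card (P : Subgroup G) = p := by rw [hPz, Nat.card_zpowers, hz]
  have hcardQ : ∀ Q : Sylow p G, Nat.card (Q : Subgroup G) = p := by
    intro Q
    exact (Q.card_eq_multiplicity.trans P.card_eq_multiplicity.symm).trans hcardP
  -- k = |G| / p
  set k := (P : Subgroup G).index with hk
  have hGk : p * k = Nat.card G := by rw [← hcardP]; exact Subgroup.card_mul_index _
  have hkp : ¬ p ∣ k := P.not_dvd_index
  -- centralizers
  have hidx : ∀ g : G, orderOf g = p → (Subgroup.centralizer ({g} : Set G)).index = k := by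
    intro g hg
    have hgp : IsPGroup p ↥(Subgroup.zpowers g) := IsPGroup.of_card (n := 1) (by rw [Nat.card_zpowers, hg, pow_one])
    obtain ⟨Q, hQ⟩ := hgp.exists_le_sylow
    obtain ⟨h, hh⟩ := MulAction.exists_smul_eq G Q P
    have h1 : h * g * h⁻¹ ∈ (P : Subgroup G) := by
      rw [← hh]
      exact (Subgroup.mem_smul_pointwise_iff_exists _ _ _).mpr ⟨g, hQ (Subgroup.mem_zpowers g), rfl⟩
    rw [hPz] at h1
    have h2 : h * g * h⁻¹ ≠ 1 := by
      intro h3
      have : g = 1 := by
        have h4 : g = h⁻¹ * (h * g * h⁻¹) * h := by group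
        rw [h4, h3]; group
      rw [this, orderOf_one] at hg
      exact hp.one_lt.ne hg
    rw [index_centralizer_conj (isConj_iff.mpr ⟨h, rfl⟩ : IsConj g (h * g * h⁻¹))]
    have h3 : Subgroup.centralizer ({h * g * h⁻¹} : Set G) = Subgroup.zpowers z := by
      rw [← hC, ← Subgroup.centralizer_closure, ← Subgroup.centralizer_closure ({z} : Set G),
        ← Subgroup.zpowers_eq_closure, ← Subgroup.zpowers_eq_closure, hgen _ h1 h2]
    rw [h3, ← hPz]
  -- elements of Sylow subgroups
  have hordQ : ∀ (Q : Sylow p G) (x : G), x ∈ (Q : Subgroup G) → x ≠ 1 → orderOf x = p := by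
    intro Q x hxQ hx1
    have h1 := Subgroup.orderOf_dvd_natCard _ hxQ
    rw [hcardQ] at h1
    rcases (Nat.dvd_prime hp).mp h1 with h | h
    · exact absurd (orderOf_eq_one_iff.mp h) hx1
    · exact h
  have hne1 : ∀ x : G, orderOf x = p → x ≠ 1 := by
    rintro x hx rfl
    rw [orderOf_one] at hx
    exact hp.one_lt.ne hx
  -- count of elements of order p, by classes
  have hE1 : Nat.card {g : G // orderOf g = p}
      = Nat.card {c : ConjClasses G // ∃ g : G, ConjClasses.mk g = c ∧ orderOf g = p} * k := by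
    apply card_eq_mul_of_fibers (fun x : {g : G // orderOf g = p} =>
      (⟨ConjClasses.mk x.1, x.1, rfl, x.2⟩ : {c : ConjClasses G // ∃ g : G, ConjClasses.mk g = c ∧ orderOf g = p}))
    rintro ⟨c, g, rfl, hg⟩
    rw [← hidx g hg, ← card_isConj_eq_index']
    apply Nat.card_congr
    refine ⟨fun a => ⟨a.1.1, ?_⟩, fun x => ⟨⟨x.1, ?_⟩, ?_⟩, fun a => rfl, fun x => rfl⟩
    · have := congrArg Subtype.val a.2
      exact (ConjClasses.mk_eq_mk_iff_isConj.mp this).symm
    · obtain ⟨h, hh⟩ := isConj_iff.mp x.2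
      have := (MulAut.conj h).orderOf_eq g
      rw [MulAut.conj_apply, hh] at this
      exact this.trans hg
    · exact Subtype.ext (ConjClasses.mk_eq_mk_iff_isConj.mpr x.2.symm)
  -- count of elements of order p, by Sylow subgroups
  have hE2 : Nat.card {g : G // orderOf g = p} = Nat.card (Sylow p G) * (p - 1) := by
    have hsyl : ∀ x : {g : G // orderOf g = p}, ∃ Q : Sylow p G, (Q : Subgroup G) = Subgroup.zpowers x.1 := by
      rintro ⟨x, hx⟩
      have hgp : IsPGroup p ↥(Subgroup.zpowers x) := IsPGroup.of_card (n := 1) (by rw [Nat.card_zpowers, hx, pow_one])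
      obtain ⟨Q, hQ⟩ := hgp.exists_le_sylow
      refine ⟨Q, (Subgroup.eq_of_le_of_card_ge hQ ?_).symm⟩
      rw [hcardQ, Nat.card_zpowers, hx]
    choose S hS using hsyl
    apply card_eq_mul_of_fibers S
    intro Q
    have h1 := card_ne_one (1 : (Q : Subgroup G))
    rw [hcardQ] at h1
    rw [← h1]
    apply Nat.card_congr
    refine ⟨fun a => ⟨⟨a.1.1, ?_⟩, ?_⟩, fun x => ⟨⟨x.1.1, ?_⟩, ?_⟩, fun a => rfl, fun x => rfl⟩
    · have h2 : (a.1.1 : G) ∈ ((S a.1 : Sylow p G) : Subgroup G) := by
        rw [hS]; exact Subgroup.mem_zpowers _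
      have h3 := a.2
      rwa [h3] at h2
    · intro h
      exact hne1 _ a.1.2 (congrArg Subtype.val h)
    · exact hordQ Q _ x.1.2 (fun h => x.2 (Subtype.ext h))
    · apply Sylow.ext
      rw [hS]
      apply Subgroup.eq_of_le_of_card_ge (Subgroup.zpowers_le.mpr x.1.2)
      rw [hcardQ, Nat.card_zpowers]
      exact (hordQ Q _ x.1.2 (fun h => x.2 (Subtype.ext h))).ge
  set t := Nat.card {c : ConjClasses G // ∃ g : G, ConjClasses.mk g = c ∧ orderOf g = p} with ht
  have hmod := card_sylow_modEq_one p G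
  obtain ⟨n, hn⟩ : ∃ n, Nat.card (Sylow p G) = 1 + n * p := by
    have h1 : 1 ≤ Nat.card (Sylow p G) := Nat.card_pos
    have h2 := (Nat.modEq_iff_dvd' h1).mp hmod.symm
    obtain ⟨n, hn⟩ := h2
    exact ⟨n, by rw [mul_comm n p]; omega⟩
  have hmain : Nat.card G * t = (p - 1) * p * (1 + n * p) := by
    rw [← hn, ← hGk]
    calc p * k * t = p * (t * k) := by ring
      _ = p * (Nat.card (Sylow p G) * (p - 1)) := by rw [← hE1, hE2]
      _ = (p - 1) * p * Nat.card (Sylow p G) := by ring
  refine ⟨n, t, rfl, ?_, hn, hmain⟩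
  -- t ∣ p - 1
  have h1 := Sylow.card_eq_index_normalizer P
  have h2 := Subgroup.card_mul_index (Subgroup.normalizer ((P : Subgroup G) : Set G))
  obtain ⟨e, he⟩ : p ∣ Nat.card ↥(Subgroup.normalizer ((P : Subgroup G) : Set G)) := by
    have := Subgroup.card_dvd_of_le (Subgroup.le_normalizer : (P : Subgroup G) ≤ _)
    rwa [hcardP] at this
  have h1' : (Subgroup.normalizer ((P : Subgroup G) : Set G)).index = 1 + n * p := by rw [← hn, h1]; rfl
  rw [← h2, he, h1'] at hmain
  have hpos : 0 < p * (1 + n * p) := Nat.mul_pos hp.pos (by omega)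
  refine ⟨e, ?_⟩
  apply Nat.eq_of_mul_eq_mul_right hpos
  rw [← mul_assoc, ← hmain]; ring

end Cfsg.Agent.S0995
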