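import Cfsg.Statements.S1001
-- import your own Cfsg.Agent.* helpers here
import Cfsg.Agent.Lib.Helper51.PrimePowerDeg

set_option autoImplicit false
open Cfsg

namespace Cfsg.Agent.S1001

/-- In a finite simple group whose order has the form p * 3^a * 2^b with p prime, the centralizer of any element of order p is the cyclic group it generates. -/
theorem result {G : Type*} [Group G] [Finite G] [IsSimpleGroup G] (p a b : ℕ) (hp : p.Prime) (hG : Nat.card G = p * 3 ^ a * 2 ^ b) (x : G) (hx : orderOf x = p) : Subgroup.centralizer ({x} : Set G) = Subgroup.zpowers x := by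
  classical
  have hx1 : x ≠ 1 := by
    rintro rfl
    rw [orderOf_one] at hx
    exact hp.one_lt.ne hx
  by_cases h23 : p = 2 ∨ p = 3
  · -- the order is `2^i 3^j`: Burnside
    have hsolv : Group.IsSolvable G := by
      rcases h23 with h | h
      · apply Cfsg.Agent.S0144.result 3 2 a (b + 1) Nat.prime_three Nat.prime_two
        rw [hG, h]; ring
      · apply Cfsg.Agent.S0144.result 3 2 (a + 1) b Nat.prime_three Nat.prime_two
        rw [hG, h]; ring
    have hc : ∀ a b : G, a * b = b * a := IsSimpleGroup.comm_iff_isSolvable.2 hsolv
    let _ : CommGroup G := { (inferInstance : Group G) with mul_comm := hc }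
    have hprime : (Nat.card G).Prime := IsSimpleGroup.prime_card
    have : Fact (Nat.card G).Prime := ⟨hprime⟩
    have htop : Subgroup.zpowers x = ⊤ := zpowers_eq_top_of_prime_card rfl hx1
    rw [htop, eq_top_iff]
    intro y _
    rw [Subgroup.mem_centralizer_iff]
    intro z _
    exact hc z y
  · push Not at h23
    exact Cfsg.Agent.Lib.Helper51.centralizer_prime_elt 3 2 p a b Nat.prime_three Nat.prime_two hp
      (Ne.symm h23.2) (Ne.symm h23.1) (by rw [hG]; ring) x hx

end Cfsg.Agent.S1001
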