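import Cfsg.Statements.S1002
-- import your own Cfsg.Agent.* helpers here
import Cfsg.Agent.Lib.Helper76.BrauerPrime

set_option autoImplicit false
open Cfsg

namespace Cfsg.Agent.S1002

open Subgroup Cfsg.Agent.Lib.Helper76

instance fact409 : Fact (Nat.Prime 409) := ⟨by norm_num⟩

theorem arith_n : ∀ x, x ∣ 2457 → x % 409 = 1 → 1 < x → x = 819 := by
  intro x h1 h2 h3
  have h4 : x ≤ 2457 := Nat.le_of_dvd (by norm_num) h1
  obtain ⟨k, hk⟩ : ∃ k, x = 409 * k + 1 := ⟨x / 409, by omega⟩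
  have hk6 : k ≤ 6 := by omega
  subst hk
  interval_cases k <;> omega

theorem arith_x (x : ℕ) (a : ℤ) (ha : a = 1 ∨ a = -1) (h1 : x ∣ 2457)
    (h2 : (x : ℤ) ≡ a [ZMOD (409 : ℕ)]) (h3 : 1 < x) : x = 819 ∧ a = 1 := by
  have h4 : x ≤ 2457 := Nat.le_of_dvd (by norm_num) h1
  unfold Int.ModEq at h2
  rcases ha with rfl | rfl
  · obtain ⟨k, hk⟩ : ∃ k, x = 409 * k + 1 := ⟨x / 409, by omega⟩
    have hk6 : k ≤ 6 := by omega
    subst hk
    interval_cases k <;> omega
  · obtain ⟨k, hk⟩ : ∃ k, x = 409 * k + 408 := ⟨x / 409, by omega⟩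
    have hk6 : k ≤ 6 := by omega
    subst hk
    interval_cases k <;> omega

/-- No finite simple group has order 1004913 = 3^3 * 7 * 13 * 409. -/
theorem result {G : Type*} [Group G] [Finite G] [IsSimpleGroup G] : Nat.card G ≠ 1004913 := by
  intro hG
  obtain ⟨P⟩ : Nonempty (Sylow 409 G) := inferInstance
  obtain ⟨hP, hN⟩ := sylow_data_of_simple P 2457 819 (by rw [hG]) (by norm_num) (by norm_num) arith_n
  have hN' : Nat.card (normalizer ((P : Subgroup G) : Set G)) = 409 * 3 := by omega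
  obtain ⟨x, y, z, a, b, δ, ha, hb, hδ, hx1, hx, hy1, hy, hz, hxa, hyb, heq⟩ :=
    simple_brauer_three P hP hN' (by norm_num)
  rw [hG] at hx hy hz
  have hx' : x ∣ 2457 := dvd_of_modEq_pm (p := 409) (by norm_num) a ha (by simpa using hx) hxa
  have hy' : y ∣ 2457 := dvd_of_modEq_pm (p := 409) (by norm_num) b hb (by simpa using hy) hyb
  obtain ⟨rfl, rfl⟩ := arith_x x a ha hx' hxa hx1
  obtain ⟨rfl, rfl⟩ := arith_x y b hb hy' hyb hy1
  have hz97 : z = 1639 := by rcases hδ with rfl | rfl <;> omega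
  rw [hz97] at hz
  norm_num at hz

end Cfsg.Agent.S1002
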