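import Cfsg.Statements.S1009
-- import your own Cfsg.Agent.* helpers here

set_option autoImplicit false
open Cfsg

namespace Cfsg.Agent.S1009

theorem exists_min_of_finite {α : Type*} [Finite α] [Nonempty α] (f : α → ℕ) :
    ∃ a, ∀ b, f a ≤ f b := by
  classical
  have := Fintype.ofFinite α
  obtain ⟨a, _, ha⟩ := Finset.exists_min_image (Finset.univ : Finset α) f Finset.univ_nonempty
  exact ⟨a, fun b => ha b (Finset.mem_univ b)⟩

/-- Brodkey's Theorem: if a finite group has abelian Sylow p-subgroups, then there are two Sylow p-subgroups whose intersection equals the intersection of all Sylow p-subgroups. -/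
theorem result {G : Type*} [Group G] [Finite G] (p : ℕ) [Fact p.Prime] (hab : ∀ P : Sylow p G, IsMulCommutative ↥(P : Subgroup G)) : ∃ P Q : Sylow p G, (P : Subgroup G) ⊓ (Q : Subgroup G) = ⨅ R : Sylow p G, (R : Subgroup G) := by
  classical
  have : Nonempty (Sylow p G × Sylow p G) := ⟨(default, default)⟩
  obtain ⟨⟨P, Q⟩, hmin⟩ := exists_min_of_finite
    (fun X : Sylow p G × Sylow p G => Nat.card ((X.1 : Subgroup G) ⊓ (X.2 : Subgroup G) : Subgroup G))
  refine ⟨P, Q, le_antisymm ?_ ?_⟩
  swap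
  · exact le_inf (iInf_le _ P) (iInf_le _ Q)
  refine le_iInf fun R => ?_
  set D : Subgroup G := (P : Subgroup G) ⊓ (Q : Subgroup G) with hD
  set N : Subgroup G := Subgroup.normalizer (D : Set G) with hN
  have hab' : ∀ (S : Sylow p G), D ≤ (S : Subgroup G) → (S : Subgroup G) ≤ N := by
    intro S hDS x hx
    rw [hN, Subgroup.mem_normalizer_iff]
    intro d
    have key : ∀ e : G, e ∈ D → x * e * x⁻¹ = e := by
      intro e he
      have := (hab S).is_comm.comm ⟨x, hx⟩ ⟨e, hDS he⟩
      have h2 : x * e = e * x := congrArg Subtype.val this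
      rw [h2, mul_inv_cancel_right]
    constructor
    · intro hd
      rw [key d hd]; exact hd
    · intro hd
      have h3 := key _ hd
      have h4 : x * d * x⁻¹ = d := by
        have h5 : x * (x * d * x⁻¹) * x⁻¹ = x * d * x⁻¹ := h3
        have h6 : x * (x * d * x⁻¹) = x * d := by
          have := congrArg (· * x) h5
          simpa [mul_assoc] using this
        exact mul_left_cancel h6
      rw [← h4]; exact hd
  have hPN : (P : Subgroup G) ≤ N := hab' P inf_le_left
  have hQN : (Q : Subgroup G) ≤ N := hab' Q inf_le_right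
  -- a Sylow subgroup of N containing R ⊓ N
  have hpg : IsPGroup p (((R : Subgroup G) ⊓ N).subgroupOf N) := by
    have h1 : IsPGroup p ((R : Subgroup G) ⊓ N : Subgroup G) := R.2.to_le inf_le_left
    exact h1.comap_subtype
  obtain ⟨T', hT'⟩ := hpg.exists_le_sylow
  obtain ⟨n, hn⟩ := MulAction.exists_smul_eq N (P.subtype hPN) T'
  have hRT : ∀ x, x ∈ (R : Subgroup G) → x ∈ N → (n : G)⁻¹ * x * (n : G) ∈ (P : Subgroup G) := by
    intro x hxR hxN
    have h1 : (⟨x, hxN⟩ : N) ∈ (T' : Subgroup N) := hT' (by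
      rw [Subgroup.mem_subgroupOf]; exact ⟨hxR, hxN⟩)
    rw [← hn, Sylow.coe_subgroup_smul, Subgroup.mem_pointwise_smul_iff_inv_smul_mem] at h1
    have h2 : n⁻¹ * ⟨x, hxN⟩ * n ∈ ((P.subtype hPN : Sylow p N) : Subgroup N) := by
      simpa [MulAut.smul_def, MulAut.conj_apply] using h1
    rw [Sylow.coe_subtype, Subgroup.mem_subgroupOf] at h2
    simpa using h2
  have hle : (R : Subgroup G) ⊓ (((n : G) • Q : Sylow p G) : Subgroup G) ≤ D := by
    intro x hx
    obtain ⟨hxR, hxQ⟩ := Subgroup.mem_inf.1 hx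
    rw [Sylow.coe_subgroup_smul, Subgroup.mem_pointwise_smul_iff_inv_smul_mem] at hxQ
    have hxQ' : (n : G)⁻¹ * x * (n : G) ∈ (Q : Subgroup G) := by
      simpa [MulAut.smul_def, MulAut.conj_apply] using hxQ
    have hxN : x ∈ N := by
      have h1 : (n : G) * ((n : G)⁻¹ * x * (n : G)) * (n : G)⁻¹ ∈ N :=
        N.mul_mem (N.mul_mem n.2 (hQN hxQ')) (N.inv_mem n.2)
      simpa [mul_assoc] using h1
    have hxP := hRT x hxR hxN
    have hxD : (n : G)⁻¹ * x * (n : G) ∈ D := ⟨hxP, hxQ'⟩
    have hn' : (n : G) ∈ Subgroup.normalizer (D : Set G) := n.2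
    have h2 := (Subgroup.mem_normalizer_iff.1 hn' _).1 hxD
    simpa [mul_assoc] using h2
  have hcard := hmin (R, (n : G) • Q)
  have heq : (R : Subgroup G) ⊓ (((n : G) • Q : Sylow p G) : Subgroup G) = D :=
    Subgroup.eq_of_le_of_card_ge hle hcard
  rw [← heq]
  exact inf_le_left

end Cfsg.Agent.S1009
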