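import Cfsg.Statements.S1013
import Mathlib

set_option autoImplicit false
open Cfsg

namespace Cfsg.Agent.S1013

open MulAction Subgroup

theorem dvd_card_of_normal {X α : Type*} [Group X] [Finite X] [MulAction X α] [FaithfulSMul X α]
    [IsPretransitive X α] (hα : (Nat.card α).Prime) (K : Subgroup X) [K.Normal] (hK : K ≠ ⊥) :
    Nat.card α ∣ Nat.card K := by
  have hprim : IsPreprimitive X α := IsPreprimitive.of_prime_card hα
  have hfix : fixedPoints K α ≠ Set.univ := by
    intro h
    apply hK
    rw [Subgroup.eq_bot_iff_forall]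
    intro x hx
    apply FaithfulSMul.eq_of_smul_eq_smul (α := α)
    intro a
    have : a ∈ fixedPoints K α := h ▸ Set.mem_univ a
    rw [one_smul]
    exact this ⟨x, hx⟩
  have htr : IsPretransitive K α := IsQuasiPreprimitive.isPretransitive_of_normal hfix
  have : Nonempty α := by
    rw [← not_isEmpty_iff]
    intro h
    rw [Nat.card_of_isEmpty] at hα
    exact Nat.not_prime_zero hα
  obtain ⟨a⟩ := this
  rw [← index_stabilizer_of_transitive K a]
  exact Subgroup.index_dvd_card _

theorem main {H α : Type*} [Group H] [Finite H] [MulAction H α] [FaithfulSMul H α]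
    [IsPretransitive H α] {p : ℕ} [Fact p.Prime] (hα : Nat.card α = p) (P : Sylow p H)
    (hn : 1 < Nat.card (Sylow p H))
    (ht : (((P : Subgroup H).subgroupOf (Subgroup.normalizer ((P : Subgroup H) : Set H))).index).Prime) :
    IsSimpleGroup H := by
  have hp : p.Prime := Fact.out
  have hαp : (Nat.card α).Prime := by rw [hα]; exact hp
  have : Finite α := Nat.finite_of_card_ne_zero hαp.ne_zero
  -- `p ^ 2` does not divide the order
  have hsq : ¬ p ^ 2 ∣ Nat.card H := by
    intro h
    have h1 : Nat.card H ∣ Nat.card (Equiv.Perm α) :=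
      Subgroup.card_dvd_of_injective (MulAction.toPermHom H α) MulAction.toPerm_injective
    have h2 : Nat.card (Equiv.Perm α) = p.factorial := by
      classical
      have := Fintype.ofFinite α
      rw [Nat.card_eq_fintype_card, Fintype.card_perm, ← Nat.card_eq_fintype_card, hα]
    rw [h2] at h1
    have h3 : p ^ 2 ∣ p.factorial := h.trans h1
    obtain ⟨m, rfl⟩ : ∃ m, p = m + 1 := ⟨p - 1, by have := hp.pos; omega⟩
    rw [Nat.factorial_succ, sq] at h3
    have h4 : (m + 1) ∣ m.factorial := Nat.dvd_of_mul_dvd_mul_left (by omega) h3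
    have := (hp.dvd_factorial).1 h4
    omega
  have hnontriv : Nontrivial H := by
    by_contra h
    rw [not_nontrivial_iff_subsingleton] at h
    have : Subsingleton (Sylow p H) := ⟨fun A B => Sylow.ext (Subsingleton.elim _ _)⟩
    have := Finite.card_le_one_iff_subsingleton.2 this
    omega
  refine ⟨fun N hN => ?_⟩
  by_cases hbot : N = ⊥
  · exact Or.inl hbot
  right
  have hpN : p ∣ Nat.card N := by
    have h9 := dvd_card_of_normal hαp N hbot
    rw [hα] at h9
    exact h9
  -- index of `N` is prime to `p`
  have hidx : ¬ p ∣ N.index := by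
    intro h
    apply hsq
    rw [← Subgroup.card_mul_index N, sq]
    exact Nat.mul_dvd_mul hpN h
  have hPN : (P : Subgroup H) ≤ N := by
    intro x hx
    obtain ⟨k, hk⟩ := (P.2 ⟨x, hx⟩)
    have hk' : x ^ p ^ k = 1 := by simpa using congrArg Subtype.val hk
    have hcop : Nat.Coprime N.index (orderOf x) := by
      have h1 : orderOf x ∣ p ^ k := orderOf_dvd_of_pow_eq_one hk'
      have h2 : Nat.Coprime N.index (p ^ k) :=
        Nat.Coprime.pow_right _ ((Nat.Prime.coprime_iff_not_dvd hp).2 hidx).symm
      exact Nat.Coprime.coprime_dvd_right h1 h2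
    obtain ⟨m, hm⟩ := exists_pow_eq_self_of_coprime hcop
    rw [← hm]
    exact N.pow_mem (Subgroup.pow_index_mem N x) m
  have hfrat := Sylow.normalizer_sup_eq_top' P hPN
  set M : Subgroup H := Subgroup.normalizer ((P : Subgroup H) : Set H) with hM
  have hPM : (P : Subgroup H) ≤ M := Subgroup.le_normalizer
  have hrel : (P : Subgroup H).relIndex (N ⊓ M) * (N ⊓ M).relIndex M = (P : Subgroup H).relIndex M :=
    Subgroup.relIndex_mul_relIndex _ _ _ (le_inf hPN hPM) inf_le_right
  have hprime : ((P : Subgroup H).relIndex M).Prime := ht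
  rw [← hrel] at hprime
  rcases (Nat.prime_mul_iff.1 hprime) with ⟨_, h1⟩ | ⟨_, h1⟩
  · -- `M ≤ N`
    rw [Subgroup.relIndex_eq_one] at h1
    have : M ≤ N := h1.trans inf_le_left
    rw [← hfrat]
    exact (sup_eq_right.2 this).symm
  · exfalso
    rw [Subgroup.relIndex_eq_one] at h1
    -- Burnside
    let P' : Sylow p N := P.subtype hPN
    have hP'coe : (P' : Subgroup N) = (P : Subgroup H).subgroupOf N := Sylow.coe_subtype _ hPN
    have hcardP : Nat.card (P : Subgroup H) ∣ p := by
      obtain ⟨k, hk⟩ := (IsPGroup.iff_card.1 P.2)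
      have h2 : p ^ k ∣ Nat.card H := hk ▸ Subgroup.card_subgroup_dvd_card _
      have h3 : k < 2 := by
        by_contra h4
        exact hsq ((pow_dvd_pow p (by omega)).trans h2)
      rw [hk]
      calc p ^ k ∣ p ^ 1 := pow_dvd_pow p (by omega)
        _ = p := pow_one p
    have hcomm : ∀ x ∈ (P : Subgroup H), ∀ y ∈ (P : Subgroup H), x * y = y * x := by
      have hcyc : IsCyclic (P : Subgroup H) := by
        rcases (Nat.dvd_prime hp).1 hcardP with h | h
        · have : Subsingleton (P : Subgroup H) := (Nat.card_eq_one_iff_unique.1 h).1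
          infer_instance
        · exact isCyclic_of_prime_card h
      intro x hx y hy
      have hc := hcyc.isMulCommutative
      have := mul_comm' (⟨x, hx⟩ : (P : Subgroup H)) ⟨y, hy⟩
      exact congrArg Subtype.val this
    have hnc : Subgroup.normalizer ((P' : Subgroup N) : Set N) ≤ Subgroup.centralizer ((P' : Subgroup N) : Set N) := by
      intro x hx
      have hxM : (x : H) ∈ M := by
        rw [hM, Subgroup.mem_normalizer_iff]
        intro h
        rw [Subgroup.mem_normalizer_iff] at hx
        constructor
        · intro hh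
          have := (hx ⟨h, hPN hh⟩).1 (by rw [hP'coe]; exact hh)
          rw [hP'coe] at this
          exact this
        · intro hh
          have hhN : h ∈ N := by
            have h5 : (x : H) * h * (x : H)⁻¹ ∈ N := hPN hh
            have := N.mul_mem (N.mul_mem (N.inv_mem x.2) h5) x.2
            simpa [mul_assoc] using this
          have := (hx ⟨h, hhN⟩).2 (by rw [hP'coe]; exact hh)
          rw [hP'coe] at this
          exact this
      have hxP : (x : H) ∈ (P : Subgroup H) := h1 ⟨x.2, hxM⟩
      rw [Subgroup.mem_centralizer_iff]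
      intro y hy
      have hy' : (y : H) ∈ (P : Subgroup H) := by
        have : y ∈ (P' : Subgroup N) := hy
        rw [hP'coe] at this
        exact this
      apply Subtype.ext
      exact hcomm _ hy' _ hxP
    have hcompl := MonoidHom.ker_transferSylow_isComplement' P' hnc
    have hnd := MonoidHom.not_dvd_card_ker_transferSylow P' hnc
    have hNtr : IsPretransitive N α := by
      have hprim : IsPreprimitive H α := IsPreprimitive.of_prime_card hαp
      apply IsQuasiPreprimitive.isPretransitive_of_normal (G := H)
      intro h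
      apply hbot
      rw [Subgroup.eq_bot_iff_forall]
      intro x hx
      apply FaithfulSMul.eq_of_smul_eq_smul (α := α)
      intro a
      have : a ∈ fixedPoints N α := h ▸ Set.mem_univ a
      rw [one_smul]
      exact this ⟨x, hx⟩
    have hKbot : (MonoidHom.transferSylow P' hnc).ker = ⊥ := by
      by_contra hne
      have h9 := dvd_card_of_normal (X := N) hαp _ hne
      rw [hα] at h9
      exact hnd h9
    rw [hKbot, Subgroup.isComplement'_bot_left] at hcompl
    have hNP : N ≤ (P : Subgroup H) := by
      intro x hx
      have : (⟨x, hx⟩ : N) ∈ (P' : Subgroup N) := by rw [hcompl]; trivial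
      rw [hP'coe] at this
      exact this
    have hEq : (P : Subgroup H) = N := le_antisymm hPN hNP
    have hPnormal : (P : Subgroup H).Normal := hEq ▸ hN
    have := Sylow.card_eq_index_normalizer P
    have h6 : Subgroup.normalizer ((P : Subgroup H) : Set H) = ⊤ := Subgroup.normalizer_eq_top_iff.2 hPnormal
    have h7 : (Subgroup.normalizer ((P : Subgroup H) : Set H)).index = 1 := by rw [h6, Subgroup.index_top]
    have h8 : Nat.card (Sylow p H) = 1 := this.trans h7
    omega

/-- A transitive group of prime degree with more than one Sylow `p`-subgroup, each of prime index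
in its normalizer, is simple. -/
theorem result {α : Type*} [Fintype α] [DecidableEq α] {p : ℕ} [Fact p.Prime] (hα : Fintype.card α = p) (G : Subgroup (Equiv.Perm α)) [MulAction.IsPretransitive ↥G α] (P : Sylow p ↥G) (hn : 1 < Nat.card (Sylow p ↥G)) (ht : (((P : Subgroup ↥G).subgroupOf (Subgroup.normalizer ((P : Subgroup ↥G) : Set ↥G))).index).Prime) : IsSimpleGroup ↥G :=
  main (α := α) (by rw [Nat.card_eq_fintype_card]; exact hα) P hn ht

end Cfsg.Agent.S1013
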