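import Cfsg.Statements.S1014
import Cfsg.Agent.S4304
import Cfsg.Agent.Lib.Helper75.SylowPerm

set_option autoImplicit false
open Cfsg

namespace Cfsg.Agent.S1014

open Subgroup MulAction Cfsg.Agent.Lib.Helper75 Cfsg.Agent.S4304

instance fact23 : Fact (Nat.Prime 23) := ⟨by norm_num⟩

theorem arith_n (n : ℕ) (h1 : n ∣ 48) (h2 : n ≡ 1 [MOD 23]) (h3 : 1 < n) : n = 24 := by
  have h4 : n ≤ 48 := Nat.le_of_dvd (by norm_num) h1
  unfold Nat.ModEq at h2
  interval_cases n <;> omega

/-- No finite simple group has order 1104 = 2^4 * 3 * 23. -/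
theorem result {G : Type*} [Group G] [Finite G] [IsSimpleGroup G] : Nat.card G ≠ 1104 := by
  intro hG
  obtain ⟨P⟩ : Nonempty (Sylow 23 G) := inferInstance
  have hP : Nat.card P = 23 := sylow_card_eq_prime P (by rw [hG]; norm_num) (by rw [hG]; norm_num)
  have hidx : (P : Subgroup G).index = 48 := by
    have := (P : Subgroup G).card_mul_index
    rw [hP, hG] at this
    omega
  have hn1 : 1 < Nat.card (Sylow 23 G) :=
    one_lt_card_sylow_of_simple P (by rw [hP]; norm_num) (by rw [hP, hG]; norm_num)
  have hn : Nat.card (Sylow 23 G) = 23 + 1 :=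
    arith_n _ (hidx ▸ P.card_dvd_index) (card_sylow_modEq_one 23 G) hn1
  have hN : Nat.card (normalizer ((P : Subgroup G) : Set G)) = 46 := by
    have h1 := (normalizer ((P : Subgroup G) : Set G)).card_mul_index
    rw [← card_sylow_eq_index P, hn, hG] at h1
    omega
  have : Fact (Nat.Prime 2) := ⟨by norm_num⟩
  obtain ⟨t, ht⟩ := exists_prime_orderOf_dvd_card' (G := normalizer ((P : Subgroup G) : Set G)) 2
    (by rw [hN]; norm_num)
  have ht' : orderOf (t : G) = 2 := by rw [Subgroup.orderOf_coe, ht]
  have htP : (t : G) • P = P := Sylow.smul_eq_iff_mem_normalizer.2 t.2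
  have hcyc : IsCyclic (P : Subgroup G) := isCyclic_of_prime_card hP
  have htC : (t : G) ∉ centralizer ((P : Subgroup G) : Set G) := by
    intro hC
    have hPC : (P : Subgroup G) ≤ centralizer ((P : Subgroup G) : Set G) := by
      have := hcyc.isMulCommutative
      intro x hx
      rw [mem_centralizer_iff]
      intro y hy
      exact congrArg Subtype.val (this.is_comm.comm ⟨y, hy⟩ ⟨x, hx⟩)
    have h23 : 23 ∣ Nat.card (centralizer ((P : Subgroup G) : Set G)) := by
      have := card_dvd_of_le hPC
      rwa [hP] at this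
    have h2 : 2 ∣ Nat.card (centralizer ((P : Subgroup G) : Set G)) := by
      have := orderOf_dvd_natCard (⟨(t : G), hC⟩ : centralizer ((P : Subgroup G) : Set G))
      rwa [Subgroup.orderOf_mk, ht'] at this
    have hC2 := relIndex_mul_relIndex ⊥ (centralizer ((P : Subgroup G) : Set G))
      (normalizer ((P : Subgroup G) : Set G)) bot_le (centralizer_le_normalizer _)
    rw [relIndex_bot_left, relIndex_bot_left, hN] at hC2
    have h46 : 46 ∣ Nat.card (centralizer ((P : Subgroup G) : Set G)) := by omega
    obtain ⟨c, hc⟩ := h46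
    rw [hc] at hC2
    have hr : (centralizer ((P : Subgroup G) : Set G)).relIndex
        (normalizer ((P : Subgroup G) : Set G)) = 1 := by
      have h5 : 46 * (c * (centralizer ((P : Subgroup G) : Set G)).relIndex
        (normalizer ((P : Subgroup G) : Set G))) = 46 * 1 := by rw [← mul_assoc, hC2]
      have h6 := Nat.eq_of_mul_eq_mul_left (by norm_num) h5
      exact Nat.eq_one_of_mul_eq_one_left h6
    have := card_eq_of_simple_of_normalizer_le_centralizer P (relIndex_eq_one.1 hr)
      (by rw [hP]; norm_num)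
    rw [hG, hP] at this
    omega
  obtain ⟨k, hk⟩ := card_eq_fixedBy_add_four_mul (X := Sylow 23 G) (by rw [hG]; norm_num) (t : G) ht'
  have h1 := card_fixedBy_le_two P hP hn (t : G) htP htC
  have h2 := one_le_card_fixedBy P (t : G) htP
  omega

end Cfsg.Agent.S1014
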