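import Cfsg.Statements.S1015
import Cfsg.Agent.Lib.Helper75.SimpleIndex
import Cfsg.Agent.Lib.Helper75.SylowPerm

set_option autoImplicit false
open Cfsg

namespace Cfsg.Agent.S1015

open Subgroup MulAction Cfsg.Agent.Lib.Helper75

instance fact5 : Fact (Nat.Prime 5) := ⟨by norm_num⟩

theorem arith_n (n : ℕ) (h1 : n ∣ 48) (h2 : n ≡ 1 [MOD 5]) (h3 : 1 < n) : n = 6 ∨ n = 16 := by
  have h4 : n ≤ 48 := Nat.le_of_dvd (by norm_num) h1
  unfold Nat.ModEq at h2
  interval_cases n <;> omega

theorem pow5_le (k : ℕ) (h : 5 ^ k ≤ 16) : k ≤ 1 := by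
  by_contra hk
  have : 5 ^ 2 ≤ 5 ^ k := Nat.pow_le_pow_right (by norm_num) (by omega)
  omega

theorem not_dvd_fact8 : ¬ 1200 ∣ Nat.factorial 8 := by decide

/-- No finite simple group has order 1200 = 2^4 * 3 * 5^2. -/
theorem result {G : Type*} [Group G] [Finite G] [IsSimpleGroup G] : Nat.card G ≠ 1200 := by
  intro hG
  have hidx8 : ∀ H : Subgroup G, H ≠ ⊤ → 9 ≤ H.index := by
    intro H hH
    by_contra hcon
    have := card_dvd_factorial_of_simple H hH 8 (by omega)
    rw [hG] at this
    exact not_dvd_fact8 this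
  obtain ⟨P⟩ : Nonempty (Sylow 5 G) := inferInstance
  have hcard : ∀ P : Sylow 5 G, Nat.card P = 5 ^ 2 := fun P =>
    card_sylow_eq_pow P 2 48 (by rw [hG]; norm_num) (by norm_num)
  have hP := hcard P
  have hidx : (P : Subgroup G).index = 48 := by
    have := (P : Subgroup G).card_mul_index
    rw [hP, hG] at this
    omega
  have hn1 : 1 < Nat.card (Sylow 5 G) :=
    one_lt_card_sylow_of_simple P (by rw [hP]; norm_num) (by rw [hP, hG]; norm_num)
  have hNtop : normalizer ((P : Subgroup G) : Set G) ≠ ⊤ := by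
    intro h
    rw [card_sylow_eq_index P, h, index_top] at hn1
    omega
  have hn : Nat.card (Sylow 5 G) = 16 := by
    rcases arith_n _ (hidx ▸ P.card_dvd_index) (card_sylow_modEq_one 5 G) hn1 with h | h
    · have := hidx8 _ hNtop
      rw [← card_sylow_eq_index P, h] at this
      omega
    · exact h
  have hnt : Nontrivial (Sylow 5 G) := by
    rw [← Finite.one_lt_card_iff_nontrivial]; exact hn1
  obtain ⟨Q, hQ⟩ := exists_ne P
  set D : Subgroup G := (P : Subgroup G) ⊓ (Q : Subgroup G) with hD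
  -- the stabiliser of `Q` in `P`
  have hstab : ∀ x : (P : Subgroup G), x ∈ stabilizer (P : Subgroup G) Q ↔ (x : G) ∈ D := by
    intro x
    have h1 : x ∈ stabilizer (P : Subgroup G) Q ↔ (x : G) • Q = Q := Iff.rfl
    rw [h1, Sylow.smul_eq_iff_mem_normalizer]
    have h2 := P.2.inf_normalizer_sylow Q
    constructor
    · intro h
      have h3 : (x : G) ∈ (P : Subgroup G) ⊓ normalizer (Q : Set G) := ⟨x.2, h⟩
      exact h2.le h3
    · intro h
      exact le_normalizer h.2
  have hDbot : D ≠ ⊥ := by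
    intro hb
    have hs : stabilizer (P : Subgroup G) Q = ⊥ := by
      rw [eq_bot_iff]
      intro x hx
      have := (hstab x).1 hx
      rw [hb, mem_bot] at this
      rw [mem_bot]
      exact Subtype.ext this
    have hi := index_stabilizer (P : Subgroup G) Q
    rw [hs, index_bot, hP] at hi
    have hle : (orbit (P : Subgroup G) Q).ncard ≤ Nat.card (Sylow 5 G) := Set.ncard_le_card _
    omega
  have hDtop : D ≠ ⊤ := by
    intro ht
    have h1 : (P : Subgroup G) = ⊤ := top_le_iff.1 (ht ▸ inf_le_left)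
    rw [h1, index_top] at hidx
    omega
  have hnorm : ∀ R : Sylow 5 G, D ≤ (R : Subgroup G) →
      (R : Subgroup G) ≤ normalizer (D : Set G) := by
    intro R hDR x hx
    have hc := IsPGroup.isMulCommutative_of_card_eq_prime_sq (hcard R)
    rw [mem_normalizer_iff]
    intro d
    constructor
    · intro hd
      have h1 : x * d = d * x :=
        congrArg Subtype.val (hc.is_comm.comm ⟨x, hx⟩ ⟨d, hDR hd⟩)
      rw [h1, mul_inv_cancel_right]
      exact hd
    · intro hd
      have h1 : x⁻¹ * (x * d * x⁻¹) = (x * d * x⁻¹) * x⁻¹ :=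
        congrArg Subtype.val (hc.is_comm.comm ⟨x⁻¹, inv_mem hx⟩ ⟨x * d * x⁻¹, hDR hd⟩)
      have h2 : d = x * d * x⁻¹ := by
        have h3 : d * x⁻¹ = x * d * x⁻¹ * x⁻¹ := by
          rw [← h1]; group
        exact mul_right_cancel h3
      rw [h2]
      exact hd
  set M : Subgroup G := normalizer (D : Set G) with hM
  have hPM : (P : Subgroup G) ≤ M := hnorm P inf_le_left
  have hQM : (Q : Subgroup G) ≤ M := hnorm Q inf_le_right
  have hMtop : M ≠ ⊤ := by
    intro ht
    have hDn : D.Normal := normalizer_eq_top_iff.1 ht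
    rcases IsSimpleGroup.eq_bot_or_eq_top_of_normal D hDn with h | h
    · exact hDbot h
    · exact hDtop h
  have hne : P.subtype hPM ≠ Q.subtype hQM := by
    intro h
    apply hQ
    have h1 : (P : Subgroup G).subgroupOf M = (Q : Subgroup G).subgroupOf M := by
      have := congrArg (fun R : Sylow 5 M => (R : Subgroup M)) h
      simpa using this
    have h2 := (subgroupOf_inj).1 h1
    rw [inf_eq_left.2 hPM, inf_eq_left.2 hQM] at h2
    exact (Sylow.ext h2).symm
  have hnM : 6 ≤ Nat.card (Sylow 5 M) := by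
    have h1 : Nat.card (Sylow 5 M) ≡ 1 [MOD 5] := card_sylow_modEq_one 5 M
    have h2 : 1 < Nat.card (Sylow 5 M) := by
      rw [Finite.one_lt_card_iff_nontrivial]
      exact ⟨_, _, hne⟩
    unfold Nat.ModEq at h1
    omega
  have hcM : 150 ≤ Nat.card M := by
    have h1 := (P.subtype hPM).card_dvd_index
    have h2 := ((P.subtype hPM : Sylow 5 M) : Subgroup M).card_mul_index
    have h3 : Nat.card ((P.subtype hPM : Sylow 5 M) : Subgroup M) = 25 := by
      rw [Sylow.coe_subtype]
      rw [Nat.card_congr (subgroupOfEquivOfLe hPM).toEquiv, hP]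
      norm_num
    rw [h3] at h2
    have h4 : 0 < ((P.subtype hPM : Sylow 5 M) : Subgroup M).index :=
      Nat.pos_of_ne_zero (index_ne_zero_of_finite)
    have h5 := Nat.le_of_dvd h4 h1
    omega
  have h9 := hidx8 M hMtop
  have hmul := M.card_mul_index
  rw [hG] at hmul
  nlinarith

end Cfsg.Agent.S1015
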