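import Cfsg.Statements.S1016
import Cfsg.Agent.Lib.Helper75.FixCount2

set_option autoImplicit false
open Cfsg

namespace Cfsg.Agent.S1016

open Subgroup MulAction Cfsg.Agent.Lib.Helper75

instance fact2 : Fact (Nat.Prime 2) := ⟨by norm_num⟩
instance fact3 : Fact (Nat.Prime 3) := ⟨by norm_num⟩
instance fact5 : Fact (Nat.Prime 5) := ⟨by norm_num⟩

theorem arith5 (n : ℕ) (h1 : n ∣ 288) (h2 : n ≡ 1 [MOD 5]) (h3 : 1 < n) :
    n = 6 ∨ n = 16 ∨ n = 36 ∨ n = 96 := by
  have h4 : n ≤ 288 := Nat.le_of_dvd (by norm_num) h1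
  unfold Nat.ModEq at h2
  obtain ⟨c, hc⟩ := h1
  have hc' : c ≤ 288 := by nlinarith
  interval_cases c <;> omega

theorem arithk (k c : ℕ) (hk : k ≤ 3) (h : 16 * 40 = k * c) (hc : c ∣ 1440) : False := by
  interval_cases k
  · omega
  · have : c = 640 := by omega
    subst this
    norm_num at hc
  · have : c = 320 := by omega
    subst this
    norm_num at hc
  · omega

theorem not_dvd_fact6 : ¬ 1440 ∣ Nat.factorial 6 := by decide

/-- No finite simple group has order 1440 = 2^5 * 3^2 * 5. -/
theorem result {G : Type*} [Group G] [Finite G] [IsSimpleGroup G] : Nat.card G ≠ 1440 := by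
  intro h
  obtain ⟨P⟩ : Nonempty (Sylow 5 G) := inferInstance
  obtain ⟨hP, hd, hmod, h1, hN, hfac, r, hr1, hr2, hr3, hr4⟩ :=
    sylow_setup (p := 5) 288 (by rw [h]) (by norm_num) (by norm_num) P
  have hr6 : r ≤ 4 := Nat.le_of_dvd (by norm_num) hr2
  rw [h] at hN
  rcases arith5 _ hd hmod h1 with hn | hn | hn | hn
  · -- n_5 = 6
    rw [hn, h] at hfac
    exact not_dvd_fact6 hfac
  · -- n_5 = 16
    rw [hn] at hN
    have hC : Nat.card (centralizer ((P : Subgroup G) : Set G)) = 45 := by
      interval_cases r <;> omega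
    set C := centralizer ((P : Subgroup G) : Set G) with hCdef
    obtain ⟨A⟩ : Nonempty (Sylow 3 C) := inferInstance
    have hA : Nat.card A = 3 ^ 2 := card_sylow_eq_pow A 2 5 (by rw [hC]; norm_num) (by norm_num)
    set A' : Subgroup G := (A : Subgroup C).map C.subtype with hA'
    have hA'c : Nat.card A' = 9 := by
      rw [hA', card_map_of_injective C.subtype_injective, hA]; norm_num
    have hA'p : IsPGroup 3 A' := IsPGroup.of_card (n := 2) hA'c
    have hA'C : A' ≤ C := by
      rw [hA']
      exact map_subtype_le _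
    have hfix : ∀ g ∈ A', g ≠ 1 → Nat.card (fixedBy (Sylow 5 G) g) = 1 := by
      intro g hg hg1
      have e1 := card_fixedBy_sylow_modEq_one P g (hA'C hg)
      have e2 := card_modEq_card_fixedBy_of_isPGroup (X := Sylow 5 G) g 3
        (hA'p.to_le (zpowers_le.2 hg))
      have e3 := card_fixedBy_lt_of_simple (sylow_action_nontrivial h1) g hg1
      rw [hn] at e2 e3
      unfold Nat.ModEq at e1 e2
      omega
    have := card_dvd_of_fixedBy_eq (X := Sylow 5 G) A' 1 hfix
    rw [hA'c, hn] at this
    norm_num at this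
  · -- n_5 = 36
    rw [hn] at hN
    have hC : Nat.card (centralizer ((P : Subgroup G) : Set G)) ≤ 20 ∧
        2 ∣ Nat.card (centralizer ((P : Subgroup G) : Set G)) := by
      interval_cases r <;> omega
    obtain ⟨a, ha, haC, hf1, hf2, hf3, hf4, hf5, hf6⟩ :=
      centralizer_element_data P h1 2 hC.2
    obtain ⟨k, hk⟩ := card_eq_fixedBy_add_four_mul (X := Sylow 5 G) (by rw [h]; norm_num) a ha
    rw [hn] at hf3 hk
    have hf : Nat.card (fixedBy (Sylow 5 G) a) = 16 := by
      unfold Nat.ModEq at hf1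
      omega
    have hkle := card_conj_normalizer_le P hP (by norm_num) a ha (by rw [hn, hf]; norm_num)
    have hNc : Nat.card (normalizer ((P : Subgroup G) : Set G)) = 40 := by omega
    rw [hf, hNc] at hf4
    rw [h] at hf5
    exact arithk _ _ (by omega) hf4 hf5
  · -- n_5 = 96
    rw [hn] at hN
    obtain ⟨c, hc⟩ := hr4
    rw [hc] at hr1
    have hNc : Nat.card (normalizer ((P : Subgroup G) : Set G)) = 15 := by omega
    rw [hNc] at hr1
    interval_cases r <;> omega

end Cfsg.Agent.S1016
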