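import Cfsg.Statements.S1017
import Cfsg.Agent.Lib.Helper75.FixCount2

set_option autoImplicit false
open Cfsg

namespace Cfsg.Agent.S1017

open Subgroup MulAction Cfsg.Agent.Lib.Helper75

instance fact2 : Fact (Nat.Prime 2) := ⟨by norm_num⟩
instance fact7 : Fact (Nat.Prime 7) := ⟨by norm_num⟩

theorem arith7 (n : ℕ) (h1 : n ∣ 288) (h2 : n ≡ 1 [MOD 7]) (h3 : 1 < n) :
    n = 8 ∨ n = 36 ∨ n = 288 := by
  have h4 : n ≤ 288 := Nat.le_of_dvd (by norm_num) h1
  unfold Nat.ModEq at h2
  obtain ⟨c, hc⟩ := h1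
  have hc' : c ≤ 288 := by nlinarith
  interval_cases c <;> omega

theorem arithk (k c : ℕ) (hk : k ≤ 3) (h : 8 * 56 = k * c) (hc : c ∣ 2016) : c = 224 := by
  interval_cases k
  · omega
  · have : c = 448 := by omega
    subst this
    norm_num at hc
  · omega
  · omega

/-- No finite simple group has order 2016 = 2^5 * 3^2 * 7. -/
theorem result {G : Type*} [Group G] [Finite G] [IsSimpleGroup G] : Nat.card G ≠ 2016 := by
  intro h
  obtain ⟨P⟩ : Nonempty (Sylow 7 G) := inferInstance
  obtain ⟨hP, hd, hmod, h1, hN, hfac, r, hr1, hr2, hr3, hr4⟩ :=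
    sylow_setup (p := 7) 288 (by rw [h]) (by norm_num) (by norm_num) P
  have hr6 : r ≤ 6 := Nat.le_of_dvd (by norm_num) hr2
  rw [h] at hN
  rcases arith7 _ hd hmod h1 with hn | hn | hn
  · -- n_7 = 8
    rw [hn] at hN
    have h2 : 2 ∣ Nat.card (centralizer ((P : Subgroup G) : Set G)) := by
      interval_cases r <;> omega
    obtain ⟨a, ha, haC, hf1, hf2, hf3, -⟩ := centralizer_element_data P h1 2 h2
    rw [hn] at hf2 hf3
    unfold Nat.ModEq at hf1 hf2
    omega
  · -- n_7 = 36
    rw [hn] at hN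
    have hC : Nat.card (centralizer ((P : Subgroup G) : Set G)) = 28 := by
      interval_cases r <;> omega
    obtain ⟨a, ha, haC, hf1, hf2, hf3, hf4, hf5, hf6⟩ :=
      centralizer_element_data P h1 2 (by rw [hC]; norm_num)
    obtain ⟨k, hk⟩ := card_eq_fixedBy_add_four_mul (X := Sylow 7 G) (by rw [h]; norm_num) a ha
    rw [hn] at hf3 hk
    have hf : Nat.card (fixedBy (Sylow 7 G) a) = 8 := by
      unfold Nat.ModEq at hf1
      omega
    have hkle := card_conj_normalizer_le P hP (by norm_num) a ha (by rw [hn, hf]; norm_num)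
    rw [hC] at hkle
    have hNc : Nat.card (normalizer ((P : Subgroup G) : Set G)) = 56 := by omega
    rw [hf, hNc] at hf4
    rw [h] at hf5
    have hCa := arithk _ _ (by omega) hf4 hf5
    set H := centralizer ({a} : Set G) with hH
    have hHtop : H ≠ ⊤ := by
      intro ht
      rw [ht, card_top, h] at hCa
      omega
    have hY : Nat.card (G ⧸ H) = 9 := by
      have := H.card_mul_index
      rw [hCa, h] at this
      change H.index = 9
      omega
    have hnt := quotient_action_nontrivial H hHtop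
    obtain ⟨y, hy⟩ := exists_prime_orderOf_dvd_card' (G := (P : Subgroup G)) 7 (by rw [hP])
    have hy' : orderOf (y : G) = 7 := by rw [Subgroup.orderOf_coe, hy]
    have hy1 : (y : G) ≠ 1 := by
      intro h0
      rw [h0, orderOf_one] at hy'
      omega
    have ha1 : a ≠ 1 := by
      intro h0
      rw [h0, orderOf_one] at ha
      omega
    have hcomm : Commute a (y : G) := ((mem_centralizer_iff.1 haC) y y.2).symm
    have e1 := card_fixedBy_lt_of_simple hnt (y : G) hy1
    have e2 := card_modEq_card_fixedBy (X := G ⧸ H) (y : G) 7 hy'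
    have e3 := card_fixedBy_lt_of_simple hnt a ha1
    obtain ⟨k', e4⟩ := card_eq_fixedBy_add_four_mul (X := G ⧸ H) (by rw [h]; norm_num) a ha
    have e5 := card_fixedBy_modEq_inter (X := G ⧸ H) a (y : G) hcomm 7
      (IsPGroup.of_card (n := 1) (by rw [Nat.card_zpowers, hy', pow_one]))
    have e6 := card_fixedBy_modEq_inter (X := G ⧸ H) (y : G) a hcomm.symm 2
      (IsPGroup.of_card (n := 1) (by rw [Nat.card_zpowers, ha, pow_one]))
    rw [card_inter_comm] at e6
    have e7 := card_inter_le (X := G ⧸ H) a (y : G)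
    rw [hY] at e1 e2 e3 e4
    unfold Nat.ModEq at e2 e5 e6
    omega
  · -- n_7 = 288
    rw [hn] at hN
    obtain ⟨c, hc⟩ := hr4
    rw [hc] at hr1
    have hNc : Nat.card (normalizer ((P : Subgroup G) : Set G)) = 7 := by omega
    rw [hNc] at hr1
    interval_cases r <;> omega

end Cfsg.Agent.S1017
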