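import Cfsg.Statements.S1018
import Cfsg.Agent.Lib.Helper75.FixCount

set_option autoImplicit false
open Cfsg

namespace Cfsg.Agent.S1018

open Cfsg.Agent.Lib.Helper75 in
theorem aux {G : Type*} [Group G] [Finite G] (p : ℕ) [Fact p.Prime] (P : Sylow p G)
    (hP : Nat.card ↥(P : Subgroup G) = p) (N : Subgroup G) (hN : N = MulAction.stabilizer G P) :
    (∀ y : G, orderOf y = p → Nat.card (MulAction.fixedBy (G ⧸ N) y) = 1) ∧
    ∀ x : G, x • P = P → x ∉ Subgroup.centralizer ((P : Subgroup G) : Set G) →
      Nat.card (MulAction.fixedBy (G ⧸ N) x) ≤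
        Nat.card (MulAction.orbitRel.Quotient ↥(P : Subgroup G) (G ⧸ N)) := by
  subst hN
  set φ := MulAction.ofQuotientStabilizer G P with hφ
  have hinj : Function.Injective φ := MulAction.injective_ofQuotientStabilizer G P
  have hsm : ∀ (g : G) (q : G ⧸ MulAction.stabilizer G P), φ (g • q) = g • φ q :=
    MulAction.ofQuotientStabilizer_smul G P
  constructor
  · intro y hy
    have hpg : IsPGroup p (Subgroup.zpowers y) :=
      IsPGroup.of_card (n := 1) (by rw [Nat.card_zpowers, hy, pow_one])
    obtain ⟨P', hP'⟩ := hpg.exists_le_sylow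
    have hyP' : y ∈ (P' : Subgroup G) := hP' (Subgroup.mem_zpowers y)
    have hcard' : Nat.card (P' : Subgroup G) = p := by
      exact ((Sylow.card_eq_multiplicity P').trans (Sylow.card_eq_multiplicity P).symm).trans hP
    have hy1 : y ≠ 1 := by
      rintro rfl
      rw [orderOf_one] at hy
      exact (Fact.out : p.Prime).one_lt.ne hy
    have hz := zpowers_eq_of_mem_of_ne_one P' hcard' y hyP' hy1
    obtain ⟨g, hg⟩ := MulAction.exists_smul_eq G P P'
    rw [Nat.card_eq_one_iff_unique]
    refine ⟨⟨?_⟩, ⟨⟨(g : G ⧸ MulAction.stabilizer G P), ?_⟩⟩⟩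
    · have hu : ∀ q : MulAction.fixedBy (G ⧸ MulAction.stabilizer G P) y, φ q.1 = P' := by
        intro q
        apply sylow_fixed_unique
        intro x hx
        have hx' : x ∈ Subgroup.zpowers y := by rw [hz]; exact hx
        have h3 : y ∈ MulAction.stabilizer G (φ q.1) := by
          rw [MulAction.mem_stabilizer_iff, ← hsm]
          exact congrArg φ q.2
        exact (Subgroup.zpowers_le.2 h3) hx'
      intro q q'
      exact Subtype.ext (hinj ((hu q).trans (hu q').symm))
    · apply hinj
      rw [hsm]
      have : φ (g : G ⧸ MulAction.stabilizer G P) = P' := hg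
      rw [this]
      exact sylow_smul_self_of_mem P' y hyP'
  · intro x hxP hxC
    apply Nat.card_le_card_of_injective
      (fun q : MulAction.fixedBy (G ⧸ MulAction.stabilizer G P) x =>
        (Quotient.mk'' q.1 :
          MulAction.orbitRel.Quotient ↥(P : Subgroup G) (G ⧸ MulAction.stabilizer G P)))
    intro q q' h
    have h1 : (MulAction.orbitRel ↥(P : Subgroup G) (G ⧸ MulAction.stabilizer G P)) q.1 q'.1 :=
      Quotient.exact h
    rw [MulAction.orbitRel_apply] at h1
    obtain ⟨y, hy⟩ := h1
    have hy' : (y : G) • q'.1 = q.1 := hy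
    have hq : x • φ q.1 = φ q.1 := by rw [← hsm]; exact congrArg φ q.2
    have hq' : x • φ q'.1 = φ q'.1 := by rw [← hsm]; exact congrArg φ q'.2
    have hyφ : (y : G) • φ q'.1 = φ q.1 := by rw [← hsm, hy']
    apply Subtype.ext
    apply hinj
    by_cases hQ : φ q'.1 = P
    · rw [← hyφ, hQ]
      exact sylow_smul_self_of_mem P _ y.2
    · have := eq_one_of_fixed_smul P hP x hxP hxC (φ q'.1) hQ y y.2 hq' (by rw [hyφ]; exact hq)
      rw [← hyφ, this, one_smul]

/-- Let P be a Sylow p-subgroup of order p of a finite group G, and consider the action of G on the left cosets of the normalizer N of P. Then every element of order p fixes exactly one coset, and an element of N that does not centralize P fixes at most as many cosets as there are orbits of P. -/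
theorem result {G : Type*} [Group G] [Finite G] (p : ℕ) [Fact p.Prime] (P : Sylow p G) (hP : Nat.card ↥(P : Subgroup G) = p) : (∀ y : G, orderOf y = p → Nat.card (MulAction.fixedBy (G ⧸ Subgroup.normalizer ((P : Subgroup G) : Set G)) y) = 1) ∧ ∀ x : G, x ∈ Subgroup.normalizer ((P : Subgroup G) : Set G) → x ∉ Subgroup.centralizer ((P : Subgroup G) : Set G) → Nat.card (MulAction.fixedBy (G ⧸ Subgroup.normalizer ((P : Subgroup G) : Set G)) x) ≤ Nat.card (MulAction.orbitRel.Quotient ↥(P : Subgroup G) (G ⧸ Subgroup.normalizer ((P : Subgroup G) : Set G))) := by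
  have h := aux p P hP _ (Sylow.stabilizer_eq_normalizer P).symm
  refine ⟨h.1, fun x hx hxC => h.2 x (Sylow.smul_eq_iff_mem_normalizer.2 hx) hxC⟩

end Cfsg.Agent.S1018
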