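import Cfsg.Statements.S1019
import Cfsg.Agent.Lib.Helper75.FixCount
import Cfsg.Agent.Lib.Helper73.ClassSize

set_option autoImplicit false
open Cfsg

namespace Cfsg.Agent.S1019

/-- Let H be a subgroup of a finite group G and x an element of H. In the action of G on the left cosets of H, the number of cosets fixed by x, multiplied by the size of the conjugacy class of x, equals the index of H multiplied by the number of conjugates of x that lie in H. -/
theorem result {G : Type*} [Group G] [Finite G] (H : Subgroup G) (x : G) (hx : x ∈ H) : Nat.card (MulAction.fixedBy (G ⧸ H) x) * Nat.card {g : G // IsConj x g} = H.index * Nat.card {g : G // IsConj x g ∧ g ∈ H} := by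
  have h1 := Cfsg.Agent.Lib.Helper75.card_fixedBy_mul_card_stabilizer (X := G ⧸ H) x
    ((1 : G) : G ⧸ H)
  have hst : MulAction.stabilizer G (((1 : G) : G ⧸ H)) = H := by
    rw [MulAction.stabilizer_quotient]
  rw [hst] at h1
  rw [Cfsg.Agent.Lib.Helper73.card_isConj_eq_index_centralizer]
  have h2 := Subgroup.card_mul_index (Subgroup.centralizer ({x} : Set G))
  have h3 := Subgroup.card_mul_index H
  have hH : 0 < Nat.card H := Nat.card_pos
  have hC : 0 < Nat.card (Subgroup.centralizer ({x} : Set G)) := Nat.card_pos
  apply Nat.eq_of_mul_eq_mul_left (Nat.mul_pos hH hC)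
  set f := Nat.card (MulAction.fixedBy (G ⧸ H) x)
  set k := Nat.card {g : G // IsConj x g ∧ g ∈ H}
  set c := Nat.card (Subgroup.centralizer ({x} : Set G))
  set h := Nat.card H
  set ic := (Subgroup.centralizer ({x} : Set G)).index
  set ih := H.index
  calc h * c * (f * ic) = (f * h) * (c * ic) := by ring
    _ = (k * c) * (h * ih) := by rw [h1, h2, h3]
    _ = h * c * (ih * k) := by ring

end Cfsg.Agent.S1019
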