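import Cfsg.Statements.S1028
import Cfsg.Agent.Lib.Helper23.TriAll
import Cfsg.Agent.Lib.Helper23.AddOf

set_option autoImplicit false
open Cfsg

namespace Cfsg.Agent.S1028

theorem result {F : Type*} [Field F] (D : Cfsg.Lie.ChevalleyDatum) (hD : D ∈ [Cfsg.Lie.chevG2, Cfsg.Lie.chevB2, Cfsg.Lie.chevD4, Cfsg.Lie.chevF4, Cfsg.Lie.chevE6, Cfsg.Lie.chevE7, Cfsg.Lie.chevE8]) (g : GL D.Idx F) (hg : g ∈ D.posUnipotent F) :
    ((g : Matrix D.Idx D.Idx F) - 1) ^ (D.rank + D.nroots) = 0 := by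
  have hrank : 0 < D.rank := by
    simp only [List.mem_cons, List.not_mem_nil, or_false] at hD
    rcases hD with rfl | rfl | rfl | rfl | rfl | rfl | rfl <;> decide
  exact (Cfsg.Agent.Lib.Helper23.addFact_of_mem F hD).pos_sub_one_pow
    (Cfsg.Agent.Lib.Helper23.triDeg_of_mem F hD) hg (by omega)

end Cfsg.Agent.S1028
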