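import Cfsg.Statements.S1029
import Cfsg.Agent.Lib.Helper23.TriAll
import Cfsg.Agent.Lib.Helper23.AddOf

set_option autoImplicit false
open Cfsg

namespace Cfsg.Agent.S1029

theorem result {F : Type*} [Field F] (D : Cfsg.Lie.ChevalleyDatum) (hD : D ∈ [Cfsg.Lie.chevG2, Cfsg.Lie.chevB2, Cfsg.Lie.chevD4, Cfsg.Lie.chevF4, Cfsg.Lie.chevE6, Cfsg.Lie.chevE7, Cfsg.Lie.chevE8]) : Group.IsNilpotent (D.posUnipotent F) :=
  (Cfsg.Agent.Lib.Helper23.addFact_of_mem F hD).pos_isNilpotent (Cfsg.Agent.Lib.Helper23.triDeg_of_mem F hD)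

end Cfsg.Agent.S1029
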