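import Cfsg.Statements.S1030
import Cfsg.Agent.Lib.Helper23.StRank1

set_option autoImplicit false
open Cfsg

namespace Cfsg.Agent.S1030

/-- There is a homomorphism `SL₂(F) → GL` with image `⟨X_r, X_{-r}⟩` sending `[[1,t],[0,1]]` to `x_r(t)` and `[[1,0],[t,1]]` to `x_{-r}(t)`. -/
theorem result {F : Type*} [Field F] (D : Cfsg.Lie.ChevalleyDatum) (hD : D ∈ [Cfsg.Lie.chevG2, Cfsg.Lie.chevB2, Cfsg.Lie.chevD4, Cfsg.Lie.chevF4, Cfsg.Lie.chevE6, Cfsg.Lie.chevE7, Cfsg.Lie.chevE8]) (r : ℕ) (hr : r < D.nroots) :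
    ∃ φ : Matrix.SpecialLinearGroup (Fin 2) F →* GL D.Idx F,
      φ.range = D.rootSubgroup F r ⊔ D.rootSubgroup F (D.neg r) ∧
      ∀ (g : Matrix.SpecialLinearGroup (Fin 2) F) (t : F),
        ((g : Matrix (Fin 2) (Fin 2) F) = !![1, t; 0, 1] → ((φ g : GL D.Idx F) : Matrix D.Idx D.Idx F) = D.x F r t) ∧
        ((g : Matrix (Fin 2) (Fin 2) F) = !![1, 0; t, 1] → ((φ g : GL D.Idx F) : Matrix D.Idx D.Idx F) = D.x F (D.neg r) t) := by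
  have hA := Cfsg.Agent.Lib.Helper23.addFact_of_mem F hD
  obtain ⟨φ, h1, h2⟩ := Cfsg.Agent.Lib.Helper85.St2.exists_hom_of_hmul
    (Cfsg.Agent.Lib.Helper23.StP.st2Root hD hA hr) (Cfsg.Agent.Lib.Helper23.StP.st2Root_hmul hD hA hr)
  have h1' : ∀ t, φ (Cfsg.Agent.Lib.Helper85.SL2.up t) = hA.X r t := h1
  have h2' : ∀ t, φ (Cfsg.Agent.Lib.Helper85.SL2.lo t) = hA.X (D.neg r) t := h2
  refine ⟨φ, ?_, fun g t => ⟨fun hg => ?_, fun hg => ?_⟩⟩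
  · rw [MonoidHom.range_eq_map, ← Cfsg.Agent.Lib.Helper85.SL2.sup_eq_top, Subgroup.map_sup, sup_comm]
    congr 1
    · ext y
      rw [hA.mem_rootSubgroup_iff]
      constructor
      · rintro ⟨g, hg, rfl⟩
        obtain ⟨t, rfl⟩ := Cfsg.Agent.Lib.Helper85.SL2.mem_upper_iff.1 hg
        exact ⟨t, h1' t⟩
      · rintro ⟨t, rfl⟩
        exact ⟨_, Cfsg.Agent.Lib.Helper85.SL2.mem_upper_iff.2 ⟨t, rfl⟩, h1' t⟩
    · ext y
      rw [hA.mem_rootSubgroup_iff]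
      constructor
      · rintro ⟨g, hg, rfl⟩
        obtain ⟨t, rfl⟩ := Cfsg.Agent.Lib.Helper85.SL2.mem_lower_iff.1 hg
        exact ⟨t, h2' t⟩
      · rintro ⟨t, rfl⟩
        exact ⟨_, Cfsg.Agent.Lib.Helper85.SL2.mem_lower_iff.2 ⟨t, rfl⟩, h2' t⟩
  · have : g = Cfsg.Agent.Lib.Helper85.SL2.up t := Subtype.ext hg
    rw [this, h1', Cfsg.Agent.Lib.Helper23.AddFact.coe_X]
  · have : g = Cfsg.Agent.Lib.Helper85.SL2.lo t := Subtype.ext hg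
    rw [this, h2', Cfsg.Agent.Lib.Helper23.AddFact.coe_X]

end Cfsg.Agent.S1030
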