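import Cfsg.Statements.S1041
-- import your own Cfsg.Agent.* helpers here

set_option autoImplicit false
open Cfsg

namespace Cfsg.Agent.S1041

theorem posOrNeg (D : Cfsg.Lie.ChevalleyDatum) (hD : D ∈ [Cfsg.Lie.chevG2, Cfsg.Lie.chevB2, Cfsg.Lie.chevD4, Cfsg.Lie.chevF4, Cfsg.Lie.chevE6, Cfsg.Lie.chevE7, Cfsg.Lie.chevE8]) :
    ∀ r < D.nroots, D.IsPosRoot r ∨ D.IsNegRoot r := by
  simp only [List.mem_cons, List.not_mem_nil, or_false] at hD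
  rcases hD with rfl | rfl | rfl | rfl | rfl | rfl | rfl <;> decide +kernel

/-- `U` and `V` generate the whole Chevalley group. -/
theorem result {F : Type*} [Field F] (D : Cfsg.Lie.ChevalleyDatum) (hD : D ∈ [Cfsg.Lie.chevG2, Cfsg.Lie.chevB2, Cfsg.Lie.chevD4, Cfsg.Lie.chevF4, Cfsg.Lie.chevE6, Cfsg.Lie.chevE7, Cfsg.Lie.chevE8]) : D.posUnipotent F ⊔ D.negUnipotent F = D.group F := by
  unfold Cfsg.Lie.ChevalleyDatum.posUnipotent Cfsg.Lie.ChevalleyDatum.negUnipotent Cfsg.Lie.ChevalleyDatum.group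
  rw [← Subgroup.closure_union]
  congr 1
  ext g
  simp only [Set.mem_union, Set.mem_ofPred_eq]
  constructor
  · rintro (⟨r, t, hr, h⟩ | ⟨r, t, hr, h⟩)
    · exact ⟨⟨r, hr.1⟩, t, by rw [h, Cfsg.Lie.ChevalleyDatum.x, dif_pos hr.1]⟩
    · exact ⟨⟨r, hr.1⟩, t, by rw [h, Cfsg.Lie.ChevalleyDatum.x, dif_pos hr.1]⟩
  · rintro ⟨r, t, h⟩
    rcases posOrNeg D hD r.1 r.2 with hr | hr
    · exact Or.inl ⟨r.1, t, hr, by rw [h, Cfsg.Lie.ChevalleyDatum.x, dif_pos r.2]⟩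
    · exact Or.inr ⟨r.1, t, hr, by rw [h, Cfsg.Lie.ChevalleyDatum.x, dif_pos r.2]⟩

end Cfsg.Agent.S1041
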