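import Cfsg.Statements.S1043
import Cfsg.Agent.Lib.Helper23.AddOf
import Cfsg.Agent.Lib.Helper23.AllRoot
import Cfsg.Agent.Lib.Helper23.ChevGen

set_option autoImplicit false
open Cfsg

namespace Cfsg.Agent.S1043

open Cfsg.Agent.Lib.Helper23 in
/-- `B ≤ G`, `N ≤ G` and `B ⊔ N = G` for the Chevalley group `G` generated by all root elements. -/
theorem result {F : Type*} [Field F] (D : Cfsg.Lie.ChevalleyDatum) (hD : D ∈ [Cfsg.Lie.chevG2, Cfsg.Lie.chevB2, Cfsg.Lie.chevD4, Cfsg.Lie.chevF4, Cfsg.Lie.chevE6, Cfsg.Lie.chevE7, Cfsg.Lie.chevE8]) :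
    D.borelSubgroup F ≤ D.group F ∧ D.monomialSubgroup F ≤ D.group F ∧ D.borelSubgroup F ⊔ D.monomialSubgroup F = D.group F := by
  have hA := addFact_of_mem F hD
  exact ⟨hA.borel_le_group, hA.mono_le_group, hA.borel_sup_mono (rootFacts_of_mem hD)⟩

end Cfsg.Agent.S1043
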