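import Cfsg.Statements.S1044
import Cfsg.Agent.Lib.Helper23.ChevAll

set_option autoImplicit false
open Cfsg

namespace Cfsg.Agent.S1044

theorem result {F : Type*} [Field F] (D : Cfsg.Lie.ChevalleyDatum) (hD : D ∈ [Cfsg.Lie.chevG2, Cfsg.Lie.chevB2, Cfsg.Lie.chevD4, Cfsg.Lie.chevF4, Cfsg.Lie.chevE6, Cfsg.Lie.chevE7, Cfsg.Lie.chevE8]) (i : ℕ) (hi : i < D.rank) (n : GL D.Idx F)
    (hn : (n : Matrix D.Idx D.Idx F) = D.nMat F (D.simple i) 1) :
    ∃ P : Subgroup (GL D.Idx F), (P : Set (GL D.Idx F)) =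
      (D.borelSubgroup F : Set (GL D.Idx F)) ∪ DoubleCoset.doubleCoset n (D.borelSubgroup F : Set (GL D.Idx F)) (D.borelSubgroup F) := by
  have b := Cfsg.Agent.Lib.Helper23.bundle_of_mem F hD
  have hn' : n = b.hA.nn i := (b.hA.eq_nG_iff _ _ _).1 hn
  rw [hn']
  exact b.hA.exists_minimal_parabolic b.hR b.hN b.hT b.hC hi

end Cfsg.Agent.S1044
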