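import Cfsg.Statements.S1050
import Cfsg.Agent.Lib.Helper23.ChevAll

set_option autoImplicit false
open Cfsg

namespace Cfsg.Agent.S1050

theorem result {F : Type*} [Field F] (D : Cfsg.Lie.ChevalleyDatum) (hD : D ∈ [Cfsg.Lie.chevG2, Cfsg.Lie.chevB2, Cfsg.Lie.chevD4, Cfsg.Lie.chevF4, Cfsg.Lie.chevE6, Cfsg.Lie.chevE7, Cfsg.Lie.chevE8]) : Group.IsSolvable ↥(D.borelSubgroup F) := by
  have b := Cfsg.Agent.Lib.Helper23.bundle_of_mem F hD
  have hU : Group.IsNilpotent (D.posUnipotent F) := b.hA.pos_isNilpotent b.hG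
  exact b.hA.borel_isSolvable b.hT inferInstance

end Cfsg.Agent.S1050
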