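import Cfsg.Statements.S1052
import Cfsg.Agent.Lib.Helper23.ChevAll2

set_option autoImplicit false
open Cfsg

namespace Cfsg.Agent.S1052

theorem result {F : Type*} [Field F] (D : Cfsg.Lie.ChevalleyDatum) (hD : D ∈ [Cfsg.Lie.chevG2, Cfsg.Lie.chevB2, Cfsg.Lie.chevD4, Cfsg.Lie.chevF4, Cfsg.Lie.chevE6, Cfsg.Lie.chevE7, Cfsg.Lie.chevE8]) (h2 : D = Cfsg.Lie.chevG2 ∨ D = Cfsg.Lie.chevB2 → ∃ a : F, a ≠ 0 ∧ a ≠ 1) :
    commutator ↥(D.group F) = ⊤ :=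
  Cfsg.Agent.Lib.Helper23.perfect_of_mem' F hD h2

end Cfsg.Agent.S1052
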