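import Cfsg.Statements.S1055
import Cfsg.Agent.Lib.Helper23.ChevAll2

set_option autoImplicit false
open Cfsg

namespace Cfsg.Agent.S1055

theorem result {F : Type*} [Field F] (hF : ∃ a : F, a ≠ 0 ∧ a ≠ 1) : IsSimpleGroup ↥(Cfsg.Lie.chevG2.group F) ∧ ¬ IsMulCommutative ↥(Cfsg.Lie.chevG2.group F) :=
  Cfsg.Agent.Lib.Helper23.simple_of_mem F (by simp) (fun _ => hF)

end Cfsg.Agent.S1055
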