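import Cfsg.Statements.S1058
import Cfsg.Agent.Lib.Helper6.B2Iso
import Cfsg.Agent.S0247

set_option autoImplicit false
open Cfsg

namespace Cfsg.Agent.S1058

/-- B₂(2) ≅ S₆. -/
theorem result {F : Type*} [Field F] [Fintype F] (hF : Fintype.card F = 2) :
    Nonempty (↥(Cfsg.Lie.chevB2.group F) ≃* Equiv.Perm (Fin 6)) := by
  obtain ⟨e⟩ := Cfsg.Agent.Lib.Helper6.B2.chevB2_equiv_PSp (F := F)
  obtain ⟨f⟩ := Cfsg.Agent.S0247.result hF
  have hcen : ∀ σ : Equiv.Perm (Fin 6), σ ∈ Subgroup.center (Equiv.Perm (Fin 6)) → σ = 1 := by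
    intro σ hσ
    rw [Subgroup.mem_center_iff] at hσ
    ext i
    by_contra hne
    have hne' : σ i ≠ i := fun h => hne (by rw [h]; rfl)
    obtain ⟨k, hk1, hk2⟩ : ∃ k : Fin 6, k ≠ i ∧ k ≠ σ i :=
      (by decide : ∀ a b : Fin 6, ∃ k, k ≠ a ∧ k ≠ b) i (σ i)
    have h := congrArg (fun τ : Equiv.Perm (Fin 6) => τ i) (hσ (Equiv.swap (σ i) k))
    simp only [Equiv.Perm.mul_apply, Equiv.swap_apply_left] at h
    rw [Equiv.swap_apply_of_ne_of_ne hne'.symm hk1.symm] at h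
    exact hk2 h
  have hc : Subgroup.center (Matrix.symplecticGroup (Fin 2) F) = ⊥ := by
    rw [eq_bot_iff]
    intro x hx
    have h1 : f x ∈ Subgroup.center (Equiv.Perm (Fin 6)) := by
      rw [Subgroup.mem_center_iff] at hx ⊢
      intro y
      obtain ⟨y', rfl⟩ := f.surjective y
      rw [← map_mul, ← map_mul, hx]
    have h2 := hcen _ h1
    rw [Subgroup.mem_bot]
    exact f.injective (h2.trans (map_one f).symm)
  exact ⟨e.trans ((QuotientGroup.quotientMulEquivOfEq hc).trans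
    (QuotientGroup.quotientBot.trans f))⟩

end Cfsg.Agent.S1058
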