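import Cfsg.Statements.S1060
import Cfsg.Agent.Lib.Helper45.ChevFinal
import Cfsg.Agent.Lib.Helper45.ChevCoxB2
import Cfsg.Agent.Lib.Helper45.CoxB2Len
import Cfsg.Agent.S1035
import Cfsg.Agent.S1042

set_option autoImplicit false
open Cfsg

namespace Cfsg.Agent.S1060

/-- `gcd(2, q-1) · |B₂(q)| = q⁴ (q² - 1)(q⁴ - 1)`. -/
theorem result {F : Type*} [Field F] [Fintype F] {q : ℕ} (hq : Fintype.card F = q) : Nat.gcd 2 (q - 1) * Nat.card ↥(Cfsg.Lie.chevB2.group F) = q ^ 4 * (q ^ 2 - 1) * (q ^ 4 - 1) := by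
  subst hq
  have hD : Cfsg.Lie.chevB2 ∈ [Cfsg.Lie.chevG2, Cfsg.Lie.chevB2, Cfsg.Lie.chevD4, Cfsg.Lie.chevF4,
      Cfsg.Lie.chevE6, Cfsg.Lie.chevE7, Cfsg.Lie.chevE8] := by simp
  have hH := Cfsg.Agent.S1035.result (F := F) rfl (Cfsg.Lie.chevB2, Nat.gcd 2 (Fintype.card F - 1)) (by simp)
  have h := Cfsg.Agent.Lib.Helper45.order_of_mem (F := F) hD (Cfsg.Agent.S1042.result _ hD)
    Cfsg.Agent.Lib.Helper45.coxFactsB2
    (fun f h1 h2 h3 h4 q hq => Cfsg.Agent.Lib.Helper45.B2_gwt f h1 h2 h3 h4 q hq) hH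
  have e : Cfsg.Lie.chevB2.nroots / 2 = 4 := by decide +kernel
  rw [e] at h
  simpa [mul_assoc] using h

end Cfsg.Agent.S1060
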