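import Cfsg.Statements.S1066
import Cfsg.Agent.Lib.Helper45.TwistE6Count
import Cfsg.Agent.Lib.Helper45.TwistCoxE6
import Cfsg.Agent.Lib.Helper45.TwistOrder
import Cfsg.Agent.Lib.Helper45.WtF4
import Cfsg.Agent.S1102

set_option autoImplicit false
open Cfsg

namespace Cfsg.Agent.S1066

/-- `gcd(3, q+1) · |²E₆(q)| = q³⁶ (q² - 1)(q⁵ + 1)(q⁶ - 1)(q⁸ - 1)(q⁹ + 1)(q¹² - 1)`, the group being realised inside E₆ over the field with `q²` elements. -/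
theorem result {K : Type*} [Field K] [Fintype K] {q : ℕ} (hq : IsPrimePow q) (hK : Fintype.card K = q ^ 2) :
    Nat.gcd 3 (q + 1) * Nat.card ↥(Cfsg.Lie.twistedE6 K q) =
      q ^ 36 * (q ^ 2 - 1) * (q ^ 5 + 1) * (q ^ 6 - 1) * (q ^ 8 - 1) * (q ^ 9 + 1) * (q ^ 12 - 1) := by
  obtain ⟨σ, φ, hφ, X⟩ := Cfsg.Agent.Lib.Helper45.e6_setup hq hK
  have hq1 : 1 < q := hq.one_lt
  have hH := Cfsg.Agent.S1102.result hq hK
  have hU := Cfsg.Agent.Lib.Helper45.e6_card_U1 hq hK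
  have ha : ∀ i, Nat.card ↥(Cfsg.Agent.Lib.Helper22.Umin Cfsg.Lie.chevE6 K
      ((Cfsg.Agent.Lib.Helper23.bundle_of_mem K Cfsg.Agent.Lib.Helper45.memE6).hA.nword
        (Cfsg.Agent.Lib.Helper45.orbFE6 i)) ⊓ Cfsg.Lie.twistedE6 K q) =
      q ^ (![1, 1, 2, 2] i : ℕ) := by
    intro i
    rw [Cfsg.Agent.Lib.Helper45.e6_card_Umin hq hK hφ X _ (Cfsg.Agent.Lib.Helper45.orbFE6_mem i)]
    congr 1
    fin_cases i <;> rfl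
  have h := X.card_G1 _ Cfsg.Agent.Lib.Helper45.orbFE6_mem Cfsg.Agent.Lib.Helper45.orbFE6_surj
    Cfsg.Agent.Lib.Helper45.twCoxE6 q ![1, 1, 2, 2] ha ((q - 1) ^ 4 * (q + 1) ^ 2)
    ((q ^ 2 - 1) * (q ^ 5 + 1) * (q ^ 6 - 1) * (q ^ 8 - 1) * (q ^ 9 + 1) * (q ^ 12 - 1))
    (fun f h1 h2 h3 h4 c hc => Cfsg.Agent.Lib.Helper45.F4_wsum f h1 h2 h3 h4 q hq1.le c hc)
  rw [hU] at h
  have hE : 0 < (q - 1) ^ 4 * (q + 1) ^ 2 :=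
    Nat.mul_pos (pow_pos (by omega) _) (pow_pos (by omega) _)
  apply Nat.eq_of_mul_eq_mul_left hE
  calc (q - 1) ^ 4 * (q + 1) ^ 2 * (Nat.gcd 3 (q + 1) * Nat.card ↥(Cfsg.Lie.twistedE6 K q))
      = Nat.gcd 3 (q + 1) * ((q - 1) ^ 4 * (q + 1) ^ 2 * Nat.card ↥(Cfsg.Lie.twistedE6 K q)) := by
        ring
    _ = q ^ 36 * (Nat.gcd 3 (q + 1) *
          Nat.card ↥(Cfsg.Lie.chevE6.diagonalSubgroup K ⊓ Cfsg.Lie.twistedE6 K q)) *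
          ((q ^ 2 - 1) * (q ^ 5 + 1) * (q ^ 6 - 1) * (q ^ 8 - 1) * (q ^ 9 + 1) * (q ^ 12 - 1)) := by
        rw [h]; ring
    _ = _ := by rw [hH]; ring

end Cfsg.Agent.S1066
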