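import Cfsg.Statements.S1081
import Cfsg.Agent.Lib.Helper22.ChevGr3
import Cfsg.Agent.Lib.Helper22.ChevGrE6
import Cfsg.Agent.Lib.Helper22.ChevGrD4
import Cfsg.Agent.Lib.Helper23.AddOf
import Cfsg.Agent.Lib.Helper23.AllRoot

set_option autoImplicit false
open Cfsg

namespace Cfsg.Agent.S1081

/-- Graph automorphisms: for E₆ with ρ = (p₁ p₆)(p₃ p₅) and for D₄ with ρ the 3-cycle on the outer nodes there is a group automorphism sending `x_p(t) ↦ x_{ρ(p)}(t)` and `x_{-p}(t) ↦ x_{-ρ(p)}(t)` for every fundamental root `p`. -/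
theorem result {F : Type*} [Field F] (p : Cfsg.Lie.ChevalleyDatum × List ℕ)
    (hp : p ∈ [(Cfsg.Lie.chevE6, [5, 1, 4, 3, 2, 0]), (Cfsg.Lie.chevD4, [2, 1, 3, 0]), (Cfsg.Lie.chevD4, [3, 1, 0, 2])]) :
    ∃ α : ↥(p.1.group F) ≃* ↥(p.1.group F), ∀ (g : ↥(p.1.group F)) (i : ℕ) (t : F), i < p.1.rank →
      (((g : GL p.1.Idx F) : Matrix p.1.Idx p.1.Idx F) = p.1.x F (p.1.simple i) t →
        ((α g : GL p.1.Idx F) : Matrix p.1.Idx p.1.Idx F) = p.1.x F (p.1.simple (p.2.getD i 0)) t) ∧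
      (((g : GL p.1.Idx F) : Matrix p.1.Idx p.1.Idx F) = p.1.x F (p.1.neg (p.1.simple i)) t →
        ((α g : GL p.1.Idx F) : Matrix p.1.Idx p.1.Idx F) = p.1.x F (p.1.neg (p.1.simple (p.2.getD i 0))) t) := by
  simp only [List.mem_cons, List.not_mem_nil, or_false] at hp
  rcases hp with rfl | rfl | rfl
  · have hD : Cfsg.Lie.chevE6 ∈ [Cfsg.Lie.chevG2, Cfsg.Lie.chevB2, Cfsg.Lie.chevD4, Cfsg.Lie.chevF4,
      Cfsg.Lie.chevE6, Cfsg.Lie.chevE7, Cfsg.Lie.chevE8] := by simp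
    have hA := Lib.Helper23.addFact_of_mem F hD
    obtain ⟨G⟩ := Lib.Helper22.graphConjE60 hA
    exact Lib.Helper22.s1081_of hA G Lib.Helper22.graphFactsE60 (Lib.Helper23.rootFacts_of_mem hD)
  · have hD : Cfsg.Lie.chevD4 ∈ [Cfsg.Lie.chevG2, Cfsg.Lie.chevB2, Cfsg.Lie.chevD4, Cfsg.Lie.chevF4,
      Cfsg.Lie.chevE6, Cfsg.Lie.chevE7, Cfsg.Lie.chevE8] := by simp
    have hA := Lib.Helper23.addFact_of_mem F hD
    obtain ⟨G⟩ := Lib.Helper22.graphConjD40 hA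
    exact Lib.Helper22.s1081_of hA G Lib.Helper22.graphFactsD40 (Lib.Helper23.rootFacts_of_mem hD)
  · have hD : Cfsg.Lie.chevD4 ∈ [Cfsg.Lie.chevG2, Cfsg.Lie.chevB2, Cfsg.Lie.chevD4, Cfsg.Lie.chevF4,
      Cfsg.Lie.chevE6, Cfsg.Lie.chevE7, Cfsg.Lie.chevE8] := by simp
    have hA := Lib.Helper23.addFact_of_mem F hD
    obtain ⟨G⟩ := Lib.Helper22.graphConjD41 hA
    exact Lib.Helper22.s1081_of hA G Lib.Helper22.graphFactsD41 (Lib.Helper23.rootFacts_of_mem hD)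

end Cfsg.Agent.S1081
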