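import Cfsg.Statements.S1083
import Cfsg.Agent.Lib.Helper6.OmegaIso
import Cfsg.Agent.Lib.Helper6.OmegaIso4
import Cfsg.Agent.Lib.Helper6.K5d
import Cfsg.Agent.Lib.Helper6.B2Iso

set_option autoImplicit false
open Cfsg

namespace Cfsg.Agent.S1083

open Cfsg.Agent.Lib.Helper6 Cfsg.Agent.Lib.Helper6.Klein5 Cfsg.Agent.Lib.Helper6.K5

/-- B₂(F) ≅ PΩ₅(F) for the form `x₀² + x₁y₁ + x₂y₂`, over every field with more than two elements. -/
theorem result {F : Type*} [Field F] (hF : ∃ a : F, a ≠ 0 ∧ a ≠ 1) :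
    Nonempty (↥(Cfsg.Lie.chevB2.group F) ≃* Cfsg.POmega F (Cfsg.quadFormOdd 2 F)) := by
  classical
  obtain ⟨e0⟩ := Cfsg.Agent.Lib.Helper6.B2.chevB2_equiv_PSp (F := F)
  have hmem : ∀ x, rho F x ∈ Cfsg.Omega F (Cfsg.quadFormOdd 2 F) :=
    fun x => range_le_commutator hF ⟨x, rfl⟩
  let π : Matrix.symplecticGroup (Fin 2) F →*
      Cfsg.Omega F (Cfsg.quadFormOdd 2 F) := (rho F).codRestrict _ hmem
  have hπ1 : ∀ g, π g = 1 → (g : Matrix I4 I4 F) = 1 ∨ (g : Matrix I4 I4 F) = -1 := by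
    intro g h
    have h1 : rho F g = 1 := congrArg Subtype.val h
    have h3 : M5 (g : Matrix I4 I4 F) = 1 := by
      rw [← rho_coe, h1]
      rfl
    exact eq_one_or_neg_one5 g.2 h3
  have hsurj : Function.Surjective π := by
    rintro ⟨y, hy⟩
    obtain ⟨x, hx⟩ := commutator_le_range hy
    exact ⟨x, Subtype.ext hx⟩
  obtain ⟨e1⟩ := quotient_center_equiv π hsurj
    (Subgroup.center (Matrix.symplecticGroup (Fin 2) F))
    (fun x => ⟨fun hx x' => by rw [Subgroup.mem_center_iff.1 hx x'], fun hx => by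
      apply Sp_mem_center_of_commute_up_to 2 (by norm_num)
      intro w c
      let t : Matrix.symplecticGroup (Fin 2) F :=
        ⟨Cfsg.sympTransvection 2 w c, Cfsg.Agent.Lib.Helper17.sympTransvection_mem 2 w _⟩
      have h6 : π ((t * x)⁻¹ * (x * t)) = 1 := by
        rw [map_mul, map_inv, hx, inv_mul_cancel]
      have h7 : x * t = (t * x) * ((t * x)⁻¹ * (x * t)) := by group
      have h7' : (x : Matrix I4 I4 F) * (t : Matrix I4 I4 F) =
          ((t : Matrix I4 I4 F) * (x : Matrix I4 I4 F)) *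
            (((t * x)⁻¹ * (x * t) : Matrix.symplecticGroup (Fin 2) F) : Matrix I4 I4 F) :=
        congrArg Subtype.val h7
      show ∃ r : F, (x : Matrix I4 I4 F) * (t : Matrix I4 I4 F) =
        r • ((t : Matrix I4 I4 F) * (x : Matrix I4 I4 F))
      rw [h7']
      rcases hπ1 _ h6 with h8 | h8
      · exact ⟨1, by rw [h8, mul_one, one_smul]⟩
      · refine ⟨-1, ?_⟩
        rw [h8]
        simp⟩)
  exact ⟨e0.trans e1.symm⟩

end Cfsg.Agent.S1083
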