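import Cfsg.Statements.S1094
import Cfsg.Agent.Lib.Helper45.CoxB2
import Cfsg.Agent.Lib.Helper45.CoxG2
import Cfsg.Agent.Lib.Helper45.CoxD4
import Cfsg.Agent.Lib.Helper45.CoxF4
import Cfsg.Agent.Lib.Helper45.CoxE6
import Cfsg.Agent.Lib.Helper45.CoxE7
import Cfsg.Agent.Lib.Helper45.CoxE8

set_option autoImplicit false
open Cfsg

namespace Cfsg.Agent.S1094

/-- The Coxeter element `s₁ s₂ ⋯ s_l` of the Coxeter group of type B₂, G₂, D₄, F₄, E₆, E₇, E₈ has order `h = 2N/l` = 4, 6, 6, 12, 12, 18, 30. -/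
theorem result (p : (Σ n : ℕ, CoxeterMatrix (Fin n)) × ℕ)
    (hp : p ∈ [(⟨2, CoxeterMatrix.B 2⟩, 4), (⟨2, CoxeterMatrix.G₂⟩, 6), (⟨4, Cfsg.Lie.coxeterD4⟩, 6), (⟨4, CoxeterMatrix.F₄⟩, 12),
      (⟨6, CoxeterMatrix.E₆⟩, 12), (⟨7, CoxeterMatrix.E₇⟩, 18), (⟨8, CoxeterMatrix.E₈⟩, 30)]) :
    orderOf ((List.finRange p.1.1).map p.1.2.simple).prod = p.2 := by
  simp only [List.mem_cons, List.not_mem_nil, or_false] at hp
  rcases hp with rfl | rfl | rfl | rfl | rfl | rfl | rfl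
  · exact Cfsg.Agent.Lib.Helper45.B2X.orderOf_cox Cfsg.Agent.Lib.Helper45.B2_rs Cfsg.Agent.Lib.Helper45.B2_m
      Cfsg.Agent.Lib.Helper45.B2_cox
  · exact Cfsg.Agent.Lib.Helper45.G2X.orderOf_cox Cfsg.Agent.Lib.Helper45.G2_rs Cfsg.Agent.Lib.Helper45.G2_m
      Cfsg.Agent.Lib.Helper45.G2_cox
  · exact Cfsg.Agent.Lib.Helper45.D4X.orderOf_cox Cfsg.Agent.Lib.Helper45.D4_rs Cfsg.Agent.Lib.Helper45.D4_m
      Cfsg.Agent.Lib.Helper45.D4_cox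
  · exact Cfsg.Agent.Lib.Helper45.F4X.orderOf_cox Cfsg.Agent.Lib.Helper45.F4_rs Cfsg.Agent.Lib.Helper45.F4_m
      Cfsg.Agent.Lib.Helper45.F4_cox
  · exact Cfsg.Agent.Lib.Helper45.E6X.orderOf_cox Cfsg.Agent.Lib.Helper45.E6_rs Cfsg.Agent.Lib.Helper45.E6_m
      Cfsg.Agent.Lib.Helper45.E6_cox
  · exact Cfsg.Agent.Lib.Helper45.E7X.orderOf_cox Cfsg.Agent.Lib.Helper45.E7_rs Cfsg.Agent.Lib.Helper45.E7_m
      Cfsg.Agent.Lib.Helper45.E7_cox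
  · exact Cfsg.Agent.Lib.Helper45.E8X.orderOf_cox Cfsg.Agent.Lib.Helper45.E8_rs Cfsg.Agent.Lib.Helper45.E8_m
      Cfsg.Agent.Lib.Helper45.E8_cox

end Cfsg.Agent.S1094
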