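import Cfsg.Statements.S1096
import Cfsg.Agent.Lib.Helper23.ChevAll2

set_option autoImplicit false
open Cfsg

namespace Cfsg.Agent.S1096

open Cfsg.Agent.Lib.Helper23 in
theorem result {F : Type*} [Field F] (D : Cfsg.Lie.ChevalleyDatum) (hD : D ∈ [Cfsg.Lie.chevG2, Cfsg.Lie.chevB2, Cfsg.Lie.chevD4, Cfsg.Lie.chevF4, Cfsg.Lie.chevE6, Cfsg.Lie.chevE7, Cfsg.Lie.chevE8]) (i j : ℕ) (hi : i < D.rank) (hj : j < D.rank) (t : F) (ht : t ≠ 0) :
    D.nMat F (D.simple i) 1 * D.hMat F (D.simple j) t = D.hMat F (D.reflectRoot i (D.simple j)) t * D.nMat F (D.simple i) 1 := by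
  have b := bundle_of_mem F hD
  have h := b.hA.nn_conj_hG_eq' b.hR b.hN (nmon_of_mem F hD) (torS_of_mem F hD) hi (b.hR.simple_lt hj) ht
  rw [mul_inv_eq_iff_eq_mul] at h
  have h' := congrArg (fun u : GL D.Idx F => (u : Matrix D.Idx D.Idx F)) h
  simpa only [Units.val_mul, AddFact.coe_hG, AddFact.nn, AddFact.coe_nG] using h'

end Cfsg.Agent.S1096
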