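import Cfsg.Statements.S1097
import Cfsg.Agent.Lib.Helper23.StSys5
import Cfsg.Agent.Lib.Helper23.StIso

set_option autoImplicit false
open Cfsg

namespace Cfsg.Agent.S1097

/-- Any homomorphism from the presented group to the Chevalley group with `x̄_r(t) ↦ x_r(t)` has kernel contained in `H̄ = ⟨h̄_p(t) : p fundamental, t ≠ 0⟩`. -/
theorem result {K : Type*} [Field K] (D : Cfsg.Lie.ChevalleyDatum) (hD : D ∈ [Cfsg.Lie.chevG2, Cfsg.Lie.chevB2, Cfsg.Lie.chevD4, Cfsg.Lie.chevF4, Cfsg.Lie.chevE6, Cfsg.Lie.chevE7, Cfsg.Lie.chevE8]) (θ : D.SteinbergGroup K →* ↥(D.group K))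
    (hθ : ∀ (r : ℕ) (t : K), r < D.nroots → ((θ (D.stGen K r t) : GL D.Idx K) : Matrix D.Idx D.Idx K) = D.x K r t) :
    θ.ker ≤ Subgroup.closure {h | ∃ (i : ℕ) (t : K), i < D.rank ∧ t ≠ 0 ∧ h = PresentedGroup.mk (D.steinbergRels K) (D.stH (D.simple i) t)} := by
  have hA := Cfsg.Agent.Lib.Helper23.addFact_of_mem K hD
  have T := Cfsg.Agent.Lib.Helper23.StP.stTab_of_mem hD
  let S := Cfsg.Agent.Lib.Helper23.StP.sysGroup hD hA
  have hθS : θ = S.θ := by
    apply PresentedGroup.ext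
    rintro ⟨⟨r, hr⟩, t⟩
    have e2 : D.stGen K r t = PresentedGroup.of (⟨r, hr⟩, t) := by
      simp [Cfsg.Lie.ChevalleyDatum.stGen, Cfsg.Lie.ChevalleyDatum.stX, hr, PresentedGroup.of]
    rw [← e2]
    apply Subtype.ext
    apply Units.ext
    rw [hθ r t hr]
    exact (S.θ_X r t).symm
  rw [hθS, S.ker_θ]
  have key : ∀ r v, PresentedGroup.mk (D.steinbergRels K) (D.stH r v) = S.hB r v := by
    intro r v
    rw [← S.WW_hWord]
    exact Cfsg.Agent.Lib.Helper23.StP.mk_stWord _ _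
  have := S.ker_le_Hb hD T
  unfold Cfsg.Agent.Lib.Helper23.StP.StSys.Hb at this
  simp only [key]
  exact this

end Cfsg.Agent.S1097
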