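import Cfsg.Statements.S1115
import Cfsg.Agent.Lib.Helper22.Ree10

set_option autoImplicit false
open Cfsg

namespace Cfsg.Agent.S1115

/-- `N¹/H¹ ≅ W¹`: a surjective homomorphism from `N¹ = G¹ ∩ N` onto the group of order 2 with kernel `H¹`. -/
theorem result {K : Type*} [Field K] [Fintype K] {m : ℕ} (hK : Fintype.card K = 3 ^ (2 * m + 1)) :
    ∃ φ : ↥(Cfsg.Lie.chevG2.monomialSubgroup K ⊓ Cfsg.Lie.twistedG2 K (3 ^ m)) →* Multiplicative (ZMod 2), Function.Surjective φ ∧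
      φ.ker = (Cfsg.Lie.chevG2.diagonalSubgroup K ⊓ Cfsg.Lie.twistedG2 K (3 ^ m)).subgroupOf (Cfsg.Lie.chevG2.monomialSubgroup K ⊓ Cfsg.Lie.twistedG2 K (3 ^ m)) := by
  have : CharP K 3 := Cfsg.Agent.Lib.Helper22.charP_of_card_pow Nat.prime_three hK
  have b := Cfsg.Agent.Lib.Helper23.bundle_of_mem K (D := Cfsg.Lie.chevG2) (by simp)
  obtain ⟨α, hα⟩ := Cfsg.Agent.Lib.Helper22.exists_isogG2 (Cfsg.Agent.Lib.Helper22.cube_surj hK) b.hA
  refine Cfsg.Agent.Lib.Helper22.exists_hom_zmod2 _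
    ⟨b.hA.nword Cfsg.Agent.Lib.Helper22.reeOm, b.hA.nword_mem_mono b.hR Cfsg.Agent.Lib.Helper22.reeOm_lt,
      Cfsg.Agent.Lib.Helper22.ree_n0_mem b.hA m⟩ ?_ ?_
  · intro h
    rw [Subgroup.mem_subgroupOf] at h
    exact Cfsg.Agent.Lib.Helper22.ree_n0_not_borel b (Cfsg.Agent.Lib.Helper23.AddFact.diag_le_borel h.1)
  · rintro ⟨g, hg, hg1⟩
    rcases Cfsg.Agent.Lib.Helper22.ree_N_cases hK b α hα hg hg1 with h | h
    · left
      rw [Subgroup.mem_subgroupOf]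
      exact ⟨h, hg1⟩
    · right
      rw [Subgroup.mem_subgroupOf]
      exact ⟨h, Subgroup.mul_mem _ (Subgroup.inv_mem _ (Cfsg.Agent.Lib.Helper22.ree_n0_mem b.hA m)) hg1⟩

end Cfsg.Agent.S1115
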