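import Cfsg.Statements.S1118
import Cfsg.Agent.Lib.Helper24.RankOne

set_option autoImplicit false
open Cfsg

namespace Cfsg.Agent.S1118

/-- In the rank-one set-up (`G` finite and doubly transitive on `Ω`, `t` an involution moving `a`, `Q` normal in `G_a` with `G_a = Q D`, `Q ⊓ D = 1` for the two-point stabiliser `D = G_a ⊓ G_{t • a}`, `|Q|` even, `|D|` odd), the normaliser of a subset of `Q` containing a non-identity element lies in `G_a`; consequently `N_G(Q) = N_G(G_a) = G_a`. -/
theorem result {G Ω : Type*} [Group G] [Finite G] [MulAction G Ω] {a : Ω} {t : G} {Q : Subgroup G}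
    (hS : Cfsg.IsRankOneSetup G Ω a t Q) :
    (∀ X : Set G, X ⊆ (Q : Set G) → (∃ x ∈ X, x ≠ 1) → Subgroup.normalizer X ≤ MulAction.stabilizer G a) ∧
      Subgroup.normalizer (Q : Set G) = MulAction.stabilizer G a ∧
      Subgroup.normalizer (MulAction.stabilizer G a : Set G) = MulAction.stabilizer G a := by
  have key : ∀ X : Set G, X ⊆ (Q : Set G) → (∃ x ∈ X, x ≠ 1) →
      Subgroup.normalizer X ≤ MulAction.stabilizer G a := by
    intro X hX ⟨x, hx, hx1⟩ g hg
    rw [Subgroup.mem_set_normalizer_iff] at hg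
    have h1 : g * x * g⁻¹ ∈ Q := hX ((hg x).mp hx)
    have h2 : g * x * g⁻¹ ≠ 1 := by
      intro h
      apply hx1
      have : x = g⁻¹ * (g * x * g⁻¹) * g := by group
      rw [this, h]; group
    rw [MulAction.mem_stabilizer_iff]
    refine Lib.Helper24.Q_fix' hS h1 h2 ?_
    rw [mul_smul, mul_smul, inv_smul_smul, Lib.Helper24.Q_smul_a hS (hX hx)]
  obtain ⟨s, hs, hs1, _⟩ := Lib.Helper24.exists_invol_Q hS
  refine ⟨key, le_antisymm (key _ subset_rfl ⟨s, hs, hs1⟩) (Lib.Helper24.stab_le_normalizer hS),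
    le_antisymm ?_ Subgroup.le_normalizer⟩
  intro g hg
  rw [Subgroup.mem_normalizer_iff] at hg
  have h1 : g * s * g⁻¹ ∈ MulAction.stabilizer G a := (hg s).mp (hS.le hs)
  rw [MulAction.mem_stabilizer_iff, mul_smul, mul_smul, smul_eq_iff_eq_inv_smul] at h1
  have h2 : g⁻¹ • a = a := Lib.Helper24.Q_fix' hS hs hs1 h1
  rw [MulAction.mem_stabilizer_iff]
  rw [inv_smul_eq_iff] at h2
  exact h2.symm

end Cfsg.Agent.S1118
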