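import Cfsg.Statements.S1119
import Cfsg.Agent.Lib.Helper24.RankOne

set_option autoImplicit false
open Cfsg

namespace Cfsg.Agent.S1119

/-- In the rank-one set-up (`G` finite and doubly transitive on `Ω`, `t` an involution moving `a`, `Q` normal in `G_a` with `G_a = Q D`, `Q ⊓ D = 1` for the two-point stabiliser `D = G_a ⊓ G_{t • a}`, `|Q|` even, `|D|` odd): `Q` acts regularly on `Ω` minus `a`; hence `|Ω| = |Q| + 1`, `|G| = |Q| |D| (|Q| + 1)`, some Sylow 2-subgroup of `G` lies in `Q`, and each `g ∉ G_a` is uniquely `x t y` with `x ∈ G_a`, `y ∈ Q` (canonical form). -/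
theorem result {G Ω : Type*} [Group G] [Finite G] [MulAction G Ω] {a : Ω} {t : G} {Q : Subgroup G}
    (hS : Cfsg.IsRankOneSetup G Ω a t Q) :
    (∀ b c : Ω, b ≠ a → c ≠ a → ∃! x : Q, (x : G) • b = c) ∧
      Nat.card Ω = Nat.card Q + 1 ∧
      Nat.card G = Nat.card Q * Nat.card ↥(MulAction.stabilizer G a ⊓ MulAction.stabilizer G (t • a)) * (Nat.card Q + 1) ∧
      (∃ P : Sylow 2 G, (P : Subgroup G) ≤ Q) ∧
      ∀ g : G, g ∉ MulAction.stabilizer G a → ∃! p : G × G, p.1 ∈ MulAction.stabilizer G a ∧ p.2 ∈ Q ∧ g = p.1 * t * p.2 := by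
  refine ⟨?_, Lib.Helper24.card_Omega hS, Lib.Helper24.card_G hS, ?_, ?_⟩
  · intro b c hb hc
    obtain ⟨x, hx, hxb, huniq⟩ := Lib.Helper24.Q_regular hS hb hc
    exact ⟨⟨x, hx⟩, hxb, fun y hy => Subtype.ext (huniq y y.2 hy)⟩
  · have : Fact (Nat.Prime 2) := ⟨Nat.prime_two⟩
    obtain ⟨P0⟩ : Nonempty (Sylow 2 Q) := inferInstance
    have hcard : Nat.card ((P0 : Subgroup Q).map Q.subtype) = 2 ^ (Nat.card G).factorization 2 := by
      rw [Subgroup.card_map_of_injective Q.subtype_injective, P0.card_eq_multiplicity,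
        Lib.Helper24.card_G hS]
      congr 1
      have hQ0 : Nat.card Q ≠ 0 := Nat.card_pos.ne'
      have hD0 : Nat.card ↥(MulAction.stabilizer G a ⊓ MulAction.stabilizer G (t • a)) ≠ 0 :=
        Nat.card_pos.ne'
      rw [Nat.factorization_mul (mul_ne_zero hQ0 hD0) (by omega), Nat.factorization_mul hQ0 hD0]
      have h1 : (Nat.card ↥(MulAction.stabilizer G a ⊓ MulAction.stabilizer G (t • a))).factorization 2
          = 0 := Nat.factorization_eq_zero_of_not_dvd (by
            have := hS.odd_card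
            rw [Nat.odd_iff] at this
            omega)
      have h2 : (Nat.card Q + 1).factorization 2 = 0 :=
        Nat.factorization_eq_zero_of_not_dvd (by
            have := hS.even_card
            rw [Nat.even_iff] at this
            omega)
      rw [Finsupp.add_apply, Finsupp.add_apply, h1, h2, add_zero, add_zero]
    refine ⟨Sylow.ofCard _ hcard, ?_⟩
    rw [Sylow.coe_ofCard]
    exact Subgroup.map_subtype_le _
  · intro g hg
    have hti := Lib.Helper24.t_inv hS
    have hga : g⁻¹ • a ≠ a := by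
      intro h
      apply hg
      rw [MulAction.mem_stabilizer_iff]
      rw [inv_smul_eq_iff] at h
      exact h.symm
    obtain ⟨y, hy, hyb, huniq⟩ := Lib.Helper24.Q_regular hS hga (Lib.Helper24.ta_ne hS)
    refine ⟨(g * y⁻¹ * t, y), ⟨?_, hy, ?_⟩, ?_⟩
    · rw [MulAction.mem_stabilizer_iff, mul_smul, mul_smul, ← hyb, inv_smul_smul, smul_inv_smul]
    · simp only
      rw [mul_assoc (g * y⁻¹), hS.mul_self, mul_one, inv_mul_cancel_right]
    · rintro ⟨x', y'⟩ ⟨hx', hy', hg'⟩
      simp only at hx' hy' hg'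
      have h1 : y' = y := by
        apply huniq y' hy'
        rw [hg', mul_inv_rev, mul_inv_rev, hti, mul_smul, mul_smul, smul_inv_smul]
        congr 1
        rw [inv_smul_eq_iff]
        exact (MulAction.mem_stabilizer_iff.mp hx').symm
      subst h1
      have h2 : x' = g * y'⁻¹ * t := by
        rw [hg', mul_assoc (x' * t), mul_inv_cancel, mul_one, mul_assoc, hS.mul_self, mul_one]
      rw [h2]

end Cfsg.Agent.S1119
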