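import Cfsg.Statements.S1120
import Cfsg.Agent.Lib.Helper24.RankOne

set_option autoImplicit false
open Cfsg

namespace Cfsg.Agent.S1120

/-- In the rank-one set-up (`G` finite and doubly transitive on `Ω`, `t` an involution moving `a`, `Q` normal in `G_a` with `G_a = Q D`, `Q ⊓ D = 1` for the two-point stabiliser `D = G_a ⊓ G_{t • a}`, `|Q|` even, `|D|` odd), if `G` has 2-rank at least 2 then `O_{2'}(G)` equals the normal core of `G_a`. -/
theorem result {G Ω : Type*} [Group G] [Finite G] [MulAction G Ω] {a : Ω} {t : G} {Q : Subgroup G}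
    (hS : Cfsg.IsRankOneSetup G Ω a t Q)
    (h2 : ∃ x y : G, x ≠ 1 ∧ y ≠ 1 ∧ x ≠ y ∧ x * x = 1 ∧ y * y = 1 ∧ x * y = y * x) :
    Cfsg.pPrimeCore 2 G = (MulAction.stabilizer G a).normalCore := by
  obtain ⟨x, y, hx1, hy1, hxy, hx2, hy2, hcomm⟩ := h2
  have hyi : y⁻¹ = y := inv_eq_of_mul_eq_one_left hy2
  apply le_antisymm
  · apply sSup_le
    rintro N ⟨hN, hNc⟩
    rw [Subgroup.normal_le_normalCore]
    have hNodd : Odd (Nat.card N) := (Nat.coprime_two_right).mp hNc
    obtain ⟨c, hc⟩ := Lib.Helper24.invol_fix_exists hS hx2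
    have hyc : y • c = c := by
      refine Lib.Helper24.invol_fix_eq hS hx1 hx2 ?_ hc
      rw [smul_smul, hcomm, mul_smul, hc]
    have hxy1 : x * y ≠ 1 := by
      intro h
      apply hxy
      rw [← hyi]
      exact eq_inv_of_mul_eq_one_left h
    have hxy2 : (x * y) * (x * y) = 1 := by
      have : x * y * (x * y) = x * (y * x) * y := by group
      rw [this, ← hcomm]
      have : x * (x * y) * y = (x * x) * (y * y) := by group
      rw [this, hx2, hy2, one_mul]
    have key : ∀ g ∈ N, g • c = c := by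
      intro g hg
      by_contra hgc
      obtain ⟨hy'1, hy'2⟩ := Lib.Helper24.conj_invol g hy1 hy2
      have hy'c : (g * y * g⁻¹) • (g • c) = g • c := by
        rw [mul_smul, mul_smul, inv_smul_smul, hyc]
      have hodd := Lib.Helper24.invol_mul_odd hS hx1 hx2 hy'1 hy'2 hc hy'c (Ne.symm hgc)
      have h1 : (QuotientGroup.mk' N) (x * (g * y * g⁻¹)) = (QuotientGroup.mk' N) (x * y) := by
        have hg1 : (QuotientGroup.mk' N) g = 1 := (QuotientGroup.eq_one_iff g).mpr hg
        simp only [map_mul, map_inv, hg1, one_mul, inv_one, mul_one]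
      have h2 : (QuotientGroup.mk' N) ((x * y) ^ orderOf (x * (g * y * g⁻¹))) = 1 := by
        rw [map_pow, ← h1, ← map_pow, pow_orderOf_eq_one, map_one]
      have h3 : (x * y) ^ orderOf (x * (g * y * g⁻¹)) = x * y := by
        obtain ⟨k, hk⟩ := hodd
        rw [hk, pow_succ, pow_mul, pow_two, hxy2, one_pow, one_mul]
      rw [h3] at h2
      have h4 : x * y ∈ N := (QuotientGroup.eq_one_iff _).mp h2
      exact hxy1 (Lib.Helper24.eq_one_of_sq_of_odd hNodd h4 hxy2)
    intro g hg
    obtain ⟨h, hh⟩ := Lib.Helper24.trans1 hS c a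
    have h1 := key (h⁻¹ * g * h⁻¹⁻¹) (hN.conj_mem g hg h⁻¹)
    rw [MulAction.mem_stabilizer_iff, ← hh]
    rw [inv_inv, mul_smul, mul_smul, inv_smul_eq_iff] at h1
    exact h1
  · apply le_sSup
    refine ⟨inferInstance, ?_⟩
    have h1 : (MulAction.stabilizer G a).normalCore ≤
        MulAction.stabilizer G a ⊓ MulAction.stabilizer G (t • a) := by
      intro n hn
      refine Subgroup.mem_inf.mpr ⟨Subgroup.normalCore_le _ hn, ?_⟩
      have h2 : t⁻¹ * n * t⁻¹⁻¹ ∈ (MulAction.stabilizer G a).normalCore :=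
        (Subgroup.normalCore_normal _).conj_mem n hn t⁻¹
      have h3 := MulAction.mem_stabilizer_iff.mp (Subgroup.normalCore_le _ h2)
      rw [inv_inv, mul_smul, mul_smul, inv_smul_eq_iff] at h3
      exact MulAction.mem_stabilizer_iff.mpr h3
    have h2 : Nat.card (MulAction.stabilizer G a).normalCore ∣
        Nat.card ↥(MulAction.stabilizer G a ⊓ MulAction.stabilizer G (t • a)) :=
      Subgroup.card_dvd_of_le h1
    rw [Nat.coprime_two_right]
    exact Odd.of_dvd_nat hS.odd_card h2

end Cfsg.Agent.S1120
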