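import Cfsg.Statements.S1123
import Cfsg.Agent.Lib.Helper24.RankOne

set_option autoImplicit false
open Cfsg

namespace Cfsg.Agent.S1123

/-- In the rank-one set-up (`G` finite and doubly transitive on `Ω`, `t` an involution moving `a`, `Q` normal in `G_a` with `G_a = Q D`, `Q ⊓ D = 1` for the two-point stabiliser `D = G_a ⊓ G_{t • a}`, `|Q|` even, `|D|` odd), there is a unique pair `(s, r)` with `s` an involution of `G_a`, `r ∈ Q` and `t s t = r⁻¹ t r`. -/
theorem result {G Ω : Type*} [Group G] [Finite G] [MulAction G Ω] {a : Ω} {t : G} {Q : Subgroup G}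
    (hS : Cfsg.IsRankOneSetup G Ω a t Q) :
    ∃! p : G × G, p.1 ∈ Cfsg.involutionsIn (MulAction.stabilizer G a : Set G) ∧ p.2 ∈ Q ∧
      t * p.1 * t = p.2⁻¹ * t * p.2 := by
  have hti := Lib.Helper24.t_inv hS
  obtain ⟨c, hc⟩ := Lib.Helper24.invol_fix_exists hS hS.mul_self
  have hca : c ≠ a := by
    intro h
    apply hS.not_mem
    rw [MulAction.mem_stabilizer_iff, ← h, hc]
  obtain ⟨r, hr, hrb, huniq⟩ := Lib.Helper24.Q_regular hS (Lib.Helper24.ta_ne hS) hca
  have hs : t * r⁻¹ * t * r * t = (t * r⁻¹) * t * (t * r⁻¹)⁻¹ := by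
    rw [mul_inv_rev, inv_inv, hti]; group
  obtain ⟨hs1, hs2⟩ := Lib.Helper24.conj_invol (t * r⁻¹) hS.ne_one hS.mul_self
  rw [← hs] at hs1 hs2
  refine ⟨(t * r⁻¹ * t * r * t, r), ⟨⟨?_, hs1, hs2⟩, hr, ?_⟩, ?_⟩
  · change t * r⁻¹ * t * r * t ∈ MulAction.stabilizer G a
    rw [MulAction.mem_stabilizer_iff, mul_smul, mul_smul, mul_smul, mul_smul, hrb, hc, ← hrb,
      inv_smul_smul, Lib.Helper24.tta hS]
  · simp only
    have : t * (t * r⁻¹ * t * r * t) * t = (t * t) * r⁻¹ * t * r * (t * t) := by group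
    rw [this, hS.mul_self, one_mul, mul_one]
  · rintro ⟨s', r'⟩ ⟨⟨hs'a, hs'1, hs'2⟩, hr', heq⟩
    simp only at hs'a hs'1 hs'2 hr' heq
    have hs'a' : s' • a = a := MulAction.mem_stabilizer_iff.mp hs'a
    obtain ⟨hw1, hw2⟩ := Lib.Helper24.conj_invol t hs'1 hs'2
    rw [hti] at hw1 hw2
    have hf1 : (t * s' * t) • (t • a) = t • a := by
      rw [mul_smul, mul_smul, Lib.Helper24.tta hS, hs'a']
    have hf2 : (t * s' * t) • (r'⁻¹ • c) = r'⁻¹ • c := by
      rw [heq, mul_smul, mul_smul, smul_inv_smul, hc]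
    have h1 : t • a = r'⁻¹ • c := Lib.Helper24.invol_fix_eq hS hw1 hw2 hf1 hf2
    have h2 : r' = r := by
      apply huniq r' hr'
      rw [h1, smul_inv_smul]
    subst h2
    have h3 : s' = t * r'⁻¹ * t * r' * t := by
      have : s' = (t * t) * s' * (t * t) := by rw [hS.mul_self, one_mul, mul_one]
      rw [this]
      have : t * t * s' * (t * t) = t * (t * s' * t) * t := by group
      rw [this, heq]; group
    rw [h3]

end Cfsg.Agent.S1123
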