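import Cfsg.Statements.S1126
import Cfsg.Agent.Lib.Helper24.RankOne3

set_option autoImplicit false
open Cfsg

namespace Cfsg.Agent.S1126

/-- In the rank-one set-up (`G` finite and doubly transitive on `Ω`, `t` an involution moving `a`, `Q` normal in `G_a` with `G_a = Q D`, `Q ⊓ D = 1` for the two-point stabiliser `D = G_a ⊓ G_{t • a}`, `|Q|` even, `|D|` odd), a subset `X ⊆ D` fixing at least three points of `Ω` is conjugate by an element of `D` into `V = C_D(t)`. -/
theorem result {G Ω : Type*} [Group G] [Finite G] [MulAction G Ω] {a : Ω} {t : G} {Q : Subgroup G}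
    (hS : Cfsg.IsRankOneSetup G Ω a t Q)
    (X : Set G) (hX : X ⊆ ((MulAction.stabilizer G a ⊓ MulAction.stabilizer G (t • a)) : Set G))
    (h3 : ∃ b c d : Ω, b ≠ c ∧ b ≠ d ∧ c ≠ d ∧ ∀ x ∈ X, x • b = b ∧ x • c = c ∧ x • d = d) :
    ∃ k ∈ (MulAction.stabilizer G a ⊓ MulAction.stabilizer G (t • a)), ∀ x ∈ X, (k * x * k⁻¹) * t = t * (k * x * k⁻¹) := by
  obtain ⟨u, hu, hu2, hua⟩ := Lib.Helper24.cent_swap_invol hS hX h3
  have hk0 := Lib.Helper24.swap_invol_mem_K hS hu2 hua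
  obtain ⟨m, hm⟩ := Lib.Helper24.odd_sqrt hS.odd_card
  obtain ⟨hww, -⟩ := hm _ hk0.1
  have hw := Lib.Helper24.inverted_pow hk0 m
  set w := (t * u) ^ m with hwdef
  have huw : u = w⁻¹ * t * w := by
    have h1 : t * w = w⁻¹ * t := by
      rw [← hw.2]; group
    have h2 : u = t * (t * u) := by rw [← mul_assoc, hS.mul_self, one_mul]
    rw [h2, ← hww, ← mul_assoc, h1]
  refine ⟨w, hw.1, ?_⟩
  intro x hx
  have hxu : x * u = u * x := Subgroup.mem_centralizer_iff.mp hu x hx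
  have h1 : w * x * w⁻¹ * t = w * (x * u) * w⁻¹ := by rw [huw]; group
  have h2 : t * (w * x * w⁻¹) = w * (u * x) * w⁻¹ := by rw [huw]; group
  rw [h1, h2, hxu]

end Cfsg.Agent.S1126
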