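import Cfsg.Statements.S1127
import Cfsg.Agent.Lib.Helper24.RankOne3
import Cfsg.Agent.S1123

set_option autoImplicit false
open Cfsg

namespace Cfsg.Agent.S1127

/-- In the rank-one set-up (`G` finite and doubly transitive on `Ω`, `t` an involution moving `a`, `Q` normal in `G_a` with `G_a = Q D`, `Q ⊓ D = 1` for the two-point stabiliser `D = G_a ⊓ G_{t • a}`, `|Q|` even, `|D|` odd): if `s` is an involution of `G_a` and `r ∈ Q` satisfy `t s t = r⁻¹ t r`, then `C_D(t) = C_D(s)`; moreover `C_D(t) ⊓ C_D(K) = C_D(I ∩ G_a)`, where `K` is the set of elements of `D` inverted by `t` and `I ∩ G_a` the set of involutions of `G_a`. -/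
theorem result {G Ω : Type*} [Group G] [Finite G] [MulAction G Ω] {a : Ω} {t : G} {Q : Subgroup G}
    (hS : Cfsg.IsRankOneSetup G Ω a t Q) :
    (∀ s r : G, s ∈ Cfsg.involutionsIn (MulAction.stabilizer G a : Set G) → r ∈ Q → t * s * t = r⁻¹ * t * r →
        (MulAction.stabilizer G a ⊓ MulAction.stabilizer G (t • a)) ⊓ Subgroup.centralizer {t} = (MulAction.stabilizer G a ⊓ MulAction.stabilizer G (t • a)) ⊓ Subgroup.centralizer {s}) ∧
      (MulAction.stabilizer G a ⊓ MulAction.stabilizer G (t • a)) ⊓ Subgroup.centralizer {t} ⊓ Subgroup.centralizer (Cfsg.invertedBy (MulAction.stabilizer G a ⊓ MulAction.stabilizer G (t • a)) t) =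
        (MulAction.stabilizer G a ⊓ MulAction.stabilizer G (t • a)) ⊓ Subgroup.centralizer (Cfsg.involutionsIn (MulAction.stabilizer G a : Set G)) := by
  have hti := Lib.Helper24.t_inv hS
  have hnorm : ∀ x ∈ MulAction.stabilizer G a ⊓ MulAction.stabilizer G (t • a),
      t * x * t⁻¹ ∈ MulAction.stabilizer G a ⊓ MulAction.stabilizer G (t • a) := by
    intro x hx
    obtain ⟨h1, h2⟩ := Subgroup.mem_inf.mp hx
    rw [MulAction.mem_stabilizer_iff] at h1 h2
    refine Subgroup.mem_inf.mpr ⟨?_, ?_⟩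
    · rw [MulAction.mem_stabilizer_iff, hti, mul_smul, mul_smul, h2, Lib.Helper24.tta hS]
    · rw [MulAction.mem_stabilizer_iff, hti, mul_smul, mul_smul, Lib.Helper24.tta hS, h1]
  have part1 : ∀ s r : G, s ∈ Cfsg.involutionsIn (MulAction.stabilizer G a : Set G) → r ∈ Q →
      t * s * t = r⁻¹ * t * r →
      (MulAction.stabilizer G a ⊓ MulAction.stabilizer G (t • a)) ⊓ Subgroup.centralizer {t} =
        (MulAction.stabilizer G a ⊓ MulAction.stabilizer G (t • a)) ⊓ Subgroup.centralizer {s} := by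
    intro s r hs hr heq
    have hle : (MulAction.stabilizer G a ⊓ MulAction.stabilizer G (t • a)) ⊓
        Subgroup.centralizer {t} ≤
        (MulAction.stabilizer G a ⊓ MulAction.stabilizer G (t • a)) ⊓ Subgroup.centralizer {s} := by
      intro d hd
      obtain ⟨hdD, hdt⟩ := Subgroup.mem_inf.mp hd
      have hda := (Subgroup.mem_inf.mp hdD).1
      have hdt' : t * d = d * t := Subgroup.mem_centralizer_iff.mp hdt t rfl
      have hdt'' : t * d⁻¹ = d⁻¹ * t := by
        rw [eq_inv_mul_iff_mul_eq, ← mul_assoc, ← hdt', mul_assoc, mul_inv_cancel, mul_one]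
      refine Subgroup.mem_inf.mpr ⟨hdD, ?_⟩
      obtain ⟨p, -, huniq⟩ := S1123.result hS
      have h1 := huniq (s, r) ⟨hs, hr, heq⟩
      have h2 := huniq (d * s * d⁻¹, d * r * d⁻¹)
        ⟨Lib.Helper24.conj_mem_involutionsIn hs hda, hS.conj_mem d hda r hr, by
          simp only
          have e1 : t * (d * s * d⁻¹) * t = d * (t * s * t) * d⁻¹ := by
            calc t * (d * s * d⁻¹) * t = (t * d) * s * (d⁻¹ * t) := by group
              _ = (d * t) * s * (t * d⁻¹) := by rw [hdt', hdt'']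
              _ = d * (t * s * t) * d⁻¹ := by group
          have e2 : (d * r * d⁻¹)⁻¹ * t * (d * r * d⁻¹) = d * (r⁻¹ * t * r) * d⁻¹ := by
            calc (d * r * d⁻¹)⁻¹ * t * (d * r * d⁻¹) = d * r⁻¹ * (d⁻¹ * t) * d * r * d⁻¹ := by group
              _ = d * r⁻¹ * (t * d⁻¹) * d * r * d⁻¹ := by rw [hdt'']
              _ = d * (r⁻¹ * t * r) * d⁻¹ := by group
          rw [e1, e2, heq]⟩
      have h3 : (d * s * d⁻¹, d * r * d⁻¹) = (s, r) := h2.trans h1.symm
      have h4 : d * s * d⁻¹ = s := congrArg Prod.fst h3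
      rw [Subgroup.mem_centralizer_iff]
      rintro _ rfl
      exact (mul_inv_eq_iff_eq_mul.mp h4).symm
    refine le_antisymm hle ?_
    intro d hd
    obtain ⟨hdD, hds⟩ := Subgroup.mem_inf.mp hd
    obtain ⟨⟨y, z⟩, ⟨hy, hz, hde⟩, -⟩ := Lib.Helper24.odd_factor hS.mul_self hS.odd_card hnorm hdD
    simp only at hy hz hde
    have hys := (Subgroup.mem_inf.mp (hle hy)).2
    have hzs : z ∈ Subgroup.centralizer {s} := by
      have : z = y⁻¹ * d := by rw [hde]; group
      rw [this]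
      exact mul_mem (inv_mem hys) hds
    have hzs' : s * z = z * s := Subgroup.mem_centralizer_iff.mp hzs s rfl
    obtain ⟨k0, -, huniq⟩ := Lib.Helper24.K_conj_existsUnique hS hs hs
    have h1 := huniq z ⟨hz, by rw [← hzs', mul_assoc, mul_inv_cancel, mul_one]⟩
    have h2 := huniq 1 ⟨Lib.Helper24.one_mem_inverted, by simp⟩
    have h3 : z = 1 := h1.trans h2.symm
    rw [hde, h3, mul_one]
    exact hy
  refine ⟨part1, ?_⟩
  obtain ⟨⟨s0, r0⟩, ⟨hs0, hr0, heq0⟩, -⟩ := S1123.result hS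
  simp only at hs0 hr0 heq0
  have hts := part1 s0 r0 hs0 hr0 heq0
  apply le_antisymm
  · intro d hd
    obtain ⟨hd1, hdK⟩ := Subgroup.mem_inf.mp hd
    have hdD := (Subgroup.mem_inf.mp hd1).1
    rw [hts] at hd1
    have hds0 : s0 * d = d * s0 := Subgroup.mem_centralizer_iff.mp (Subgroup.mem_inf.mp hd1).2 s0 rfl
    refine Subgroup.mem_inf.mpr ⟨hdD, ?_⟩
    rw [Subgroup.mem_centralizer_iff]
    intro s' hs'
    obtain ⟨k, ⟨hk, hks⟩, -⟩ := Lib.Helper24.K_conj_existsUnique hS hs0 hs'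
    have hdk : Commute k d := Subgroup.mem_centralizer_iff.mp hdK k hk
    have hds : Commute s0 d := hds0
    rw [← hks]
    exact ((hdk.mul_left hds).mul_left hdk.inv_left).eq
  · intro d hd
    obtain ⟨hdD, hdI⟩ := Subgroup.mem_inf.mp hd
    have hds0 : s0 * d = d * s0 := Subgroup.mem_centralizer_iff.mp hdI s0 hs0
    have hd1 : d ∈ (MulAction.stabilizer G a ⊓ MulAction.stabilizer G (t • a)) ⊓
        Subgroup.centralizer {t} := by
      rw [hts]
      refine Subgroup.mem_inf.mpr ⟨hdD, ?_⟩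
      rw [Subgroup.mem_centralizer_iff]
      rintro _ rfl
      exact hds0
    refine Subgroup.mem_inf.mpr ⟨hd1, ?_⟩
    rw [Subgroup.mem_centralizer_iff]
    intro k hk
    have hks := Lib.Helper24.conj_mem_involutionsIn hs0 (Subgroup.mem_inf.mp hk.1).1
    obtain ⟨k0, -, huniq⟩ := Lib.Helper24.K_conj_existsUnique hS hs0 hks
    have h1 := huniq k ⟨hk, rfl⟩
    have h2 := huniq (d * k * d⁻¹) ⟨Lib.Helper24.centralizer_conj_inverted hd1 hk, by
      have hd2 : (k * s0 * k⁻¹) * d = d * (k * s0 * k⁻¹) := Subgroup.mem_centralizer_iff.mp hdI _ hks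
      have hds0' : d⁻¹ * s0 * d = s0 := by
        rw [mul_assoc, hds0, ← mul_assoc, inv_mul_cancel, one_mul]
      calc d * k * d⁻¹ * s0 * (d * k * d⁻¹)⁻¹ = d * (k * (d⁻¹ * s0 * d) * k⁻¹) * d⁻¹ := by group
        _ = d * (k * s0 * k⁻¹) * d⁻¹ := by rw [hds0']
        _ = k * s0 * k⁻¹ := by rw [← hd2, mul_assoc, mul_inv_cancel, mul_one]⟩
    have h3 : d * k * d⁻¹ = k := h2.trans h1.symm
    exact (mul_inv_eq_iff_eq_mul.mp h3).symm

end Cfsg.Agent.S1127
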