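import Cfsg.Statements.S1128
import Cfsg.Agent.Lib.Helper24.RankOne3

set_option autoImplicit false
open Cfsg

namespace Cfsg.Agent.S1128

/-- In the rank-one set-up (`G` finite and doubly transitive on `Ω`, `t` an involution moving `a`, `Q` normal in `G_a` with `G_a = Q D`, `Q ⊓ D = 1` for the two-point stabiliser `D = G_a ⊓ G_{t • a}`, `|Q|` even, `|D|` odd), with the action faithful and `G` containing two distinct commuting involutions: every non-identity element of `D` inverted by `t` acts fixed-point-freely on `Q`. -/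
theorem result {G Ω : Type*} [Group G] [Finite G] [MulAction G Ω] [FaithfulSMul G Ω] {a : Ω} {t : G} {Q : Subgroup G}
    (hS : Cfsg.IsRankOneSetup G Ω a t Q)
    (h2 : ∃ x y : G, x ≠ 1 ∧ y ≠ 1 ∧ x ≠ y ∧ x * x = 1 ∧ y * y = 1 ∧ x * y = y * x)
    (x : G) (hx : x ∈ Cfsg.invertedBy (MulAction.stabilizer G a ⊓ MulAction.stabilizer G (t • a)) t) (hx1 : x ≠ 1) :
    Q ⊓ Subgroup.centralizer {x} = ⊥ := by
  rw [Subgroup.eq_bot_iff_forall]
  intro y hy
  by_contra hy1
  obtain ⟨hyQ, hyC⟩ := Subgroup.mem_inf.mp hy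
  have hyx : x * y = y * x := Subgroup.mem_centralizer_singleton_iff.mp hyC |> fun h => by
    first
      | exact h
      | exact h.symm
  have hxa : x • a = a := MulAction.mem_stabilizer_iff.mp (Subgroup.mem_inf.mp hx.1).1
  have hxb : x • t • a = t • a := MulAction.mem_stabilizer_iff.mp (Subgroup.mem_inf.mp hx.1).2
  have hX : ({x} : Set G) ⊆
      ((MulAction.stabilizer G a ⊓ MulAction.stabilizer G (t • a) : Subgroup G) : Set G) := by
    rintro _ rfl
    exact hx.1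
  have hyb1 : y • t • a ≠ a := by
    intro h
    have h' : y • t • a = y • a := by rw [Lib.Helper24.Q_smul_a hS hyQ]; exact h
    exact Lib.Helper24.ta_ne hS (smul_left_cancel y h')
  have hyb2 : y • t • a ≠ t • a := fun h => hy1 (Lib.Helper24.Q_fix hS hyQ h (Lib.Helper24.ta_ne hS))
  have h3 : ∃ b c d : Ω, b ≠ c ∧ b ≠ d ∧ c ≠ d ∧
      ∀ z ∈ ({x} : Set G), z • b = b ∧ z • c = c ∧ z • d = d := by
    refine ⟨a, t • a, y • t • a, (Lib.Helper24.ta_ne hS).symm, hyb1.symm, hyb2.symm, ?_⟩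
    rintro _ rfl
    refine ⟨hxa, hxb, ?_⟩
    rw [smul_smul, hyx, mul_smul, hxb]
  obtain ⟨s, hs, hs1, hs2⟩ := Lib.Helper24.cent_Q_invol hS hX h3
  obtain ⟨hsC, hsQ⟩ := Subgroup.mem_inf.mp hs
  have hsx : x * s = s * x := Subgroup.mem_centralizer_iff.mp hsC x rfl
  obtain ⟨c, hc⟩ := Lib.Helper24.invol_fix_exists hS hS.mul_self
  have hca : a ≠ c := by
    intro h
    apply hS.not_mem
    rw [MulAction.mem_stabilizer_iff, h, hc]
  have hodd := Lib.Helper24.invol_mul_odd hS hs1 hs2 hS.ne_one hS.mul_self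
    (Lib.Helper24.Q_smul_a hS hsQ) hc hca
  have hinv : (s * t) * x * (s * t)⁻¹ = x⁻¹ := by
    have h1 : (s * t) * x * (s * t)⁻¹ = s * (t * x * t⁻¹) * s⁻¹ := by group
    rw [h1, hx.2]
    have h2 : s * x⁻¹ = x⁻¹ * s := by
      rw [eq_inv_mul_iff_mul_eq, ← mul_assoc, hsx, mul_assoc, mul_inv_cancel, mul_one]
    rw [h2, mul_assoc, mul_inv_cancel, mul_one]
  have hsq : Commute ((s * t) * (s * t)) x := by
    have h1 : (s * t) * (s * t) * x * ((s * t) * (s * t))⁻¹ =
        (s * t) * ((s * t) * x * (s * t)⁻¹) * (s * t)⁻¹ := by group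
    have h2 : (s * t) * x⁻¹ * (s * t)⁻¹ = x := by
      rw [← conj_inv, hinv, inv_inv]
    rw [hinv, h2] at h1
    exact mul_inv_eq_iff_eq_mul.mp h1
  obtain ⟨k, hk⟩ := hodd
  have h4 : (s * t) ^ (2 * k + 1) = 1 := by rw [← hk, pow_orderOf_eq_one]
  have h5 : (s * t) ^ (2 * k + 1) = ((s * t) * (s * t)) ^ k * (s * t) := by
    rw [← pow_two, ← pow_mul, pow_succ]
  have h6 : ((s * t) * (s * t)) ^ k * (s * t) * x * (((s * t) * (s * t)) ^ k * (s * t))⁻¹ = x⁻¹ := by
    have h7 : ((s * t) * (s * t)) ^ k * (s * t) * x * (((s * t) * (s * t)) ^ k * (s * t))⁻¹ =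
        ((s * t) * (s * t)) ^ k * ((s * t) * x * (s * t)⁻¹) * (((s * t) * (s * t)) ^ k)⁻¹ := by group
    rw [h7, hinv]
    have h8 : Commute (((s * t) * (s * t)) ^ k) x⁻¹ := (hsq.pow_left k).inv_right
    rw [h8.eq, mul_assoc, mul_inv_cancel, mul_one]
  rw [← h5, h4] at h6
  simp only [one_mul, inv_one, mul_one] at h6
  apply hx1
  refine Lib.Helper24.eq_one_of_sq_of_odd hS.odd_card hx.1 ?_
  nth_rewrite 1 [h6]
  exact inv_mul_cancel x

end Cfsg.Agent.S1128
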