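import Cfsg.Statements.S1134
import Cfsg.Agent.Lib.Helper24.RankOne4

set_option autoImplicit false
open Cfsg

namespace Cfsg.Agent.S1134

/-- In the rank-one set-up (`G` finite and doubly transitive on `Ω`, `t` an involution moving `a`, `Q` normal in `G_a` with `G_a = Q D`, `Q ⊓ D = 1` for the two-point stabiliser `D = G_a ⊓ G_{t • a}`, `|Q|` even, `|D|` odd), with the action faithful and `G` containing two distinct commuting involutions, with `V = C_D(t)`: subsets of `V` conjugate in `G` are conjugate in `V`. -/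
theorem result {G Ω : Type*} [Group G] [Finite G] [MulAction G Ω] [FaithfulSMul G Ω] {a : Ω} {t : G} {Q : Subgroup G}
    (hS : Cfsg.IsRankOneSetup G Ω a t Q)
    (h2 : ∃ x y : G, x ≠ 1 ∧ y ≠ 1 ∧ x ≠ y ∧ x * x = 1 ∧ y * y = 1 ∧ x * y = y * x)
    (X : Set G) (hX : X ⊆ (((MulAction.stabilizer G a ⊓ MulAction.stabilizer G (t • a)) ⊓ Subgroup.centralizer {t} : Subgroup G) : Set G)) (g : G)
    (hY : (fun x => g * x * g⁻¹) '' X ⊆ (((MulAction.stabilizer G a ⊓ MulAction.stabilizer G (t • a)) ⊓ Subgroup.centralizer {t} : Subgroup G) : Set G)) :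
    ∃ v ∈ (MulAction.stabilizer G a ⊓ MulAction.stabilizer G (t • a)) ⊓ Subgroup.centralizer {t}, (fun x => v * x * v⁻¹) '' X = (fun x => g * x * g⁻¹) '' X := by
  have hti := Lib.Helper24.t_inv hS
  obtain ⟨c, hc⟩ := Lib.Helper24.invol_fix_exists hS hS.mul_self
  have hca : c ≠ a := by
    intro h
    apply hS.not_mem
    rw [MulAction.mem_stabilizer_iff, ← h, hc]
  have hcb : c ≠ t • a := by
    intro h
    apply hca
    have : t • c = t • t • a := by rw [← h]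
    rw [hc, Lib.Helper24.tta hS] at this
    exact this
  have hVfix : ∀ v ∈ (MulAction.stabilizer G a ⊓ MulAction.stabilizer G (t • a)) ⊓
      Subgroup.centralizer {t}, v • a = a ∧ v • t • a = t • a ∧ v • c = c := by
    intro v hv
    obtain ⟨hvD, hvt⟩ := Subgroup.mem_inf.mp hv
    refine ⟨MulAction.mem_stabilizer_iff.mp (Subgroup.mem_inf.mp hvD).1,
      MulAction.mem_stabilizer_iff.mp (Subgroup.mem_inf.mp hvD).2, ?_⟩
    refine Lib.Helper24.invol_fix_eq hS hS.ne_one hS.mul_self ?_ hc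
    rw [smul_smul, Subgroup.mem_centralizer_iff.mp hvt t rfl, mul_smul, hc]
  have hXD : X ⊆ ((MulAction.stabilizer G a ⊓ MulAction.stabilizer G (t • a) : Subgroup G) : Set G) :=
    fun x hx => (Subgroup.mem_inf.mp (hX hx)).1
  have h3 : ∃ b c d : Ω, b ≠ c ∧ b ≠ d ∧ c ≠ d ∧ ∀ x ∈ X, x • b = b ∧ x • c = c ∧ x • d = d :=
    ⟨a, t • a, c, (Lib.Helper24.ta_ne hS).symm, hca.symm, hcb.symm, fun x hx => hVfix x (hX hx)⟩
  have hfix : ∀ p : Ω, (∀ v ∈ (MulAction.stabilizer G a ⊓ MulAction.stabilizer G (t • a)) ⊓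
      Subgroup.centralizer {t}, v • p = p) → ∀ x ∈ X, x • g⁻¹ • p = g⁻¹ • p := by
    intro p hp x hx
    have h1 := hp _ (hY ⟨x, hx, rfl⟩)
    rw [mul_smul, mul_smul, smul_eq_iff_eq_inv_smul] at h1
    exact h1
  obtain ⟨h, hh, hha, hhb⟩ := Lib.Helper24.cent_two_trans hS hXD h3
    (fun x hx => (hVfix x (hX hx)).1) (fun x hx => (hVfix x (hX hx)).2.1)
    (hfix a fun v hv => (hVfix v hv).1) (hfix (t • a) fun v hv => (hVfix v hv).2.1)
    (Lib.Helper24.ta_ne hS).symm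
    (fun e => (Lib.Helper24.ta_ne hS).symm (smul_left_cancel g⁻¹ e))
  have hghD : g * h ∈ MulAction.stabilizer G a ⊓ MulAction.stabilizer G (t • a) := by
    refine Subgroup.mem_inf.mpr ⟨?_, ?_⟩
    · rw [MulAction.mem_stabilizer_iff, mul_smul, hha, smul_inv_smul]
    · rw [MulAction.mem_stabilizer_iff, mul_smul, hhb, smul_inv_smul]
  have hconj : ∀ x ∈ X, (g * h) * x * (g * h)⁻¹ = g * x * g⁻¹ := by
    intro x hx
    have h1 : x * h = h * x := Subgroup.mem_centralizer_iff.mp hh x hx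
    have h2 : h * x * h⁻¹ = x := by rw [← h1, mul_assoc, mul_inv_cancel, mul_one]
    have h4 : (g * h) * x * (g * h)⁻¹ = g * (h * x * h⁻¹) * g⁻¹ := by group
    rw [h4, h2]
  generalize g * h = d at hghD hconj
  have hu2 : (d⁻¹ * t * d) * (d⁻¹ * t * d) = 1 := by
    have : (d⁻¹ * t * d) * (d⁻¹ * t * d) = d⁻¹ * (t * t) * d := by group
    rw [this, hS.mul_self]; group
  have hda : d • a = a := MulAction.mem_stabilizer_iff.mp (Subgroup.mem_inf.mp hghD).1
  have hdb : d • t • a = t • a := MulAction.mem_stabilizer_iff.mp (Subgroup.mem_inf.mp hghD).2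
  have hua : (d⁻¹ * t * d) • a = t • a := by
    rw [mul_smul, mul_smul, hda, inv_smul_eq_iff, hdb]
  have hk := Lib.Helper24.swap_invol_mem_K hS hu2 hua
  have htX : ∀ x ∈ X, Commute x t := fun x hx =>
    (Subgroup.mem_centralizer_iff.mp (Subgroup.mem_inf.mp (hX hx)).2 t rfl).symm
  have huX : ∀ x ∈ X, Commute x (d⁻¹ * t * d) := by
    intro x hx
    have h1 : t * (d * x * d⁻¹) = (d * x * d⁻¹) * t := by
      rw [hconj x hx]
      exact Subgroup.mem_centralizer_iff.mp (Subgroup.mem_inf.mp (hY ⟨x, hx, rfl⟩)).2 t rfl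
    have h2 : x * (d⁻¹ * t * d) = d⁻¹ * ((d * x * d⁻¹) * t) * d := by group
    have h4 : (d⁻¹ * t * d) * x = d⁻¹ * (t * (d * x * d⁻¹)) * d := by group
    change x * (d⁻¹ * t * d) = (d⁻¹ * t * d) * x
    rw [h2, h4, h1]
  obtain ⟨m, hm⟩ := Lib.Helper24.odd_sqrt hS.odd_card
  obtain ⟨hww, -⟩ := hm _ hk.1
  have hw := Lib.Helper24.inverted_pow hk m
  have hwX : ∀ x ∈ X, Commute x ((t * (d⁻¹ * t * d)) ^ m) := fun x hx =>
    ((htX x hx).mul_right (huX x hx)).pow_right m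
  set w := (t * (d⁻¹ * t * d)) ^ m with hwdef
  have huw : d⁻¹ * t * d = w⁻¹ * t * w := by
    have h1 : t * w = w⁻¹ * t := by
      rw [← hw.2]; group
    have h2 : d⁻¹ * t * d = t * (t * (d⁻¹ * t * d)) := by
      rw [← mul_assoc t t, hS.mul_self, one_mul]
    rw [h2, ← hww, ← mul_assoc, h1]
  have hvt : t * (d * w⁻¹) = (d * w⁻¹) * t := by
    have h1 : d * (d⁻¹ * t * d) * w⁻¹ = d * (w⁻¹ * t * w) * w⁻¹ := by rw [huw]
    have h2 : d * (d⁻¹ * t * d) * w⁻¹ = t * (d * w⁻¹) := by group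
    have h4 : d * (w⁻¹ * t * w) * w⁻¹ = (d * w⁻¹) * t := by group
    rw [← h2, h1, h4]
  refine ⟨d * w⁻¹, Subgroup.mem_inf.mpr ⟨mul_mem hghD (inv_mem hw.1), ?_⟩, ?_⟩
  · rw [Subgroup.mem_centralizer_iff]
    rintro _ rfl
    exact hvt
  · apply Set.image_congr
    intro x hx
    rw [← hconj x hx]
    have h1 : w⁻¹ * x * w = x := by
      rw [mul_assoc, (hwX x hx).eq, ← mul_assoc, inv_mul_cancel, one_mul]
    have h2 : d * w⁻¹ * x * (d * w⁻¹)⁻¹ = d * (w⁻¹ * x * w) * d⁻¹ := by group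
    rw [h2, h1]

end Cfsg.Agent.S1134
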