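import Cfsg.Statements.S1135
import Cfsg.Agent.Lib.Helper24.RankOne4

set_option autoImplicit false
open Cfsg

namespace Cfsg.Agent.S1135

/-- In the rank-one set-up (`G` finite and doubly transitive on `Ω`, `t` an involution moving `a`, `Q` normal in `G_a` with `G_a = Q D`, `Q ⊓ D = 1` for the two-point stabiliser `D = G_a ⊓ G_{t • a}`, `|Q|` even, `|D|` odd), with the action faithful and `G` containing two distinct commuting involutions: if `x = u v` with `u, v` involutions and `x² ≠ 1`, then `x` is conjugate to `u' t` for some involution `u'` of `G_a`, and `|C_G(x)|` is odd. -/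
theorem result {G Ω : Type*} [Group G] [Finite G] [MulAction G Ω] [FaithfulSMul G Ω] {a : Ω} {t : G} {Q : Subgroup G}
    (hS : Cfsg.IsRankOneSetup G Ω a t Q)
    (h2 : ∃ x y : G, x ≠ 1 ∧ y ≠ 1 ∧ x ≠ y ∧ x * x = 1 ∧ y * y = 1 ∧ x * y = y * x)
    (u v : G) (hu1 : u ≠ 1) (hu2 : u * u = 1) (hv1 : v ≠ 1) (hv2 : v * v = 1) (hx : (u * v) * (u * v) ≠ 1) :
    (∃ g : G, ∃ u' ∈ Cfsg.involutionsIn (MulAction.stabilizer G a : Set G), g * (u * v) * g⁻¹ = u' * t) ∧
      Odd (Nat.card ↥(Subgroup.centralizer {u * v})) := by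
  have hui : u⁻¹ = u := inv_eq_of_mul_eq_one_left hu2
  have hvi : v⁻¹ = v := inv_eq_of_mul_eq_one_left hv2
  obtain ⟨e1, he1⟩ := Lib.Helper24.invol_fix_exists hS hu2
  obtain ⟨e2, he2⟩ := Lib.Helper24.invol_fix_exists hS hv2
  have hne : e1 ≠ e2 := by
    intro he
    apply hx
    obtain ⟨g0, hg0⟩ := Lib.Helper24.trans1 hS e1 a
    obtain ⟨ha1, ha2⟩ := Lib.Helper24.conj_invol g0 hu1 hu2
    obtain ⟨hb1, hb2⟩ := Lib.Helper24.conj_invol g0 hv1 hv2
    have hua : g0 * u * g0⁻¹ ∈ MulAction.stabilizer G a := by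
      rw [MulAction.mem_stabilizer_iff, mul_smul, mul_smul, ← hg0, inv_smul_smul, he1]
    have hva : g0 * v * g0⁻¹ ∈ MulAction.stabilizer G a := by
      rw [MulAction.mem_stabilizer_iff, mul_smul, mul_smul, ← hg0, inv_smul_smul, he, he2]
    have hc := Lib.Helper24.invol_central hS (s := g0 * u * g0⁻¹) ⟨hua, ha1, ha2⟩
      (Lib.Helper24.invol_mem_Q hS hva hb2)
    have hc' : u * v = v * u := by
      have h1 : g0 * u * g0⁻¹ * (g0 * v * g0⁻¹) = g0 * (u * v) * g0⁻¹ := by group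
      have h2' : g0 * v * g0⁻¹ * (g0 * u * g0⁻¹) = g0 * (v * u) * g0⁻¹ := by group
      rw [h1, h2'] at hc
      exact mul_left_cancel (mul_right_cancel hc)
    have : u * v * (u * v) = u * (v * u) * v := by group
    rw [this, ← hc']
    have : u * (u * v) * v = (u * u) * (v * v) := by group
    rw [this, hu2, hv2, one_mul]
  obtain ⟨c, hc⟩ := Lib.Helper24.invol_fix_exists hS hS.mul_self
  have hca : c ≠ a := by
    intro h
    apply hS.not_mem
    rw [MulAction.mem_stabilizer_iff, ← h, hc]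
  constructor
  · obtain ⟨g1, hg1a, hg1c⟩ := Lib.Helper24.two_trans hS hne hca.symm
    obtain ⟨ha1, ha2⟩ := Lib.Helper24.conj_invol g1 hu1 hu2
    obtain ⟨hb1, hb2⟩ := Lib.Helper24.conj_invol g1 hv1 hv2
    have hua : g1 * u * g1⁻¹ ∈ MulAction.stabilizer G a := by
      rw [MulAction.mem_stabilizer_iff, mul_smul, mul_smul, ← hg1a, inv_smul_smul, he1]
    obtain ⟨g2, hg2a, hg2b⟩ := Lib.Helper24.two_trans hS (Lib.Helper24.ta_ne hS).symm hca
    have hS' := Lib.Helper24.setup_conj hS g2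
    have hvc : g1 * v * g1⁻¹ ∈ MulAction.stabilizer G (g2 • a) := by
      rw [hg2a, MulAction.mem_stabilizer_iff, mul_smul, mul_smul, ← hg1c, inv_smul_smul, he2]
    have htc : t ∈ MulAction.stabilizer G (g2 • a) := by
      rw [hg2a, MulAction.mem_stabilizer_iff, hc]
    obtain ⟨k, ⟨hk, hks⟩, -⟩ := Lib.Helper24.K_conj_existsUnique hS'
      (s := g1 * v * g1⁻¹) (s' := t) ⟨hvc, hb1, hb2⟩ ⟨htc, hS.ne_one, hS.mul_self⟩
    have hka : k ∈ MulAction.stabilizer G a := by
      have h1 := (Subgroup.mem_inf.mp hk.1).2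
      have h3 : (g2 * t * g2⁻¹) • g2 • a = a := by
        rw [mul_smul, mul_smul, inv_smul_smul, hg2b]
      rwa [h3] at h1
    refine ⟨k * g1, k * (g1 * u * g1⁻¹) * k⁻¹,
      Lib.Helper24.conj_mem_involutionsIn ⟨hua, ha1, ha2⟩ hka, ?_⟩
    rw [← hks]; group
  · by_contra hodd
    rw [Nat.not_odd_iff_even] at hodd
    have : Fact (Nat.Prime 2) := ⟨Nat.prime_two⟩
    obtain ⟨w, hw⟩ := exists_prime_orderOf_dvd_card' (G := ↥(Subgroup.centralizer {u * v})) 2
      hodd.two_dvd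
    have hw1 : (w : G) ≠ 1 := by
      intro h
      have : w = 1 := Subtype.ext h
      rw [this, orderOf_one] at hw
      omega
    have hw2 : (w : G) * (w : G) = 1 := by
      have h1 : w ^ 2 = 1 := by rw [← hw, pow_orderOf_eq_one]
      have h3 : ((w ^ 2 : ↥(Subgroup.centralizer {u * v})) : G) = 1 := by rw [h1]; rfl
      rw [← h3, pow_two]; rfl
    have hwx : (u * v) * (w : G) = (w : G) * (u * v) :=
      Subgroup.mem_centralizer_iff.mp w.2 (u * v) rfl
    have hwx' : (w : G) * (u * v)⁻¹ * (w : G)⁻¹ = (u * v)⁻¹ := by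
      rw [← conj_inv]
      congr 1
      rw [← hwx, mul_assoc, mul_inv_cancel, mul_one]
    obtain ⟨e3, he3⟩ := Lib.Helper24.invol_fix_exists hS hw2
    have hinvu : u * (u * v) * u⁻¹ = (u * v)⁻¹ := by
      rw [mul_inv_rev, hui, hvi, ← mul_assoc, hu2, one_mul]
    have hinvv : v * (u * v) * v⁻¹ = (u * v)⁻¹ := by
      rw [mul_inv_rev, hui, hvi, mul_assoc, mul_assoc, hv2, mul_one]
    have h31 : e3 = e1 := by
      by_contra hne'
      have hodd' := Lib.Helper24.invol_mul_odd hS hw1 hw2 hu1 hu2 he3 he1 hne'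
      apply hx
      refine Lib.Helper24.sq_eq_one_of_inverted_by_odd (g := (w : G) * u) ?_ hodd'
      have : (w : G) * u * (u * v) * ((w : G) * u)⁻¹ = (w : G) * (u * (u * v) * u⁻¹) * (w : G)⁻¹ := by
        group
      rw [this, hinvu, hwx']
    have h32 : e3 = e2 := by
      by_contra hne'
      have hodd' := Lib.Helper24.invol_mul_odd hS hw1 hw2 hv1 hv2 he3 he2 hne'
      apply hx
      refine Lib.Helper24.sq_eq_one_of_inverted_by_odd (g := (w : G) * v) ?_ hodd'
      have : (w : G) * v * (u * v) * ((w : G) * v)⁻¹ = (w : G) * (v * (u * v) * v⁻¹) * (w : G)⁻¹ := by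
        group
      rw [this, hinvv, hwx']
    exact hne (h31.symm.trans h32)

end Cfsg.Agent.S1135
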