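import Cfsg.Statements.S1140

set_option autoImplicit false
open Cfsg

namespace Cfsg.Agent.S1140

open Module in
theorem aux_basis {F : Type*} [Field F] [Fintype F] [CharP F 2] :
    ∃ (_ : Fintype (F ≃+* F)) (_ : Algebra (ZMod 2) F)
      (b : Basis (F ≃+* F) F (F →ₗ[ZMod 2] F)), ∀ (σ : F ≃+* F) (x : F), b σ x = σ x := by
  classical
  letI : Algebra (ZMod 2) F := ZMod.algebra F 2
  have hfin : Finite (F ≃+* F) :=
    Finite.of_injective (fun σ : F ≃+* F => (σ : F → F)) DFunLike.coe_injective
  letI : Fintype (F ≃+* F) := Fintype.ofFinite _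
  let v : (F ≃+* F) → (F →ₗ[ZMod 2] F) := fun σ =>
    AddMonoidHom.toZModLinearMap 2 (σ : F →+* F).toAddMonoidHom
  have hv : ∀ (σ : F ≃+* F) (x : F), v σ x = σ x := fun σ x => rfl
  have hli0 : LinearIndependent F (fun σ : F ≃+* F => ((σ : F →+* F) : F → F)) := by
    have h1 := linearIndependent_monoidHom F F
    have hinj : Function.Injective (fun σ : F ≃+* F => ((σ : F →+* F) : F →* F)) := by
      intro σ τ h
      ext x
      exact DFunLike.congr_fun h x
    exact h1.comp _ hinj
  let ι : (F →ₗ[ZMod 2] F) →ₗ[F] (F → F) :=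
    { toFun := fun f => f
      map_add' := fun f g => rfl
      map_smul' := fun c f => rfl }
  have hli : LinearIndependent F v := by
    apply LinearIndependent.of_comp ι
    exact hli0
  let e : (F ≃ₐ[ZMod 2] F) ≃ (F ≃+* F) :=
    { toFun := fun σ => σ.toRingEquiv
      invFun := fun σ => AlgEquiv.ofRingEquiv (f := σ) (fun r => by
        have : ((σ : F →+* F).comp (algebraMap (ZMod 2) F)) = algebraMap (ZMod 2) F :=
          Subsingleton.elim _ _
        exact DFunLike.congr_fun this r)
      left_inv := fun σ => by ext x; rfl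
      right_inv := fun σ => by ext x; rfl }
  have hcard : Fintype.card (F ≃+* F) = finrank F (F →ₗ[ZMod 2] F) := by
    rw [Module.finrank_linearMap_self, ← IsGalois.card_aut_eq_finrank (ZMod 2) F,
      Nat.card_congr e, Nat.card_eq_fintype_card]
  haveI : Nonempty (F ≃+* F) := ⟨RingEquiv.refl F⟩
  refine ⟨inferInstance, inferInstance, basisOfLinearIndependentOfCardEqFinrank hli hcard, ?_⟩
  intro σ x
  rw [coe_basisOfLinearIndependentOfCardEqFinrank]
  exact hv σ x


/-- For a finite field `F` of characteristic 2, the automorphisms of `F`, viewed as additive maps `F → F`, are linearly independent over `F` (acting on values) every additive endomorphism of `F` is an `F`-linear combination of them, and every biadditive map `F → F → F` is an `F`-combination of the maps `(x, y) ↦ σ(x) τ(y)`. -/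
theorem result {F : Type*} [Field F] [Fintype F] [CharP F 2] :
    LinearIndependent F (fun σ : F ≃+* F => ((σ : F →+* F) : F → F)) ∧
      (∀ f : F →+ F, ∃ (s : Finset (F ≃+* F)) (c : (F ≃+* F) → F), ∀ x : F, f x = ∑ σ ∈ s, c σ * σ x) ∧
      ∀ B : F →+ F →+ F, ∃ (s : Finset ((F ≃+* F) × (F ≃+* F))) (c : (F ≃+* F) × (F ≃+* F) → F),
        ∀ x y : F, B x y = ∑ p ∈ s, c p * (p.1 x * p.2 y) := by
  classical
  obtain ⟨_, _, b, hb⟩ := aux_basis (F := F)
  have part2 : ∀ f : F →+ F, ∃ c : (F ≃+* F) → F, ∀ x : F, f x = ∑ σ, c σ * σ x := by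
    intro f
    refine ⟨fun σ => b.repr (AddMonoidHom.toZModLinearMap 2 f) σ, fun x => ?_⟩
    have h1 := b.sum_repr (AddMonoidHom.toZModLinearMap 2 f)
    have h2 := DFunLike.congr_fun h1 x
    rw [LinearMap.sum_apply] at h2
    simp only [LinearMap.smul_apply, hb, smul_eq_mul] at h2
    rw [h2]; rfl
  refine ⟨?_, ?_, ?_⟩
  · have h1 := linearIndependent_monoidHom F F
    have hinj : Function.Injective (fun σ : F ≃+* F => ((σ : F →+* F) : F →* F)) := by
      intro σ τ h
      ext x
      exact DFunLike.congr_fun h x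
    exact h1.comp _ hinj
  · intro f
    obtain ⟨c, hc⟩ := part2 f
    exact ⟨Finset.univ, c, hc⟩
  · intro B
    let C : (F ≃+* F) → (F →+ F) := fun τ =>
      { toFun := fun x => b.repr (AddMonoidHom.toZModLinearMap 2 (B x)) τ
        map_zero' := by
          have : AddMonoidHom.toZModLinearMap 2 (B 0) = 0 := by
            rw [map_zero]; rfl
          rw [this, map_zero]; rfl
        map_add' := fun x y => by
          have : AddMonoidHom.toZModLinearMap 2 (B (x + y)) =
              AddMonoidHom.toZModLinearMap 2 (B x) + AddMonoidHom.toZModLinearMap 2 (B y) := by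
            rw [map_add]; rfl
          rw [this, map_add]; rfl }
    have hC : ∀ x y : F, B x y = ∑ τ, C τ x * τ y := by
      intro x y
      have h1 := b.sum_repr (AddMonoidHom.toZModLinearMap 2 (B x))
      have h2 := DFunLike.congr_fun h1 y
      rw [LinearMap.sum_apply] at h2
      simp only [LinearMap.smul_apply, hb, smul_eq_mul] at h2
      exact h2.symm
    choose d hd using fun τ => part2 (C τ)
    refine ⟨Finset.univ, fun p => d p.2 p.1, fun x y => ?_⟩
    rw [hC x y, ← Finset.univ_product_univ, Finset.sum_product_right]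
    apply Finset.sum_congr rfl
    intro τ _
    rw [hd τ x, Finset.sum_mul]
    apply Finset.sum_congr rfl
    intro σ _
    ring

end Cfsg.Agent.S1140
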