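import Cfsg.Statements.S1142
import Cfsg.Agent.Lib.Helper61.FHMult
import Cfsg.Agent.Lib.Helper61.FHBN
import Cfsg.Agent.Lib.Helper9.FHTrig2
import Cfsg.Agent.Lib.Helper71.FHNT

set_option autoImplicit false
open Cfsg

namespace Cfsg.Agent.S1142

open Cfsg.Agent.Lib.Helper61.FH Matrix Polynomial

/-- Feit–Higman: if a finite group has a (B,N)-pair of rank 2, its Weyl group `N/(B ⊓ N)` has order 4, 6, 8, 12 or 16. -/
theorem result {G : Type*} [Group G] [Finite G] (P : Cfsg.BNPair G)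
    (h2 : P.rank = 2) :
    ((P.B ⊓ P.N).subgroupOf P.N).index ∈ ({4, 6, 8, 12, 16} : Set ℕ) := by
  obtain ⟨m, a, b, A₁, A₂, d, hidx⟩ := Cfsg.Agent.Lib.Helper61.FH.exists_data P h2
  have hodd : m % 2 = 1 → a = b := fun h => Cfsg.Agent.Lib.Helper54.FH.Data.eq_of_odd d h
  have hoddR : m % 2 = 1 → (a : ℝ) = b := fun h => by rw [hodd h]
  have ha : (2 : ℝ) ≤ a := by exact_mod_cast d.ha
  have hb : (2 : ℝ) ≤ b := by exact_mod_cast d.hb
  have ha0 : (0 : ℝ) < a := by linarith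
  have hb0 : (0 : ℝ) < b := by linarith
  have hm : m ∈ ({2, 3, 4, 6, 8} : Set ℕ) := by
    refine Cfsg.Agent.Lib.Helper71.FH.nt m a b d.hm d.ha d.hb hodd (fun j hj hjm => ?_)
    set x := xj (a : ℝ) b m j with hx
    have hlt : x ^ 2 < 4 * a * b := Cfsg.Agent.Lib.Helper9.FH.xj_sq_lt a b ha0 hb0 m j hj hjm
    have hroot := Cfsg.Agent.Lib.Helper9.FH.mu_root (a : ℝ) b ha0 hb0 m j hj hjm hoddR
    have hx1 : x ≠ (a : ℝ) * b + 1 := by
      intro h
      rw [h] at hlt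
      nlinarith [sq_nonneg ((a : ℝ) * b - 1)]
    have hx2 : x ≠ -((a : ℝ) + b) := by
      intro h
      rw [h] at hlt
      nlinarith [sq_nonneg ((a : ℝ) - b)]
    obtain ⟨D, hD, hDS⟩ := Cfsg.Agent.Lib.Helper61.FH.mult_formula d x hroot hx1 hx2
    have hS := Cfsg.Agent.Lib.Helper9.FH.Ssum_formula (a : ℝ) b ha0 hb0 m j hj hjm hoddR
    rw [← hx] at hS
    have := d.ne
    have hN : (0 : ℝ) < Fintype.card (Ch P) := by exact_mod_cast Fintype.card_pos
    refine ⟨(D * (2 * m) : ℚ) / (4 * Fintype.card (Ch P)), ?_⟩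
    push_cast
    rw [div_mul_eq_mul_div, eq_div_iff (by positivity)]
    calc (4 * (a : ℝ) * b - x ^ 2) * (4 * Fintype.card (Ch P))
        = (4 * (a : ℝ) * b - x ^ 2) * (D * Ssum a b x m) := by rw [hDS]
      _ = D * (Ssum a b x m * (4 * (a : ℝ) * b - x ^ 2)) := by ring
      _ = _ := by rw [hS]; ring
  rw [hidx]
  simp only [Set.mem_insert_iff, Set.mem_singleton_iff] at hm ⊢
  omega

end Cfsg.Agent.S1142
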