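import Cfsg.Statements.S1160
import Cfsg.Agent.S0126
import Cfsg.Agent.Lib.Helper67.PGroupAux
import Cfsg.Agent.Lib.Helper1.Tools

set_option autoImplicit false
open Cfsg

namespace Cfsg.Agent.S1160

open Cfsg.Agent.Lib

section ops
variable {P E : Type*} [Group P] [AddCommGroup E] [DistribMulAction P E]

/-- the partial trace `∑_{i<m} u^i • e` -/
def sg (u : P) (m : ℕ) (e : E) : E := ∑ i ∈ Finset.range m, u ^ i • e

theorem smul_sg (u : P) (m : ℕ) (hu : u ^ m = 1) (e : E) : u • sg u m e = sg u m e := by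
  unfold sg
  rw [Finset.smul_sum]
  have h1 : ∀ i, u • u ^ i • e = u ^ (i + 1) • e := by
    intro i; rw [smul_smul, pow_succ']
  simp only [h1]
  have h2 := Finset.sum_range_succ (fun i => u ^ i • e) m
  have h3 := Finset.sum_range_succ' (fun i => u ^ i • e) m
  rw [h2] at h3
  simp only [hu, pow_zero] at h3
  exact (add_right_cancel h3).symm

theorem sg_of_fixed (u : P) (m : ℕ) (e : E) (h : u • e = e) : sg u m e = m • e := by
  unfold sg
  have h1 : ∀ i : ℕ, u ^ i • e = e := by
    intro i
    induction i with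
    | zero => simp
    | succ n ih => rw [pow_succ, mul_smul, h, ih]
  simp [h1]

theorem sg_add (u : P) (m : ℕ) (a b : E) : sg u m (a + b) = sg u m a + sg u m b := by
  unfold sg
  simp [smul_add, Finset.sum_add_distrib]

theorem sg_sub (u : P) (m : ℕ) (a b : E) : sg u m (a - b) = sg u m a - sg u m b := by
  unfold sg
  simp [smul_sub, Finset.sum_sub_distrib]

theorem sg_smul_of_commute (u g : P) (hc : Commute g u) (m : ℕ) (e : E) :
    sg u m (g • e) = g • sg u m e := by
  unfold sg
  rw [Finset.smul_sum]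
  apply Finset.sum_congr rfl
  intro i _
  rw [smul_smul, smul_smul, (hc.pow_right i).eq]

theorem sg_sub_smul (u : P) (m : ℕ) (hu : u ^ m = 1) (e : E) : sg u m (e - u • e) = 0 := by
  rw [sg_sub, sg_smul_of_commute u u (Commute.refl u), smul_sg u m hu, sub_self]

/-- if `w` is fixed by `c * t` with `c` commuting with `t`, the trace of `t` is the trace of `c⁻¹` -/
theorem sg_eq_sg_inv (t c : P) (hc : Commute c t) (m : ℕ) (w : E) (h : (c * t) • w = w) :
    sg t m w = sg c⁻¹ m w := by
  unfold sg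
  apply Finset.sum_congr rfl
  intro i _
  have h1 : ∀ i : ℕ, (c * t) ^ i • w = w := by
    intro i
    induction i with
    | zero => simp
    | succ n ih => rw [pow_succ, mul_smul, h, ih]
  have h2 := h1 i
  rw [hc.mul_pow, mul_smul] at h2
  calc t ^ i • w = (c⁻¹) ^ i • (c ^ i • t ^ i • w) := by
        rw [smul_smul, inv_pow, inv_mul_cancel, one_smul]
    _ = (c⁻¹) ^ i • w := by rw [h2]

end ops

section main
variable {P E : Type*} [Group P] [Finite P] [AddCommGroup E] [Finite E] [DistribMulAction P E]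
  [FaithfulSMul P E]

theorem central_fpf {p : ℕ} [Fact p.Prime] (hP : IsPGroup p P)
    (hinv : ∀ (k : ℕ) (e : E), (p ^ k) • e = 0 → e = 0)
    (hconst : ∀ a b : E, a ≠ 0 → b ≠ 0 →
      Nat.card (MulAction.stabilizer P a) = Nat.card (MulAction.stabilizer P b))
    (z : P) (hz : z ∈ Subgroup.center P) (hz1 : z ≠ 1) (a : E) (ha : z • a = a) : a = 0 := by
  by_contra ha0
  obtain ⟨k, hk⟩ := (IsPGroup.iff_orderOf.mp hP) z
  have hzm : z ^ (p ^ k) = 1 := by rw [← hk]; exact pow_orderOf_eq_one z
  obtain ⟨e, he⟩ : ∃ e : E, z • e ≠ e := by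
    by_contra hall
    push Not at hall
    exact hz1 (FaithfulSMul.eq_of_smul_eq_smul (α := E) (fun e => by rw [hall e, one_smul]))
  obtain ⟨b, hb⟩ : ∃ b, b = e - z • e := ⟨_, rfl⟩
  have hb0 : b ≠ 0 := by rw [hb]; exact sub_ne_zero.mpr (Ne.symm he)
  have hsb : sg z (p ^ k) b = 0 := by rw [hb]; exact sg_sub_smul z _ hzm e
  have hzb : z • b ≠ b := by
    intro h
    have := sg_of_fixed z (p ^ k) b h
    rw [hsb] at this
    exact hb0 (hinv k b this.symm)
  have hcomm : ∀ g : P, Commute g z := fun g => Subgroup.mem_center_iff.mp hz g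
  have key : ∀ g : P, g • (a + b) = a + b → g • a = a := by
    intro g hg
    obtain ⟨d, hd⟩ : ∃ d, d = g • a - a := ⟨_, rfl⟩
    have hd' : d = b - g • b := by
      rw [smul_add] at hg
      rw [hd, sub_eq_sub_iff_add_eq_add, hg, add_comm]
    have hzd : z • d = d := by
      rw [hd, smul_sub, smul_smul, ← (hcomm g).eq, mul_smul, ha]
    have hsd : sg z (p ^ k) d = 0 := by
      rw [hd', sg_sub, sg_smul_of_commute z g (hcomm g), hsb, smul_zero, sub_zero]
    have := sg_of_fixed z (p ^ k) d hzd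
    rw [hsd] at this
    have h0 := hinv k d this.symm
    rw [hd] at h0
    exact sub_eq_zero.mp h0
  have hv0 : a + b ≠ 0 := by
    intro h
    apply hzb
    have : b = -a := by rw [eq_neg_iff_add_eq_zero, add_comm]; exact h
    rw [this, smul_neg, ha]
  have hle : MulAction.stabilizer P (a + b) ≤ MulAction.stabilizer P a := fun g hg => key g hg
  have heq : MulAction.stabilizer P (a + b) = MulAction.stabilizer P a :=
    Subgroup.eq_of_le_of_card_ge hle (by rw [hconst _ _ hv0 ha0])
  have hzv : z ∈ MulAction.stabilizer P (a + b) := by rw [heq]; exact ha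
  have hzv' : z • (a + b) = a + b := hzv
  rw [smul_add, ha] at hzv'
  exact hzb (add_left_cancel hzv')

theorem comm_mem_zpowers {p : ℕ} [Fact p.Prime] (hP : IsPGroup p P) (N : Subgroup P) [N.Normal]
    (hN : Nat.card N = p ^ 2) (z : P) (hzN : z ∈ N) (hz : z ∈ Subgroup.center P)
    (hzo : orderOf z = p) (t : P) (ht : t ∈ N) (h : P) :
    h * t * h⁻¹ * t⁻¹ ∈ Subgroup.zpowers z := by
  have hp : p.Prime := Fact.out
  have hZn : (Subgroup.zpowers z).Normal := by
    constructor
    intro n hn g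
    have : g * n * g⁻¹ = n := by
      have hnc : n ∈ Subgroup.center P := (Subgroup.zpowers_le.mpr hz) hn
      rw [(Subgroup.mem_center_iff.mp hnc g), mul_assoc, mul_inv_cancel, mul_one]
    rw [this]; exact hn
  have hcard := Helper1.card_map_mk_of_le (Subgroup.zpowers z) (H := N) (Subgroup.zpowers_le.mpr hzN)
  rw [Nat.card_zpowers, hzo, hN, pow_two] at hcard
  have hcard' : Nat.card (N.map (QuotientGroup.mk' (Subgroup.zpowers z))) = p :=
    Nat.eq_of_mul_eq_mul_right hp.pos hcard
  have hn' : (N.map (QuotientGroup.mk' (Subgroup.zpowers z))).Normal :=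
    Subgroup.Normal.map inferInstance _ (QuotientGroup.mk'_surjective _)
  have hc := Helper67.le_center_of_normal_card_eq
    (hP.to_quotient (Subgroup.zpowers z)) _ hcard'
  have h1 := hc (Subgroup.mem_map_of_mem (QuotientGroup.mk' (Subgroup.zpowers z)) ht)
  have h2 := Subgroup.mem_center_iff.mp h1 (QuotientGroup.mk' (Subgroup.zpowers z) h)
  rw [← QuotientGroup.eq_one_iff]
  have h3 : ((h * t * h⁻¹ * t⁻¹ : P) : P ⧸ Subgroup.zpowers z) =
      (QuotientGroup.mk' (Subgroup.zpowers z) h) * (QuotientGroup.mk' (Subgroup.zpowers z) t) *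
      (QuotientGroup.mk' (Subgroup.zpowers z) h)⁻¹ * (QuotientGroup.mk' (Subgroup.zpowers z) t)⁻¹ := rfl
  rw [h3, h2]
  group

theorem isCyclic_of_const {p : ℕ} [Fact p.Prime] (hp2 : p ≠ 2) (hP : IsPGroup p P)
    (hinv : ∀ (k : ℕ) (e : E), (p ^ k) • e = 0 → e = 0)
    (hconst : ∀ a b : E, a ≠ 0 → b ≠ 0 →
      Nat.card (MulAction.stabilizer P a) = Nat.card (MulAction.stabilizer P b)) : IsCyclic P := by
  have hp : p.Prime := Fact.out
  have hinv1 : ∀ e : E, p • e = 0 → e = 0 := fun e he => hinv 1 e (by rwa [pow_one])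
  by_contra hnc
  obtain ⟨N, hNn, ⟨hNc, hNe⟩, hNcard⟩ := Cfsg.Agent.S0126.result hp2 hP hnc
  obtain ⟨e₀, he₀⟩ : ∃ e : E, e ≠ 0 := by
    by_contra hall
    push Not at hall
    apply hnc
    have : Subsingleton P := ⟨fun g h => FaithfulSMul.eq_of_smul_eq_smul (α := E)
      (fun e => by rw [hall (g • e), hall (h • e)])⟩
    infer_instance
  have hN1 : N ≠ ⊥ := by
    rintro rfl
    rw [Subgroup.card_bot] at hNcard
    have := hp.two_le
    nlinarith
  obtain ⟨z, hzN, hzc, hz1⟩ := Helper67.exists_mem_center_of_normal hP N hN1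
  have hzp : z ^ p = 1 := hNe z hzN
  have hzo : orderOf z = p := orderOf_eq_prime hzp hz1
  obtain ⟨t₀, ht₀N, ht₀⟩ : ∃ t ∈ N, t ∉ Subgroup.zpowers z := by
    by_contra hall
    push Not at hall
    have := Subgroup.card_le_of_le (show N ≤ Subgroup.zpowers z from hall)
    rw [hNcard, Nat.card_zpowers, hzo] at this
    have := hp.two_le
    nlinarith
  have hC := central_fpf (E := E) hP hinv hconst
  have hZc : ∀ c ∈ Subgroup.zpowers z, c ∈ Subgroup.center P := fun c hc =>
    (Subgroup.zpowers_le.mpr hzc) hc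
  have hZp : ∀ c ∈ Subgroup.zpowers z, c ^ p = 1 := fun c hc =>
    hNe c ((Subgroup.zpowers_le.mpr hzN) hc)
  -- traces of central elements vanish
  have hT0 : ∀ c ∈ Subgroup.zpowers z, c ≠ 1 → ∀ w : E, sg c p w = 0 := by
    intro c hc hc1 w
    exact hC c (hZc c hc) hc1 _ (smul_sg c p (hZp c hc) w)
  have hid : ∑ j ∈ Finset.range p, sg (t₀ * z ^ j) p e₀ = p • e₀ := by
    have h1 : ∀ j i : ℕ, (t₀ * z ^ j) ^ i • e₀ = t₀ ^ i • ((z ^ i) ^ j • e₀) := by
      intro j i
      have hc0 : Commute t₀ z := Subgroup.mem_center_iff.mp hzc t₀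
      have hc : Commute t₀ (z ^ j) := hc0.pow_right j
      rw [hc.mul_pow, mul_smul, ← pow_mul, ← pow_mul, mul_comm j i]
    calc ∑ j ∈ Finset.range p, sg (t₀ * z ^ j) p e₀
        = ∑ j ∈ Finset.range p, ∑ i ∈ Finset.range p, t₀ ^ i • ((z ^ i) ^ j • e₀) := by
          simp only [sg, h1]
      _ = ∑ i ∈ Finset.range p, ∑ j ∈ Finset.range p, t₀ ^ i • ((z ^ i) ^ j • e₀) := Finset.sum_comm
      _ = ∑ i ∈ Finset.range p, t₀ ^ i • sg (z ^ i) p e₀ := by
          simp only [sg, Finset.smul_sum]
      _ = p • e₀ := by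
          rw [Finset.sum_eq_single 0]
          · rw [pow_zero, pow_zero, one_smul, sg_of_fixed 1 p e₀ (one_smul _ _)]
          · intro i hi hi0
            rw [hT0 (z ^ i) (Subgroup.pow_mem _ (Subgroup.mem_zpowers z) i) _ e₀, smul_zero]
            exact pow_ne_one_of_lt_orderOf hi0 (by rw [hzo]; exact Finset.mem_range.mp hi)
          · intro h
            exact absurd (Finset.mem_range.mpr hp.pos) h
  obtain ⟨j, hj⟩ : ∃ j, sg (t₀ * z ^ j) p e₀ ≠ 0 := by
    by_contra hall
    push Not at hall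
    apply he₀
    apply hinv1
    rw [← hid]
    exact Finset.sum_eq_zero (fun j _ => hall j)
  obtain ⟨t, ht⟩ : ∃ t, t = t₀ * z ^ j := ⟨_, rfl⟩
  obtain ⟨a, ha⟩ : ∃ a, a = sg t p e₀ := ⟨_, rfl⟩
  have htN : t ∈ N := by rw [ht]; exact N.mul_mem ht₀N (N.pow_mem hzN j)
  have htp : t ^ p = 1 := hNe t htN
  have hta : t • a = a := by rw [ha]; exact smul_sg t p htp e₀
  have ha0 : a ≠ 0 := by rw [ha, ht]; exact hj
  have ht1 : t ≠ 1 := by
    intro h
    apply ht₀
    have : t₀ = (z ^ j)⁻¹ := by rw [eq_inv_iff_mul_eq_one, ← ht, h]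
    rw [this]
    exact Subgroup.inv_mem _ (Subgroup.pow_mem _ (Subgroup.mem_zpowers z) j)
  have htc : t ∉ Subgroup.center P := fun h => ha0 (hC t h ht1 a hta)
  obtain ⟨g, hg⟩ : ∃ g : P, g * t ≠ t * g := by
    by_contra hall
    push Not at hall
    exact htc (Subgroup.mem_center_iff.mpr hall)
  -- the commutator map
  obtain ⟨ch, hch⟩ : ∃ ch : P → P, ∀ h, ch h = h * t * h⁻¹ * t⁻¹ := ⟨_, fun _ => rfl⟩
  have hchZ : ∀ h, ch h ∈ Subgroup.zpowers z := by
    intro h; rw [hch]; exact comm_mem_zpowers hP N hNcard z hzN hzc hzo t htN h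
  have hcht : ∀ h, ch h * t = h * t * h⁻¹ := by
    intro h; rw [hch]; group
  have hcomm : ∀ c ∈ Subgroup.zpowers z, ∀ x : P, Commute c x := fun c hc x =>
    (Subgroup.mem_center_iff.mp (hZc c hc) x).symm
  obtain ⟨c, hc⟩ : ∃ c, c = ch g := ⟨_, rfl⟩
  have hcZ : c ∈ Subgroup.zpowers z := by rw [hc]; exact hchZ g
  have hc1 : c ≠ 1 := by
    intro h
    apply hg
    have := hcht g
    rw [← hc, h, one_mul] at this
    calc g * t = (g * t * g⁻¹) * g := by group
      _ = t * g := by rw [← this]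
  -- vanishing of the trace of `t`
  have hT : ∀ c' ∈ Subgroup.zpowers z, c' ≠ 1 → ∀ w : E, (c' * t) • w = w → sg t p w = 0 := by
    intro c' hc' hc'1 w hw
    rw [sg_eq_sg_inv t c' (hcomm c' hc' t) p w hw]
    exact hT0 c'⁻¹ (Subgroup.inv_mem _ hc') (by simpa using hc'1) w
  obtain ⟨a', ha'⟩ : ∃ a', a' = g • a := ⟨_, rfl⟩
  have hfix : ∀ (h : P) (u : P) (w : E), u • w = w → (h * u * h⁻¹) • (h • w) = h • w := by
    intro h u w hw
    rw [smul_smul, inv_mul_cancel_right, mul_smul, hw]
  have hcta' : (c * t) • a' = a' := by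
    rw [hc, hcht, ha']; exact hfix g t a hta
  have hsa : sg t p a = p • a := sg_of_fixed t p a hta
  have hsa' : sg t p a' = 0 := hT c hcZ hc1 a' hcta'
  have key : ∀ h : P, h • (a + a') = a + a' → (ch h = 1 ∧ h • a = a) ∨ c * ch h = 1 := by
    intro h hh
    have h1 : (ch h * t) • (h • a) = h • a := by rw [hcht]; exact hfix h t a hta
    have h2 : (c * ch h * t) • (h • a') = h • a' := by
      have : c * ch h * t = h * (c * t) * h⁻¹ := by
        rw [mul_assoc, hcht, ← mul_assoc h c t, ← (hcomm c hcZ h).eq]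
        group
      rw [this]; exact hfix h (c * t) a' hcta'
    have h3 : sg t p (h • a) + sg t p (h • a') = p • a := by
      rw [← sg_add, ← smul_add, hh, sg_add, hsa, hsa', add_zero]
    by_cases hh1 : ch h = 1
    · left
      refine ⟨hh1, ?_⟩
      rw [hh1, one_mul] at h1
      rw [hh1, mul_one] at h2
      rw [sg_of_fixed t p _ h1, hT c hcZ hc1 _ h2, add_zero] at h3
      have : p • (h • a - a) = 0 := by rw [smul_sub, h3, sub_self]
      exact sub_eq_zero.mp (hinv1 _ this)
    · right
      by_contra hh2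
      rw [hT (ch h) (hchZ h) hh1 _ h1,
        hT (c * ch h) (Subgroup.mul_mem _ hcZ (hchZ h)) hh2 _ h2, add_zero] at h3
      exact ha0 (hinv1 a h3.symm)
  have hchsq : ∀ h, ch (h * h) = ch h * ch h := by
    intro h
    have h1 : ch (h * h) * t = ch h * ch h * t := by
      calc ch (h * h) * t = h * h * t * (h * h)⁻¹ := hcht _
        _ = h * (h * t * h⁻¹) * h⁻¹ := by group
        _ = h * (ch h * t) * h⁻¹ := by rw [hcht]
        _ = ch h * (h * t * h⁻¹) := by
            rw [← mul_assoc h, ← (hcomm _ (hchZ h) h).eq]; simp only [mul_assoc]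
        _ = ch h * (ch h * t) := by rw [hcht]
        _ = ch h * ch h * t := by rw [mul_assoc]
    exact mul_right_cancel h1
  have hcsq : c * c ≠ 1 := by
    intro h
    apply hc1
    have h1 : orderOf c ∣ 2 := orderOf_dvd_of_pow_eq_one (by rw [pow_two]; exact h)
    have h2 : orderOf c ∣ p := orderOf_dvd_of_pow_eq_one (hZp c hcZ)
    have h3 : Nat.Coprime 2 p := (Nat.coprime_primes Nat.prime_two hp).mpr (Ne.symm hp2)
    exact orderOf_eq_one_iff.mp (Nat.eq_one_of_dvd_coprimes h3 h1 h2)
  have key2 : ∀ h : P, h • (a + a') = a + a' → h • a = a := by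
    intro h hh
    rcases key h hh with ⟨-, h1⟩ | h1
    · exact h1
    · exfalso
      have hh2 : (h * h) • (a + a') = a + a' := by rw [mul_smul, hh, hh]
      have hci : ch h = c⁻¹ := (inv_eq_of_mul_eq_one_right h1).symm
      rcases key (h * h) hh2 with ⟨h2, -⟩ | h2
      · rw [hchsq, hci] at h2
        apply hcsq
        have : (c * c)⁻¹ = 1 := by rw [mul_inv_rev]; exact h2
        exact inv_eq_one.mp this
      · rw [hchsq, hci, ← mul_assoc, mul_inv_cancel, one_mul] at h2
        exact hc1 (by simpa using h2)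
  have hv0 : a + a' ≠ 0 := by
    intro h
    have h1 : sg t p (a + a') = p • a := by rw [sg_add, hsa, hsa', add_zero]
    rw [h] at h1
    have h2 : sg t p (0 : E) = 0 := by simp [sg]
    rw [h2] at h1
    exact ha0 (hinv1 a h1.symm)
  have hle : MulAction.stabilizer P (a + a') ≤ MulAction.stabilizer P a := fun h hh => key2 h hh
  have heq : MulAction.stabilizer P (a + a') = MulAction.stabilizer P a :=
    Subgroup.eq_of_le_of_card_ge hle (by rw [hconst _ _ hv0 ha0])
  have htv : t ∈ MulAction.stabilizer P (a + a') := by rw [heq]; exact hta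
  have htv' : t • (a + a') = a + a' := htv
  rw [smul_add, hta] at htv'
  have hta' : t • a' = a' := add_left_cancel htv'
  have hca' : c • a' = a' := by
    have := hcta'
    rwa [mul_smul, hta'] at this
  have ha'0 : a' = 0 := hC c (hZc c hcZ) hc1 a' hca'
  apply ha0
  rw [ha'] at ha'0
  have := congrArg (fun w => g⁻¹ • w) ha'0
  simpa using this

end main

/-- Let `p ≠ 2` be prime and `P` a finite `p`-group acting faithfully by additive automorphisms on a finite elementary abelian `q`-group `E` (`q` prime), such that `|P_a|` is the same for all `a ≠ 0`. Then `P` is cyclic and every non-identity element of `P` fixes only `0`. -/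
theorem result {P E : Type*} [Group P] [Finite P]
    [AddCommGroup E] [Finite E] [DistribMulAction P E] [FaithfulSMul P E]
    {p q : ℕ} [Fact p.Prime] (hp2 : p ≠ 2) (hP : IsPGroup p P) (hq : q.Prime) (hE : ∀ e : E, q • e = 0)
    (hconst : ∀ a b : E, a ≠ 0 → b ≠ 0 →
      Nat.card (MulAction.stabilizer P a) = Nat.card (MulAction.stabilizer P b)) :
    IsCyclic P ∧ ∀ g : P, g ≠ 1 → ∀ a : E, g • a = a → a = 0 := by
  have hp : p.Prime := Fact.out
  by_cases hpq : p = q
  · -- `P` is trivial
    subst hpq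
    have htriv : ∀ g : P, g = 1 := by
      by_cases hE0 : ∀ e : E, e = 0
      · intro g
        exact FaithfulSMul.eq_of_smul_eq_smul (α := E) (fun e => by rw [hE0 (g • e), hE0 ((1 : P) • e)])
      · push Not at hE0
        obtain ⟨e, he⟩ := hE0
        have hdvd : p ∣ Nat.card E := by
          have h1 : addOrderOf e = p := addOrderOf_eq_prime (hE e) he
          rw [← h1]; exact addOrderOf_dvd_natCard e
        have h0 : (0 : E) ∈ MulAction.fixedPoints P E := fun g => smul_zero g
        obtain ⟨a, ha, ha0⟩ := hP.exists_fixed_point_of_prime_dvd_card_of_fixed_point E hdvd h0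
        have hstab : MulAction.stabilizer P a = ⊤ := by
          rw [eq_top_iff]; intro g _; exact ha g
        intro g
        apply FaithfulSMul.eq_of_smul_eq_smul (α := E)
        intro b
        rw [one_smul]
        by_cases hb : b = 0
        · rw [hb, smul_zero]
        · have h1 := hconst b a hb (Ne.symm ha0)
          rw [hstab, Subgroup.card_top] at h1
          have h2 : MulAction.stabilizer P b = ⊤ := Subgroup.eq_top_of_card_eq _ h1
          have : g ∈ MulAction.stabilizer P b := h2 ▸ Subgroup.mem_top g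
          exact this
    have : Subsingleton P := ⟨fun g h => by rw [htriv g, htriv h]⟩
    exact ⟨inferInstance, fun g hg => absurd (htriv g) hg⟩
  · have hinv : ∀ (k : ℕ) (e : E), (p ^ k) • e = 0 → e = 0 := by
      intro k e he
      have h1 : addOrderOf e ∣ p ^ k := addOrderOf_dvd_of_nsmul_eq_zero he
      have h2 : addOrderOf e ∣ q := addOrderOf_dvd_of_nsmul_eq_zero (hE e)
      have h3 : Nat.Coprime (p ^ k) q := Nat.Coprime.pow_left _ ((Nat.coprime_primes hp hq).mpr hpq)
      exact AddMonoid.addOrderOf_eq_one_iff.mp (Nat.eq_one_of_dvd_coprimes h3 h1 h2)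
    have hcyc := isCyclic_of_const (E := E) hp2 hP hinv hconst
    refine ⟨hcyc, ?_⟩
    intro g hg a ha
    refine central_fpf hP hinv hconst g ?_ hg a ha
    rw [Subgroup.mem_center_iff]
    intro h
    obtain ⟨x, hx⟩ := hcyc.exists_generator
    obtain ⟨m, rfl⟩ := Subgroup.mem_zpowers_iff.mp (hx g)
    obtain ⟨n, rfl⟩ := Subgroup.mem_zpowers_iff.mp (hx h)
    rw [← zpow_add, ← zpow_add, add_comm]

end Cfsg.Agent.S1160
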