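import Cfsg.Statements.S1176
import Cfsg.Agent.Lib.Helper25.Isolated

set_option autoImplicit false
open Cfsg

namespace Cfsg.Agent.S1176

open Cfsg.Agent.Lib.Helper25
open scoped commutatorElement

theorem dihedral_conj {G : Type*} [Group G] {z w : G} (hzz : z * z = 1) (hww : w * w = 1) (k : ℕ) :
    ∃ c : G, z * (z * w) ^ k = c * z * c⁻¹ ∨ z * (z * w) ^ k = c * w * c⁻¹ := by
  have hinv : z * (z * w) * z = (z * w)⁻¹ := invol_inverts hzz hww
  generalize ha : z * w = a at hinv
  rcases Nat.even_or_odd' k with ⟨j, hj | hj⟩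
  · refine ⟨(a ^ j)⁻¹, Or.inl ?_⟩
    have h1 := inv_pow_comm hinv hzz j
    rw [inv_inv, ← h1, hj, two_mul, pow_add]
    have : z * a ^ j * z * z * a ^ j = z * a ^ j * (z * z) * a ^ j := by group
    rw [this, hzz]; group
  · refine ⟨(a ^ j)⁻¹, Or.inr ?_⟩
    have h1 := inv_pow_comm hinv hzz j
    rw [inv_inv, ← h1, hj]
    have : z * a ^ j * z * w * a ^ j = z * a ^ j * (z * w) * a ^ j := by group
    rw [this, ha, pow_succ, two_mul, pow_add]
    have hc : Commute (a ^ j) a := (Commute.refl a).pow_left j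
    have : z * (a ^ j * a ^ j * a) = z * a ^ j * (a ^ j * a) := by group
    rw [this, hc.eq]; group


/-- Let x₀ be an involution of the finite group G and D its conjugacy class. Assume (a) for each x ∈ D the subgroup W(x) generated by the members of D commuting with x is a 2-group of nilpotency class at most 2, and (b) the product of two distinct commuting members of D again lies in D. Then for all x, y ∈ D, if xy has even order greater than 2, its order is 4. -/
theorem result {G : Type*} [Group G] [Finite G] (x₀ : G) (hx₀ : orderOf x₀ = 2) (ha : ∀ x : G, IsConj x₀ x → IsPGroup 2 ↥(Subgroup.closure {y : G | IsConj x₀ y ∧ Commute y x}) ∧ ⁅⁅Subgroup.closure {y : G | IsConj x₀ y ∧ Commute y x}, Subgroup.closure {y : G | IsConj x₀ y ∧ Commute y x}⁆, Subgroup.closure {y : G | IsConj x₀ y ∧ Commute y x}⁆ = ⊥) (hb : ∀ x y : G, IsConj x₀ x → IsConj x₀ y → x ≠ y → Commute x y → IsConj x₀ (x * y)) (x y : G) (hx : IsConj x₀ x) (hy : IsConj x₀ y) (heven : Even (orderOf (x * y))) (hgt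 : 2 < orderOf (x * y)) : orderOf (x * y) = 4 := by
  have hinvol : ∀ x : G, IsConj x₀ x → x * x = 1 := by
    intro x hx
    obtain ⟨c, rfl⟩ := isConj_iff.1 hx
    apply conj_sq
    have := pow_orderOf_eq_one x₀
    rwa [hx₀, pow_two] at this
  have hxx := hinvol x hx
  have hyy := hinvol y hy
  obtain ⟨k, hk⟩ := heven
  have hinv : x * (x * y) * x = (x * y)⁻¹ := invol_inverts hxx hyy
  have hinvy : y * (x * y) * y = (x * y)⁻¹ := by
    have hx' : x⁻¹ = x := inv_eq_of_mul_eq_one_left hxx
    have hy' : y⁻¹ = y := inv_eq_of_mul_eq_one_left hyy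
    rw [mul_inv_rev, hx', hy']
    have : y * (x * y) * y = y * x * (y * y) := by group
    rw [this, hyy, mul_one]
  have hu1 : (x * y) ^ k ≠ 1 := pow_ne_one_of_lt_orderOf (by omega) (by omega)
  have huu : (x * y) ^ k * (x * y) ^ k = 1 := by rw [← pow_add, ← hk, pow_orderOf_eq_one]
  have hu' : ((x * y) ^ k)⁻¹ = (x * y) ^ k := inv_eq_of_mul_eq_one_left huu
  have hxu : x * (x * y) ^ k * x = (x * y) ^ k := by rw [inv_pow_comm hinv hxx k, hu']
  have hyu : y * (x * y) ^ k * y = (x * y) ^ k := by rw [inv_pow_comm hinvy hyy k, hu']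
  -- x * u ∈ D
  have hxuD : IsConj x₀ (x * (x * y) ^ k) := by
    obtain ⟨c, hc | hc⟩ := dihedral_conj hxx hyy k
    · rw [hc]; exact hx.trans (isConj_iff.2 ⟨c, rfl⟩)
    · rw [hc]; exact hy.trans (isConj_iff.2 ⟨c, rfl⟩)
  have hne : x ≠ x * (x * y) ^ k := by
    intro h
    apply hu1
    simpa using h.symm
  have hcomm : Commute x (x * (x * y) ^ k) := by
    unfold Commute SemiconjBy
    rw [hxu, ← mul_assoc, hxx, one_mul]
  have huD : IsConj x₀ ((x * y) ^ k) := by
    have := hb x _ hx hxuD hne hcomm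
    rwa [← mul_assoc, hxx, one_mul] at this
  obtain ⟨-, hcl⟩ := ha _ huD
  set W := Subgroup.closure {y_1 : G | IsConj x₀ y_1 ∧ Commute y_1 ((x * y) ^ k)} with hW
  have hxW : x ∈ W := Subgroup.subset_closure ⟨hx, by
    unfold Commute SemiconjBy
    nth_rewrite 2 [← hxu]
    have : x * (x * y) ^ k * x * x = x * (x * y) ^ k * (x * x) := by group
    rw [this, hxx, mul_one]⟩
  have hyW : y ∈ W := Subgroup.subset_closure ⟨hy, by
    unfold Commute SemiconjBy
    nth_rewrite 2 [← hyu]
    have : y * (x * y) ^ k * y * y = y * (x * y) ^ k * (y * y) := by group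
    rw [this, hyy, mul_one]⟩
  have h1 : ⁅⁅x, y⁆, x⁆ ∈ ⁅⁅W, W⁆, W⁆ :=
    Subgroup.commutator_mem_commutator (Subgroup.commutator_mem_commutator hxW hyW) hxW
  rw [hcl, Subgroup.mem_bot] at h1
  have hx' : x⁻¹ = x := inv_eq_of_mul_eq_one_left hxx
  have hy' : y⁻¹ = y := inv_eq_of_mul_eq_one_left hyy
  have h4 : (x * y) ^ 4 = 1 := by
    rw [commutatorElement_def, commutatorElement_def] at h1
    rw [hx', hy'] at h1
    have e : (x * y * x * y)⁻¹ = y * x * y * x := by
      rw [mul_inv_rev, mul_inv_rev, mul_inv_rev, hx', hy']; group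
    rw [e] at h1
    have : x * y * x * y * x * (y * x * y * x) * x = (x * y) ^ 4 * (x * x) := by
      simp only [pow_succ, pow_zero, one_mul, mul_assoc]
    rw [this, hxx, mul_one] at h1
    exact h1
  have hdvd : orderOf (x * y) ∣ 4 := orderOf_dvd_of_pow_eq_one h4
  have hle : orderOf (x * y) ≤ 4 := Nat.le_of_dvd (by norm_num) hdvd
  interval_cases h : orderOf (x * y)
  · omega
  · rfl

end Cfsg.Agent.S1176
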