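import Cfsg.Statements.S1177
import Mathlib

set_option autoImplicit false
open Cfsg

namespace Cfsg.Agent.S1177

theorem mem_conj {G : Type*} [Group G] (A : Subgroup G) (k y : G) :
    y ∈ A.map (MulAut.conj k).toMonoidHom ↔ k⁻¹ * y * k ∈ A := by
  constructor
  · rintro ⟨x, hx, rfl⟩
    have : k⁻¹ * (MulAut.conj k).toMonoidHom x * k = x := by
      simp [MulAut.conj_apply, mul_assoc]
    rw [this]; exact hx
  · intro h
    refine ⟨_, h, ?_⟩
    simp [MulAut.conj_apply, mul_assoc]


/-- Let A be a nontrivial elementary abelian 2-subgroup of a finite group G which is a T.I. set (each conjugate of A meets A trivially or equals A) and which does not commute elementwise with any conjugate of A other than A itself. Then for every a ∈ A, a ≠ 1, every conjugate of A contained in C_G(a) is equal to A (A is weakly closed in C_G(a)). -/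
theorem result {G : Type*} [Group G] [Finite G] (A : Subgroup G) (hA : Cfsg.IsElementaryAbelian 2 A) (hA1 : A ≠ ⊥) (hTI : ∀ g : G, A.map (MulAut.conj g).toMonoidHom ⊓ A = ⊥ ∨ A.map (MulAut.conj g).toMonoidHom = A) (hb : ∀ g : G, (∀ a ∈ A, ∀ b ∈ A.map (MulAut.conj g).toMonoidHom, a * b = b * a) → A.map (MulAut.conj g).toMonoidHom = A) (a : G) (ha : a ∈ A) (ha1 : a ≠ 1) (g : G) (hg : A.map (MulAut.conj g).toMonoidHom ≤ Subgroup.centralizer ({a} : Set G)) : A.map (MulAut.conj g).toMonoidHom = A := by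
  classical
  have hmem : ∀ (k y : G), y ∈ A.map (MulAut.conj k).toMonoidHom ↔ k⁻¹ * y * k ∈ A := mem_conj A
  set B := A.map (MulAut.conj g).toMonoidHom with hB
  -- B normalizes A
  have hBn : ∀ b ∈ B, ∀ x ∈ A, b * x * b⁻¹ ∈ A := by
    intro b hb x hx
    have hba : b * a = a * b := by
      have := hg hb
      rw [Subgroup.mem_centralizer_singleton_iff] at this
      exact this
    have h1 : a ∈ A.map (MulAut.conj b).toMonoidHom ⊓ A := by
      refine ⟨?_, ha⟩
      change a ∈ A.map (MulAut.conj b).toMonoidHom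
      rw [hmem]
      have : b⁻¹ * a * b = a := by rw [mul_assoc, ← hba, ← mul_assoc, inv_mul_cancel, one_mul]
      rw [this]; exact ha
    rcases hTI b with h2 | h2
    · rw [h2, Subgroup.mem_bot] at h1; exact absurd h1 ha1
    · rw [← h2]; exact ⟨x, hx, rfl⟩
  by_cases hcomm : ∀ x ∈ A, ∀ b ∈ B, x * b = b * x
  · exact hb g hcomm
  push Not at hcomm
  obtain ⟨x, hx, b₀, hb₀, hxb⟩ := hcomm
  rcases hTI g with hAB | hAB
  swap
  · exact hAB
  exfalso
  -- TI property for B with respect to conjugation by x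
  have hTIB : (∀ y, y ∈ B → x * y * x⁻¹ ∈ B → y = 1) ∨ (∀ y ∈ B, x * y * x⁻¹ ∈ B) := by
    rcases hTI (g⁻¹ * x * g) with h | h
    · left
      intro y hy hy'
      rw [hB, hmem] at hy hy'
      have h1 : g⁻¹ * (x * y * x⁻¹) * g ∈ A.map (MulAut.conj (g⁻¹ * x * g)).toMonoidHom ⊓ A := by
        refine ⟨?_, hy'⟩
        change _ ∈ A.map (MulAut.conj (g⁻¹ * x * g)).toMonoidHom
        rw [hmem]
        have : (g⁻¹ * x * g)⁻¹ * (g⁻¹ * (x * y * x⁻¹) * g) * (g⁻¹ * x * g) = g⁻¹ * y * g := by group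
        rw [this]; exact hy
      rw [h, Subgroup.mem_bot] at h1
      have h2 : x * y * x⁻¹ = 1 := by
        have := congrArg (fun u => g * u * g⁻¹) h1
        simpa [mul_assoc] using this
      have := congrArg (fun u => x⁻¹ * u * x) h2
      simpa [mul_assoc] using this
    · right
      intro y hy
      rw [hB, hmem] at hy ⊢
      rw [← h, hmem]
      have : (g⁻¹ * x * g)⁻¹ * (g⁻¹ * (x * y * x⁻¹) * g) * (g⁻¹ * x * g) = g⁻¹ * y * g := by group
      rw [this]; exact hy
  have hTIB' : ∀ y, y ∈ B → x * y * x⁻¹ ∈ B → y = 1 := by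
    rcases hTIB with h | h
    · exact h
    · exfalso
      apply hxb
      have h1 : x * b₀ * x⁻¹ * b₀⁻¹ ∈ B ⊓ A := by
        refine ⟨B.mul_mem (h b₀ hb₀) (B.inv_mem hb₀), ?_⟩
        have : x * b₀ * x⁻¹ * b₀⁻¹ = x * (b₀ * x⁻¹ * b₀⁻¹) := by group
        change x * b₀ * x⁻¹ * b₀⁻¹ ∈ A
        rw [this]; exact A.mul_mem hx (hBn b₀ hb₀ _ (A.inv_mem hx))
      rw [hAB, Subgroup.mem_bot] at h1
      have := congrArg (fun u => u * b₀ * x) h1
      simpa [mul_assoc] using this
  -- the injective map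
  let φ : B → A := fun b => ⟨x * (b * x⁻¹ * b⁻¹), A.mul_mem hx (hBn b b.2 _ (A.inv_mem hx))⟩
  have hφ : Function.Injective φ := by
    intro b b' h
    have h1 : (b : G) * x⁻¹ * (b : G)⁻¹ = b' * x⁻¹ * (b' : G)⁻¹ := by
      have := congrArg Subtype.val h
      exact mul_left_cancel this
    have h2 : x * ((b' : G)⁻¹ * b) * x⁻¹ = (b' : G)⁻¹ * b := by
      have h3 : (b' : G)⁻¹ * b * x⁻¹ = x⁻¹ * ((b' : G)⁻¹ * b) := by
        have := congrArg (fun u => (b' : G)⁻¹ * u * b) h1
        simpa [mul_assoc] using this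
      rw [mul_assoc, h3]; group
    have h4 : (b' : G)⁻¹ * b ∈ B := B.mul_mem (B.inv_mem b'.2) b.2
    have h5 := hTIB' _ h4 (by rw [h2]; exact h4)
    apply Subtype.ext
    have := congrArg (fun u => (b' : G) * u) h5
    simpa using this
  have hcard : Nat.card B = Nat.card A := by
    rw [hB]
    exact Nat.card_congr (A.equivMapOfInjective _ (MulAut.conj g).injective).symm.toEquiv
  have hsurj : Function.Surjective φ := by
    have hbij : Function.Bijective φ := (Nat.bijective_iff_injective_and_card φ).2 ⟨hφ, hcard⟩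
    exact hbij.2
  obtain ⟨b, hbx⟩ := hsurj ⟨x, hx⟩
  have h1 : x * ((b : G) * x⁻¹ * (b : G)⁻¹) = x := congrArg Subtype.val hbx
  have h2 : (b : G) * x⁻¹ * (b : G)⁻¹ = 1 := by simpa using h1
  have h3 : x = 1 := by
    have := congrArg (fun u => (b : G)⁻¹ * u * b) h2
    simpa [mul_assoc] using this
  apply hxb
  rw [h3]; simp

end Cfsg.Agent.S1177
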