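import Cfsg.Statements.S1178
import Mathlib

set_option autoImplicit false
open Cfsg

namespace Cfsg.Agent.S1178

/-- Let A be a subgroup of a Sylow 2-subgroup S of the finite group G which is weakly closed in S. If a conjugate g A g⁻¹ commutes elementwise with A, then g A g⁻¹ = A. -/
theorem result {G : Type*} [Group G] [Finite G] (S : Sylow 2 G) (A : Subgroup G) (hW : Cfsg.IsWeaklyClosed A (S : Subgroup G)) (g : G) (hc : ∀ a ∈ A, ∀ b ∈ A.map (MulAut.conj g).toMonoidHom, a * b = b * a) : A.map (MulAut.conj g).toMonoidHom = A := by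
  obtain ⟨hAS, hW⟩ := hW
  have hA2 : IsPGroup 2 A := S.isPGroup'.to_le hAS
  set B := A.map (MulAut.conj g).toMonoidHom with hB
  have hB2 : IsPGroup 2 B := hA2.map _
  have hAB : A ≤ Subgroup.normalizer (B : Set G) := by
    intro a ha
    rw [Subgroup.mem_normalizer_iff]
    intro b
    constructor
    · intro hb
      have := hc a ha b hb
      rw [this, mul_assoc, mul_inv_cancel, mul_one]; exact hb
    · intro hb
      have h1 := hc a ha _ hb
      have h2 : a * b * a⁻¹ = b := by
        have : a * (a * b * a⁻¹) * a⁻¹ = a * b * a⁻¹ := by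
          rw [h1, mul_assoc, mul_inv_cancel, mul_one]
        have h3 : a * (a * b * a⁻¹) * a⁻¹ = a * b * a⁻¹ → a * b * a⁻¹ = b := by
          intro h
          have := congrArg (fun y => a⁻¹ * y * a) h
          simpa [mul_assoc] using this
        exact h3 this
      rwa [h2] at hb
  have hsup : IsPGroup 2 (A ⊔ B : Subgroup G) := IsPGroup.to_sup_of_normal_right' hA2 hB2 hAB
  obtain ⟨Q, hQ⟩ := hsup.exists_le_sylow
  obtain ⟨x, hx⟩ := MulAction.exists_smul_eq G Q S
  have hmem : ∀ y ∈ Q, x * y * x⁻¹ ∈ S := by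
    intro y hy
    rw [← hx]
    exact ⟨y, hy, rfl⟩
  have h1 : A.map (MulAut.conj x).toMonoidHom ≤ S := by
    rintro _ ⟨y, hy, rfl⟩
    exact hmem y (hQ (Subgroup.mem_sup_left hy))
  have h2 : A.map (MulAut.conj (x * g)).toMonoidHom ≤ S := by
    rintro _ ⟨y, hy, rfl⟩
    have : g * y * g⁻¹ ∈ B := ⟨y, hy, rfl⟩
    have h3 := hmem _ (hQ (Subgroup.mem_sup_right this))
    have e : (MulAut.conj (x * g)).toMonoidHom y = x * (g * y * g⁻¹) * x⁻¹ := by
      simp [MulAut.conj_apply, mul_assoc]
    rw [e]; exact h3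
  have e1 := hW x h1
  have e2 := hW (x * g) h2
  have e3 : A.map (MulAut.conj (x * g)).toMonoidHom = B.map (MulAut.conj x).toMonoidHom := by
    rw [hB, Subgroup.map_map]
    congr 1
    ext y
    simp [MulAut.conj_apply, mul_assoc]
  rw [e3, ← e1] at e2
  exact Subgroup.map_injective (MulAut.conj x).injective e2

end Cfsg.Agent.S1178
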