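import Cfsg.Statements.S1242
import Cfsg.Agent.Lib.Helper26.Transfer

set_option autoImplicit false
open Cfsg Cfsg.Agent.Lib.Helper26
open scoped IsMulCommutative

namespace Cfsg.Agent.S1242

/-- Let G be a finite group, p a prime and H a subgroup of index prime to p such that any two elements of H of p-power order that are conjugate in G are conjugate in H. Then (O^p(G)·G') ∩ H = O^p(H)·H', where O^p denotes the subgroup generated by the elements of order prime to p. -/
theorem result {G : Type*} [Group G] [Finite G] {p : ℕ} [Fact p.Prime] (H : Subgroup G) (hidx : Nat.Coprime p H.index) (hfus : ∀ g ∈ H, (∃ k : ℕ, orderOf g = p ^ k) → ∀ a : G, a * g * a⁻¹ ∈ H → ∃ h ∈ H, h * g * h⁻¹ = a * g * a⁻¹) : (Cfsg.pResidual p G ⊔ commutator G) ⊓ H = (Cfsg.pResidual p ↥H ⊔ commutator ↥H).map H.subtype := by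
  have hp : p.Prime := Fact.out
  set N : Subgroup H := Cfsg.pResidual p ↥H ⊔ commutator ↥H with hN
  have hNn : N.Normal := Subgroup.Normal.of_commutator_le _ le_sup_right
  have hcomm : IsMulCommutative (H ⧸ N) :=
    Subgroup.Normal.quotient_commutative_iff_commutator_le.mpr le_sup_right
  -- the quotient is a p-group
  have hP : IsPGroup p (H ⧸ N) := by
    intro y
    induction y using QuotientGroup.induction_on with
    | H h =>
    obtain ⟨e, m, hm, hem⟩ := Nat.exists_eq_pow_mul_and_not_dvd (orderOf_pos h).ne' p hp.ne_one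
    refine ⟨e, ?_⟩
    rw [← QuotientGroup.mk_pow, QuotientGroup.eq_one_iff]
    apply (le_sup_left : Cfsg.pResidual p ↥H ≤ N)
    apply Subgroup.subset_closure
    show Nat.Coprime (orderOf (h ^ p ^ e)) p
    rw [orderOf_pow_of_dvd (pow_pos hp.pos e).ne' ⟨m, hem⟩, hem, Nat.mul_div_cancel_left _ (pow_pos hp.pos e)]
    exact ((Nat.Prime.coprime_iff_not_dvd hp).mpr hm).symm
  apply le_antisymm
  · rintro x ⟨hx1, hxH⟩
    have hker : Cfsg.pResidual p G ⊔ commutator G ≤ (MonoidHom.transfer (QuotientGroup.mk' N)).ker := by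
      rw [sup_le_iff]
      refine ⟨?_, Abelianization.commutator_subset_ker _⟩
      unfold Cfsg.pResidual
      rw [Subgroup.closure_le]
      intro g hg
      have hg' : Nat.Coprime (orderOf g) p := hg
      rw [SetLike.mem_coe, MonoidHom.mem_ker]
      obtain ⟨j, hj⟩ := hP (MonoidHom.transfer (QuotientGroup.mk' N) g)
      have h1 : orderOf (MonoidHom.transfer (QuotientGroup.mk' N) g) ∣ p ^ j := orderOf_dvd_of_pow_eq_one hj
      have h2 : orderOf (MonoidHom.transfer (QuotientGroup.mk' N) g) ∣ orderOf g := orderOf_map_dvd _ g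
      have h3 : Nat.Coprime (p ^ j) (orderOf g) := (Nat.Coprime.pow_right j hg').symm
      exact orderOf_eq_one_iff.mp (Nat.eq_one_of_dvd_coprimes h3 h1 h2)
    have hVx : MonoidHom.transfer (QuotientGroup.mk' N) x = 1 := hker hx1
    obtain ⟨e, m, hm, hem⟩ := Nat.exists_eq_pow_mul_and_not_dvd (orderOf_pos x).ne' p hp.ne_one
    have hm0 : m ≠ 0 := by
      rintro rfl
      exact hm (dvd_zero p)
    have hy : orderOf (x ^ m) = p ^ e := by
      rw [orderOf_pow_of_dvd hm0 ⟨p ^ e, by rw [hem, mul_comm]⟩, hem, Nat.mul_div_cancel _ (Nat.pos_of_ne_zero hm0)]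
    have hyH : x ^ m ∈ H := Subgroup.pow_mem _ hxH m
    have h1 : MonoidHom.transfer (QuotientGroup.mk' N) (x ^ m) =
        (QuotientGroup.mk' N) ⟨x ^ m, hyH⟩ ^ H.index := by
      apply transfer_eq_pow_of_map
      intro k g₀ hk
      have hord : ∃ i, orderOf ((x ^ m) ^ k) = p ^ i := by
        have : orderOf ((x ^ m) ^ k) ∣ p ^ e := hy ▸ orderOf_pow_dvd k
        obtain ⟨i, -, hi⟩ := (Nat.dvd_prime_pow hp).mp this
        exact ⟨i, hi⟩
      obtain ⟨h, hh, hconj⟩ := hfus ((x ^ m) ^ k) (Subgroup.pow_mem _ hyH k) hord g₀⁻¹ (by simpa using hk)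
      have heq : (⟨g₀⁻¹ * (x ^ m) ^ k * g₀, hk⟩ : H) = ⟨h, hh⟩ * ⟨x ^ m, hyH⟩ ^ k * ⟨h, hh⟩⁻¹ := by
        ext
        simp only [Subgroup.coe_mul, Subgroup.coe_pow, Subgroup.coe_inv]
        rw [hconj, inv_inv]
      rw [heq, map_mul, map_mul, map_inv, map_pow, mul_comm, inv_mul_cancel_left]
    rw [map_pow, hVx, one_pow] at h1
    have h2 : ((QuotientGroup.mk' N) ⟨x, hxH⟩) ^ (m * H.index) = 1 := by
      rw [pow_mul, ← map_pow]
      exact h1.symm
    obtain ⟨j, hj⟩ := hP ((QuotientGroup.mk' N) ⟨x, hxH⟩)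
    have h3 : Nat.Coprime (p ^ j) (m * H.index) :=
      Nat.Coprime.pow_left j (Nat.Coprime.mul_right ((Nat.Prime.coprime_iff_not_dvd hp).mpr hm) hidx)
    have h4 := orderOf_eq_one_iff.mp (Nat.eq_one_of_dvd_coprimes h3 (orderOf_dvd_of_pow_eq_one hj)
      (orderOf_dvd_of_pow_eq_one h2))
    exact ⟨⟨x, hxH⟩, (QuotientGroup.eq_one_iff _).mp h4, rfl⟩
  · apply le_inf _ (Subgroup.map_subtype_le _)
    rw [hN, Subgroup.map_sup]
    apply sup_le_sup
    · unfold Cfsg.pResidual
      rw [MonoidHom.map_closure]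
      apply Subgroup.closure_mono
      rintro _ ⟨h, hh, rfl⟩
      have hh' : Nat.Coprime (orderOf h) p := hh
      show Nat.Coprime (orderOf (h : G)) p
      rwa [Subgroup.orderOf_coe]
    · rw [commutator_def, commutator_def, Subgroup.map_commutator]
      exact Subgroup.commutator_mono le_top le_top

end Cfsg.Agent.S1242
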