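import Cfsg.Statements.S1183
import Cfsg.Agent.Lib.Helper25.Isolated
import Cfsg.Agent.S1182
import Cfsg.Agent.S1185
import Cfsg.Agent.S1242

set_option autoImplicit false
open Cfsg

namespace Cfsg.Agent.S1183

open Cfsg.Agent.Lib.Helper25

theorem residual_normal (p : ℕ) (H : Type*) [Group H] : (Cfsg.pResidual p H).Normal := by
  unfold Cfsg.pResidual
  constructor
  intro x hx n
  induction hx using Subgroup.closure_induction with
  | mem x hx =>
    apply Subgroup.subset_closure
    change (orderOf (n * x * n⁻¹)).Coprime p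
    rw [orderOf_conj_eq]; exact hx
  | one => simp
  | mul x y _ _ hx hy =>
    have : n * (x * y) * n⁻¹ = (n * x * n⁻¹) * (n * y * n⁻¹) := by group
    rw [this]; exact Subgroup.mul_mem _ hx hy
  | inv x _ hx =>
    have : n * x⁻¹ * n⁻¹ = (n * x * n⁻¹)⁻¹ := by group
    rw [this]; exact Subgroup.inv_mem _ hx

theorem residual_quotient_pgroup (p : ℕ) [Fact p.Prime] (H : Type*) [Group H] [Finite H]
    [(Cfsg.pResidual p H).Normal] : IsPGroup p (H ⧸ Cfsg.pResidual p H) := by
  intro x
  obtain ⟨g, rfl⟩ := QuotientGroup.mk_surjective x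
  obtain ⟨a, m, hm, hgm⟩ := Nat.exists_eq_pow_mul_and_not_dvd (orderOf_pos g).ne' p
    (Fact.out : p.Prime).ne_one
  refine ⟨a, ?_⟩
  rw [← QuotientGroup.mk_pow, QuotientGroup.eq_one_iff]
  apply Subgroup.subset_closure
  change (orderOf (g ^ p ^ a)).Coprime p
  have hpa : p ^ a ≠ 0 := pow_ne_zero _ (Fact.out : p.Prime).ne_zero
  rw [orderOf_pow_of_dvd hpa ⟨m, hgm⟩, hgm, Nat.mul_div_cancel_left _ (Nat.pos_of_ne_zero hpa)]
  exact ((Nat.Prime.coprime_iff_not_dvd Fact.out).2 hm).symm

theorem residual_eq_top_of_sup {p : ℕ} [Fact p.Prime] {H : Type*} [Group H] [Finite H]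
    (h : Cfsg.pResidual p H ⊔ commutator H = ⊤) : Cfsg.pResidual p H = ⊤ := by
  have := residual_normal p H
  have hp := residual_quotient_pgroup p H
  by_contra hne
  have : Nontrivial (H ⧸ Cfsg.pResidual p H) := by
    rw [QuotientGroup.nontrivial_iff]; exact hne
  have : Group.IsNilpotent (H ⧸ Cfsg.pResidual p H) := hp.isNilpotent
  have h1 := Group.IsSolvable.commutator_lt_top_of_nontrivial (H ⧸ Cfsg.pResidual p H)
  apply h1.ne
  have h2 : (commutator H).map (QuotientGroup.mk' (Cfsg.pResidual p H)) = commutator (H ⧸ Cfsg.pResidual p H) := by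
    rw [commutator_def, commutator_def, Subgroup.map_commutator,
      Subgroup.map_top_of_surjective _ (QuotientGroup.mk'_surjective _)]
  rw [← h2]
  have h3 := congrArg (Subgroup.map (QuotientGroup.mk' (Cfsg.pResidual p H))) h
  rw [Subgroup.map_sup, Subgroup.map_top_of_surjective _ (QuotientGroup.mk'_surjective _)] at h3
  have h4 : (Cfsg.pResidual p H).map (QuotientGroup.mk' (Cfsg.pResidual p H)) = ⊥ := by
    rw [QuotientGroup.map_mk'_self]
  rw [h4, bot_sup_eq] at h3
  exact h3


/-- Let z be an isolated involution of the finite group G and C = C_G(z). Then the subgroup of G generated by its elements of odd order is all of G if and only if the subgroup of C generated by its elements of odd order is all of C. -/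
theorem result {G : Type*} [Group G] [Finite G] (z : G) (hz : Cfsg.IsIsolatedInvolution z) : Cfsg.pResidual 2 G = ⊤ ↔ Cfsg.pResidual 2 ↥(Subgroup.centralizer ({z} : Set G)) = ⊤ := by
  have hzz := isolated_sq hz
  have hz' := isolated_inv hz
  constructor
  · intro hG
    -- index of the centralizer is odd
    have hidx : Nat.Coprime 2 (Subgroup.centralizer ({z} : Set G)).index := by
      have hzp : IsPGroup 2 (Subgroup.zpowers z) := by
        rw [IsPGroup.iff_card]
        exact ⟨1, by rw [Nat.card_zpowers, hz.1, pow_one]⟩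
      obtain ⟨S, hS⟩ := hzp.exists_le_sylow
      have hzS : z ∈ S := hS (Subgroup.mem_zpowers z)
      have hSC : (S : Subgroup G) ≤ Subgroup.centralizer ({z} : Set G) := by
        intro x hx
        rw [Subgroup.mem_centralizer_singleton_iff]
        have h1 : z * (x * z * x⁻¹) ∈ S :=
          S.mul_mem hzS (S.mul_mem (S.mul_mem hx hzS) (S.inv_mem hx))
        have h2 := isolated_odd_mul hz x
        obtain ⟨k, hk⟩ := (IsPGroup.iff_orderOf.1 S.isPGroup') ⟨_, h1⟩
        rw [Subgroup.orderOf_mk] at hk
        have h3 : z * (x * z * x⁻¹) = 1 := by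
          rw [hk] at h2
          rcases Nat.eq_zero_or_pos k with h0 | h0
          · rw [h0, pow_zero] at hk; exact orderOf_eq_one_iff.1 hk
          · exfalso
            have : Even (2 ^ k) := (Nat.even_pow.2 ⟨even_two, by omega⟩)
            exact (Nat.not_odd_iff_even.2 this) h2
        have h4 : x * z * x⁻¹ = z := by
          have := eq_inv_of_mul_eq_one_right h3
          rw [this, hz']
        have : x * z = (x * z * x⁻¹) * x := by group
        rw [this, h4]
      have h5 : (Subgroup.centralizer ({z} : Set G)).index ∣ (S : Subgroup G).index :=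
        Subgroup.index_dvd_of_le hSC
      have h6 : ¬ 2 ∣ (S : Subgroup G).index := S.not_dvd_index
      exact (Nat.Prime.coprime_iff_not_dvd Nat.prime_two).2 (fun h => h6 (h.trans h5))
    have hfus : ∀ g ∈ Subgroup.centralizer ({z} : Set G), (∃ k : ℕ, orderOf g = 2 ^ k) → ∀ a : G,
        a * g * a⁻¹ ∈ Subgroup.centralizer ({z} : Set G) →
        ∃ h ∈ Subgroup.centralizer ({z} : Set G), h * g * h⁻¹ = a * g * a⁻¹ := by
      intro g hg _ a ha
      rw [Subgroup.mem_centralizer_singleton_iff] at hg ha
      obtain ⟨c, -, hc1, hc2⟩ := Cfsg.Agent.S1182.result z hz ⊤ (by rw [Subgroup.mem_normalizer_iff]; intro h; simp) g (a * g * a⁻¹) trivial trivial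
        hg ha a trivial rfl
      exact ⟨c, Subgroup.mem_centralizer_singleton_iff.2 hc1.eq, hc2⟩
    have key := Cfsg.Agent.S1242.result (p := 2) (Subgroup.centralizer ({z} : Set G)) hidx hfus
    rw [hG, top_sup_eq, top_inf_eq] at key
    apply residual_eq_top_of_sup
    apply Subgroup.map_injective (Subgroup.centralizer ({z} : Set G)).subtype_injective
    rw [← key, ← MonoidHom.range_eq_map, Subgroup.range_subtype]
  · intro hC
    rw [eq_top_iff]
    intro g _
    obtain ⟨k, ⟨⟨hk1, -⟩, hk3⟩, -⟩ := Cfsg.Agent.S1185.result z hz g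
    have h1 : k ∈ Cfsg.pResidual 2 G :=
      Subgroup.subset_closure (Nat.Coprime.symm (Nat.coprime_two_left.2 hk1))
    have h2 : ∀ c : Subgroup.centralizer ({z} : Set G), (c : G) ∈ Cfsg.pResidual 2 G := by
      intro c
      have hc : c ∈ Cfsg.pResidual 2 ↥(Subgroup.centralizer ({z} : Set G)) := by rw [hC]; trivial
      unfold Cfsg.pResidual at hc
      induction hc using Subgroup.closure_induction with
      | mem x hx =>
        apply Subgroup.subset_closure
        change (orderOf (x : G)).Coprime 2
        rw [Subgroup.orderOf_coe]; exact hx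
      | one => exact Subgroup.one_mem _
      | mul x y _ _ hx hy => exact Subgroup.mul_mem _ hx hy
      | inv x _ hx => exact Subgroup.inv_mem _ hx
    have h3 := h2 ⟨_, hk3⟩
    have : g = k * (g⁻¹ * k)⁻¹ := by group
    rw [this]
    exact Subgroup.mul_mem _ h1 (Subgroup.inv_mem _ h3)

end Cfsg.Agent.S1183
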