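import Cfsg.Statements.S1186
import Cfsg.Agent.Lib.Helper25.Isolated2

set_option autoImplicit false
open Cfsg

namespace Cfsg.Agent.S1186

open Cfsg.Agent.Lib.Helper25

theorem claimA {G : Type*} [Group G] {z s k₂ k₁ : G} (hzz : z * z = 1) (hss : s * s = 1)
    (hsz : Commute s z) (h2 : Commute k₂ s) (h1 : Commute k₁ (s * z)) :
    (k₂ * z * k₂⁻¹) * ((k₂ * k₁) * z * (k₂ * k₁)⁻¹) * (k₂ * z * k₂⁻¹)
      = s * ((k₂ * k₁) * z * (k₂ * k₁)⁻¹) * s := by
  have e1 : (k₂ * z * k₂⁻¹) * ((k₂ * k₁) * z * (k₂ * k₁)⁻¹) * (k₂ * z * k₂⁻¹)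
      = k₂ * (z * (k₁ * z * k₁⁻¹) * z) * k₂⁻¹ := by group
  have e2 : s * ((k₂ * k₁) * z * (k₂ * k₁)⁻¹) * s = (s * k₂) * (k₁ * z * k₁⁻¹) * (k₂⁻¹ * s) := by group
  have e3 : k₂⁻¹ * s = s * k₂⁻¹ := (h2.inv_left).eq
  rw [e1, e2, e3, ← h2.eq]
  have e4 : z * (k₁ * z * k₁⁻¹) * z = s * (k₁ * z * k₁⁻¹) * s := by
    have h3 : (s * z) * k₁ = k₁ * (s * z) := h1.eq.symm
    have h4 : k₁⁻¹ * (s * z) = (s * z) * k₁⁻¹ := (h1.inv_left).eq
    have h5 : z * s = s * z := hsz.eq.symm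
    have h6 : s * (z * (k₁ * z * k₁⁻¹) * z) * s = k₁ * z * k₁⁻¹ := by
      have : s * (z * (k₁ * z * k₁⁻¹) * z) * s = ((s * z) * k₁) * z * (k₁⁻¹ * (z * s)) := by group
      rw [this, h3, h5, h4]
      have : k₁ * (s * z) * z * (s * z * k₁⁻¹) = k₁ * s * (z * z) * s * z * k₁⁻¹ := by group
      rw [this, hzz]
      have : k₁ * s * 1 * s * z * k₁⁻¹ = k₁ * (s * s) * z * k₁⁻¹ := by group
      rw [this, hss, mul_one]
    calc z * (k₁ * z * k₁⁻¹) * z = (s * s) * (z * (k₁ * z * k₁⁻¹) * z) * (s * s) := by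
          rw [hss]; group
      _ = s * (s * (z * (k₁ * z * k₁⁻¹) * z) * s) * s := by group
      _ = s * (k₁ * z * k₁⁻¹) * s := by rw [h6]
  rw [e4]; group


/-- Let z be an isolated involution of the finite group G, C = C_G(z), K the set of elements of odd order inverted by z, and s an involution of C. Then |G| = |C| · |C_K(sz)| · |C_K(s)|. -/
theorem result {G : Type*} [Group G] [Finite G] (z : G) (hz : Cfsg.IsIsolatedInvolution z) (s : G) (hs : orderOf s = 2) (hsz : Commute s z) : Nat.card G = Nat.card (Subgroup.centralizer ({z} : Set G)) * Nat.card {k : G // Odd (orderOf k) ∧ z * k * z⁻¹ = k⁻¹ ∧ Commute k (s * z)} * Nat.card {k : G // Odd (orderOf k) ∧ z * k * z⁻¹ = k⁻¹ ∧ Commute k s} := by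
  classical
  have hzz := isolated_sq hz
  have hz' := isolated_inv hz
  have hss : s * s = 1 := by
    have := pow_orderOf_eq_one s
    rwa [hs, pow_two] at this
  let Φ : (Subgroup.centralizer ({z} : Set G) ×
      {k : G // Odd (orderOf k) ∧ z * k * z⁻¹ = k⁻¹ ∧ Commute k (s * z)}) ×
      {k : G // Odd (orderOf k) ∧ z * k * z⁻¹ = k⁻¹ ∧ Commute k s} → G :=
    fun p => p.2.1 * p.1.2.1 * p.1.1.1
  have hconj : ∀ p, Φ p * z * (Φ p)⁻¹ = (p.2.1 * p.1.2.1) * z * (p.2.1 * p.1.2.1)⁻¹ := by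
    intro p
    have hc := Subgroup.mem_centralizer_singleton_iff.1 p.1.1.2
    change (p.2.1 * p.1.2.1 * p.1.1.1) * z * (p.2.1 * p.1.2.1 * p.1.1.1)⁻¹ = _
    have : (p.2.1 * p.1.2.1 * p.1.1.1) * z * (p.2.1 * p.1.2.1 * p.1.1.1)⁻¹
        = (p.2.1 * p.1.2.1) * ((p.1.1.1 : G) * z) * (p.1.1.1 : G)⁻¹ * (p.2.1 * p.1.2.1)⁻¹ := by group
    rw [this, hc]; group
  have hbij : Function.Bijective Φ := by
    constructor
    · intro p p' h
      have h1 : (p.2.1 * p.1.2.1) * z * (p.2.1 * p.1.2.1)⁻¹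
          = (p'.2.1 * p'.1.2.1) * z * (p'.2.1 * p'.1.2.1)⁻¹ := by
        rw [← hconj, ← hconj, h]
      have hA := claimA hzz hss hsz p.2.2.2.2 p.1.2.2.2.2
      have hA' := claimA hzz hss hsz p'.2.2.2.2 p'.1.2.2.2.2
      rw [← h1] at hA'
      have h2 := isolated_midpoint_unique hz _ _ _ (hA.trans hA'.symm)
      have h3 : p.2.1 = p'.2.1 := isolated_unique_K hzz p.2.2.1 p'.2.2.1 p.2.2.2.1 p'.2.2.2.1 h2
      have h4 : p.1.2.1 * z * (p.1.2.1)⁻¹ = p'.1.2.1 * z * (p'.1.2.1)⁻¹ := by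
        rw [← h3] at h1
        have := congrArg (fun u => (p.2.1)⁻¹ * u * p.2.1) h1
        simpa [mul_assoc] using this
      have h5 : p.1.2.1 = p'.1.2.1 :=
        isolated_unique_K hzz p.1.2.2.1 p'.1.2.2.1 p.1.2.2.2.1 p'.1.2.2.2.1 h4
      have h6 : (p.1.1.1 : G) = p'.1.1.1 := by
        have h7 : p.2.1 * p.1.2.1 * p.1.1.1 = p'.2.1 * p'.1.2.1 * p'.1.1.1 := h
        rw [← h3, ← h5] at h7
        exact mul_left_cancel h7
      exact Prod.ext (Prod.ext (Subtype.ext h6) (Subtype.ext h5)) (Subtype.ext h3)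
    · intro g
      obtain ⟨x, hx⟩ := isolated_midpoint_exists hz g (s * g)
      have hs' : s⁻¹ = s := inv_eq_of_mul_eq_one_left hss
      have hmm : (x * z * x⁻¹) * (x * z * x⁻¹) = 1 := conj_sq hzz x
      have e1 : s * g * z * (s * g)⁻¹ = s * (g * z * g⁻¹) * s := by
        rw [mul_inv_rev, hs']; group
      rw [e1] at hx
      -- m commutes with s
      have hms : s * (x * z * x⁻¹) * s = x * z * x⁻¹ := by
        have e2 : s * (x * z * x⁻¹) * s = (s * x) * z * (s * x)⁻¹ := by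
          rw [mul_inv_rev, hs']; group
        rw [e2]
        apply isolated_midpoint_unique hz g
        rw [← e2, hx]
        generalize x * z * x⁻¹ = m at *
        generalize g * z * g⁻¹ = w at *
        have : s * m * s * w * (s * m * s) = s * m * (s * w * s) * m * s := by group
        rw [this, ← hx]
        have : s * m * (m * w * m) * m * s = s * (m * m) * w * (m * m) * s := by group
        rw [this, hmm]; group
        exact hx.symm
      obtain ⟨k₂, hk1, hk2, hk3, hk4⟩ := isolated_exists_K hz x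
      have hk2s : Commute k₂ s := by
        have hle : Subgroup.zpowers (z * (x * z * x⁻¹)) ≤ Subgroup.centralizer ({s} : Set G) := by
          rw [Subgroup.zpowers_le, Subgroup.mem_centralizer_singleton_iff]
          have h1 : x * z * x⁻¹ * s = s * (x * z * x⁻¹) := by
            nth_rewrite 1 [← hms]
            have : s * (x * z * x⁻¹) * s * s = s * (x * z * x⁻¹) * (s * s) := by group
            rw [this, hss, mul_one]
          rw [mul_assoc, h1, ← mul_assoc, ← hsz.eq, mul_assoc]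
        exact Subgroup.mem_centralizer_singleton_iff.1 (hle hk4)
      obtain ⟨k₁, hl1, hl2, hl3, hl4⟩ := isolated_exists_K hz (k₂⁻¹ * g)
      have e3 : k₂⁻¹ * g * z * (k₂⁻¹ * g)⁻¹ = k₂⁻¹ * (g * z * g⁻¹) * k₂ := by group
      rw [e3] at hl3 hl4
      have hw1 : z * (k₂⁻¹ * (g * z * g⁻¹) * k₂) * z = s * (k₂⁻¹ * (g * z * g⁻¹) * k₂) * s := by
        have h1 : z * k₂⁻¹ = k₂⁻¹ * (x * z * x⁻¹) := by rw [← hk3]; group
        have h2 : k₂ * z = (x * z * x⁻¹) * k₂ := by rw [← hk3]; group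
        have h3 : z * (k₂⁻¹ * (g * z * g⁻¹) * k₂) * z = (z * k₂⁻¹) * (g * z * g⁻¹) * (k₂ * z) := by group
        rw [h3, h1, h2]
        have h4 : k₂⁻¹ * (x * z * x⁻¹) * (g * z * g⁻¹) * (x * z * x⁻¹ * k₂)
            = k₂⁻¹ * ((x * z * x⁻¹) * (g * z * g⁻¹) * (x * z * x⁻¹)) * k₂ := by group
        rw [h4, hx]
        have h5 : k₂⁻¹ * s = s * k₂⁻¹ := (hk2s.inv_left).eq
        have h6 : k₂⁻¹ * (s * (g * z * g⁻¹) * s) * k₂ = (k₂⁻¹ * s) * (g * z * g⁻¹) * (s * k₂) := by group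
        rw [h6, h5, ← hk2s.eq]; group
      have hk1sz : Commute k₁ (s * z) := by
        have hle : Subgroup.zpowers (z * (k₂⁻¹ * (g * z * g⁻¹) * k₂)) ≤ Subgroup.centralizer ({s * z} : Set G) := by
          rw [Subgroup.zpowers_le, Subgroup.mem_centralizer_singleton_iff]
          generalize k₂⁻¹ * (g * z * g⁻¹) * k₂ = w₁ at *
          have h1 : w₁ * (s * z) = (s * z) * w₁ := by
            have h2 : w₁ = s * (z * w₁ * z) * s := by
              rw [hw1]
              have : s * (s * w₁ * s) * s = (s * s) * w₁ * (s * s) := by group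
              rw [this, hss]; group
            nth_rewrite 1 [h2]
            have : s * (z * w₁ * z) * s * (s * z) = s * z * w₁ * z * (s * s) * z := by group
            rw [this, hss]
            have : s * z * w₁ * z * 1 * z = s * z * w₁ * (z * z) := by group
            rw [this, hzz, mul_one]
          have h3 : z * (s * z) = (s * z) * z := by
            rw [← mul_assoc, ← hsz.eq]
          rw [mul_assoc, h1, ← mul_assoc, h3, mul_assoc]
        exact Subgroup.mem_centralizer_singleton_iff.1 (hle hl4)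
      refine ⟨((⟨(k₂ * k₁)⁻¹ * g, ?_⟩, ⟨k₁, hl1, hl2, hk1sz⟩), ⟨k₂, hk1, hk2, hk2s⟩), ?_⟩
      · rw [Subgroup.mem_centralizer_singleton_iff]
        have h1 : (k₂ * k₁)⁻¹ * g * z = (k₂ * k₁)⁻¹ * (g * z * g⁻¹) * g := by group
        have h2 : g * z * g⁻¹ = k₂ * (k₁ * z * k₁⁻¹) * k₂⁻¹ := by rw [hl3]; group
        rw [h1, h2]; group
      · change k₂ * k₁ * ((k₂ * k₁)⁻¹ * g) = g
        group
  rw [← Nat.card_prod, ← Nat.card_prod]
  exact (Nat.card_congr (Equiv.ofBijective Φ hbij)).symm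

end Cfsg.Agent.S1186
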