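import Cfsg.Statements.S1231
import Cfsg.Agent.Lib.Helper26.Conj

set_option autoImplicit false
open Cfsg Cfsg.Agent.Lib.Helper26

namespace Cfsg.Agent.S1231

/-- Let H be a subgroup of the finite group G, p a prime, k ≥ 1, and P a Sylow p-subgroup of H whose p-rank is at least k. Then N_G(X) ≤ H for every subgroup X of P of p-rank at least k if and only if H ∩ gHg⁻¹ has p-rank less than k for every g ∉ H. -/
theorem result {G : Type*} [Group G] [Finite G] {p : ℕ} [Fact p.Prime] (k : ℕ) (hk : 1 ≤ k) (H : Subgroup G) (P : Sylow p ↥H) (hP : ¬ Cfsg.PRankLE p (k - 1) ↥(P : Subgroup ↥H)) : (∀ X : Subgroup G, X ≤ (P : Subgroup ↥H).map H.subtype → ¬ Cfsg.PRankLE p (k - 1) ↥X → Subgroup.normalizer (X : Set G) ≤ H) ↔ (∀ g : G, g ∉ H → Cfsg.PRankLE p (k - 1) ↥(H ⊓ H.map (MulAut.conj g).toMonoidHom)) := by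
  set j := k - 1 with hj
  set P' : Subgroup G := (P : Subgroup ↥H).map H.subtype with hP'
  have hP'H : P' ≤ H := Subgroup.map_subtype_le _
  have hP'p : IsPGroup p P' := P.isPGroup'.map _
  have hP'big : ¬ Cfsg.PRankLE p j P' := fun h =>
    hP (PRankLE_of_injective (H.subtype.subgroupMap (P : Subgroup ↥H))
      (by
        intro a b hab
        have h1 : ((a : H) : G) = ((b : H) : G) := congrArg (fun x : P' => (x : G)) hab
        exact Subtype.ext (Subtype.ext h1)) h)
  constructor
  · intro hΓ
    have claim : ∀ (n : ℕ) (Y : Subgroup G), Nat.card G - Nat.card Y = n → IsPGroup p Y → Y ≤ H →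
        ¬ Cfsg.PRankLE p j Y → ∀ c, cj c Y ≤ H → c ∈ H := by
      intro n
      induction n using Nat.strong_induction_on with
      | _ n ih =>
      intro Y hn hYp hYH hYbig c hYc
      obtain ⟨h₁, hh₁, hX⟩ := exists_conj_le_sylow H P Y hYp hYH
      obtain ⟨h₂, hh₂, hX2⟩ := exists_conj_le_sylow H P (cj c Y) (IsPGroup_cj hYp) hYc
      have hXe : cj (h₂ * c * h₁⁻¹) (cj h₁ Y) ≤ P' := by
        rw [cj_cj] at hX2 ⊢
        have : h₂ * c * h₁⁻¹ * h₁ = h₂ * c := by simp [mul_assoc]
        rw [this]
        exact hX2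
      suffices he : h₂ * c * h₁⁻¹ ∈ H by
        have := H.mul_mem (H.mul_mem (H.inv_mem hh₂) he) hh₁
        simpa [mul_assoc] using this
      generalize h₂ * c * h₁⁻¹ = e at hXe ⊢
      have hXbig : ¬ Cfsg.PRankLE p j (cj h₁ Y) := fun h => hYbig (PRankLE_cj h)
      have hXcard : Nat.card (cj h₁ Y) = Nat.card Y := card_cj _ _
      generalize cj h₁ Y = X at hX hXe hXbig hXcard
      by_cases hXP : cj e X = P'
      · have hXP' : X = P' := Subgroup.eq_of_le_of_card_ge hX (by rw [← hXP, card_cj])
        have : e ∈ Subgroup.normalizer (P' : Set G) := mem_normalizer_iff_cj.mpr (by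
          rw [hXP'] at hXP; exact hXP)
        exact hΓ P' le_rfl hP'big this
      · obtain ⟨z, hzP, hzN, hzX⟩ := exists_mem_normalizer_not_mem hP'p hXe hXP
        set Z := P' ⊓ Subgroup.normalizer ((cj e X : Subgroup G) : Set G) with hZ
        have hXZ : cj e X ≤ Z := le_inf hXe Subgroup.le_normalizer
        have hZlt : Nat.card (cj e X) < Nat.card Z := by
          by_contra hle
          push Not at hle
          have := Subgroup.eq_of_le_of_card_ge hXZ hle
          apply hzX
          rw [this]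
          exact ⟨hzP, hzN⟩
        have hback : cj e⁻¹ (cj e X) = X := by rw [cj_cj, inv_mul_cancel, cj_one]
        have hY'N : cj e⁻¹ Z ≤ Subgroup.normalizer (X : Set G) := by
          have h1 : cj e⁻¹ Z ≤ cj e⁻¹ (Subgroup.normalizer ((cj e X : Subgroup G) : Set G)) :=
            cj_mono inf_le_right
          rw [cj_normalizer, hback] at h1
          exact h1
        have hY'H : cj e⁻¹ Z ≤ H := hY'N.trans (hΓ X hX hXbig)
        have hXY' : X ≤ cj e⁻¹ Z := by
          have := cj_mono (g := e⁻¹) hXZ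
          rwa [hback] at this
        have hcard : Nat.card (cj e⁻¹ Z) = Nat.card Z := card_cj _ _
        have hle : Nat.card (cj e⁻¹ Z) ≤ Nat.card G := Subgroup.card_le_card_group _
        rw [card_cj] at hZlt
        apply ih (Nat.card G - Nat.card (cj e⁻¹ Z)) (by omega) (cj e⁻¹ Z) rfl
          (IsPGroup_cj (hP'p.to_le inf_le_left)) hY'H (fun h => hXbig (PRankLE_mono hXY' h)) e
        rw [cj_cj, mul_inv_cancel, cj_one]
        exact inf_le_left.trans hP'H
    intro g hg
    by_contra hbig
    unfold Cfsg.PRankLE at hbig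
    push Not at hbig
    obtain ⟨A, hAc, hAp, hAcard⟩ := hbig
    set Y : Subgroup G := A.map (Subgroup.subtype _) with hY
    have hYcard : Nat.card Y = Nat.card A := Subgroup.card_subtype _ _
    have hYexp : ∀ y ∈ Y, y ^ p = 1 := by
      rintro _ ⟨a, ha, rfl⟩
      exact congrArg Subtype.val (hAp a ha)
    have hYp : IsPGroup p Y := by
      intro y
      refine ⟨1, ?_⟩
      ext
      simpa using hYexp y y.2
    have hYle : Y ≤ H ⊓ H.map (MulAut.conj g).toMonoidHom := Subgroup.map_subtype_le _
    have hYbig : ¬ Cfsg.PRankLE p j Y := by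
      intro h
      have h1 := h ⊤
        ⟨⟨by
          rintro ⟨⟨_, a, ha, rfl⟩, -⟩ ⟨⟨_, b, hb, rfl⟩, -⟩
          have h2 := hAc.is_comm.comm ⟨a, ha⟩ ⟨b, hb⟩
          have h3 : a * b = b * a := congrArg Subtype.val h2
          have h4 : (a : G) * (b : G) = (b : G) * (a : G) := congrArg Subtype.val h3
          exact Subtype.ext (Subtype.ext h4)⟩⟩
        (by
          intro y _
          ext
          exact hYexp y y.2)
      rw [Subgroup.card_top, hYcard] at h1
      omega
    apply hg
    have h2 := claim _ Y rfl hYp (hYle.trans inf_le_left) hYbig g⁻¹ (by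
      have h3 : cj g⁻¹ Y ≤ cj g⁻¹ (cj g H) := cj_mono (hYle.trans inf_le_right)
      rwa [cj_cj, inv_mul_cancel, cj_one] at h3)
    simpa using H.inv_mem h2
  · intro hsmall X hX hXbig g hg
    by_contra hgH
    apply hXbig
    apply PRankLE_mono _ (hsmall g hgH)
    apply le_inf (hX.trans hP'H)
    have h1 : cj g X = X := mem_normalizer_iff_cj.mp hg
    rw [← h1]
    exact cj_mono (hX.trans hP'H)

end Cfsg.Agent.S1231
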