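import Cfsg.Statements.S1236
import Cfsg.Agent.Lib.Helper94.FourSelfCent

set_option autoImplicit false
open Cfsg

namespace Cfsg.Agent.S1236

open Cfsg.Agent.Lib.Helper94

/-- Let R be a finite group, t a central involution of R such that R ⧸ ⟨t⟩ is dihedral (of order ≥ 4) or quasi-dihedral, and A ≤ R an elementary abelian subgroup of order 8 containing t. Then C_R(A) = A. -/
theorem result {R : Type*} [Group R] [Finite R] (t : R) (ht : orderOf t = 2) (htz : t ∈ Subgroup.center R) [(Subgroup.zpowers t).Normal] (hq : (∃ m : ℕ, 2 ≤ m ∧ Nonempty (R ⧸ Subgroup.zpowers t ≃* DihedralGroup m)) ∨ Cfsg.IsQuasiDihedral (R ⧸ Subgroup.zpowers t)) (A : Subgroup R) (hA : Cfsg.IsElementaryAbelian 2 A) (hA8 : Nat.card A = 8) (htA : t ∈ A) : Subgroup.centralizer (A : Set R) = A := by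
  have hgood : FSC.Good (R ⧸ Subgroup.zpowers t) := by
    rcases hq with ⟨m, _, ⟨e⟩⟩ | ⟨n, hn, hcard, x, y, hx, _, hxy⟩
    · exact FSC.Good.of_equiv e (FSC.good_dihedral m)
    · exact FSC.good_qd hn hcard hx hxy
  have hNA : Subgroup.zpowers t ≤ A := (Subgroup.zpowers_le).2 htA
  have hcommA : ∀ a ∈ A, ∀ b ∈ A, a * b = b * a := by
    intro a ha b hb
    have h1 : (⟨a, ha⟩ : A) * ⟨b, hb⟩ = ⟨b, hb⟩ * ⟨a, ha⟩ := hA.1.is_comm.comm _ _
    exact congrArg Subtype.val h1
  -- the image of `A`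
  have hV4 : 4 ≤ Nat.card (A.map (QuotientGroup.mk' (Subgroup.zpowers t))) := by
    have h1 := Subgroup.index_ker ((QuotientGroup.mk' (Subgroup.zpowers t)).comp A.subtype)
    have h2 := Subgroup.card_mul_index ((QuotientGroup.mk' (Subgroup.zpowers t)).comp A.subtype).ker
    have h3 : ((QuotientGroup.mk' (Subgroup.zpowers t)).comp A.subtype).range =
        A.map (QuotientGroup.mk' (Subgroup.zpowers t)) := by
      rw [MonoidHom.range_comp, Subgroup.range_subtype]
    have h4 : ((QuotientGroup.mk' (Subgroup.zpowers t)).comp A.subtype).ker =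
        (Subgroup.zpowers t).subgroupOf A := by
      rw [← MonoidHom.comap_ker, QuotientGroup.ker_mk']
      rfl
    have h5 : Nat.card ((Subgroup.zpowers t).subgroupOf A) = 2 := by
      rw [Nat.card_congr (Subgroup.subgroupOfEquivOfLe hNA).toEquiv, Nat.card_zpowers, ht]
    rw [h1, h3, h4, h5, hA8] at h2
    omega
  apply le_antisymm
  · intro g hg
    rw [Subgroup.mem_centralizer_iff] at hg
    have hmem : (QuotientGroup.mk' (Subgroup.zpowers t)) g ∈
        A.map (QuotientGroup.mk' (Subgroup.zpowers t)) := by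
      apply FSC.main hgood _ hV4
      · rintro _ ⟨a, ha, rfl⟩ _ ⟨b, hb, rfl⟩
        rw [← map_mul, ← map_mul, hcommA a ha b hb]
      · rintro _ ⟨a, ha, rfl⟩
        rw [← map_pow, hA.2 a ha, map_one]
      · rintro _ ⟨a, ha, rfl⟩
        rw [← map_mul, ← map_mul, hg a ha]
    obtain ⟨a, ha, hag⟩ := hmem
    have h1 : a⁻¹ * g ∈ Subgroup.zpowers t := by
      rw [← QuotientGroup.eq]
      exact hag
    have h2 := A.mul_mem ha (hNA h1)
    rwa [mul_inv_cancel_left] at h2
  · intro a ha
    rw [Subgroup.mem_centralizer_iff]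
    intro b hb
    exact hcommA b hb a ha

end Cfsg.Agent.S1236
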