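import Cfsg.Statements.S1241
import Cfsg.Agent.Lib.Helper26.Transfer

set_option autoImplicit false
open Cfsg Cfsg.Agent.Lib.Helper26
open scoped IsMulCommutative

namespace Cfsg.Agent.S1241

/-- Let G be a finite group, p a prime, H a subgroup of index prime to p, K a subgroup of H normal in H with H/K commutative, and g ∈ H ∖ K an element of p-power order such that for all integers m and all a ∈ G with a g^m a⁻¹ ∈ H one has a g^m a⁻¹ ∈ g^m K. Then g ∉ G'. -/
theorem result {G : Type*} [Group G] [Finite G] {p : ℕ} [Fact p.Prime] (H K : Subgroup G) (hHK : K ≤ H) (hKn : (K.subgroupOf H).Normal) (hab : ∀ x ∈ H, ∀ y ∈ H, x * y * x⁻¹ * y⁻¹ ∈ K) (hidx : Nat.Coprime p H.index) (g : G) (hgH : g ∈ H) (hgK : g ∉ K) (hgp : ∃ k : ℕ, orderOf g = p ^ k) (hctrl : ∀ (m : ℤ) (a : G), a * g ^ m * a⁻¹ ∈ H → (a * g ^ m * a⁻¹) * (g ^ m)⁻¹ ∈ K) : g ∉ commutator G := by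
  intro hgc
  have hNn : (K.subgroupOf H).Normal := hKn
  have hcomm : IsMulCommutative (H ⧸ K.subgroupOf H) := by
    rw [Subgroup.Normal.quotient_commutative_iff_commutator_le, commutator_def, Subgroup.commutator_le]
    intro x _ y _
    exact Subgroup.mem_subgroupOf.mpr (hab x x.2 y y.2)
  have h1 : MonoidHom.transfer (QuotientGroup.mk' (K.subgroupOf H)) g =
      (QuotientGroup.mk' (K.subgroupOf H)) ⟨g, hgH⟩ ^ H.index := by
    apply transfer_eq_pow_of_map
    intro k g₀ hk
    rw [← map_pow]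
    apply (QuotientGroup.eq_iff_div_mem).mpr
    rw [Subgroup.mem_subgroupOf]
    have := hctrl k g₀⁻¹ (by simpa using hk)
    simpa [div_eq_mul_inv] using this
  have h2 : MonoidHom.transfer (QuotientGroup.mk' (K.subgroupOf H)) g = 1 :=
    Abelianization.commutator_subset_ker _ hgc
  rw [h2, ← map_pow] at h1
  have h3 : (⟨g, hgH⟩ : H) ^ H.index ∈ K.subgroupOf H :=
    (QuotientGroup.eq_one_iff _).mp h1.symm
  rw [Subgroup.mem_subgroupOf] at h3
  obtain ⟨k, hk⟩ := hgp
  have hcop : Nat.Coprime H.index (orderOf g) := by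
    rw [hk]
    exact (Nat.Coprime.pow_left k hidx).symm
  obtain ⟨m, hm⟩ := exists_pow_eq_self_of_coprime hcop
  apply hgK
  rw [← hm]
  exact Subgroup.pow_mem _ h3 m

end Cfsg.Agent.S1241
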