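import Cfsg.Statements.S1243
-- import your own Cfsg.Agent.* helpers here

set_option autoImplicit false
open Cfsg

namespace Cfsg.Agent.S1243

lemma exists_conj_pgroup {G : Type*} [Group G] [Finite G] {p : ℕ} [Fact p.Prime]
    (K A B : Subgroup G) (hA : A ≤ K) (hB : B ≤ K) (hAp : IsPGroup p A) (hBp : IsPGroup p B) :
    ∃ c ∈ K, ∃ R : Subgroup G, IsPGroup p R ∧ A ≤ R ∧ B.map (MulAut.conj c).toMonoidHom ≤ R := by
  obtain ⟨P, hP⟩ := (hAp.comap_subtype (K := K)).exists_le_sylow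
  obtain ⟨P', hP'⟩ := (hBp.comap_subtype (K := K)).exists_le_sylow
  obtain ⟨c, hc⟩ := MulAction.exists_smul_eq K P' P
  refine ⟨c, c.2, (P : Subgroup K).map K.subtype, P.isPGroup'.map _, ?_, ?_⟩
  · intro a ha
    exact ⟨⟨a, hA ha⟩, hP (Subgroup.mem_subgroupOf.mpr ha), rfl⟩
  · rintro _ ⟨b, hb, rfl⟩
    have hb' : (⟨b, hB hb⟩ : K) ∈ (P' : Subgroup K) := hP' (Subgroup.mem_subgroupOf.mpr hb)
    have : c * ⟨b, hB hb⟩ * c⁻¹ ∈ (P : Subgroup K) := by
      rw [← hc, Sylow.coe_subgroup_smul, Subgroup.mem_pointwise_smul_iff_inv_smul_mem]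
      simpa [MulAut.smul_def, mul_assoc] using hb'
    exact ⟨_, this, by simp⟩

/-- Let T be a Sylow p-subgroup of the finite group G and W ≤ T a subgroup weakly closed in T. If d and g d g⁻¹ both centralize W, then g d g⁻¹ = h d h⁻¹ for some h ∈ N_G(W). -/
theorem result {G : Type*} [Group G] [Finite G] {p : ℕ} [Fact p.Prime] (T : Sylow p G) (W : Subgroup G) (hW : Cfsg.IsWeaklyClosed W (T : Subgroup G)) (d g : G) (hd : d ∈ Subgroup.centralizer (W : Set G)) (hgd : g * d * g⁻¹ ∈ Subgroup.centralizer (W : Set G)) : ∃ h ∈ Subgroup.normalizer (W : Set G), h * d * h⁻¹ = g * d * g⁻¹ := by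
  obtain ⟨hWT, hWc⟩ := hW
  have hWp : IsPGroup p W := T.isPGroup'.to_le hWT
  have hWC : W ≤ Subgroup.centralizer ({d} : Set G) := by
    intro w hw
    rw [Subgroup.mem_centralizer_singleton_iff]
    exact hd w hw
  have hW'C : W.map (MulAut.conj g⁻¹).toMonoidHom ≤ Subgroup.centralizer ({d} : Set G) := by
    rintro _ ⟨w, hw, rfl⟩
    rw [Subgroup.mem_centralizer_singleton_iff]
    have := hgd w hw
    simp only [MulEquiv.coe_toMonoidHom, MulAut.conj_apply, inv_inv]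
    have h2 : g⁻¹ * (w * (g * d * g⁻¹)) * g = g⁻¹ * ((g * d * g⁻¹) * w) * g := by rw [this]
    simpa [mul_assoc] using h2
  obtain ⟨c, hc, R, hR, hWR, hW'R⟩ := exists_conj_pgroup _ W _ hWC hW'C hWp (hWp.map _)
  obtain ⟨Q, hQ⟩ := hR.exists_le_sylow
  obtain ⟨a, ha⟩ := MulAction.exists_smul_eq G T Q
  -- conj a⁻¹ W ≤ T
  have key : ∀ b : G, W.map (MulAut.conj b).toMonoidHom ≤ R → W.map (MulAut.conj (a⁻¹ * b)).toMonoidHom = W := by
    intro b hb
    apply hWc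
    rintro _ ⟨w, hw, rfl⟩
    have h1 : b * w * b⁻¹ ∈ (Q : Subgroup G) := hQ (hb ⟨w, hw, by simp⟩)
    rw [← ha, Sylow.coe_subgroup_smul, Subgroup.mem_pointwise_smul_iff_inv_smul_mem] at h1
    simpa [MulAut.smul_def, mul_assoc] using h1
  have h1 := key 1 (by
    rintro _ ⟨w, hw, rfl⟩
    simpa using hWR hw)
  have h2 := key (c * g⁻¹) (by
    rintro _ ⟨w, hw, rfl⟩
    exact hW'R ⟨g⁻¹ * w * g, ⟨w, hw, by simp⟩, by simp [mul_assoc]⟩)
  have n1 : a⁻¹ * 1 ∈ Subgroup.normalizer (W : Set G) := Subgroup.mem_normalizer_iff_map_conj_eq.mpr h1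
  have n2 : a⁻¹ * (c * g⁻¹) ∈ Subgroup.normalizer (W : Set G) :=
    Subgroup.mem_normalizer_iff_map_conj_eq.mpr h2
  have n3 : g * c⁻¹ ∈ Subgroup.normalizer (W : Set G) := by
    have := Subgroup.inv_mem _ (Subgroup.mul_mem _ (Subgroup.inv_mem _ n1) n2)
    simpa [mul_assoc] using this
  refine ⟨g * c⁻¹, n3, ?_⟩
  rw [Subgroup.mem_centralizer_singleton_iff] at hc
  have hc' : c⁻¹ * d * c = d := by
    rw [mul_assoc, ← hc, ← mul_assoc, inv_mul_cancel, one_mul]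
  calc g * c⁻¹ * d * (g * c⁻¹)⁻¹ = g * (c⁻¹ * d * c) * g⁻¹ := by simp [mul_assoc]
    _ = g * d * g⁻¹ := by rw [hc']

end Cfsg.Agent.S1243
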