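import Cfsg.Statements.S1244
import Cfsg.Agent.Lib.Helper26.Transfer2

set_option autoImplicit false
open Cfsg Cfsg.Agent.Lib.Helper26
open scoped IsMulCommutative

namespace Cfsg.Agent.S1244

/-- Let G be a finite group with no subgroup of index 2 whose Sylow 2-subgroup S is commutative, and let R ≤ S be a subgroup whose 2-rank is exactly one less than the 2-rank r of S. Then every involution of S is conjugate, by an element of N_G(S), to an element of R. -/
theorem result {G : Type*} [Group G] [Finite G] (hG : ∀ H : Subgroup G, H.index ≠ 2) (S : Sylow 2 G) (hS : IsMulCommutative (S : Subgroup G)) (r : ℕ) (hr1 : 1 ≤ r) (hSr : Cfsg.PRankLE 2 r (S : Subgroup G) ∧ ¬ Cfsg.PRankLE 2 (r - 1) (S : Subgroup G)) (R : Subgroup G) (hRS : R ≤ S) (hRr : Cfsg.PRankLE 2 (r - 1) R ∧ (r = 1 ∨ ¬ Cfsg.PRankLE 2 (r - 2) R)) (t : G) (ht : orderOf t = 2) (htS : t ∈ S) : ∃ n ∈ Subgroup.normalizer ((S : Subgroup G) : Set G), n * t * n⁻¹ ∈ R := by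
  classical
  by_contra hcon
  push Not at hcon
  have hScomm : ∀ a ∈ (S : Subgroup G), ∀ b ∈ (S : Subgroup G), a * b = b * a :=
    fun a ha b hb => congrArg Subtype.val (hS.is_comm.comm ⟨a, ha⟩ ⟨b, hb⟩)
  have hRcomm : ∀ a ∈ R, ∀ b ∈ R, a * b = b * a := fun a ha b hb => hScomm a (hRS ha) b (hRS hb)
  set F := omegaTwo (S : Subgroup G) hScomm with hFdef
  set F₀ := omegaTwo R hRcomm with hF₀def
  have hF₀F : F₀ ≤ F := fun g hg => ⟨hRS hg.1, hg.2⟩
  have hFp : IsPGroup 2 F := S.isPGroup'.to_le (omegaTwo_le _ _)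
  have hF₀p : IsPGroup 2 F₀ := hFp.to_le hF₀F
  obtain ⟨a, ha⟩ := IsPGroup.iff_card.mp hFp
  obtain ⟨b, hb⟩ := IsPGroup.iff_card.mp hF₀p
  have h1 : 2 ^ a ≤ 2 ^ r := ha ▸ card_omegaTwo_le hSr.1
  have h2 : 2 ^ (r - 1) < 2 ^ a := ha ▸ lt_card_omegaTwo hSr.2
  have h3 : 2 ^ b ≤ 2 ^ (r - 1) := hb ▸ card_omegaTwo_le hRr.1
  have h4 : r = 1 ∨ 2 ^ (r - 2) < 2 ^ b := hRr.2.imp id (fun h => hb ▸ lt_card_omegaTwo h)
  have ha' : a = r := by
    have e1 := (Nat.pow_le_pow_iff_right (by norm_num : 1 < 2)).mp h1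
    have e2 := (Nat.pow_lt_pow_iff_right (by norm_num : 1 < 2)).mp h2
    omega
  have hb' : b + 1 = r := by
    have e1 := (Nat.pow_le_pow_iff_right (by norm_num : 1 < 2)).mp h3
    rcases h4 with h4 | h4
    · omega
    · have e2 := (Nat.pow_lt_pow_iff_right (by norm_num : 1 < 2)).mp h4
      omega
  have hidx : (F₀.subgroupOf F).index = 2 := by
    have e1 := (F₀.subgroupOf F).card_mul_index
    rw [Nat.card_congr (Subgroup.subgroupOfEquivOfLe hF₀F).toEquiv, ha, hb, ha', ← hb', pow_succ] at e1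
    exact Nat.eq_of_mul_eq_mul_left (pow_pos (by norm_num) b) e1
  have hpar : ∀ x ∈ F, ∀ y ∈ F, (x * y ∈ F₀ ↔ (x ∈ F₀ ↔ y ∈ F₀)) := by
    intro x hx y hy
    have := Subgroup.mul_mem_iff_of_index_two hidx (a := ⟨x, hx⟩) (b := ⟨y, hy⟩)
    simpa [Subgroup.mem_subgroupOf] using this
  have htt : t ^ 2 = 1 := by rw [← ht, pow_orderOf_eq_one]
  have : Fintype (Quotient (MulAction.orbitRel (Subgroup.zpowers t) (G ⧸ (S : Subgroup G)))) :=
    Fintype.ofFinite _
  have hV := MonoidHom.transfer_eq_prod_quotient_orbitRel_zpowers_quot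
    (MonoidHom.id (S : Subgroup G)) t
  have hmp : ∀ x : G ⧸ (S : Subgroup G), Function.minimalPeriod (t • ·) x = 1 ∨
      Function.minimalPeriod (t • ·) x = 2 := by
    intro x
    have h5 : Function.minimalPeriod (t • ·) x ∣ 2 :=
      MulAction.pow_smul_eq_iff_minimalPeriod_dvd.mp (by rw [htt, one_smul])
    exact (Nat.dvd_prime Nat.prime_two).mp h5
  have hfac : ∀ q : Quotient (MulAction.orbitRel (Subgroup.zpowers t) (G ⧸ (S : Subgroup G))),
      (q.out.out⁻¹ * t ^ Function.minimalPeriod (t • ·) q.out * q.out.out ∈ F) ∧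
      (q.out.out⁻¹ * t ^ Function.minimalPeriod (t • ·) q.out * q.out.out ∉ F₀ ↔
        Odd (Function.minimalPeriod (t • ·) q.out)) := by
    intro q
    have hmem := QuotientGroup.out_conj_pow_minimalPeriod_mem (S : Subgroup G) t q.out
    rcases hmp q.out with h5 | h5
    · rw [h5] at hmem ⊢
      rw [pow_one] at hmem ⊢
      refine ⟨⟨hmem, ?_⟩, ?_⟩
      · have : (q.out.out⁻¹ * t * q.out.out) ^ 2 = q.out.out⁻¹ * t ^ 2 * q.out.out := by
          simp [sq, mul_assoc]
        rw [this, htt]; simp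
      · simp only [odd_one, iff_true]
        intro hmem0
        obtain ⟨n, hn, hnt⟩ := S.conj_eq_normalizer_conj_of_mem t q.out.out htS hmem
        apply hcon n⁻¹ (Subgroup.inv_mem _ hn)
        rw [inv_inv, ← hnt]
        exact hmem0.1
    · rw [h5, htt]
      simp only [mul_one, inv_mul_cancel]
      refine ⟨Subgroup.one_mem _, ?_⟩
      simp
  have hpar' := prod_mem_iff_even (F.subgroupOf S) (F₀.subgroupOf S)
    (by
      intro x hx y hy
      exact hpar x hx y hy) Finset.univ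
    (fun q : Quotient (MulAction.orbitRel (Subgroup.zpowers t) (G ⧸ (S : Subgroup G))) =>
      (MonoidHom.id (S : Subgroup G)) ⟨q.out.out⁻¹ * t ^ Function.minimalPeriod (t • ·) q.out * q.out.out,
        QuotientGroup.out_conj_pow_minimalPeriod_mem (S : Subgroup G) t q.out⟩)
    (by
      intro q _
      exact (hfac q).1)
  rw [← hV] at hpar'
  have hfilter : (Finset.univ.filter (fun q : Quotient (MulAction.orbitRel (Subgroup.zpowers t) (G ⧸ (S : Subgroup G))) =>
      (MonoidHom.id (S : Subgroup G)) ⟨q.out.out⁻¹ * t ^ Function.minimalPeriod (t • ·) q.out * q.out.out,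
        QuotientGroup.out_conj_pow_minimalPeriod_mem (S : Subgroup G) t q.out⟩ ∉ F₀.subgroupOf S)) =
      Finset.univ.filter (fun q : Quotient (MulAction.orbitRel (Subgroup.zpowers t) (G ⧸ (S : Subgroup G))) =>
        Odd (Function.minimalPeriod (t • ·) q.out)) := by
    apply Finset.filter_congr
    intro q _
    exact (hfac q).2
  rw [hfilter] at hpar'
  have hodd : Odd (Finset.univ.filter (fun q : Quotient (MulAction.orbitRel (Subgroup.zpowers t) (G ⧸ (S : Subgroup G))) =>
        Odd (Function.minimalPeriod (t • ·) q.out))).card := by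
    rw [← Finset.odd_sum_iff_odd_card_odd, ← Subgroup.index_eq_sum_minimalPeriod]
    exact Nat.odd_iff.mpr (Nat.two_dvd_ne_zero.mp S.not_dvd_index)
  have hVt : MonoidHom.transfer (MonoidHom.id (S : Subgroup G)) t ≠ 1 := by
    intro h5
    rw [h5] at hpar'
    exact (Nat.not_even_iff_odd.mpr hodd) (hpar'.mp (Subgroup.one_mem _))
  obtain ⟨H, hH⟩ := exists_index_two_of_hom S.isPGroup' _ hVt
  exact hG H hH

end Cfsg.Agent.S1244
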