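import Cfsg.Statements.S1247
-- import your own Cfsg.Agent.* helpers here
import Cfsg.Agent.Lib.Helper28.BigSub

set_option autoImplicit false
open Cfsg

namespace Cfsg.Agent.S1247

open Cfsg.Agent.Lib.Helper28

theorem normalizer_le_of_isCoatom {G : Type*} [Group G] [IsSimpleGroup G] {M A : Subgroup G}
    (hM : IsCoatom M) (hA : A ≠ ⊥) (hAM : A ≤ M) (hn : M ≤ Subgroup.normalizer (A : Set G)) :
    Subgroup.normalizer (A : Set G) ≤ M := by
  rcases eq_or_lt_of_le hn with h | h
  · exact h.symm.le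
  · exfalso
    have h1 := hM.2 _ h
    have h2 : A.Normal := Subgroup.normalizer_eq_top_iff.mp h1
    rcases h2.eq_bot_or_eq_top with h3 | h3
    · exact hA h3
    · exact hM.1 (top_le_iff.mp (h3 ▸ hAM))

/-- Let G be a non-abelian finite simple group, A a maximal subgroup, F = F*(A) its generalized Fitting subgroup (viewed in G), and S ≤ F a subgroup subnormal in F with C_F(S) ≤ S. Let B be any subgroup of G containing S. Then (a) for every prime q not dividing |F(A)|, O_q(B) ∩ A = 1; and (b) for every prime p dividing |F(A)|, O_p(B) commutes elementwise with the subgroup of F generated by its elements of order prime to p. -/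
theorem result {G : Type*} [Group G] [Finite G] [IsSimpleGroup G] (hna : ¬ IsMulCommutative G) (A : Subgroup G) (hA : IsCoatom A) (S : Subgroup G) (hSF : S ≤ (Cfsg.generalizedFittingSubgroup ↥A).map A.subtype) (hSsn : (S.subgroupOf ((Cfsg.generalizedFittingSubgroup ↥A).map A.subtype)).IsSubnormal) (hSC : (Cfsg.generalizedFittingSubgroup ↥A).map A.subtype ⊓ Subgroup.centralizer (S : Set G) ≤ S) (B : Subgroup G) (hSB : S ≤ B) : (∀ q : ℕ, q.Prime → ¬ q ∣ Nat.card (Cfsg.fittingSubgroup ↥A) → (Cfsg.pCore q ↥B).map B.subtype ⊓ A = ⊥) ∧ (∀ p : ℕ, p.Prime → p ∣ Nat.card (Cfsg.fittingSubgroup ↥A) → ∀ x ∈ (Cfsg.pCore p ↥B).map B.subtype, ∀ y ∈ (Cfsg.pResidual p ↥(Cfsg.generalizedFittingSubgroup ↥A)).map ((Cfsg.generalizedFittingSubgroup ↥A).subtype) , x * (A.subtype y) = (A.subtype y) * x) := by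
  have hB : BigSub A S := bigSub_of hSF hSsn hSC
  have hcard : Nat.card ↥(fitIn A) = Nat.card ↥(Cfsg.fittingSubgroup ↥A) :=
    Subgroup.card_map_of_injective A.subtype_injective
  refine ⟨fun q hq hqF => ?_, fun p hp hpF x hx y hy => ?_⟩
  · have : Fact q.Prime := ⟨hq⟩
    refine hB.partA hSB q ?_
    rw [hcard]
    exact ((Nat.Prime.coprime_iff_not_dvd hq).mpr hqF).symm
  · have : Fact p.Prime := ⟨hp⟩
    have hpA : opIn p A ≠ ⊥ := by
      intro hb
      have h1 := fitIn_le_sup p A
      rw [hb, bot_sup_eq] at h1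
      have h2 : (Nat.card ↥(fitIn A)).Coprime p :=
        Nat.Coprime.coprime_dvd_left (Subgroup.card_dvd_of_le h1) (fitPrimeIn_coprime p A)
      rw [hcard] at h2
      exact (Nat.Prime.coprime_iff_not_dvd hp).mp h2.symm hpF
    have hle : (Cfsg.pResidual p ↥(Cfsg.generalizedFittingSubgroup ↥A)).map
        ((Cfsg.generalizedFittingSubgroup ↥A).subtype) ≤
        (Subgroup.centralizer (opIn p B : Set G)).comap A.subtype := by
      rw [Cfsg.Agent.Lib.Helper2.map_pResidual_subtype, Subgroup.closure_le]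
      rintro z ⟨hz1, hz2⟩
      show A.subtype z ∈ Subgroup.centralizer (opIn p B : Set G)
      refine hB.partB (fun Z h1 h2 h3 => normalizer_le_of_isCoatom hA h1 h2 h3) hSB p hpA
        ⟨z, hz1, rfl⟩ ?_
      rw [orderOf_injective _ A.subtype_injective]
      exact hz2
    exact Subgroup.mem_centralizer_iff.mp (hle hy) x hx

end Cfsg.Agent.S1247
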