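import Cfsg.Statements.S1248
import Cfsg.Agent.Lib.Helper65.SU3Sylow

set_option autoImplicit false
open Cfsg

namespace Cfsg.Agent.S1248

/-- Let F be a field with 16 elements and S a Sylow 2-subgroup of PSU(3) over F (the unitary group U₃(4)). Then |S| = 64; the centre Z(S) is a Klein four-group and coincides with the subgroup generated by the involutions of S and with the derived subgroup; and every element of S ⧸ Z(S) squares to the identity, S ⧸ Z(S) having order 16. -/
theorem result {F : Type*} [Field F] [Fintype F] (hF : Fintype.card F = 16) (S : Sylow 2 (Cfsg.PSU 3 F 4)) : Nat.card S = 64 ∧ IsKleinFour (Subgroup.center (S : Subgroup (Cfsg.PSU 3 F 4))) ∧ Subgroup.center (S : Subgroup (Cfsg.PSU 3 F 4)) = Subgroup.closure {x : (S : Subgroup (Cfsg.PSU 3 F 4)) | orderOf x = 2} ∧ Subgroup.center (S : Subgroup (Cfsg.PSU 3 F 4)) = commutator (S : Subgroup (Cfsg.PSU 3 F 4)) ∧ Nat.card ((S : Subgroup (Cfsg.PSU 3 F 4)) ⧸ Subgroup.center (S : Subgroup (Cfsg.PSU 3 F 4))) = 16 ∧ ∀ x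 : (S : Subgroup (Cfsg.PSU 3 F 4)) ⧸ Subgroup.center (S : Subgroup (Cfsg.PSU 3 F 4)), x ^ 2 = 1 := by
  have hK : Fintype.card F = 4 ^ 2 := by rw [hF]; norm_num
  obtain ⟨C⟩ := Cfsg.Agent.Lib.Helper65.SU3E.exists_coord_PSU hK 2 (by norm_num) S
  have h2 := Cfsg.Agent.Lib.Helper65.SU3E.two_eq_zero_of hK 2 (by norm_num)
  refine ⟨?_, C.isKleinFour_center hK h2 rfl, C.center_eq_closure hK h2, C.center_eq_commutator hK h2, ?_,
    C.quot_sq hK h2⟩
  · have := C.card_eq hK h2
    norm_num at this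
    exact this
  · have := C.card_quot hK h2
    norm_num at this
    exact this

end Cfsg.Agent.S1248
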