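import Cfsg.Statements.S1254
import Cfsg.Agent.S0071
import Cfsg.Agent.Lib.Helper11.DihedralAut
import Cfsg.Agent.Lib.Helper11.NPC

set_option autoImplicit false
open Cfsg

namespace Cfsg.Agent.S1254

open Cfsg.Agent.Lib.Helper11

/-- Let X be a finite group whose Sylow 2-subgroup S is dihedral (of order at least 4). Then X has a normal 2-complement if and only if, for every Klein four-subgroup U ≤ S, the normalizer N_X(U) is generated by C_X(U) and N_S(U). -/
theorem result {X : Type*} [Group X] [Finite X] (S : Sylow 2 X) (m : ℕ) (hm : 2 ≤ m) (eS : (S : Subgroup X) ≃* DihedralGroup m) : Cfsg.HasNormalPComplement 2 X ↔ ∀ U : Subgroup X, U ≤ S → IsKleinFour U → Subgroup.normalizer (U : Set X) = Subgroup.centralizer (U : Set X) ⊔ ((S : Subgroup X) ⊓ Subgroup.normalizer (U : Set X)) := by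
  constructor
  · intro h U hUS _
    obtain ⟨N, hN, hc⟩ := isComplement'_of_hasNormalPComplement h S
    apply le_antisymm
    · intro x hx
      obtain ⟨s, hs, hxs⟩ := conj_eq_of_complement N S hN hc x
      have hxU : ∀ u ∈ U, x * u * x⁻¹ = s * u * s⁻¹ := by
        intro u hu
        exact hxs u (hUS hu) (hUS ((Subgroup.mem_normalizer_iff.1 hx u).1 hu))
      have hsN : s ∈ Subgroup.normalizer (U : Set X) := by
        apply mem_normalizer_of_conj_mem
        intro u hu
        rw [← hxU u hu]
        exact (Subgroup.mem_normalizer_iff.1 hx u).1 hu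
      have hxsC : x * s⁻¹ ∈ Subgroup.centralizer (U : Set X) := by
        rw [Subgroup.mem_centralizer_iff]
        intro u hu
        have hu' : s⁻¹ * u * s ∈ U := by
          have := (Subgroup.mem_normalizer_iff.1 (Subgroup.inv_mem _ hsN) u).1 hu
          simpa using this
        have h1 := hxU _ hu'
        have h2 : s * (s⁻¹ * u * s) * s⁻¹ = u := by group
        rw [h2] at h1
        calc u * (x * s⁻¹) = (x * (s⁻¹ * u * s) * x⁻¹) * (x * s⁻¹) := by rw [h1]
          _ = x * s⁻¹ * u := by group
      have : x = (x * s⁻¹) * s := by group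
      rw [this]
      exact Subgroup.mul_mem _ (Subgroup.mem_sup_left hxsC) (Subgroup.mem_sup_right ⟨hs, hsN⟩)
    · exact sup_le (Subgroup.centralizer_le_normalizer _) inf_le_right
  · intro h
    have key : ∃ N : Subgroup X, N.Normal ∧ N.IsComplement' (S : Subgroup X) := by
      rw [Cfsg.Agent.S0071.result S]
      intro Q hQS g hgN hg2
      have hQ2 : IsPGroup 2 Q := S.isPGroup'.to_le hQS
      let f : Q →* DihedralGroup m := eS.toMonoidHom.comp (Subgroup.inclusion hQS)
      have hf : Function.Injective f :=
        eS.injective.comp (Subgroup.inclusion_injective hQS)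
      obtain ⟨A, hAc, hidx, hinv⟩ := dihedral_structure f hf
      have hord : (orderOf (Q.normalizerMonoidHom ⟨g, hgN⟩)).Coprime 2 := by
        have h8 : orderOf (Q.normalizerMonoidHom ⟨g, hgN⟩) ∣ orderOf g := by
          have := orderOf_map_dvd Q.normalizerMonoidHom (⟨g, hgN⟩ : Subgroup.normalizer (Q : Set X))
          rwa [Subgroup.orderOf_mk] at this
        exact Nat.Coprime.coprime_dvd_left h8 hg2
      rcases aut_eq_one_or_kleinFour hQ2 A hidx (fun x hx => (hinv x hx).1) _ hord with h1 | h1
      · exact (normalizerMonoidHom_eq_one_iff Q g hgN).1 h1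
      · have h2 := h Q hQS h1
        exact mem_centralizer_of_normalizer_eq_sup Q _ (S.isPGroup'.to_le inf_le_left) inf_le_right
          h2.le g hgN hg2
    obtain ⟨N, hN, hc⟩ := key
    exact ⟨S, N, hN, hc⟩

end Cfsg.Agent.S1254
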