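import Cfsg.Statements.S1256
import Cfsg.Agent.Lib.Helper53.D4.DIH
import Cfsg.Agent.Lib.Helper53.D4.CHAIN
import Cfsg.Agent.Lib.Helper53.D4.SYL

set_option autoImplicit false
open Cfsg

namespace Cfsg.Agent.S1256

open Cfsg.Agent.Lib.Helper53.D4

/-- Let X be a finite group whose Sylow 2-subgroup S is dihedral of order 2m ≥ 4. If |S| = 4, any two Klein four-subgroups of X are conjugate; if |S| > 4, there are Klein four-subgroups U₁, U₂ of X that are not conjugate, and every Klein four-subgroup of X is conjugate to U₁ or to U₂. -/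
theorem result {X : Type*} [Group X] [Finite X] (S : Sylow 2 X) (m : ℕ) (hm : 2 ≤ m) (eS : (S : Subgroup X) ≃* DihedralGroup m) : (Nat.card S = 4 → ∀ U V : Subgroup X, IsKleinFour U → IsKleinFour V → (∃ x : X, U.map (MulAut.conj x).toMonoidHom = V)) ∧ (4 < Nat.card S → ∃ U₁ U₂ : Subgroup X, IsKleinFour U₁ ∧ IsKleinFour U₂ ∧ ¬ (∃ x : X, U₁.map (MulAut.conj x).toMonoidHom = U₂) ∧ ∀ V : Subgroup X, IsKleinFour V → (∃ x : X, V.map (MulAut.conj x).toMonoidHom = U₁) ∨ (∃ x : X, V.map (MulAut.conj x).toMonoidHom = U₂)) := by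
  classical
  refine ⟨fun h4 U V hU hV => syl4 S h4 U V hU hV, ?_⟩
  intro hgt
  have hcard : Nat.card (S : Subgroup X) = 2 * m := by
    have : NeZero m := ⟨by omega⟩
    rw [Nat.card_congr eS.toEquiv, DihedralGroup.nat_card]
  have h4m : 4 ∣ m := by
    obtain ⟨k, hk⟩ := (IsPGroup.iff_card).1 S.isPGroup'
    have hk' : 2 * m = 2 ^ k := by rw [← hcard]; exact hk
    have hgt' : 4 < 2 * m := by rw [← hcard]; exact hgt
    have hk3 : 3 ≤ k := by
      by_contra hlt
      have : k ≤ 2 := by omega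
      have h1 : 2 ^ k ≤ 2 ^ 2 := Nat.pow_le_pow_right (by norm_num) this
      omega
    obtain ⟨j, rfl⟩ := Nat.exists_eq_add_of_le hk3
    have : m = 4 * 2 ^ j := by
      have h2 : (2:ℕ) ^ (3 + j) = 8 * 2 ^ j := by rw [pow_add]; norm_num
      omega
    exact ⟨2 ^ j, this⟩
  obtain ⟨φ, D₁, D₂, hD₁, hD₂, hk₁, hk₂, hall⟩ := dih m (by omega) h4m
  let f : DihedralGroup m →* X := (S : Subgroup X).subtype.comp eS.symm.toMonoidHom
  have hf : Function.Injective f := by
    intro a b hab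
    exact eS.symm.injective (Subtype.ext hab)
  have hfS : ∀ d, f d ∈ (S : Subgroup X) := fun d => (eS.symm d).2
  have hef : ∀ d (h : f d ∈ (S : Subgroup X)), eS ⟨f d, h⟩ = d := by
    intro d h
    have : (⟨f d, h⟩ : (S : Subgroup X)) = eS.symm d := Subtype.ext rfl
    rw [this, MulEquiv.apply_symm_apply]
  have hfe : ∀ s : (S : Subgroup X), f (eS s) = s := by
    intro s
    show ((eS.symm (eS s) : (S : Subgroup X)) : X) = s
    rw [MulEquiv.symm_apply_apply]
  refine ⟨D₁.map f, D₂.map f, kmap f hf D₁ hD₁, kmap f hf D₂ hD₂, ?_, ?_⟩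
  · rintro ⟨x, hx⟩
    have hU : D₁.map f ≤ (S : Subgroup X) := by
      rintro _ ⟨d, -, rfl⟩
      exact hfS d
    have hg : ∀ u ∈ D₁.map f, (x⁻¹)⁻¹ * u * x⁻¹ ∈ (S : Subgroup X) := by
      intro u hu
      have : (x⁻¹)⁻¹ * u * x⁻¹ ∈ D₂.map f := by
        rw [← hx]
        exact ⟨u, hu, by simp [MulAut.conj_apply]⟩
      obtain ⟨d, -, hd⟩ := this
      rw [← hd]
      exact hfS d
    have hch := chain S m eS (φ.comp eS.toMonoidHom) (D₁.map f) hU (kmap f hf D₁ hD₁) x⁻¹ hg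
      (by
        rintro u hu
        obtain ⟨d, hd, rfl⟩ := hu
        show φ (eS ⟨f d, _⟩) = 1
        rw [hef]
        exact hk₁ hd)
    apply hk₂
    intro d hd
    have h1 : f d ∈ (D₁.map f).map (MulAut.conj x).toMonoidHom := by
      rw [hx]; exact ⟨d, hd, rfl⟩
    obtain ⟨u, hu, hud⟩ := h1
    have h2 := hch u hu
    have h3 : (x⁻¹)⁻¹ * u * x⁻¹ = f d := by
      rw [← hud]; simp [MulAut.conj_apply]
    have h4 : (⟨(x⁻¹)⁻¹ * u * x⁻¹, hg u hu⟩ : (S : Subgroup X)) = ⟨f d, hfS d⟩ := Subtype.ext h3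
    rw [h4] at h2
    have h5 : φ (eS ⟨f d, hfS d⟩) = 1 := h2
    rw [hef] at h5
    exact h5
  · intro V hV
    obtain ⟨x, hx⟩ := syl S V hV
    have hV' : IsKleinFour (V.map (MulAut.conj x).toMonoidHom) :=
      kmap _ (MulAut.conj x).injective V hV
    have hV'' : IsKleinFour (((V.map (MulAut.conj x).toMonoidHom).subgroupOf
        (S : Subgroup X)).map eS.toMonoidHom) :=
      kmap _ eS.injective _ (kcomap _ _ hx hV')
    have key : ∀ d : DihedralGroup m,
        ((((V.map (MulAut.conj x).toMonoidHom).subgroupOf (S : Subgroup X)).map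
          eS.toMonoidHom).map (MulAut.conj d).toMonoidHom).map f
          = V.map (MulAut.conj (f d * x)).toMonoidHom := by
      intro d
      ext y
      constructor
      · rintro ⟨_, ⟨_, ⟨s, hs, rfl⟩, rfl⟩, rfl⟩
        obtain ⟨v, hv, hvs⟩ := (Subgroup.mem_subgroupOf.1 hs)
        refine ⟨v, hv, ?_⟩
        have h1 : f (eS s) = x * v * x⁻¹ := by
          rw [hfe, ← hvs]; simp [MulAut.conj_apply]
        show (f d * x) * v * (f d * x)⁻¹ = f (d * eS s * d⁻¹)
        rw [map_mul, map_mul, map_inv, h1]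
        group
      · rintro ⟨v, hv, rfl⟩
        have hm : x * v * x⁻¹ ∈ V.map (MulAut.conj x).toMonoidHom := ⟨v, hv, by simp [MulAut.conj_apply]⟩
        refine ⟨d * eS ⟨x * v * x⁻¹, hx hm⟩ * d⁻¹, ⟨eS ⟨x * v * x⁻¹, hx hm⟩, ⟨⟨x * v * x⁻¹, hx hm⟩, ?_, rfl⟩, by simp [MulAut.conj_apply]⟩, ?_⟩
        · exact Subgroup.mem_subgroupOf.2 hm
        · show f (d * eS ⟨x * v * x⁻¹, hx hm⟩ * d⁻¹) = (f d * x) * v * (f d * x)⁻¹
          rw [map_mul, map_mul, map_inv, hfe]
          group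
    rcases hall _ hV'' with ⟨d, hd⟩ | ⟨d, hd⟩
    · left
      exact ⟨f d * x, by rw [← key d, hd]⟩
    · right
      exact ⟨f d * x, by rw [← key d, hd]⟩

end Cfsg.Agent.S1256
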