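import Cfsg.Statements.S1258
-- import your own Cfsg.Agent.* helpers here
import Cfsg.Agent.Lib.Helper27.Components

set_option autoImplicit false
open Cfsg

namespace Cfsg.Agent.S1258

open Subgroup in
open scoped commutatorElement in
theorem comm_le_of_sup_center {X : Type*} [Group X] {N : Subgroup X} (h : N ⊔ center X = ⊤) :
    commutator X ≤ ⁅N, N⁆ := by
  rw [_root_.commutator_def, commutator_le]
  intro a _ b _
  have ha : a ∈ N ⊔ center X := h ▸ mem_top a
  have hb : b ∈ N ⊔ center X := h ▸ mem_top b
  obtain ⟨n, hn, z, hz, rfl⟩ := mem_sup_of_normal_right.1 ha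
  obtain ⟨m, hm, w, hw, rfl⟩ := mem_sup_of_normal_right.1 hb
  have hz' : ∀ g, g * z = z * g := mem_center_iff.1 hz
  have hw' : ∀ g, g * w = w * g := mem_center_iff.1 hw
  have e1 : ∀ b : X, ⁅n * z, b⁆ = ⁅n, b⁆ := by
    intro b
    rw [commutatorElement_def, commutatorElement_def]
    calc n * z * b * (n * z)⁻¹ * b⁻¹ = n * (z * b) * z⁻¹ * n⁻¹ * b⁻¹ := by group
      _ = n * (b * z) * z⁻¹ * n⁻¹ * b⁻¹ := by rw [hz' b]
      _ = n * b * n⁻¹ * b⁻¹ := by group
  have e2 : ∀ a : X, ⁅a, m * w⁆ = ⁅a, m⁆ := by
    intro a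
    rw [commutatorElement_def, commutatorElement_def]
    calc a * (m * w) * a⁻¹ * (m * w)⁻¹ = a * m * (w * a⁻¹) * w⁻¹ * m⁻¹ := by group
      _ = a * m * (a⁻¹ * w) * w⁻¹ * m⁻¹ := by rw [hw' a⁻¹]
      _ = a * m * a⁻¹ * m⁻¹ := by group
  have : ⁅n * z, m * w⁆ = ⁅n, m⁆ := by rw [e1, e2]
  rw [this]
  exact commutator_mem_commutator hn hm

/-- If the central quotient of a finite group X is non-abelian simple, then X = X' Z(X) and the commutator subgroup X' is quasisimple. -/
theorem result {X : Type*} [Group X] [Finite X] (hs : IsSimpleGroup (X ⧸ Subgroup.center X)) (hna : ¬ IsMulCommutative (X ⧸ Subgroup.center X)) : commutator X ⊔ Subgroup.center X = ⊤ ∧ Cfsg.IsQuasisimple ↥(commutator X) := by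
  have hDn : (commutator X).Normal := inferInstance
  have key : ∀ N : Subgroup X, N.Normal → N ≤ Subgroup.center X ∨ N ⊔ Subgroup.center X = ⊤ := by
    intro N hN
    have hnorm : (N.map (QuotientGroup.mk' (Subgroup.center X))).Normal :=
      hN.map _ (QuotientGroup.mk'_surjective _)
    rcases hnorm.eq_bot_or_eq_top with h | h
    · left
      rw [Subgroup.map_eq_bot_iff, QuotientGroup.ker_mk'] at h
      exact h
    · right
      have := congrArg (Subgroup.comap (QuotientGroup.mk' (Subgroup.center X))) h
      rw [Subgroup.comap_map_eq, QuotientGroup.ker_mk', Subgroup.comap_top] at this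
      exact this
  have hDZ : ¬ commutator X ≤ Subgroup.center X := by
    intro h
    apply hna
    have := (Subgroup.Normal.quotient_commutative_iff_commutator_le (N := Subgroup.center X)).2 h
    exact this
  have hsup : commutator X ⊔ Subgroup.center X = ⊤ := (key _ hDn).resolve_left hDZ
  refine ⟨hsup, ?_⟩
  rw [Cfsg.Agent.Lib.Helper27.isQuasisimple_iff]
  refine ⟨le_antisymm (Subgroup.commutator_le_self _) (comm_le_of_sup_center hsup), ?_, ?_⟩
  · intro h
    apply hDZ
    rw [h]; exact bot_le
  · intro N hND hnorm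
    have hN : N.Normal := by
      rw [← Subgroup.normalizer_eq_top_iff, eq_top_iff, ← hsup]
      refine sup_le hnorm ?_
      intro z hz
      rw [Subgroup.mem_normalizer_iff]
      intro x
      have : z * x * z⁻¹ = x := by
        rw [← (Subgroup.mem_center_iff.1 hz) x]; group
      rw [this]
    rcases key N hN with h | h
    · right
      rw [Subgroup.commutator_eq_bot_iff_le_centralizer]
      exact h.trans (Subgroup.center_le_centralizer _)
    · left
      exact le_antisymm hND ((comm_le_of_sup_center h).trans (Subgroup.commutator_le_self _))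

end Cfsg.Agent.S1258
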