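import Cfsg.Statements.S1260
-- import your own Cfsg.Agent.* helpers here
import Cfsg.Agent.Lib.Helper27.Components

set_option autoImplicit false
open Cfsg

namespace Cfsg.Agent.S1260

/-- Let H be a subnormal subgroup of the finite group G and K a subgroup of H. Then K is a component of H if and only if K, viewed in G, is a component of G. -/
theorem result {G : Type*} [Group G] [Finite G] (H : Subgroup G) (hH : H.IsSubnormal) (K : Subgroup ↥H) : Cfsg.IsComponent K ↔ Cfsg.IsComponent (K.map H.subtype) := by
  constructor
  · rintro ⟨h1, h2⟩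
    exact ⟨h1.trans' hH, Cfsg.Agent.Lib.Helper27.qs_of_mulEquiv (K.equivMapOfInjective H.subtype H.subtype_injective) h2⟩
  · rintro ⟨h1, h2⟩
    refine ⟨?_, Cfsg.Agent.Lib.Helper27.qs_of_mulEquiv (K.equivMapOfInjective H.subtype H.subtype_injective).symm h2⟩
    have h3 := h1.subgroupOf (K := H)
    have h4 : (K.map H.subtype).subgroupOf H = K :=
      Subgroup.comap_map_eq_self_of_injective H.subtype_injective K
    rwa [h4] at h3

end Cfsg.Agent.S1260
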