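import Cfsg.Statements.S1273
import Cfsg.Agent.Lib.Helper29.PComp

set_option autoImplicit false
open Cfsg

namespace Cfsg.Agent.S1273

open Cfsg.Agent.Lib.Helper29

/-- Let K be a p-component of the finite group X and N a normal subgroup of K whose index in K is prime to p. Then N = K. -/
theorem result {X : Type*} [Group X] [Finite X] (p : ℕ) [Fact p.Prime] (K : Subgroup X) (hK : Cfsg.IsPComponent p K) (N : Subgroup ↥K) [N.Normal] (hidx : (N.index).Coprime p) : N = ⊤ := by
  have h1 : K ≤ N.map K.subtype := by
    have h2 : pcOf p (K.map (qm p X)) ≤ N.map K.subtype := by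
      unfold pcOf pGen
      rw [Subgroup.closure_le]
      rintro y ⟨hy, k, hk⟩
      have hyK : y ∈ K := by
        rw [IsPComponent.eq_pcOf hK]
        exact mem_pGen hy hk
      refine ⟨⟨y, hyK⟩, ?_, rfl⟩
      apply mem_of_pow_mem_of_coprime (a := N.index) (b := p ^ k)
      · exact N.pow_index_mem _
      · have : (⟨y, hyK⟩ : K) ^ p ^ k = 1 := Subtype.ext hk
        rw [this]; exact one_mem _
      · exact Nat.Coprime.pow_right k hidx
    rwa [← IsPComponent.eq_pcOf hK] at h2
  rw [eq_top_iff]
  intro x _
  obtain ⟨y, hy, hxy⟩ := h1 x.2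
  have : y = x := Subtype.ext hxy
  rwa [← this]

end Cfsg.Agent.S1273
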