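import Cfsg.Statements.S1279
-- import your own Cfsg.Agent.* helpers here
import Cfsg.Agent.Lib.Helper27.CPC

set_option autoImplicit false
open Cfsg

namespace Cfsg.Agent.S1279

/-- Let A be a noncyclic elementary abelian p-subgroup of the finite group G such that C_G(a) is solvable for every non-identity a ∈ A. Then a ↦ O_{p'}(C_G(a)) is a solvable A-signalizer functor on G. -/
theorem result {G : Type*} [Group G] [Finite G] (p : ℕ) [Fact p.Prime] (A : Subgroup G) (hA : Cfsg.IsElementaryAbelian p A) (hA2 : p ^ 2 ≤ Nat.card ↥A) (hsolv : ∀ a ∈ A, a ≠ 1 → Group.IsSolvable ↥(Subgroup.centralizer ({a} : Set G))) : Cfsg.IsSolvableSignalizerFunctor p A (fun a => Cfsg.centralizerPPrimeCore p a) := by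
  have hcomm : ∀ a ∈ A, ∀ b ∈ A, a * b = b * a := by
    intro a ha b hb
    have h := (isMulCommutative_iff.1 hA.1) (⟨a, ha⟩ : A) ⟨b, hb⟩
    exact congrArg Subtype.val h
  refine ⟨⟨?_, ?_, ?_, ?_⟩, ?_⟩
  · intro a _ _
    exact Cfsg.Agent.Lib.Helper27.cpc_le p a
  · intro a _ _
    exact Cfsg.Agent.Lib.Helper27.cpc_not_dvd p a
  · intro a ha _ b hb x hx
    have hb' : b ∈ Subgroup.centralizer ({a} : Set G) :=
      Subgroup.mem_centralizer_singleton_iff.2 (hcomm b hb a ha)
    exact Cfsg.Agent.Lib.Helper27.conj_mem_of_le_normalizer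
      (Cfsg.Agent.Lib.Helper27.cpc_normalized p a) hb' hx
  · intro a ha _ b hb hb1
    have ha' : a ∈ Subgroup.centralizer ({b} : Set G) :=
      Subgroup.mem_centralizer_singleton_iff.2 (hcomm a ha b hb)
    apply Cfsg.Agent.Lib.Helper27.le_map_pPrimeCore_of_solvable (hsolv b hb hb1) ha' (hA.2 a ha)
      inf_le_right
    · exact Cfsg.Agent.Lib.Helper27.not_dvd_card_of_le inf_le_left
        (Cfsg.Agent.Lib.Helper27.cpc_not_dvd p a)
    · exact inf_le_left.trans (Cfsg.Agent.Lib.Helper27.cpc_le p a)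
    · apply Cfsg.Agent.Lib.Helper27.le_normalizer_inf
      · exact inf_le_right.trans (Cfsg.Agent.Lib.Helper27.cpc_normalized p a)
      · exact inf_le_left.trans Subgroup.le_normalizer
  · intro a ha ha1
    have := hsolv a ha ha1
    exact Group.isSolvable_of_isSolvable_injective
      (Subgroup.inclusion_injective (Cfsg.Agent.Lib.Helper27.cpc_le p a))

end Cfsg.Agent.S1279
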