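import Cfsg.Statements.S1281
-- import your own Cfsg.Agent.* helpers here
import Cfsg.Agent.Lib.Helper27.FixedPoint

set_option autoImplicit false
open Cfsg

namespace Cfsg.Agent.S1281

/-- Let θ be a solvable A-signalizer functor on the finite group G (A a noncyclic elementary abelian p-subgroup) and N a normal subgroup of order prime to p. Then for all non-identity a, b ∈ A, the image of θ a in G / N meets the centralizer of the image of b inside the image of θ b. -/
theorem result {G : Type*} [Group G] [Finite G] (p : ℕ) [Fact p.Prime] (A : Subgroup G) (hA : Cfsg.IsElementaryAbelian p A) (hA2 : p ^ 2 ≤ Nat.card ↥A) (θ : G → Subgroup G) (hθ : Cfsg.IsSolvableSignalizerFunctor p A θ) (N : Subgroup G) [N.Normal] (hN : ¬ p ∣ Nat.card ↥N) (a b : G) (ha : a ∈ A) (ha1 : a ≠ 1) (hb : b ∈ A) (hb1 : b ≠ 1) : (θ a).map (QuotientGroup.mk' N) ⊓ Subgroup.centralizer {QuotientGroup.mk' N b} ≤ (θ b).map (QuotientGroup.mk' N) := by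
  obtain ⟨⟨h1, h2, h3, h4⟩, _⟩ := hθ
  rintro y ⟨⟨x, hx, rfl⟩, hy2⟩
  have hbp : b ^ p = 1 := hA.2 b hb
  have hcomm : QuotientGroup.mk' N b * QuotientGroup.mk' N x = QuotientGroup.mk' N x * QuotientGroup.mk' N b := by
    have := Subgroup.mem_centralizer_singleton_iff.1 hy2
    exact this.symm
  have hN1 : b * x * b⁻¹ * x⁻¹ ∈ N := by
    rw [← QuotientGroup.eq_one_iff, ← QuotientGroup.mk'_apply, map_mul, map_mul, map_mul, hcomm,
      map_inv, map_inv]
    group
  have hθa : b * x * b⁻¹ * x⁻¹ ∈ θ a := (θ a).mul_mem (h3 a ha ha1 b hb x hx) ((θ a).inv_mem hx)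
  have hnorm : A ≤ Subgroup.normalizer ((θ a ⊓ N : Subgroup G) : Set G) :=
    Cfsg.Agent.Lib.Helper27.le_normalizer_inf
      (Cfsg.Agent.Lib.Helper27.le_normalizer_of_conj_mem (h3 a ha ha1))
      (by rw [Subgroup.normalizer_eq_top_iff.2 inferInstance]; exact le_top)
  obtain ⟨c, hc1, hc2⟩ := Cfsg.Agent.Lib.Helper27.exists_centralizer_singleton_mem_coset hbp
    (Cfsg.Agent.Lib.Helper27.not_dvd_card_of_le (inf_le_right : θ a ⊓ N ≤ N) hN) (hnorm hb) x
    ⟨hθa, hN1⟩
  have hcθ : c ∈ θ a := by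
    have : c = (c * x⁻¹) * x := by group
    rw [this]; exact (θ a).mul_mem hc2.1 hx
  refine ⟨c, h4 a ha ha1 b hb hb1 ⟨hcθ, hc1⟩, ?_⟩
  have : QuotientGroup.mk' N (c * x⁻¹) = 1 := (QuotientGroup.eq_one_iff _).2 hc2.2
  rw [map_mul, map_inv, mul_inv_eq_one] at this
  exact this

end Cfsg.Agent.S1281
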