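import Cfsg.Statements.S1284
-- import your own Cfsg.Agent.* helpers here
import Cfsg.Agent.Lib.Helper27.Transitivity

set_option autoImplicit false
open Cfsg

namespace Cfsg.Agent.S1284

/-- Let θ be a solvable A-signalizer functor on the finite group G, A elementary abelian of rank at least 3, q a prime dividing some |θ a|, and Q maximal among the q-subgroups in the family of θ. Then (a) for every member H of the family, some c in the intersection of the θ a (a ∈ A non-identity) makes c Q c⁻¹ ∩ H a Sylow q-subgroup of H; and (b) for every nontrivial subgroup B ≤ A, C_Q(B) is a Sylow q-subgroup of the intersection of the θ b over the non-identity b ∈ B. -/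
theorem result {G : Type*} [Group G] [Finite G] (p : ℕ) [Fact p.Prime] (A : Subgroup G) (hA : Cfsg.IsElementaryAbelian p A) (hA3 : p ^ 3 ≤ Nat.card ↥A) (θ : G → Subgroup G) (hθ : Cfsg.IsSolvableSignalizerFunctor p A θ) (q : ℕ) [Fact q.Prime] (hq : ∃ a ∈ A, a ≠ 1 ∧ q ∣ Nat.card ↥(θ a)) (Q : Subgroup G) (hQW : Q ∈ Cfsg.signalizerFamily p A θ) (hQq : IsPGroup q ↥Q) (hQmax : ∀ R ∈ Cfsg.signalizerFamily p A θ, IsPGroup q ↥R → Q ≤ R → R = Q) : (∀ H : Subgroup G, H ∈ Cfsg.signalizerFamily p A θ → ∃ c ∈ Cfsg.signalizerInf A θ, ∃ S : Sylow q ↥H, (S : Subgroup ↥H).map H.subtype = Q.map (MulAut.conj c).toMonoidHom ⊓ H) ∧ (∀ B : Subgroup G, B ≤ A → B ≠ ⊥ → ∃ S : Sylow q ↥(Cfsg.signalizerInf B θ), (S : Subgroup ↥(Cfsg.signalizerInf B θ)).map (Cfsg.signalizerInf B θ).subtype = Q ⊓ Subgroup.centralizer (B : Set G)) := by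
  have hQ : Cfsg.Agent.Lib.Helper27.IsMaxQ p A θ q Q := ⟨hQW, hQq, hQmax⟩
  have hcopA : ∀ X : Subgroup G, ¬ p ∣ Nat.card X → (Nat.card A).Coprime (Nat.card X) := by
    intro X hX
    obtain ⟨k, hk⟩ := IsPGroup.iff_card.1 (Cfsg.Agent.Lib.Helper27.ea_isPGroup hA)
    rw [hk]
    exact Nat.Coprime.pow_left k ((Nat.Prime.coprime_iff_not_dvd (Fact.out : p.Prime)).2 hX)
  have partA : ∀ H : Subgroup G, H ∈ Cfsg.signalizerFamily p A θ → ∃ c ∈ Cfsg.signalizerInf A θ,
      Cfsg.Agent.Lib.Helper30.IsSylowIn q (Cfsg.Agent.Lib.Helper30.cj c Q ⊓ H) H := by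
    intro H hH
    have hAH := Cfsg.Agent.Lib.Helper27.family_le_normalizer hH
    obtain ⟨S0, hS0, hAS0⟩ := Cfsg.Agent.Lib.Helper30.exists_invariant_isSylowIn hAH
      (hcopA H hH.2.1) (Or.inr hH.1) q
    obtain ⟨Qs, hQs, hle⟩ := Cfsg.Agent.Lib.Helper27.exists_isMaxQ_ge
      (Cfsg.Agent.Lib.Helper27.family_of_le hH hS0.le hAS0) hS0.isPGroup
    obtain ⟨c, hc, hcQ⟩ := Cfsg.Agent.Lib.Helper27.transitivity hA hA3 hθ Q Qs hQ hQs
    refine ⟨c, hc, ?_⟩
    have h1 : Cfsg.Agent.Lib.Helper30.cj c Q ⊓ H = S0 :=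
      hS0.eq_of_le inf_le_right ((hcQ ▸ hQs.2.1).to_le inf_le_left) (le_inf (hcQ ▸ hle) hS0.le)
    rw [h1]; exact hS0
  refine ⟨?_, ?_⟩
  · intro H hH
    obtain ⟨c, hc, hS⟩ := partA H hH
    obtain ⟨S, hS'⟩ := hS.exists_sylow
    exact ⟨c, hc, S, hS'⟩
  · intro B hBA hB
    obtain ⟨b, hb, hb1⟩ : ∃ b : G, b ∈ B ∧ b ≠ 1 := by
      obtain ⟨b, hb⟩ := (Subgroup.ne_bot_iff_exists_ne_one).1 hB
      exact ⟨b, b.2, fun h => hb (Subtype.ext h)⟩
    set H := Cfsg.signalizerInf B θ with hH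
    have hHθ : ∀ b' ∈ B, b' ≠ 1 → H ≤ θ b' := fun b' hb' hb'1 x hx =>
      Cfsg.Agent.Lib.Helper27.mem_signalizerInf.1 hx b' hb' hb'1
    have hAH : A ≤ Subgroup.normalizer (H : Set G) := by
      apply Cfsg.Agent.Lib.Helper27.le_normalizer_of_conj_mem
      intro a ha x hx
      rw [hH, Cfsg.Agent.Lib.Helper27.mem_signalizerInf]
      intro b' hb' hb'1
      exact hθ.1.2.2.1 b' (hBA hb') hb'1 a ha x (hHθ b' hb' hb'1 hx)
    have hHfam : H ∈ Cfsg.signalizerFamily p A θ :=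
      Cfsg.Agent.Lib.Helper27.family_of_le (Cfsg.Agent.Lib.Helper27.family_theta hθ (hBA hb) hb1)
        (hHθ b hb hb1) hAH
    obtain ⟨c, hc, hS⟩ := partA H hHfam
    have hcH : c ∈ H := by
      rw [hH, Cfsg.Agent.Lib.Helper27.mem_signalizerInf]
      intro b' hb' hb'1
      exact Cfsg.Agent.Lib.Helper27.mem_signalizerInf.1 hc b' (hBA hb') hb'1
    have h2 := hS.cj c⁻¹
    rw [Cfsg.Agent.Lib.Helper30.cj_inf, Cfsg.Agent.Lib.Helper30.cj_inv_cj,
      Cfsg.Agent.Lib.Helper30.cj_eq_of_mem (H.inv_mem hcH)] at h2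
    have h3 : Q ⊓ H = Q ⊓ Subgroup.centralizer (B : Set G) := by
      apply le_antisymm
      · refine le_inf inf_le_left (inf_le_right.trans ?_)
        intro x hx
        rw [Subgroup.mem_centralizer_iff]
        intro b' hb'
        by_cases hb'1 : b' = 1
        · rw [hb'1]; simp
        · exact (Subgroup.mem_centralizer_singleton_iff.1
            (hθ.1.1 b' (hBA hb') hb'1 (hHθ b' hb' hb'1 hx))).symm
      · refine le_inf inf_le_left ?_
        intro x hx
        rw [hH, Cfsg.Agent.Lib.Helper27.mem_signalizerInf]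
        intro b' hb' hb'1
        exact hQW.2.2.2 b' (hBA hb') hb'1
          ⟨hx.1, Subgroup.centralizer_le (by simpa using hb') hx.2⟩
    rw [h3] at h2
    exact h2.exists_sylow

end Cfsg.Agent.S1284
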