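import Cfsg.Statements.S1285
-- import your own Cfsg.Agent.* helpers here
import Cfsg.Agent.Lib.Helper27.Transitivity

set_option autoImplicit false
open Cfsg

namespace Cfsg.Agent.S1285

/-- Let θ be a solvable A-signalizer functor on the finite group G with A elementary abelian of rank at least 3, and suppose that for some prime q every θ a (a ∈ A non-identity) is a q-group. Then θ is complete. -/
theorem result {G : Type*} [Group G] [Finite G] (p : ℕ) [Fact p.Prime] (A : Subgroup G) (hA : Cfsg.IsElementaryAbelian p A) (hA3 : p ^ 3 ≤ Nat.card ↥A) (θ : G → Subgroup G) (hθ : Cfsg.IsSolvableSignalizerFunctor p A θ) (q : ℕ) [Fact q.Prime] (hq : ∀ a ∈ A, a ≠ 1 → IsPGroup q ↥(θ a)) : Cfsg.IsCompleteSignalizerFunctor p A θ := by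
  refine ⟨hθ.1, ?_⟩
  obtain ⟨Q, hQ, _⟩ := Cfsg.Agent.Lib.Helper27.exists_isMaxQ_ge (p := p) (A := A) (θ := θ) (q := q)
    Cfsg.Agent.Lib.Helper27.family_bot IsPGroup.of_bot
  refine ⟨Q, hQ.1.2.2.1, hQ.1.2.1, ?_⟩
  intro a ha ha1
  apply le_antisymm (hQ.1.2.2.2 a ha ha1)
  refine le_inf ?_ (hθ.1.1 a ha ha1)
  obtain ⟨Qs, hQs, hle⟩ := Cfsg.Agent.Lib.Helper27.exists_isMaxQ_ge
    (Cfsg.Agent.Lib.Helper27.family_theta hθ ha ha1) (hq a ha ha1)
  obtain ⟨c, hc, hcQ⟩ := Cfsg.Agent.Lib.Helper27.transitivity hA hA3 hθ Qs Q hQs hQ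
  have hcθ : c ∈ θ a := Cfsg.Agent.Lib.Helper27.mem_signalizerInf.1 hc a ha ha1
  rw [← hcQ, ← Cfsg.Agent.Lib.Helper30.cj_eq_of_mem hcθ]
  exact Cfsg.Agent.Lib.Helper30.cj_mono c hle

end Cfsg.Agent.S1285
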