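import Cfsg.Statements.S1286
-- import your own Cfsg.Agent.* helpers here

set_option autoImplicit false
open Cfsg

namespace Cfsg.Agent.S1286

abbrev X5 := Equiv.Perm (Fin 5)
def ea : X5 := Equiv.swap 0 1
def eb : X5 := Equiv.swap 2 3
def eg : X5 := Equiv.swap 2 3 * Equiv.swap 3 4
def eh : X5 := Equiv.swap 0 1 * Equiv.swap 1 4

def eA : Subgroup X5 where
  carrier := {x | x = 1 ∨ x = ea ∨ x = eb ∨ x = ea * eb}
  one_mem' := Or.inl rfl
  mul_mem' := by
    rintro x y (rfl | rfl | rfl | rfl) (rfl | rfl | rfl | rfl) <;> show _ ∨ _ ∨ _ ∨ _ <;> decide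
  inv_mem' := by
    rintro x (rfl | rfl | rfl | rfl) <;> show _ ∨ _ ∨ _ ∨ _ <;> decide

theorem mem_eA {x : X5} : x ∈ eA ↔ x = 1 ∨ x = ea ∨ x = eb ∨ x = ea * eb := Iff.rfl

def eθ (x : X5) : Subgroup X5 :=
  if x = ea then Subgroup.zpowers eg else if x = eb then Subgroup.zpowers eh else ⊥

theorem mem_zp3 {g x : X5} (hg : g ^ 3 = 1) (hx : x ∈ Subgroup.zpowers g) :
    x = 1 ∨ x = g ∨ x = g ^ 2 := by
  obtain ⟨k, rfl⟩ := hx
  have h1 : g ^ k = g ^ (k % 3) := by
    conv_lhs => rw [← Int.mul_ediv_add_emod k 3]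
    rw [zpow_add, zpow_mul]
    have : g ^ (3 : ℤ) = 1 := by exact_mod_cast hg
    rw [this, one_zpow, one_mul]
  have h2 : 0 ≤ k % 3 := Int.emod_nonneg _ (by norm_num)
  have h3 : k % 3 < 3 := Int.emod_lt_of_pos _ (by norm_num)
  show g ^ k = 1 ∨ g ^ k = g ∨ g ^ k = g ^ 2
  rw [h1]
  generalize k % 3 = m at *
  interval_cases m
  · left; simp
  · right; left; simp
  · right; right; rfl

theorem θa : eθ ea = Subgroup.zpowers eg := by simp [eθ]
theorem θb : eθ eb = Subgroup.zpowers eh := by
  have : eb ≠ ea := by decide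
  simp [eθ, this]
theorem θab : eθ (ea * eb) = ⊥ := by
  have h1 : ea * eb ≠ ea := by decide
  have h2 : ea * eb ≠ eb := by decide
  simp [eθ, h1, h2]

theorem eg3 : eg ^ 3 = 1 := by decide
theorem eh3 : eh ^ 3 = 1 := by decide

theorem card_zp {g : X5} (hg : g ^ 3 = 1) (h1 : g ≠ 1) : Nat.card (Subgroup.zpowers g) = 3 := by
  rw [Nat.card_zpowers]
  exact orderOf_eq_prime hg h1

theorem isSF : Cfsg.IsSignalizerFunctor 2 eA eθ := by
  refine ⟨?_, ?_, ?_, ?_⟩
  · rintro a (rfl | rfl | rfl | rfl) h1
    · exact absurd rfl h1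
    · rw [θa]
      intro x hx
      rw [Subgroup.mem_centralizer_singleton_iff]
      rcases mem_zp3 eg3 hx with rfl | rfl | rfl <;> decide
    · rw [θb]
      intro x hx
      rw [Subgroup.mem_centralizer_singleton_iff]
      rcases mem_zp3 eh3 hx with rfl | rfl | rfl <;> decide
    · rw [θab]; exact bot_le
  · rintro a (rfl | rfl | rfl | rfl) h1
    · exact absurd rfl h1
    · rw [θa, card_zp eg3 (by decide)]; decide
    · rw [θb, card_zp eh3 (by decide)]; decide
    · rw [θab]; simp
  · rintro a (rfl | rfl | rfl | rfl) h1 b hb x hx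
    · exact absurd rfl h1
    · rw [θa] at hx ⊢
      have key : ∀ y : X5, (y = 1 ∨ y = eg ∨ y = eg ^ 2) → y ∈ Subgroup.zpowers eg := by
        rintro y (rfl | rfl | rfl)
        · exact one_mem _
        · exact Subgroup.mem_zpowers _
        · exact pow_mem (Subgroup.mem_zpowers _) _
      apply key
      rcases hb with rfl | rfl | rfl | rfl <;> rcases mem_zp3 eg3 hx with rfl | rfl | rfl <;> decide
    · rw [θb] at hx ⊢
      have key : ∀ y : X5, (y = 1 ∨ y = eh ∨ y = eh ^ 2) → y ∈ Subgroup.zpowers eh := by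
        rintro y (rfl | rfl | rfl)
        · exact one_mem _
        · exact Subgroup.mem_zpowers _
        · exact pow_mem (Subgroup.mem_zpowers _) _
      apply key
      rcases hb with rfl | rfl | rfl | rfl <;> rcases mem_zp3 eh3 hx with rfl | rfl | rfl <;> decide
    · rw [θab] at hx ⊢
      rw [Subgroup.mem_bot] at hx ⊢
      subst hx; simp
  · rintro a (rfl | rfl | rfl | rfl) h1 b hb hb1 x hxx <;> obtain ⟨hx, hxc⟩ := Subgroup.mem_inf.1 hxx
    · exact absurd rfl h1
    · rw [θa] at hx
      rw [Subgroup.mem_centralizer_singleton_iff] at hxc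
      rcases hb with rfl | rfl | rfl | rfl
      · exact absurd rfl hb1
      · rw [θa]
        rcases mem_zp3 eg3 hx with rfl | rfl | rfl
        · exact one_mem _
        · exact Subgroup.mem_zpowers _
        · exact pow_mem (Subgroup.mem_zpowers _) _
      · rcases mem_zp3 eg3 hx with rfl | rfl | rfl
        · exact one_mem _
        · exact absurd hxc (by decide)
        · exact absurd hxc (by decide)
      · rcases mem_zp3 eg3 hx with rfl | rfl | rfl
        · exact one_mem _
        · exact absurd hxc (by decide)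
        · exact absurd hxc (by decide)
    · rw [θb] at hx
      rw [Subgroup.mem_centralizer_singleton_iff] at hxc
      rcases hb with rfl | rfl | rfl | rfl
      · exact absurd rfl hb1
      · rcases mem_zp3 eh3 hx with rfl | rfl | rfl
        · exact one_mem _
        · exact absurd hxc (by decide)
        · exact absurd hxc (by decide)
      · rw [θb]
        rcases mem_zp3 eh3 hx with rfl | rfl | rfl
        · exact one_mem _
        · exact Subgroup.mem_zpowers _
        · exact pow_mem (Subgroup.mem_zpowers _) _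
      · rcases mem_zp3 eh3 hx with rfl | rfl | rfl
        · exact one_mem _
        · exact absurd hxc (by decide)
        · exact absurd hxc (by decide)
    · rw [θab, Subgroup.mem_bot] at hx
      subst hx; exact one_mem _

/-- There exist a finite group X, an elementary abelian subgroup A of order 4 and a solvable A-signalizer functor θ on X for the prime 2 which is not complete. -/
theorem result : ∃ (X : Type) (_ : Group X) (_ : Finite X) (A : Subgroup X) (θ : X → Subgroup X), Cfsg.IsElementaryAbelian 2 A ∧ Nat.card ↥A = 4 ∧ Cfsg.IsSolvableSignalizerFunctor 2 A θ ∧ ¬ Cfsg.IsCompleteSignalizerFunctor 2 A θ := by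
  refine ⟨X5, inferInstance, inferInstance, eA, eθ, ⟨?_, ?_⟩, ?_, ⟨isSF, ?_⟩, ?_⟩
  · refine ⟨⟨?_⟩⟩
    rintro ⟨x, hx⟩ ⟨y, hy⟩
    apply Subtype.ext
    show x * y = y * x
    rcases hx with rfl | rfl | rfl | rfl <;> rcases hy with rfl | rfl | rfl | rfl <;> decide
  · rintro a (rfl | rfl | rfl | rfl) <;> decide
  · have : (eA : Set X5) = (({1, ea, eb, ea * eb} : Finset X5) : Set X5) := by
      ext x
      simp [mem_eA]
    have h2 : Nat.card eA = Nat.card ((eA : Set X5)) := rfl
    rw [h2, this, Nat.card_coe_set_eq, Set.ncard_coe_finset]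
    decide
  · rintro a (rfl | rfl | rfl | rfl) h1
    · exact absurd rfl h1
    · rw [θa]; infer_instance
    · rw [θb]; infer_instance
    · rw [θab]; infer_instance
  · rintro ⟨-, X, -, hX2, hX⟩
    have hg : eg ∈ X := by
      have := hX ea (Or.inr (Or.inl rfl)) (by decide)
      rw [θa] at this
      have h2 : eg ∈ X ⊓ Subgroup.centralizer {ea} := this ▸ Subgroup.mem_zpowers _
      exact h2.1
    have hh : eh ∈ X := by
      have := hX eb (Or.inr (Or.inr (Or.inl rfl))) (by decide)
      rw [θb] at this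
      have h2 : eh ∈ X ⊓ Subgroup.centralizer {eb} := this ▸ Subgroup.mem_zpowers _
      exact h2.1
    have hw : eg * eh * eg * eh⁻¹ ∈ X := X.mul_mem (X.mul_mem (X.mul_mem hg hh) hg) (X.inv_mem hh)
    apply hX2
    have ho : orderOf (⟨eg * eh * eg * eh⁻¹, hw⟩ : X) = 2 := by
      rw [Subgroup.orderOf_mk]
      exact orderOf_eq_prime (by decide) (by decide)
    rw [← ho]
    exact orderOf_dvd_natCard _

end Cfsg.Agent.S1286
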