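import Cfsg.Statements.S1287
import Cfsg.Agent.Lib.Helper53.OrderFormula

set_option autoImplicit false
open scoped Pointwise
open Cfsg

namespace Cfsg.Agent.S1287

open Cfsg.Agent.Lib.Helper53 Subgroup
open scoped Pointwise

theorem arith {p e u v s t : ℕ} (hp : 2 ≤ p) (hu : 0 < u) (hv : 0 < v) (ht : 0 < t) (hts : t ≤ s)
    (h : u ^ p * s ^ e * v = v ^ p * t ^ e * u) : u ≤ v := by
  by_contra hlt
  have hlt : v < u := not_le.1 hlt
  obtain ⟨j, rfl⟩ : ∃ j, p = j + 1 := ⟨p - 1, by omega⟩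
  have hj : j ≠ 0 := by omega
  have h0 : u ^ j * (u * v) * s ^ e = v ^ j * (u * v) * t ^ e := by
    calc u ^ j * (u * v) * s ^ e = u ^ (j + 1) * s ^ e * v := by ring
      _ = v ^ (j + 1) * t ^ e * u := h
      _ = v ^ j * (u * v) * t ^ e := by ring
  have h1 : v ^ j < u ^ j := Nat.pow_lt_pow_left hlt hj
  have h2 : v ^ j * (u * v) < u ^ j * (u * v) := Nat.mul_lt_mul_of_pos_right h1 (Nat.mul_pos hu hv)
  have h3 : v ^ j * (u * v) * t ^ e < u ^ j * (u * v) * t ^ e :=
    Nat.mul_lt_mul_of_pos_right h2 (Nat.pow_pos ht)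
  have h4 : u ^ j * (u * v) * t ^ e ≤ u ^ j * (u * v) * s ^ e :=
    Nat.mul_le_mul_left _ (Nat.pow_le_pow_left hts e)
  omega

theorem exists_rank_two {H : Type*} [Group H] [Finite H] (p : ℕ) [Fact p.Prime] (A : Subgroup H)
    (hA : Cfsg.IsElementaryAbelian p A) (hA2 : p ^ 2 ≤ Nat.card ↥A) :
    ∃ A0 : Subgroup H, A0 ≤ A ∧ Cfsg.IsElementaryAbelian p A0 ∧ Nat.card A0 = p ^ 2 := by
  have hp := (Fact.out : p.Prime)
  have hpg : IsPGroup p A := fun a => ⟨1, by
    rw [pow_one]; exact Subtype.ext (by simpa using hA.2 a a.2)⟩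
  obtain ⟨k, hk⟩ := IsPGroup.iff_card.1 hpg
  have h2k : 2 ≤ k := by
    rw [hk] at hA2
    exact (Nat.pow_le_pow_iff_right hp.one_lt).1 hA2
  obtain ⟨K0, hK0⟩ := Sylow.exists_subgroup_card_pow_prime (G := A) p (n := 2)
    (hk ▸ pow_dvd_pow p h2k)
  have hle : K0.map A.subtype ≤ A := map_subtype_le K0
  refine ⟨K0.map A.subtype, hle, ⟨⟨⟨fun a b => ?_⟩⟩, fun a ha => hA.2 a (hle ha)⟩, ?_⟩
  · have := hA.1.is_comm.comm ⟨a, hle a.2⟩ ⟨b, hle b.2⟩
    have h2 : (a : H) * (b : H) = (b : H) * (a : H) := congrArg Subtype.val this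
    exact Subtype.ext h2
  · rw [card_map_of_injective A.subtype_injective, hK0]

theorem card_prod_le {H : Type*} [Group H] [Finite H] {K X Y : Subgroup H} (hX : X ≤ K) (hY : Y ≤ K) :
    Nat.card X * Nat.card Y ≤ Nat.card K * Nat.card ↥(X ⊓ Y) := by
  rw [← Cfsg.Agent.Lib.Helper12.card_mul_set_mul_card_inf X Y]
  apply Nat.mul_le_mul_right
  apply Nat.card_mono (Set.toFinite _)
  rintro _ ⟨x, hx, y, hy, rfl⟩
  exact K.mul_mem (hX hx) (hY hy)

/-- Let A be a noncyclic elementary abelian p-subgroup of a finite group H normalizing a subgroup K of order prime to p, and X, Y ≤ K subgroups normalized by A with C_K(a) = C_X(a) C_Y(a) (as sets) for every non-identity a ∈ A, where X is also normalized by C_K(A). Then K = XY as sets. -/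
theorem result {H : Type*} [Group H] [Finite H] (p : ℕ) [Fact p.Prime] (A K X Y : Subgroup H) (hA : Cfsg.IsElementaryAbelian p A) (hA2 : p ^ 2 ≤ Nat.card ↥A) (hK : ¬ p ∣ Nat.card ↥K) (hAK : A ≤ Subgroup.normalizer (K : Set H)) (hX : X ≤ K) (hY : Y ≤ K) (hAX : A ≤ Subgroup.normalizer (X : Set H)) (hAY : A ≤ Subgroup.normalizer (Y : Set H)) (hCX : K ⊓ Subgroup.centralizer (A : Set H) ≤ Subgroup.normalizer (X : Set H)) (hfac : ∀ a ∈ A, a ≠ 1 → ((K ⊓ Subgroup.centralizer {a} : Subgroup H) : Set H) = ((X ⊓ Subgroup.centralizer {a} : Subgroup H) : Set H) * ((Y ⊓ Subgroup.centralizer {a} : Subgroup H) : Set H)) : (K : Set H) = (X : Set H) * (Y : Set H) := by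
  classical
  have hp := (Fact.out : p.Prime)
  obtain ⟨A0, hA0A, hA0, hcard⟩ := exists_rank_two p A hA hA2
  let _ : Fintype A0 := Fintype.ofFinite _
  have hnd : ∀ U : Subgroup H, U ≤ K → ¬ p ∣ Nat.card U := fun U hU h =>
    hK (h.trans (card_dvd_of_le hU))
  have ofK := order_formula hA0 hcard hK (hA0A.trans hAK)
  have ofX := order_formula hA0 hcard (hnd X hX) (hA0A.trans hAX)
  have ofY := order_formula hA0 hcard (hnd Y hY) (hA0A.trans hAY)
  have ofI := order_formula hA0 hcard (hnd (X ⊓ Y) (inf_le_left.trans hX))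
    (Cfsg.Agent.Lib.Helper30.le_normalizer_inf (hA0A.trans hAX) (hA0A.trans hAY))
  have hinf : ∀ D : Set H, (X ⊓ centralizer D) ⊓ (Y ⊓ centralizer D) = (X ⊓ Y) ⊓ centralizer D := by
    intro D
    exact (inf_inf_distrib_right X Y (centralizer D)).symm
  have hone : ∀ U : Subgroup H, U ⊓ centralizer {((1 : A0) : H)} = U := by
    intro U
    rw [inf_eq_left]
    intro x _
    rw [mem_centralizer_iff]
    intro y hy
    rw [Set.mem_singleton_iff.1 hy]
    simp
  have hsplit : ∀ U : Subgroup H, ∏ a : A0, Nat.card ↥(U ⊓ centralizer {(a : H)}) =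
      Nat.card U * ∏ a ∈ (Finset.univ : Finset A0).erase 1, Nat.card ↥(U ⊓ centralizer {(a : H)}) := by
    intro U
    rw [← Finset.mul_prod_erase Finset.univ _ (Finset.mem_univ (1 : A0)), hone]
  have hterm : ∀ a ∈ (Finset.univ : Finset A0).erase 1,
      Nat.card ↥(K ⊓ centralizer {(a : H)}) * Nat.card ↥((X ⊓ Y) ⊓ centralizer {(a : H)}) =
      Nat.card ↥(X ⊓ centralizer {(a : H)}) * Nat.card ↥(Y ⊓ centralizer {(a : H)}) := by
    intro a ha
    have ha1 : (a : H) ≠ 1 := fun h => (Finset.mem_erase.1 ha).1 (Subtype.ext h)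
    have h1 := Cfsg.Agent.Lib.Helper12.card_mul_set_mul_card_inf (X ⊓ centralizer {(a : H)})
      (Y ⊓ centralizer {(a : H)})
    rw [← hfac a (hA0A a.2) ha1, hinf] at h1
    exact h1
  have hprod := Finset.prod_congr rfl hterm
  rw [Finset.prod_mul_distrib, Finset.prod_mul_distrib] at hprod
  rw [hsplit] at ofK ofX ofY ofI
  have hpos : ∀ U : Subgroup H, 0 < Nat.card U := fun U => Nat.card_pos
  have hmain : (Nat.card K * Nat.card ↥(X ⊓ Y)) ≤ Nat.card X * Nat.card Y := by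
    apply arith (p := p) (e := p * (p - 1))
      (s := Nat.card ↥(K ⊓ centralizer (A0 : Set H)) * Nat.card ↥((X ⊓ Y) ⊓ centralizer (A0 : Set H)))
      (t := Nat.card ↥(X ⊓ centralizer (A0 : Set H)) * Nat.card ↥(Y ⊓ centralizer (A0 : Set H)))
      hp.two_le (Nat.mul_pos (hpos _) (hpos _)) (Nat.mul_pos (hpos _) (hpos _))
      (Nat.mul_pos (hpos _) (hpos _))
    · rw [← hinf]
      exact card_prod_le (inf_le_inf_right _ hX) (inf_le_inf_right _ hY)
    · rw [mul_pow, mul_pow, mul_pow, mul_pow]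
      calc _ = (Nat.card K ^ p * Nat.card ↥(K ⊓ centralizer (A0 : Set H)) ^ (p * (p - 1))) *
            (Nat.card ↥(X ⊓ Y) ^ p * Nat.card ↥((X ⊓ Y) ⊓ centralizer (A0 : Set H)) ^ (p * (p - 1))) *
            (Nat.card X * Nat.card Y) := by ring
        _ = (Nat.card X ^ p * Nat.card ↥(X ⊓ centralizer (A0 : Set H)) ^ (p * (p - 1))) *
            (Nat.card Y ^ p * Nat.card ↥(Y ⊓ centralizer (A0 : Set H)) ^ (p * (p - 1))) *
            (Nat.card K * Nat.card ↥(X ⊓ Y)) := by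
          rw [← ofK, ← ofX, ← ofY, ← ofI]
          calc _ = ((∏ a ∈ (Finset.univ : Finset A0).erase 1, Nat.card ↥(K ⊓ centralizer {(a : H)})) *
                (∏ a ∈ (Finset.univ : Finset A0).erase 1, Nat.card ↥((X ⊓ Y) ⊓ centralizer {(a : H)}))) *
                (Nat.card K * Nat.card ↥(X ⊓ Y) * (Nat.card X * Nat.card Y)) := by ring
            _ = _ := by rw [hprod]; ring
        _ = _ := by ring
  symm
  apply Set.eq_of_subset_of_ncard_le _ _ (Set.toFinite _)
  · rintro _ ⟨x, hx, y, hy, rfl⟩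
    exact K.mul_mem (hX hx) (hY hy)
  · rw [← Cfsg.Agent.Lib.Helper12.card_mul_set_mul_card_inf X Y] at hmain
    have := Nat.le_of_mul_le_mul_right hmain (hpos _)
    rw [← Nat.card_coe_set_eq, ← Nat.card_coe_set_eq]
    exact this

end Cfsg.Agent.S1287
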