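import Cfsg.Statements.S1288
-- import your own Cfsg.Agent.* helpers here
import Cfsg.Agent.S1324
import Cfsg.Agent.Lib.Helper27.CharSub
import Cfsg.Agent.Lib.Helper27.SolvBalance
import Cfsg.Agent.Lib.Helper27.Transitivity

set_option autoImplicit false
open Cfsg

namespace Cfsg.Agent.S1288

open scoped commutatorElement

/-- Let A be a noncyclic elementary abelian p-subgroup of a finite group H normalizing a solvable subgroup K of order prime to p, q a prime dividing |K|, and U ≤ K a subgroup of order prime to q such that ⁅U, C_K(B)⁆ has order prime to q for every subgroup B of index p in A. Then U ≤ O_{q'}(K). -/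
theorem result {H : Type*} [Group H] [Finite H] (p : ℕ) [Fact p.Prime] (A K : Subgroup H) (hA : Cfsg.IsElementaryAbelian p A) (hA2 : p ^ 2 ≤ Nat.card ↥A) (hK : ¬ p ∣ Nat.card ↥K) (hKs : Group.IsSolvable ↥K) (hAK : A ≤ Subgroup.normalizer (K : Set H)) (q : ℕ) [Fact q.Prime] (hqK : q ∣ Nat.card ↥K) (U : Subgroup H) (hU : U ≤ K) (hUq : ¬ q ∣ Nat.card ↥U) (hcomm : ∀ B : Subgroup H, B ≤ A → B.relIndex A = p → ¬ q ∣ Nat.card ↥⁅U, K ⊓ Subgroup.centralizer (B : Set H)⁆) : U ≤ (Cfsg.pPrimeCore q ↥K).map K.subtype := by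
  classical
  have hApg : IsPGroup p A := Cfsg.Agent.Lib.Helper27.ea_isPGroup hA
  set O' := Cfsg.pPrimeCore q ↥K with hO'
  set π := QuotientGroup.mk' O' with hπ
  have hπs : Function.Surjective π := QuotientGroup.mk'_surjective _
  set V := Cfsg.pCore q (↥K ⧸ O') with hV
  have hVq : IsPGroup q V := Cfsg.Agent.Lib.Helper28.pCore_isPGroup q
  have hcon : Subgroup.centralizer (V : Set (↥K ⧸ O')) ≤ V :=
    Cfsg.Agent.Lib.Helper27.centralizer_pCore_le_of_solvable q inferInstance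
      (Cfsg.Agent.Lib.Helper29.pPrimeCore_quotient_eq_bot q)
  set W' := V.comap π with hW'
  have hW'char : W'.Characteristic :=
    Cfsg.Agent.Lib.Helper27.comap_pCore_quotient_characteristic q ↥K
  have hW'n : W'.Normal := inferInstance
  set W := W'.map K.subtype with hW
  have hAW : A ≤ Subgroup.normalizer (W : Set H) :=
    hAK.trans (Cfsg.Agent.Lib.Helper27.le_normalizer_map_of_characteristic W')
  have hWK : W ≤ K := Subgroup.map_subtype_le _
  have hWp : ¬ p ∣ Nat.card W := Cfsg.Agent.Lib.Helper27.not_dvd_card_of_le hWK hK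
  have hgen := Cfsg.Agent.S1324.result p A W hA hA2 hWp hAW
  set U' := U.subgroupOf K with hU'
  set T := ((Subgroup.centralizer ((U'.map π : Subgroup (↥K ⧸ O')) : Set (↥K ⧸ O'))).comap π).map
    K.subtype with hT
  obtain ⟨B₁, hB₁A, hB₁⟩ := Cfsg.Agent.Lib.Helper27.exists_relIndex_eq_prime hApg
    (le_trans (by nlinarith [(Fact.out : p.Prime).one_lt]) hA2)
  have hWT : W ≤ T := by
    rw [hgen]
    refine iSup_le ?_
    rintro ⟨B, hBA, hBp⟩ c hc
    obtain ⟨hcW, hcB⟩ := Subgroup.mem_inf.1 hc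
    -- a hyperplane centralized by `c`
    obtain ⟨B₀, hB₀A, hB₀, hcB₀⟩ : ∃ B₀ : Subgroup H, B₀ ≤ A ∧ B₀.relIndex A = p ∧
        c ∈ Subgroup.centralizer (B₀ : Set H) := by
      rcases Cfsg.Agent.Lib.Helper27.relIndex_eq_one_or_prime hApg hBp with h1 | h1
      · refine ⟨B₁, hB₁A, hB₁, ?_⟩
        exact Subgroup.centralizer_le (hB₁A.trans (Subgroup.relIndex_eq_one.1 h1)) hcB
      · exact ⟨B, hBA, h1, hcB⟩
    have hR := hcomm B₀ hB₀A hB₀
    obtain ⟨c', hc', rfl⟩ := hcW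
    refine ⟨c', ?_, rfl⟩
    rw [SetLike.mem_coe, Subgroup.mem_comap, Subgroup.mem_centralizer_iff]
    rintro _ ⟨u', hu', rfl⟩
    have h1 : ⁅(u' : H), (c' : H)⁆ ∈ ⁅U, K ⊓ Subgroup.centralizer (B₀ : Set H)⁆ :=
      Subgroup.commutator_mem_commutator hu' (Subgroup.mem_inf.2 ⟨c'.2, hcB₀⟩)
    have h2 : ⁅(u' : H), (c' : H)⁆ ^ Nat.card ↥⁅U, K ⊓ Subgroup.centralizer (B₀ : Set H)⁆ = 1 :=
      Cfsg.Agent.Lib.Helper29.pow_card_subgroup_eq_one _ h1
    have h3 : (π ⁅u', c'⁆) ^ Nat.card ↥⁅U, K ⊓ Subgroup.centralizer (B₀ : Set H)⁆ = 1 := by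
      rw [← map_pow]
      have : ⁅u', c'⁆ ^ Nat.card ↥⁅U, K ⊓ Subgroup.centralizer (B₀ : Set H)⁆ = 1 :=
        Subtype.ext h2
      rw [this, map_one]
    have h4 : π ⁅u', c'⁆ ∈ V := by
      have : ⁅u', c'⁆ ∈ W' := by
        rw [commutatorElement_def]
        exact W'.mul_mem (hW'n.conj_mem c' hc' u') (W'.inv_mem hc')
      exact this
    obtain ⟨k, hk⟩ := hVq ⟨_, h4⟩
    have h5 : (π ⁅u', c'⁆) ^ q ^ k = 1 := congrArg Subtype.val hk
    have h6 := pow_gcd_eq_one.2 ⟨h3, h5⟩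
    have hcop : (Nat.card ↥⁅U, K ⊓ Subgroup.centralizer (B₀ : Set H)⁆).Coprime (q ^ k) :=
      Nat.Coprime.pow_right k ((Cfsg.Agent.Lib.Helper28.coprime_iff_not_dvd _).2 hR)
    rw [hcop.gcd_eq_one, pow_one, map_commutatorElement,
      commutatorElement_eq_one_iff_mul_comm] at h6
    exact h6
  have hUV : U'.map π ≤ Subgroup.centralizer (V : Set (↥K ⧸ O')) := by
    rw [Subgroup.le_centralizer_iff]
    intro v hv
    obtain ⟨w', rfl⟩ := hπs v
    have h1 : (w' : H) ∈ W := Subgroup.mem_map_of_mem K.subtype (show w' ∈ W' from hv)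
    obtain ⟨t', ht', hte⟩ := hWT h1
    have : t' = w' := Subtype.ext hte
    rw [this] at ht'
    exact ht'
  have hUq : (Nat.card (U'.map π)).Coprime q := by
    rw [Cfsg.Agent.Lib.Helper28.coprime_iff_not_dvd]
    intro hdvd
    apply hUq
    have h1 := hdvd.trans (Subgroup.card_map_dvd U' π)
    rwa [Cfsg.Agent.Lib.Helper30.card_subgroupOf hU] at h1
  have hbot := Cfsg.Agent.Lib.Helper28.inf_eq_bot_of_isPGroup_of_coprime hVq hUq
  have h7 : U'.map π ≤ ⊥ := hbot ▸ le_inf (hUV.trans hcon) le_rfl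
  rw [le_bot_iff, Subgroup.map_eq_bot_iff, hπ, QuotientGroup.ker_mk'] at h7
  intro u hu
  exact ⟨⟨u, hU hu⟩, h7 hu, rfl⟩

end Cfsg.Agent.S1288
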