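import Cfsg.Statements.S1289
import Cfsg.Agent.Lib.Helper29.PComp

set_option autoImplicit false
open Cfsg

namespace Cfsg.Agent.S1289

open Cfsg.Agent.Lib.Helper29

/-- A p-component K of the finite group X is subnormal, perfect, of order divisible by p, and minimal among the subnormal perfect subgroups of X of order divisible by p. -/
theorem result {X : Type*} [Group X] [Finite X] (p : ℕ) [Fact p.Prime] (K : Subgroup X) (hK : Cfsg.IsPComponent p K) : K.IsSubnormal ∧ ⁅K, K⁆ = K ∧ p ∣ Nat.card ↥K ∧ ∀ H : Subgroup X, H ≤ K → H.IsSubnormal → ⁅H, H⁆ = H → p ∣ Nat.card ↥H → H = K := by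
  refine ⟨hK.1, IsPComponent.perfect hK, ?_, ?_⟩
  · by_contra hcon
    have h1 : ¬ p ∣ Nat.card (K.map (qm p X)) := fun h => hcon (h.trans (Subgroup.card_map_dvd _ _))
    have h2 : K.map (qm p X) ≤ pPrimeCore p (X ⧸ pPrimeCore p X) :=
      Cfsg.Agent.Lib.Helper28.subnormal_le_pPrimeCore hK.2.1.1
        ((Cfsg.Agent.Lib.Helper28.coprime_iff_not_dvd _).mpr h1)
    rw [pPrimeCore_quotient_eq_bot, le_bot_iff] at h2
    exact Cfsg.Agent.Lib.Helper27.qs_ne_bot hK.2.1.2 h2
  · intro H hle hH hperf hdvd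
    have hle' : H.map (qm p X) ≤ K.map (qm p X) := Subgroup.map_mono hle
    rcases Cfsg.Agent.Lib.Helper27.qs_sub_subnormal hK.2.1.2 hle'
      (hH.map (qm_surjective p)).subgroupOf with h | h
    · exact hK.2.2 H hH hle h
    · exfalso
      have h1 : ⁅H.map (qm p X), H.map (qm p X)⁆ = ⊥ := by
        rw [eq_bot_iff, ← h]
        exact Subgroup.commutator_mono le_rfl hle'
      rw [← Subgroup.map_commutator, hperf] at h1
      have h2 : H ≤ pPrimeCore p X := by
        rw [← ker_qm p]
        exact (Subgroup.map_eq_bot_iff _).mp h1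
      exact Cfsg.Agent.Lib.Helper28.pPrimeCore_not_dvd (G := X) p
        (hdvd.trans (Subgroup.card_dvd_of_le h2))

end Cfsg.Agent.S1289
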