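import Cfsg.Statements.S1297
-- import your own Cfsg.Agent.* helpers here
import Cfsg.Agent.Lib.Helper27.KBalance2

set_option autoImplicit false
open Cfsg

namespace Cfsg.Agent.S1297

/-- Let G be finite. Suppose that for every involution x, writing C = C_G(x), every component K of C / O(C) has K / Z(K) locally balanced. Then G is balanced. -/
theorem result {G : Type*} [Group G] [Finite G] (h : ∀ x : G, orderOf x = 2 → ∀ K : Subgroup (↥(Subgroup.centralizer ({x} : Set G)) ⧸ Cfsg.oddCore ↥(Subgroup.centralizer ({x} : Set G))), Cfsg.IsComponent K → Cfsg.IsLocallyBalanced (↥K ⧸ Subgroup.center ↥K)) : Cfsg.IsBalanced G := by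
  have key : ∀ x y : G, orderOf x = 2 → orderOf y = 2 → x * y = y * x →
      Cfsg.centralizerPPrimeCore 2 x ⊓ Subgroup.centralizer {y} ≤
        Cfsg.centralizerPPrimeCore 2 y := by
    intro x y hx hy hxy
    have hx2 : x ^ 2 = 1 := hx ▸ pow_orderOf_eq_one x
    have hA : Cfsg.IsElementaryAbelian 2 (Subgroup.zpowers x) := by
      refine ⟨inferInstance, ?_⟩
      rintro _ ⟨n, rfl⟩
      show (x ^ n) ^ 2 = 1
      rw [← zpow_natCast, ← zpow_mul, mul_comm, zpow_mul, zpow_natCast, hx2, one_zpow]
    have hcard : Nat.card (Subgroup.zpowers x) = 2 ^ 1 := by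
      rw [Nat.card_zpowers, hx, pow_one]
    have h1 := Cfsg.Agent.Lib.Helper27.delta_inf_centralizer_le_cpc 2 1 le_rfl hA hcard (b := y)
      (by
        rw [Subgroup.zpowers_le, Subgroup.mem_centralizer_singleton_iff]
        exact hxy)
      (by
        intro K hK
        apply Cfsg.Agent.Lib.Helper27.locKB_of_isLocallyKBalanced_quot
          (Cfsg.Agent.Lib.Helper27.comp_perfect hK)
        intro H hH E hE hEc
        obtain ⟨e, he, hne⟩ := Cfsg.Agent.Lib.Helper27.exists_ne_one_of_card le_rfl hEc
        have ho : orderOf e = 2 := orderOf_eq_prime (hE.2 e he) hne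
        rw [eq_bot_iff, ← h y hy K hK H hH e ho]
        exact Cfsg.Agent.Lib.Helper27.delta_le_cpc 2 he hne)
    refine le_trans (inf_le_inf_right _ ?_) h1
    refine le_iInf ?_
    rintro ⟨a, ha, hne⟩
    obtain ⟨n, rfl⟩ := ha
    have : x ^ n = x := by
      rcases Int.even_or_odd' n with ⟨m, rfl | rfl⟩
      · exfalso
        apply hne
        show x ^ (2 * m) = 1
        rw [zpow_mul]
        have : x ^ (2 : ℤ) = 1 := by exact_mod_cast hx2
        rw [this, one_zpow]
      · rw [zpow_add, zpow_mul]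
        have : x ^ (2 : ℤ) = 1 := by exact_mod_cast hx2
        rw [this, one_zpow, one_mul, zpow_one]
    show _ ≤ Cfsg.centralizerPPrimeCore 2 (x ^ n)
    rw [this]
  intro x y hx hy hxy
  apply le_antisymm
  · exact le_inf (key x y hx hy hxy) (inf_le_left.trans (Cfsg.Agent.Lib.Helper27.cpc_le 2 x))
  · exact le_inf (key y x hy hx hxy.symm) (inf_le_left.trans (Cfsg.Agent.Lib.Helper27.cpc_le 2 y))

end Cfsg.Agent.S1297
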