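import Cfsg.Statements.S1303
import Cfsg.Agent.Lib.Helper37.PConstr

set_option autoImplicit false
open Cfsg

namespace Cfsg.Agent.S1303

abbrev SL23 := Matrix.SpecialLinearGroup (Fin 2) (ZMod 3)

open Matrix in
def w3 : SL23 := ⟨!![1, 1; 0, 1], by decide⟩

open Matrix in
def z3 : SL23 := ⟨!![-1, 0; 0, -1], by decide⟩

set_option maxRecDepth 100000 in
theorem q_mul : ∀ a b : SL23, a ^ 4 = 1 → b ^ 4 = 1 → (a * b) ^ 4 = 1 := by
  decide +kernel

set_option maxRecDepth 100000 in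
theorem q_cent : ∀ c : SL23, (∀ q : SL23, q ^ 4 = 1 → q * c = c * q) → c ^ 4 = 1 := by
  decide +kernel

set_option maxRecDepth 100000 in
theorem inv_central : ∀ t : SL23, t ^ 2 = 1 → ∀ g : SL23, g * t = t * g := by
  decide +kernel

set_option maxRecDepth 100000 in
theorem z_in : ∀ x : SL23, x ≠ 1 → x = z3 ∨ x ^ 2 = z3 ∨ x ^ 3 = z3 ∨
    ∃ a : SL23, (x⁻¹ * (a * x * a⁻¹)) ^ 2 = z3 := by
  decide +kernel

set_option maxRecDepth 100000 in
theorem small : z3 ≠ 1 ∧ z3 ^ 2 = 1 ∧ w3 ≠ 1 ∧ w3 ^ 3 = 1 := by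
  decide +kernel

/-- the quaternion subgroup -/
def Q8 : Subgroup SL23 where
  carrier := {g | g ^ 4 = 1}
  mul_mem' := fun {a b} ha hb => q_mul a b ha hb
  one_mem' := one_pow 4
  inv_mem' := fun {a} ha => by
    show (a⁻¹) ^ 4 = 1
    rw [inv_pow, show a ^ 4 = 1 from ha, inv_one]

instance : Q8.Normal := ⟨fun a ha g => by
  show (g * a * g⁻¹) ^ 4 = 1
  rw [conj_pow, show a ^ 4 = 1 from ha, mul_one, mul_inv_cancel]⟩

theorem Q8_pgroup : IsPGroup 2 Q8 := fun g => ⟨2, by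
  apply Subtype.ext
  have : (g : SL23) ^ 4 = 1 := g.2
  simpa using this⟩

theorem Q8_le : Q8 ≤ Cfsg.pCore 2 SL23 := le_sSup ⟨inferInstance, Q8_pgroup⟩

theorem core_bot : Cfsg.pPrimeCore 2 SL23 = ⊥ := by
  rw [Cfsg.pPrimeCore, eq_bot_iff]
  apply sSup_le
  rintro N ⟨hN, hc⟩
  intro x hx
  rw [Subgroup.mem_bot]
  by_contra hne
  have hz : z3 ∈ N := by
    rcases z_in x hne with h | h | h | ⟨a, h⟩
    · exact h ▸ hx
    · exact h ▸ N.pow_mem hx 2
    · exact h ▸ N.pow_mem hx 3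
    · exact h ▸ N.pow_mem (N.mul_mem (N.inv_mem hx) (hN.conj_mem x hx a)) 2
  have ho : orderOf z3 = 2 := orderOf_eq_prime small.2.1 small.1
  have hd : 2 ∣ Nat.card N := by
    have := Subgroup.orderOf_dvd_natCard N hz
    rwa [ho] at this
  have := Nat.Coprime.eq_one_of_dvd hc.symm hd
  omega

theorem result : Cfsg.IsPConstrained 2 (Matrix.SpecialLinearGroup (Fin 2) (ZMod 3)) ∧ Cfsg.pPrimeCore 2 (Matrix.SpecialLinearGroup (Fin 2) (ZMod 3)) = ⊥ ∧ (∀ t : Matrix.SpecialLinearGroup (Fin 2) (ZMod 3), orderOf t = 2 → t ∈ Subgroup.center (Matrix.SpecialLinearGroup (Fin 2) (ZMod 3))) ∧ ∃ Q : Subgroup (Matrix.SpecialLinearGroup (Fin 2) (ZMod 3)), Nat.card ↥Q = 3 ∧ ¬ (Q ≤ Cfsg.pPrimeCore 2 (Matrix.SpecialLinearGroup (Fin 2) (ZMod 3))) := by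
  refine ⟨?_, core_bot, ?_, ?_⟩
  · haveI : Fact (Nat.Prime 2) := ⟨Nat.prime_two⟩
    apply Cfsg.Agent.Lib.Helper37.CharP.isPConstrained
    intro c hc
    apply Q8_le
    apply q_cent c
    intro q hq
    exact hc q (Q8_le hq)
  · intro t ht
    rw [Subgroup.mem_center_iff]
    intro g
    exact inv_central t (by have := pow_orderOf_eq_one t; rwa [ht] at this) g
  · refine ⟨Subgroup.zpowers w3, ?_, ?_⟩
    · rw [Nat.card_zpowers]
      haveI : Fact (Nat.Prime 3) := ⟨Nat.prime_three⟩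
      exact orderOf_eq_prime small.2.2.2 small.2.2.1
    · rw [core_bot]
      intro h
      have := h (Subgroup.mem_zpowers w3)
      rw [Subgroup.mem_bot] at this
      exact small.2.2.1 this

end Cfsg.Agent.S1303
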