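import Cfsg.Statements.S1304
-- import your own Cfsg.Agent.* helpers here
import Mathlib

set_option autoImplicit false
open Cfsg

namespace Cfsg.Agent.S1304

/-- Let X be a perfect group and α an automorphism of X with α(x) x⁻¹ central for every x. Then α is the identity. -/
theorem result {X : Type*} [Group X] (hperf : commutator X = ⊤) (α : X ≃* X) (h : ∀ x : X, α x * x⁻¹ ∈ Subgroup.center X) : ∀ x : X, α x = x := by
  have key : ∀ a b : X, α (a * b * a⁻¹ * b⁻¹) = a * b * a⁻¹ * b⁻¹ := by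
    intro a b
    have ha := h a
    have hb := h b
    rw [Subgroup.mem_center_iff] at ha hb
    set za := α a * a⁻¹ with hza
    set zb := α b * b⁻¹ with hzb
    have ea : α a = za * a := by simp [hza]
    have eb : α b = zb * b := by simp [hzb]
    simp only [map_mul, map_inv, ea, eb, mul_inv_rev]
    have h1 : ∀ g, g * za = za * g := ha
    have h2 : ∀ g, g * zb = zb * g := hb
    have h1' : ∀ g, g * za⁻¹ = za⁻¹ * g := by
      intro g
      calc g * za⁻¹ = za * (za⁻¹ * g * za⁻¹) := by group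
        _ = (za⁻¹ * g * za⁻¹) * za := (h1 _).symm
        _ = za⁻¹ * g := by group
    have h2' : ∀ g, g * zb⁻¹ = zb⁻¹ * g := by
      intro g
      calc g * zb⁻¹ = zb * (zb⁻¹ * g * zb⁻¹) := by group
        _ = (zb⁻¹ * g * zb⁻¹) * zb := (h2 _).symm
        _ = zb⁻¹ * g := by group
    calc za * a * (zb * b) * (a⁻¹ * za⁻¹) * (b⁻¹ * zb⁻¹)
        = za * (a * zb) * b * (a⁻¹ * za⁻¹) * (b⁻¹ * zb⁻¹) := by group
      _ = za * (zb * a) * b * (za⁻¹ * a⁻¹) * (zb⁻¹ * b⁻¹) := by rw [h2 a, h1' a⁻¹, h2' b⁻¹]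
      _ = za * zb * ((a * b) * za⁻¹) * a⁻¹ * zb⁻¹ * b⁻¹ := by group
      _ = za * zb * (za⁻¹ * (a * b)) * a⁻¹ * zb⁻¹ * b⁻¹ := by rw [h1' (a * b)]
      _ = za * (zb * za⁻¹) * ((a * b * a⁻¹) * zb⁻¹) * b⁻¹ := by group
      _ = za * (za⁻¹ * zb) * (zb⁻¹ * (a * b * a⁻¹)) * b⁻¹ := by rw [h1' zb, h2' (a * b * a⁻¹)]
      _ = a * b * a⁻¹ * b⁻¹ := by group
  intro x
  have hx : x ∈ commutator X := by rw [hperf]; trivial
  rw [commutator_eq_closure] at hx
  induction hx using Subgroup.closure_induction with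
  | mem y hy =>
    obtain ⟨a, b, rfl⟩ := hy
    rw [commutatorElement_def]
    exact key a b
  | one => simp
  | mul y z _ _ hy hz => rw [map_mul, hy, hz]
  | inv y _ hy => rw [map_inv, hy]

end Cfsg.Agent.S1304
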