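import Cfsg.Statements.S1305
-- import your own Cfsg.Agent.* helpers here
import Cfsg.Agent.Lib.Helper27.MaxComp

set_option autoImplicit false
open Cfsg

namespace Cfsg.Agent.S1305

open Cfsg.Agent.Lib.Helper27

/-- Let G be a finite group of component type with the B-property and no nontrivial normal subgroup of odd order. Let a be an involution and K a component of C_G(a) such that (a) |K| is maximal among the orders of components of centralizers of involutions of G, (b) subject to (a) the 2-rank of the centralizer of K in C_G(a) is as large as possible, and (c) K has 2-rank at least 2. If B is an elementary abelian 2-subgroup of that centralizer of the largest possible order, then K is a component of C_G(b) for every non-identity b ∈ B. -/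
theorem result {G : Type*} [Group G] [Finite G] (hO : Cfsg.oddCore G = ⊥) (hB : Cfsg.HasBProperty G) (hct : Cfsg.IsComponentType G) (a : G) (ha : orderOf a = 2) (K : Subgroup G) (hKa : K ≤ Subgroup.centralizer ({a} : Set G)) (hK : Cfsg.IsComponent (K.subgroupOf (Subgroup.centralizer ({a} : Set G)))) (hmax : ∀ y : G, orderOf y = 2 → ∀ K' : Subgroup G, K' ≤ Subgroup.centralizer ({y} : Set G) → Cfsg.IsComponent (K'.subgroupOf (Subgroup.centralizer ({y} : Set G))) → Nat.card ↥K' ≤ Nat.card ↥K ∧ (Nat.card ↥K' = Nat.card ↥K → ∀ k : ℕ, Cfsg.PRankLE 2 k ↥(Subgroup.centralizer ({a} : Set G) ⊓ Subgroup.centralizer (K : Set G)) → Cfsg.PRankLE 2 k ↥(Subgroup.centralizer ({y} : Set G) ⊓ Subgroup.centralizer (K' : Set G)))) (hrk : ¬ Cfsg.PRankLE 2 1 ↥K) (B : Subgroup G) (hBle : B ≤ Subgroup.centralizer ({a} : Set G) ⊓ Subgroup.centralizer (K : Set G)) (hBel : Cfsg.IsElementaryAbelian 2 B) (hBmax : ∀ B' : Subgroup G, B' ≤ Subgroup.centralizer ({a} : Set G) ⊓ Subgroup.centralizer (K : Set G) → Cfsg.IsElementaryAbelian 2 B' →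 Nat.card ↥B' ≤ Nat.card ↥B) (b : G) (hb : b ∈ B) (hb1 : b ≠ 1) : K ≤ Subgroup.centralizer ({b} : Set G) ∧ Cfsg.IsComponent (K.subgroupOf (Subgroup.centralizer ({b} : Set G))) := by
  classical
  have hbK : b ∈ Subgroup.centralizer (K : Set G) := (Subgroup.mem_inf.1 (hBle hb)).2
  have hba : b ∈ Subgroup.centralizer ({a} : Set G) := (Subgroup.mem_inf.1 (hBle hb)).1
  have hKb : K ≤ Subgroup.centralizer ({b} : Set G) := by
    intro k hk
    rw [Subgroup.mem_centralizer_singleton_iff]
    exact Subgroup.mem_centralizer_iff.1 hbK k hk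
  refine ⟨hKb, ?_⟩
  set C := Subgroup.centralizer ({b} : Set G) with hC
  have hab : a ∈ C :=
    Subgroup.mem_centralizer_singleton_iff.2 (Subgroup.mem_centralizer_singleton_iff.1 hba).symm
  have haa : a * a = 1 := by rw [← pow_two, ← ha]; exact pow_orderOf_eq_one a
  have hBC : B ≤ C := by
    intro x hx
    rw [hC, Subgroup.mem_centralizer_singleton_iff]
    exact ea_comm hBel hx hb
  -- `a ∈ B`
  have haB : a ∈ B := by
    have h1 : IsElementaryAbelian 2 (B ⊔ Subgroup.zpowers a) := by
      apply Cfsg.Agent.Lib.Helper14.IsElementaryAbelian.sup hBel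
        (Cfsg.Agent.Lib.Helper14.isElementaryAbelian_zpowers (by rw [pow_two]; exact haa))
      intro x hx y hy
      have h2 : Subgroup.zpowers a ≤ Subgroup.centralizer ({x} : Set G) := by
        rw [Subgroup.zpowers_le, Subgroup.mem_centralizer_singleton_iff]
        exact (Subgroup.mem_centralizer_singleton_iff.1 (Subgroup.mem_inf.1 (hBle hx)).1).symm
      exact (Subgroup.mem_centralizer_singleton_iff.1 (h2 hy)).symm
    have h3 : B ⊔ Subgroup.zpowers a ≤
        Subgroup.centralizer ({a} : Set G) ⊓ Subgroup.centralizer (K : Set G) := by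
      refine sup_le hBle ?_
      rw [Subgroup.zpowers_le]
      refine Subgroup.mem_inf.2 ⟨Subgroup.mem_centralizer_singleton_iff.2 rfl, ?_⟩
      rw [Subgroup.mem_centralizer_iff]
      intro k hk
      exact Subgroup.mem_centralizer_singleton_iff.1 (hKa hk)
    have h4 := Subgroup.eq_of_le_of_card_ge (le_sup_left : B ≤ B ⊔ Subgroup.zpowers a)
      (hBmax _ h3 h1)
    rw [h4]
    exact (le_sup_right : Subgroup.zpowers a ≤ B ⊔ Subgroup.zpowers a) (Subgroup.mem_zpowers a)
  have hb2 : orderOf b = 2 := orderOf_eq_prime (hBel.2 b hb) hb1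
  obtain ⟨A, hAc, hAe, hA2⟩ : ∃ A : Subgroup K, IsMulCommutative A ∧ (∀ x ∈ A, x ^ 2 = 1) ∧
      2 < Nat.card A := by
    unfold PRankLE at hrk
    push Not at hrk
    simpa using hrk
  have hAG : IsElementaryAbelian 2 (A.map K.subtype) :=
    Cfsg.Agent.Lib.Helper14.IsElementaryAbelian.map ⟨hAc, hAe⟩ _
  have hAK : A.map K.subtype ≤ K := Subgroup.map_subtype_le A
  have hAcard : Nat.card (A.map K.subtype) = Nat.card A :=
    Subgroup.card_map_of_injective K.subtype_injective
  have h2K : 2 ∣ Nat.card K := by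
    obtain ⟨n, hn⟩ := (IsPGroup.iff_card (p := 2)).1 (ea_isPGroup (p := 2) hAG)
    have hn0 : n ≠ 0 := by
      rintro rfl
      rw [hAcard, pow_zero] at hn
      omega
    have h1 : 2 ∣ Nat.card (A.map K.subtype) := by rw [hn]; exact dvd_pow_self 2 hn0
    exact h1.trans (Subgroup.card_dvd_of_le hAK)
  obtain ⟨k, hk⟩ := (IsPGroup.iff_card (p := 2)).1 (ea_isPGroup (p := 2) hBel)
  have hP : PRankLE 2 k ↥(Subgroup.centralizer ({a} : Set G) ⊓ Subgroup.centralizer (K : Set G)) := by
    rw [pRankLE_subgroup_iff]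
    intro B' h1 h2
    rw [← hk]
    exact hBmax B' h1 h2
  have hsub : ∀ D : Subgroup C, (D.map C.subtype).subgroupOf C = D := fun D =>
    Subgroup.comap_map_eq_self_of_injective C.subtype_injective D
  have hKa' : K.subgroupOf C ≤ Subgroup.centralizer ({(⟨a, hab⟩ : C)} : Set C) := by
    intro x hx
    rw [Subgroup.mem_centralizer_singleton_iff]
    exact Subtype.ext (Subgroup.mem_centralizer_singleton_iff.1 (hKa hx))
  have hK' : IsComponent ((K.subgroupOf C).subgroupOf
      (Subgroup.centralizer ({(⟨a, hab⟩ : C)} : Set C))) := by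
    refine ⟨?_, ?_⟩
    · let ι : ↥(Subgroup.centralizer ({(⟨a, hab⟩ : C)} : Set C)) →*
          ↥(Subgroup.centralizer ({a} : Set G)) :=
        (C.subtype.comp (Subgroup.subtype _)).codRestrict _ (by
          intro x
          rw [Subgroup.mem_centralizer_singleton_iff]
          exact congrArg Subtype.val (Subgroup.mem_centralizer_singleton_iff.1 x.2))
      have h1 : (K.subgroupOf C).subgroupOf (Subgroup.centralizer ({(⟨a, hab⟩ : C)} : Set C)) =
          (K.subgroupOf (Subgroup.centralizer ({a} : Set G))).comap ι := rfl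
      rw [h1]
      exact hK.1.comap ι
    · exact qs_of_mulEquiv (((Subgroup.subgroupOfEquivOfLe hKa).trans
        (Subgroup.subgroupOfEquivOfLe hKb).symm).trans (Subgroup.subgroupOfEquivOfLe hKa').symm) hK.2
  have hcK : Nat.card (K.subgroupOf C) = Nat.card K := Cfsg.Agent.Lib.Helper30.card_subgroupOf hKb
  have hcB : Nat.card (B.subgroupOf C) = Nat.card B := Cfsg.Agent.Lib.Helper30.card_subgroupOf hBC
  have hlay : K.subgroupOf C ≤ layer C := by
    refine (comp_centralizer_le_pLayer (Subtype.ext haa) hKa' hK' (by rw [hcK]; exact h2K)).trans ?_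
    apply pLayer_le_layer_of_comm
    have h1 := hB b hb2
    rw [hO, le_bot_iff, Subgroup.map_eq_bot_iff_of_injective _ C.subtype_injective] at h1
    exact h1
  apply isComponent_of_maximal (X := C) (K := K.subgroupOf C) (B := B.subgroupOf C)
    (A := (A.map K.subtype).subgroupOf C) (a := ⟨a, hab⟩) (Subtype.ext haa) hKa' hK' hlay
  · intro D hD
    have h1 := (hmax b hb2 (D.map C.subtype) (Subgroup.map_subtype_le D)
      (by rw [hsub]; exact hD)).1
    rwa [Subgroup.card_map_of_injective C.subtype_injective, ← hcK] at h1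
  · intro D hD hc B' hB'1 hB'2
    have h1 := (hmax b hb2 (D.map C.subtype) (Subgroup.map_subtype_le D)
      (by rw [hsub]; exact hD)).2
      (by rw [Subgroup.card_map_of_injective C.subtype_injective, hc, hcK]) k hP
    rw [pRankLE_subgroup_iff] at h1
    have h2 := h1 (B'.map C.subtype) (le_inf (Subgroup.map_subtype_le B') (by
      rintro _ ⟨x, hx, rfl⟩
      rw [Subgroup.mem_centralizer_iff]
      rintro _ ⟨d, hd, rfl⟩
      exact congrArg Subtype.val (Subgroup.mem_centralizer_iff.1 (hB'1 hx) d hd)))
      (Cfsg.Agent.Lib.Helper14.IsElementaryAbelian.map hB'2 _)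
    rwa [Subgroup.card_map_of_injective C.subtype_injective, ← hk, ← hcB] at h2
  · intro x hx
    rw [Subgroup.mem_centralizer_iff]
    intro y hy
    exact Subtype.ext (Subgroup.mem_centralizer_iff.1 (Subgroup.mem_inf.1 (hBle hx)).2 y hy)
  · exact Cfsg.Agent.Lib.Helper14.IsElementaryAbelian.comap_of_injective hBel _ C.subtype_injective
  · exact haB
  · exact Subgroup.comap_mono hAK
  · exact Cfsg.Agent.Lib.Helper14.IsElementaryAbelian.comap_of_injective hAG _ C.subtype_injective
  · rw [Cfsg.Agent.Lib.Helper30.card_subgroupOf (hAK.trans hKb), hAcard]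
    exact hA2

end Cfsg.Agent.S1305
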