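import Cfsg.Statements.S1306
-- import your own Cfsg.Agent.* helpers here
import Cfsg.Agent.Lib.Helper28.Conj

set_option autoImplicit false
open Cfsg

namespace Cfsg.Agent.S1306

open Cfsg.Agent.Lib.Helper28

/-- Let G be finite, x an involution and L ≤ C_G(x) a component of C_G(x). Suppose L is a component of C_G(y) for every involution y ∈ C_G(L), and ⁅L, g L g⁻¹⁆ ≠ 1 whenever g L g⁻¹ ≠ L. Then L is a standard subgroup of G. -/
theorem result {G : Type*} [Group G] [Finite G] (x : G) (hx : orderOf x = 2) (L : Subgroup G) (hLx : L ≤ Subgroup.centralizer ({x} : Set G)) (hL : Cfsg.IsComponent (L.subgroupOf (Subgroup.centralizer ({x} : Set G)))) (hne : ∀ y : G, orderOf y = 2 → y ∈ Subgroup.centralizer (L : Set G) → L ≤ Subgroup.centralizer ({y} : Set G) ∧ Cfsg.IsComponent (L.subgroupOf (Subgroup.centralizer ({y} : Set G)))) (hnc : ∀ g : G, L.map (MulAut.conj g).toMonoidHom ≠ L → ⁅L, L.map (MulAut.conj g).toMonoidHom⁆ ≠ ⊥) : Cfsg.IsStandardSubgroup L := by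
  have hxK : x ∈ Subgroup.centralizer (L : Set G) := by
    rw [Subgroup.mem_centralizer_iff]
    intro l hl
    have := Subgroup.mem_centralizer_iff.mp (hLx hl) x rfl
    exact this.symm
  -- key: an involution of `C(L)` whose conjugate lies in `C(L)` forces `L^g = L`
  have key : ∀ g y : G, orderOf y = 2 → y ∈ Subgroup.centralizer (L : Set G) →
      g⁻¹ * y * g ∈ Subgroup.centralizer (L : Set G) → L.map (MulAut.conj g).toMonoidHom = L := by
    intro g y hy hyK hyK'
    obtain ⟨h1, h2⟩ := hne y hy hyK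
    have hy' : orderOf (g⁻¹ * y * g) = 2 := by
      have : g⁻¹ * y * g = MulAut.conj g⁻¹ y := by simp
      rw [this, MulEquiv.orderOf_eq, hy]
    obtain ⟨h3, h4⟩ := hne _ hy' hyK'
    have h5 := isComponent_subgroupOf_map_equiv (MulAut.conj g) h4
    have h6 : (Subgroup.centralizer ({g⁻¹ * y * g} : Set G)).map (MulAut.conj g).toMonoidHom =
        Subgroup.centralizer ({y} : Set G) := by
      rw [map_conj_centralizer_singleton]
      congr 2
      group
    rw [h6] at h5
    have h7 : L.map (MulAut.conj g).toMonoidHom ≤ Subgroup.centralizer ({y} : Set G) := by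
      rw [← h6]; exact Subgroup.map_mono h3
    rcases eq_or_commutator_eq_bot_of_isComponent_subgroupOf h1 h7 h2 h5 with h | h
    · exact h.symm
    · by_contra hcon
      exact hnc g hcon h
  refine ⟨isQuasisimple_of_equiv (Subgroup.subgroupOfEquivOfLe hLx) hL.2, ⟨?_, ?_⟩, hnc, ?_⟩
  · rw [even_iff_two_dvd, ← hx]
    have := orderOf_dvd_natCard (⟨x, hxK⟩ : ↥(Subgroup.centralizer (L : Set G)))
    rwa [Subgroup.orderOf_mk] at this
  · intro g hg
    by_contra hodd
    rw [Nat.not_odd_iff_even, even_iff_two_dvd] at hodd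
    obtain ⟨⟨y, hyK⟩, hy⟩ := exists_prime_orderOf_dvd_card' 2 hodd
    rw [Subgroup.orderOf_mk] at hy
    apply hg
    apply normalizer_le_normalizer_centralizer
    rw [mem_normalizer_iff_map_conj]
    exact key g y hy hyK.1 (mem_map_conj.mp hyK.2)
  · apply le_antisymm (normalizer_le_normalizer_centralizer L)
    intro g hg
    rw [mem_normalizer_iff_map_conj]
    have h1 : g * x * g⁻¹ ∈ Subgroup.centralizer (L : Set G) :=
      (Subgroup.mem_normalizer_iff.mp hg x).mp hxK
    have h2 : orderOf (g * x * g⁻¹) = 2 := by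
      have : g * x * g⁻¹ = MulAut.conj g x := by simp
      rw [this, MulEquiv.orderOf_eq, hx]
    apply key g (g * x * g⁻¹) h2 h1
    have : g⁻¹ * (g * x * g⁻¹) * g = x := by group
    rw [this]; exact hxK

end Cfsg.Agent.S1306
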