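import Cfsg.Statements.S1307
import Cfsg.Agent.Lib.Helper25.BSMain
import Cfsg.Agent.Lib.Helper25.ZStarMain
import Cfsg.Agent.Lib.Helper28.Components
import Cfsg.Agent.Lib.Helper29.Transport

set_option autoImplicit false
open Cfsg

namespace Cfsg.Agent.S1307

/-- Let G be finite, x an involution and L ≤ C_G(x) a component of C_G(x) of even order and 2-rank 1, such that L is a component of C_G(y) for every involution y ∈ C_G(L). Then some involution of L is a classical involution of G. -/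
theorem result {G : Type*} [Group G] [Finite G] (x : G) (hx : orderOf x = 2) (L : Subgroup G) (hLx : L ≤ Subgroup.centralizer ({x} : Set G)) (hL : Cfsg.IsComponent (L.subgroupOf (Subgroup.centralizer ({x} : Set G)))) (heven : Even (Nat.card ↥L)) (hrk : Cfsg.PRankLE 2 1 ↥L) (hne : ∀ y : G, orderOf y = 2 → y ∈ Subgroup.centralizer (L : Set G) → L ≤ Subgroup.centralizer ({y} : Set G) ∧ Cfsg.IsComponent (L.subgroupOf (Subgroup.centralizer ({y} : Set G)))) : ∃ t ∈ L, Cfsg.IsClassicalInvolution t := by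
  classical
  open Cfsg.Agent.Lib.Helper25 in
  have hq : Cfsg.IsQuasisimple ↥L :=
    Cfsg.Agent.Lib.Helper29.IsQuasisimple.of_equiv (Subgroup.subgroupOfEquivOfLe hLx) hL.2
  have hperf : Group.IsPerfect ↥L := hq.1
  obtain ⟨t₀, ht₀⟩ := exists_prime_orderOf_dvd_card' (G := ↥L) 2 heven.two_dvd
  have hnk : ∀ E : Subgroup ↥L, ¬ IsKleinFour E := by
    intro E hE
    have h1 := hrk E ⟨⟨fun a b => mul_comm_of_exponent_two hE.exponent_two a b⟩⟩ (by
      intro a ha
      have := Monoid.pow_exponent_eq_one (⟨a, ha⟩ : E)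
      rw [hE.exponent_two] at this
      exact congrArg Subtype.val this)
    rw [hE.card_four] at h1
    omega
  have hR : R1 t₀ := R1_of_no_klein ht₀ hnk
  -- the odd core of L is central
  have hcore : Cfsg.pPrimeCore 2 ↥L ≤ Subgroup.center ↥L := by
    have hn : (Cfsg.pPrimeCore 2 ↥L).Normal := (Cfsg.Agent.Lib.Helper40.pPrimeCore_mem 2 ↥L).1
    rcases Cfsg.Agent.Lib.Helper28.IsQuasisimple.normal_eq_top_or_le_center hq
      (Cfsg.pPrimeCore 2 ↥L) with h1 | h1
    · exfalso
      have h2 : Odd (Nat.card (Cfsg.pPrimeCore 2 ↥L)) := odd_card_pPrimeCore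
      rw [h1, Subgroup.card_top] at h2
      exact (Nat.not_even_iff_odd.2 h2) heven
    · exact h1
  -- elements of Z* are central
  have hcen : ∀ u : ↥L, Cfsg.InZStar 2 u → u ∈ Subgroup.center ↥L := by
    intro u hu
    obtain ⟨φ, hφ⟩ : ∃ φ : ↥L →* ↥(Subgroup.center ↥L),
        ∀ g, ((φ g : ↥(Subgroup.center ↥L)) : ↥L) = g * u * g⁻¹ * u⁻¹ := ⟨
      { toFun := fun g => ⟨g * u * g⁻¹ * u⁻¹, hcore (hu g)⟩
        map_one' := by ext; simp
        map_mul' := by
          intro g h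
          apply Subtype.ext
          have hc := Subgroup.mem_center_iff.1 (hcore (hu h)) g
          show g * h * u * (g * h)⁻¹ * u⁻¹ = (g * u * g⁻¹ * u⁻¹) * (h * u * h⁻¹ * u⁻¹)
          calc g * h * u * (g * h)⁻¹ * u⁻¹ = (g * (h * u * h⁻¹ * u⁻¹)) * u * g⁻¹ * u⁻¹ := by group
            _ = ((h * u * h⁻¹ * u⁻¹) * g) * u * g⁻¹ * u⁻¹ := by rw [hc]
            _ = (h * u * h⁻¹ * u⁻¹) * (g * u * g⁻¹ * u⁻¹) := by group
            _ = _ := (Subgroup.mem_center_iff.1 (hcore (hu h)) _).symm }, fun _ => rfl⟩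
    have hker : φ.ker = ⊤ := by
      rw [eq_top_iff, ← hperf.commutator_eq_top, commutator_def, Subgroup.commutator_le]
      intro g₁ _ g₂ _
      rw [MonoidHom.mem_ker, map_commutatorElement, commutatorElement_eq_one_iff_mul_comm]
      apply Subtype.ext
      exact (Subgroup.mem_center_iff.1 (φ g₂).2 (φ g₁ : ↥L))
    rw [Subgroup.mem_center_iff]
    intro g
    have h1 : φ g = 1 := by
      rw [← MonoidHom.mem_ker, hker]; trivial
    have h2 : g * u * g⁻¹ * u⁻¹ = 1 := by
      rw [← hφ g, h1]; rfl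
    rw [mul_inv_eq_one, mul_inv_eq_iff_eq_mul] at h2
    exact h2
  have ht₀c : t₀ ∈ Subgroup.center ↥L := hcen t₀ (rankOneHyp ↥L t₀ hR.ord hR.uniq)
  have ht2 : orderOf (t₀ : G) = 2 := by rw [Subgroup.orderOf_coe]; exact ht₀
  have htc : (t₀ : G) ∈ Subgroup.centralizer (L : Set G) := by
    rw [Subgroup.mem_centralizer_iff]
    intro l hl
    exact congrArg Subtype.val (Subgroup.mem_center_iff.1 ht₀c ⟨l, hl⟩)
  obtain ⟨hLt, hcomp⟩ := hne _ ht2 htc
  refine ⟨t₀, t₀.2, ht2, L, hLt, t₀.2, hcomp.1, ?_⟩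
  obtain ⟨S⟩ : Nonempty (Sylow 2 ↥L) := inferInstance
  have hncyc : ¬ IsCyclic ↥(S : Subgroup ↥L) := by
    intro hc
    have hall : ∀ u : ↥L, u ∈ Subgroup.center ↥L := fun u =>
      hcen u (inZStar_of_cyclic_sylow S hc heven.two_dvd u)
    have : IsMulCommutative ↥L := ⟨⟨fun a b => (Subgroup.mem_center_iff.1 (hall b) a)⟩⟩
    have hsub := Group.IsPerfect.subsingleton_of_isMulCommutative (G := ↥L)
    have := Cfsg.Agent.Lib.Helper28.IsQuasisimple.nontrivial hq
    exact not_subsingleton ↥L hsub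
  rcases hR.cyclic_or_quat S S.2 with h1 | ⟨n, ⟨e⟩⟩
  · exact absurd h1 hncyc
  · cases n with
    | zero =>
      exfalso
      apply hncyc
      have : IsCyclic (QuaternionGroup (2 ^ 0)) := by
        rw [pow_zero]; exact QuaternionGroup.quaternionGroup_one_isCyclic
      exact isCyclic_of_surjective e.symm e.symm.surjective
    | succ n => exact ⟨S, n, ⟨e⟩⟩

end Cfsg.Agent.S1307
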