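import Cfsg.Statements.S1314
-- import your own Cfsg.Agent.* helpers here
import Mathlib

set_option autoImplicit false
open Cfsg

namespace Cfsg.Agent.S1314

open scoped commutatorElement

/-- Let x be an involution of a group G and L a perfect subgroup with ⁅L, x L x⁻¹⁆ = 1. Then l ↦ l (x l x⁻¹) is a group homomorphism π from L to G whose kernel is central in L and whose image lies in C_G(x); and the commutator subgroup of C_{L ⊔ xLx⁻¹}(x) equals the image of π. -/
theorem result {G : Type*} [Group G] [Finite G] (x : G) (hx : orderOf x = 2) (L : Subgroup G) (hperf : ⁅L, L⁆ = L) (hcomm : ⁅L, L.map (MulAut.conj x).toMonoidHom⁆ = ⊥) : ∃ π : ↥L →* G, (∀ l : ↥L, π l = (l : G) * (x * (l : G) * x⁻¹)) ∧ π.ker ≤ Subgroup.center ↥L ∧ π.range ≤ Subgroup.centralizer ({x} : Set G) ∧ ⁅(L ⊔ L.map (MulAut.conj x).toMonoidHom) ⊓ Subgroup.centralizer ({x} : Set G), (L ⊔ L.map (MulAut.conj x).toMonoidHom) ⊓ Subgroup.centralizer ({x} : Set G)⁆ = π.range :=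 by
  have hx2 : x * x = 1 := by
    have := pow_orderOf_eq_one x
    rwa [hx, pow_two] at this
  have hxinv : x⁻¹ = x := inv_eq_of_mul_eq_one_left hx2
  set Lx : Subgroup G := L.map (MulAut.conj x).toMonoidHom with hLx
  have hmemLx : ∀ b ∈ L, x * b * x⁻¹ ∈ Lx := fun b hb => ⟨b, hb, by simp⟩
  -- elements of L commute with elements of Lx
  have hc : ∀ a ∈ L, ∀ b ∈ Lx, a * b = b * a := by
    intro a ha b hb
    have h1 := Subgroup.commutator_eq_bot_iff_le_centralizer.mp hcomm ha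
    exact (Subgroup.mem_centralizer_iff.mp h1 b hb).symm
  let π : ↥L →* G := MonoidHom.mk' (fun l => (l : G) * (x * (l : G) * x⁻¹)) (by
    intro a b
    have h1 := hc b b.2 (x * a * x⁻¹) (hmemLx a a.2)
    simp only [Subgroup.coe_mul]
    calc (a : G) * b * (x * (a * b) * x⁻¹) = a * (b * (x * a * x⁻¹)) * (x * b * x⁻¹) := by group
      _ = a * ((x * a * x⁻¹) * b) * (x * b * x⁻¹) := by rw [h1]
      _ = a * (x * a * x⁻¹) * (b * (x * b * x⁻¹)) := by group)
  have hπ : ∀ l : ↥L, π l = (l : G) * (x * (l : G) * x⁻¹) := fun l => rfl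
  have hrangeC : π.range ≤ Subgroup.centralizer ({x} : Set G) := by
    rintro _ ⟨l, rfl⟩
    rw [Subgroup.mem_centralizer_iff]
    intro y hy
    rw [Set.mem_singleton_iff] at hy
    subst hy
    rw [hπ]
    have h1 := hc l l.2 (y * l * y⁻¹) (hmemLx l l.2)
    calc y * ((l : G) * (y * l * y⁻¹)) = (y * l * y⁻¹) * ((y * y) * l * y⁻¹) := by group
      _ = (y * l * y⁻¹) * (l * y) := by rw [hx2, hxinv, one_mul]
      _ = ((y * l * y⁻¹) * l) * y := by group
      _ = (l * (y * l * y⁻¹)) * y := by rw [h1]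
  have hrangeS : π.range ≤ L ⊔ Lx := by
    rintro _ ⟨l, rfl⟩
    rw [hπ]
    exact Subgroup.mul_mem_sup l.2 (hmemLx l l.2)
  refine ⟨π, hπ, ?_, hrangeC, ?_⟩
  · intro l hl
    rw [MonoidHom.mem_ker, hπ] at hl
    rw [Subgroup.mem_center_iff]
    intro g
    have h1 : (l : G) = (x * l * x⁻¹)⁻¹ := eq_inv_of_mul_eq_one_left hl
    have h2 : (l : G) ∈ Lx := by
      rw [h1]; exact inv_mem (hmemLx l l.2)
    exact Subtype.ext (hc g g.2 l h2)
  · set C : Subgroup G := (L ⊔ Lx) ⊓ Subgroup.centralizer ({x} : Set G) with hC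
    apply le_antisymm
    · -- every element of C is π b * z with z central in L ⊔ Lx
      have hLxN : L ≤ Subgroup.normalizer (Lx : Set G) :=
        (Subgroup.commutator_eq_bot_iff_le_centralizer.mp hcomm).trans
          (Subgroup.centralizer_le_normalizer _)
      have hdecomp : ∀ c ∈ C, ∃ b : ↥L, ∃ z : G, (∀ g ∈ L ⊔ Lx, g * z = z * g) ∧ c = π b * z := by
        intro c hcC
        have hc1 : c ∈ L ⊔ Lx := hcC.1
        rw [← SetLike.mem_coe, Subgroup.coe_mul_of_left_le_normalizer_right L Lx hLxN,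
          Set.mem_mul] at hc1
        obtain ⟨a, ha, b', ⟨b, hb, rfl⟩, rfl⟩ := hc1
        have ha : a ∈ L := ha
        have hb : b ∈ L := hb
        simp only [MulEquiv.coe_toMonoidHom, MulAut.conj_apply] at hcC ⊢
        have hcx : x * (a * (x * b * x⁻¹)) = (a * (x * b * x⁻¹)) * x :=
          Subgroup.mem_centralizer_iff.mp hcC.2 x rfl
        -- z = b⁻¹ * a
        have hz1 : b⁻¹ * a ∈ L := mul_mem (inv_mem hb) ha
        have hz2 : b⁻¹ * a = x * (a * b⁻¹) * x⁻¹ := by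
          have e1 : x * a * x⁻¹ * b = a * (x * b * x⁻¹) := by
            calc x * a * x⁻¹ * b = x * a * x * b := by rw [hxinv]
              _ = x * (a * (x * b * x⁻¹)) * x := by group
              _ = (a * (x * b * x⁻¹)) * x * x := by rw [hcx]
              _ = a * (x * b * x⁻¹) * (x * x) := by group
              _ = a * (x * b * x⁻¹) := by rw [hx2, mul_one]
          have e2 := hc b hb (x * a * x⁻¹) (hmemLx a ha)
          have e3 : b * (x * a * x⁻¹) = a * (x * b * x⁻¹) := by rw [e2, e1]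
          calc b⁻¹ * a = b⁻¹ * (a * (x * b * x⁻¹)) * (x * b⁻¹ * x⁻¹) := by group
            _ = b⁻¹ * (b * (x * a * x⁻¹)) * (x * b⁻¹ * x⁻¹) := by rw [e3]
            _ = x * (a * b⁻¹) * x⁻¹ := by group
        have hz3 : b⁻¹ * a ∈ Lx := by
          rw [hz2]; exact hmemLx _ (mul_mem ha (inv_mem hb))
        refine ⟨⟨b, hb⟩, b⁻¹ * a, ?_, ?_⟩
        · intro g hg
          have hcent : L ⊔ Lx ≤ Subgroup.centralizer ({b⁻¹ * a} : Set G) := by
            refine sup_le ?_ ?_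
            · intro u hu
              rw [Subgroup.mem_centralizer_iff]
              intro y hy
              rw [Set.mem_singleton_iff] at hy
              subst hy
              exact (hc u hu _ hz3).symm
            · intro u hu
              rw [Subgroup.mem_centralizer_iff]
              intro y hy
              rw [Set.mem_singleton_iff] at hy
              subst hy
              exact hc _ hz1 u hu
          exact (Subgroup.mem_centralizer_iff.mp (hcent hg) _ rfl).symm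
        · rw [hπ]
          have e2 := hc (b⁻¹ * a) hz1 (x * b * x⁻¹) (hmemLx b hb)
          calc a * (x * b * x⁻¹) = b * ((b⁻¹ * a) * (x * b * x⁻¹)) := by group
            _ = b * ((x * b * x⁻¹) * (b⁻¹ * a)) := by rw [e2]
            _ = b * (x * b * x⁻¹) * (b⁻¹ * a) := by group
      rw [Subgroup.commutator_le]
      intro c₁ h₁ c₂ h₂
      obtain ⟨b₁, z₁, hz₁, rfl⟩ := hdecomp c₁ h₁
      obtain ⟨b₂, z₂, hz₂, rfl⟩ := hdecomp c₂ h₂
      have hp1 : π b₁ ∈ L ⊔ Lx := hrangeS ⟨b₁, rfl⟩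
      have hp2 : π b₂ ∈ L ⊔ Lx := hrangeS ⟨b₂, rfl⟩
      have key : ⁅π b₁ * z₁, π b₂ * z₂⁆ = π ⁅b₁, b₂⁆ := by
        rw [map_commutatorElement, commutatorElement_def, commutatorElement_def]
        have hz₁' : z₁ ∈ L ⊔ Lx := by
          have : z₁ = (π b₁)⁻¹ * (π b₁ * z₁) := by group
          rw [this]; exact mul_mem (inv_mem hp1) h₁.1
        have e1 := hz₁ _ hp2
        have e2 := hz₂ _ hp1
        have e3 := hz₂ _ hz₁'
        have e4 := hz₁ _ hp1
        have e5 := hz₂ _ hp2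
        simp only [mul_inv_rev]
        calc π b₁ * z₁ * (π b₂ * z₂) * (z₁⁻¹ * (π b₁)⁻¹) * (z₂⁻¹ * (π b₂)⁻¹)
            = π b₁ * (z₁ * π b₂) * (z₂ * z₁⁻¹) * (π b₁)⁻¹ * z₂⁻¹ * (π b₂)⁻¹ := by group
          _ = π b₁ * (π b₂ * z₁) * (z₂ * z₁⁻¹) * (π b₁)⁻¹ * z₂⁻¹ * (π b₂)⁻¹ := by rw [e1]
          _ = π b₁ * π b₂ * (z₁ * z₂) * z₁⁻¹ * (π b₁)⁻¹ * z₂⁻¹ * (π b₂)⁻¹ := by group
          _ = π b₁ * π b₂ * (z₂ * z₁) * z₁⁻¹ * (π b₁)⁻¹ * z₂⁻¹ * (π b₂)⁻¹ := by rw [e3]
          _ = π b₁ * π b₂ * ((π b₁)⁻¹ * (π b₁ * z₂) * (π b₁)⁻¹) * z₂⁻¹ * (π b₂)⁻¹ := by group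
          _ = π b₁ * π b₂ * ((π b₁)⁻¹ * (z₂ * π b₁) * (π b₁)⁻¹) * z₂⁻¹ * (π b₂)⁻¹ := by rw [e2]
          _ = π b₁ * π b₂ * (π b₁)⁻¹ * (π b₂)⁻¹ := by group
      rw [key]
      exact ⟨_, rfl⟩
    · have hperf' : commutator ↥L = ⊤ := (Subgroup.isPerfect_iff.mpr hperf).commutator_eq_top
      have h1 : π.range = ⁅π.range, π.range⁆ := by
        conv_lhs => rw [MonoidHom.range_eq_map, ← hperf', commutator_def, Subgroup.map_commutator,
          ← MonoidHom.range_eq_map]
      rw [h1]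
      exact Subgroup.commutator_mono (le_inf hrangeS hrangeC) (le_inf hrangeS hrangeC)

end Cfsg.Agent.S1314
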