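import Cfsg.Statements.S1316
-- import your own Cfsg.Agent.* helpers here
import Cfsg.Agent.Lib.Helper28.Layer

set_option autoImplicit false
open Cfsg

namespace Cfsg.Agent.S1316

/-- For a finite group X, E(X) equals the intersection of the derived series of F*(X) (its last term). -/
theorem result {X : Type*} [Group X] [Finite X] : (⨅ n : ℕ, (derivedSeries ↥(Cfsg.generalizedFittingSubgroup X) n).map (Cfsg.generalizedFittingSubgroup X).subtype) = Cfsg.layer X := by
  set F := Cfsg.generalizedFittingSubgroup X with hF
  have hE : (Cfsg.layer X).Normal := Cfsg.Agent.Lib.Helper28.layer_normal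
  have hEF : Cfsg.layer X ≤ F := Cfsg.Agent.Lib.Helper28.layer_le_genFitting
  apply le_antisymm
  · -- the quotient of F by the layer is solvable
    have hnil := Cfsg.Agent.Lib.Helper28.fitting_isNilpotent (G := X)
    have hnorm : ((Cfsg.layer X).subgroupOf F).Normal := inferInstance
    let f : ↥(Cfsg.fittingSubgroup X) →* ↥F ⧸ (Cfsg.layer X).subgroupOf F :=
      (QuotientGroup.mk' _).comp
        (Subgroup.inclusion (Cfsg.Agent.Lib.Helper28.fitting_le_genFitting (G := X)))
    have hf : Function.Surjective f := by
      intro y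
      obtain ⟨⟨x, hx⟩, rfl⟩ := QuotientGroup.mk'_surjective _ y
      have hx' : x ∈ Cfsg.layer X ⊔ Cfsg.fittingSubgroup X := hx
      obtain ⟨e, he, n, hn, rfl⟩ := Subgroup.mem_sup_of_normal_left.mp hx'
      refine ⟨⟨n, hn⟩, ?_⟩
      simp only [f, MonoidHom.comp_apply, QuotientGroup.mk'_apply]
      rw [QuotientGroup.eq]
      simp only [Subgroup.mem_subgroupOf, Subgroup.coe_mul, Subgroup.coe_inv,
        Subgroup.coe_inclusion]
      have : n⁻¹ * (e * n) = n⁻¹ * e * n⁻¹⁻¹ := by group
      rw [this]
      exact hE.conj_mem e he n⁻¹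
    have hsol : Group.IsSolvable (↥F ⧸ (Cfsg.layer X).subgroupOf F) :=
      Group.isSolvable_of_surjective hf
    obtain ⟨n, hn⟩ := hsol.solvable
    refine le_trans (iInf_le _ n) ?_
    have h1 := map_derivedSeries_le_derivedSeries (QuotientGroup.mk' ((Cfsg.layer X).subgroupOf F)) n
    rw [hn, le_bot_iff, Subgroup.map_eq_bot_iff, QuotientGroup.ker_mk'] at h1
    have h2 := Subgroup.map_mono (f := F.subtype) h1
    rwa [Subgroup.map_subgroupOf_eq_of_le hEF] at h2
  · refine le_iInf fun n => ?_
    induction n with
    | zero =>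
      rw [derivedSeries_zero, ← MonoidHom.range_eq_map, Subgroup.range_subtype]
      exact hEF
    | succ n ih =>
      rw [derivedSeries_succ, Subgroup.map_commutator,
        ← Cfsg.Agent.Lib.Helper28.layer_perfect (G := X)]
      exact Subgroup.commutator_mono ih ih

end Cfsg.Agent.S1316
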