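import Cfsg.Statements.S1317
-- import your own Cfsg.Agent.* helpers here
import Cfsg.Agent.Lib.Helper28.Layer

set_option autoImplicit false
open Cfsg

namespace Cfsg.Agent.S1317

/-- For a finite group X, the centre of the layer E(X) is F(X) ∩ E(X). -/
theorem result {X : Type*} [Group X] [Finite X] : (Subgroup.center ↥(Cfsg.layer X)).map (Cfsg.layer X).subtype = Cfsg.fittingSubgroup X ⊓ Cfsg.layer X := by
  have hE : (Cfsg.layer X).Normal := Cfsg.Agent.Lib.Helper28.layer_normal
  apply le_antisymm
  · refine le_inf ?_ (Subgroup.map_subtype_le _)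
    apply Cfsg.Agent.Lib.Helper28.le_fitting
    · exact Cfsg.Agent.Lib.Helper28.map_subtype_normal_of_characteristic hE inferInstance
    · have e := (Subgroup.center ↥(Cfsg.layer X)).equivMapOfInjective (Cfsg.layer X).subtype
        (Cfsg.layer X).subtype_injective
      have hn : Group.IsNilpotent ↥(Subgroup.center ↥(Cfsg.layer X)) :=
        Subgroup.nilpotent_iff_lowerCentralSeries.mpr
          ⟨1, Subgroup.lowerCentralSeries_one_eq_bot_iff.mpr inferInstance⟩
      exact Group.nilpotent_of_mulEquiv e
  · intro x hx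
    refine ⟨⟨x, hx.2⟩, ?_, rfl⟩
    rw [SetLike.mem_coe, Subgroup.mem_center_iff]
    intro g
    have h1 := Subgroup.commutator_eq_bot_iff_le_centralizer.mp
      (Cfsg.Agent.Lib.Helper28.layer_commutator_fitting (G := X)) g.2
    have h2 := Subgroup.mem_centralizer_iff.mp h1 x hx.1
    exact Subtype.ext h2.symm

end Cfsg.Agent.S1317
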