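import Cfsg.Statements.S1321
-- import your own Cfsg.Agent.* helpers here
import Cfsg.Agent.Lib.Helper28.Layer

set_option autoImplicit false
open Cfsg

namespace Cfsg.Agent.S1321

/-- Let X be finite and U ≤ X. Then E(X) is generated by C_{E(X)}(U) together with ⁅E(X), U⁆ (indeed it is their product, ⁅E(X), U⁆ being normal in E(X)). -/
theorem result {X : Type*} [Group X] [Finite X] (U : Subgroup X) : Cfsg.layer X = (Cfsg.layer X ⊓ Subgroup.centralizer (U : Set X)) ⊔ ⁅Cfsg.layer X, U⁆ ∧ ⁅Cfsg.layer X, U⁆ ≤ Cfsg.layer X := by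
  have hE : (Cfsg.layer X).Normal := Cfsg.Agent.Lib.Helper28.layer_normal
  have h2 : ⁅Cfsg.layer X, U⁆ ≤ Cfsg.layer X := Subgroup.commutator_le_left _ _
  refine ⟨le_antisymm ?_ (sup_le inf_le_left h2), h2⟩
  have hD : (⁅Cfsg.layer X, U⁆ : Subgroup X).IsSubnormal :=
    Subgroup.IsSubnormal.step _ _ h2 hE.isSubnormal
      ((Subgroup.normal_subgroupOf_iff_le_normalizer h2).mpr (Subgroup.normalizer_commutator_ge_left _ _))
  refine sSup_le fun L hL => ?_
  have hLE : L ≤ Cfsg.layer X := Cfsg.Agent.Lib.Helper28.le_layer hL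
  rcases Cfsg.Agent.Lib.Helper28.IsComponent.le_or_commutator_eq_bot hL hD with h | h
  · exact h.trans le_sup_right
  · refine le_trans (le_inf hLE ?_) le_sup_left
    rw [← Subgroup.commutator_eq_bot_iff_le_centralizer, Subgroup.commutator_comm]
    apply Cfsg.Agent.Lib.Helper28.commutator_eq_bot_of_perfect
      (Cfsg.Agent.Lib.Helper28.isPerfect_of_isComponent hL)
    rw [eq_bot_iff, ← h, Subgroup.commutator_comm L]
    refine Subgroup.commutator_mono ?_ le_rfl
    rw [Subgroup.commutator_comm]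
    exact Subgroup.commutator_mono hLE le_rfl

end Cfsg.Agent.S1321
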