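import Cfsg.Statements.S1325
-- import your own Cfsg.Agent.* helpers here
import Cfsg.Agent.Lib.Helper28.Layer

set_option autoImplicit false
open Cfsg

namespace Cfsg.Agent.S1325

/-- Let X be finite and Y a normal subgroup containing F(X) with C_X(Y) ≤ Y. Then F*(X) ≤ Y. -/
theorem result {X : Type*} [Group X] [Finite X] (Y : Subgroup X) [Y.Normal] (hF : Cfsg.fittingSubgroup X ≤ Y) (hC : Subgroup.centralizer (Y : Set X) ≤ Y) : Cfsg.generalizedFittingSubgroup X ≤ Y := by
  unfold Cfsg.generalizedFittingSubgroup
  refine sup_le ?_ hF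
  refine sSup_le fun L hL => ?_
  rcases Cfsg.Agent.Lib.Helper28.IsComponent.le_or_commutator_eq_bot_of_normal hL
    (inferInstance : Y.Normal) with h | h
  · exact h
  · exact (Subgroup.commutator_eq_bot_iff_le_centralizer.mp h).trans hC

end Cfsg.Agent.S1325
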