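import Cfsg.Statements.S1326
-- import your own Cfsg.Agent.* helpers here
import Cfsg.Agent.Lib.Helper28.Layer

set_option autoImplicit false
open Cfsg

namespace Cfsg.Agent.S1326

/-- For a finite group X: the Fitting subgroup contains its centralizer if and only if the layer of X is trivial. -/
theorem result {X : Type*} [Group X] [Finite X] : Subgroup.centralizer (Cfsg.fittingSubgroup X : Set X) ≤ Cfsg.fittingSubgroup X ↔ Cfsg.layer X = ⊥ := by
  constructor
  · intro h
    have h1 : Cfsg.layer X ≤ Cfsg.fittingSubgroup X :=
      (Subgroup.commutator_eq_bot_iff_le_centralizer.mp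
        Cfsg.Agent.Lib.Helper28.layer_commutator_fitting).trans h
    have h2 : ⁅Cfsg.layer X, Cfsg.layer X⁆ = ⊥ := by
      rw [eq_bot_iff, ← Cfsg.Agent.Lib.Helper28.layer_commutator_fitting (G := X)]
      exact Subgroup.commutator_mono le_rfl h1
    rwa [Cfsg.Agent.Lib.Helper28.layer_perfect] at h2
  · intro h
    have h1 := Cfsg.Agent.Lib.Helper28.centralizer_genFitting_le (G := X)
    unfold Cfsg.generalizedFittingSubgroup at h1
    rwa [h, bot_sup_eq] at h1

end Cfsg.Agent.S1326
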