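import Cfsg.Statements.S1328
-- import your own Cfsg.Agent.* helpers here
import Cfsg.Agent.Lib.Helper28.RelBalance

set_option autoImplicit false
open Cfsg

namespace Cfsg.Agent.S1328

open Cfsg.Agent.Lib.Helper28

/-- `O(H⟨t⟩) = 1` if `O(H) = 1` and `t` is an involution normalizing `H`. -/
theorem opPrimeIn_sup_zpowers_eq_bot {G : Type*} [Group G] [Finite G] {H : Subgroup G}
    (hO : opPrimeIn 2 H = ⊥) {t : G} (ht2 : t ^ 2 = 1)
    (htH : t ∈ Subgroup.normalizer (H : Set G)) : opPrimeIn 2 (H ⊔ Subgroup.zpowers t) = ⊥ := by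
  set K := H ⊔ Subgroup.zpowers t with hK
  have hHK : H ≤ K := le_sup_left
  have htN : Subgroup.zpowers t ≤ Subgroup.normalizer (H : Set G) := Subgroup.zpowers_le.mpr htH
  have h1 : opPrimeIn 2 K ⊓ H ≤ opPrimeIn 2 H :=
    le_opPrimeIn inf_le_right
      (le_normalizer_inf' (hHK.trans (le_normalizer_opPrimeIn 2 K)) Subgroup.le_normalizer)
      (Nat.Coprime.coprime_dvd_left (Subgroup.card_dvd_of_le inf_le_left) (opPrimeIn_coprime 2 K))
  rw [hO] at h1
  rw [eq_bot_iff]
  intro g hg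
  have hgK : g ∈ Subgroup.zpowers t ⊔ H := by
    rw [sup_comm]; exact opPrimeIn_le 2 K hg
  obtain ⟨a, ha, b, hb, hab⟩ := exists_mul_of_mem_sup htN hgK
  have ha2 : a ^ 2 = 1 := by
    obtain ⟨k, rfl⟩ := Subgroup.mem_zpowers_iff.mp ha
    rw [← zpow_natCast, ← zpow_mul, mul_comm, zpow_mul, zpow_natCast, ht2, one_zpow]
  have hg2 : g ^ 2 ∈ H := by
    have e : g ^ 2 = a ^ 2 * (a⁻¹ * b * a⁻¹⁻¹) * b := by
      rw [← hab, pow_two, pow_two]; group
    rw [e, ha2, one_mul]
    exact mul_mem ((Subgroup.mem_normalizer_iff.mp (htN (inv_mem ha)) b).mp hb) hb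
  have hg3 : g ^ 2 = 1 := h1 ⟨pow_mem hg 2, hg2⟩
  have hg4 : g ^ orderOf g = 1 := pow_orderOf_eq_one g
  exact eq_one_of_pow_eq_one_of_coprime hg4 hg3
    (orderOf_coprime_of_card_coprime (opPrimeIn_coprime 2 K) hg)

/-- Let G be finite, H ≤ G with O(H) = 1, t an involution of G normalizing H, and Y a nontrivial subgroup of O(C_H(t)). Then some component E of H is normalized by t and by Y and centralized by neither t nor Y. -/
theorem result {G : Type*} [Group G] [Finite G] (H : Subgroup G) (hO : Cfsg.oddCore ↥H = ⊥) (t : G) (ht : orderOf t = 2) (htH : t ∈ Subgroup.normalizer (H : Set G)) (Y : Subgroup G) (hY1 : Y ≠ ⊥) (hY : Y ≤ (Cfsg.oddCore ↥(H ⊓ Subgroup.centralizer ({t} : Set G))).map (H ⊓ Subgroup.centralizer ({t} : Set G)).subtype) : ∃ E : Subgroup ↥H, Cfsg.IsComponent E ∧ (E.map H.subtype).map (MulAut.conj t).toMonoidHom = E.map H.subtype ∧ Y ≤ Subgroup.normalizer ((E.map H.subtype : Subgroup G) : Set G) ∧ ¬ (t ∈ Subgroup.centralizer ((E.map H.subtype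 : Subgroup G) : Set G)) ∧ ¬ (Y ≤ Subgroup.centralizer ((E.map H.subtype : Subgroup G) : Set G)) := by
  have h2 : Fact (Nat.Prime 2) := ⟨Nat.prime_two⟩
  set M := H ⊓ Subgroup.centralizer ({t} : Set G) with hM
  have hY' : Y ≤ opPrimeIn 2 M := hY
  have ht2 : t ^ 2 = 1 := ht ▸ pow_orderOf_eq_one t
  set K := H ⊔ Subgroup.zpowers t with hK
  have hHK : H ≤ K := le_sup_left
  have htK : t ∈ K := (le_sup_right : Subgroup.zpowers t ≤ K) (Subgroup.mem_zpowers t)
  have htN : Subgroup.zpowers t ≤ Subgroup.normalizer (H : Set G) := Subgroup.zpowers_le.mpr htH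
  have hKH : K ≤ Subgroup.normalizer (H : Set G) := sup_le Subgroup.le_normalizer htN
  have hOH : opPrimeIn 2 H = ⊥ := by
    unfold opPrimeIn
    rw [show Cfsg.pPrimeCore 2 ↥H = ⊥ from hO, Subgroup.map_bot]
  have hOK : opPrimeIn 2 K = ⊥ := opPrimeIn_sup_zpowers_eq_bot hOH ht2 htH
  have hYH : Y ≤ H := hY'.trans ((opPrimeIn_le 2 M).trans inf_le_left)
  have hYodd : (Nat.card ↥Y).Coprime 2 :=
    Nat.Coprime.coprime_dvd_left (Subgroup.card_dvd_of_le hY') (opPrimeIn_coprime 2 M)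
  have hYQ : Y ≤ Subgroup.centralizer (opIn 2 H : Set G) := by
    intro y hy
    have hyt : y ∈ Subgroup.centralizer ((Subgroup.zpowers t : Subgroup G) : Set G) := by
      rw [Cfsg.Agent.Lib.Helper27.centralizer_zpowers_eq]
      exact (opPrimeIn_le 2 M (hY' hy)).2
    refine Cfsg.Agent.Lib.Helper14.thompson_AxB (p := 2) (Subgroup.zpowers t) y
      (Cfsg.Agent.Lib.Helper27.isPGroup_zpowers_of_pow_eq_one ht2)
      (orderOf_coprime_of_card_coprime hYodd hy) hyt (opIn 2 H) (opIn_isPGroup 2 H)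
      (le_normalizer_opIn 2 H (hYH hy)) (htN.trans (normalizer_le_normalizer_opIn 2 H)) ?_
    have hle : opIn 2 H ⊓ Subgroup.centralizer ((Subgroup.zpowers t : Subgroup G) : Set G) ≤
        opIn 2 M := by
      rw [Cfsg.Agent.Lib.Helper27.centralizer_zpowers_eq]
      refine le_opIn (inf_le_inf_right _ (opIn_le 2 H)) ?_ ((opIn_isPGroup 2 H).to_le inf_le_left)
      exact le_normalizer_inf' (inf_le_left.trans (le_normalizer_opIn 2 H))
        (inf_le_right.trans Subgroup.le_normalizer)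
    refine Subgroup.centralizer_le hle ?_
    exact le_centralizer_comm (Subgroup.commutator_eq_bot_iff_le_centralizer.mp
      (opIn_commutator_opPrimeIn 2 M)) (hY' hy)
  -- a component not centralized by `Y`
  have hex : ∃ E : Subgroup ↥H, Cfsg.IsComponent E ∧
      ¬ Y.subgroupOf H ≤ Subgroup.centralizer (E : Set ↥H) := by
    by_contra hcon
    push Not at hcon
    apply hY1
    have h3 := Cfsg.Agent.Lib.Helper27.eq_bot_of_centralizes_genFitting (G := ↥H) 2 hO
      (Y := Y.subgroupOf H) ?_ ?_ hcon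
    · rw [Subgroup.subgroupOf_eq_bot] at h3
      rw [eq_bot_iff]
      exact fun y hy => h3.le_bot ⟨hy, hYH hy⟩
    · rw [Nat.card_congr (Subgroup.subgroupOfEquivOfLe hYH).toEquiv, ← coprime_iff_not_dvd]
      exact hYodd
    · intro y hy
      rw [Subgroup.mem_centralizer_iff]
      intro q hq
      exact Subtype.ext (Subgroup.mem_centralizer_iff.mp (hYQ (Subgroup.mem_subgroupOf.mp hy)) q
        ⟨q, hq, rfl⟩)
  obtain ⟨E, hE, hEY⟩ := hex
  set L := E.map H.subtype with hLdef
  have hL : IsCompIn L H := ⟨Subgroup.map_subtype_le _, by rw [subgroupOf_map_subtype']; exact hE⟩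
  have hLK : IsCompIn L K := hL.of_normal hHK hKH
  obtain ⟨hn, hc⟩ := rel_cpc 2 hOK htK ht2 hLK
  have hYW : Y ≤ opPrimeIn 2 (K ⊓ Subgroup.centralizer {t}) := by
    refine hY'.trans (le_opPrimeIn ((opPrimeIn_le 2 M).trans (inf_le_inf_right _ hHK)) ?_
      (opPrimeIn_coprime 2 M))
    refine le_trans ?_ (normalizer_le_normalizer_opPrimeIn 2 M)
    exact le_normalizer_inf' (inf_le_left.trans hKH) (inf_le_right.trans Subgroup.le_normalizer)
  have hnc : ¬ Y ≤ Subgroup.centralizer (L : Set G) := by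
    intro hc1
    apply hEY
    intro y hy
    rw [Subgroup.mem_centralizer_iff]
    intro e he
    exact Subtype.ext (Subgroup.mem_centralizer_iff.mp (hc1 (Subgroup.mem_subgroupOf.mp hy)) e
      ⟨e, he, rfl⟩)
  have heq : ⁅L, Subgroup.zpowers t⁆ = L := by
    by_contra hne
    exact hnc (hYW.trans (le_centralizer_comm
      (Subgroup.commutator_eq_bot_iff_le_centralizer.mp (hc hne))))
  refine ⟨E, hE, ?_, hYW.trans hn, ?_, hnc⟩
  · rw [← mem_normalizer_iff_map_conj]
    exact (Subgroup.le_normalizer_iff_commutator_le_left.mpr heq.le) (Subgroup.mem_zpowers t)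
  · intro htc
    apply hL.ne_bot
    rw [← heq, Subgroup.commutator_comm, Subgroup.commutator_eq_bot_iff_le_centralizer]
    exact Subgroup.zpowers_le.mpr htc

end Cfsg.Agent.S1328
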