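import Cfsg.Statements.S1331
-- import your own Cfsg.Agent.* helpers here
import Cfsg.Agent.S1324
import Cfsg.Agent.Lib.Helper27.CharSub

set_option autoImplicit false
open Cfsg

namespace Cfsg.Agent.S1331

/-- Let θ be a solvable A-signalizer functor on the finite group G for the prime p, A elementary abelian of rank at least 3, X a member of the family of θ, and B ≤ A with |B| ≥ p². Then X is generated by the subgroups X ∩ ⋂_{d ∈ D, d ≠ 1} θ d, D ranging over the subgroups of index p in B. -/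
theorem result {G : Type*} [Group G] [Finite G] (p : ℕ) [Fact p.Prime] (A : Subgroup G) (hA : Cfsg.IsElementaryAbelian p A) (hA3 : p ^ 3 ≤ Nat.card ↥A) (θ : G → Subgroup G) (hθ : Cfsg.IsSolvableSignalizerFunctor p A θ) (X : Subgroup G) (hX : X ∈ Cfsg.signalizerFamily p A θ) (B : Subgroup G) (hB : B ≤ A) (hB2 : p ^ 2 ≤ Nat.card ↥B) : X = ⨆ D : {D : Subgroup G // D ≤ B ∧ D.relIndex B = p}, X ⊓ Cfsg.signalizerInf (D : Subgroup G) θ := by
  obtain ⟨-, hXp, hXA, hXθ⟩ := hX
  have hBe : Cfsg.IsElementaryAbelian p B := by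
    refine ⟨?_, fun a ha => hA.2 a (hB ha)⟩
    have := hA.1
    refine ⟨⟨fun a b => Subtype.ext ?_⟩⟩
    exact congrArg (Subtype.val : ↥A → G) (this.is_comm.comm (⟨a, hB a.2⟩ : ↥A) ⟨b, hB b.2⟩)
  have hBp : IsPGroup p ↥B := fun b => ⟨1, Subtype.ext (by simpa using hBe.2 b b.2)⟩
  have hBX : B ≤ Subgroup.normalizer (X : Set G) := by
    intro b hb
    rw [Subgroup.mem_normalizer_iff]
    intro u
    refine ⟨fun hu => hXA b (hB hb) u hu, fun hu => ?_⟩
    have := hXA b⁻¹ (inv_mem (hB hb)) _ hu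
    simpa [mul_assoc] using this
  have key : ∀ D : Subgroup G, D ≤ B →
      X ⊓ Subgroup.centralizer (D : Set G) ≤ X ⊓ Cfsg.signalizerInf D θ := by
    intro D hD
    refine le_inf inf_le_left ?_
    unfold Cfsg.signalizerInf
    refine le_iInf fun d => ?_
    refine le_trans (inf_le_inf_left X (Subgroup.centralizer_le ?_)) (hXθ d (hB (hD d.2.1)) d.2.2)
    intro x hx
    rw [Set.mem_singleton_iff] at hx
    rw [hx]; exact d.2.1
  apply le_antisymm
  · conv_lhs => rw [Cfsg.Agent.S1324.result p B X hBe hB2 hXp hBX]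
    refine iSup_le fun B' => ?_
    rcases Cfsg.Agent.Lib.Helper27.relIndex_eq_one_or_prime hBp B'.2.2 with h1 | h1
    · obtain ⟨D, hD1, hD2⟩ := Cfsg.Agent.Lib.Helper27.exists_relIndex_eq_prime hBp
        (le_trans (by nlinarith [(Fact.out : p.Prime).one_lt]) hB2)
      have hBB' : B ≤ B'.1 := Subgroup.relIndex_eq_one.mp h1
      refine le_trans ?_ (le_iSup (fun D : {D : Subgroup G // D ≤ B ∧ D.relIndex B = p} =>
        X ⊓ Cfsg.signalizerInf (D : Subgroup G) θ) ⟨D, hD1, hD2⟩)
      exact (inf_le_inf_left X (Subgroup.centralizer_le (hD1.trans hBB'))).trans (key D hD1)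
    · refine le_trans ?_ (le_iSup (fun D : {D : Subgroup G // D ≤ B ∧ D.relIndex B = p} =>
        X ⊓ Cfsg.signalizerInf (D : Subgroup G) θ) ⟨B'.1, B'.2.1, h1⟩)
      exact key B'.1 B'.2.1
  · exact iSup_le fun D => inf_le_left

end Cfsg.Agent.S1331
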