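import Cfsg.Statements.S1335
-- import your own Cfsg.Agent.* helpers here
import Mathlib

set_option autoImplicit false
open Cfsg

namespace Cfsg.Agent.S1335

theorem pRankLE_of_injective {G G' : Type*} [Group G] [Group G'] (p k : ℕ) (f : G' →* G)
    (hf : Function.Injective f) (h : Cfsg.PRankLE p k G) : Cfsg.PRankLE p k G' := by
  intro A hA hAp
  have h1 := h (A.map f) inferInstance (by
    rintro _ ⟨a, ha, rfl⟩
    rw [← map_pow, hAp a ha, map_one])
  rwa [Subgroup.card_map_of_injective hf] at h1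

/-- Let H be a subgroup of the finite group G, p a prime, k ≥ 1, P a Sylow p-subgroup of H of p-rank at least k, and suppose N_G(X) ≤ H for every subgroup X ≤ P of p-rank at least k. Then P is a Sylow p-subgroup of G. -/
theorem result {G : Type*} [Group G] [Finite G] {p : ℕ} [Fact p.Prime] (k : ℕ) (hk : 1 ≤ k) (H : Subgroup G) (P : Sylow p ↥H) (hP : ¬ Cfsg.PRankLE p (k - 1) ↥(P : Subgroup ↥H)) (hΓ : (∀ X : Subgroup G, X ≤ (P : Subgroup ↥H).map H.subtype → ¬ Cfsg.PRankLE p (k - 1) ↥X → Subgroup.normalizer (X : Set G) ≤ H)) : ∃ Q : Sylow p G, (Q : Subgroup G) = (P : Subgroup ↥H).map H.subtype := by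
  set P' : Subgroup G := (P : Subgroup ↥H).map H.subtype with hP'
  have hP'H : P' ≤ H := Subgroup.map_subtype_le _
  have hpg : IsPGroup p P' := P.2.map H.subtype
  have hrank : ¬ Cfsg.PRankLE p (k - 1) ↥P' := by
    intro hcon
    apply hP
    let e : ↥(P : Subgroup ↥H) ≃* ↥P' := (P : Subgroup ↥H).equivMapOfInjective H.subtype H.subtype_injective
    exact pRankLE_of_injective p (k - 1) e.toMonoidHom e.injective hcon
  have hN : Subgroup.normalizer (P' : Set G) ≤ H := hΓ P' le_rfl hrank
  obtain ⟨Q, hQ⟩ := hpg.exists_le_sylow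
  refine ⟨Q, ?_⟩
  by_contra hne
  have hlt : P' < (Q : Subgroup G) := lt_of_le_of_ne hQ (Ne.symm hne)
  -- normalizer condition inside Q
  haveI : Group.IsNilpotent ↥(Q : Subgroup G) := Q.2.isNilpotent
  have hnc := Group.normalizerCondition_of_isNilpotent (G := ↥(Q : Subgroup G))
  have hlt' : P'.subgroupOf (Q : Subgroup G) < ⊤ := by
    rw [lt_top_iff_ne_top]
    intro h
    rw [Subgroup.subgroupOf_eq_top] at h
    exact absurd (le_antisymm hQ h) (Ne.symm hne)
  have h2 := hnc _ hlt'
  obtain ⟨x, hxN, hxP⟩ := SetLike.exists_of_lt h2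
  -- the subgroup generated
  set R : Subgroup G := (Subgroup.normalizer ((P'.subgroupOf (Q : Subgroup G) : Subgroup ↥(Q : Subgroup G)) : Set ↥(Q : Subgroup G))).map (Q : Subgroup G).subtype with hR
  have hRQ : R ≤ Q := Subgroup.map_subtype_le _
  have hRp : IsPGroup p R := Q.2.to_le hRQ
  have hRN : R ≤ Subgroup.normalizer (P' : Set G) := by
    rintro _ ⟨y, hy, rfl⟩
    rw [SetLike.mem_coe, Subgroup.mem_normalizer_iff] at hy
    rw [Subgroup.mem_normalizer_iff]
    intro z
    constructor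
    · intro hz
      have := (hy ⟨z, hQ hz⟩).mp (by simpa [Subgroup.mem_subgroupOf] using hz)
      simpa [Subgroup.mem_subgroupOf] using this
    · intro hz
      have hzQ : z ∈ (Q : Subgroup G) := by
        have h3 : (y : G) * z * (y : G)⁻¹ ∈ (Q : Subgroup G) := hQ hz
        have : z = (y : G)⁻¹ * ((y : G) * z * (y : G)⁻¹) * (y : G) := by group
        rw [this]
        exact mul_mem (mul_mem (inv_mem y.2) h3) y.2
      have := (hy ⟨z, hzQ⟩).mpr (by simpa [Subgroup.mem_subgroupOf] using hz)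
      simpa [Subgroup.mem_subgroupOf] using this
  have hRH : R ≤ H := hRN.trans hN
  have hPR : P' ≤ R := by
    intro z hz
    refine ⟨⟨z, hQ hz⟩, ?_, rfl⟩
    apply Subgroup.le_normalizer
    simpa [Subgroup.mem_subgroupOf] using hz
  -- maximality of P in H
  have hmax := P.is_maximal' (Q := R.subgroupOf H) (hRp.comap_of_injective H.subtype H.subtype_injective) (by
    intro z hz
    rw [Subgroup.mem_subgroupOf]
    exact hPR ⟨z, hz, rfl⟩)
  apply hxP
  rw [Subgroup.mem_subgroupOf]
  have hxR : (x : G) ∈ R := ⟨x, hxN, rfl⟩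
  have : (⟨(x : G), hRH hxR⟩ : ↥H) ∈ R.subgroupOf H := by
    rw [Subgroup.mem_subgroupOf]; exact hxR
  rw [hmax] at this
  exact ⟨_, this, rfl⟩

end Cfsg.Agent.S1335
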