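import Cfsg.Statements.S1336

set_option autoImplicit false
open Cfsg

namespace Cfsg.Agent.S1336

open Relation

variable {G : Type*} [Group G]

def cj (g : G) (A : Subgroup G) : Subgroup G := A.map (MulAut.conj g).toMonoidHom

theorem mem_cj {g x : G} {A : Subgroup G} : x ∈ cj g A ↔ g⁻¹ * x * g ∈ A := by
  unfold cj
  rw [Subgroup.mem_map_equiv]
  rfl

theorem cj_one (A : Subgroup G) : cj 1 A = A := by
  ext x; simp [mem_cj]

theorem cj_mul (g h : G) (A : Subgroup G) : cj (g * h) A = cj g (cj h A) := by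
  ext x; simp only [mem_cj, mul_inv_rev, mul_assoc]

theorem cj_mono {g : G} {A B : Subgroup G} (h : A ≤ B) : cj g A ≤ cj g B := Subgroup.map_mono h

theorem cj_self {e : G} {E : Subgroup G} (he : e ∈ E) : cj e E = E := by
  ext x
  rw [mem_cj]
  constructor
  · intro h
    have := E.mul_mem (E.mul_mem he h) (E.inv_mem he)
    simpa [mul_assoc] using this
  · intro h
    exact E.mul_mem (E.mul_mem (E.inv_mem he) h) he

def Vx (p : ℕ) (A : Subgroup G) : Prop := IsElementaryAbelian p A ∧ p ^ 1 ≤ Nat.card A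

def Rel (p : ℕ) (A B : Subgroup G) : Prop :=
  IsElementaryAbelian p A ∧ p ^ 1 ≤ Nat.card ↥A ∧ IsElementaryAbelian p B ∧
        p ^ 1 ≤ Nat.card ↥B ∧ ∀ a ∈ A, ∀ b ∈ B, a * b = b * a

theorem ea_iff {p : ℕ} {A : Subgroup G} : IsElementaryAbelian p A ↔
    (∀ a ∈ A, ∀ b ∈ A, a * b = b * a) ∧ ∀ a ∈ A, a ^ p = 1 := by
  unfold IsElementaryAbelian
  constructor
  · rintro ⟨h1, h2⟩
    exact ⟨fun a ha b hb => congrArg Subtype.val (h1.is_comm.comm (⟨a, ha⟩ : A) ⟨b, hb⟩), h2⟩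
  · rintro ⟨h1, h2⟩
    exact ⟨⟨⟨fun a b => Subtype.ext (h1 a a.2 b b.2)⟩⟩, h2⟩

theorem Vx.cj {p : ℕ} {A : Subgroup G} (h : Vx p A) (g : G) : Vx p (cj g A) := by
  obtain ⟨h1, h2⟩ := h
  rw [ea_iff] at h1
  refine ⟨ea_iff.mpr ⟨?_, ?_⟩, ?_⟩
  · rintro _ ⟨a, ha, rfl⟩ _ ⟨b, hb, rfl⟩
    change (MulAut.conj g) a * (MulAut.conj g) b = (MulAut.conj g) b * (MulAut.conj g) a
    rw [← map_mul, ← map_mul, h1.1 a ha b hb]
  · rintro _ ⟨a, ha, rfl⟩
    change ((MulAut.conj g) a) ^ p = 1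
    rw [← map_pow, h1.2 a ha, map_one]
  · unfold S1336.cj
    rw [Subgroup.card_map_of_injective (MulAut.conj g).injective]
    exact h2

theorem Rel.left {p : ℕ} {A B : Subgroup G} (h : Rel p A B) : Vx p A := ⟨h.1, h.2.1⟩
theorem Rel.right {p : ℕ} {A B : Subgroup G} (h : Rel p A B) : Vx p B := ⟨h.2.2.1, h.2.2.2.1⟩
theorem Rel.comm {p : ℕ} {A B : Subgroup G} (h : Rel p A B) :
    ∀ a ∈ A, ∀ b ∈ B, a * b = b * a := h.2.2.2.2
theorem Rel.mk' {p : ℕ} {A B : Subgroup G} (hA : Vx p A) (hB : Vx p B)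
    (h : ∀ a ∈ A, ∀ b ∈ B, a * b = b * a) : Rel p A B := ⟨hA.1, hA.2, hB.1, hB.2, h⟩

theorem Rel.symm {p : ℕ} {A B : Subgroup G} (h : Rel p A B) : Rel p B A :=
  Rel.mk' h.right h.left (fun b hb a ha => (h.comm a ha b hb).symm)

theorem Rel.cj {p : ℕ} {A B : Subgroup G} (h : Rel p A B) (g : G) : Rel p (cj g A) (cj g B) := by
  refine Rel.mk' (h.left.cj g) (h.right.cj g) ?_
  rintro _ ⟨a, ha, rfl⟩ _ ⟨b, hb, rfl⟩
  change (MulAut.conj g) a * (MulAut.conj g) b = (MulAut.conj g) b * (MulAut.conj g) a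
  rw [← map_mul, ← map_mul, h.comm a ha b hb]

theorem rtg_cj {p : ℕ} (g : G) {A B : Subgroup G} (h : ReflTransGen (Rel p) A B) :
    ReflTransGen (Rel p) (cj g A) (cj g B) := by
  induction h with
  | refl => exact ReflTransGen.refl
  | tail _ hbc ih => exact ih.tail (hbc.cj g)

theorem rtg_symm {p : ℕ} {A B : Subgroup G} (h : ReflTransGen (Rel p) A B) :
    ReflTransGen (Rel p) B A := by
  induction h with
  | refl => exact ReflTransGen.refl
  | tail _ hbc ih => exact ReflTransGen.head hbc.symm ih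

theorem Vx.exists_order {p : ℕ} [Fact p.Prime] {A : Subgroup G} (h : Vx p A) :
    ∃ a ∈ A, orderOf a = p := by
  have hp : p.Prime := Fact.out
  by_contra hno
  push Not at hno
  have hbot : A = ⊥ := by
    rw [Subgroup.eq_bot_iff_forall]
    intro a ha
    by_contra hne
    exact hno a ha (orderOf_eq_prime (h.1.2 a ha) hne)
  have h2 := h.2
  rw [hbot, Subgroup.card_bot, pow_one] at h2
  exact absurd hp.two_le (by omega)

theorem Vx.isPGroup {p : ℕ} {A : Subgroup G} (h : Vx p A) : IsPGroup p A :=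
  fun a => ⟨1, by rw [pow_one]; exact Subtype.ext (h.1.2 _ a.2)⟩

theorem vx_zpowers {p : ℕ} {x : G} (hx : orderOf x = p) : Vx p (Subgroup.zpowers x) := by
  refine ⟨ea_iff.mpr ⟨?_, ?_⟩, ?_⟩
  · rintro _ ⟨i, rfl⟩ _ ⟨j, rfl⟩
    exact zpow_mul_comm x i j
  · rintro _ ⟨i, rfl⟩
    change (x ^ i) ^ p = 1
    rw [← zpow_natCast, ← zpow_mul, mul_comm, zpow_mul, zpow_natCast, ← hx, pow_orderOf_eq_one,
      one_zpow]
  · rw [Nat.card_zpowers, hx, pow_one]

theorem factA [Finite G] {p : ℕ} [Fact p.Prime] {A B T : Subgroup G} (hT : IsPGroup p T)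
    (hA : Vx p A) (hB : Vx p B) (hAT : A ≤ T) (hBT : B ≤ T) : ReflTransGen (Rel p) A B := by
  have hp : p.Prime := Fact.out
  obtain ⟨a, ha, hao⟩ := hA.exists_order
  have hnt : Nontrivial T := by
    refine ⟨⟨⟨a, hAT ha⟩, 1, fun h => ?_⟩⟩
    have : a = 1 := congrArg Subtype.val h
    rw [this, orderOf_one] at hao
    exact hp.one_lt.ne hao
  have hc : Nontrivial (Subgroup.center T) := hT.center_nontrivial
  have hcp : IsPGroup p (Subgroup.center T) := hT.to_subgroup _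
  obtain ⟨k, hk0, hk⟩ := hcp.nontrivial_iff_card.mp hc
  have hdvd : p ∣ Nat.card (Subgroup.center T) := by
    rw [hk]; exact dvd_pow_self p hk0.ne'
  obtain ⟨z, hz⟩ := exists_prime_orderOf_dvd_card' p hdvd
  have hz0 : orderOf ((z : T) : G) = p := by
    rw [Subgroup.orderOf_coe, Subgroup.orderOf_coe, hz]
  have hZ := vx_zpowers hz0
  have hcomm : ∀ t ∈ T, ∀ b ∈ Subgroup.zpowers ((z : T) : G), t * b = b * t := by
    rintro t ht _ ⟨i, rfl⟩
    have h1 : (⟨t, ht⟩ : T) * (z : T) = (z : T) * ⟨t, ht⟩ := (Subgroup.mem_center_iff.mp z.2) ⟨t, ht⟩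
    have h2 : Commute t ((z : T) : G) := congrArg Subtype.val h1
    exact (h2.zpow_right i).eq
  have r1 : Rel p A (Subgroup.zpowers ((z : T) : G)) :=
    Rel.mk' hA hZ (fun a ha b hb => hcomm a (hAT ha) b hb)
  have r2 : Rel p B (Subgroup.zpowers ((z : T) : G)) :=
    Rel.mk' hB hZ (fun a ha b hb => hcomm a (hBT ha) b hb)
  exact (ReflTransGen.single r1).trans (ReflTransGen.single r2.symm)

theorem sy {K : Type*} [Group K] [Finite K] {p : ℕ} [Fact p.Prime] {A B : Subgroup K}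
    (hA : IsPGroup p A) (hB : IsPGroup p B) :
    ∃ k : K, ∃ T : Subgroup K, IsPGroup p T ∧ cj k A ≤ T ∧ B ≤ T := by
  obtain ⟨S, hS⟩ := hA.exists_le_sylow
  obtain ⟨S', hS'⟩ := hB.exists_le_sylow
  obtain ⟨k, hk⟩ := MulAction.exists_smul_eq K S S'
  refine ⟨k, S', S'.2, ?_, hS'⟩
  rw [← hk]
  have : ((k • S : Sylow p K) : Subgroup K) = cj k S := rfl
  rw [this]
  exact cj_mono hS

theorem sy_rel [Finite G] {p : ℕ} [Fact p.Prime] {H A B : Subgroup G} (hA : IsPGroup p A)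
    (hB : IsPGroup p B) (hAH : A ≤ H) (hBH : B ≤ H) :
    ∃ h ∈ H, ∃ T : Subgroup G, IsPGroup p T ∧ cj h A ≤ T ∧ B ≤ T := by
  have hA' : IsPGroup p (A.subgroupOf H) := hA.comap_subtype
  have hB' : IsPGroup p (B.subgroupOf H) := hB.comap_subtype
  obtain ⟨k, T, hT, h1, h2⟩ := sy hA' hB'
  refine ⟨k, k.2, T.map H.subtype, hT.map _, ?_, ?_⟩
  · intro x hx
    rw [mem_cj] at hx
    have hxH : x ∈ H := by
      have := H.mul_mem (H.mul_mem k.2 (hAH hx)) (H.inv_mem k.2)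
      simpa [mul_assoc] using this
    refine ⟨⟨x, hxH⟩, h1 ?_, rfl⟩
    rw [mem_cj, Subgroup.mem_subgroupOf]
    exact hx
  · intro x hx
    exact ⟨⟨x, hBH hx⟩, h2 (Subgroup.mem_subgroupOf.mpr hx), rfl⟩

theorem forward [Finite G] (p : ℕ) [Fact p.Prime] (H : Subgroup G) (hne : H ≠ ⊤)
    (hp : p ∣ Nat.card H) (hs : ∀ g, g ∉ H → ¬ p ∣ Nat.card ↥(H ⊓ cj g H))
    (hconn : ∀ E E' : Subgroup G, Vx p E → Vx p E' → ReflTransGen (Rel p) E E') : False := by
  have step : ∀ A B : Subgroup G, A ≤ H → Rel p A B → B ≤ H := by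
    intro A B hAH hR b hb
    by_contra hbH
    apply hs b hbH
    obtain ⟨a, ha, hao⟩ := hR.left.exists_order
    have hmem : a ∈ H ⊓ cj b H := by
      refine Subgroup.mem_inf.mpr ⟨hAH ha, ?_⟩
      rw [mem_cj, mul_assoc, hR.comm a ha b hb, inv_mul_cancel_left]
      exact hAH ha
    have := orderOf_dvd_natCard (⟨a, hmem⟩ : ↥(H ⊓ cj b H))
    rwa [Subgroup.orderOf_mk, hao] at this
  have step' : ∀ A B : Subgroup G, ReflTransGen (Rel p) A B → A ≤ H → B ≤ H := by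
    intro A B hAB hA
    induction hAB with
    | refl => exact hA
    | tail _ hbc ih => exact step _ _ ih hbc
  obtain ⟨x, hx⟩ := exists_prime_orderOf_dvd_card' p hp
  have hx0 : orderOf (x : G) = p := by rw [Subgroup.orderOf_coe, hx]
  have hV := vx_zpowers hx0
  have hle : Subgroup.zpowers (x : G) ≤ H := by
    rw [Subgroup.zpowers_le]; exact x.2
  obtain ⟨g, hg⟩ : ∃ g, g ∉ H := by
    by_contra hno
    push Not at hno
    exact hne (Subgroup.eq_top_iff' H |>.mpr hno)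
  have h1 : cj g (Subgroup.zpowers (x : G)) ≤ H := step' _ _ (hconn _ _ hV (hV.cj g)) hle
  have h2 : cj g (Subgroup.zpowers (x : G)) ≤ cj g H := cj_mono hle
  obtain ⟨a, ha, hao⟩ := (hV.cj g).exists_order
  apply hs g hg
  have hmem : a ∈ H ⊓ cj g H := Subgroup.mem_inf.mpr ⟨h1 ha, h2 ha⟩
  have := orderOf_dvd_natCard (⟨a, hmem⟩ : ↥(H ⊓ cj g H))
  rwa [Subgroup.orderOf_mk, hao] at this

def stab (p : ℕ) (E : Subgroup G) : Subgroup G where
  carrier := {g | ReflTransGen (Rel p) E (cj g E)}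
  one_mem' := by
    change ReflTransGen (Rel p) E (cj 1 E)
    rw [cj_one]
  mul_mem' := by
    intro g h hg hh
    change ReflTransGen (Rel p) E (cj (g * h) E)
    rw [cj_mul]
    exact ReflTransGen.trans hg (rtg_cj g hh)
  inv_mem' := by
    intro g hg
    change ReflTransGen (Rel p) E (cj g⁻¹ E)
    have := rtg_cj g⁻¹ hg
    rw [← cj_mul, inv_mul_cancel, cj_one] at this
    exact rtg_symm this

theorem mem_stab {p : ℕ} {E : Subgroup G} {g : G} :
    g ∈ stab p E ↔ ReflTransGen (Rel p) E (cj g E) := Iff.rfl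

theorem backward [Finite G] (p : ℕ) [Fact p.Prime] (E E' : Subgroup G) (hE : Vx p E)
    (hE' : Vx p E') (hno : ¬ ReflTransGen (Rel p) E E') :
    ∃ H : Subgroup G, H ≠ ⊤ ∧ p ∣ Nat.card H ∧ ∀ g, g ∉ H → ¬ p ∣ Nat.card ↥(H ⊓ cj g H) := by
  have hEH : E ≤ stab p E := by
    intro e he
    rw [mem_stab, cj_self he]
  have key : ∀ X : Subgroup G, Vx p X → X ≤ stab p E → ReflTransGen (Rel p) E X := by
    intro X hX hXH
    obtain ⟨h, hh, T, hT, h1, h2⟩ := sy_rel hE.isPGroup hX.isPGroup hEH hXH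
    exact ReflTransGen.trans (mem_stab.mp hh) (factA hT (hE.cj h) hX h1 h2)
  refine ⟨stab p E, ?_, ?_, ?_⟩
  · intro htop
    obtain ⟨g, T, hT, h1, h2⟩ := sy hE.isPGroup hE'.isPGroup
    have hg : g ∈ stab p E := htop ▸ Subgroup.mem_top g
    exact hno (ReflTransGen.trans (mem_stab.mp hg) (factA hT (hE.cj g) hE' h1 h2))
  · obtain ⟨a, ha, hao⟩ := hE.exists_order
    have := orderOf_dvd_natCard (⟨a, hEH ha⟩ : stab p E)
    rwa [Subgroup.orderOf_mk, hao] at this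
  · intro g hg hdvd
    apply hg
    obtain ⟨x, hx⟩ := exists_prime_orderOf_dvd_card' p hdvd
    have hx0 : orderOf (x : G) = p := by rw [Subgroup.orderOf_coe, hx]
    have hV := vx_zpowers hx0
    have hle1 : Subgroup.zpowers (x : G) ≤ stab p E := by
      rw [Subgroup.zpowers_le]; exact x.2.1
    have hle2 : Subgroup.zpowers (x : G) ≤ cj g (stab p E) := by
      rw [Subgroup.zpowers_le]; exact x.2.2
    have hle3 : cj g⁻¹ (Subgroup.zpowers (x : G)) ≤ stab p E := by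
      have := cj_mono (g := g⁻¹) hle2
      rwa [← cj_mul, inv_mul_cancel, cj_one] at this
    have k1 := key _ hV hle1
    have k2 := rtg_cj g (key _ (hV.cj g⁻¹) hle3)
    rw [← cj_mul, mul_inv_cancel, cj_one] at k2
    rw [mem_stab]
    exact ReflTransGen.trans k1 (rtg_symm k2)

/-- Let G be finite and p prime. Then G has a proper subgroup H with p ∣ |H| and p ∤ |H ∩ gHg⁻¹| for every g ∉ H (a strongly p-embedded subgroup) if and only if G is not 1-connected for p. -/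
theorem result {G : Type*} [Group G] [Finite G] (p : ℕ) [Fact p.Prime] : (∃ H : Subgroup G, H ≠ ⊤ ∧ p ∣ Nat.card ↥H ∧ ∀ g : G, g ∉ H → ¬ p ∣ Nat.card ↥(H ⊓ H.map (MulAut.conj g).toMonoidHom)) ↔ ¬ Cfsg.IsKConnected p 1 G := by
  constructor
  · rintro ⟨H, hne, hp, hs⟩ hconn
    exact forward p H hne hp hs (fun E E' hE hE' => hconn E E' hE.1 hE.2 hE'.1 hE'.2)
  · intro hno
    unfold Cfsg.IsKConnected at hno
    push Not at hno
    obtain ⟨E, E', h1, h2, h3, h4, h5⟩ := hno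
    exact backward p E E' ⟨h1, h2⟩ ⟨h3, h4⟩ h5

end Cfsg.Agent.S1336
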