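import Cfsg.Statements.S1337
import Cfsg.Agent.S0519
import Cfsg.Agent.S0636
import Cfsg.Agent.Lib.Helper3.RankThree
import Cfsg.Agent.Lib.Helper59.CyclicCrit
import Cfsg.Agent.Lib.Helper14.Sup

set_option autoImplicit false
open Cfsg

namespace Cfsg.Agent.S1337

open Subgroup

theorem card_le_of_cyclic_exp {P : Type*} [Group P] [Finite P] (p : ℕ) [hp : Fact p.Prime]
    (A : Subgroup P) (hA : IsCyclic A) (hAp : ∀ a ∈ A, a ^ p = 1) : Nat.card A ≤ p := by
  obtain ⟨g, hg⟩ := hA.exists_generator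
  have h1 : orderOf g = Nat.card A := orderOf_eq_card_of_forall_mem_zpowers hg
  have h2 : g ^ p = 1 := Subtype.ext (hAp g g.2)
  rw [← h1]
  exact Nat.le_of_dvd hp.out.pos (orderOf_dvd_of_pow_eq_one h2)

theorem pRankLE_two_of_elt {P : Type*} [Group P] [Finite P] (x : P)
    (hx : Nat.card P = 2 * orderOf x) : Cfsg.PRankLE 2 2 P := by
  intro A _ hAp
  set C := zpowers x with hC
  have hidx : C.index = 2 := by
    have h := C.card_mul_index
    rw [hC, Nat.card_zpowers, hx, mul_comm] at h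
    exact Nat.eq_of_mul_eq_mul_right (orderOf_pos x) h
  haveI : C.Normal := normal_of_index_eq_two hidx
  have h1 := Cfsg.Agent.Lib.Helper3.card_le_index_mul_card_inf A C
  have h2 : Nat.card ↥(A ⊓ C) ≤ 2 := by
    haveI : Fact (Nat.Prime 2) := ⟨Nat.prime_two⟩
    apply card_le_of_cyclic_exp 2
    · have hc : IsCyclic ((A ⊓ C).subgroupOf C) := inferInstance
      exact (subgroupOfEquivOfLe inf_le_right).isCyclic.mp hc
    · intro a ha
      exact hAp a ha.1
  rw [hidx] at h1
  calc Nat.card A ≤ 2 * Nat.card ↥(A ⊓ C) := h1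
    _ ≤ 2 * 2 := Nat.mul_le_mul_left _ h2
    _ = 2 ^ 2 := by norm_num

theorem exists_normal_card_sq {P : Type*} [Group P] [Finite P] (p : ℕ) [hp : Fact p.Prime]
    (hP : IsPGroup p P) (N : Subgroup P) [N.Normal] (hN : p ^ 2 ≤ Nat.card N) :
    ∃ U : Subgroup P, U ≤ N ∧ U.Normal ∧ Nat.card U = p ^ 2 := by
  induction hn : Nat.card N using Nat.strong_induction_on generalizing N with
  | _ n ih =>
    by_cases heq : Nat.card N = p ^ 2
    · exact ⟨N, le_rfl, inferInstance, heq⟩
    have hNne : N ≠ ⊥ := by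
      rintro rfl
      simp at hN
      have := hp.out.one_lt
      nlinarith
    obtain ⟨M, hMN, hMn, hMi⟩ := Cfsg.Agent.S0636.exists_normal_relIndex_p hP N hNne
    have h1 := Cfsg.Agent.Lib.Helper57.card_mul_relIndex hMN
    rw [hMi] at h1
    obtain ⟨k, hk⟩ := (hP.to_subgroup N).exists_card_eq
    obtain ⟨m, hm⟩ := (hP.to_subgroup M).exists_card_eq
    have hk3 : 3 ≤ k := by
      have h2 : 2 ≤ k := by
        rw [hk] at hN
        exact (Nat.pow_le_pow_iff_right hp.out.one_lt).mp hN
      rcases Nat.eq_or_lt_of_le h2 with h | h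
      · exact absurd (by rw [hk, ← h]) heq
      · exact h
    have hmk : m + 1 = k := by
      rw [hm, hk, ← pow_succ] at h1
      exact Nat.pow_right_injective hp.out.two_le h1
    have hM2 : p ^ 2 ≤ Nat.card M := by
      rw [hm]
      exact Nat.pow_le_pow_right hp.out.pos (by omega)
    have hlt : Nat.card M < n := by
      rw [← hn, hm, hk]
      exact Nat.pow_lt_pow_right hp.out.one_lt (by omega)
    haveI := hMn
    obtain ⟨U, hU, hrest⟩ := ih (Nat.card M) hlt M hM2 rfl
    exact ⟨U, hU.trans hMN, hrest⟩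

theorem exists_normal_EA {P : Type*} [Group P] [Finite P] (p : ℕ) [hp : Fact p.Prime]
    (hP : IsPGroup p P) (hrk : ¬ Cfsg.PRankLE p 2 P) :
    ∃ U : Subgroup P, U.Normal ∧ Cfsg.IsElementaryAbelian p U ∧ Nat.card U = p ^ 2 := by
  classical
  have hrk' := hrk
  unfold Cfsg.PRankLE at hrk'
  push Not at hrk'
  obtain ⟨A, hAc, hAp, hAcard⟩ := hrk'
  have hAnc : ¬ IsCyclic A := by
    intro h
    have h1 := card_le_of_cyclic_exp p A h hAp
    have : p ≤ p ^ 2 := by nlinarith [hp.out.one_lt]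
    omega
  by_cases hn : ∀ B : Subgroup P, B.Normal → IsMulCommutative B → IsCyclic B
  · exfalso
    obtain ⟨rfl, h⟩ := Cfsg.Agent.S0519.result p hP hn ⟨A, hAc, hAnc⟩
    apply hrk
    rcases h with ⟨n, ⟨e⟩⟩ | ⟨n, _, ⟨e⟩⟩ | ⟨n, _, hcard, x, y, hx, _, _⟩
    · have ho : orderOf (e.symm (QuaternionGroup.a 1)) = 2 * n := by
        rw [MulEquiv.orderOf_eq, QuaternionGroup.orderOf_a_one]
      have hn0 : n ≠ 0 := by
        rintro rfl
        have := orderOf_pos (e.symm (QuaternionGroup.a 1))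
        omega
      haveI : NeZero n := ⟨hn0⟩
      apply pRankLE_two_of_elt (e.symm (QuaternionGroup.a 1))
      rw [ho, Nat.card_congr e.toEquiv, Nat.card_eq_fintype_card, QuaternionGroup.card]
      ring
    · have ho : orderOf (e.symm (DihedralGroup.r 1)) = n := by
        rw [MulEquiv.orderOf_eq, DihedralGroup.orderOf_r_one]
      apply pRankLE_two_of_elt (e.symm (DihedralGroup.r 1))
      rw [ho, Nat.card_congr e.toEquiv, DihedralGroup.nat_card]
    · apply pRankLE_two_of_elt x
      rw [hx, hcard, pow_succ]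
      ring
  · push Not at hn
    obtain ⟨B, hBn, hBc, hBnc⟩ := hn
    let Ω : Subgroup P :=
      { carrier := {b | b ∈ B ∧ b ^ p = 1}
        one_mem' := ⟨B.one_mem, one_pow p⟩
        mul_mem' := by
          rintro a b ⟨ha, hap⟩ ⟨hb, hbp⟩
          refine ⟨B.mul_mem ha hb, ?_⟩
          have hcomm : Commute a b := by
            have := hBc.is_comm.comm (⟨a, ha⟩ : B) ⟨b, hb⟩
            exact congrArg Subtype.val this
          rw [hcomm.mul_pow, hap, hbp, one_mul]
        inv_mem' := by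
          rintro a ⟨ha, hap⟩
          exact ⟨B.inv_mem ha, by rw [inv_pow, hap, inv_one]⟩ }
    have hΩB : Ω ≤ B := fun b hb => hb.1
    have hΩn : Ω.Normal := by
      constructor
      rintro b ⟨hb, hbp⟩ g
      exact ⟨hBn.conj_mem b hb g, by rw [conj_pow, hbp]; group⟩
    have hΩcard : p ^ 2 ≤ Nat.card Ω := by
      by_contra hlt
      push Not at hlt
      apply hBnc
      apply Cfsg.Agent.Lib.Helper59.isCyclic_of_few_roots p (hP.to_subgroup B)
        (fun x y => hBc.is_comm.comm x y)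
      obtain ⟨k, hk⟩ := (hP.to_subgroup Ω).exists_card_eq
      have hk1 : k < 2 := by
        rw [hk] at hlt
        exact (Nat.pow_lt_pow_iff_right hp.out.one_lt).mp hlt
      have hΩp : Nat.card Ω ≤ p := by
        rw [hk]
        calc p ^ k ≤ p ^ 1 := Nat.pow_le_pow_right hp.out.pos (by omega)
          _ = p := pow_one p
      refine le_trans ?_ hΩp
      apply Nat.card_le_card_of_injective
        (fun x : {x : B // x ^ p = 1} =>
          (⟨x.1.1, x.1.2, by simpa using congrArg Subtype.val x.2⟩ : Ω))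
      intro x y hxy
      apply Subtype.ext
      apply Subtype.ext
      exact congrArg (fun z : Ω => (z : P)) hxy
    obtain ⟨U, hUΩ, hUn, hUcard⟩ := exists_normal_card_sq p hP Ω hΩcard
    refine ⟨U, hUn, ⟨⟨⟨fun a b => ?_⟩⟩, fun a ha => (hUΩ ha).2⟩, hUcard⟩
    have := hBc.is_comm.comm (⟨a.1, hΩB (hUΩ a.2)⟩ : B) ⟨b.1, hΩB (hUΩ b.2)⟩
    exact Subtype.ext (congrArg (fun z : B => (z : P)) this)

/-- Let P be a finite p-group of p-rank greater than 2. Then P has a normal elementary abelian subgroup U of order p², and for every elementary abelian X ≤ P with |X| ≥ p²: X is joined to U by a chain of pairwise commuting elementary abelian subgroups of order ≥ p² if and only if C_P(X) has p-rank greater than 2. -/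
theorem result {P : Type*} [Group P] [Finite P] (p : ℕ) [Fact p.Prime] (hP : IsPGroup p P) (hrk : ¬ Cfsg.PRankLE p 2 P) : ∃ U : Subgroup P, U.Normal ∧ Cfsg.IsElementaryAbelian p U ∧ Nat.card ↥U = p ^ 2 ∧ ∀ X : Subgroup P, Cfsg.IsElementaryAbelian p X → p ^ 2 ≤ Nat.card ↥X → (Relation.ReflTransGen (fun A B : Subgroup P => Cfsg.IsElementaryAbelian p A ∧ p ^ 2 ≤ Nat.card ↥A ∧ Cfsg.IsElementaryAbelian p B ∧ p ^ 2 ≤ Nat.card ↥B ∧ ∀ a ∈ A, ∀ b ∈ B, a * b = b * a) X U ↔ ¬ Cfsg.PRankLE p 2 ↥(Subgroup.centralizer (X : Set P))) := by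
  classical
  have hpp : p.Prime := Fact.out
  obtain ⟨U, hUn, hUEA, hUcard⟩ := exists_normal_EA p hP hrk
  refine ⟨U, hUn, hUEA, hUcard, ?_⟩
  haveI := hUn
  have hidx : (Subgroup.centralizer (U : Set P)).index ≤ p :=
    Cfsg.Agent.Lib.Helper3.index_centralizer_le hP U hUcard.le
  -- a big elementary abelian subgroup of the centralizer gives large rank
  have hbig : ∀ X E : Subgroup P, E ≤ Subgroup.centralizer (X : Set P) →
      Cfsg.IsElementaryAbelian p E → p ^ 2 < Nat.card E →
      ¬ Cfsg.PRankLE p 2 ↥(Subgroup.centralizer (X : Set P)) := by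
    intro X E hE hEA hcard hr
    have h1 := hr (E.subgroupOf (Subgroup.centralizer (X : Set P)))
      ⟨⟨fun a b => by
        have := hEA.1.is_comm.comm (⟨a.1.1, a.2⟩ : E) ⟨b.1.1, b.2⟩
        apply Subtype.ext
        apply Subtype.ext
        exact congrArg (fun z : E => (z : P)) this⟩⟩
      (fun a ha => Subtype.ext (hEA.2 a.1 ha))
    rw [Nat.card_congr (Subgroup.subgroupOfEquivOfLe hE).toEquiv] at h1
    omega
  -- the join of two commuting elementary abelian subgroups
  have hjoin : ∀ X Y : Subgroup P, Cfsg.IsElementaryAbelian p X → Cfsg.IsElementaryAbelian p Y →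
      (∀ a ∈ X, ∀ b ∈ Y, a * b = b * a) →
      Cfsg.IsElementaryAbelian p (X ⊔ Y) ∧ X ⊔ Y ≤ Subgroup.centralizer (X : Set P) := by
    intro X Y hX hY hXY
    have hXX : ∀ a ∈ X, ∀ b ∈ X, a * b = b * a := fun a ha b hb =>
      congrArg (fun z : X => (z : P)) (hX.1.is_comm.comm (⟨a, ha⟩ : X) ⟨b, hb⟩)
    have hYY : ∀ a ∈ Y, ∀ b ∈ Y, a * b = b * a := fun a ha b hb =>
      congrArg (fun z : Y => (z : P)) (hY.1.is_comm.comm (⟨a, ha⟩ : Y) ⟨b, hb⟩)
    have hcX : X ⊔ Y ≤ Subgroup.centralizer (X : Set P) := by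
      refine sup_le ?_ ?_
      · intro a ha
        rw [Subgroup.mem_centralizer_iff]
        intro b hb
        exact hXX b hb a ha
      · intro a ha
        rw [Subgroup.mem_centralizer_iff]
        intro b hb
        exact hXY b hb a ha
    have hcY : X ⊔ Y ≤ Subgroup.centralizer (Y : Set P) := by
      refine sup_le ?_ ?_
      · intro a ha
        rw [Subgroup.mem_centralizer_iff]
        intro b hb
        exact (hXY a ha b hb).symm
      · intro a ha
        rw [Subgroup.mem_centralizer_iff]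
        intro b hb
        exact hYY b hb a ha
    have hcc : ∀ a ∈ X ⊔ Y, ∀ b ∈ X ⊔ Y, a * b = b * a := by
      intro a ha b hb
      have h1 : X ⊔ Y ≤ Subgroup.centralizer ({a} : Set P) := by
        refine sup_le ?_ ?_
        · intro c hc
          rw [Subgroup.mem_centralizer_singleton_iff]
          exact (Subgroup.mem_centralizer_iff.mp (hcX ha) c hc)
        · intro c hc
          rw [Subgroup.mem_centralizer_singleton_iff]
          exact (Subgroup.mem_centralizer_iff.mp (hcY ha) c hc)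
      exact (Subgroup.mem_centralizer_singleton_iff.mp (h1 hb)).symm
    refine ⟨⟨⟨⟨fun a b => Subtype.ext (hcc a a.2 b b.2)⟩⟩, ?_⟩, hcX⟩
    intro a ha
    obtain ⟨x, hx, y, hy, rfl⟩ := (Cfsg.Agent.Lib.Helper14.mem_sup_of_commute hXY).mp ha
    rw [(show Commute x y from hXY x hx y hy).mul_pow, hX.2 x hx, hY.2 y hy, one_mul]
  -- the centralizer of `U` has rank > 2
  have hU3 : ¬ Cfsg.PRankLE p 2 ↥(Subgroup.centralizer (U : Set P)) := by
    have hrk' := hrk
    unfold Cfsg.PRankLE at hrk'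
    push Not at hrk'
    obtain ⟨A, hAc, hAp, hAcard⟩ := hrk'
    have hAEA : Cfsg.IsElementaryAbelian p A := ⟨hAc, hAp⟩
    set Y := A ⊓ Subgroup.centralizer (U : Set P) with hY
    have hYEA : Cfsg.IsElementaryAbelian p Y :=
      ⟨⟨⟨fun a b => Subtype.ext (congrArg (fun z : A => (z : P))
        (hAc.is_comm.comm (⟨a.1, a.2.1⟩ : A) ⟨b.1, b.2.1⟩))⟩⟩, fun a ha => hAp a ha.1⟩
    have hUY : ∀ a ∈ U, ∀ b ∈ Y, a * b = b * a := fun a ha b hb =>
      (Subgroup.mem_centralizer_iff.mp hb.2 a ha)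
    obtain ⟨hJ, hJc⟩ := hjoin U Y hUEA hYEA hUY
    by_cases hYU : Y ≤ U
    · -- then `A` itself centralizes `U`
      have h1 := Cfsg.Agent.Lib.Helper3.card_le_index_mul_card_inf A
        (Subgroup.centralizer (U : Set P))
      have h2 : Nat.card Y ≤ p ^ 2 := hUcard ▸ Subgroup.card_le_of_le hYU
      by_cases hYeq : Y = U
      · have hUA : U ≤ A := hYeq ▸ inf_le_left
        have hAcU : A ≤ Subgroup.centralizer (U : Set P) := by
          intro a ha
          rw [Subgroup.mem_centralizer_iff]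
          intro u hu
          exact congrArg (fun z : A => (z : P)) (hAc.is_comm.comm (⟨u, hUA hu⟩ : A) ⟨a, ha⟩)
        exact hbig U A hAcU hAEA hAcard
      · exfalso
        have hlt : Nat.card Y < Nat.card U := by
          have : Y < U := lt_of_le_of_ne hYU hYeq
          exact Set.ncard_lt_ncard this (Set.toFinite _)
        obtain ⟨k, hk⟩ := (hP.to_subgroup Y).exists_card_eq
        rw [hUcard, hk] at hlt
        have hk1 : k < 2 := (Nat.pow_lt_pow_iff_right hpp.one_lt).mp hlt
        have hYp : Nat.card Y ≤ p := by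
          rw [hk]
          calc p ^ k ≤ p ^ 1 := Nat.pow_le_pow_right hpp.pos (by omega)
            _ = p := pow_one p
        have : Nat.card A ≤ p * p := h1.trans (Nat.mul_le_mul hidx hYp)
        rw [← pow_two] at this
        omega
    · apply hbig U (U ⊔ Y) hJc hJ
      rw [← hUcard]
      have : U < U ⊔ Y := lt_of_le_of_ne le_sup_left (fun h => hYU (h ▸ le_sup_right))
      exact Set.ncard_lt_ncard this (Set.toFinite _)
  intro X hXEA hXcard
  constructor
  · intro hpath
    induction hpath using Relation.ReflTransGen.head_induction_on with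
    | refl => exact hU3
    | head h' _ ih =>
      rename_i X₀ X₁ hh
      obtain ⟨hX₀, hc₀, hX₁, hc₁, hcomm⟩ := h'
      obtain ⟨hJ, hJc⟩ := hjoin X₀ X₁ hX₀ hX₁ hcomm
      by_cases h1 : X₁ ≤ X₀
      · by_cases h2 : X₁ = X₀
        · exact h2 ▸ ih hX₁ hc₁
        · have hlt' : X₁ < X₀ := lt_of_le_of_ne h1 h2
          have hlt : Nat.card X₁ < Nat.card X₀ := Set.ncard_lt_ncard hlt' (Set.toFinite _)
          exact hbig X₀ X₀ (le_sup_left.trans hJc) hX₀ (by omega)
      · apply hbig X₀ (X₀ ⊔ X₁) hJc hJ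
        have : X₀ < X₀ ⊔ X₁ := lt_of_le_of_ne le_sup_left (fun h => h1 (h ▸ le_sup_right))
        have hlt : Nat.card X₀ < Nat.card ↥(X₀ ⊔ X₁) := Set.ncard_lt_ncard this (Set.toFinite _)
        omega
  · intro hr
    unfold Cfsg.PRankLE at hr
    push Not at hr
    obtain ⟨E', hEc, hEp, hEcard⟩ := hr
    set E := E'.map (Subgroup.centralizer (X : Set P)).subtype with hE
    have hEle : E ≤ Subgroup.centralizer (X : Set P) := Subgroup.map_subtype_le _
    have hEcard' : Nat.card E = Nat.card E' :=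
      Subgroup.card_map_of_injective (Subgroup.subtype_injective _)
    have hEcomm : ∀ a ∈ E, ∀ b ∈ E, a * b = b * a := by
      rintro _ ⟨a, ha, rfl⟩ _ ⟨b, hb, rfl⟩
      have := hEc.is_comm.comm (⟨a, ha⟩ : E') ⟨b, hb⟩
      exact congrArg (fun z : E' => ((z : Subgroup.centralizer (X : Set P)) : P)) this
    have hEpow : ∀ a ∈ E, a ^ p = 1 := by
      rintro _ ⟨a, ha, rfl⟩
      simpa using congrArg Subtype.val (hEp a ha)
    set Y := E ⊓ Subgroup.centralizer (U : Set P) with hY
    have hYEA : Cfsg.IsElementaryAbelian p Y :=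
      ⟨⟨⟨fun a b => Subtype.ext (hEcomm a a.2.1 b b.2.1)⟩⟩, fun a ha => hEpow a ha.1⟩
    have hYcard : p ^ 2 ≤ Nat.card Y := by
      have h1 := Cfsg.Agent.Lib.Helper3.card_le_index_mul_card_inf E
        (Subgroup.centralizer (U : Set P))
      obtain ⟨k, hk⟩ := (hP.to_subgroup Y).exists_card_eq
      by_contra hlt
      push Not at hlt
      rw [hk] at hlt
      have hk1 : k < 2 := (Nat.pow_lt_pow_iff_right hpp.one_lt).mp hlt
      have hYp : Nat.card Y ≤ p := by
        rw [hk]
        calc p ^ k ≤ p ^ 1 := Nat.pow_le_pow_right hpp.pos (by omega)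
          _ = p := pow_one p
      have : Nat.card E ≤ p * p := h1.trans (Nat.mul_le_mul hidx hYp)
      rw [← pow_two] at this
      omega
    refine Relation.ReflTransGen.head (b := Y) ⟨hXEA, hXcard, hYEA, hYcard, ?_⟩
      (Relation.ReflTransGen.single ⟨hYEA, hYcard, hUEA, hUcard.ge, ?_⟩)
    · intro a ha b hb
      exact (Subgroup.mem_centralizer_iff.mp (hEle hb.1) a ha)
    · intro a ha b hb
      exact (Subgroup.mem_centralizer_iff.mp ha.2 b hb).symm

end Cfsg.Agent.S1337
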