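import Cfsg.Statements.S1338
-- import your own Cfsg.Agent.* helpers here
import Cfsg.Agent.S0122
import Cfsg.Agent.S1337
import Cfsg.Agent.Lib.Helper27.KJ4.RK3

set_option autoImplicit false
open Cfsg

namespace Cfsg.Agent.S1338

/-- A finite 3-group of 3-rank at least 4 is 2-connected for the prime 3: its commuting graph on elementary abelian subgroups of order ≥ 9 is connected. -/
theorem result {P : Type*} [Group P] [Finite P] (hP : IsPGroup 3 P) (hrk : ¬ Cfsg.PRankLE 3 3 P) : Cfsg.IsKConnected 3 2 P := by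
  classical
  have : Fact (Nat.Prime 3) := ⟨by norm_num⟩
  unfold Cfsg.PRankLE at hrk
  push Not at hrk
  obtain ⟨A, hAc, hAe, hAcard⟩ := hrk
  obtain ⟨k, hk⟩ := (hP.to_subgroup A).exists_card_eq
  have hk4 : 4 ≤ k := by
    rw [hk] at hAcard
    have := (Nat.pow_lt_pow_iff_right (by norm_num : 1 < 3)).1 hAcard
    omega
  obtain ⟨E', hE'⟩ := Sylow.exists_subgroup_card_pow_prime 3 (G := A) (n := 4)
    (by rw [hk]; exact pow_dvd_pow 3 hk4)
  have hEA : E'.map A.subtype ≤ A := Subgroup.map_subtype_le E'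
  have hE4 : Nat.card (E'.map A.subtype) = 3 ^ 4 := by
    rw [Subgroup.card_map_of_injective A.subtype_injective, hE']
  have hE : Cfsg.IsElementaryAbelian 3 (E'.map A.subtype) :=
    ⟨⟨⟨fun x y => Subtype.ext (congrArg Subtype.val
      (hAc.is_comm.comm (⟨(x : P), hEA x.2⟩ : A) ⟨(y : P), hEA y.2⟩) :)⟩⟩, fun a ha => hAe a (hEA ha)⟩
  obtain ⟨U, hUn, hU, hUc⟩ := Cfsg.Agent.S0122.result (p := 3) (by norm_num) hP _ hE hE4
  have hrk2 : ¬ Cfsg.PRankLE 3 2 P := by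
    intro h
    have := h A hAc hAe
    omega
  obtain ⟨U2, hU2n, hU2, hU2c, hiff⟩ := Cfsg.Agent.S1337.result 3 hP hrk2
  have toEA : ∀ X : Subgroup P, Cfsg.IsElementaryAbelian 3 X → Cfsg.Agent.Lib.Helper27.KJ4.EA 3 X :=
    fun X hX => ⟨fun a ha b hb => congrArg Subtype.val (hX.1.is_comm.comm ⟨a, ha⟩ ⟨b, hb⟩), hX.2⟩
  have key : ∀ X : Subgroup P, Cfsg.IsElementaryAbelian 3 X → 3 ^ 2 ≤ Nat.card ↥X →
      Relation.ReflTransGen (fun A B : Subgroup P => Cfsg.IsElementaryAbelian 3 A ∧ 3 ^ 2 ≤ Nat.card ↥A ∧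
        Cfsg.IsElementaryAbelian 3 B ∧ 3 ^ 2 ≤ Nat.card ↥B ∧ ∀ a ∈ A, ∀ b ∈ B, a * b = b * a) X U2 := by
    intro X hX hXc
    rw [hiff X hX hXc]
    intro hle
    obtain ⟨Y, hY, hXY, hYc⟩ := Cfsg.Agent.Lib.Helper27.KJ4.exists_rank3 hP U (toEA U hU)
      (by rw [hUc]; norm_num) X (toEA X hX) (by simpa using hXc)
    have hYcent : Y ≤ Subgroup.centralizer (X : Set P) := by
      intro y hy
      rw [Subgroup.mem_centralizer_iff]
      intro x hx
      exact hY.1 x (hXY hx) y hy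
    have h1 := hle (Y.subgroupOf (Subgroup.centralizer (X : Set P)))
      ⟨⟨fun a b => Subtype.ext (Subtype.ext (hY.1 _ a.2 _ b.2))⟩⟩
      (fun a ha => Subtype.ext (hY.2 _ ha))
    rw [Nat.card_congr (Subgroup.subgroupOfEquivOfLe hYcent).toEquiv] at h1
    omega
  intro E1 E2 h1 h1c h2 h2c
  refine (key E1 h1 h1c).trans ?_
  have hrev : ∀ X Y : Subgroup P,
      Relation.ReflTransGen (fun A B : Subgroup P => Cfsg.IsElementaryAbelian 3 A ∧ 3 ^ 2 ≤ Nat.card ↥A ∧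
        Cfsg.IsElementaryAbelian 3 B ∧ 3 ^ 2 ≤ Nat.card ↥B ∧ ∀ a ∈ A, ∀ b ∈ B, a * b = b * a) X Y →
      Relation.ReflTransGen (fun A B : Subgroup P => Cfsg.IsElementaryAbelian 3 A ∧ 3 ^ 2 ≤ Nat.card ↥A ∧
        Cfsg.IsElementaryAbelian 3 B ∧ 3 ^ 2 ≤ Nat.card ↥B ∧ ∀ a ∈ A, ∀ b ∈ B, a * b = b * a) Y X := by
    intro X Y h
    induction h with
    | refl => exact Relation.ReflTransGen.refl
    | tail _ hbc ih =>
      obtain ⟨a1, a2, a3, a4, a5⟩ := hbc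
      exact Relation.ReflTransGen.head ⟨a3, a4, a1, a2, fun b hb a ha => (a5 a ha b hb).symm⟩ ih
  exact hrev _ _ (key E2 h2 h2c)

end Cfsg.Agent.S1338
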