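import Cfsg.Statements.S1343
import Cfsg.Agent.Lib.Helper29.ExtLayer

set_option autoImplicit false
open Cfsg

namespace Cfsg.Agent.S1343

open Cfsg.Agent.Lib.Helper29

/-- Let X be finite. Then L*_{2'}(X) = L_{2'}(X) ⊔ F for some subgroup F of odd order normalized by a Sylow 2-subgroup of X. -/
theorem result {X : Type*} [Group X] [Finite X] : ∃ F : Subgroup X, Odd (Nat.card ↥F) ∧ (∃ S : Sylow 2 X, (S : Subgroup X) ≤ Subgroup.normalizer (F : Set X)) ∧ Cfsg.extendedTwoLayer X = Cfsg.pLayer 2 X ⊔ F := by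
  have : Fact (Nat.Prime 2) := ⟨Nat.prime_two⟩
  have hNN := NN_normal (X := X)
  obtain ⟨T⟩ : Nonempty (Sylow 2 ↥(NN X)) := inferInstance
  refine ⟨oddCore X ⊔ DD (up T), ?_, ?_, ?_⟩
  · have h1 : Odd (Nat.card (oddCore X)) := odd_card_oddCore
    have h2 : Odd (Nat.card (DD (up T))) := by
      unfold DD
      rw [card_coreOf]
      exact odd_card_oddCore
    exact Odd.of_dvd_nat (h1.mul h2) (card_sup_dvd _ _)
  · have hT2 : IsPGroup 2 (up T) := T.isPGroup'.map _
    obtain ⟨S, hS⟩ := hT2.exists_le_sylow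
    refine ⟨S, ?_⟩
    -- S ∩ N = T
    have hST : (S : Subgroup X) ⊓ NN X = up T := by
      have h1 : IsPGroup 2 (((S : Subgroup X) ⊓ NN X).subgroupOf (NN X)) := by
        have h2 : IsPGroup 2 ((S : Subgroup X) ⊓ NN X : Subgroup X) := S.isPGroup'.to_le inf_le_left
        exact h2.comap_subtype
      have h3 : (T : Subgroup (NN X)) ≤ ((S : Subgroup X) ⊓ NN X).subgroupOf (NN X) := by
        intro x hx
        exact Subgroup.mem_subgroupOf.mpr (Subgroup.mem_inf.mpr ⟨hS ⟨x, hx, rfl⟩, x.2⟩)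
      have h4 := T.is_maximal' h1 h3
      unfold up
      rw [← h4]
      exact (Subgroup.map_subgroupOf_eq_of_le inf_le_right).symm
    intro s hs
    have hTs : (up T).map (cj s) = up T := by
      rw [← hST, Subgroup.map_inf_eq _ _ _ (cj_injective s), map_cj_eq_of_normal s (NN X)]
      congr 1
      apply le_antisymm
      · rintro _ ⟨x, hx, rfl⟩
        exact mul_mem (mul_mem hs hx) (inv_mem hs)
      · intro x hx
        exact ⟨s⁻¹ * x * s, mul_mem (mul_mem (inv_mem hs) hx) hs, by simp [mul_assoc]⟩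
    rw [Subgroup.mem_normalizer_iff_map_conj_eq]
    change (oddCore X ⊔ DD (up T)).map (cj s) = _
    rw [Subgroup.map_sup, map_cj_eq_of_normal, ← DD_map_cj, hTs]
  · rw [extendedTwoLayer_eq_of_sylow T, sup_assoc]

end Cfsg.Agent.S1343
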