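import Cfsg.Statements.S1344
import Cfsg.Agent.Lib.Helper29.PComp2
import Cfsg.Agent.Lib.Helper29.ExtLayer

set_option autoImplicit false
open Cfsg

namespace Cfsg.Agent.S1344

open Cfsg.Agent.Lib.Helper29

/-- Let K be a 2-component of the finite group X. Then K ≤ L*_{2'}(X) and K is normal in L*_{2'}(X). -/
theorem result {X : Type*} [Group X] [Finite X] (K : Subgroup X) (hK : Cfsg.IsPComponent 2 K) : K ≤ Cfsg.extendedTwoLayer X ∧ (K.subgroupOf (Cfsg.extendedTwoLayer X)).Normal := by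
  have : Fact (Nat.Prime 2) := ⟨Nat.prime_two⟩
  have hKL : K ≤ pLayer 2 X := IsPComponent.le_pLayer hK
  have hKE : K ≤ extendedTwoLayer X := by
    rw [extendedTwoLayer_eq]
    exact hKL.trans (le_sup_left.trans le_sup_left)
  refine ⟨hKE, (Subgroup.normal_subgroupOf_iff_le_normalizer hKE).mpr ?_⟩
  obtain ⟨TK⟩ : Nonempty (Sylow 2 K) := inferInstance
  have hKN : K ≤ NN X := hKL.trans le_sup_left
  have hTKN : up TK ≤ NN X := (up_le TK).trans hKN
  have hpg : IsPGroup 2 ((up TK).subgroupOf (NN X)) :=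
    (TK.isPGroup'.map K.subtype).comap_subtype
  obtain ⟨T, hT⟩ := hpg.exists_le_sylow
  have hTT : up TK ≤ up T := by
    intro x hx
    exact ⟨⟨x, hTKN hx⟩, hT (Subgroup.mem_subgroupOf.mpr hx), rfl⟩
  rw [extendedTwoLayer_eq_of_sylow T]
  refine sup_le (sup_le (IsPComponent.pLayer_le_normalizer hK)
    (IsPComponent.pPrimeCore_le_normalizer hK)) ?_
  intro d hd
  have hdC : d ∈ Subgroup.centralizer (up T : Set X) := coreOf_le _ _ hd
  apply IsPComponent.mem_normalizer_of_map hK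
  by_contra hcon
  rw [Subgroup.mem_normalizer_iff_map_conj_eq] at hcon
  have hcomp : IsComponent ((K.map (qm 2 X)).map (cj (qm 2 X d))) := IsComponent.conj hK.2.1 _
  have hcomm := Cfsg.Agent.Lib.Helper27.comp_comm_of_ne hcomp hK.2.1 hcon
  rw [Subgroup.commutator_eq_bot_iff_le_centralizer] at hcomm
  apply IsPComponent.sylow_map_not_le_centralizer hK TK
  rintro _ ⟨x, hx, rfl⟩
  apply hcomm
  refine ⟨qm 2 X x, Subgroup.mem_map_of_mem _ (up_le TK hx), ?_⟩
  have h1 : x * d = d * x := (Subgroup.mem_centralizer_iff.mp hdC) x (hTT hx)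
  have h2 : d * x * d⁻¹ = x := by rw [← h1]; group
  rw [cj_apply, ← map_mul, ← map_inv, ← map_mul, h2]

end Cfsg.Agent.S1344
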