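import Cfsg.Statements.S1348
import Cfsg.Agent.Lib.Helper70.STD.Main
-- import your own Cfsg.Agent.* helpers here

set_option autoImplicit false
open Cfsg

namespace Cfsg.Agent.S1348

/-- Let F be a finite field of odd order, n ≥ 7 odd, and t ∈ SL(n, F) the diagonal matrix with entries −1, …, −1, 1. Then E(C(t)) is a standard subgroup of SL(n, F). -/
theorem result {F : Type*} [Field F] [Fintype F] [DecidableEq F] (hF : Odd (Fintype.card F)) (n : ℕ) (hn : 7 ≤ n) (hodd : Odd n) (t : Matrix.SpecialLinearGroup (Fin n) F) (ht : (t : Matrix (Fin n) (Fin n) F) = Matrix.diagonal (fun i : Fin n => if (i : ℕ) + 1 = n then (1 : F) else -1)) : Cfsg.IsStandardSubgroup ((Cfsg.layer ↥(Subgroup.centralizer ({t} : Set (Matrix.SpecialLinearGroup (Fin n) F)))).map (Subgroup.centralizer ({t} : Set (Matrix.SpecialLinearGroup (Fin n) F))).subtype) := by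
  obtain ⟨c, rfl⟩ : ∃ c, n = c + 1 := ⟨n - 1, by omega⟩
  have hev : Even c := by
    rcases Nat.even_or_odd c with h | h
    · exact h
    · exfalso
      have := h.add_one
      exact (Nat.not_even_iff_odd.mpr hodd) this
  have h2 : (2 : F) ≠ 0 := by
    intro h
    have hchar : ringChar F = 2 := by
      have : ringChar F ∣ 2 := by
        apply ringChar.dvd
        exact_mod_cast h
      rcases (Nat.dvd_prime Nat.prime_two).1 this with h1 | h1
      · exact absurd h1 (CharP.ringChar_ne_one)
      · exact h1
    have := FiniteField.even_card_of_char_two hchar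
    exact (Nat.not_even_iff_odd.mpr hF) (Nat.even_iff.mpr this)
  have ht' : t.1 = Cfsg.Agent.Lib.Helper70.STD.dg c (-1) 1 := by
    rw [ht, Cfsg.Agent.Lib.Helper70.STD.dg]
    congr 1
    funext i
    have : ((i : ℕ) + 1 = c + 1) ↔ i = Fin.last c := by
      constructor
      · intro h; apply Fin.ext; simp; omega
      · intro h; rw [h]; simp
    simp only [this]
  rw [Cfsg.Agent.Lib.Helper70.STD.layer_cent_t (by omega) h2 t ht']
  exact Cfsg.Agent.Lib.Helper70.STD.std_K (by omega) hev h2 t ht'

end Cfsg.Agent.S1348
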