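import Cfsg.Statements.S1387
import Cfsg.Agent.Lib.Helper29.Cores

set_option autoImplicit false
open Cfsg

namespace Cfsg.Agent.S1387

open Cfsg.Agent.Lib.Helper29

/-- Let M be a subgroup of a finite group G with type-P data (W₁, U, W₂) and H = M_F. Then the Fitting subgroup F(M) is generated by H and the centralizer of H in U. -/
theorem result {G : Type*} [Group G] [Finite G] (M W₁ U W₂ : Subgroup G) (hP : Cfsg.IsTypePWith M W₁ U W₂) :
    Cfsg.fittingOf M = Cfsg.fittingHallOf M ⊔ (U ⊓ Subgroup.centralizer (Cfsg.fittingHallOf M : Set G)) := by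
  obtain ⟨hHM', hUM', hHU, hprod⟩ := hP.U_compl
  have hM'M : ⁅M, M⁆ ≤ M := hP.W₁_compl.1
  have hcop := coprime_card_fittingHallOf_of_disjoint M U (hUM'.trans hM'M) hHU
  rw [← hP.fitting_eq]
  apply le_antisymm
  · refine sup_le le_sup_left ?_
    intro c hc
    have hcF : c ∈ fittingOf M := by
      rw [← hP.fitting_eq]; exact Subgroup.mem_sup_right hc
    obtain ⟨a, ha, b, hb, rfl⟩ := hprod c (hP.fitting_le hcF)
    have hcC := (Subgroup.mem_inf.mp hc).2
    have hcomm : Commute a⁻¹ (a * b) := by
      have := (Subgroup.mem_centralizer_iff.mp hcC) a ha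
      exact (Commute.inv_left (show Commute a (a * b) from this))
    have hb' : b = a⁻¹ * (a * b) := by group
    have h1 : b ^ (Nat.card U) = 1 := pow_card_subgroup_eq_one U hb
    rw [hb', hcomm.mul_pow] at h1
    have h2 : (a * b) ^ (Nat.card U) = a ^ (Nat.card U) := by
      have := eq_inv_of_mul_eq_one_right h1
      simpa using this
    obtain ⟨x, hx⟩ := exists_zpow_eq_of_coprime (pow_card_subgroup_eq_one _ ha) hcop
    have haC : a ∈ Subgroup.centralizer (fittingHallOf M : Set G) := by
      rw [← hx, ← h2]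
      exact zpow_mem (pow_mem hcC _) _
    have hbC : b ∈ Subgroup.centralizer (fittingHallOf M : Set G) := by
      rw [hb']; exact mul_mem (inv_mem haC) hcC
    exact mul_mem (Subgroup.mem_sup_left ha) (Subgroup.mem_sup_right (Subgroup.mem_inf.mpr ⟨hb, hbC⟩))
  · exact sup_le_sup_left (inf_le_inf_right _ (hUM'.trans hM'M)) _

end Cfsg.Agent.S1387
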