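import Cfsg.Statements.S1388
import Cfsg.Agent.Lib.Helper29.Cores
import Cfsg.Agent.S1387

set_option autoImplicit false
open Cfsg
open scoped Pointwise

namespace Cfsg.Agent.S1388

open Cfsg.Agent.Lib.Helper29

/-- Let M be a subgroup of a finite group G with type-P data (W₁, U, W₂) and H = M_F. Then the derived subgroup of U centralizes H, and if U ≠ 1 then U does not centralize H. -/
theorem result {G : Type*} [Group G] [Finite G] (M W₁ U W₂ : Subgroup G) (hP : Cfsg.IsTypePWith M W₁ U W₂) :
    ⁅U, U⁆ ≤ Subgroup.centralizer (Cfsg.fittingHallOf M : Set G) ∧ (U ≠ ⊥ → ¬ U ≤ Subgroup.centralizer (Cfsg.fittingHallOf M : Set G)) := by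
  obtain ⟨hHM', hUM', hHU, hprod⟩ := hP.U_compl
  have hM'M : ⁅M, M⁆ ≤ M := hP.W₁_compl.1
  have hUM : U ≤ M := hUM'.trans hM'M
  have hcop := coprime_card_fittingHallOf_of_disjoint M U hUM hHU
  constructor
  · intro u hu
    have huU : u ∈ U := by
      have := Subgroup.commutator_le_sup U U hu
      rwa [sup_idem] at this
    have h1 : u ∈ fittingHallOf M ⊔ (U ⊓ Subgroup.centralizer (fittingHallOf M : Set G)) := by
      rw [← Cfsg.Agent.S1387.result M W₁ U W₂ hP, ← hP.fitting_eq]
      exact hP.derived_two_le (Subgroup.commutator_mono hUM' hUM' hu)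
    have hcoe : ((fittingHallOf M ⊔ (U ⊓ Subgroup.centralizer (fittingHallOf M : Set G)) : Subgroup G) : Set G)
        = (fittingHallOf M : Set G) * ((U ⊓ Subgroup.centralizer (fittingHallOf M : Set G) : Subgroup G) : Set G) := by
      apply Subgroup.coe_mul_of_right_le_normalizer_left
      exact inf_le_right.trans (Subgroup.centralizer_le_normalizer _)
    have h2 : u ∈ ((fittingHallOf M ⊔ (U ⊓ Subgroup.centralizer (fittingHallOf M : Set G)) : Subgroup G) : Set G) := h1
    rw [hcoe] at h2
    obtain ⟨h, hh, k, hk, rfl⟩ := h2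
    have hk' := Subgroup.mem_inf.mp hk
    have hh1 : h ∈ fittingHallOf M ⊓ U := by
      refine Subgroup.mem_inf.mpr ⟨hh, ?_⟩
      simpa using mul_mem huU (inv_mem hk'.1)
    rw [hHU, Subgroup.mem_bot] at hh1
    simpa [hh1] using hk'.2
  · intro hU1 hUC
    apply hU1
    -- normality of U in M
    have hnorm : ∀ m ∈ M, ∀ u ∈ U, m * u * m⁻¹ ∈ U := by
      intro m hm u hu
      have h1 : m * u * m⁻¹ ∈ ⁅M, M⁆ :=
        (Subgroup.mem_normalizer_iff.mp (Subgroup.normalizer_commutator_ge_left M M hm) u).mp (hUM' hu)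
      obtain ⟨a, ha, b, hb, hab⟩ := hprod _ h1
      have hcomm : Commute a b := (Subgroup.mem_centralizer_iff.mp (hUC hb)) a ha
      have h2 : (m * u * m⁻¹) ^ (Nat.card U) = 1 := by
        rw [conj_pow, pow_card_subgroup_eq_one U hu]; group
      rw [hab, hcomm.mul_pow, pow_card_subgroup_eq_one U hb, mul_one] at h2
      obtain ⟨x, hx⟩ := exists_zpow_eq_of_coprime (pow_card_subgroup_eq_one _ ha) hcop
      rw [h2, one_zpow] at hx
      rw [hab, ← hx, one_mul]; exact hb
    have hN : (U.subgroupOf M).Normal := by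
      constructor
      intro n hn g
      exact hnorm g g.2 n hn
    have hnil : Group.IsNilpotent (U.subgroupOf M) := by
      exact (Group.isNilpotent_congr (Subgroup.subgroupOfEquivOfLe hUM)).mpr hP.U_nilpotent
    have hc1 := IsComplIn.card_mul hP.U_compl
    have hc2 := IsComplIn.card_mul hP.W₁_compl
    have hW1M : W₁ ≤ M := hP.W₁_compl.2.1
    have hc3 := relIndex_mul_card_of_le hW1M
    have hc4 := relIndex_mul_card_of_le hUM
    have hposU : 0 < Nat.card U := Nat.card_pos
    have hposW : 0 < Nat.card W₁ := Nat.card_pos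
    have hr1 : W₁.relIndex M = Nat.card (fittingHallOf M) * Nat.card U := by
      rw [← hc2, ← hc1] at hc3
      exact Nat.eq_of_mul_eq_mul_right hposW hc3
    have hr2 : U.relIndex M = Nat.card (fittingHallOf M) * Nat.card W₁ := by
      rw [← hc2, ← hc1] at hc4
      apply Nat.eq_of_mul_eq_mul_right hposU
      rw [hc4]; ring
    have hcopW : (Nat.card U).Coprime (Nat.card W₁) := by
      have := hP.W₁_hall
      rw [hr1] at this
      exact (Nat.Coprime.coprime_mul_left_right this).symm
    have hcard : Nat.card (U.subgroupOf M) = Nat.card U :=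
      Nat.card_congr (Subgroup.subgroupOfEquivOfLe hUM).toEquiv
    have hHall : (Nat.card (U.subgroupOf M)).Coprime (U.subgroupOf M).index := by
      rw [hcard]
      change (Nat.card U).Coprime (U.relIndex M)
      rw [hr2]
      exact Nat.Coprime.mul_right hcop.symm hcopW
    have hle : U.subgroupOf M ≤ fittingHall M := le_sSup ⟨hN, hnil, hHall⟩
    rw [Subgroup.eq_bot_iff_forall]
    intro u hu
    have : u ∈ fittingHallOf M ⊓ U :=
      Subgroup.mem_inf.mpr ⟨⟨⟨u, hUM hu⟩, hle hu, rfl⟩, hu⟩
    rwa [hHU, Subgroup.mem_bot] at this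

end Cfsg.Agent.S1388
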