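import Cfsg.Statements.S1441
-- import your own Cfsg.Agent.* helpers here

set_option autoImplicit false
open Cfsg

namespace Cfsg.Agent.S1441

open scoped commutatorElement

/-- If `a * n * a⁻¹ = n * d` with `d` commuting with `a`, then `a ^ k * n * a⁻¹ ^ k = n * d ^ k`. -/
theorem conj_pow_aux {G : Type*} [Group G] (a n d : G) (h : a * n * a⁻¹ = n * d) (hd : a * d = d * a) (k : ℕ) :
    a ^ k * n * (a ^ k)⁻¹ = n * d ^ k := by
  induction k with
  | zero => simp
  | succ k ih =>
    have h1 : a ^ (k + 1) * n * (a ^ (k + 1))⁻¹ = a * (a ^ k * n * (a ^ k)⁻¹) * a⁻¹ := by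
      rw [pow_succ' a k]; group
    have hdk : a * d ^ k * a⁻¹ = d ^ k := by
      have : Commute a (d ^ k) := (show Commute a d from hd).pow_right k
      rw [this.eq]; group
    rw [h1, ih]
    calc a * (n * d ^ k) * a⁻¹ = (a * n * a⁻¹) * (a * d ^ k * a⁻¹) := by group
      _ = n * d * d ^ k := by rw [h, hdk]
      _ = n * d ^ (k + 1) := by rw [pow_succ' d k, mul_assoc]

/-- Let G be a finite group, H a solvable subgroup and A a subgroup normalizing H. Suppose there is a chain H = H₀ ≥ H₁ ≥ ⋯ ≥ H_n = 1 of subgroups normal in H and normalized by A such that A acts trivially on each factor H_{i-1}/H_i (that is, [H_{i-1}, A] ≤ H_i). Then every prime dividing the index of C_A(H) in A divides the order of H. -/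
theorem result {G : Type*} [Group G] [Finite G] (H A : Subgroup G) (hH : Group.IsSolvable H) (hA : (A ≤ Subgroup.normalizer (H : Set G)))
    (n : ℕ) (c : Fin (n + 1) → Subgroup G) (hc0 : c 0 = H) (hcn : c (Fin.last n) = ⊥) (hanti : Antitone c)
    (hcN : ∀ i, H ≤ Subgroup.normalizer ((c i : Subgroup G) : Set G)) (hcA : ∀ i, A ≤ Subgroup.normalizer ((c i : Subgroup G) : Set G))
    (htriv : ∀ i : Fin n, ⁅c i.castSucc, A⁆ ≤ c i.succ) :
    ∀ p : ℕ, p.Prime → p ∣ (A ⊓ Subgroup.centralizer (H : Set G)).relIndex A → p ∣ Nat.card H := by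
  intro p hp hdvd
  by_contra hpH
  have : Fact p.Prime := ⟨hp⟩
  have hcH : ∀ i, c i ≤ H := fun i => hc0 ▸ hanti (Fin.zero_le i)
  have claim : ∀ x ∈ A, (∃ k : ℕ, x ^ p ^ k = 1) → ∀ i, ∀ h ∈ c i, x * h = h * x := by
    intro x hx hxk i
    obtain ⟨k, hk⟩ := hxk
    induction i using Fin.reverseInduction with
    | last =>
      intro h hh
      rw [hcn, Subgroup.mem_bot] at hh
      simp [hh]
    | cast i ih =>
      intro h hh
      set d := ⁅h⁻¹, x⁆ with hd
      have hdmem : d ∈ c i.succ :=
        htriv i (Subgroup.commutator_mem_commutator ((c i.castSucc).inv_mem hh) hx)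
      have hxd : x * d = d * x := ih d hdmem
      have hconj : x * h * x⁻¹ = h * d := by
        rw [hd, commutatorElement_def]; group
      have hpow := conj_pow_aux x h d hconj hxd (p ^ k)
      rw [hk] at hpow
      have hd1 : d ^ p ^ k = 1 := by
        have : h = h * d ^ p ^ k := by simpa using hpow
        exact (mul_eq_left.mp this.symm)
      have ho1 : orderOf d ∣ p ^ k := orderOf_dvd_of_pow_eq_one hd1
      have ho2 : orderOf d ∣ Nat.card H := Subgroup.orderOf_dvd_natCard H (hcH _ hdmem)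
      have hcop : (p ^ k).Coprime (Nat.card H) :=
        Nat.Coprime.pow_left k ((Nat.Prime.coprime_iff_not_dvd hp).mpr hpH)
      have ho : orderOf d = 1 := Nat.eq_one_of_dvd_coprimes hcop ho1 ho2
      have hd_one : d = 1 := orderOf_eq_one_iff.mp ho
      rw [hd_one, mul_one] at hconj
      calc x * h = (x * h * x⁻¹) * x := by group
        _ = h * x := by rw [hconj]
  obtain ⟨P⟩ : Nonempty (Sylow p A) := inferInstance
  have hPle : (P : Subgroup A) ≤ (A ⊓ Subgroup.centralizer (H : Set G)).subgroupOf A := by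
    intro y hy
    rw [Subgroup.mem_subgroupOf]
    refine Subgroup.mem_inf.mpr ⟨y.2, ?_⟩
    rw [Subgroup.mem_centralizer_iff]
    intro h hh
    obtain ⟨k, hk⟩ := (P.isPGroup' ⟨y, hy⟩)
    have hk' : (y : G) ^ p ^ k = 1 := by
      have := congrArg (fun z : (P : Subgroup A) => ((z : A) : G)) hk
      simpa using this
    exact (claim y.1 y.2 ⟨k, hk'⟩ 0 h (hc0 ▸ hh)).symm
  have h1 : (A ⊓ Subgroup.centralizer (H : Set G)).relIndex A ∣ (P : Subgroup A).index :=
    Subgroup.index_dvd_of_le hPle
  exact P.not_dvd_index (hdvd.trans h1)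

end Cfsg.Agent.S1441
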