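import Cfsg.Statements.S1442
-- import your own Cfsg.Agent.* helpers here

set_option autoImplicit false
open Cfsg

namespace Cfsg.Agent.S1442

/-- If `a * n * a⁻¹ = n * d` with `d` commuting with `a`, then `a ^ k * n * a⁻¹ ^ k = n * d ^ k`. -/
theorem conj_pow_aux {G : Type*} [Group G] (a n d : G) (h : a * n * a⁻¹ = n * d) (hd : a * d = d * a) (k : ℕ) :
    a ^ k * n * (a ^ k)⁻¹ = n * d ^ k := by
  induction k with
  | zero => simp
  | succ k ih =>
    have h1 : a ^ (k + 1) * n * (a ^ (k + 1))⁻¹ = a * (a ^ k * n * (a ^ k)⁻¹) * a⁻¹ := by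
      rw [pow_succ' a k]; group
    have hdk : a * d ^ k * a⁻¹ = d ^ k := by
      have : Commute a (d ^ k) := (show Commute a d from hd).pow_right k
      rw [this.eq]; group
    rw [h1, ih]
    calc a * (n * d ^ k) * a⁻¹ = (a * n * a⁻¹) * (a * d ^ k * a⁻¹) := by group
      _ = n * d * d ^ k := by rw [h, hdk]
      _ = n * d ^ (k + 1) := by rw [pow_succ' d k, mul_assoc]

/-- Let G be a finite group, H a nilpotent subgroup and A a subgroup normalizing H with the orders of A and H coprime. Put C = H ∩ C_G(A). If H ∩ C_G(C) ≤ C then A centralizes H. -/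
theorem result {G : Type*} [Group G] [Finite G] (H A : Subgroup G) (hH : Group.IsNilpotent H) (hA : (A ≤ Subgroup.normalizer (H : Set G))) (hcop : (Nat.card A).Coprime (Nat.card H))
    (hC : H ⊓ Subgroup.centralizer (((H ⊓ Subgroup.centralizer (A : Set G)) : Subgroup G) : Set G) ≤ (H ⊓ Subgroup.centralizer (A : Set G))) :
    A ≤ Subgroup.centralizer (H : Set G) := by
  classical
  set C := H ⊓ Subgroup.centralizer (A : Set G) with hCdef
  have hCA : ∀ c ∈ C, ∀ a ∈ A, a * c = c * a := by
    intro c hc a ha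
    exact (Subgroup.mem_centralizer_iff.mp hc.2) a ha
  have key : ∀ n ∈ H, (∀ c, c ∈ C → n * c * n⁻¹ ∈ C) → n ∈ C := by
    intro n hn hnorm
    refine Subgroup.mem_inf.mpr ⟨hn, ?_⟩
    rw [Subgroup.mem_centralizer_iff]
    intro a ha
    have hanH : a * n * a⁻¹ ∈ H := ((Subgroup.mem_normalizer_iff.mp (hA ha)) n).mp hn
    set d := n⁻¹ * (a * n * a⁻¹) with hd
    have hdH : d ∈ H := H.mul_mem (H.inv_mem hn) hanH
    have hdC : d ∈ C := by
      apply hC
      refine Subgroup.mem_inf.mpr ⟨hdH, ?_⟩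
      rw [Subgroup.mem_centralizer_iff]
      intro c hc
      have h1 : a * c = c * a := hCA c hc a ha
      have h2 : a * (n * c * n⁻¹) = (n * c * n⁻¹) * a := hCA _ (hnorm c hc) a ha
      have h1' : a⁻¹ * c * a = c := by rw [mul_assoc, ← h1]; group
      have h3 : (a * n * a⁻¹) * c * (a * n * a⁻¹)⁻¹ = n * c * n⁻¹ := by
        calc (a * n * a⁻¹) * c * (a * n * a⁻¹)⁻¹ = a * (n * (a⁻¹ * c * a) * n⁻¹) * a⁻¹ := by group
          _ = a * (n * c * n⁻¹) * a⁻¹ := by rw [h1']
          _ = n * c * n⁻¹ := by rw [h2]; group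
      have h4 : d * c * d⁻¹ = c := by
        calc d * c * d⁻¹ = n⁻¹ * ((a * n * a⁻¹) * c * (a * n * a⁻¹)⁻¹) * n := by rw [hd]; group
          _ = c := by rw [h3]; group
      calc c * d = (d * c * d⁻¹) * d := by rw [h4]
        _ = d * c := by group
    have hand : a * n * a⁻¹ = n * d := by rw [hd]; group
    have had : a * d = d * a := hCA d hdC a ha
    have hpow := conj_pow_aux a n d hand had (orderOf a)
    rw [pow_orderOf_eq_one] at hpow
    have hd1 : d ^ orderOf a = 1 := by
      have : n = n * d ^ orderOf a := by simpa using hpow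
      exact (mul_eq_left.mp this.symm)
    have ho1 : orderOf d ∣ Nat.card A :=
      (orderOf_dvd_of_pow_eq_one hd1).trans (Subgroup.orderOf_dvd_natCard A ha)
    have ho2 : orderOf d ∣ Nat.card H := Subgroup.orderOf_dvd_natCard H hdH
    have ho : orderOf d = 1 := Nat.eq_one_of_dvd_coprimes hcop ho1 ho2
    have hd_one : d = 1 := orderOf_eq_one_iff.mp ho
    rw [hd_one, mul_one] at hand
    calc a * n = (a * n * a⁻¹) * a := by group
      _ = n * a := by rw [hand]
  have hCH : C = H := by
    by_contra hne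
    have hle : C ≤ H := inf_le_left
    have hlt : C.subgroupOf H < ⊤ := by
      rw [lt_top_iff_ne_top]
      intro htop
      apply hne
      exact le_antisymm hle (Subgroup.subgroupOf_eq_top.mp htop)
    have hnc := (Group.normalizerCondition_of_isNilpotent (G := H)) (C.subgroupOf H) hlt
    obtain ⟨n, hn1, hn2⟩ := SetLike.exists_of_lt hnc
    apply hn2
    rw [Subgroup.mem_subgroupOf]
    apply key n.1 n.2
    intro c hc
    have := (Subgroup.mem_normalizer_iff.mp hn1 ⟨c, hle hc⟩).mp (by rw [Subgroup.mem_subgroupOf]; exact hc)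
    rw [Subgroup.mem_subgroupOf] at this
    simpa using this
  intro a ha
  rw [Subgroup.mem_centralizer_iff]
  intro h hh
  have : h ∈ C := hCH ▸ hh
  exact (hCA h this a ha).symm

end Cfsg.Agent.S1442
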