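import Cfsg.Statements.S3769
import Cfsg.Agent.Lib.Helper79.HAutV
import Cfsg.Agent.Lib.Helper79.HAmb
import Cfsg.Agent.Lib.Helper79.HCoprime
import Cfsg.Agent.Lib.Helper1.Cores

set_option autoImplicit false
open Cfsg

namespace Cfsg.Agent.S3769

/-- Let G and V be subgroups of a finite group with G solvable of odd order normalizing V, V an elementary abelian ℓ-group for a prime ℓ not dividing the order of G, and suppose G has a normal Hall subgroup K with a complement R of prime order. If C_V(R) = 1, then [R, K] centralizes V. -/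
theorem result {X : Type*} [Group X] [Finite X] (G : Subgroup X) (hsolv : Group.IsSolvable G) (hodd : Odd (Nat.card G)) (V : Subgroup X) {ℓ : ℕ} (hℓ : ℓ.Prime) (hV : Cfsg.IsElementaryAbelian ℓ V) (hℓG : ¬ ℓ ∣ Nat.card G) (hGV : G ≤ Subgroup.normalizer (V : Set X)) (K R : Subgroup X) (hKG : K ≤ G) (hKn : G ≤ Subgroup.normalizer (K : Set X)) (hHall : (Nat.card K).Coprime (K.relIndex G)) (hRG : R ≤ G) (hR : (Nat.card R).Prime) (hKR : K ⊓ R = ⊥) (hKRG : K ⊔ R = G) (hCV : V ⊓ Subgroup.centralizer (R : Set X) = ⊥) : ⁅R, K⁆ ≤ Subgroup.centralizer (V : Set X) := by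
  classical
  open Cfsg.Agent.Lib.Helper79.HW in
  set r := Nat.card R with hr
  haveI : Fact r.Prime := ⟨hR⟩
  haveI : Nontrivial R := by
    rw [← Finite.one_lt_card_iff_nontrivial]; exact hR.one_lt
  obtain ⟨⟨a, haR⟩, ha1⟩ := exists_ne (1 : R)
  have ha1' : a ≠ 1 := fun h => ha1 (Subtype.ext h)
  have haG := hRG haR
  have haV := hGV haG
  have haK := hKn haG
  have hKV := hKG.trans hGV
  have har : a ^ r = 1 := by
    have := pow_card_eq_one' (G := R) (x := ⟨a, haR⟩)
    exact congrArg Subtype.val this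
  have hord : orderOf a = r := orderOf_eq_prime har ha1'
  have hgen : ∀ x ∈ R, x ∈ Subgroup.zpowers a := by
    intro x hx
    have := mem_zpowers_of_prime_card (G := R) hr.symm (g := ⟨a, haR⟩) (g' := ⟨x, hx⟩) ha1
    obtain ⟨k, hk⟩ := this
    exact ⟨k, by simpa using congrArg Subtype.val hk⟩
  have hcommV : ∀ u v : V, u * v = v * u := fun u v => hV.1.is_comm.comm u v
  have hexpV : ∀ u : V, u ^ ℓ = 1 := fun u => Subtype.ext (by simpa using hV.2 u u.2)
  -- `r` does not divide `|K|`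
  have hrK : ¬ r ∣ Nat.card K := by
    haveI : (K.subgroupOf G).Normal := (Subgroup.normal_subgroupOf_iff_le_normalizer hKG).mpr hKn
    have h1 := Subgroup.pow_index_mem (K.subgroupOf G) (⟨a, haG⟩ : G)
    rw [Subgroup.mem_subgroupOf] at h1
    have h2 : a ^ (K.relIndex G) ∈ K ⊓ R := Subgroup.mem_inf.mpr ⟨h1, pow_mem haR _⟩
    rw [hKR, Subgroup.mem_bot] at h2
    have h3 : r ∣ K.relIndex G := hord ▸ orderOf_dvd_of_pow_eq_one h2
    intro h4
    have := Nat.eq_one_of_dvd_coprimes hHall h4 h3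
    exact hR.one_lt.ne' this
  have hKdvd : Nat.card K ∣ Nat.card G := Subgroup.card_dvd_of_le hKG
  have hrℓ : r ≠ ℓ := by
    intro h
    exact hℓG (h ▸ Subgroup.card_dvd_of_le hRG)
  set t := act V a haV with ht
  have htr : t ^ r = 1 := by
    rw [ht, ← act_pow, act_eq_one_iff, har]; exact one_mem _
  have htfix : ∀ v : V, t v = v → v = 1 := by
    intro v hav
    have : (v : X) ∈ V ⊓ Subgroup.centralizer (R : Set X) := by
      refine Subgroup.mem_inf.mpr ⟨v.2, ?_⟩
      rw [Subgroup.mem_centralizer_iff]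
      intro x hx
      have h1 := congrArg Subtype.val hav
      rw [act_apply] at h1
      have h2 : a * (v : X) = v * a := by
        calc a * (v : X) = (a * v * a⁻¹) * a := by group
          _ = v * a := by rw [h1]
      obtain ⟨k, rfl⟩ := hgen x hx
      exact ((Commute.zpow_left (show Commute a (v : X) from h2) k)).eq
    rw [hCV, Subgroup.mem_bot] at this
    exact Subtype.ext this
  have hK' := conj_mem_iff a K (fun x hx => (Subgroup.mem_normalizer_iff.mp haK x).mp hx)
  set φ := conjOn a K hK' with hφ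
  have hφr : φ ^ (r ^ 1) = 1 := by
    ext1 x
    apply Subtype.ext
    rw [pow_one, conjOn_pow_apply, har]; simp
  let ψ : K →* MulAut V := V.normalizerMonoidHom.comp (Subgroup.inclusion hKV)
  have hψ : ∀ k : K, ψ k = act V k (hKV k.2) := fun k => rfl
  have hH : (Subgroup.centralizer {t}).comap ψ = ⊤ := by
    apply Cfsg.Agent.Lib.Helper1.eq_top_of_forall_sylow_le
    intro q hq
    obtain ⟨P, hP⟩ := exists_invariant_sylow φ r 1 hR hφr hrK q
    refine ⟨P, ?_⟩
    by_cases hqK : q ∣ Nat.card K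
    swap
    · obtain ⟨k, hk⟩ := (IsPGroup.iff_card).mp P.2
      have h1 : q ^ k ∣ Nat.card K := hk ▸ Subgroup.card_subgroup_dvd_card _
      rcases Nat.eq_zero_or_pos k with h0 | h0
      · rw [h0, pow_zero] at hk
        rw [Subgroup.card_eq_one.mp hk]; exact bot_le
      · exact absurd ((dvd_pow_self q h0.ne').trans h1) hqK
    have hqr : r ≠ q := fun h => hrK (h ▸ hqK)
    have hqℓ : q ≠ ℓ := fun h => hℓG (h ▸ hqK.trans hKdvd)
    have hq2 : q ≠ 2 := by
      intro h
      have h2 : 2 ∣ Nat.card G := h ▸ hqK.trans hKdvd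
      exact (Nat.not_even_iff_odd.mpr hodd) (even_iff_two_dvd.mpr h2)
    have key := autV_B (V := V) ℓ r q hℓ hR hq.out hqr hrℓ hqℓ hcommV hexpV t htr
      ((P : Subgroup K).map ψ) (P.2.map ψ)
      (by
        rintro _ ⟨x, hx, rfl⟩
        refine ⟨φ x, hP x hx, ?_⟩
        rw [hψ, hψ, ht, ← act_inv, ← act_mul, ← act_mul]
        rfl)
    by_contra hcon
    have hb : ∃ x ∈ (P : Subgroup K).map ψ, t * x ≠ x * t := by
      by_contra hcon2
      push Not at hcon2
      apply hcon
      intro x hx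
      rw [Subgroup.mem_comap, Subgroup.mem_centralizer_singleton_iff]
      exact (hcon2 _ ⟨x, hx, rfl⟩).symm
    rcases key hb with ⟨v, hv, hav⟩ | ⟨h2, -⟩
    · exact hv (htfix v hav)
    · exact hq2 h2
  rw [Subgroup.commutator_le]
  intro g₁ hg₁ g₂ hg₂
  have hg₁V := hGV (hRG hg₁)
  have hg₂V := hKV hg₂
  have h1 : (⟨g₂, hg₂⟩ : K) ∈ (Subgroup.centralizer {t}).comap ψ := by rw [hH]; exact Subgroup.mem_top _
  rw [Subgroup.mem_comap, Subgroup.mem_centralizer_singleton_iff, hψ] at h1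
  have h2 : Commute (act V g₁ hg₁V) (act V g₂ hg₂V) := by
    obtain ⟨k, hk⟩ := hgen g₁ hg₁
    have h3 : act V g₁ hg₁V = t ^ k := by
      have : (⟨g₁, hg₁V⟩ : Subgroup.normalizer (V : Set X)) = (⟨a, haV⟩ : Subgroup.normalizer (V : Set X)) ^ k :=
        Subtype.ext (by simpa using hk.symm)
      show V.normalizerMonoidHom ⟨g₁, hg₁V⟩ = _
      rw [this, map_zpow]; rfl
    rw [h3]
    exact Commute.zpow_left h1.symm k
  rw [commutatorElement_def, ← act_eq_one_iff V _ (mul_mem (mul_mem (mul_mem hg₁V hg₂V) (inv_mem hg₁V)) (inv_mem hg₂V)),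
    act_mul V _ _ (mul_mem (mul_mem hg₁V hg₂V) (inv_mem hg₁V)) (inv_mem hg₂V),
    act_mul V _ _ (mul_mem hg₁V hg₂V) (inv_mem hg₁V), act_mul V _ _ hg₁V hg₂V, act_inv V _ hg₁V,
    act_inv V _ hg₂V, h2.eq]
  group

end Cfsg.Agent.S3769
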