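import Cfsg.Statements.S1447
-- import your own Cfsg.Agent.* helpers here
import Cfsg.Agent.Lib.Helper13.MetaCoprime
import Cfsg.Agent.Lib.Helper30.Coprime
import Cfsg.Agent.Lib.Helper59.UniqueOdd
import Cfsg.Agent.Lib.Helper68.Meta3
import Cfsg.Agent.S0638

set_option autoImplicit false
open Cfsg

namespace Cfsg.Agent.S1447


open Subgroup
open scoped commutatorElement

theorem isMetacyclic_of_equiv {P Q : Type*} [Group P] [Group Q] (e : P ≃* Q)
    (h : Cfsg.IsMetacyclic P) : Cfsg.IsMetacyclic Q := by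
  obtain ⟨N, hN, hc, hq⟩ := h
  have hn : (N.map e.toMonoidHom).Normal := hN.map _ e.surjective
  refine ⟨N.map e.toMonoidHom, hn, ?_, ?_⟩
  · exact isCyclic_of_surjective (e.toMonoidHom.subgroupMap N) (e.toMonoidHom.subgroupMap_surjective N)
  · refine isCyclic_of_surjective (QuotientGroup.map N _ e.toMonoidHom (le_comap_map _ _)) ?_
    intro y
    induction y using QuotientGroup.induction_on with
    | H y =>
      obtain ⟨x, rfl⟩ := e.surjective y
      exact ⟨(x : P ⧸ N), rfl⟩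

/-- `[R, A]` is normalized by `R`. -/
theorem le_normalizer_commutator_self {G : Type*} [Group G] (R A : Subgroup G) :
    R ≤ normalizer ((⁅R, A⁆ : Subgroup G) : Set G) := by
  have key : ∀ r ∈ R, ∀ n ∈ ⁅R, A⁆, r * n * r⁻¹ ∈ ⁅R, A⁆ := by
    intro r hr
    have h1 : ⁅R, A⁆ ≤ (⁅R, A⁆).comap (MulAut.conj r).toMonoidHom := by
      rw [commutator_le]
      intro x hx a ha
      show r * ⁅x, a⁆ * r⁻¹ ∈ ⁅R, A⁆
      have : r * ⁅x, a⁆ * r⁻¹ = ⁅r * x, a⁆ * ⁅r, a⁆⁻¹ := by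
        simp only [commutatorElement_def]; group
      rw [this]
      exact mul_mem (commutator_mem_commutator (mul_mem hr hx) ha)
        (inv_mem (commutator_mem_commutator hr ha))
    intro n hn
    exact h1 hn
  intro r hr
  rw [mem_normalizer_iff]
  intro h
  constructor
  · exact key r hr h
  · intro h1
    have := key r⁻¹ (inv_mem hr) _ h1
    simpa [mul_assoc] using this

/-- the conjugation action of `A ≤ N(T)` on `T` -/
def act {G : Type*} [Group G] {T A : Subgroup G} (h : A ≤ normalizer (T : Set G)) : ↥A →* MulAut ↥T :=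
  T.normalizerMonoidHom.comp (inclusion h)

theorem act_coe {G : Type*} [Group G] {T A : Subgroup G} (h : A ≤ normalizer (T : Set G)) (a : ↥A)
    (x : ↥T) : ((act h a x : ↥T) : G) = a * x * (a : G)⁻¹ := rfl

theorem closure_commSet_eq_top {G : Type*} [Group G] {T A : Subgroup G}
    (h : A ≤ normalizer (T : Set G)) (hTT : ⁅T, A⁆ = T) :
    closure (Cfsg.Agent.Lib.Helper13.MetaCoprime.commSet (act h)) = ⊤ := by
  have h1 : ⁅T, A⁆ ≤ (closure (Cfsg.Agent.Lib.Helper13.MetaCoprime.commSet (act h))).map T.subtype := by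
    rw [commutator_le]
    intro t ht a ha
    refine ⟨(⟨t⁻¹, inv_mem ht⟩ : ↥T)⁻¹ * act h ⟨a, ha⟩ ⟨t⁻¹, inv_mem ht⟩,
      subset_closure ⟨⟨a, ha⟩, ⟨t⁻¹, inv_mem ht⟩, rfl⟩, ?_⟩
    show (t⁻¹)⁻¹ * (a * t⁻¹ * a⁻¹) = ⁅t, a⁆
    rw [commutatorElement_def]; group
  rw [eq_top_iff]
  intro x _
  have h2 : (x : G) ∈ ⁅T, A⁆ := by rw [hTT]; exact x.2
  obtain ⟨y, hy, hyx⟩ := h1 h2
  have : y = x := Subtype.ext hyx
  rwa [← this]

/-- In a group `Ω` of order `p²` containing all elements of order `p` of `U` and `W`, where `U ∩ W = 1`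
and `W ≠ 1` has an element of order `p`, the subgroup `U` has at most one subgroup of order `p`. -/
theorem unique_of_card_sq {G : Type*} [Group G] [Finite G] {p : ℕ} (hpp : p.Prime) (Ω U W : Subgroup G)
    (hΩ : Nat.card Ω = p ^ 2) (hU : ∀ x ∈ U, x ^ p = 1 → x ∈ Ω) (hW : ∀ x ∈ W, x ^ p = 1 → x ∈ Ω)
    (hUW : U ⊓ W = ⊥) (w : G) (hw : w ∈ W) (hwp : orderOf w = p)
    (x y : G) (hx : x ∈ U) (hy : y ∈ U) (hxp : orderOf x = p) (hyp : orderOf y = p) :
    y ∈ zpowers x := by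
  by_contra hyx
  have hx' : x ∈ Ω := hU x hx (by rw [← hxp]; exact pow_orderOf_eq_one x)
  have hy' : y ∈ Ω := hU y hy (by rw [← hyp]; exact pow_orderOf_eq_one y)
  have hw' : w ∈ Ω := hW w hw (by rw [← hwp]; exact pow_orderOf_eq_one w)
  set K := zpowers x ⊔ zpowers y with hK
  have hKΩ : K ≤ Ω := sup_le (zpowers_le.mpr hx') (zpowers_le.mpr hy')
  have hKU : K ≤ U := sup_le (zpowers_le.mpr hx) (zpowers_le.mpr hy)
  have hd : Nat.card K ∣ p ^ 2 := hΩ ▸ card_dvd_of_le hKΩ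
  obtain ⟨i, hi, hKi⟩ := (Nat.dvd_prime_pow hpp).mp hd
  have hxK : zpowers x ≤ K := le_sup_left
  have hcx : Nat.card (zpowers x) = p := by rw [Nat.card_zpowers, hxp]
  have hpK : p ∣ Nat.card K := hcx ▸ card_dvd_of_le hxK
  have hi2 : i = 2 := by
    interval_cases i
    · rw [pow_zero] at hKi
      rw [hKi] at hpK
      exact absurd (Nat.dvd_one.mp hpK) hpp.one_lt.ne'
    · exfalso
      apply hyx
      have : zpowers x = K := eq_of_le_of_card_ge hxK (by rw [hKi, hcx, pow_one])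
      rw [this]
      exact le_sup_right (a := zpowers x) (mem_zpowers y)
    · rfl
  have hKeq : K = Ω := eq_of_le_of_card_ge hKΩ (by rw [hKi, hi2, hΩ])
  have hwU : w ∈ U ⊓ W := ⟨hKU (hKeq ▸ hw'), hw⟩
  rw [hUW, mem_bot] at hwU
  rw [hwU, orderOf_one] at hwp
  exact hpp.one_lt.ne hwp

/-- Let G be a finite group, p an odd prime, R a metacyclic p-subgroup and A a subgroup of order coprime to p normalizing R. Then [R, A] is abelian; R is generated by [R, A] and R ∩ C_G(A), which meet trivially; and if R is non-abelian and A does not centralize R, then [R, A] and R ∩ C_G(A) are nontrivial cyclic groups and [R, R] ≤ [R, A]. -/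
theorem result {G : Type*} [Group G] [Finite G] (p : ℕ) [Fact p.Prime] (hp : p ≠ 2) (R A : Subgroup G) (hR : IsPGroup p R) (hRm : Cfsg.IsMetacyclic R)
    (hA : (A ≤ Subgroup.normalizer (R : Set G))) (hcop : (Nat.card A).Coprime p) :
    IsMulCommutative ↥⁅R, A⁆ ∧ ⁅R, A⁆ ⊔ (R ⊓ Subgroup.centralizer (A : Set G)) = R ∧ ⁅R, A⁆ ⊓ (R ⊓ Subgroup.centralizer (A : Set G)) = ⊥ ∧
      (¬ IsMulCommutative R → ¬ A ≤ Subgroup.centralizer (R : Set G) →
        ⁅R, A⁆ ≠ ⊥ ∧ IsCyclic ↥⁅R, A⁆ ∧ (R ⊓ Subgroup.centralizer (A : Set G)) ≠ ⊥ ∧ IsCyclic ↥(R ⊓ Subgroup.centralizer (A : Set G)) ∧ ⁅R, R⁆ ≤ ⁅R, A⁆) := by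
  classical
  have hpp : p.Prime := Fact.out
  have hcop' : (Nat.card A).Coprime (Nat.card R) := by
    obtain ⟨n, hn⟩ := hR.exists_card_eq
    rw [hn]; exact hcop.pow_right n
  have hsolv : Group.IsSolvable A ∨ Group.IsSolvable R := by
    right
    have := hR.isNilpotent
    infer_instance
  have hTR : ⁅R, A⁆ ≤ R := Cfsg.Agent.Lib.Helper30.commutator_le_of_le_normalizer hA
  have hAT : A ≤ normalizer ((⁅R, A⁆ : Subgroup G) : Set G) :=
    Cfsg.Agent.Lib.Helper30.le_normalizer_commutator hA le_normalizer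
  have hTT : ⁅⁅R, A⁆, A⁆ = ⁅R, A⁆ := Cfsg.Agent.Lib.Helper30.commutator_commutator_eq hA hcop' hsolv
  have hTp : IsPGroup p ↥⁅R, A⁆ := hR.to_le hTR
  have hTm : Cfsg.IsMetacyclic ↥⁅R, A⁆ :=
    isMetacyclic_of_equiv (subgroupOfEquivOfLe hTR)
      (Cfsg.Agent.Lib.Helper68.isMetacyclic_subgroup hR hRm (⁅R, A⁆.subgroupOf R))
  have hgen := closure_commSet_eq_top hAT hTT
  have hTc : commutator ↥⁅R, A⁆ = ⊥ :=
    Cfsg.Agent.Lib.Helper13.MetaCoprime.commutator_eq_bot_of_fpf hp hTp hTm hcop (act hAT) hgen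
  have hTcomm : IsMulCommutative ↥⁅R, A⁆ := (_root_.commutator_eq_bot_iff (G := ↥⁅R, A⁆)).mp hTc
  have hsup : ⁅R, A⁆ ⊔ (R ⊓ centralizer (A : Set G)) = R :=
    Cfsg.Agent.Lib.Helper30.commutator_sup_centralizer hA hcop' hsolv
  have hinf : ⁅R, A⁆ ⊓ (R ⊓ centralizer (A : Set G)) = ⊥ := by
    rw [eq_bot_iff]
    intro x hx
    obtain ⟨hxT, -, hxC⟩ := hx
    have h1 := Cfsg.Agent.Lib.Helper13.MetaCoprime.mem_of_forall_comm_mem hTp hcop (act hAT) hgen ⊥
      (by rw [hTc]) ⟨x, hxT⟩ (by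
        intro a
        rw [mem_bot]
        apply Subtype.ext
        show x⁻¹ * ((a : G) * x * (a : G)⁻¹) = 1
        have := (mem_centralizer_iff.mp hxC) a a.2
        rw [this]; group)
    rw [mem_bot] at h1 ⊢
    exact congrArg Subtype.val h1
  refine ⟨hTcomm, hsup, hinf, ?_⟩
  intro hnc hnA
  have hT1 : ⁅R, A⁆ ≠ ⊥ := by
    intro h
    apply hnA
    rw [commutator_eq_bot_iff_le_centralizer] at h
    exact le_centralizer_iff.mp h
  have hC1 : R ⊓ centralizer (A : Set G) ≠ ⊥ := by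
    intro h
    apply hnc
    rw [h, sup_bot_eq] at hsup
    rw [← hsup]
    exact hTcomm
  have hncyc : ¬ IsCyclic ↥R := fun h => hnc inferInstance
  obtain ⟨-, hΩcard⟩ := Cfsg.Agent.S0638.result hp hR hRm hncyc
  set Ω : Subgroup G := (Cfsg.omegaOne p (⊤ : Subgroup ↥R)).map R.subtype with hΩ
  have hΩc : Nat.card Ω = p ^ 2 := by
    rw [hΩ, card_map_of_injective R.subtype_injective, hΩcard]
  have hΩmem : ∀ x ∈ R, x ^ p = 1 → x ∈ Ω := by
    intro x hx hxp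
    exact ⟨⟨x, hx⟩, subset_closure ⟨mem_top _, Subtype.ext hxp⟩, rfl⟩
  have hex : ∀ W : Subgroup G, W ≤ R → W ≠ ⊥ → ∃ w ∈ W, orderOf w = p := by
    intro W hWR hW1
    have hWp : IsPGroup p W := hR.to_le hWR
    have hnt : Nontrivial W := (nontrivial_iff_ne_bot W).mpr hW1
    obtain ⟨n, hn⟩ := hWp.exists_card_eq
    have hn0 : n ≠ 0 := by
      rintro rfl
      rw [pow_zero] at hn
      exact (Finite.one_lt_card (α := W)).ne' hn
    obtain ⟨w, hw⟩ := exists_prime_orderOf_dvd_card' (G := W) p (by rw [hn]; exact dvd_pow_self p hn0)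
    exact ⟨w, w.2, by rw [← hw, Subgroup.orderOf_coe]⟩
  obtain ⟨w1, hw1, hw1p⟩ := hex _ hTR hT1
  obtain ⟨w2, hw2, hw2p⟩ := hex _ inf_le_left hC1
  have hcycT : IsCyclic ↥⁅R, A⁆ := by
    apply Cfsg.Agent.Lib.Helper59.isCyclic_of_unique_odd hp hTp
    intro x y hx hy
    have := unique_of_card_sq hpp Ω ⁅R, A⁆ (R ⊓ centralizer (A : Set G)) hΩc
      (fun z hz => hΩmem z (hTR hz)) (fun z hz => hΩmem z hz.1) hinf w2 hw2 hw2p x y x.2 y.2
      (by rw [← hx, Subgroup.orderOf_coe]) (by rw [← hy, Subgroup.orderOf_coe])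
    obtain ⟨i, hi⟩ := this
    exact ⟨i, Subtype.ext (by simpa using hi)⟩
  have hcycC : IsCyclic ↥(R ⊓ centralizer (A : Set G)) := by
    apply Cfsg.Agent.Lib.Helper59.isCyclic_of_unique_odd hp (hR.to_le inf_le_left)
    intro x y hx hy
    have := unique_of_card_sq hpp Ω (R ⊓ centralizer (A : Set G)) ⁅R, A⁆ hΩc
      (fun z hz => hΩmem z hz.1) (fun z hz => hΩmem z (hTR hz)) (by rw [inf_comm]; exact hinf)
      w1 hw1 hw1p x y x.2 y.2
      (by rw [← hx, Subgroup.orderOf_coe]) (by rw [← hy, Subgroup.orderOf_coe])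
    obtain ⟨i, hi⟩ := this
    exact ⟨i, Subtype.ext (by simpa using hi)⟩
  refine ⟨hT1, hcycT, hC1, hcycC, ?_⟩
  have hRT := le_normalizer_commutator_self R A
  have hconj : ∀ r ∈ R, ∀ n ∈ ⁅R, A⁆, r * n * r⁻¹ ∈ ⁅R, A⁆ := fun r hr n hn =>
    (mem_normalizer_iff.mp (hRT hr) n).mp hn
  rw [commutator_le]
  intro r1 hr1 r2 hr2
  obtain ⟨m1, hm1, c1, hc1, rfl⟩ :=
    Cfsg.Agent.Lib.Helper30.exists_commutator_mul_centralizer hA hcop' hsolv hr1
  obtain ⟨m2, hm2, c2, hc2, rfl⟩ :=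
    Cfsg.Agent.Lib.Helper30.exists_commutator_mul_centralizer hA hcop' hsolv hr2
  have hcc : c1 * c2 = c2 * c1 := by
    have := (IsCyclic.isMulCommutative (α := ↥(R ⊓ centralizer (A : Set G)))).is_comm.comm
      ⟨c1, hc1⟩ ⟨c2, hc2⟩
    exact congrArg Subtype.val this
  have e : ⁅m1 * c1, m2 * c2⁆ = m1 * (c1 * m2 * c1⁻¹) * (c2 * m1⁻¹ * c2⁻¹) * m2⁻¹ := by
    rw [commutatorElement_def]
    calc m1 * c1 * (m2 * c2) * (m1 * c1)⁻¹ * (m2 * c2)⁻¹
        = m1 * (c1 * m2 * c1⁻¹) * ((c1 * c2) * c1⁻¹ * m1⁻¹ * c2⁻¹) * m2⁻¹ := by group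
      _ = _ := by rw [hcc]; group
  rw [e]
  exact mul_mem (mul_mem (mul_mem hm1 (hconj c1 hc1.1 m2 hm2)) (hconj c2 hc2.1 _ (inv_mem hm1)))
    (inv_mem hm2)

end Cfsg.Agent.S1447
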