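import Cfsg.Statements.S1448
-- import your own Cfsg.Agent.* helpers here
import Cfsg.Agent.Lib.Helper13.RankTwoMain
import Cfsg.Agent.S1447

set_option autoImplicit false
open Cfsg

namespace Cfsg.Agent.S1448

/-- Let G be a finite group, p an odd prime, R a nontrivial p-subgroup with no elementary abelian subgroup of order p ^ 3, and A a subgroup of odd order coprime to p normalizing R with [R, A] = R. Then 3 < p, and either R is abelian or R is generated by two elementwise-commuting subgroups R₁, R₂ with R₁ non-abelian of order p ^ 3 and exponent p, R₂ cyclic, and the elements of R₂ of order dividing p generating exactly [R₁, R₁]. -/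
theorem result {G : Type*} [Group G] [Finite G] (p : ℕ) [Fact p.Prime] (hp : p ≠ 2) (R A : Subgroup G) (hR : IsPGroup p R) (hR1 : R ≠ ⊥) (hr : Cfsg.PRankLE p 2 R)
    (hA : (A ≤ Subgroup.normalizer (R : Set G))) (hcop : (Nat.card A).Coprime p) (hAodd : Odd (Nat.card A)) (hRA : ⁅R, A⁆ = R) :
    3 < p ∧ (IsMulCommutative R ∨ ∃ R₁ R₂ : Subgroup G, R₁ ⊔ R₂ = R ∧ (∀ a ∈ R₁, ∀ b ∈ R₂, a * b = b * a) ∧
        ¬ IsMulCommutative R₁ ∧ Nat.card R₁ = p ^ 3 ∧ Monoid.exponent R₁ = p ∧ IsCyclic R₂ ∧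
        Subgroup.closure {x : G | x ∈ R₂ ∧ x ^ p = 1} = ⁅R₁, R₁⁆) := by
  have hpp : p.Prime := Fact.out
  have hne : Nontrivial ↥R := (Subgroup.nontrivial_iff_ne_bot R).mpr hR1
  obtain ⟨h3, h⟩ := Cfsg.Agent.Lib.Helper13.RankTwoFrame.main hp hR hne hr hcop hAodd
    (Cfsg.Agent.S1447.act hA) (Cfsg.Agent.S1447.closure_commSet_eq_top hA hRA)
  refine ⟨h3, ?_⟩
  rcases h with h | ⟨S, C, h1, h2, ⟨a, ha, b, hb, hab⟩, h4, h5, h6, h7⟩
  · left; exact h
  · right
    refine ⟨S.map R.subtype, C.map R.subtype, ?_, ?_, ?_, ?_, ?_, ?_, ?_⟩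
    · rw [← Subgroup.map_sup, h1, ← MonoidHom.range_eq_map, Subgroup.range_subtype]
    · rintro _ ⟨a, ha, rfl⟩ _ ⟨b, hb, rfl⟩
      exact congrArg Subtype.val (h2 a ha b hb)
    · intro hc
      apply hab
      have := hc.is_comm.comm ⟨R.subtype a, Subgroup.mem_map_of_mem _ ha⟩
        ⟨R.subtype b, Subgroup.mem_map_of_mem _ hb⟩
      have h' : (a : G) * (b : G) = (b : G) * (a : G) := congrArg Subtype.val this
      exact Subtype.ext h'
    · rw [Subgroup.card_map_of_injective R.subtype_injective, h4]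
    · have hd : Monoid.exponent ↥(S.map R.subtype) ∣ p := by
        apply Monoid.exponent_dvd_of_forall_pow_eq_one
        rintro ⟨_, ⟨x, hx, rfl⟩⟩
        apply Subtype.ext
        have h' : ((x ^ p : ↥R) : G) = 1 := congrArg Subtype.val (h5 x hx)
        exact h'
      rcases (Nat.dvd_prime hpp).mp hd with h | h
      · exfalso
        have hsub : Subsingleton ↥(S.map R.subtype) := Monoid.exp_eq_one_iff.mp h
        have hc1 : Nat.card ↥(S.map R.subtype) = 1 := Nat.card_eq_one_iff_unique.mpr ⟨hsub, ⟨1⟩⟩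
        rw [Subgroup.card_map_of_injective R.subtype_injective, h4] at hc1
        have : 1 < p ^ 3 := Nat.one_lt_pow (by norm_num) hpp.one_lt
        omega
      · exact h
    · exact isCyclic_of_surjective (C.equivMapOfInjective _ R.subtype_injective)
        (MulEquiv.surjective _)
    · rw [← Subgroup.map_commutator]
      have : {x : G | x ∈ C.map R.subtype ∧ x ^ p = 1} = ((⁅S, S⁆.map R.subtype : Subgroup G) : Set G) := by
        ext x
        constructor
        · rintro ⟨⟨u, hu, rfl⟩, hx⟩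
          exact ⟨u, (h7 u).mp ⟨hu, Subtype.ext hx⟩, rfl⟩
        · rintro ⟨u, hu, rfl⟩
          obtain ⟨hu1, hu2⟩ := (h7 u).mpr hu
          exact ⟨⟨u, hu1, rfl⟩, congrArg Subtype.val hu2⟩
      rw [this, Subgroup.closure_eq]

end Cfsg.Agent.S1448
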