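import Cfsg.Statements.S1449
import Cfsg.Agent.Lib.Helper3.RankTwoAut

set_option autoImplicit false
open Cfsg

namespace Cfsg.Agent.S1449

/-- Let G be a finite group, p an odd prime, R a p-subgroup with no elementary abelian subgroup of order p ^ 3, and A a solvable subgroup of odd order normalizing R with A ∩ C_G(R) = 1. Then the derived subgroup [A, A] is a p-group. -/
theorem result {G : Type*} [Group G] [Finite G] (p : ℕ) [Fact p.Prime] (hp : p ≠ 2) (R A : Subgroup G) (hR : IsPGroup p R) (hr : Cfsg.PRankLE p 2 R)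
    (hA : (A ≤ Subgroup.normalizer (R : Set G))) (hAs : Group.IsSolvable A) (hAodd : Odd (Nat.card A)) (hfaith : A ⊓ Subgroup.centralizer (R : Set G) = ⊥) :
    IsPGroup p ↥⁅A, A⁆ := by
  have hpp : p.Prime := Fact.out
  let ψ : ↥A →* MulAut ↥R := R.normalizerMonoidHom.comp (Subgroup.inclusion hA)
  have hψ : ∀ (a : ↥A) (x : ↥R), ((ψ a x : ↥R) : G) = a * x * (a : G)⁻¹ := fun a x => rfl
  have key := Cfsg.Agent.Lib.Helper3.commutator_act_trivial_of_rank_two hp hR hr hAodd ψ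
  intro x
  have hx0 : orderOf x ≠ 0 := (orderOf_pos x).ne'
  obtain ⟨k, m, hm, hkm⟩ := Nat.exists_eq_pow_mul_and_not_dvd hx0 p hpp.ne_one
  refine ⟨k, ?_⟩
  have hcop : m.Coprime p := (Nat.Coprime.symm ((Nat.Prime.coprime_iff_not_dvd hpp).mpr hm))
  have hxA : (x : G) ∈ A := (Subgroup.commutator_le.mpr fun _ ha _ hb =>
    A.mul_mem (A.mul_mem (A.mul_mem ha hb) (A.inv_mem ha)) (A.inv_mem hb)) x.2
  have hxc : (⟨x, hxA⟩ : ↥A) ∈ commutator ↥A := by
    have h1 : (x : G) ∈ (commutator ↥A).map A.subtype := by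
      rw [Subgroup.map_subtype_commutator]
      exact x.2
    obtain ⟨y, hy, hyx⟩ := h1
    have : y = ⟨x, hxA⟩ := Subtype.ext hyx
    rwa [← this]
  have hyc : (⟨x, hxA⟩ : ↥A) ^ p ^ k ∈ commutator ↥A := Subgroup.pow_mem _ hxc _
  have hpow : ((⟨x, hxA⟩ : ↥A) ^ p ^ k) ^ m = 1 := by
    apply Subtype.ext
    have : (x : G) ^ (p ^ k * m) = 1 := by
      rw [← hkm, ← Subgroup.coe_pow, pow_orderOf_eq_one, Subgroup.coe_one]
    rw [← pow_mul]
    exact this
  have hord : (orderOf (ψ ((⟨x, hxA⟩ : ↥A) ^ p ^ k))).Coprime p := by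
    apply Nat.Coprime.coprime_dvd_left _ hcop
    apply orderOf_dvd_of_pow_eq_one
    rw [← map_pow, hpow, map_one]
  have h1 := key _ hyc hord
  have h2 : (x : G) ^ p ^ k ∈ A ⊓ Subgroup.centralizer (R : Set G) := by
    refine ⟨A.pow_mem hxA _, ?_⟩
    show (x : G) ^ p ^ k ∈ Subgroup.centralizer (R : Set G)
    rw [Subgroup.mem_centralizer_iff]
    intro r hr'
    have h3 := congrArg (fun a : MulAut ↥R => ((a ⟨r, hr'⟩ : ↥R) : G)) h1
    simp only [hψ, MulAut.one_apply] at h3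
    have h4 : (x : G) ^ p ^ k * r * ((x : G) ^ p ^ k)⁻¹ = r := h3
    rw [mul_inv_eq_iff_eq_mul] at h4
    exact h4.symm
  rw [hfaith, Subgroup.mem_bot] at h2
  exact Subtype.ext h2

end Cfsg.Agent.S1449
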