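import Cfsg.Statements.S1450
import Cfsg.Agent.Lib.Helper3.RankTwoStruct

set_option autoImplicit false
open Cfsg

namespace Cfsg.Agent.S1450

/-- Let G be a solvable group of odd order, p a prime dividing its order with G having no elementary abelian subgroup of order p ^ 3. Then every prime dividing the index of O_{p'}(G) is at most p; if p = 3 or p is the smallest prime divisor of #G then G has a normal p-complement; the derived subgroup G' has a normal p-complement; every subgroup of G' of order coprime to p lies in O_{p'}(G'); and G/O_{p',p}(G) is abelian of order coprime to p. -/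
theorem result {G : Type*} [Group G] [Finite G] [Group.IsSolvable G] (hodd : Odd (Nat.card G)) (p : ℕ) [Fact p.Prime] (hpG : p ∣ Nat.card G) (hr : Cfsg.PRankLE p 2 G) :
    (∀ q : ℕ, q.Prime → q ∣ (Cfsg.pPrimeCore p G).index → q ≤ p) ∧
      ((p = 3 ∨ ∀ q : ℕ, q.Prime → q ∣ Nat.card G → p ≤ q) → Cfsg.HasNormalPComplement p G) ∧
      Cfsg.HasNormalPComplement p ↥(commutator G) ∧
      (∀ L : Subgroup ↥(commutator G), (Nat.card L).Coprime p → L ≤ Cfsg.pPrimeCore p ↥(commutator G)) ∧
      commutator G ≤ Cfsg.pPrimePCore p G ∧ ((Cfsg.pPrimePCore p G).index).Coprime p := by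
  have hp : p.Prime := Fact.out
  have hp2 : p ≠ 2 := by
    rintro rfl
    exact (Nat.not_even_iff_odd.2 hodd) (even_iff_two_dvd.2 hpG)
  have hKn : (Cfsg.pPrimeCore p G).Normal := (Cfsg.Agent.Lib.Helper40.pPrimeCore_mem p G).1
  have hKc : (Nat.card (Cfsg.pPrimeCore p G)).Coprime p :=
    Cfsg.Agent.Lib.Helper40.card_pPrimeCore_coprime p G
  have hYdvd : Nat.card (G ⧸ Cfsg.pPrimeCore p G) ∣ Nat.card G :=
    Subgroup.card_quotient_dvd_card _
  have hYodd : Odd (Nat.card (G ⧸ Cfsg.pPrimeCore p G)) := Odd.of_dvd_nat hodd hYdvd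
  have hYsol : Group.IsSolvable (G ⧸ Cfsg.pPrimeCore p G) :=
    Group.isSolvable_of_surjective (QuotientGroup.mk'_surjective (Cfsg.pPrimeCore p G))
  have hYO : Cfsg.pPrimeCore p (G ⧸ Cfsg.pPrimeCore p G) = ⊥ :=
    Cfsg.Agent.Lib.Helper29.pPrimeCore_quotient_eq_bot p
  have hYr : Cfsg.PRankLE p 2 (G ⧸ Cfsg.pPrimeCore p G) :=
    Cfsg.Agent.Lib.Helper3.pRankLE_quotient_of_coprime _ hKc hr
  obtain ⟨hA, hB, hC⟩ := Cfsg.Agent.Lib.Helper3.struct_of_pPrimeCore_eq_bot hp2 hYodd hYO hYr
  have hRp : IsPGroup p (Cfsg.pCore p (G ⧸ Cfsg.pPrimeCore p G)) :=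
    Cfsg.Agent.Lib.Helper40.isPGroup_pCore p _
  -- images of commutators
  have hmap : ∀ g ∈ commutator G, (QuotientGroup.mk' (Cfsg.pPrimeCore p G)) g ∈
      commutator (G ⧸ Cfsg.pPrimeCore p G) := by
    intro g hg
    have h1 : (commutator G).map (QuotientGroup.mk' (Cfsg.pPrimeCore p G)) ≤
        commutator (G ⧸ Cfsg.pPrimeCore p G) := by
      rw [commutator_def, commutator_def, Subgroup.map_commutator]
      exact Subgroup.commutator_mono le_top le_top
    exact h1 (Subgroup.mem_map_of_mem _ hg)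
  have hpow : ∀ g ∈ commutator G, ∃ k : ℕ, g ^ p ^ k ∈ Cfsg.pPrimeCore p G := by
    intro g hg
    obtain ⟨k, hk⟩ := hRp ⟨_, hA (hmap g hg)⟩
    refine ⟨k, ?_⟩
    have hk' := congrArg Subtype.val hk
    simp only [Subgroup.coe_pow, Subgroup.coe_one, QuotientGroup.mk'_apply] at hk'
    rw [← QuotientGroup.mk_pow, QuotientGroup.eq_one_iff] at hk'
    exact hk'
  -- the normal p-complement of the derived group
  have hNn : ((Cfsg.pPrimeCore p G).subgroupOf (commutator G)).Normal := inferInstance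
  have hNc : (Nat.card ((Cfsg.pPrimeCore p G).subgroupOf (commutator G))).Coprime p := by
    refine Nat.Coprime.coprime_dvd_left ?_ hKc
    let f : ((Cfsg.pPrimeCore p G).subgroupOf (commutator G)) →* Cfsg.pPrimeCore p G :=
      ((commutator G).subtype.comp
        ((Cfsg.pPrimeCore p G).subgroupOf (commutator G)).subtype).codRestrict _ (fun x => x.2)
    apply Subgroup.card_dvd_of_injective f
    intro x y hxy
    have := congrArg Subtype.val hxy
    exact Subtype.ext (Subtype.ext this)
  have hNq : IsPGroup p (↥(commutator G) ⧸ (Cfsg.pPrimeCore p G).subgroupOf (commutator G)) := by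
    intro x
    obtain ⟨d, rfl⟩ := QuotientGroup.mk_surjective x
    obtain ⟨k, hk⟩ := hpow d d.2
    refine ⟨k, ?_⟩
    rw [← QuotientGroup.mk_pow, QuotientGroup.eq_one_iff]
    exact hk
  refine ⟨?_, ?_, ?_, ?_, ?_, ?_⟩
  · intro q hq hqd
    rw [Subgroup.index_eq_card] at hqd
    exact hC q hq hqd
  · intro hcase
    apply Cfsg.Agent.Lib.Helper40.hasNormalPComplement_of_coprime_of_isPGroup _ hKc
    have huniq : ∀ {d : ℕ}, d.Prime → d ∣ Nat.card (G ⧸ Cfsg.pPrimeCore p G) → d = p := by
      intro d hd hdd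
      apply le_antisymm (hC d hd hdd)
      rcases hcase with rfl | h
      · have h2 : d ≠ 2 := by
          rintro rfl
          exact (Nat.not_even_iff_odd.2 hYodd) (even_iff_two_dvd.2 hdd)
        have := hd.two_le
        omega
      · exact h d hd (hdd.trans hYdvd)
    exact IsPGroup.of_card (Nat.eq_prime_pow_of_unique_prime_dvd (Nat.card_pos).ne' huniq)
  · exact Cfsg.Agent.Lib.Helper40.hasNormalPComplement_of_coprime_of_isPGroup _ hNc hNq
  · intro L hL l hl
    apply Cfsg.Agent.Lib.Helper40.le_pPrimeCore hNc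
    rw [← QuotientGroup.eq_one_iff]
    obtain ⟨k, hk⟩ := hNq (l : ↥(commutator G) ⧸ (Cfsg.pPrimeCore p G).subgroupOf (commutator G))
    apply Cfsg.Agent.Lib.Helper40.eq_one_of_pow_eq_one_of_coprime hk
    have h4 : orderOf (l : ↥(commutator G) ⧸ (Cfsg.pPrimeCore p G).subgroupOf (commutator G)) ∣
        orderOf l := by
      have := orderOf_map_dvd (QuotientGroup.mk' ((Cfsg.pPrimeCore p G).subgroupOf (commutator G))) l
      simpa using this
    exact Nat.Coprime.coprime_dvd_left (h4.trans (Subgroup.orderOf_dvd_natCard L hl)) hL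
  · intro g hg
    exact hA (hmap g hg)
  · unfold Cfsg.pPrimePCore
    rw [Subgroup.index_comap_of_surjective _ (QuotientGroup.mk'_surjective _)]
    exact hB

end Cfsg.Agent.S1450
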