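import Cfsg.Statements.S1451
import Cfsg.Agent.Lib.Helper3.RankTwoFitting

set_option autoImplicit false
open Cfsg

namespace Cfsg.Agent.S1451

/-- Let G be a solvable group of odd order such that G, or its Fitting subgroup, has no elementary abelian subgroup of order q ^ 3 for any prime q. Then G' is nilpotent; for every Sylow subgroup S of G, every characteristic subgroup T of S with T ≤ [S, S] is normal in G; and for every prime p, G has a characteristic subgroup that is a Hall subgroup for the set of primes greater than p. -/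
theorem result {G : Type*} [Group G] [Finite G] [Group.IsSolvable G] (hodd : Odd (Nat.card G)) (hr : Cfsg.RankLE 2 G ∨ Cfsg.RankLE 2 (Cfsg.fittingSubgroup G)) :
    Group.IsNilpotent ↥(commutator G) ∧
      (∀ (q : ℕ) [Fact q.Prime] (S : Sylow q G) (T : Subgroup ↥(S : Subgroup G)), T.Characteristic → T.map (S : Subgroup G).subtype ≤ ⁅(S : Subgroup G), (S : Subgroup G)⁆ →
        (T.map (S : Subgroup G).subtype).Normal) ∧
      ∀ p : ℕ, ∃ N : Subgroup G, N.Characteristic ∧ Cfsg.IsPiHall {q | q.Prime ∧ p < q} N := by
  have hrk : ∀ r : ℕ, r.Prime → Cfsg.PRankLE r 2 (Cfsg.pCore r G) := by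
    intro r hrp
    have := Fact.mk hrp
    rcases hr with h | h
    · exact Cfsg.Agent.Lib.Helper26.PRankLE_of_injective (Cfsg.pCore r G).subtype
        (Subgroup.subtype_injective _) (h r hrp)
    · have hle : Cfsg.pCore r G ≤ Cfsg.fittingSubgroup G :=
        Cfsg.Agent.Lib.Helper1.le_fitting (Cfsg.Agent.Lib.Helper1.pCore_normal _ G)
          (Cfsg.Agent.Lib.Helper1.pCore_isPGroup _ G).isNilpotent
      exact Cfsg.Agent.Lib.Helper26.PRankLE_of_injective (Subgroup.inclusion hle)
        (Subgroup.inclusion_injective hle) (h r hrp)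
  have hKF : commutator G ≤ Cfsg.fittingSubgroup G :=
    Cfsg.Agent.Lib.Helper3.le_fitting_of_coprime_centralizes (commutator G) Cfsg.Agent.S0044.result
      (fun p _ => Cfsg.Agent.Lib.Helper3.commutator_coprime_centralizes_pCore hodd p
        (hrk p Fact.out))
  refine ⟨?_, ?_, ?_⟩
  · have := Cfsg.Agent.Lib.Helper1.fitting_nilpotent G
    exact Group.nilpotent_of_mulEquiv (Subgroup.subgroupOfEquivOfLe hKF)
  · intro q _ S T hT hTS
    exact Cfsg.Agent.Lib.Helper3.char_sylow_normal_of_commutator_le_fitting hKF q S T hT hTS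
  · intro p
    exact Cfsg.Agent.Lib.Helper3.exists_char_hall_of_commutator_le_fitting hodd hrk hKF p

end Cfsg.Agent.S1451
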