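import Cfsg.Statements.S1452
import Cfsg.Agent.Lib.Helper3.RankThree
import Cfsg.Agent.S0100

set_option autoImplicit false
open Cfsg

namespace Cfsg.Agent.S1452

/-- Let p be an odd prime and R a finite p-group containing an elementary abelian subgroup of order p ^ 3. If E is a normal elementary abelian subgroup of R of order p ^ 2, then E ≤ A for some normal subgroup A of R with C_R(A) = A that contains an elementary abelian subgroup of order p ^ 3. -/
theorem result {R : Type*} [Group R] [Finite R] (p : ℕ) [Fact p.Prime] (hp : p ≠ 2) (hR : IsPGroup p R) (hr : ¬ Cfsg.PRankLE p 2 R)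
    (E : Subgroup R) [E.Normal] (hE : Cfsg.IsElementaryAbelian p E) (hE2 : Nat.card E = p ^ 2) :
    ∃ A : Subgroup R, E ≤ A ∧ A.Normal ∧ Subgroup.centralizer (A : Set R) = A ∧ ¬ Cfsg.PRankLE p 2 A := by
  have hpp : p.Prime := Fact.out
  -- a normal elementary abelian subgroup of order `p ^ 3`
  have hB : ∃ B : Subgroup R, B.Normal ∧ IsMulCommutative B ∧ (∀ a ∈ B, a ^ p = 1) ∧
      Nat.card B = p ^ 3 := by
    by_contra hno
    apply hr
    intro E' hE'c hE'e
    refine Cfsg.Agent.S0100.result hp hR ?_ E' hE'c hE'e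
    intro A hAn hAc hAe hcard
    exact hno ⟨A, hAn, hAc, hAe, hcard⟩
  obtain ⟨B, hBn, hBc, hBe, hBcard⟩ := hB
  have hBc' : ∀ a ∈ B, ∀ b ∈ B, a * b = b * a := fun a ha b hb =>
    congrArg Subtype.val (hBc.is_comm.comm ⟨a, ha⟩ ⟨b, hb⟩)
  have hEc' : ∀ a ∈ E, ∀ b ∈ E, a * b = b * a := fun a ha b hb =>
    congrArg Subtype.val (hE.1.is_comm.comm ⟨a, ha⟩ ⟨b, hb⟩)
  set C := Subgroup.centralizer (E : Set R) with hC
  set D := B ⊓ C with hD
  have hDn : D.Normal := inferInstance
  have hidx : C.index ≤ p := Cfsg.Agent.Lib.Helper3.index_centralizer_le hR E hE2.le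
  have hDcard : p ^ 2 ≤ Nat.card D := by
    have h1 := Cfsg.Agent.Lib.Helper3.card_le_index_mul_card_inf B C
    rw [hBcard] at h1
    have h2 : p ^ 3 ≤ p * Nat.card D := h1.trans (Nat.mul_le_mul_right _ hidx)
    have h3 : p * p ^ 2 ≤ p * Nat.card D := by
      calc p * p ^ 2 = p ^ 3 := by ring
        _ ≤ _ := h2
    exact Nat.le_of_mul_le_mul_left h3 hpp.pos
  have hED : ∀ a ∈ E, ∀ b ∈ D, a * b = b * a := fun a ha b hb =>
    Subgroup.mem_centralizer_iff.mp hb.2 a ha
  have hUc := Cfsg.Agent.Lib.Helper3.sup_comm_of_comm E D hEc'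
    (fun a ha b hb => hBc' a ha.1 b hb.1) hED
  have hUe := Cfsg.Agent.Lib.Helper3.sup_pow_of_comm E D p hE.2 (fun a ha => hBe a ha.1) hUc
  have hUn : (E ⊔ D).Normal := inferInstance
  have hUcard : p ^ 2 < Nat.card (E ⊔ D : Subgroup R) := by
    by_contra hle
    push Not at hle
    have h1 : E = E ⊔ D := Subgroup.eq_of_le_of_card_ge le_sup_left (by rw [hE2]; exact hle)
    have h2 : D ≤ E := by rw [h1]; exact le_sup_right
    have h3 : D = E := Subgroup.eq_of_le_of_card_ge h2 (by rw [hE2]; exact hDcard)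
    have h4 : E ≤ B := by rw [← h3]; exact inf_le_left
    have h5 : B ≤ C := by
      intro b hb
      rw [hC, Subgroup.mem_centralizer_iff]
      intro y hy
      exact hBc' y (h4 hy) b hb
    have h6 : D = B := inf_eq_left.mpr h5
    have h7 : Nat.card E = p ^ 3 := by rw [← h3, h6, hBcard]
    rw [hE2] at h7
    exact absurd (Nat.pow_right_injective hpp.two_le h7) (by norm_num)
  obtain ⟨A, hUA, hAn, hAc, hAcent⟩ :=
    Cfsg.Agent.Lib.Helper3.exists_self_centralizing_normal hR (E ⊔ D) hUn hUc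
  refine ⟨A, le_sup_left.trans hUA, hAn, hAcent, ?_⟩
  intro hrk
  have h1 := hrk ((E ⊔ D).subgroupOf A)
    ⟨⟨fun a b => Subtype.ext (Subtype.ext (hUc a.1 a.2 b.1 b.2))⟩⟩
    (fun a ha => Subtype.ext (by simpa using hUe a ha))
  rw [Nat.card_congr (Subgroup.subgroupOfEquivOfLe hUA).toEquiv] at h1
  omega

end Cfsg.Agent.S1452
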