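import Cfsg.Statements.S1454
-- import your own Cfsg.Agent.* helpers here
import Cfsg.Agent.Lib.Helper13.RankTwoMain2
import Cfsg.Agent.Lib.Helper3.NarrowStruct
import Cfsg.Agent.S1447

set_option autoImplicit false
open Cfsg

namespace Cfsg.Agent.S1454

/-- Let G be a finite group, p an odd prime, R a narrow p-subgroup and A a solvable subgroup of odd order normalizing R with A ∩ C_G(R) = 1. Then [A, A] ≤ O_p(A) and the index of O_p(A) in A is coprime to p; if R has an elementary abelian subgroup of order p ^ 3 then the order of every element of A of order coprime to p divides p − 1; and if the order of A is a prime not dividing p(p − 1), then 2·#A divides p + 1, and if in addition [R, A] = R and R is non-abelian then #R = p ^ 3. -/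
theorem result {G : Type*} [Group G] [Finite G] (p : ℕ) [Fact p.Prime] (hp : p ≠ 2) (R A : Subgroup G) (hR : IsPGroup p R) (hRn : Cfsg.IsNarrow p R)
    (hA : (A ≤ Subgroup.normalizer (R : Set G))) (hAs : Group.IsSolvable A) (hAodd : Odd (Nat.card A)) (hfaith : A ⊓ Subgroup.centralizer (R : Set G) = ⊥) :
    (commutator ↥A ≤ Cfsg.pCore p ↥A ∧ ((Cfsg.pCore p ↥A).index).Coprime p) ∧
      (¬ Cfsg.PRankLE p 2 R → ∀ a ∈ A, (orderOf a).Coprime p → orderOf a ∣ p - 1) ∧
      ((Nat.card A).Prime → ¬ Nat.card A ∣ p * (p - 1) →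
        2 * Nat.card A ∣ p + 1 ∧ (⁅R, A⁆ = R → ¬ IsMulCommutative R → Nat.card R = p ^ 3)) := by
  have hpp : p.Prime := Fact.out
  let ψ : ↥A →* MulAut ↥R := Cfsg.Agent.S1447.act hA
  have hinj : Function.Injective ψ := by
    rw [injective_iff_map_eq_one]
    intro a ha
    have hmem : (a : G) ∈ A ⊓ Subgroup.centralizer (R : Set G) := by
      refine Subgroup.mem_inf.mpr ⟨a.2, ?_⟩
      rw [Subgroup.mem_centralizer_iff]
      intro r hr
      have h1 := congrArg (fun f : MulAut ↥R => ((f ⟨r, hr⟩ : ↥R) : G)) ha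
      have h2 : (a : G) * r * (a : G)⁻¹ = r := h1
      exact (mul_inv_eq_iff_eq_mul.mp h2).symm
    rw [hfaith, Subgroup.mem_bot] at hmem
    exact Subtype.ext hmem
  have hcomm : ∀ h ∈ commutator ↥A, (orderOf h).Coprime p → h = 1 := by
    intro h hh hc
    apply hinj
    rw [map_one]
    have hc' : (orderOf (ψ h)).Coprime p := by rw [orderOf_injective ψ hinj]; exact hc
    by_cases hr : Cfsg.PRankLE p 2 ↥R
    · exact Cfsg.Agent.Lib.Helper3.commutator_act_trivial_of_rank_two hp hR hr hAodd ψ h hh hc'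
    · exact (Cfsg.Agent.Lib.Helper3.narrow_act hp hR hr
        (Cfsg.Agent.Lib.Helper3.narrowData_of_isNarrow hR hr hRn)).1 _
        (Cfsg.Agent.Lib.Helper3.map_commutator_le ψ hh) hc'
  have hA1 : commutator ↥A ≤ Cfsg.pCore p ↥A := by
    apply Cfsg.Agent.Lib.Helper40.le_pCore
    intro x
    obtain ⟨a, ha⟩ := Cfsg.Agent.Lib.Helper40.exists_pow_coprime p (x : ↥A)
    refine ⟨a, ?_⟩
    apply Subtype.ext
    have h1' : (x : ↥A) ^ p ^ a ∈ commutator ↥A := (commutator ↥A).pow_mem x.2 _
    simpa using hcomm _ h1' ha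
  have hpart2 : ¬ Cfsg.PRankLE p 2 R → ∀ a ∈ A, (orderOf a).Coprime p → orderOf a ∣ p - 1 := by
    intro hr a ha hc
    have h := (Cfsg.Agent.Lib.Helper3.narrow_act hp hR hr
        (Cfsg.Agent.Lib.Helper3.narrowData_of_isNarrow hR hr hRn)).2 (ψ ⟨a, ha⟩)
        (by rw [orderOf_injective ψ hinj, Subgroup.orderOf_mk]; exact hc)
    rw [← map_pow] at h
    have h2 : (⟨a, ha⟩ : ↥A) ^ (p - 1) = 1 := hinj (h.trans (map_one ψ).symm)
    exact orderOf_dvd_of_pow_eq_one (congrArg Subtype.val h2)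
  refine ⟨⟨hA1, ?_⟩, hpart2, ?_⟩
  · obtain ⟨Q, hQ⟩ := (Cfsg.Agent.Lib.Helper40.isPGroup_pCore p ↥A).exists_le_sylow
    have : (Q : Subgroup ↥A).Normal :=
      Cfsg.Agent.Lib.Helper3.normal_of_commutator_le _ (hA1.trans hQ)
    have h1 : (Q : Subgroup ↥A) ≤ Cfsg.pCore p ↥A := Cfsg.Agent.Lib.Helper40.le_pCore Q.2
    have h2 : Cfsg.pCore p ↥A = Q := le_antisymm hQ h1
    rw [h2]
    exact ((Nat.Prime.coprime_iff_not_dvd hpp).2 Q.not_dvd_index).symm
  · intro hq hqn
    have hqp : Nat.card A ≠ p := by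
      intro h
      exact hqn (h ▸ Dvd.intro _ rfl)
    have hr : Cfsg.PRankLE p 2 ↥R := by
      by_contra hr
      have : Fact (Nat.card A).Prime := ⟨hq⟩
      obtain ⟨a, ha⟩ := exists_prime_orderOf_dvd_card' (G := ↥A) (Nat.card A) (dvd_refl _)
      have h1 := hpart2 hr (a : G) a.2 (by
        rw [Subgroup.orderOf_coe, ha]; exact (Nat.coprime_primes hq hpp).mpr hqp)
      rw [Subgroup.orderOf_coe, ha] at h1
      exact hqn (Dvd.dvd.mul_left h1 _)
    refine ⟨?_, ?_⟩
    · have hdvd : Nat.card A ∣ Nat.card (MulAut ↥R) := Subgroup.card_dvd_of_injective ψ hinj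
      have h1 := (Cfsg.Agent.S0640.result hp hR hr (Nat.card A) hq hqp hdvd).1
      have h2 : p ^ 2 - 1 = (p + 1) * (p - 1) := by
        have := Nat.sq_sub_sq p 1
        simpa using this
      rw [h2] at h1
      have h3 : Nat.card A ∣ p + 1 := by
        rcases (Nat.Prime.dvd_mul hq).mp h1 with h | h
        · exact h
        · exact absurd (Dvd.dvd.mul_left h _) hqn
      have h4 : 2 ∣ p + 1 := by
        rcases hpp.eq_two_or_odd' with h | h
        · exact absurd h hp
        · obtain ⟨k, hk⟩ := h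
          exact ⟨k + 1, by omega⟩
      have h5 : Nat.Coprime 2 (Nat.card A) := by
        rw [Nat.coprime_primes Nat.prime_two hq]
        intro h
        rw [← h] at hAodd
        exact absurd hAodd (by decide)
      exact Nat.Coprime.mul_dvd_of_dvd_of_dvd h5 h4 h3
    · intro hRA hnab
      exact Cfsg.Agent.Lib.Helper13.RankTwoFrame.card_eq_cube hp hR hr hq hqn hAodd ψ
        (Cfsg.Agent.S1447.closure_commSet_eq_top hA hRA) hnab

end Cfsg.Agent.S1454
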