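import Cfsg.Statements.S1455
import Cfsg.Agent.Lib.Helper3.NarrowStruct
import Cfsg.Agent.Lib.Helper31.PLength
import Cfsg.Agent.S1450

set_option autoImplicit false
open Cfsg

namespace Cfsg.Agent.S1455

/-- Let G be a solvable group of odd order, p a prime dividing its order, and S a Sylow p-subgroup of G that is narrow; if S has an elementary abelian subgroup of order p ^ 3 assume also G = O_{p',p,p'}(G). Then every prime dividing the index of O_{p'}(G) is at most p; if p = 3 or p is the smallest prime divisor of #G then G has a normal p-complement; G' has a normal p-complement; every subgroup of G' of order coprime to p lies in O_{p'}(G'); and G' ≤ O_{p',p}(G) with the index of O_{p',p}(G) coprime to p. -/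
theorem result {G : Type*} [Group G] [Finite G] [Group.IsSolvable G] (hodd : Odd (Nat.card G)) (p : ℕ) [Fact p.Prime] (hpG : p ∣ Nat.card G) (S : Sylow p G) (hS : Cfsg.IsNarrow p ↥(S : Subgroup G))
    (hpl : ¬ Cfsg.PRankLE p 2 ↥(S : Subgroup G) → Cfsg.PLengthLE p 1 G) :
    (∀ q : ℕ, q.Prime → q ∣ (Cfsg.pPrimeCore p G).index → q ≤ p) ∧
      ((p = 3 ∨ ∀ q : ℕ, q.Prime → q ∣ Nat.card G → p ≤ q) → Cfsg.HasNormalPComplement p G) ∧
      Cfsg.HasNormalPComplement p ↥(commutator G) ∧
      (∀ L : Subgroup ↥(commutator G), (Nat.card L).Coprime p → L ≤ Cfsg.pPrimeCore p ↥(commutator G)) ∧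
      commutator G ≤ Cfsg.pPrimePCore p G ∧ ((Cfsg.pPrimePCore p G).index).Coprime p := by
  have hp : p.Prime := Fact.out
  have hp2 : p ≠ 2 := by
    rintro rfl
    exact (Nat.not_even_iff_odd.2 hodd) (even_iff_two_dvd.2 hpG)
  by_cases hrk : Cfsg.PRankLE p 2 ↥(S : Subgroup G)
  · have hG : Cfsg.PRankLE p 2 G := by
      intro A hA hAe
      have hAp : IsPGroup p A := fun x => ⟨1, by
        apply Subtype.ext
        simpa using hAe x x.2⟩
      obtain ⟨Q, hQ⟩ := hAp.exists_le_sylow
      obtain ⟨g, hg⟩ := MulAction.exists_smul_eq G Q S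
      rw [← Subgroup.card_map_of_injective (f := (MulAut.conj g).toMonoidHom) (MulAut.conj g).injective]
      apply Cfsg.Agent.Lib.Helper3.card_le_of_pRankLE_of_le hrk
      · rintro _ ⟨a, ha, rfl⟩
        rw [← hg, Sylow.coe_subgroup_smul, Subgroup.mem_pointwise_smul_iff_inv_smul_mem]
        simpa [MulAut.smul_def, mul_assoc] using hQ ha
      · rintro _ ⟨a, ha, rfl⟩ _ ⟨b, hb, rfl⟩
        have h1 : a * b = b * a := congrArg Subtype.val (hA.is_comm.comm ⟨a, ha⟩ ⟨b, hb⟩)
        show (MulAut.conj g) a * (MulAut.conj g) b = (MulAut.conj g) b * (MulAut.conj g) a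
        rw [← map_mul, h1, map_mul]
      · rintro _ ⟨a, ha, rfl⟩
        show (MulAut.conj g) a ^ p = 1
        rw [← map_pow, hAe a ha, map_one]
    exact Cfsg.Agent.S1450.result hodd p hpG hG
  · have hKn : (Cfsg.pPrimeCore p G).Normal := (Cfsg.Agent.Lib.Helper40.pPrimeCore_mem p G).1
    have hKc : (Nat.card (Cfsg.pPrimeCore p G)).Coprime p :=
      Cfsg.Agent.Lib.Helper40.card_pPrimeCore_coprime p G
    have hYsol : Group.IsSolvable (G ⧸ Cfsg.pPrimeCore p G) :=
      Group.isSolvable_of_surjective (QuotientGroup.mk'_surjective (Cfsg.pPrimeCore p G))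
    have hYO : Cfsg.pPrimeCore p (G ⧸ Cfsg.pPrimeCore p G) = ⊥ :=
      Cfsg.Agent.Lib.Helper29.pPrimeCore_quotient_eq_bot p
    obtain ⟨hKS, -⟩ := Cfsg.Agent.Lib.Helper31.plength_one_structure (hpl hrk) S
    -- the image of `S`
    have hSn : ((S : Subgroup G).map (QuotientGroup.mk' (Cfsg.pPrimeCore p G))).Normal := by
      have h1 := hKS.map (QuotientGroup.mk' (Cfsg.pPrimeCore p G))
        (QuotientGroup.mk'_surjective _)
      rwa [Subgroup.map_sup, QuotientGroup.map_mk'_self, bot_sup_eq] at h1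
    have hRn : (Cfsg.pCore p (G ⧸ Cfsg.pPrimeCore p G)).Normal :=
      Cfsg.Agent.Lib.Helper30.pCore_normal' p _
    have hcore : (S : Subgroup G).map (QuotientGroup.mk' (Cfsg.pPrimeCore p G)) =
        Cfsg.pCore p (G ⧸ Cfsg.pPrimeCore p G) := by
      apply le_antisymm
      · exact Cfsg.Agent.Lib.Helper40.le_pCore (S.2.map _)
      · have h1 := (Cfsg.Agent.Lib.Helper40.isPGroup_pCore p
          (G ⧸ Cfsg.pPrimeCore p G)).le_sylow_of_normal
          (S.mapSurjective (QuotientGroup.mk'_surjective (Cfsg.pPrimeCore p G)))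
        rwa [Sylow.coe_mapSurjective] at h1
    have hinj : Function.Injective
        ((QuotientGroup.mk' (Cfsg.pPrimeCore p G)).comp (S : Subgroup G).subtype) := by
      rw [injective_iff_map_eq_one]
      intro s hs
      have h1 : (s : G) ∈ Cfsg.pPrimeCore p G := (QuotientGroup.eq_one_iff _).1 hs
      obtain ⟨k, hk⟩ := S.2 s
      have hk' : (s : G) ^ p ^ k = 1 := by simpa using congrArg Subtype.val hk
      exact Subtype.ext (Cfsg.Agent.Lib.Helper40.eq_one_of_pow_eq_one_of_coprime hk'
        (Cfsg.Agent.Lib.Helper40.orderOf_coprime_of_mem_pPrimeCore h1))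
    have hrange : ((QuotientGroup.mk' (Cfsg.pPrimeCore p G)).comp (S : Subgroup G).subtype).range =
        Cfsg.pCore p (G ⧸ Cfsg.pPrimeCore p G) := by
      rw [← hcore, MonoidHom.range_eq_map, ← Subgroup.map_map, ← MonoidHom.range_eq_map,
        Subgroup.range_subtype]
    have hact := Cfsg.Agent.Lib.Helper3.narrow_act_congr
      ((MonoidHom.ofInjective hinj).trans (MulEquiv.subgroupCongr hrange))
      (Cfsg.Agent.Lib.Helper3.narrow_act hp2 S.2 hrk
        (Cfsg.Agent.Lib.Helper3.narrowData_of_isNarrow S.2 hrk hS))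
    obtain ⟨hA, hB, hC⟩ :=
      Cfsg.Agent.Lib.Helper3.struct_of_pPrimeCore_eq_bot' hYO hact.1 hact.2
    exact Cfsg.Agent.Lib.Helper3.bg418_of_quotient hodd p hA hB hC

end Cfsg.Agent.S1455
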