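import Cfsg.Statements.S1456
import Cfsg.Agent.Lib.Helper3.NarrowData
import Cfsg.Agent.Lib.Helper3.RankTwoFitting

set_option autoImplicit false
open Cfsg

namespace Cfsg.Agent.S1456

/-- Let G be a solvable group of odd order, p a prime, and E an elementary abelian p-subgroup of the Fitting subgroup F(G) such that F(G) ∩ C_G(E) has no elementary abelian subgroup of order q ^ 3 for any prime q. Then the derived subgroup of G is contained in F(G). -/
theorem result {G : Type*} [Group G] [Finite G] [Group.IsSolvable G] (hodd : Odd (Nat.card G)) (p : ℕ) [Fact p.Prime] (E : Subgroup G) (hE : E ≤ Cfsg.fittingSubgroup G) (hEe : Cfsg.IsElementaryAbelian p E)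
    (hr : Cfsg.RankLE 2 ↥(Cfsg.fittingSubgroup G ⊓ Subgroup.centralizer (E : Set G))) :
    commutator G ≤ Cfsg.fittingSubgroup G := by
  apply Cfsg.Agent.Lib.Helper3.le_fitting_of_coprime_centralizes (commutator G)
    Cfsg.Agent.S0044.result
  intro q _ h hh hc
  have hEp : E ≤ Cfsg.pCore p G := fun e he =>
    Cfsg.Agent.Lib.Helper3.mem_pCore_of_mem_fitting (hE he) (k := 1)
      (by rw [pow_one]; exact hEe.2 e he)
  have hqF : Cfsg.pCore q G ≤ Cfsg.fittingSubgroup G :=
    Cfsg.Agent.Lib.Helper1.le_fitting (Cfsg.Agent.Lib.Helper1.pCore_normal _ G)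
      (Cfsg.Agent.Lib.Helper1.pCore_isPGroup _ G).isNilpotent
  by_cases hrk : Cfsg.PRankLE q 2 (Cfsg.pCore q G)
  · exact Cfsg.Agent.Lib.Helper3.commutator_coprime_centralizes_pCore hodd q hrk h hh hc
  by_cases hqp : q = p
  · subst hqp
    have hq2 : q ≠ 2 := by
      rintro rfl
      apply hrk
      intro A _ _
      have h1 : Nat.card A ≤ Nat.card (Cfsg.pCore 2 G) := Subgroup.card_le_card_group A
      have h2 : Nat.card (Cfsg.pCore 2 G) = 1 := by
        rw [Cfsg.Agent.Lib.Helper3.pCore_two_eq_bot_of_odd hodd, Subgroup.card_bot]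
      omega
    have hRp := Cfsg.Agent.Lib.Helper1.pCore_isPGroup q G
    have hRn := Cfsg.Agent.Lib.Helper1.pCore_normal q G
    have hN : Cfsg.Agent.Lib.Helper3.NarrowData q (Cfsg.pCore q G) := by
      apply Cfsg.Agent.Lib.Helper3.narrowData_of_centralizer hRp hrk
        (E.subgroupOf (Cfsg.pCore q G))
      · refine ⟨⟨⟨fun a b => Subtype.ext (Subtype.ext ?_)⟩⟩, fun a ha => Subtype.ext (hEe.2 a ha)⟩
        exact congrArg (Subtype.val : E → G) (hEe.1.is_comm.comm ⟨a.1.1, a.2⟩ ⟨b.1.1, b.2⟩)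
      · intro B hB hBE
        rw [← Subgroup.card_map_of_injective (Cfsg.pCore q G).subtype_injective]
        apply Cfsg.Agent.Lib.Helper3.card_le_of_pRankLE_of_le (hr q Fact.out)
        · rintro _ ⟨b, hb, rfl⟩
          refine ⟨hqF b.2, ?_⟩
          show (b : G) ∈ Subgroup.centralizer (E : Set G)
          rw [Subgroup.mem_centralizer_iff]
          intro e he
          exact (congrArg Subtype.val (hBE b hb ⟨e, hEp he⟩ he)).symm
        · rintro _ ⟨a, ha, rfl⟩ _ ⟨b, hb, rfl⟩
          exact congrArg (fun z : B => ((z : Cfsg.pCore q G) : G))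
            (hB.1.is_comm.comm ⟨a, ha⟩ ⟨b, hb⟩)
        · rintro _ ⟨a, ha, rfl⟩
          exact congrArg Subtype.val (hB.2 a ha)
    apply Cfsg.Agent.Lib.Helper3.mem_centralizer_of_conjNormal_eq_one
    exact (Cfsg.Agent.Lib.Helper3.narrow_act hq2 hRp hrk hN).1 _
      (Cfsg.Agent.Lib.Helper3.map_commutator_le MulAut.conjNormal hh)
      (Nat.Coprime.coprime_dvd_left (orderOf_map_dvd _ _) hc)
  · exfalso
    apply hrk
    have hle : Cfsg.pCore q G ≤ Cfsg.fittingSubgroup G ⊓ Subgroup.centralizer (E : Set G) := by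
      refine le_inf hqF ?_
      exact (Cfsg.Agent.Lib.Helper3.pCore_le_centralizer_pCore hqp).trans
        (Subgroup.centralizer_le (SetLike.coe_subset_coe.2 hEp))
    exact Cfsg.Agent.Lib.Helper26.PRankLE_of_injective (Subgroup.inclusion hle)
      (Subgroup.inclusion_injective hle) (hr q Fact.out)

end Cfsg.Agent.S1456
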