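import Cfsg.Statements.S1457
import Cfsg.Agent.Lib.Helper30.PStable2

set_option autoImplicit false
open Cfsg

namespace Cfsg.Agent.S1457

/-- Let G be a solvable group of odd order, p a prime, S a Sylow p-subgroup of G and A an abelian subgroup of S normal in S. Then A ≤ O_{p',p}(G). -/
theorem result {G : Type*} [Group G] [Finite G] [Group.IsSolvable G] (hodd : Odd (Nat.card G)) (p : ℕ) [Fact p.Prime] (S : Sylow p G) (A : Subgroup G) (hA : A ≤ (S : Subgroup G)) (hAc : IsMulCommutative A)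
    (hAn : (S : Subgroup G) ≤ Subgroup.normalizer (A : Set G)) :
    A ≤ Cfsg.pPrimePCore p G := by
  classical
  by_cases hp : p = 2
  · subst hp
    have hS : (S : Subgroup G) = ⊥ := by
      obtain ⟨k, hk⟩ := IsPGroup.iff_card.1 S.2
      have hdvd : Nat.card (S : Subgroup G) ∣ Nat.card G := Subgroup.card_subgroup_dvd_card _
      have hoddS : Odd (Nat.card (S : Subgroup G)) := Odd.of_dvd_nat hodd hdvd
      rw [hk] at hoddS
      have hk0 : k = 0 := by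
        by_contra h0
        exact (Nat.not_even_iff_odd.2 hoddS) ((Nat.even_pow.2 ⟨even_two, h0⟩))
      rw [hk0, pow_zero] at hk
      exact Subgroup.card_eq_one.1 hk
    rw [hS, le_bot_iff] at hA
    rw [hA]
    exact bot_le
  have hodd' : Odd (Nat.card (G ⧸ Cfsg.pPrimeCore p G)) :=
    Odd.of_dvd_nat hodd (Subgroup.card_quotient_dvd_card _)
  have hO : Cfsg.pPrimeCore p (G ⧸ Cfsg.pPrimeCore p G) = ⊥ :=
    Cfsg.Agent.Lib.Helper14.pPrimeCore_quotient_pPrimeCore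
  haveI := Cfsg.Agent.Lib.Helper30.pCore_normal' p (G ⧸ Cfsg.pPrimeCore p G)
  have hTp : IsPGroup p (Cfsg.pCore p (G ⧸ Cfsg.pPrimeCore p G)) := Cfsg.Agent.Lib.Helper14.isPGroup_pCore
  have hC : IsPGroup p (Subgroup.centralizer (Cfsg.pCore p (G ⧸ Cfsg.pPrimeCore p G) : Set (G ⧸ Cfsg.pPrimeCore p G))) :=
    hTp.to_le (Cfsg.Agent.Lib.Helper30.centralizer_pCore_le_of_solvable hO)
  have hTS : Cfsg.pCore p (G ⧸ Cfsg.pPrimeCore p G) ≤ (S : Subgroup G).map (QuotientGroup.mk' (Cfsg.pPrimeCore p G)) := by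
    have := Cfsg.Agent.Lib.Helper14.pCore_le_sylow
      (Sylow.mapSurjective (QuotientGroup.mk'_surjective (Cfsg.pPrimeCore p G)) S)
    rwa [Sylow.coe_mapSurjective] at this
  intro a ha
  show QuotientGroup.mk' (Cfsg.pPrimeCore p G) a ∈ Cfsg.pCore p (G ⧸ Cfsg.pPrimeCore p G)
  apply Cfsg.Agent.Lib.Helper30.pstable_mem_pCore hp hodd' _ hTp hC
  intro u hu
  obtain ⟨s, hs, rfl⟩ := hTS hu
  have hc : a * s * a⁻¹ * s⁻¹ ∈ A := by
    have h1 : s * a⁻¹ * s⁻¹ ∈ A := (Subgroup.mem_normalizer_iff.1 (hAn hs) a⁻¹).1 (A.inv_mem ha)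
    have : a * s * a⁻¹ * s⁻¹ = a * (s * a⁻¹ * s⁻¹) := by group
    rw [this]
    exact A.mul_mem ha h1
  have hcomm : a * (a * s * a⁻¹ * s⁻¹) = (a * s * a⁻¹ * s⁻¹) * a :=
    congrArg Subtype.val (hAc.is_comm.comm ⟨a, ha⟩ ⟨_, hc⟩)
  have key : a * (a * s * a⁻¹ * s⁻¹) * a⁻¹ = a * s * a⁻¹ * s⁻¹ := by
    rw [hcomm, mul_assoc, mul_inv_cancel, mul_one]
  have := congrArg (QuotientGroup.mk' (Cfsg.pPrimeCore p G)) key
  simpa using this

end Cfsg.Agent.S1457
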