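import Cfsg.Statements.S1459
import Cfsg.Agent.Lib.Helper60.NilpNormal
import Cfsg.Agent.Lib.Helper13.PAction
import Cfsg.Agent.Lib.Helper14.PConstrained
import Cfsg.Agent.Lib.Helper52.Subn

set_option autoImplicit false
open Cfsg

namespace Cfsg.Agent.S1459

open scoped commutatorElement

/-- `H` normal, `G = HK`: then `G' ≤ [H,G] K'`. -/
theorem commutator_le_sup {G : Type*} [Group G] (H K : Subgroup G) [hH : H.Normal]
    (hHK : H ⊔ K = ⊤) : commutator G ≤ ⁅H, (⊤ : Subgroup G)⁆ ⊔ ⁅K, K⁆ := by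
  set N : Subgroup G := ⁅H, (⊤ : Subgroup G)⁆ with hN
  have hNn : N.Normal := Subgroup.commutator_normal H ⊤
  have hcent : ∀ h ∈ H, ∀ g : G, (QuotientGroup.mk' N h) * (QuotientGroup.mk' N g)
      = (QuotientGroup.mk' N g) * (QuotientGroup.mk' N h) := by
    intro h hh g
    rw [← map_mul, ← map_mul]
    apply Eq.symm
    apply (QuotientGroup.eq (s := N)).2
    have h1 : ⁅h⁻¹, g⁻¹⁆ ∈ N := Subgroup.commutator_mem_commutator (H.inv_mem hh) (Subgroup.mem_top _)
    have h2 : (g * h)⁻¹ * (h * g) = ⁅h⁻¹, g⁻¹⁆ := by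
      simp [commutatorElement_def, mul_assoc]
    rw [h2]; exact h1
  rw [commutator_def, Subgroup.commutator_le]
  intro g₁ _ g₂ _
  have hg₁ : g₁ ∈ H ⊔ K := hHK ▸ Subgroup.mem_top _
  have hg₂ : g₂ ∈ H ⊔ K := hHK ▸ Subgroup.mem_top _
  rw [Subgroup.mem_sup_of_normal_left] at hg₁ hg₂
  obtain ⟨h₁, hh₁, k₁, hk₁, rfl⟩ := hg₁
  obtain ⟨h₂, hh₂, k₂, hk₂, rfl⟩ := hg₂
  have key : QuotientGroup.mk' N ⁅h₁ * k₁, h₂ * k₂⁆ = QuotientGroup.mk' N ⁅k₁, k₂⁆ := by
    rw [map_commutatorElement, map_commutatorElement, map_mul, map_mul]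
    set a := QuotientGroup.mk' N h₁
    set b := QuotientGroup.mk' N h₂
    set c := QuotientGroup.mk' N k₁
    set d := QuotientGroup.mk' N k₂
    have ha : ∀ y, a * y = y * a := by
      intro y
      obtain ⟨g, rfl⟩ := QuotientGroup.mk'_surjective N y
      exact hcent h₁ hh₁ g
    have hb : ∀ y, b * y = y * b := by
      intro y
      obtain ⟨g, rfl⟩ := QuotientGroup.mk'_surjective N y
      exact hcent h₂ hh₂ g
    rw [commutatorElement_def, commutatorElement_def]
    have e1 : (a * c)⁻¹ = a⁻¹ * c⁻¹ := by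
      rw [ha c, mul_inv_rev]
    have e2 : (b * d)⁻¹ = b⁻¹ * d⁻¹ := by
      rw [hb d, mul_inv_rev]
    rw [e1, e2]
    have ha' : ∀ y, a⁻¹ * y = y * a⁻¹ := by
      intro y
      have := ha y
      calc a⁻¹ * y = a⁻¹ * (y * a) * a⁻¹ := by group
        _ = a⁻¹ * (a * y) * a⁻¹ := by rw [this]
        _ = y * a⁻¹ := by group
    have hb' : ∀ y, b⁻¹ * y = y * b⁻¹ := by
      intro y
      have := hb y
      calc b⁻¹ * y = b⁻¹ * (y * b) * b⁻¹ := by group
        _ = b⁻¹ * (b * y) * b⁻¹ := by rw [this]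
        _ = y * b⁻¹ := by group
    calc a * c * (b * d) * (a⁻¹ * c⁻¹) * (b⁻¹ * d⁻¹)
        = a * (c * (b * (d * (a⁻¹ * (c⁻¹ * (b⁻¹ * d⁻¹)))))) := by group
      _ = a * (c * (b * (a⁻¹ * (d * (c⁻¹ * (b⁻¹ * d⁻¹)))))) := by
          rw [← mul_assoc d a⁻¹, ← ha' d, mul_assoc]
      _ = a * (c * (a⁻¹ * (b * (d * (c⁻¹ * (b⁻¹ * d⁻¹)))))) := by
          rw [← mul_assoc b a⁻¹, ← ha' b, mul_assoc]
      _ = a * (a⁻¹ * (c * (b * (d * (c⁻¹ * (b⁻¹ * d⁻¹)))))) := by
          rw [← mul_assoc c a⁻¹, ← ha' c, mul_assoc]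
      _ = c * (b * (d * (c⁻¹ * (b⁻¹ * d⁻¹)))) := by group
      _ = c * (b * (d * (b⁻¹ * (c⁻¹ * d⁻¹)))) := by
          rw [← mul_assoc c⁻¹ b⁻¹, ← hb' c⁻¹, mul_assoc]
      _ = c * (b * (b⁻¹ * (d * (c⁻¹ * d⁻¹)))) := by
          rw [← mul_assoc d b⁻¹, ← hb' d, mul_assoc]
      _ = c * d * c⁻¹ * d⁻¹ := by group
  have h3 : (⁅k₁, k₂⁆)⁻¹ * ⁅h₁ * k₁, h₂ * k₂⁆ ∈ N := (QuotientGroup.eq (s := N)).1 key.symm
  have h4 : ⁅k₁, k₂⁆ ∈ ⁅K, K⁆ := Subgroup.commutator_mem_commutator hk₁ hk₂
  have h5 : ⁅h₁ * k₁, h₂ * k₂⁆ = ⁅k₁, k₂⁆ * ((⁅k₁, k₂⁆)⁻¹ * ⁅h₁ * k₁, h₂ * k₂⁆) := by group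
  rw [h5]
  exact Subgroup.mul_mem _ (Subgroup.mem_sup_right h4) (Subgroup.mem_sup_left h3)

/-- part (a), first half -/
theorem eq_commutator {G : Type*} [Group G] [Finite G] [Group.IsSolvable G] (H K : Subgroup G)
    (hH : H.Normal) (hc : Subgroup.IsComplement' H K) (hle : H ≤ commutator G) :
    H = ⁅H, K⁆ := by
  have hsup : H ⊔ K = ⊤ := hc.sup_eq_top
  have hinf : H ⊓ K = ⊥ := hc.disjoint.eq_bot
  have hNle : ⁅H, (⊤ : Subgroup G)⁆ ≤ H := Subgroup.commutator_le_left H ⊤
  -- step A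
  have hA : H ≤ ⁅H, (⊤ : Subgroup G)⁆ := by
    have h1 : H ≤ ⁅H, (⊤ : Subgroup G)⁆ ⊔ K :=
      (hle.trans (commutator_le_sup H K hsup)).trans
        (sup_le_sup_left (Subgroup.commutator_le_self K) _)
    intro x hx
    have h2 := h1 hx
    have hNn : (⁅H, (⊤ : Subgroup G)⁆ : Subgroup G).Normal := Subgroup.commutator_normal H ⊤
    rw [Subgroup.mem_sup_of_normal_left] at h2
    obtain ⟨n, hn, k, hk, rfl⟩ := h2
    have hkH : k ∈ H := by
      have := H.mul_mem (H.inv_mem (hNle hn)) hx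
      simpa using this
    have : k ∈ H ⊓ K := ⟨hkH, hk⟩
    rw [hinf, Subgroup.mem_bot] at this
    rw [this, mul_one]; exact hn
  set M : Subgroup G := ⁅H, K⁆ with hM
  have hMn : M.Normal := by
    rw [← Subgroup.normalizer_eq_top_iff]
    exact top_le_iff.1 (hsup ▸ Cfsg.Agent.Lib.Helper52.le_normalizer_commutator H K)
  have hMle : M ≤ H := Subgroup.commutator_le_left H K
  -- step B
  have hB : ⁅H, (⊤ : Subgroup G)⁆ ≤ ⁅H, H⁆ ⊔ M := by
    rw [Subgroup.commutator_le]
    intro h hh g _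
    have hg : g ∈ H ⊔ K := hsup ▸ Subgroup.mem_top _
    rw [Subgroup.mem_sup_of_normal_left] at hg
    obtain ⟨h', hh', k, hk, rfl⟩ := hg
    have e : ⁅h, h' * k⁆ = ⁅h, h'⁆ * (h' * ⁅h, k⁆ * h'⁻¹) := by
      simp only [commutatorElement_def]; group
    rw [e]
    exact Subgroup.mul_mem _ (Subgroup.mem_sup_left (Subgroup.commutator_mem_commutator hh hh'))
      (Subgroup.mem_sup_right (hMn.conj_mem _ (Subgroup.commutator_mem_commutator hh hk) h'))
  have hC : H.map (QuotientGroup.mk' M) ≤ ⁅H.map (QuotientGroup.mk' M), H.map (QuotientGroup.mk' M)⁆ := by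
    rw [← Subgroup.map_commutator]
    calc H.map (QuotientGroup.mk' M) ≤ (⁅H, H⁆ ⊔ M).map (QuotientGroup.mk' M) :=
          Subgroup.map_mono (hA.trans hB)
      _ = (⁅H, H⁆).map (QuotientGroup.mk' M) := by
          rw [Subgroup.map_sup]
          have : M.map (QuotientGroup.mk' M) = ⊥ := by
            rw [Subgroup.map_eq_bot_iff, QuotientGroup.ker_mk']
          rw [this, sup_bot_eq]
  have hD : H.map (QuotientGroup.mk' M) = ⊥ := by
    by_contra hne
    exact absurd hC (not_le_of_gt (Group.IsSolvable.commutator_lt_of_ne_bot hne))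
  rw [Subgroup.map_eq_bot_iff, QuotientGroup.ker_mk'] at hD
  exact le_antisymm hD hMle

/-- part (a), second half -/
theorem inf_centralizer_le {G : Type*} [Group G] [Finite G] (H K : Subgroup G)
    (hH : H.Normal) (hcop : (Nat.card H).Coprime H.index) (hc : Subgroup.IsComplement' H K)
    (hHK : H = ⁅H, K⁆) :
    H ⊓ Subgroup.centralizer (K : Set G) ≤ ⁅H, H⁆ := by
  classical
  have := Fintype.ofFinite K
  let τ : H →* Abelianization H :=
    ∏ k : K, (Abelianization.of).comp (MulAut.conjNormal (k : G)).toMonoidHom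
  have hτ : ∀ h : H, τ h = ∏ k : K, Abelianization.of (MulAut.conjNormal (k : G) h) := by
    intro h
    simp [τ]
  have h1 : ∀ (k₀ : K) (h : H), τ (MulAut.conjNormal (k₀ : G) h) = τ h := by
    intro k₀ h
    rw [hτ, hτ]
    apply Fintype.prod_equiv (Equiv.mulRight k₀)
    intro k
    simp [map_mul]
  have h2 : ⁅H, K⁆ ≤ (τ.ker).map H.subtype := by
    rw [Subgroup.commutator_le]
    intro h hh k hk
    refine ⟨⟨h, hh⟩ * (MulAut.conjNormal k ⟨h, hh⟩)⁻¹, ?_, ?_⟩
    · have := h1 ⟨k, hk⟩ ⟨h, hh⟩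
      simp only [SetLike.mem_coe, MonoidHom.mem_ker, map_mul, map_inv]
      simp only at this
      rw [this, mul_inv_cancel]
    · simp [commutatorElement_def, mul_assoc]
  intro c hc'
  obtain ⟨hcH, hcK⟩ := hc'
  have h3 : τ ⟨c, hcH⟩ = 1 := by
    have : c ∈ (τ.ker).map H.subtype := h2 (hHK ▸ hcH)
    obtain ⟨c', hc', e⟩ := this
    have : c' = ⟨c, hcH⟩ := Subtype.ext e
    rw [← this]; exact hc'
  have h4 : τ ⟨c, hcH⟩ = (Abelianization.of (⟨c, hcH⟩ : H)) ^ (Nat.card K) := by
    rw [hτ]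
    have : ∀ k : K, MulAut.conjNormal (k : G) (⟨c, hcH⟩ : H) = ⟨c, hcH⟩ := by
      intro k
      apply Subtype.ext
      have := (Subgroup.mem_centralizer_iff.1 hcK) k k.2
      simp only [MulAut.conjNormal_apply]
      rw [this]; group
    simp [this, Nat.card_eq_fintype_card]
  have h5 : (Abelianization.of (⟨c, hcH⟩ : H)) ^ (Nat.card H) = 1 := by
    rw [← map_pow, pow_card_eq_one', map_one]
  have h6 : Abelianization.of (⟨c, hcH⟩ : H) = 1 := by
    have hK : H.index = Nat.card K := hc.symm.index_eq_card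
    rw [hK] at hcop
    have e1 := orderOf_dvd_of_pow_eq_one h5
    have e2 := orderOf_dvd_of_pow_eq_one (h4.symm.trans h3)
    have := Nat.eq_one_of_dvd_coprimes hcop e1 e2
    exact orderOf_eq_one_iff.1 this
  have h7 : (⟨c, hcH⟩ : H) ∈ commutator H := by
    rw [← Abelianization.ker_of]; exact h6
  rw [← Subgroup.map_subtype_commutator]
  exact ⟨_, h7, rfl⟩

/-- part (b), coprimality -/
theorem coprime_of_nilpotent {G : Type*} [Group G] [Finite G]
    (hnil : Group.IsNilpotent ↥(commutator G)) (hp : (commutator G).index.Prime) :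
    (Nat.card ↥(commutator G)).Coprime (commutator G).index := by
  set p := (commutator G).index with hpdef
  have := Fact.mk hp
  -- a generator modulo `G'`
  have hne : commutator G ≠ ⊤ := by
    intro h
    rw [← Subgroup.index_eq_one] at h
    exact hp.one_lt.ne' h
  obtain ⟨x, hx⟩ : ∃ x : G, x ∉ commutator G := by
    by_contra hcon
    push Not at hcon
    exact hne (eq_top_iff.2 fun y _ => hcon y)
  have hsup : commutator G ⊔ Subgroup.zpowers x = ⊤ := by
    set L := commutator G ⊔ Subgroup.zpowers x with hL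
    have hle : commutator G ≤ L := le_sup_left
    have h1 : L.index ∣ p := Subgroup.index_dvd_of_le hle
    rcases (Nat.dvd_prime hp).1 h1 with h | h
    · exact Subgroup.index_eq_one.1 h
    · exfalso
      have h2 := Subgroup.relIndex_mul_index hle
      rw [h, ← hpdef] at h2
      have h3 : (commutator G).relIndex L = 1 := by
        have hp0 : 0 < p := hp.pos
        exact Nat.eq_of_mul_eq_mul_right hp0 (by rw [h2, one_mul])
      have h4 : L ≤ commutator G := Subgroup.relIndex_eq_one.1 h3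
      exact hx (h4 (Subgroup.mem_sup_right (Subgroup.mem_zpowers x)))
  have hA : commutator G ≤ ⁅commutator G, (⊤ : Subgroup G)⁆ := by
    have h1 := commutator_le_sup (commutator G) (Subgroup.zpowers x) hsup
    have h2 : ⁅Subgroup.zpowers x, Subgroup.zpowers x⁆ = ⊥ := by
      rw [Subgroup.commutator_eq_bot_iff_le_centralizer]
      intro a ha
      rw [Subgroup.mem_centralizer_iff]
      intro b hb
      obtain ⟨i, rfl⟩ := Subgroup.mem_zpowers_iff.1 ha
      obtain ⟨j, rfl⟩ := Subgroup.mem_zpowers_iff.1 hb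
      rw [← zpow_add, ← zpow_add, add_comm]
    rwa [h2, sup_bot_eq] at h1
  set N := Cfsg.pPrimeCore p G with hN
  set π := QuotientGroup.mk' N with hπ
  have hπs : Function.Surjective π := QuotientGroup.mk'_surjective N
  set D := (commutator G).map π with hD
  have hDn : D.Normal := Subgroup.Normal.map inferInstance π hπs
  have hDnil : Group.IsNilpotent D :=
    Group.nilpotent_of_surjective (π.subgroupMap (commutator G))
      (MonoidHom.subgroupMap_surjective π _)
  have hDp : IsPGroup p D :=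
    Cfsg.Agent.Lib.Helper60.isPGroup_of_normal_nilpotent p
      Cfsg.Agent.Lib.Helper14.pPrimeCore_quotient_pPrimeCore D
  have hQp : IsPGroup p (G ⧸ N) := by
    obtain ⟨n, hn⟩ := IsPGroup.iff_card.1 hDp
    have h1 : D.index ∣ p := Subgroup.index_map_dvd _ hπs
    have h2 := D.card_mul_index
    rcases (Nat.dvd_prime hp).1 h1 with h | h
    · exact IsPGroup.of_card (n := n) (by rw [← h2, h, hn, mul_one])
    · exact IsPGroup.of_card (n := n + 1) (by rw [← h2, h, hn, pow_succ])
  have hDle : D ≤ ⁅D, (⊤ : Subgroup (G ⧸ N))⁆ := by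
    have h1 := Subgroup.map_mono (f := π) hA
    rwa [Subgroup.map_commutator, Subgroup.map_top_of_surjective π hπs] at h1
  have hDbot : D = ⊥ :=
    Cfsg.Agent.Lib.Helper13.eq_bot_of_le_commutator_top hQp.isNilpotent D hDle
  have hle : commutator G ≤ N := by
    rw [hD, Subgroup.map_eq_bot_iff, hπ, QuotientGroup.ker_mk'] at hDbot
    exact hDbot
  exact Nat.Coprime.coprime_dvd_left (Subgroup.card_dvd_of_le hle)
    Cfsg.Agent.Lib.Helper14.card_pPrimeCore_coprime

/-- Let G be a finite solvable group. (a) If H is a normal subgroup of order coprime to its index, K is a complement to H, and H ≤ G', then H = [H, K] and H ∩ C_G(K) ≤ [H, H]. (b) If G' is nilpotent and has prime index in G, then the order of G' is coprime to its index and G' = [G, K] (the subgroup generated by commutators of elements of G with elements of K) for every complement K of G'. -/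
theorem result {G : Type*} [Group G] [Finite G] [Group.IsSolvable G] :
    (∀ (H K : Subgroup G), H.Normal → (Nat.card H).Coprime H.index → Subgroup.IsComplement' H K → H ≤ commutator G →
        H = ⁅H, K⁆ ∧ H ⊓ Subgroup.centralizer (K : Set G) ≤ ⁅H, H⁆) ∧
      (Group.IsNilpotent ↥(commutator G) → (commutator G).index.Prime →
        (Nat.card ↥(commutator G)).Coprime (commutator G).index ∧
        ∀ K : Subgroup G, Subgroup.IsComplement' (commutator G) K → commutator G = ⁅(⊤ : Subgroup G), K⁆) := by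
  refine ⟨?_, ?_⟩
  · intro H K hH hcop hc hle
    have h1 := eq_commutator H K hH hc hle
    exact ⟨h1, inf_centralizer_le H K hH hcop hc h1⟩
  · intro hnil hp
    refine ⟨coprime_of_nilpotent hnil hp, ?_⟩
    intro K hc
    have h1 := eq_commutator (commutator G) K inferInstance hc le_rfl
    apply le_antisymm
    · calc commutator G = ⁅commutator G, K⁆ := h1
        _ ≤ ⁅(⊤ : Subgroup G), K⁆ := Subgroup.commutator_mono le_top le_rfl
    · rw [commutator_def]
      exact Subgroup.commutator_mono le_rfl le_top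

end Cfsg.Agent.S1459
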