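import Cfsg.Statements.S1460
import Cfsg.Agent.Lib.Helper30.Coprime
import Mathlib.GroupTheory.Abelianization.Defs

set_option autoImplicit false
open Cfsg

namespace Cfsg.Agent.S1460

open Cfsg.Agent.Lib.Helper30 Subgroup
open scoped commutatorElement

variable {G : Type*} [Group G]

theorem fusion [Finite G] [Group.IsSolvable G] (K U H : Subgroup G) [K.Normal] (hKU : K ⊔ U = ⊤)
    (hH : H ≤ U) (hcop : (Nat.card H).Coprime (Nat.card K)) (g : G) (hg : cj g H ≤ U) :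
    ∃ u ∈ U, ∃ c ∈ K ⊓ centralizer (H : Set G), g = u * c := by
  obtain ⟨n, hn, u, hu, rfl⟩ := mem_sup_normal_left.mp (hKU ▸ mem_top g : g ∈ K ⊔ U)
  set k := u⁻¹ * n * u with hk
  have hkK : k ∈ K := by
    have := ‹K.Normal›.conj_mem n hn u⁻¹
    rwa [inv_inv] at this
  have hnu : n * u = u * k := by rw [hk]; group
  rw [hnu, cj_mul, cj_le_iff, cj_eq_of_mem (U.inv_mem hu)] at hg
  have hKn : ∀ X : Subgroup G, X ≤ normalizer (K : Set G) := fun X => by
    rw [normalizer_eq_top]; exact le_top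
  have hHM : H ≤ normalizer ((K ⊓ U : Subgroup G) : Set G) :=
    le_normalizer_inf (hKn H) (hH.trans le_normalizer)
  have hle : cj k H ≤ (K ⊓ U) ⊔ H := by
    intro x hx
    have hxU := hg hx
    obtain ⟨h, hh, rfl⟩ := hx
    change k * h * k⁻¹ ∈ _
    change k * h * k⁻¹ ∈ U at hxU
    have h1 : k * h * k⁻¹ * h⁻¹ ∈ K ⊓ U := by
      refine ⟨?_, U.mul_mem hxU (U.inv_mem (hH hh))⟩
      have h2 : h * k⁻¹ * h⁻¹ ∈ K := ‹K.Normal›.conj_mem _ (K.inv_mem hkK) h
      have h3 : k * h * k⁻¹ * h⁻¹ = k * (h * k⁻¹ * h⁻¹) := by group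
      rw [h3]; exact K.mul_mem hkK h2
    have h4 : k * h * k⁻¹ = (k * h * k⁻¹ * h⁻¹) * h := by group
    rw [h4]
    exact mul_mem (le_sup_left (b := H) h1) (le_sup_right (a := K ⊓ U) hh)
  have hcop' : (Nat.card (K ⊓ U : Subgroup G)).Coprime (Nat.card H) :=
    Nat.Coprime.coprime_dvd_left (card_dvd_of_le inf_le_left) hcop.symm
  obtain ⟨x, hx, hxk⟩ := sz_conj (K ⊓ U) H (cj k H) hHM (Or.inl inferInstance) hcop' hle (card_cj k H)
  have hc : cj (x⁻¹ * k) H = H := by rw [cj_mul, hxk, cj_inv_cj]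
  have hcK : x⁻¹ * k ∈ K := K.mul_mem (K.inv_mem hx.1) hkK
  refine ⟨u * x, U.mul_mem hu hx.2, x⁻¹ * k, ⟨hcK, ?_⟩, by rw [hnu]; group⟩
  exact mem_centralizer_of_mem_normalizer (hKn H) (disjoint_of_coprime_natCard hcop.symm).eq_bot hcK
    (mem_normalizer_of_cj_eq hc)

theorem commutator_le_sup (K U : Subgroup G) [K.Normal] (hKU : K ⊔ U = ⊤) :
    commutator G ≤ K ⊔ ⁅U, U⁆ := by
  rw [commutator_def, commutator_le]
  intro a _ b _
  obtain ⟨n₁, hn₁, u₁, hu₁, rfl⟩ := mem_sup_normal_left.mp (hKU ▸ mem_top a : a ∈ K ⊔ U)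
  obtain ⟨n₂, hn₂, u₂, hu₂, rfl⟩ := mem_sup_normal_left.mp (hKU ▸ mem_top b : b ∈ K ⊔ U)
  have h1 : ⁅n₁ * u₁, n₂ * u₂⁆ * ⁅u₁, u₂⁆⁻¹ ∈ K := by
    rw [← QuotientGroup.eq_one_iff]
    have e1 : ((n₁ : G) : G ⧸ K) = 1 := (QuotientGroup.eq_one_iff n₁).mpr hn₁
    have e2 : ((n₂ : G) : G ⧸ K) = 1 := (QuotientGroup.eq_one_iff n₂).mpr hn₂
    simp only [commutatorElement_def, QuotientGroup.mk_mul, QuotientGroup.mk_inv, e1, e2]
    group
  have h2 : ⁅n₁ * u₁, n₂ * u₂⁆ = (⁅n₁ * u₁, n₂ * u₂⁆ * ⁅u₁, u₂⁆⁻¹) * ⁅u₁, u₂⁆ := by group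
  rw [h2]
  exact mul_mem (le_sup_left (b := ⁅U, U⁆) h1)
    (le_sup_right (a := K) (commutator_mem_commutator hu₁ hu₂))

theorem inf_commutator [Finite G] (K U H : Subgroup G) [K.Normal] (hKU : K ⊔ U = ⊤)
    (hH : H ≤ U) (hcop : (Nat.card H).Coprime (Nat.card K)) :
    H ⊓ commutator G = H ⊓ ⁅U, U⁆ := by
  apply le_antisymm
  · rintro x ⟨hxH, hxG⟩
    refine ⟨hxH, ?_⟩
    obtain ⟨κ, hκ, d, hd, hxd⟩ := mem_sup_normal_left.mp (commutator_le_sup K U hKU hxG)
    have hdU : d ∈ U := commutator_le_self U hd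
    have hκU : κ ∈ U := by
      have : κ = x * d⁻¹ := by rw [hxd]; group
      rw [this]; exact U.mul_mem (hH hxH) (U.inv_mem hdU)
    have hd' : (⟨d, hdU⟩ : U) ∈ commutator U := by
      rw [← map_subtype_commutator] at hd
      obtain ⟨d', hd', hdd⟩ := hd
      have : d' = ⟨d, hdU⟩ := Subtype.ext hdd
      rwa [← this]
    have e1 : Abelianization.of (⟨x, hH hxH⟩ : U) = Abelianization.of (⟨κ, hκU⟩ : U) := by
      have h3 : (⟨x, hH hxH⟩ : U) = ⟨κ, hκU⟩ * ⟨d, hdU⟩ := Subtype.ext hxd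
      have h4 : Abelianization.of (⟨d, hdU⟩ : U) = 1 := by
        rw [← MonoidHom.mem_ker, Abelianization.ker_of]; exact hd'
      rw [h3, map_mul, h4, mul_one]
    have o1 : orderOf (Abelianization.of (⟨x, hH hxH⟩ : U)) ∣ Nat.card H := by
      refine (orderOf_map_dvd _ _).trans ?_
      rw [Subgroup.orderOf_mk]
      have := orderOf_dvd_natCard (⟨x, hxH⟩ : H)
      rwa [Subgroup.orderOf_mk] at this
    have o2 : orderOf (Abelianization.of (⟨x, hH hxH⟩ : U)) ∣ Nat.card K := by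
      rw [e1]
      refine (orderOf_map_dvd _ _).trans ?_
      rw [Subgroup.orderOf_mk]
      have := orderOf_dvd_natCard (⟨κ, hκ⟩ : K)
      rwa [Subgroup.orderOf_mk] at this
    have o3 : Abelianization.of (⟨x, hH hxH⟩ : U) = 1 := by
      rw [← orderOf_eq_one_iff]
      exact Nat.eq_one_of_dvd_coprimes hcop o1 o2
    rw [← MonoidHom.mem_ker, Abelianization.ker_of] at o3
    rw [← map_subtype_commutator]
    exact ⟨_, o3, rfl⟩
  · apply inf_le_inf_left
    rw [commutator_def]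
    exact commutator_mono le_top le_top

/-- Let G be a finite solvable group, K a normal subgroup and U a subgroup with G = KU, and H ≤ U a subgroup whose order is coprime to that of K. Then H ∩ G' = H ∩ U'; N_G(H) is generated by K ∩ C_G(H) and U ∩ N_G(H); and if gHg⁻¹ ≤ U for some g ∈ G then g = u c with u ∈ U and c ∈ K ∩ C_G(H). -/
theorem result {G : Type*} [Group G] [Finite G] [Group.IsSolvable G] (K U H : Subgroup G) [K.Normal] (hKU : K ⊔ U = ⊤) (hH : H ≤ U) (hcop : (Nat.card H).Coprime (Nat.card K)) :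
    H ⊓ commutator G = H ⊓ ⁅U, U⁆ ∧
      Subgroup.normalizer (H : Set G) = (K ⊓ Subgroup.centralizer (H : Set G)) ⊔ (U ⊓ Subgroup.normalizer (H : Set G)) ∧
      ∀ g : G, H.map (MulAut.conj g).toMonoidHom ≤ U → ∃ u ∈ U, ∃ c ∈ K ⊓ Subgroup.centralizer (H : Set G), g = u * c := by
  refine ⟨inf_commutator K U H hKU hH hcop, ?_, fun g hg => fusion K U H hKU hH hcop g hg⟩
  apply le_antisymm
  · intro g hg
    obtain ⟨u, hu, c, hc, rfl⟩ := fusion K U H hKU hH hcop g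
      (by rw [cj_eq_of_mem_normalizer hg]; exact hH)
    have hcN : c ∈ normalizer (H : Set G) := centralizer_le_normalizer _ hc.2
    have huN : u ∈ normalizer (H : Set G) := by
      have : u = u * c * c⁻¹ := by group
      rw [this]; exact mul_mem hg (inv_mem hcN)
    exact mul_mem (le_sup_right (a := K ⊓ centralizer (H : Set G)) ⟨hu, huN⟩)
      (le_sup_left (b := U ⊓ normalizer (H : Set G)) hc)
  · exact sup_le (inf_le_right.trans (centralizer_le_normalizer _)) inf_le_right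

end Cfsg.Agent.S1460
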