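import Cfsg.Statements.S1461
import Cfsg.Agent.S1460
import Cfsg.Agent.Lib.Helper31.PLength

set_option autoImplicit false
open Cfsg

namespace Cfsg.Agent.S1461

open Cfsg.Agent.Lib.Helper30 Subgroup

/-- Let G be a finite solvable group, p a prime with G = O_{p',p,p'}(G), and S a Sylow p-subgroup. Then: if S ≤ G' then S ≤ [N_G(S), N_G(S)]; if Y ⊆ S and xYx⁻¹ ⊆ S then x = g c for some g ∈ N_G(S) and c centralizing Y; and for every p-subgroup Q there is x ∈ C_G(Q ∩ S) with xQx⁻¹ ≤ S. -/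
theorem result {G : Type*} [Group G] [Finite G] [Group.IsSolvable G] (p : ℕ) [Fact p.Prime] (hpl : Cfsg.PLengthLE p 1 G) (S : Sylow p G) :
    ((S : Subgroup G) ≤ commutator G → (S : Subgroup G) ≤ ⁅Subgroup.normalizer ((S : Subgroup G) : Set G), Subgroup.normalizer ((S : Subgroup G) : Set G)⁆) ∧
      (∀ (Y : Set G) (x : G), Y ⊆ (S : Subgroup G) → (fun y => x * y * x⁻¹) '' Y ⊆ (S : Subgroup G) →
        ∃ g ∈ Subgroup.normalizer ((S : Subgroup G) : Set G), ∃ c ∈ Subgroup.centralizer Y, g * c = x) ∧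
      ∀ Q : Subgroup G, IsPGroup p Q → ∃ x ∈ Subgroup.centralizer ((Q ⊓ (S : Subgroup G) : Subgroup G) : Set G), Q.map (MulAut.conj x).toMonoidHom ≤ (S : Subgroup G) := by
  obtain ⟨_, hKU⟩ := Cfsg.Agent.Lib.Helper31.plength_one_structure hpl S
  set K := Cfsg.pPrimeCore p G with hK
  set U := normalizer ((S : Subgroup G) : Set G) with hU
  have hSU : (S : Subgroup G) ≤ U := le_normalizer
  have hKp : (Nat.card K).Coprime p := Cfsg.Agent.Lib.Helper14.card_pPrimeCore_coprime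
  have hcopS : ∀ H : Subgroup G, H ≤ (S : Subgroup G) → (Nat.card H).Coprime (Nat.card K) := by
    intro H hH
    obtain ⟨n, hn⟩ := IsPGroup.iff_card.mp (S.isPGroup'.to_le hH)
    rw [hn]
    exact (Nat.Coprime.pow_right n hKp).symm
  refine ⟨?_, ?_, ?_⟩
  · intro hS
    have h1 := (Cfsg.Agent.S1460.result K U (S : Subgroup G) hKU hSU (hcopS _ le_rfl)).1
    rw [inf_of_le_left hS] at h1
    exact inf_eq_left.mp h1.symm
  · intro Y x hY hxY
    have hH : closure Y ≤ (S : Subgroup G) := (closure_le _).mpr hY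
    have h1 := (Cfsg.Agent.S1460.result K U (closure Y) hKU (hH.trans hSU) (hcopS _ hH)).2.2 x (by
      rw [MonoidHom.map_closure, closure_le]
      rintro _ ⟨y, hy, rfl⟩
      exact hSU (hxY ⟨y, hy, rfl⟩))
    obtain ⟨u, hu, c, hc, rfl⟩ := h1
    refine ⟨u, hu, c, ?_, rfl⟩
    exact centralizer_le Subgroup.subset_closure hc.2
  · intro Q hQ
    obtain ⟨S', hS'⟩ := hQ.exists_le_sylow
    obtain ⟨g, hg⟩ := MulAction.exists_smul_eq G S S'
    obtain ⟨k, hk, n, hn, rfl⟩ := mem_sup_normal_left.mp (hKU ▸ mem_top g : g ∈ K ⊔ U)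
    have hS'' : (S' : Subgroup G) = cj k (S : Subgroup G) := by
      rw [← hg, Sylow.coe_subgroup_smul, ← cj_eq_smul, cj_mul, cj_eq_of_mem_normalizer hn]
    have hQS : cj k⁻¹ Q ≤ (S : Subgroup G) := by
      rw [cj_le_iff, inv_inv, ← hS'']
      exact hS'
    refine ⟨k⁻¹, ?_, hQS⟩
    rw [mem_centralizer_iff]
    intro r hr
    have h1 : k⁻¹ * r * k⁻¹⁻¹ ∈ (S : Subgroup G) := hQS (conj_mem_cj hr.1)
    have h2 : k⁻¹ * r * k⁻¹⁻¹ * r⁻¹ ∈ K ⊓ (S : Subgroup G) := by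
      refine ⟨?_, (S : Subgroup G).mul_mem h1 ((S : Subgroup G).inv_mem hr.2)⟩
      have h3 : r * k⁻¹⁻¹ * r⁻¹ ∈ K := (inferInstance : K.Normal).conj_mem _ (K.inv_mem (K.inv_mem hk)) r
      have h4 : k⁻¹ * r * k⁻¹⁻¹ * r⁻¹ = k⁻¹ * (r * k⁻¹⁻¹ * r⁻¹) := by group
      rw [h4]; exact K.mul_mem (K.inv_mem hk) h3
    rw [(disjoint_of_coprime_natCard (hcopS _ le_rfl).symm).eq_bot, mem_bot] at h2
    have h5 : k⁻¹ * r = (k⁻¹ * r * k⁻¹⁻¹ * r⁻¹) * (r * k⁻¹) := by group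
    rw [h5, h2, one_mul]

end Cfsg.Agent.S1461
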