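import Cfsg.Statements.S1462
import Cfsg.Agent.S1443
import Cfsg.Agent.Lib.Helper31.PLength
import Cfsg.Agent.Lib.Helper31.ElemAb
import Cfsg.Agent.Lib.Helper30.PiCore

set_option autoImplicit false
open Cfsg

namespace Cfsg.Agent.S1462

open Cfsg.Agent.Lib.Helper30 Cfsg.Agent.Lib.Helper31 Subgroup

/-- Let G be a finite solvable group, p an odd prime with G = O_{p',p,p'}(G), E an elementary abelian p-subgroup contained in no larger elementary abelian p-subgroup of G, and L a subgroup of order coprime to p normalized by E. Then L ≤ O_{p'}(G). -/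
theorem result {G : Type*} [Group G] [Finite G] [Group.IsSolvable G] (p : ℕ) [Fact p.Prime] (hp : p ≠ 2) (hpl : Cfsg.PLengthLE p 1 G) (E L : Subgroup G) (hE : Cfsg.IsElementaryAbelian p E)
    (hEmax : ∀ B : Subgroup G, Cfsg.IsElementaryAbelian p B → E ≤ B → B = E) (hL : (Nat.card L).Coprime p) (hEL : E ≤ Subgroup.normalizer (L : Set G)) :
    L ≤ Cfsg.pPrimeCore p G := by
  obtain ⟨S, hES⟩ := (isPGroup_of_isElementaryAbelian hE).exists_le_sylow
  obtain ⟨_, hKU⟩ := plength_one_structure hpl S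
  set K := Cfsg.pPrimeCore p G with hK
  set U := normalizer ((S : Subgroup G) : Set G) with hU
  have hKp : (Nat.card K).Coprime p := Cfsg.Agent.Lib.Helper14.card_pPrimeCore_coprime
  have hXp : (Nat.card (K ⊔ L : Subgroup G)).Coprime p :=
    Nat.Coprime.coprime_dvd_left (sup_comm K L ▸ card_sup_dvd_mul L K)
      (Nat.Coprime.mul_left hL hKp)
  set L₁ := (K ⊔ L) ⊓ U with hL₁
  have hL₁p : (Nat.card L₁).Coprime p :=
    Nat.Coprime.coprime_dvd_left (card_dvd_of_le inf_le_left) hXp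
  have hKn : ∀ X : Subgroup G, X ≤ normalizer (K : Set G) := fun X => by
    rw [normalizer_eq_top]; exact le_top
  have hEL₁ : E ≤ normalizer (L₁ : Set G) :=
    le_normalizer_inf (le_normalizer_sup (hKn E) hEL) ((hES.trans le_normalizer).trans le_normalizer)
  have hdisj : L₁ ⊓ (S : Subgroup G) = ⊥ := by
    obtain ⟨n, hn⟩ := IsPGroup.iff_card.mp S.isPGroup'
    exact (disjoint_of_coprime_natCard (by rw [hn]; exact Nat.Coprime.pow_right n hL₁p)).eq_bot
  have hcent : ∀ e ∈ E, ∀ l ∈ L₁, l * e = e * l := by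
    intro e he l hl
    have h1 : e * l * e⁻¹ ∈ L₁ := (mem_normalizer_iff.mp (hEL₁ he) l).mp hl
    have h2 : l * e⁻¹ * l⁻¹ ∈ (S : Subgroup G) :=
      (mem_normalizer_iff.mp hl.2 e⁻¹).mp ((S : Subgroup G).inv_mem (hES he))
    have h3 : e * l * e⁻¹ * l⁻¹ ∈ L₁ ⊓ (S : Subgroup G) := by
      refine ⟨L₁.mul_mem h1 (L₁.inv_mem hl), ?_⟩
      have : e * l * e⁻¹ * l⁻¹ = e * (l * e⁻¹ * l⁻¹) := by group
      rw [this]; exact (S : Subgroup G).mul_mem (hES he) h2
    rw [hdisj, mem_bot] at h3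
    have : e * l = (e * l * e⁻¹ * l⁻¹) * (l * e) := by group
    rw [this, h3, one_mul]
  have hCS : L₁ ≤ centralizer ((S : Subgroup G) : Set G) := by
    apply Cfsg.Agent.S1443.result p hp (S : Subgroup G) E L₁ S.isPGroup' hES hE inf_le_right hL₁p
    intro x hx hxp l hl
    have hxE : x ∈ E := mem_of_maximal_elementaryAbelian p E hE hEmax hx.2
      (by rw [← hxp]; exact pow_orderOf_eq_one x)
    exact mem_centralizer_singleton_iff.mpr (hcent x hxE l hl)
  have hL₁K : L₁ ≤ K :=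
    le_pPrimeCore_of_le_centralizer_sylow (isPSolvable_of_isSolvable p G) S L₁ hCS hL₁p
  intro l hl
  obtain ⟨k, hk, n, hn, rfl⟩ := mem_sup_normal_left.mp (hKU ▸ mem_top l : l ∈ K ⊔ U)
  have hn1 : n ∈ L₁ := by
    refine ⟨?_, hn⟩
    have : n = k⁻¹ * (k * n) := by group
    rw [this]
    exact mul_mem (le_sup_left (b := L) (K.inv_mem hk)) (le_sup_right (a := K) hl)
  exact K.mul_mem hk (hL₁K hn1)

end Cfsg.Agent.S1462
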