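import Cfsg.Statements.S1476
import Cfsg.Agent.Lib.Helper31.CNSolv
import Cfsg.Agent.S1474

set_option autoImplicit false
open Cfsg

namespace Cfsg.Agent.S1476

open Cfsg.Agent.Lib.Helper31 Cfsg.Agent.Lib.Helper1

/-- Let G be a finite solvable group in which every non-identity element has nilpotent centralizer. Then either G is nilpotent; or G has a normal subgroup K with a Frobenius complement E (K E = G, K ∩ E = 1, E meets its conjugates by outside elements trivially) such that E is cyclic or E is generated by two elementwise-commuting subgroups, one cyclic of odd order and one isomorphic to a generalized quaternion group; or G is a three-step group with respect to some prime p. -/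
theorem result {G : Type*} [Group G] [Finite G] [Group.IsSolvable G] (hCN : Cfsg.IsCNGroup G) :
    Group.IsNilpotent G ∨
      (∃ K E : Subgroup G, K.Normal ∧ Subgroup.IsComplement' K E ∧ Cfsg.IsFrobeniusComplement E ∧
        (IsCyclic E ∨ ∃ C Q : Subgroup G, C ⊔ Q = E ∧ (∀ a ∈ C, ∀ b ∈ Q, a * b = b * a) ∧ IsCyclic C ∧ Odd (Nat.card C) ∧
          ∃ n : ℕ, Nonempty (↥Q ≃* QuaternionGroup (2 ^ n)))) ∨
      ∃ p : ℕ, p.Prime ∧ Cfsg.IsThreeStepGroup p G := by
  by_cases hnil : Group.IsNilpotent G
  · exact Or.inl hnil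
  right
  by_cases hS : ∃ (p : ℕ) (_ : p.Prime) (P : Sylow p G), (P : Subgroup G) ≠ ⊥ ∧ (P : Subgroup G).Normal
  · left
    obtain ⟨p, hp, P, hP1, hPn⟩ := hS
    have := Fact.mk hp
    obtain ⟨hF1, hF2, ⟨E, hc, hfrob, hfpf⟩, hq⟩ := Cfsg.Agent.S1474.result hCN hnil p P hP1 hPn
    have hEN : E ≤ Subgroup.normalizer (Cfsg.fittingHall G : Set G) := by
      rw [Subgroup.normalizer_eq_top]; exact le_top
    have hEnil : Group.IsNilpotent E :=
      nilpotent_of_fpf_cn hCN E (Cfsg.fittingHall G) hEN hF1 inferInstance hfpf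
    exact ⟨Cfsg.fittingHall G, E, inferInstance, hc, hfrob,
      fpf_nilpotent_structure E (Cfsg.fittingHall G) hEN hF1 hfpf hEnil⟩
  · right
    push Not at hS
    have hFC : Subgroup.centralizer (Cfsg.fittingSubgroup G : Set G) ≤ Cfsg.fittingSubgroup G :=
      Cfsg.Agent.S0044.result
    have hF1 : Cfsg.fittingSubgroup G ≠ ⊥ := by
      intro h
      rw [h] at hFC
      apply hnil
      have h1 : ∀ x : G, x = 1 := by
        intro x
        have : x ∈ Subgroup.centralizer (((⊥ : Subgroup G) : Subgroup G) : Set G) := by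
          rw [Subgroup.mem_centralizer_iff]
          intro y hy
          rw [SetLike.mem_coe, Subgroup.mem_bot] at hy
          rw [hy, one_mul, mul_one]
        exact Subgroup.mem_bot.1 (hFC this)
      have : Subsingleton G := ⟨fun a b => by rw [h1 a, h1 b]⟩
      infer_instance
    have hex : ∃ p : Nat.Primes, Cfsg.pCore (p : ℕ) G ≠ ⊥ := by
      by_contra hcon
      push Not at hcon
      apply hF1
      rw [fitting_eq_iSup_pCore]
      simp [hcon]
    obtain ⟨p, hp1⟩ := hex
    have := Fact.mk p.2
    have hother : ∀ q : Nat.Primes, q ≠ p → Cfsg.pCore (q : ℕ) G = ⊥ := by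
      intro q hq
      by_contra hq1
      have := Fact.mk q.2
      obtain ⟨P⟩ : Nonempty (Sylow (p : ℕ) G) := inferInstance
      have hne : (p : ℕ) ≠ q := fun h => hq (Subtype.ext h.symm)
      have h1 := sylow_normal_of_two_cores hCN hne hp1 hq1 P
      refine hS p p.2 P ?_ h1
      intro h
      have h2 := Cfsg.Agent.Lib.Helper14.pCore_le_sylow P
      rw [h, le_bot_iff] at h2
      exact hp1 h2
    have hFeq : Cfsg.fittingSubgroup G = Cfsg.pCore (p : ℕ) G := by
      rw [fitting_eq_iSup_pCore]
      apply le_antisymm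
      · apply iSup_le
        intro q
        by_cases hq : q = p
        · rw [hq]
        · rw [hother q hq]; exact bot_le
      · exact le_iSup (fun q : Nat.Primes => Cfsg.pCore (q : ℕ) G) p
    rw [hFeq] at hFC
    refine ⟨p, p.2, isThreeStepGroup_of_cn hCN p hp1 hFC ?_⟩
    by_contra hnd
    have h1 := hS p p.2 ((pCore_isPGroup (p : ℕ) G).toSylow hnd)
      (by rw [IsPGroup.toSylow_coe]; exact hp1)
    apply h1
    rw [IsPGroup.toSylow_coe]
    infer_instance

end Cfsg.Agent.S1476
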