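import Cfsg.Statements.S1484
import Cfsg.Agent.Lib.Helper30.CNLocal3

set_option autoImplicit false
open Cfsg

namespace Cfsg.Agent.S1484

open Cfsg.Agent.Lib.Helper30 Subgroup

/-- Let G be a minimal simple group of odd order in which every non-identity element has nilpotent centralizer, and M₁, …, M_k maximal subgroups, pairwise non-conjugate, such that every maximal subgroup is conjugate to some M_i. Let H_i be the largest normal nilpotent Hall subgroup of M_i. Then the orders of the H_i are pairwise coprime, their product is the order of G, and every element of G is conjugate to an element of some H_i. -/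
theorem result {G : Type*} [Group G] [Finite G] (hG : Cfsg.IsMinSimpleOddOrder G) (hCN : Cfsg.IsCNGroup G) (k : ℕ) (Mrep : Fin k → Subgroup G) (hmax : ∀ i, IsCoatom (Mrep i))
    (hnc : ∀ i j, i ≠ j → ∀ g : G, Mrep j ≠ (Mrep i).map (MulAut.conj g).toMonoidHom) (hall : ∀ M : Subgroup G, IsCoatom M → ∃ i, ∃ g : G, M = (Mrep i).map (MulAut.conj g).toMonoidHom) :
    (∀ i j, i ≠ j → (Nat.card (Cfsg.fittingHallOf (Mrep i))).Coprime (Nat.card (Cfsg.fittingHallOf (Mrep j)))) ∧
      ∏ i, Nat.card (Cfsg.fittingHallOf (Mrep i)) = Nat.card G ∧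
      ∀ x : G, ∃ i, ∃ g : G, g * x * g⁻¹ ∈ Cfsg.fittingHallOf (Mrep i) := by
  have hH : ∀ i, MaxNil (Cfsg.fittingHallOf (Mrep i)) := fun i => (coatom_structure hG hCN (hmax i)).1
  have hN : ∀ i, normalizer (Cfsg.fittingHallOf (Mrep i) : Set G) = Mrep i :=
    fun i => coatom_normalizer_eq hG hCN (hmax i)
  have hconj : ∀ L : Subgroup G, MaxNil L → ∃ i, ∃ g : G, L = cj g (Cfsg.fittingHallOf (Mrep i)) := by
    intro L hL
    obtain ⟨i, g, hg⟩ := hall _ (hL.isCoatom_normalizer hG hCN)
    refine ⟨i, g, ?_⟩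
    apply ((hH i).cj g).eq_of_normalizer_eq hG hCN hL
    rw [normalizer_cj, hN i, hg]
  have hcop : ∀ i j, i ≠ j → (Nat.card (Cfsg.fittingHallOf (Mrep i))).Coprime
      (Nat.card (Cfsg.fittingHallOf (Mrep j))) := by
    intro i j hij
    rcases Cfsg.Agent.S1483.conj_or_coprime hCN _ _ (hH i) (hH j) with ⟨g, hg⟩ | h
    · exfalso
      apply hnc i j hij g
      rw [← hN j, hg]
      have := normalizer_cj g (Cfsg.fittingHallOf (Mrep i))
      rw [hN i] at this
      exact this
    · exact h
  refine ⟨hcop, ?_, ?_⟩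
  · apply Nat.dvd_antisymm
    · apply Finset.prod_dvd_of_isRelPrime
      · intro i _ j _ hij
        exact Nat.coprime_iff_isRelPrime.mp (hcop i j hij)
      · intro i _
        exact card_subgroup_dvd_card _
    · rw [Nat.dvd_iff_prime_pow_dvd_dvd]
      intro p k hp hk
      obtain ⟨L, hL, hkL⟩ := exists_maxNil_pow_dvd hp hk
      obtain ⟨i, g, hg⟩ := hconj L hL
      rw [hg, card_cj] at hkL
      exact hkL.trans (Finset.dvd_prod_of_mem _ (Finset.mem_univ i))
  · intro x
    obtain ⟨L, hL, hx⟩ := exists_maxNil_mem hCN x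
    obtain ⟨i, g, hg⟩ := hconj L hL
    rw [hg, mem_cj] at hx
    exact ⟨i, g⁻¹, by rwa [inv_inv]⟩

end Cfsg.Agent.S1484
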