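import Cfsg.Statements.S1485
import Cfsg.Agent.Lib.Helper5.Clifford

set_option autoImplicit false
open Cfsg

namespace Cfsg.Agent.S1485

open Cfsg.Agent.Lib.Helper5

/-- Let H be a normal subgroup of the finite group G and θ an irreducible character of H. On H, the function induced from θ equals r times the sum of the distinct G-conjugates of θ, where r is the number of elements of G fixing θ under conjugation divided by the order of H (the index of H in the inertia group). -/
theorem result {G : Type*} [Group G] [Fintype G] (H : Subgroup G) [hN : H.Normal] (θ : H → ℂ) (hθ : Cfsg.IsIrrCharacter H θ) : (fun h : H => Cfsg.indFun H θ h) = ((Nat.card {g : G // ∀ h : H, θ ⟨g * h * g⁻¹, hN.conj_mem h h.2 g⟩ = θ h} : ℂ) / (Nat.card H : ℂ)) • ∑ᶠ ψ ∈ {ψ : H → ℂ | ∃ g : G, ψ = fun h : H => θ ⟨g * h * g⁻¹, hN.conj_mem h h.2 g⟩}, ψ := by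
  classical
  rw [indFun_restrict_normal hN θ]
  have hset : {ψ : H → ℂ | ∃ g : G, ψ = fun h : H => θ ⟨g * h * g⁻¹, hN.conj_mem h h.2 g⟩}
      = ↑(Finset.univ.image (fun g : G => cjF hN θ g)) := by
    ext ψ
    simp only [Set.mem_setOf_eq, Finset.coe_image, Finset.coe_univ, Set.image_univ, Set.mem_range]
    constructor
    · rintro ⟨g, rfl⟩; exact ⟨g, rfl⟩
    · rintro ⟨g, rfl⟩; exact ⟨g, rfl⟩
  rw [hset, finsum_mem_coe_finset]
  have hsum := Finset.sum_comp (s := (Finset.univ : Finset G)) (fun ψ : H → ℂ => ψ)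
    (fun g : G => cjF hN θ g)
  rw [hsum]
  have hfib : ∀ ψ ∈ Finset.univ.image (fun g : G => cjF hN θ g),
      (Finset.univ.filter (fun a : G => cjF hN θ a = ψ)).card
        = Nat.card {g : G // ∀ h : H, θ ⟨g * h * g⁻¹, hN.conj_mem h h.2 g⟩ = θ h} := by
    intro ψ hψ
    obtain ⟨g, -, rfl⟩ := Finset.mem_image.1 hψ
    rw [Nat.card_eq_fintype_card, Fintype.card_subtype]
    apply Finset.card_bij (fun x _ => x * g⁻¹)
    · intro x hx
      simp only [Finset.mem_filter, Finset.mem_univ, true_and] at hx ⊢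
      intro h
      have h1 : cjF hN θ (x * g⁻¹) = θ := by
        rw [← cjF_cjF, hx, cjF_cjF, mul_inv_cancel, cjF_one]
      exact congrFun h1 h
    · intro x _ y _ hxy
      exact mul_right_cancel hxy
    · intro t ht
      simp only [Finset.mem_filter, Finset.mem_univ, true_and] at ht
      refine ⟨t * g, ?_, by group⟩
      simp only [Finset.mem_filter, Finset.mem_univ, true_and]
      have h1 : cjF hN θ t = θ := funext ht
      rw [← cjF_cjF, h1]
  rw [Finset.sum_congr rfl (fun ψ hψ => by rw [hfib ψ hψ])]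
  rw [← Finset.smul_sum, div_eq_mul_inv, mul_comm, mul_smul]
  congr 1
  rw [Nat.cast_smul_eq_nsmul]

end Cfsg.Agent.S1485
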