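import Cfsg.Statements.S1486
import Cfsg.Agent.Lib.Helper5.Clifford
import Cfsg.Agent.Lib.Helper19.IndFun2

set_option autoImplicit false
open Cfsg

namespace Cfsg.Agent.S1486

open Cfsg.Agent.Lib.Helper5 Cfsg.Agent.Lib.Helper19 Cfsg.Agent.Lib.Helper20

/-- Let H be a normal subgroup of the finite group G and θ, φ irreducible characters of H. If φ is a G-conjugate of θ then the functions induced from θ and φ coincide; if φ is not a G-conjugate of θ then the induced functions are orthogonal. -/
theorem result {G : Type*} [Group G] [Fintype G] (H : Subgroup G) [hN : H.Normal] (θ φ : H → ℂ) (hθ : Cfsg.IsIrrCharacter H θ) (hφ : Cfsg.IsIrrCharacter H φ) : ((∃ g : G, φ = fun h : H => θ ⟨g * h * g⁻¹, hN.conj_mem h h.2 g⟩) → Cfsg.indFun H φ = Cfsg.indFun H θ) ∧ ((¬ ∃ g : G, φ = fun h : H => θ ⟨g * h * g⁻¹, hN.conj_mem h h.2 g⟩) → Cfsg.classInner (Cfsg.indFun H φ) (Cfsg.indFun H θ) = 0) := by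
  classical
  have := Fintype.ofFinite H
  constructor
  · rintro ⟨g, rfl⟩
    funext y
    rw [indFun_apply, indFun_apply]
    congr 1
    refine Fintype.sum_equiv (Equiv.mulRight g⁻¹) _ _ ?_
    intro x
    simp only [Equiv.coe_mulRight]
    by_cases hx : x⁻¹ * y * x ∈ H
    · have hx' : (x * g⁻¹)⁻¹ * y * (x * g⁻¹) ∈ H := by
        have := hN.conj_mem _ hx g
        have e : (x * g⁻¹)⁻¹ * y * (x * g⁻¹) = g * (x⁻¹ * y * x) * g⁻¹ := by group
        rw [e]; exact this
      rw [extendByZero_of_mem H _ hx, extendByZero_of_mem H _ hx']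
      congr 1
      apply Subtype.ext
      simp only
      group
    · have hx' : (x * g⁻¹)⁻¹ * y * (x * g⁻¹) ∉ H := by
        intro h
        apply hx
        have := hN.conj_mem _ h g⁻¹
        have e : g⁻¹ * ((x * g⁻¹)⁻¹ * y * (x * g⁻¹)) * g⁻¹⁻¹ = x⁻¹ * y * x := by group
        rw [e] at this; exact this
      rw [extendByZero_of_not_mem H _ hx, extendByZero_of_not_mem H _ hx']
  · intro hne
    rw [frobenius_reciprocity H φ _ (indFun_isClassFunction H θ), indFun_restrict_normal hN θ,
      classInner_smul_right, classInner_sum_right]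
    rw [Finset.sum_eq_zero, mul_zero]
    intro x _
    apply classInner_irr_ne hφ (isIrrCharacter_cjF hN hθ x)
    intro h
    exact hne ⟨x, h⟩

end Cfsg.Agent.S1486
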