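import Cfsg.Statements.S1487
import Cfsg.Agent.Lib.Helper20.CharBasic
import Cfsg.Agent.Lib.Helper19.IndFun2

set_option autoImplicit false
open Cfsg

namespace Cfsg.Agent.S1487

open Cfsg.Agent.Lib.Helper19 Cfsg.Agent.Lib.Helper20

/-- Let A ≤ H be normal subgroups of the finite group G and θ an irreducible character of H. Then θ takes the value θ 1 on all of A if and only if the function induced from θ to G takes its value at 1 on all of A. -/
theorem result {G : Type*} [Group G] [Fintype G] (A H : Subgroup G) [A.Normal] [H.Normal] (hAH : A ≤ H) (θ : H → ℂ) (hθ : Cfsg.IsIrrCharacter H θ) : (∀ a : H, (a : G) ∈ A → θ a = θ 1) ↔ (∀ a : G, a ∈ A → Cfsg.indFun H θ a = Cfsg.indFun H θ 1) := by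
  classical
  have hA : A.Normal := inferInstance
  have hχ := isCharacter_of_isIrrCharacter hθ
  obtain ⟨n, hn⟩ := isCharacter_apply_one hχ
  have hmem : ∀ (a : G), a ∈ A → ∀ x : G, x⁻¹ * a * x ∈ A := by
    intro a ha x
    have := hA.conj_mem a ha x⁻¹
    rwa [inv_inv] at this
  have hone : ∀ x : G, extendByZero H θ (x⁻¹ * 1 * x) = θ 1 := by
    intro x
    have e : x⁻¹ * 1 * x = ((1 : H) : G) := by simp
    rw [e, extendByZero_coe]
  constructor
  · intro h a ha
    rw [indFun_apply, indFun_apply]
    congr 1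
    apply Finset.sum_congr rfl
    intro x _
    rw [hone x, extendByZero_of_mem H θ (hAH (hmem a ha x))]
    exact h _ (hmem a ha x)
  · intro h a ha
    have h1 := h a ha
    rw [indFun_apply, indFun_apply] at h1
    have hH : (Nat.card H : ℂ)⁻¹ ≠ 0 := inv_ne_zero (card_ne_zero_complex H)
    have h2 := mul_left_cancel₀ hH h1
    simp only [hone] at h2
    have h3 : ∑ x : G, (extendByZero H θ (x⁻¹ * a * x)).re = ∑ x : G, (θ 1).re := by
      have := congrArg Complex.re h2
      simpa using this
    have hle : ∀ x ∈ (Finset.univ : Finset G), (extendByZero H θ (x⁻¹ * a * x)).re ≤ (θ 1).re := by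
      intro x _
      rw [extendByZero_of_mem H θ (hAH (hmem a ha x))]
      exact (Complex.re_le_norm _).trans (isCharacter_norm_le hχ _)
    have h4 := (Finset.sum_eq_sum_iff_of_le hle).1 h3 1 (Finset.mem_univ _)
    have e : (1 : G)⁻¹ * a * 1 = (a : G) := by simp
    rw [e, extendByZero_coe] at h4
    have h5 := isCharacter_norm_le hχ a
    rw [← h4] at h5
    -- norm ≤ re implies im = 0
    have h6 : (θ a).im = 0 := by
      have h7 : ‖θ a‖ ^ 2 = (θ a).re ^ 2 + (θ a).im ^ 2 := by
        rw [Complex.sq_norm, Complex.normSq_apply]; ring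
      have h8 : 0 ≤ ‖θ a‖ := norm_nonneg _
      have h9 : ‖θ a‖ ^ 2 ≤ (θ a).re ^ 2 := by
        apply pow_le_pow_left₀ h8 h5
      have h10 : (θ a).im ^ 2 ≤ 0 := by linarith
      have h11 : (θ a).im ^ 2 = 0 := le_antisymm h10 (sq_nonneg _)
      exact pow_eq_zero_iff (two_ne_zero) |>.1 h11
    apply Complex.ext
    · exact h4
    · rw [h6, hn]; simp

end Cfsg.Agent.S1487
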