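import Cfsg.Statements.S1488
import Cfsg.Agent.Lib.Helper19.IndFun2

set_option autoImplicit false
open Cfsg

namespace Cfsg.Agent.S1488

open Cfsg.Agent.Lib.Helper19

/-- Let A be a normal subgroup of the finite group G contained in the subgroup H, let θ be a function on H and θ₁ a function on the image of H in G ⧸ A whose composite with the projection is θ. Then the function induced from θ₁ to G ⧸ A, composed with the projection G → G ⧸ A, equals the function induced from θ to G. -/
theorem result {G : Type*} [Group G] [Fintype G] (A H : Subgroup G) [A.Normal] (hAH : A ≤ H) [Fintype (G ⧸ A)] [Fintype ↥(H.map (QuotientGroup.mk' A))] (θ : H → ℂ) (θ₁ : ↥(H.map (QuotientGroup.mk' A)) → ℂ) (hθ : ∀ x : H, θ₁ ⟨QuotientGroup.mk' A x, Subgroup.mem_map_of_mem _ x.2⟩ = θ x) (g : G) : Cfsg.indFun (H.map (QuotientGroup.mk' A)) θ₁ (QuotientGroup.mk' A g) = Cfsg.indFun H θ g := by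
  classical
  have hmem : ∀ z : G, (QuotientGroup.mk' A) z ∈ H.map (QuotientGroup.mk' A) ↔ z ∈ H := by
    intro z
    constructor
    · rintro ⟨h, hh, e⟩
      have h1 : h⁻¹ * z ∈ A := (QuotientGroup.eq (s := A)).1 e
      have := H.mul_mem hh (hAH h1)
      simpa using this
    · intro hz; exact Subgroup.mem_map_of_mem _ hz
  have hext : ∀ z : G, extendByZero H θ z = extendByZero (H.map (QuotientGroup.mk' A)) θ₁ ((QuotientGroup.mk' A) z) := by
    intro z
    by_cases hz : z ∈ H
    · rw [extendByZero_of_mem H θ hz, extendByZero_of_mem (H.map (QuotientGroup.mk' A)) θ₁ ((hmem z).2 hz)]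
      exact (hθ ⟨z, hz⟩).symm
    · rw [extendByZero_of_not_mem H θ hz,
        extendByZero_of_not_mem (H.map (QuotientGroup.mk' A)) θ₁ (fun h => hz ((hmem z).1 h))]
  have hfib : ∀ y : G ⧸ A, (Finset.univ.filter (fun x : G => (QuotientGroup.mk' A) x = y)).card = Nat.card A := by
    intro y
    have h1 := QuotientGroup.card_preimage_mk A {y}
    have h0 : Nat.card ({y} : Set (G ⧸ A)) = 1 := by simp
    rw [h0, mul_one] at h1
    rw [← h1, Nat.card_eq_fintype_card, Fintype.card_subtype]
    congr 1
    ext x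
    simp only [Finset.mem_filter, Finset.mem_univ, true_and, Set.mem_preimage,
      Set.mem_singleton_iff]
    rfl
  have hcard : Nat.card H = Nat.card A * Nat.card (H.map (QuotientGroup.mk' A)) := by
    have h1 := QuotientGroup.card_preimage_mk A ((H.map (QuotientGroup.mk' A) : Subgroup (G ⧸ A)) : Set (G ⧸ A))
    have h2 : (QuotientGroup.mk ⁻¹' ((H.map (QuotientGroup.mk' A) : Subgroup (G ⧸ A)) : Set (G ⧸ A))) = (H : Set G) := by
      ext z
      exact hmem z
    rw [h2] at h1
    exact h1
  rw [indFun_apply, indFun_apply]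
  have hsum : ∑ x : G, extendByZero H θ (x⁻¹ * g * x)
      = (Nat.card A : ℂ) * ∑ y : G ⧸ A, extendByZero (H.map (QuotientGroup.mk' A)) θ₁ (y⁻¹ * (QuotientGroup.mk' A) g * y) := by
    rw [← Finset.sum_fiberwise (s := Finset.univ) (g := fun x : G => (QuotientGroup.mk' A) x), Finset.mul_sum]
    apply Finset.sum_congr rfl
    intro y _
    have : ∀ x ∈ Finset.univ.filter (fun x : G => (QuotientGroup.mk' A) x = y),
        extendByZero H θ (x⁻¹ * g * x) = extendByZero (H.map (QuotientGroup.mk' A)) θ₁ (y⁻¹ * (QuotientGroup.mk' A) g * y) := by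
      intro x hx
      simp only [Finset.mem_filter, Finset.mem_univ, true_and] at hx
      rw [hext, map_mul, map_mul, map_inv, hx]
    rw [Finset.sum_congr rfl this, Finset.sum_const, hfib, nsmul_eq_mul]
  rw [hsum, hcard]
  have hA0 : (Nat.card A : ℂ) ≠ 0 := card_ne_zero_complex A
  have hH0 : (Nat.card (H.map (QuotientGroup.mk' A)) : ℂ) ≠ 0 := card_ne_zero_complex _
  push_cast
  field_simp

end Cfsg.Agent.S1488
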