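import Cfsg.Statements.S1491
import Cfsg.Agent.Lib.Helper83.AbInertia

set_option autoImplicit false
open Cfsg

namespace Cfsg.Agent.S1491

/-- Let H be a normal subgroup of the finite group G and θ an irreducible character of H with inertia group T, where T/H is abelian (commutators of T lie in H) and the index of H in T is coprime to the order of H. Then the function induced from θ is the sum of a set of exactly [T:H] irreducible characters of G, each of degree [G:T] * θ(1). -/
theorem result {G : Type*} [Group G] [Fintype G] (H T : Subgroup G) [hN : H.Normal] (θ : H → ℂ) (hθ : Cfsg.IsIrrCharacter H θ) (hT : ∀ g : G, g ∈ T ↔ ∀ h : H, θ ⟨g * h * g⁻¹, hN.conj_mem h h.2 g⟩ = θ h) (hab : ∀ x ∈ T, ∀ y ∈ T, x * y * x⁻¹ * y⁻¹ ∈ H) (hcop : Nat.Coprime (Nat.card H) (H.relIndex T)) : ∃ C : Finset (G → ℂ), (∀ χ ∈ C, Cfsg.IsIrrCharacter G χ) ∧ C.card = H.relIndex T ∧ Cfsg.indFun H θ = ∑ χ ∈ C, χ ∧ ∀ χ ∈ C, χ 1 = (T.index : ℂ) * θ 1 := by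
  obtain ⟨e, C, he, hC, hcard, hind, hdeg, -, hcop1⟩ :=
    Cfsg.Agent.Lib.Helper83.ind_abelian_inertia H T θ hθ hT hab
  have he1 : e = 1 := hcop1 hcop
  subst he1
  have hθcl := Cfsg.Agent.Lib.Helper20.isClassFunction_of_isCharacter
    (Cfsg.Agent.Lib.Helper20.isCharacter_of_isIrrCharacter hθ)
  have hHT : H ≤ T := by
    intro x hx
    rw [hT]
    intro h
    exact hθcl h ⟨x, hx⟩
  refine ⟨C, hC, ?_, ?_, ?_⟩
  · have h1 : H.relIndex T * Nat.card H = Nat.card T := by
      have h2 := Subgroup.index_mul_card (H.subgroupOf T)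
      rw [Nat.card_congr (Subgroup.subgroupOfEquivOfLe hHT).toEquiv] at h2
      exact h2
    rw [← h1] at hcard
    have hpos : 0 < Nat.card H := Nat.card_pos
    simp only [one_pow, one_mul] at hcard
    exact Nat.eq_of_mul_eq_mul_right hpos hcard
  · rw [hind]
    simp
  · intro χ hχ
    rw [hdeg χ hχ]
    simp

end Cfsg.Agent.S1491
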