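import Cfsg.Statements.S1493
-- import your own Cfsg.Agent.* helpers here
import Cfsg.Agent.Lib.Helper79.GaloisChar

set_option autoImplicit false
open Cfsg

namespace Cfsg.Agent.S1493

/-- Let G be a finite group of order a * b with a and b coprime, let k be coprime to a, and let χ be a character of G. Then there is a character χ' of G such that χ'(g) = χ(g ^ k) whenever the order of g divides a and χ'(g) = χ(g) whenever the order of g is coprime to a; moreover χ' is irreducible if χ is. -/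
theorem result {G : Type*} [Group G] [Finite G] (a b k : ℕ) (hab : Nat.card G = a * b) (hcop : Nat.Coprime a b) (hk : Nat.Coprime k a) (χ : G → ℂ) (hχ : Cfsg.IsCharacter G χ) : ∃ χ' : G → ℂ, Cfsg.IsCharacter G χ' ∧ (Cfsg.IsIrrCharacter G χ → Cfsg.IsIrrCharacter G χ') ∧ (∀ g : G, orderOf g ∣ a → χ' g = χ (g ^ k)) ∧ (∀ g : G, Nat.Coprime (orderOf g) a → χ' g = χ g) := by
  obtain ⟨k', hk1, hk2⟩ := Nat.chineseRemainder hcop k 1
  have hc : Nat.Coprime k' (Nat.card G) := by
    rw [hab]
    apply Nat.Coprime.mul_right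
    · unfold Nat.Coprime
      rw [hk1.gcd_eq]; exact hk
    · unfold Nat.Coprime
      rw [hk2.gcd_eq]; simp
  refine ⟨fun g => χ (g ^ k'), Cfsg.Agent.Lib.Helper79.IsCharacter.pow_coprime hχ k' hc,
    fun h => Cfsg.Agent.Lib.Helper79.IsIrrCharacter.pow_coprime h k' hc, ?_, ?_⟩
  · intro g hg
    show χ (g ^ k') = χ (g ^ k)
    rw [pow_eq_pow_iff_modEq.2 (hk1.of_dvd hg)]
  · intro g hg
    show χ (g ^ k') = χ g
    have h1 : orderOf g ∣ a * b := hab ▸ orderOf_dvd_natCard g
    have h2 : orderOf g ∣ b := hg.dvd_of_dvd_mul_left h1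
    rw [pow_eq_pow_iff_modEq.2 (hk2.of_dvd h2), pow_one]

end Cfsg.Agent.S1493
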