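import Cfsg.Statements.S1494
-- import your own Cfsg.Agent.* helpers here
import Cfsg.Agent.Lib.Helper19.LinChar
import Cfsg.Agent.Lib.Helper20.CharOrth

set_option autoImplicit false
open Cfsg

namespace Cfsg.Agent.S1494

open Cfsg.Agent.Lib.Helper20 Cfsg.Agent.Lib.Helper19

theorem irr_one_of_comm {A : Type*} [Group A] (hA : ∀ a b : A, a * b = b * a)
    {χ : A → ℂ} (hχ : Cfsg.IsIrrCharacter A χ) : χ 1 = 1 := by
  obtain ⟨n, ρ, hρ, rfl⟩ := hχ
  have : IsMulCommutative A := ⟨⟨hA⟩⟩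
  rw [Representation.char_one, Representation.IsIrreducible.finrank_eq_one_of_isMulCommutative ρ]
  simp

theorem lin_case {A : Type*} [Group A] [Finite A] (p : ℕ) (hp : p.Prime) (ε : ℂ)
    (hε : IsPrimitiveRoot ε p) (f : A →* ℂˣ) (x y : A) (hx : x ^ p = 1) :
    ∃ ω : ℂ, IsIntegral ℤ ω ∧ ((f (x * y) : ℂˣ) : ℂ) - ((f y : ℂˣ) : ℂ) = (1 - ε) * ω := by
  have h1 : ((f x : ℂˣ) : ℂ) ^ p = 1 := by
    rw [← Units.val_pow_eq_pow_val, ← map_pow, hx, map_one, Units.val_one]
  have : NeZero p := ⟨hp.ne_zero⟩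
  obtain ⟨k, -, hk⟩ := hε.eq_pow_of_pow_eq_one h1
  have hεint : IsIntegral ℤ ε :=
    IsIntegral.of_pow hp.pos (by rw [hε.pow_eq_one]; exact isIntegral_one)
  have hyint : IsIntegral ℤ ((f y : ℂˣ) : ℂ) := by
    apply IsIntegral.of_pow (orderOf_pos y)
    rw [← Units.val_pow_eq_pow_val, ← map_pow, pow_orderOf_eq_one, map_one, Units.val_one]
    exact isIntegral_one
  refine ⟨-(((f y : ℂˣ) : ℂ) * ∑ i ∈ Finset.range k, ε ^ i),
    (hyint.mul (IsIntegral.sum _ (fun i _ => hεint.pow i))).neg, ?_⟩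
  have h2 := mul_neg_geom_sum ε k
  rw [map_mul, Units.val_mul, ← hk]
  linear_combination (((f y : ℂˣ) : ℂ)) * h2

theorem char_case {G : Type*} [Group G] [Finite G] (χ : G → ℂ) (hχ : Cfsg.IsCharacter G χ)
    (p : ℕ) (hp : p.Prime) (ε : ℂ) (hε : IsPrimitiveRoot ε p) (x y : G) (hx : orderOf x = p)
    (hxy : x * y = y * x) : ∃ ω : ℂ, IsIntegral ℤ ω ∧ χ (x * y) - χ y = (1 - ε) * ω := by
  classical
  set A := Subgroup.closure ({x, y} : Set G) with hA
  have hcomm : ∀ a b : A, a * b = b * a := by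
    have hc := Subgroup.isMulCommutative_closure (k := ({x, y} : Set G)) (by
      rintro a (rfl | rfl) b (rfl | rfl)
      · rfl
      · exact hxy
      · exact hxy.symm
      · rfl)
    intro a b
    exact hc.is_comm.comm a b
  have hxA : x ∈ A := Subgroup.subset_closure (by simp)
  have hyA : y ∈ A := Subgroup.subset_closure (by simp)
  obtain ⟨l, hl⟩ := exists_multiset_of_isCharacter (isCharacter_restrict hχ A)
  have key : ∀ l : Multiset (Cfsg.IrrCharacter A), ∃ ω : ℂ, IsIntegral ℤ ω ∧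
      (l.map Subtype.val).sum ((⟨x, hxA⟩ : A) * ⟨y, hyA⟩) - (l.map Subtype.val).sum ⟨y, hyA⟩ =
        (1 - ε) * ω := by
    intro l
    induction l using Multiset.induction_on with
    | empty => exact ⟨0, isIntegral_zero, by simp⟩
    | cons a l ih =>
      obtain ⟨ω, hω, e⟩ := ih
      obtain ⟨f, hf⟩ := exists_hom_of_linear a.1
        ⟨isCharacter_of_isIrrCharacter a.2, irr_one_of_comm hcomm a.2⟩
      obtain ⟨ω', hω', e'⟩ := lin_case p hp ε hε f (⟨x, hxA⟩ : A) ⟨y, hyA⟩ (by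
        apply Subtype.ext
        simp [← hx, pow_orderOf_eq_one])
      refine ⟨ω' + ω, hω'.add hω, ?_⟩
      rw [Multiset.map_cons, Multiset.sum_cons, Pi.add_apply, Pi.add_apply, hf]
      simp only [homFun_apply]
      linear_combination e + e'
  obtain ⟨ω, hω, e⟩ := key l
  refine ⟨ω, hω, ?_⟩
  rw [← hl] at e
  exact e


/-- Let χ be a generalized character of the finite group G, p a prime, x an element of order p and y an element commuting with x. Then χ(x * y) − χ(y) = (1 − ε) * ω for some algebraic integer ω, where ε = exp(2πi/p). -/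
theorem result {G : Type*} [Group G] [Finite G] (χ : G → ℂ) (hχ : Cfsg.IsGeneralizedCharacter G χ) (p : ℕ) (hp : p.Prime) (x y : G) (hx : orderOf x = p) (hxy : x * y = y * x) : ∃ ω : ℂ, IsIntegral ℤ ω ∧ χ (x * y) - χ y = (1 - Complex.exp (2 * Real.pi * Complex.I / p)) * ω := by
  have hε : IsPrimitiveRoot (Complex.exp (2 * Real.pi * Complex.I / p)) p :=
    Complex.isPrimitiveRoot_exp p hp.ne_zero
  obtain ⟨a, b, ha, hb, rfl⟩ := hχ
  obtain ⟨ω₁, h₁, e₁⟩ := char_case a ha p hp _ hε x y hx hxy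
  obtain ⟨ω₂, h₂, e₂⟩ := char_case b hb p hp _ hε x y hx hxy
  refine ⟨ω₁ - ω₂, h₁.sub h₂, ?_⟩
  simp only [Pi.sub_apply]
  linear_combination e₁ - e₂

end Cfsg.Agent.S1494
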