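import Cfsg.Statements.S1495
-- import your own Cfsg.Agent.* helpers here
import Mathlib

set_option autoImplicit false
open Cfsg

namespace Cfsg.Agent.S1495

theorem exists_int_of_isIntegral_rat {q : ℚ} (h : IsIntegral ℤ (q : ℂ)) : ∃ z : ℤ, q = z := by
  have h1 : IsIntegral ℤ q := by
    have : (q : ℂ) = algebraMap ℚ ℂ q := rfl
    rw [this, isIntegral_algebraMap_iff (algebraMap ℚ ℂ).injective] at h
    exact h
  obtain ⟨z, hz⟩ := IsIntegrallyClosed.isIntegral_iff.mp h1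
  exact ⟨z, by simpa using hz.symm⟩

theorem int_dvd_of_integral {a b : ℤ} (hb : b ≠ 0) {W : ℂ} (hW : IsIntegral ℤ W)
    (h : (a : ℂ) = (b : ℂ) * W) : b ∣ a := by
  have hb' : (b : ℂ) ≠ 0 := by exact_mod_cast hb
  have h1 : W = (((a : ℚ) / (b : ℚ) : ℚ) : ℂ) := by
    push_cast
    rw [h]; field_simp
  rw [h1] at hW
  obtain ⟨z, hz⟩ := exists_int_of_isIntegral_rat hW
  have hb'' : (b : ℚ) ≠ 0 := by exact_mod_cast hb
  have h2 : (a : ℚ) = b * z := by
    field_simp at hz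
    rw [hz]
  exact ⟨z, by exact_mod_cast h2⟩

/-- `(1 - ε) ^ m = p * V` with `V` an algebraic integer -/
theorem one_sub_pow_eq (p : ℕ) (hp : p.Prime) (ε : ℂ) (hε : IsPrimitiveRoot ε p) :
    ∃ (m : ℕ) (V : ℂ), IsIntegral ℤ V ∧ (1 - ε) ^ m = (p : ℂ) * V := by
  have : Fact p.Prime := ⟨hp⟩
  have hprod : ∏ μ ∈ primitiveRoots p ℂ, (1 - μ) = (p : ℂ) := by
    have h1 := Polynomial.cyclotomic_eq_prod_X_sub_primitiveRoots hε
    have h2 := congrArg (Polynomial.eval 1) h1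
    rw [Polynomial.eval_one_cyclotomic_prime, Polynomial.eval_prod] at h2
    simp only [Polynomial.eval_sub, Polynomial.eval_X, Polynomial.eval_C] at h2
    exact h2.symm
  have hv : ∀ μ ∈ primitiveRoots p ℂ, ∃ v : ℂ, IsIntegral ℤ v ∧ 1 - ε = (1 - μ) * v := by
    intro μ hμ
    have hμ' := (mem_primitiveRoots hp.pos).1 hμ
    obtain ⟨j, -, hj⟩ := hμ'.eq_pow_of_pow_eq_one hε.pow_eq_one
    have hμint : IsIntegral ℤ μ :=
      IsIntegral.of_pow hp.pos (by rw [hμ'.pow_eq_one]; exact isIntegral_one)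
    refine ⟨∑ i ∈ Finset.range j, μ ^ i, IsIntegral.sum _ (fun i _ => hμint.pow i), ?_⟩
    rw [mul_neg_geom_sum, hj]
  choose! v hvint hveq using hv
  refine ⟨(primitiveRoots p ℂ).card, ∏ μ ∈ primitiveRoots p ℂ, v μ,
    IsIntegral.prod _ (fun μ hμ => hvint μ hμ), ?_⟩
  rw [← hprod, ← Finset.prod_mul_distrib, ← Finset.prod_const]
  exact Finset.prod_congr rfl hveq


/-- Let p be a prime, ε = exp(2πi/p), and n an integer such that n = (1 − ε) * ω for some algebraic integer ω. Then p divides n. -/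
theorem result (p : ℕ) (hp : p.Prime) (n : ℤ) (ω : ℂ) (hω : IsIntegral ℤ ω) (h : (n : ℂ) = (1 - Complex.exp (2 * Real.pi * Complex.I / p)) * ω) : (p : ℤ) ∣ n := by
  have hε : IsPrimitiveRoot (Complex.exp (2 * Real.pi * Complex.I / p)) p :=
    Complex.isPrimitiveRoot_exp p hp.ne_zero
  obtain ⟨m, V, hV, hm⟩ := one_sub_pow_eq p hp _ hε
  have h1 : ((n ^ m : ℤ) : ℂ) = ((p : ℤ) : ℂ) * (V * ω ^ m) := by
    push_cast
    rw [h, mul_pow, hm]; ring
  have h2 : (p : ℤ) ∣ n ^ m :=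
    int_dvd_of_integral (by exact_mod_cast hp.ne_zero) (hV.mul (hω.pow m)) h1
  exact (Nat.prime_iff_prime_int.1 hp).dvd_of_dvd_pow h2

end Cfsg.Agent.S1495
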