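import Cfsg.Statements.S1497
-- import your own Cfsg.Agent.* helpers here

set_option autoImplicit false
open Cfsg

namespace Cfsg.Agent.S1497

/-- Let A be a nonempty subset of the finite group G not containing 1 and L a subgroup. Then A is a TI-subset whose normaliser is L if and only if the Dade hypothesis holds for A, L and the constant choice H(a) = ⊥. -/
theorem result {G : Type*} [Group G] [Finite G] (A : Set G) (hA : A.Nonempty) (h1 : (1 : G) ∉ A) (L : Subgroup G) : (Cfsg.IsTISubset A ∧ Subgroup.normalizer A = L) ↔ Cfsg.DadeHypothesis A L (fun _ => ⊥) := by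
  have key : ∀ (hD : Cfsg.DadeHypothesis A L (fun _ => ⊥)) (g x : G), x ∈ A → g * x * g⁻¹ ∈ A → g ∈ L := by
    intro hD g x hx hgx
    obtain ⟨y, hy, hyx⟩ := hD.fusion x hx g hgx
    have hc : y⁻¹ * g ∈ Subgroup.centralizer ({x} : Set G) := by
      rw [Subgroup.mem_centralizer_singleton_iff]
      have : y⁻¹ * (g * x * g⁻¹) * y = x := by
        rw [← hyx]; group
      calc y⁻¹ * g * x = (y⁻¹ * (g * x * g⁻¹) * y) * (y⁻¹ * g) := by group
        _ = x * (y⁻¹ * g) := by rw [this]
    have hs := hD.sup_eq x hx
    simp only [bot_sup_eq] at hs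
    rw [← hs] at hc
    have := L.mul_mem hy hc.1
    simpa using this
  have hLN : ∀ (hD : Cfsg.DadeHypothesis A L (fun _ => ⊥)), L ≤ Subgroup.normalizer A := by
    intro hD x hx
    rw [Subgroup.mem_set_normalizer_iff]
    intro a
    constructor
    · exact fun ha => hD.conj_mem x hx a ha
    · intro ha
      have := hD.conj_mem x⁻¹ (L.inv_mem hx) _ ha
      simpa [mul_assoc] using this
  constructor
  · rintro ⟨hTI, rfl⟩
    have hmem : ∀ g x : G, x ∈ A → g * x * g⁻¹ ∈ A → g ∈ Subgroup.normalizer A := by
      intro g x hx hgx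
      by_contra hg
      exact h1 (hTI g hg x hx hgx ▸ hx)
    refine ⟨h1, ?_, ?_, ?_, ?_, ?_, ?_, ?_, ?_⟩
    · intro a ha
      exact hmem a a ha (by simpa using ha)
    · intro x hx a ha
      exact (Subgroup.mem_set_normalizer_iff.1 hx a).1 ha
    · intro a ha g hg
      exact ⟨g, hmem g a ha hg, rfl⟩
    · intro a _
      exact bot_le
    · intro a _ c _ u hu
      rw [Subgroup.mem_bot] at hu ⊢
      simp [hu]
    · intro a _
      exact bot_inf_eq _
    · intro a ha
      rw [bot_sup_eq]
      apply inf_eq_right.2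
      intro c hc
      rw [Subgroup.mem_centralizer_singleton_iff] at hc
      apply hmem c a ha
      rw [hc]; simpa using ha
    · intro a _ b _
      simp
  · intro hD
    refine ⟨?_, le_antisymm ?_ (hLN hD)⟩
    · intro g hg x hx hgx
      exact absurd (hLN hD (key hD g x hx hgx)) hg
    · intro g hg
      obtain ⟨a, ha⟩ := hA
      exact key hD g a ha ((Subgroup.mem_set_normalizer_iff.1 hg a).1 ha)

end Cfsg.Agent.S1497
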