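import Cfsg.Statements.S1499
-- import your own Cfsg.Agent.* helpers here

set_option autoImplicit false
open Cfsg

namespace Cfsg.Agent.S1499

theorem pow_trick {G : Type*} [Group G] (a u : G) (m n k : ℕ) (hau : Commute a u)
    (ham : a ^ m = 1) (hun : u ^ n = 1) (hk1 : k ≡ 1 [MOD m]) (hk0 : k ≡ 0 [MOD n]) :
    (a * u) ^ k = a := by
  rw [hau.mul_pow]
  have h1 : a ^ k = a ^ 1 :=
    pow_eq_pow_iff_modEq.2 (hk1.of_dvd (orderOf_dvd_of_pow_eq_one ham))
  have h2 : u ^ k = u ^ 0 :=
    pow_eq_pow_iff_modEq.2 (hk0.of_dvd (orderOf_dvd_of_pow_eq_one hun))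
  rw [h1, h2]; simp

theorem pow_card_sub {G : Type*} [Group G] {K : Subgroup G} {x : G} (hx : x ∈ K) :
    x ^ Nat.card K = 1 := by
  have := pow_card_eq_one' (G := K) (x := ⟨x, hx⟩)
  have h2 := congrArg Subtype.val this
  rwa [Subgroup.coe_pow, Subgroup.coe_one] at h2

theorem key {G : Type*} [Group G] [Finite G] (A : Set G) (L : Subgroup G) (H : G → Subgroup G)
    (hD : Cfsg.DadeHypothesis A L H) (a b : G) (ha : a ∈ A) (hb : b ∈ A) (u v g : G)
    (hu : u ∈ H a) (hv : v ∈ H b) (h : g * (a * u) * g⁻¹ = b * v) : g * a * g⁻¹ = b := by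
  set m := Nat.card ↥(L ⊓ Subgroup.centralizer ({a} : Set G)) *
    Nat.card ↥(L ⊓ Subgroup.centralizer ({b} : Set G)) with hm
  set n := Nat.card (H a) * Nat.card (H b) with hn
  have hcop : Nat.Coprime m n := by
    rw [hm, hn]
    apply Nat.Coprime.mul_left <;> apply Nat.Coprime.mul_right
    · exact (hD.coprime a ha a ha).symm
    · exact (hD.coprime b hb a ha).symm
    · exact (hD.coprime a ha b hb).symm
    · exact (hD.coprime b hb b hb).symm
  obtain ⟨k, hk1, hk0⟩ := Nat.chineseRemainder hcop 1 0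
  have hmem : ∀ c ∈ A, c ∈ L ⊓ Subgroup.centralizer ({c} : Set G) := by
    intro c hc
    exact ⟨hD.subset hc, Subgroup.mem_centralizer_singleton_iff.2 rfl⟩
  have ham : a ^ m = 1 := by
    rw [hm, pow_mul, pow_card_sub (hmem a ha), one_pow]
  have hbm : b ^ m = 1 := by
    rw [hm, mul_comm, pow_mul, pow_card_sub (hmem b hb), one_pow]
  have hun : u ^ n = 1 := by
    rw [hn, pow_mul, pow_card_sub hu, one_pow]
  have hvn : v ^ n = 1 := by
    rw [hn, mul_comm, pow_mul, pow_card_sub hv, one_pow]
  have hau : Commute a u :=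
    (Subgroup.mem_centralizer_singleton_iff.1 (hD.le_centralizer a ha hu)).symm
  have hbv : Commute b v :=
    (Subgroup.mem_centralizer_singleton_iff.1 (hD.le_centralizer b hb hv)).symm
  have e1 := pow_trick a u m n k hau ham hun hk1 hk0
  have e2 := pow_trick b v m n k hbv hbm hvn hk1 hk0
  calc g * a * g⁻¹ = g * (a * u) ^ k * g⁻¹ := by rw [e1]
    _ = (g * (a * u) * g⁻¹) ^ k := (conj_pow).symm
    _ = b := by rw [h, e2]


/-- Under the Dade hypothesis for (A, L, H), let a, b ∈ A. If an element of the coset a·H(a) is conjugate in G to an element of b·H(b), then a and b are conjugate by an element of L. Moreover the set normaliser of the coset a·H(a) is the centraliser of a. -/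
theorem result {G : Type*} [Group G] [Finite G] (A : Set G) (L : Subgroup G) (H : G → Subgroup G) (hD : Cfsg.DadeHypothesis A L H) (a b : G) (ha : a ∈ A) (hb : b ∈ A) : ((∃ u ∈ H a, ∃ v ∈ H b, ∃ g : G, g * (a * u) * g⁻¹ = b * v) → ∃ x ∈ L, x * a * x⁻¹ = b) ∧ Subgroup.normalizer ((fun u : G => a * u) '' (H a : Set G)) = Subgroup.centralizer ({a} : Set G) := by
  constructor
  · rintro ⟨u, hu, v, hv, g, h⟩
    have hg := key A L H hD a b ha hb u v g hu hv h
    obtain ⟨x, hx, hxa⟩ := hD.fusion a ha g (hg ▸ hb)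
    exact ⟨x, hx, hxa.trans hg⟩
  · ext g
    rw [Subgroup.mem_set_normalizer_iff, Subgroup.mem_centralizer_singleton_iff]
    constructor
    · intro hg
      have h1 : a ∈ (fun u : G => a * u) '' (H a : Set G) := ⟨1, (H a).one_mem, by simp⟩
      obtain ⟨v, hv, hv'⟩ := (hg a).1 h1
      have := key A L H hD a a ha ha 1 v g (H a).one_mem hv (by simpa using hv'.symm)
      calc g * a = g * a * g⁻¹ * g := by group
        _ = a * g := by rw [this]
    · intro hg
      have hgc : g ∈ Subgroup.centralizer ({a} : Set G) :=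
        Subgroup.mem_centralizer_singleton_iff.2 hg
      have hg' : g⁻¹ * a = a * g⁻¹ :=
        Subgroup.mem_centralizer_singleton_iff.1 (Subgroup.inv_mem _ hgc)
      intro n
      constructor
      · rintro ⟨u, hu, rfl⟩
        refine ⟨g * u * g⁻¹, hD.conj_mem_H a ha g hgc u hu, ?_⟩
        simp only
        calc a * (g * u * g⁻¹) = (a * g) * u * g⁻¹ := by group
          _ = g * (a * u) * g⁻¹ := by rw [← hg]; group
      · rintro ⟨u, hu, hu'⟩
        refine ⟨g⁻¹ * u * g, ?_, ?_⟩
        · have := hD.conj_mem_H a ha g⁻¹ (Subgroup.inv_mem _ hgc) u hu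
          simpa using this
        · simp only at hu' ⊢
          calc a * (g⁻¹ * u * g) = (a * g⁻¹) * u * g := by group
            _ = g⁻¹ * (a * u) * g := by rw [← hg']; group
            _ = n := by rw [hu']; group

end Cfsg.Agent.S1499
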