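import Cfsg.Statements.S1503
-- import your own Cfsg.Agent.* helpers here
import Cfsg.Agent.Lib.Helper32.CyclicTI
import Cfsg.Agent.Lib.Helper32.CyclicTI2
import Cfsg.Agent.Lib.Helper32.CyclicTI4
import Cfsg.Agent.Lib.Helper32.SignedIrr
import Cfsg.Agent.Lib.Helper20.CharBasic

set_option autoImplicit false
open Cfsg

namespace Cfsg.Agent.S1503

/-- Let W₁, W₂ ≤ G with W = W₁ ⊔ W₂ and let χ an orthonormal family of irreducible characters of G up to sign, indexed by the linear characters ω of W, with χ_1 = 1, χ_ω = ω on W outside W₁ ∪ W₂, and the induction identity for (1 − φ)(1 − ψ). If θ is an irreducible character of G orthogonal to χ ω for every linear character ω of W, then θ vanishes at every element of W lying outside W₁ ∪ W₂. -/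
theorem result {G : Type*} [Group G] [Fintype G] (W₁ W₂ : Subgroup G) (hW : Cfsg.IsSelfNormalizingCyclic W₁ W₂) (χ : (↥(W₁ ⊔ W₂) →* ℂˣ) → (G → ℂ)) (hχ : Cfsg.IsCyclicTIFamily W₁ W₂ χ) (θ : G → ℂ) (hθ : Cfsg.IsIrrCharacter G θ) (horth : ∀ ω, Cfsg.classInner θ (χ ω) = 0) (w : ↥(W₁ ⊔ W₂)) (hw₁ : (w : G) ∉ W₁) (hw₂ : (w : G) ∉ W₂) : θ w = 0 := by
  classical
  obtain ⟨-, -, hdisj, hcomm, hcyc, -⟩ := hW
  have hA : ∀ a b : ↥(W₁ ⊔ W₂), a * b = b * a :=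
    (IsCyclic.commGroup (α := ↥(W₁ ⊔ W₂))).mul_comm
  have hθc : Cfsg.IsClassFunction G θ :=
    Cfsg.Agent.Lib.Helper20.isClassFunction_of_isCharacter (Cfsg.Agent.Lib.Helper83.IsIrr.isChar hθ)
  have hd : W₁.subgroupOf (W₁ ⊔ W₂) ⊓ W₂.subgroupOf (W₁ ⊔ W₂) = ⊥ := by
    rw [Subgroup.eq_bot_iff_forall]
    rintro x ⟨h1, h2⟩
    have : (x : G) ∈ W₁ ⊓ W₂ := ⟨h1, h2⟩
    rw [hdisj, Subgroup.mem_bot] at this
    exact Subtype.ext this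
  have hz : ∀ φ ψ : ↥(W₁ ⊔ W₂) →* ℂˣ, (∀ k ∈ W₂.subgroupOf (W₁ ⊔ W₂), φ k = 1) →
      (∀ k ∈ W₁.subgroupOf (W₁ ⊔ W₂), ψ k = 1) →
      Cfsg.classInner (fun x : ↥(W₁ ⊔ W₂) => 1 - (φ x : ℂ) - (ψ x : ℂ) + (φ x : ℂ) * (ψ x : ℂ))
        (fun h : ↥(W₁ ⊔ W₂) => θ h) = 0 := by
    intro φ ψ hφ hψ
    by_cases h1 : φ = 1
    · subst h1
      have : (fun x : ↥(W₁ ⊔ W₂) => 1 - (((1 : ↥(W₁ ⊔ W₂) →* ℂˣ) x : ℂˣ) : ℂ) - (ψ x : ℂ)
          + (((1 : ↥(W₁ ⊔ W₂) →* ℂˣ) x : ℂˣ) : ℂ) * (ψ x : ℂ)) = 0 := by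
        funext x; simp
      rw [this, Cfsg.Agent.Lib.Helper20.classInner_zero_left]
    by_cases h2 : ψ = 1
    · subst h2
      have : (fun x : ↥(W₁ ⊔ W₂) => 1 - (φ x : ℂ) - (((1 : ↥(W₁ ⊔ W₂) →* ℂˣ) x : ℂˣ) : ℂ)
          + (φ x : ℂ) * (((1 : ↥(W₁ ⊔ W₂) →* ℂˣ) x : ℂˣ) : ℂ)) = 0 := by
        funext x; simp
      rw [this, Cfsg.Agent.Lib.Helper20.classInner_zero_left]
    rw [← Cfsg.Agent.Lib.Helper19.frobenius_reciprocity _ _ _ hθc,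
      hχ.induced_eq φ ψ h1 h2 hφ hψ]
    have he : (fun g => 1 - χ φ g - χ ψ g + χ (φ * ψ) g) = χ 1 - χ φ - χ ψ + χ (φ * ψ) := by
      funext g
      simp [hχ.map_one]
    have hs : ∀ ω, Cfsg.classInner (χ ω) θ = 0 := fun ω =>
      Cfsg.Agent.Lib.Helper32.classInner_eq_zero_symm (horth ω)
    rw [he, Cfsg.Agent.Lib.Helper20.classInner_add_left, Cfsg.Agent.Lib.Helper20.classInner_sub_left,
      Cfsg.Agent.Lib.Helper20.classInner_sub_left, hs, hs, hs, hs]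
    ring
  exact Cfsg.Agent.Lib.Helper32.ann_vanish hA (W₁.subgroupOf (W₁ ⊔ W₂))
    (W₂.subgroupOf (W₁ ⊔ W₂)) hd (w₀ := w) hw₁ hw₂ (fun h : ↥(W₁ ⊔ W₂) => θ h) hz

end Cfsg.Agent.S1503
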