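import Cfsg.Statements.S1504
-- import your own Cfsg.Agent.* helpers here
import Cfsg.Agent.Lib.Helper32.CyclicTI
import Cfsg.Agent.Lib.Helper32.CyclicTI2

set_option autoImplicit false
open Cfsg

namespace Cfsg.Agent.S1504

/-- Let W₁, W₂ be subgroups of a finite group with W₁ ⊓ W₂ = ⊥ whose elements commute, and W = W₁ ⊔ W₂. For linear characters φ, ψ of W with φ trivial on W₂ and ψ trivial on W₁, the function (1 − φ)(1 − ψ) vanishes on W₁ ∪ W₂; and the family of these functions, indexed by pairs (φ, ψ) with φ ≠ 1 ≠ ψ, is linearly independent over ℂ. -/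
theorem result {G : Type*} [Group G] [Finite G] (W₁ W₂ : Subgroup G) (hdisj : W₁ ⊓ W₂ = ⊥) (hcomm : ∀ a ∈ W₁, ∀ b ∈ W₂, a * b = b * a) : (∀ φ ψ : ↥(W₁ ⊔ W₂) →* ℂˣ, (∀ w : ↥(W₁ ⊔ W₂), (w : G) ∈ W₂ → φ w = 1) → (∀ w : ↥(W₁ ⊔ W₂), (w : G) ∈ W₁ → ψ w = 1) → ∀ w : ↥(W₁ ⊔ W₂), ((w : G) ∈ W₁ ∨ (w : G) ∈ W₂) → (1 - (φ w : ℂ) - (ψ w : ℂ) + (φ w : ℂ) * (ψ w : ℂ)) = 0) ∧ LinearIndependent ℂ (fun p : {p : (↥(W₁ ⊔ W₂) →* ℂˣ) × (↥(W₁ ⊔ W₂) →* ℂˣ) // p.1 ≠ 1 ∧ p.2 ≠ 1 ∧ (∀ w : ↥(W₁ ⊔ W₂), (w : G) ∈ W₂ → p.1 w = 1) ∧ (∀ w : ↥(W₁ ⊔ W₂), (w : G) ∈ W₁ → p.2 w = 1)} => fun w : ↥(W₁ ⊔ W₂) => 1 - (p.1.1 w : ℂ) - (p.1.2 w : ℂ) + (p.1.1 w : ℂ) * (p.1.2 w : ℂ)) := by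
  classical
  haveI : Fintype ↥(W₁ ⊔ W₂) := Fintype.ofFinite _
  refine ⟨fun φ ψ hφ hψ w hw => Cfsg.Agent.Lib.Helper32.cti_alpha_zero φ ψ hφ hψ w hw, ?_⟩
  rw [linearIndependent_iff']
  intro s c hs p hp
  have h := congrArg (fun f => Cfsg.classInner f
    (fun w => (((p.1.1 * p.1.2) w : ℂˣ) : ℂ))) hs
  simp only [Cfsg.Agent.Lib.Helper20.classInner_sum_left,
    Cfsg.Agent.Lib.Helper20.classInner_smul_left,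
    Cfsg.Agent.Lib.Helper20.classInner_zero_left] at h
  rw [Finset.sum_eq_single p] at h
  · rw [Cfsg.Agent.Lib.Helper32.cti_alpha_inner_mul hcomm p.2.1 p.2.2.1 p.2.2.2.1 p.2.2.2.2
      p.2.2.2.1 p.2.2.2.2, if_pos ⟨rfl, rfl⟩, mul_one] at h
    exact h
  · intro q _ hq
    rw [Cfsg.Agent.Lib.Helper32.cti_alpha_inner_mul hcomm p.2.1 p.2.2.1 q.2.2.2.1 q.2.2.2.2
      p.2.2.2.1 p.2.2.2.2, if_neg, mul_zero]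
    rintro ⟨a, b⟩
    exact hq (Subtype.ext (Prod.ext a b))
  · intro h'
    exact absurd hp h'

end Cfsg.Agent.S1504
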