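import Cfsg.Statements.S1507
-- import your own Cfsg.Agent.* helpers here
import Cfsg.Agent.Lib.Helper32.CyclicTI
import Cfsg.Agent.Lib.Helper32.CyclicTI2
import Cfsg.Agent.Lib.Helper32.CyclicTI4
import Cfsg.Agent.Lib.Helper32.CyclicTI5

set_option autoImplicit false
open Cfsg

namespace Cfsg.Agent.S1507

open Classical in
/-- Let W₁, W₂ ≤ G form a self-normalising cyclic subgroup W = W₁ ⊔ W₂ of odd order with Nat.card W₁ < Nat.card W₂, and χ an orthonormal family of irreducible characters of G up to sign, indexed by the linear characters ω of W, with χ_1 = 1, χ_ω = ω on W outside W₁ ∪ W₂, and the induction identity for (1 − φ)(1 − ψ). Let θ be a class function of G vanishing on W outside W₁ ∪ W₂, and suppose fewer than 2 · Nat.card W₁ linear characters ω of W have ⟨θ, χ ω⟩ ≠ 0. Then one of: all ⟨θ, χ ω⟩ vanish; or there are ψ₀ and a with ⟨θ, χ ω⟩ = a when ω ψ₀⁻¹ is trivial on W₂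 and 0 otherwise; or there are φ₀ and a with ⟨θ, χ ω⟩ = a when ω φ₀⁻¹ is trivial on W₁ and 0 otherwise. -/
theorem result {G : Type*} [Group G] [Fintype G] (W₁ W₂ : Subgroup G) (hW : Cfsg.IsSelfNormalizingCyclic W₁ W₂) (hodd : Odd (Nat.card ↥(W₁ ⊔ W₂))) (χ : (↥(W₁ ⊔ W₂) →* ℂˣ) → (G → ℂ)) (hχ : Cfsg.IsCyclicTIFamily W₁ W₂ χ) (hlt : Nat.card W₁ < Nat.card W₂) (θ : G → ℂ) (hθ : Cfsg.IsClassFunction G θ) (hθV : ∀ w : ↥(W₁ ⊔ W₂), (w : G) ∉ W₁ → (w : G) ∉ W₂ → θ w = 0) (hfew : Nat.card {ω : ↥(W₁ ⊔ W₂) →* ℂˣ // Cfsg.classInner θ (χ ω) ≠ 0} < 2 * Nat.card W₁) : (∀ ω, Cfsg.classInner θ (χ ω) = 0) ∨ (∃ (ψ₀ : ↥(W₁ ⊔ W₂) →* ℂˣ) (a : ℂ), ∀ ω, Cfsg.classInner θ (χ ω) = if (∀ w : ↥(W₁ ⊔ W₂), (w : G) ∈ W₂ → (ω * ψ₀⁻¹) w = 1) then a else 0) ∨ (∃ (φ₀ : ↥(W₁ ⊔ W₂) →* ℂˣ) (a : ℂ), ∀ ω, Cfsg.classInner θ (χ ω) = if (∀ w : ↥(W₁ ⊔ W₂), (w : G) ∈ W₁ → (ω * φ₀⁻¹) w = 1) then a else 0) := by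
  obtain ⟨-, -, hdisj, hcomm, hcyc, -⟩ := hW
  have hA : ∀ a b : ↥(W₁ ⊔ W₂), a * b = b * a :=
    (IsCyclic.commGroup (α := ↥(W₁ ⊔ W₂))).mul_comm
  have hA1 : ∀ a b : W₁, a * b = b * a := by
    intro a b
    have := hA (Subgroup.inclusion le_sup_left a) (Subgroup.inclusion le_sup_left b)
    ext
    exact congrArg (fun x : ↥(W₁ ⊔ W₂) => (x : G)) this
  have hA2 : ∀ a b : W₂, a * b = b * a := by
    intro a b
    have := hA (Subgroup.inclusion le_sup_right a) (Subgroup.inclusion le_sup_right b)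
    ext
    exact congrArg (fun x : ↥(W₁ ⊔ W₂) => (x : G)) this
  haveI : Fintype (W₁ →* ℂˣ) := Fintype.ofFinite _
  haveI : Fintype (W₂ →* ℂˣ) := Fintype.ofFinite _
  have c1 : Fintype.card (W₁ →* ℂˣ) = Nat.card W₁ := by
    rw [← Nat.card_eq_fintype_card]; exact Cfsg.Agent.Lib.Helper32.card_hom_units_of_comm hA1
  have c2 : Fintype.card (W₂ →* ℂˣ) = Nat.card W₂ := by
    rw [← Nat.card_eq_fintype_card]; exact Cfsg.Agent.Lib.Helper32.card_hom_units_of_comm hA2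
  rw [Cfsg.Agent.Lib.Helper32.cti_card hdisj hcomm, Nat.odd_mul] at hodd
  have hIJ : Fintype.card (W₁ →* ℂˣ) + 2 ≤ Fintype.card (W₂ →* ℂˣ) := by
    rw [c1, c2]
    obtain ⟨⟨k, hk⟩, ⟨l, hl⟩⟩ := hodd
    omega
  have hadd : ∀ p : (W₁ →* ℂˣ) × (W₂ →* ℂˣ),
      Cfsg.classInner θ (χ (Cfsg.Agent.Lib.Helper32.ctiB hdisj hcomm p)) =
      (Cfsg.classInner θ (χ (p.1.comp (Cfsg.Agent.Lib.Helper32.ctiP1 hdisj hcomm)))
        - Cfsg.classInner θ (χ 1))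
      + Cfsg.classInner θ (χ (p.2.comp (Cfsg.Agent.Lib.Helper32.ctiP2 hdisj hcomm))) := by
    intro p
    have := Cfsg.Agent.Lib.Helper32.cti_additive χ hχ θ hθ hθV
      (p.1.comp (Cfsg.Agent.Lib.Helper32.ctiP1 hdisj hcomm))
      (p.2.comp (Cfsg.Agent.Lib.Helper32.ctiP2 hdisj hcomm))
      (Cfsg.Agent.Lib.Helper32.cti_comp_P1_trivial hdisj hcomm p.1)
      (Cfsg.Agent.Lib.Helper32.cti_comp_P2_trivial hdisj hcomm p.2)
    rw [Cfsg.Agent.Lib.Helper32.ctiB_apply]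
    linear_combination this
  have hN : Nat.card {p : (W₁ →* ℂˣ) × (W₂ →* ℂˣ) //
      (Cfsg.classInner θ (χ (p.1.comp (Cfsg.Agent.Lib.Helper32.ctiP1 hdisj hcomm)))
        - Cfsg.classInner θ (χ 1))
      + Cfsg.classInner θ (χ (p.2.comp (Cfsg.Agent.Lib.Helper32.ctiP2 hdisj hcomm))) ≠ 0} =
      Nat.card {ω : ↥(W₁ ⊔ W₂) →* ℂˣ // Cfsg.classInner θ (χ ω) ≠ 0} :=
    Nat.card_congr (Equiv.subtypeEquiv (Cfsg.Agent.Lib.Helper32.ctiB hdisj hcomm)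
      (fun p => by rw [hadd]))
  have hg := Cfsg.Agent.Lib.Helper32.grid_trichotomy
    (fun l : W₁ →* ℂˣ => Cfsg.classInner θ (χ (l.comp (Cfsg.Agent.Lib.Helper32.ctiP1 hdisj hcomm)))
        - Cfsg.classInner θ (χ 1))
    (fun l : W₂ →* ℂˣ => Cfsg.classInner θ (χ (l.comp (Cfsg.Agent.Lib.Helper32.ctiP2 hdisj hcomm))))
    hIJ (by rw [c1]; exact hN ▸ hfew)
  rcases hg with h | ⟨j₀, a₀, h⟩ | ⟨i₀, a₀, h⟩
  · left
    intro ω
    obtain ⟨p, rfl⟩ := (Cfsg.Agent.Lib.Helper32.ctiB hdisj hcomm).surjective ω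
    rw [hadd]
    exact h _ _
  · right; left
    refine ⟨j₀.comp (Cfsg.Agent.Lib.Helper32.ctiP2 hdisj hcomm), a₀, ?_⟩
    intro ω
    obtain ⟨p, rfl⟩ := (Cfsg.Agent.Lib.Helper32.ctiB hdisj hcomm).surjective ω
    rw [hadd]
    refine (h p.1 p.2).trans ?_
    apply if_congr _ rfl rfl
    constructor
    · intro e w hw
      rw [Cfsg.Agent.Lib.Helper32.ctiB_apply, e, MonoidHom.mul_apply, MonoidHom.mul_apply,
        Cfsg.Agent.Lib.Helper32.cti_comp_P1_trivial hdisj hcomm p.1 w hw, MonoidHom.inv_apply]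
      simp
    · intro e
      ext b
      have h1 := e (Subgroup.inclusion le_sup_right b) b.2
      rw [Cfsg.Agent.Lib.Helper32.ctiB_apply, MonoidHom.mul_apply, MonoidHom.mul_apply,
        Cfsg.Agent.Lib.Helper32.cti_comp_P1_trivial hdisj hcomm p.1 _ b.2, MonoidHom.inv_apply,
        MonoidHom.comp_apply, MonoidHom.comp_apply,
        (Cfsg.Agent.Lib.Helper32.ctiP_of_right hdisj hcomm _ b.2).2, one_mul,
        mul_inv_eq_one] at h1
      exact congrArg Units.val h1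
  · right; right
    refine ⟨i₀.comp (Cfsg.Agent.Lib.Helper32.ctiP1 hdisj hcomm), a₀, ?_⟩
    intro ω
    obtain ⟨p, rfl⟩ := (Cfsg.Agent.Lib.Helper32.ctiB hdisj hcomm).surjective ω
    rw [hadd]
    refine (h p.1 p.2).trans ?_
    apply if_congr _ rfl rfl
    constructor
    · intro e w hw
      rw [Cfsg.Agent.Lib.Helper32.ctiB_apply, e, MonoidHom.mul_apply, MonoidHom.mul_apply,
        Cfsg.Agent.Lib.Helper32.cti_comp_P2_trivial hdisj hcomm p.2 w hw, MonoidHom.inv_apply]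
      simp
    · intro e
      ext b
      have h1 := e (Subgroup.inclusion le_sup_left b) b.2
      rw [Cfsg.Agent.Lib.Helper32.ctiB_apply, MonoidHom.mul_apply, MonoidHom.mul_apply,
        Cfsg.Agent.Lib.Helper32.cti_comp_P2_trivial hdisj hcomm p.2 _ b.2, MonoidHom.inv_apply,
        MonoidHom.comp_apply, MonoidHom.comp_apply,
        (Cfsg.Agent.Lib.Helper32.ctiP_of_left hdisj hcomm _ b.2).1, mul_one,
        mul_inv_eq_one] at h1
      exact congrArg Units.val h1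

end Cfsg.Agent.S1507
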