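import Cfsg.Statements.S1508
-- import your own Cfsg.Agent.* helpers here
import Cfsg.Agent.Lib.Helper32.CyclicTI6
import Cfsg.Agent.Lib.Helper79.GaloisRat
import Cfsg.Agent.Lib.Helper4.CharIntegral

set_option autoImplicit false
open Cfsg

namespace Cfsg.Agent.S1508

theorem int_of_char {G : Type*} [Group G] [Finite G] {η : G → ℂ} (hη : Cfsg.IsCharacter G η)
    (g : G) (h : ∀ j : ℕ, j.Coprime (orderOf g) → η (g ^ j) = η g) : ∃ n : ℤ, η g = n := by
  haveI : NeZero (orderOf g) := ⟨(orderOf_pos g).ne'⟩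
  obtain ⟨q, hq⟩ := Cfsg.Agent.Lib.Helper79.IsCharacter.exists_rat_of_pow_eq hη (orderOf g) g
    (pow_orderOf_eq_one g) h
  have hi := Cfsg.Agent.Lib.Helper20.isCharacter_isIntegral hη g
  rw [hq] at hi
  obtain ⟨z, hz⟩ := Cfsg.Agent.Lib.Helper4.exists_int_of_isIntegral_rat hi
  exact ⟨z, by rw [hq, hz]; simp⟩

theorem pow_eq_self_of_modEq {M : Type*} [Monoid M] (x : M) (k : ℕ)
    (h : k ≡ 1 [MOD orderOf x]) : x ^ k = x := by
  rw [← pow_mod_orderOf, h, pow_mod_orderOf, pow_one]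


/-- Let W₁, W₂ ≤ G form a self-normalising cyclic subgroup W = W₁ ⊔ W₂ of odd order and χ an orthonormal family of irreducible characters of G up to sign, indexed by the linear characters ω of W, with χ_1 = 1, χ_ω = ω on W outside W₁ ∪ W₂, and the induction identity for (1 − φ)(1 − ψ). Let ω be a linear character of W and g an element of G whose order is coprime to the order of ω. Then χ ω g is an integer. -/
theorem result {G : Type*} [Group G] [Fintype G] (W₁ W₂ : Subgroup G) (hW : Cfsg.IsSelfNormalizingCyclic W₁ W₂) (hodd : Odd (Nat.card ↥(W₁ ⊔ W₂))) (χ : (↥(W₁ ⊔ W₂) →* ℂˣ) → (G → ℂ)) (hχ : Cfsg.IsCyclicTIFamily W₁ W₂ χ) (ω : ↥(W₁ ⊔ W₂) →* ℂˣ) (g : G) (hg : Nat.Coprime (orderOf g) (orderOf ω)) : ∃ n : ℤ, χ ω g = n := by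
  have hpow : ∀ j : ℕ, j.Coprime (orderOf g) → χ ω (g ^ j) = χ ω g := by
    intro j hj
    obtain ⟨k₀, hk1, hk2⟩ := Nat.chineseRemainder hg j 1
    have hc0 : k₀.Coprime (orderOf g * orderOf ω) := by
      apply Nat.Coprime.mul_right
      · unfold Nat.Coprime
        rw [hk1.gcd_eq]; exact hj
      · unfold Nat.Coprime
        rw [hk2.gcd_eq]; simp
    have hω : orderOf ω ∣ Nat.card G := by
      have h1 : orderOf ω ∣ Nat.card ↥(W₁ ⊔ W₂) := by
        apply orderOf_dvd_of_pow_eq_one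
        ext w
        rw [MonoidHom.pow_apply, ← map_pow, pow_card_eq_one', map_one]
        rfl
      exact h1.trans (Subgroup.card_subgroup_dvd_card _)
    have hdvd : orderOf g * orderOf ω ∣ Nat.card G :=
      hg.mul_dvd_of_dvd_of_dvd (orderOf_dvd_natCard g) hω
    obtain ⟨k, hkc, hkm⟩ := Cfsg.Agent.Lib.Helper32.exists_coprime_lift Nat.card_pos.ne' hdvd hc0
    have e1 : k ≡ j [MOD orderOf g] := (hkm.of_dvd (Dvd.intro _ rfl)).trans hk1
    have e2 : k ≡ 1 [MOD orderOf ω] := (hkm.of_dvd (Dvd.intro_left _ rfl)).trans hk2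
    have h3 := congrFun (Cfsg.Agent.Lib.Helper32.cti_pow hW hodd χ hχ k hkc ω) g
    beta_reduce at h3
    have eg : g ^ k = g ^ j := pow_eq_pow_iff_modEq.2 e1
    have eω : ω ^ k = ω := pow_eq_self_of_modEq ω k e2
    rw [eg, eω] at h3
    exact h3
  rcases hχ.irr_or_neg ω with h | h
  · exact int_of_char (Cfsg.Agent.Lib.Helper83.IsIrr.isChar h) g hpow
  · obtain ⟨n, hn⟩ := int_of_char (Cfsg.Agent.Lib.Helper83.IsIrr.isChar h) g (by
      intro j hj
      simp only [Pi.neg_apply, hpow j hj])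
    refine ⟨-n, ?_⟩
    simp only [Pi.neg_apply] at hn
    rw [Int.cast_neg, ← hn, neg_neg]

end Cfsg.Agent.S1508
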