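import Cfsg.Statements.S1510
-- import your own Cfsg.Agent.* helpers here
import Cfsg.Agent.Lib.Helper12.Card

set_option autoImplicit false
open Cfsg

namespace Cfsg.Agent.S1510

/-- Let L be a finite group with a normal subgroup K and a nontrivial cyclic subgroup W₁ of order coprime to its index, K ⊓ W₁ = ⊥ and K ⊔ W₁ = ⊤; let W₂ ≠ ⊥ be a cyclic subgroup of K with K ⊓ C_L(x) = W₂ for every non-identity x ∈ W₁, and suppose W₁ ⊔ W₂ has odd order. Then (W₁, W₂) is a self-normalising cyclic pair in L. -/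
theorem result {L : Type*} [Group L] [Fintype L] (K W₁ W₂ : Subgroup L) [hK : K.Normal] (hKW₁ : K ⊓ W₁ = ⊥) (hKW₁' : K ⊔ W₁ = ⊤) (hW₁ : W₁ ≠ ⊥) (hW₁c : IsCyclic W₁) (hHall : Nat.Coprime (Nat.card W₁) W₁.index) (hW₂ : W₂ ≠ ⊥) (hW₂c : IsCyclic W₂) (hW₂K : W₂ ≤ K) (hC : ∀ x ∈ W₁, x ≠ 1 → K ⊓ Subgroup.centralizer ({x} : Set L) = W₂) (hodd : Odd (Nat.card ↥(W₁ ⊔ W₂))) : Cfsg.IsSelfNormalizingCyclic W₁ W₂ := by
  classical
  have hdisj : W₁ ⊓ W₂ = ⊥ := by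
    rw [eq_bot_iff, ← hKW₁]
    exact le_inf (inf_le_right.trans hW₂K) inf_le_left
  have hcomm : ∀ a ∈ W₁, ∀ b ∈ W₂, a * b = b * a := by
    intro a ha b hb
    by_cases ha1 : a = 1
    · simp [ha1]
    · have h1 : b ∈ K ⊓ Subgroup.centralizer ({a} : Set L) := by rw [hC a ha ha1]; exact hb
      exact (Subgroup.mem_centralizer_singleton_iff.mp h1.2).symm
  have hcardK : Nat.card ↥K = W₁.index := by
    have h1 := Cfsg.Agent.Lib.Helper12.card_sup_mul_card_inf' W₁ K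
      (by rw [Subgroup.normalizer_eq_top]; exact le_top)
    rw [sup_comm, hKW₁', inf_comm, hKW₁, Subgroup.card_bot, mul_one, Subgroup.card_top] at h1
    have h2 := Subgroup.card_mul_index W₁
    rw [h1] at h2
    exact (Nat.eq_of_mul_eq_mul_left Nat.card_pos h2).symm
  have hcop : (Nat.card ↥W₁).Coprime (Nat.card ↥W₂) :=
    Nat.Coprime.coprime_dvd_right (hcardK ▸ Subgroup.card_dvd_of_le hW₂K) hHall
  obtain ⟨m, hm1, hm2⟩ := Nat.chineseRemainder hcop 1 0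
  obtain ⟨m', hm1', hm2'⟩ := Nat.chineseRemainder hcop 0 1
  have hpow : ∀ a ∈ W₁, ∀ b ∈ W₂, (a * b) ^ m = a := by
    intro a ha b hb
    rw [(show Commute a b from hcomm a ha b hb).mul_pow]
    have h1 : a ^ m = a ^ 1 :=
      pow_eq_pow_iff_modEq.mpr (hm1.of_dvd (Subgroup.orderOf_dvd_natCard W₁ ha))
    have h2 : b ^ m = b ^ 0 :=
      pow_eq_pow_iff_modEq.mpr (hm2.of_dvd (Subgroup.orderOf_dvd_natCard W₂ hb))
    rw [h1, h2]; simp
  have hpow' : ∀ a ∈ W₁, ∀ b ∈ W₂, (a * b) ^ m' = b := by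
    intro a ha b hb
    rw [(show Commute a b from hcomm a ha b hb).mul_pow]
    have h1 : a ^ m' = a ^ 0 :=
      pow_eq_pow_iff_modEq.mpr (hm1'.of_dvd (Subgroup.orderOf_dvd_natCard W₁ ha))
    have h2 : b ^ m' = b ^ 1 :=
      pow_eq_pow_iff_modEq.mpr (hm2'.of_dvd (Subgroup.orderOf_dvd_natCard W₂ hb))
    rw [h1, h2]; simp
  have hW₁N : W₁ ≤ Subgroup.normalizer (W₂ : Set L) := by
    refine le_trans ?_ (Subgroup.centralizer_le_normalizer _)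
    intro a ha
    rw [Subgroup.mem_centralizer_iff]
    intro b hb
    exact (hcomm a ha b hb).symm
  have hmem : ∀ x ∈ W₁ ⊔ W₂, ∃ a ∈ W₁, ∃ b ∈ W₂, x = a * b := by
    intro x hx
    have h1 : x ∈ ((W₁ ⊔ W₂ : Subgroup L) : Set L) := hx
    rw [Subgroup.coe_mul_of_left_le_normalizer_right W₁ W₂ hW₁N] at h1
    obtain ⟨a, ha, b, hb, rfl⟩ := Set.mem_mul.mp h1
    exact ⟨a, ha, b, hb, rfl⟩
  obtain ⟨⟨g₁, hg₁W⟩, hg₁⟩ := hW₁c.exists_generator
  obtain ⟨⟨g₂, hg₂W⟩, hg₂⟩ := hW₂c.exists_generator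
  have hz₁ : W₁ ≤ Subgroup.zpowers g₁ := by
    intro y hy
    obtain ⟨i, hi⟩ := Subgroup.mem_zpowers_iff.mp (hg₁ ⟨y, hy⟩)
    exact Subgroup.mem_zpowers_iff.mpr ⟨i, by simpa using congrArg Subtype.val hi⟩
  have hz₂ : W₂ ≤ Subgroup.zpowers g₂ := by
    intro y hy
    obtain ⟨i, hi⟩ := Subgroup.mem_zpowers_iff.mp (hg₂ ⟨y, hy⟩)
    exact Subgroup.mem_zpowers_iff.mpr ⟨i, by simpa using congrArg Subtype.val hi⟩
  have hWz : W₁ ⊔ W₂ = Subgroup.zpowers (g₁ * g₂) := by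
    apply le_antisymm
    · apply sup_le
      · refine hz₁.trans (Subgroup.zpowers_le.mpr ?_)
        have := Subgroup.pow_mem _ (Subgroup.mem_zpowers (g₁ * g₂)) m
        rwa [hpow g₁ hg₁W g₂ hg₂W] at this
      · refine hz₂.trans (Subgroup.zpowers_le.mpr ?_)
        have := Subgroup.pow_mem _ (Subgroup.mem_zpowers (g₁ * g₂)) m'
        rwa [hpow' g₁ hg₁W g₂ hg₂W] at this
    · rw [Subgroup.zpowers_le]
      exact Subgroup.mul_mem _ (Subgroup.mem_sup_left hg₁W) (Subgroup.mem_sup_right hg₂W)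
  have hWcomm : ∀ x ∈ W₁ ⊔ W₂, ∀ y ∈ W₁ ⊔ W₂, x * y = y * x := by
    intro x hx y hy
    rw [hWz] at hx hy
    obtain ⟨i, rfl⟩ := Subgroup.mem_zpowers_iff.mp hx
    obtain ⟨j, rfl⟩ := Subgroup.mem_zpowers_iff.mp hy
    exact (((Commute.refl (g₁ * g₂)).zpow_left i).zpow_right j).eq
  have hWN : ∀ X : Set L, X ⊆ (↑(W₁ ⊔ W₂) : Set L) \ (↑W₁ ∪ ↑W₂) → W₁ ⊔ W₂ ≤ Subgroup.normalizer X := by
    intro X hX
    rw [Subgroup.le_set_normalizer_iff]
    intro w hw x hx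
    rw [hWcomm w hw x (hX hx).1, mul_inv_cancel_right]
    exact hx
  refine ⟨hW₁, hW₂, hdisj, hcomm, ?_, ?_⟩
  · rw [hWz]; infer_instance
  · intro X hX hXne
    apply le_antisymm _ (hWN X hX)
    intro g hg
    have hgtop : g ∈ K ⊔ W₁ := hKW₁' ▸ Subgroup.mem_top g
    obtain ⟨k, hk, w, hw, rfl⟩ := Subgroup.mem_sup_of_normal_left.mp hgtop
    have hkN : k ∈ Subgroup.normalizer X := by
      have h1 := Subgroup.mul_mem _ hg (Subgroup.inv_mem _ (hWN X hX (Subgroup.mem_sup_left hw)))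
      rwa [mul_inv_cancel_right] at h1
    obtain ⟨x, hx⟩ := hXne
    obtain ⟨a, ha, b, hb, rfl⟩ := hmem x (hX hx).1
    have hx' : k * (a * b) * k⁻¹ ∈ X := (Subgroup.mem_set_normalizer_iff.mp hkN _).mp hx
    obtain ⟨a', ha', b', hb', he⟩ := hmem _ (hX hx').1
    have h1 : k * a * k⁻¹ = a' := by
      rw [← hpow a ha b hb, ← conj_pow, he, hpow a' ha' b' hb']
    have h2 : k * a * k⁻¹ * a⁻¹ ∈ K ⊓ W₁ := by
      refine Subgroup.mem_inf.mpr ⟨?_, ?_⟩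
      · have : k * a * k⁻¹ * a⁻¹ = k * (a * k⁻¹ * a⁻¹) := by group
        rw [this]
        exact K.mul_mem hk (hK.conj_mem _ (K.inv_mem hk) a)
      · rw [h1]; exact W₁.mul_mem ha' (W₁.inv_mem ha)
    rw [hKW₁, Subgroup.mem_bot, mul_inv_eq_one, mul_inv_eq_iff_eq_mul] at h2
    have ha1 : a ≠ 1 := by
      rintro rfl
      apply (hX hx).2
      right
      simpa using hb
    have hkW₂ : k ∈ W₂ := by
      rw [← hC a ha ha1]
      exact Subgroup.mem_inf.mpr ⟨hk, Subgroup.mem_centralizer_singleton_iff.mpr h2⟩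
    exact Subgroup.mul_mem _ (Subgroup.mem_sup_right hkW₂) (Subgroup.mem_sup_left hw)

end Cfsg.Agent.S1510
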