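import Cfsg.Statements.S1511
import Cfsg.Agent.Lib.Helper31.TypeP2

set_option autoImplicit false
open Cfsg

namespace Cfsg.Agent.S1511

open Cfsg.Agent.Lib.Helper20 Cfsg.Agent.Lib.Helper31 Cfsg.Agent.Lib.Helper32 in
/-- Let L be a finite group with K normal with complement W₁ ≠ 1 a cyclic Hall subgroup, and W₂ ≠ 1 a cyclic subgroup of K equal to C_K(x) for every non-identity x ∈ W₁, with W₁W₂ of odd order. Then there are a map μ from the linear characters of W = W₁ ⊔ W₂ to irreducible characters of L, injective, and a sign δ(ω) ∈ {1, −1} depending only on the values of ω on W₂, such that: for ω, ω' agreeing on W₂, the function induced to L from ω − ω' equals δ(ω) • (μ ω − μ ω'); μ ω x = δ(ω) ω x for x ∈ W outside W₂; every irreducible character of L not of the form μ ω vanishes on W outside W₂; and μ ω 1 − δ(ω) is an integer multiple of Nat.card W₁. -/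
theorem result {L : Type*} [Group L] [Fintype L] (K W₁ W₂ : Subgroup L) [hK : K.Normal] (hKW₁ : K ⊓ W₁ = ⊥) (hKW₁' : K ⊔ W₁ = ⊤) (hW₁ : W₁ ≠ ⊥) (hW₁c : IsCyclic W₁) (hHall : Nat.Coprime (Nat.card W₁) W₁.index) (hW₂ : W₂ ≠ ⊥) (hW₂c : IsCyclic W₂) (hW₂K : W₂ ≤ K) (hC : ∀ x ∈ W₁, x ≠ 1 → K ⊓ Subgroup.centralizer ({x} : Set L) = W₂) (hodd : Odd (Nat.card ↥(W₁ ⊔ W₂))) : ∃ (μ : (↥(W₁ ⊔ W₂) →* ℂˣ) → (L → ℂ)) (δ : (↥(W₁ ⊔ W₂) →* ℂˣ) → ℂ), Function.Injective μ ∧ (∀ ω, Cfsg.IsIrrCharacter L (μ ω)) ∧ (∀ ω, δ ω = 1 ∨ δ ω = -1) ∧ (∀ ω ω' : ↥(W₁ ⊔ W₂) →* ℂˣ, (∀ w : ↥(W₁ ⊔ W₂), (w : L) ∈ W₂ → ω w = ω' w) → δ ω = δ ω' ∧ Cfsg.indFun (W₁ ⊔ W₂) (fun w => (ω w : ℂ) - (ω' w : ℂ)) = δ ω • (μ ω - μ ω')) ∧ (∀ ω, ∀ w : ↥(W₁ ⊔ W₂), (w : L) ∉ W₂ → μ ω w = δ ω * (ω w : ℂ)) ∧ (∀ θ : L → ℂ, Cfsg.IsIrrCharacter L θ → (∀ ω, θ ≠ μ ω) → ∀ w : ↥(W₁ ⊔ W₂), (w : L) ∉ W₂ → θ w = 0) ∧ (∀ ω, ∃ n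 : ℤ, μ ω 1 - δ ω = n * (Nat.card W₁ : ℂ)) := by
  classical
  have hcomm := tp_comm12 hC
  have hWc := tp_W_comm hW₁c hW₂c hcomm
  have hA : ∀ a b : ↥(W₁ ⊔ W₂), a * b = b * a := fun a b => Subtype.ext (hWc a a.2 b b.2)
  have hdisj := tp_disj hKW₁ hW₂K
  let cls : (↥(W₁ ⊔ W₂) →* ℂˣ) → (W₂ →* ℂˣ) := fun ω => ω.comp (Subgroup.inclusion le_sup_right)
  have hcls : ∀ ω ω' : ↥(W₁ ⊔ W₂) →* ℂˣ, cls ω = cls ω' ↔
      ∀ w : ↥(W₁ ⊔ W₂), (w : L) ∈ W₂ → ω w = ω' w := by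
    intro ω ω'
    constructor
    · intro h w hw
      exact DFunLike.congr_fun h (⟨w, hw⟩ : W₂)
    · intro h
      ext w
      exact congrArg Units.val (h (Subgroup.inclusion le_sup_right w) w.2)
  let lin : (↥(W₁ ⊔ W₂) →* ℂˣ) → (↥(W₁ ⊔ W₂) → ℂ) := fun ω w => ((ω w : ℂˣ) : ℂ)
  let v : (↥(W₁ ⊔ W₂) →* ℂˣ) → (↥(W₁ ⊔ W₂) →* ℂˣ) → (L → ℂ) :=
    fun ω ω' => Cfsg.indFun (W₁ ⊔ W₂) (fun w => (ω w : ℂ) - (ω' w : ℂ))
  have hv : ∀ ω ω', v ω ω' = Cfsg.indFun (W₁ ⊔ W₂) (lin ω) - Cfsg.indFun (W₁ ⊔ W₂) (lin ω') :=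
    fun ω ω' => Cfsg.Agent.Lib.Helper4.indFun_sub (W₁ ⊔ W₂) (lin ω) (lin ω')
  have hlinirr : ∀ ω, Cfsg.IsIrrCharacter ↥(W₁ ⊔ W₂) (lin ω) :=
    fun ω => Cfsg.Agent.Lib.Helper83.isIrr_of_hom ω
  have hgen : ∀ ω ω', cls ω = cls ω' → Cfsg.IsGeneralizedCharacter L (v ω ω') := by
    intro ω ω' _
    rw [hv]
    exact genChar_sub
      (genChar_of_char (Cfsg.Agent.Lib.Helper19.isCharacter_indFun _ _
        (isCharacter_of_isIrrCharacter (hlinirr ω))))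
      (genChar_of_char (Cfsg.Agent.Lib.Helper19.isCharacter_indFun _ _
        (isCharacter_of_isIrrCharacter (hlinirr ω'))))
  have h1 : ∀ ω ω', cls ω = cls ω' → v ω ω' 1 = 0 := by
    intro ω ω' _
    show Cfsg.indFun (W₁ ⊔ W₂) (fun w => (ω w : ℂ) - (ω' w : ℂ)) 1 = 0
    rw [Cfsg.Agent.Lib.Helper5.indFun_one]
    simp
  have hadd : ∀ ω ω' ω'', v ω ω' + v ω' ω'' = v ω ω'' := by
    intro ω ω' ω''
    rw [hv, hv, hv]
    abel
  have hin : ∀ ω ω' η η', cls ω = cls ω' → cls η = cls η' →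
      Cfsg.classInner (v ω ω') (v η η') =
      (if ω = η then 1 else 0) - (if ω = η' then 1 else 0) - (if ω' = η then 1 else 0) +
        (if ω' = η' then 1 else 0) := by
    intro ω ω' η η' h h'
    show Cfsg.classInner (Cfsg.indFun (W₁ ⊔ W₂) (fun w => (ω w : ℂ) - (ω' w : ℂ)))
      (Cfsg.indFun (W₁ ⊔ W₂) (fun w => (η w : ℂ) - (η' w : ℂ))) = _
    rw [tp_isometry hKW₁ hKW₁' hW₁ hW₁c hHall hW₂c hW₂K hC _ _
      (fun x hx => by rw [(hcls ω ω').1 h x hx, sub_self])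
      (fun x hx => by rw [(hcls η η').1 h' x hx, sub_self])]
    show Cfsg.classInner (lin ω - lin ω') (lin η - lin η') = _
    rw [classInner_sub_left, classInner_sub_right, classInner_sub_right]
    show Cfsg.classInner (fun a => ((ω a : ℂˣ) : ℂ)) (fun a => ((η a : ℂˣ) : ℂ)) -
      Cfsg.classInner (fun a => ((ω a : ℂˣ) : ℂ)) (fun a => ((η' a : ℂˣ) : ℂ)) -
      (Cfsg.classInner (fun a => ((ω' a : ℂˣ) : ℂ)) (fun a => ((η a : ℂˣ) : ℂ)) -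
      Cfsg.classInner (fun a => ((ω' a : ℂˣ) : ℂ)) (fun a => ((η' a : ℂˣ) : ℂ))) = _
    rw [lin_inner, lin_inner, lin_inner, lin_inner]
    ring
  obtain ⟨a, ha, ha1⟩ : ∃ a ∈ W₁, a ≠ 1 := by
    by_contra hcon
    push Not at hcon
    exact hW₁ ((Subgroup.eq_bot_iff_forall _).2 hcon)
  have hW₁W₂ : ∀ x ∈ W₁, x ≠ 1 → x ∉ W₂ := by
    intro x hx hx1 h
    have : x ∈ W₁ ⊓ W₂ := ⟨hx, h⟩
    rw [hdisj, Subgroup.mem_bot] at this
    exact hx1 this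
  have h3 : ∀ ω : ↥(W₁ ⊔ W₂) →* ℂˣ, ∃ ω' ω'', cls ω' = cls ω ∧ cls ω'' = cls ω ∧ ω ≠ ω' ∧
      ω ≠ ω'' ∧ ω' ≠ ω'' := by
    intro ω
    obtain ⟨l, hl1, hl2⟩ := exists_hom_ne_one_of_not_mem hA (W₂.subgroupOf (W₁ ⊔ W₂))
      (x := ⟨a, Subgroup.mem_sup_left ha⟩) (fun h => hW₁W₂ a ha ha1 (Subgroup.mem_subgroupOf.1 h))
    have hl2' : (l * l) ⟨a, Subgroup.mem_sup_left ha⟩ ≠ 1 := by
      intro h
      rw [MonoidHom.mul_apply, ← sq] at h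
      have h' : l ⟨a, Subgroup.mem_sup_left ha⟩ ^ Nat.card ↥(W₁ ⊔ W₂) = 1 := by
        rw [← map_pow, pow_card_eq_one', map_one]
      obtain ⟨m, hm⟩ := hodd
      rw [hm, pow_succ, pow_mul, h, one_pow, one_mul] at h'
      exact hl2 h'
    refine ⟨l * ω, (l * l) * ω, ?_, ?_, ?_, ?_, ?_⟩
    · rw [hcls]
      intro w hw
      rw [MonoidHom.mul_apply, hl1 w (Subgroup.mem_subgroupOf.2 hw), one_mul]
    · rw [hcls]
      intro w hw
      rw [MonoidHom.mul_apply, MonoidHom.mul_apply, hl1 w (Subgroup.mem_subgroupOf.2 hw), one_mul,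
        one_mul]
    · intro h
      apply hl2
      have := DFunLike.congr_fun h ⟨a, Subgroup.mem_sup_left ha⟩
      rw [MonoidHom.mul_apply] at this
      exact (right_eq_mul.1 this)
    · intro h
      apply hl2'
      have := DFunLike.congr_fun h ⟨a, Subgroup.mem_sup_left ha⟩
      rw [MonoidHom.mul_apply] at this
      exact (right_eq_mul.1 this)
    · intro h
      apply hl2
      have := DFunLike.congr_fun h ⟨a, Subgroup.mem_sup_left ha⟩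
      rw [MonoidHom.mul_apply, MonoidHom.mul_apply, MonoidHom.mul_apply] at this
      have h' := mul_right_cancel this
      exact (left_eq_mul.1 h')
  obtain ⟨μ, δ, hinj, hirr, hδ, hmain⟩ := star_coh_classes' cls v hgen h1 hadd
    (fun ω ω' η η' h h' => by convert hin ω ω' η η' h h') h3
  have hFR : ∀ (χ : L → ℂ), Cfsg.IsClassFunction L χ → ∀ φ ψ : ↥(W₁ ⊔ W₂) →* ℂˣ,
      (∀ k ∈ W₂.subgroupOf (W₁ ⊔ W₂), φ k = ψ k) →
      Cfsg.classInner (fun x : ↥(W₁ ⊔ W₂) => ((φ x : ℂˣ) : ℂ) - ((ψ x : ℂˣ) : ℂ))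
        (fun x : ↥(W₁ ⊔ W₂) => χ x) =
      δ φ * (Cfsg.classInner (μ φ) χ - Cfsg.classInner (μ ψ) χ) := by
    intro χ hχ φ ψ h
    rw [← Cfsg.Agent.Lib.Helper19.frobenius_reciprocity (W₁ ⊔ W₂) _ χ hχ]
    have h' := (hmain φ ψ ((hcls φ ψ).2 (fun w hw => h w (Subgroup.mem_subgroupOf.2 hw)))).2
    change Cfsg.indFun (W₁ ⊔ W₂) (fun w => (φ w : ℂ) - (ψ w : ℂ)) = _ at h'
    rw [h', classInner_smul_left, classInner_sub_left]
  have hconjδ : ∀ ω, (starRingEnd ℂ) (δ ω) = δ ω := by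
    intro ω
    rcases hδ ω with h | h <;> rw [h] <;> simp
  have hμμ : ∀ φ ω, Cfsg.classInner (μ φ) (μ ω) = if φ = ω then 1 else 0 := by
    intro φ ω
    rw [classInner_irr (hirr φ) (hirr ω)]
    by_cases h : φ = ω
    · rw [if_pos h, if_pos (congrArg μ h)]
    · rw [if_neg h, if_neg (fun h' => h (hinj h'))]
  have hval : ∀ ω, ∀ w : ↥(W₁ ⊔ W₂), (w : L) ∉ W₂ → μ ω w = δ ω * (ω w : ℂ) := by
    intro ω w hw
    have hz := ann_vanish1 hA (W₂.subgroupOf (W₁ ⊔ W₂)) (w₀ := w)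
      (fun h => hw (Subgroup.mem_subgroupOf.1 h))
      ((fun x : ↥(W₁ ⊔ W₂) => μ ω x) - δ ω • lin ω) ?_
    · rw [Pi.sub_apply, Pi.smul_apply, smul_eq_mul] at hz
      exact sub_eq_zero.1 hz
    · intro φ ψ h
      rw [classInner_sub_right, classInner_smul_right, hFR (μ ω)
        (isClassFunction_of_isCharacter (isCharacter_of_isIrrCharacter (hirr ω))) φ ψ h, hμμ, hμμ,
        hconjδ]
      have e : Cfsg.classInner (fun x : ↥(W₁ ⊔ W₂) => ((φ x : ℂˣ) : ℂ) - ((ψ x : ℂˣ) : ℂ)) (lin ω) =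
          (if φ = ω then 1 else 0) - (if ψ = ω then 1 else 0) := by
        show Cfsg.classInner (lin φ - lin ψ) (lin ω) = _
        rw [classInner_sub_left]
        show Cfsg.classInner (fun a => ((φ a : ℂˣ) : ℂ)) (fun a => ((ω a : ℂˣ) : ℂ)) -
          Cfsg.classInner (fun a => ((ψ a : ℂˣ) : ℂ)) (fun a => ((ω a : ℂˣ) : ℂ)) = _
        rw [lin_inner, lin_inner]
      rw [e]
      have hδφψ := (hmain φ ψ ((hcls φ ψ).2 (fun w hw => h w (Subgroup.mem_subgroupOf.2 hw)))).1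
      by_cases h1 : φ = ω
      · rw [h1]; ring
      · by_cases h2 : ψ = ω
        · rw [hδφψ, h2]; ring
        · rw [if_neg h1, if_neg h2]; ring
  refine ⟨μ, δ, hinj, hirr, hδ, ?_, hval, ?_, ?_⟩
  · intro ω ω' h
    exact hmain ω ω' ((hcls ω ω').2 h)
  · intro θ hθ hne w hw
    refine ann_vanish1 hA (W₂.subgroupOf (W₁ ⊔ W₂)) (w₀ := w)
      (fun h => hw (Subgroup.mem_subgroupOf.1 h)) (fun x : ↥(W₁ ⊔ W₂) => θ x) ?_
    intro φ ψ h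
    rw [hFR θ (isClassFunction_of_isCharacter (isCharacter_of_isIrrCharacter hθ)) φ ψ h,
      classInner_irr_ne (hirr φ) hθ (hne φ).symm, classInner_irr_ne (hirr ψ) hθ (hne ψ).symm]
    ring
  · intro ω
    obtain ⟨d, hd⟩ : ∃ d : ℤ, δ ω = (d : ℂ) := by
      rcases hδ ω with h | h
      · exact ⟨1, by rw [h]; simp⟩
      · exact ⟨-1, by rw [h]; simp⟩
    rw [hd]
    refine deg_congr_of_eq_lin W₁ (isCharacter_of_isIrrCharacter (hirr ω))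
      (ω.comp (Subgroup.inclusion le_sup_left)) d ?_
    intro x hx
    rw [← hd]
    exact hval ω (Subgroup.inclusion le_sup_left x)
      (hW₁W₂ x x.2 (fun h => hx (Subtype.ext h)))

end Cfsg.Agent.S1511
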