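import Cfsg.Statements.S1512
-- import your own Cfsg.Agent.* helpers here
import Cfsg.Agent.S1496
import Cfsg.Agent.Lib.Helper32.Dade

set_option autoImplicit false
open Cfsg

namespace Cfsg.Agent.S1512

open Cfsg.Agent.Lib.Helper32


/-- Let K be a normal subgroup of the finite group L and x a non-identity element whose order is coprime to the order of K, such that K ⊓ C_L(y) = W₂ for every non-identity element y of the cyclic group generated by x. Then the number of conjugacy classes of K mapped to themselves by conjugation by x is at most Nat.card W₂. -/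
theorem result {L : Type*} [Group L] [Finite L] (K W₂ : Subgroup L) [hK : K.Normal] (x : L) (hx1 : x ≠ 1) (hx : Nat.Coprime (orderOf x) (Nat.card K)) (hC : ∀ y ∈ Subgroup.zpowers x, y ≠ 1 → K ⊓ Subgroup.centralizer ({y} : Set L) = W₂) : Nat.card {C : ConjClasses K // ConjClasses.map (MulEquiv.toMonoidHom ((MulAut.conjNormal x : MulAut K))) C = C} ≤ Nat.card W₂ := by
  have hW : K ⊓ Subgroup.centralizer ({x} : Set L) = W₂ := hC x (Subgroup.mem_zpowers x) hx1
  have hWle : W₂ ≤ K ⊓ Subgroup.centralizer ({x} : Set L) := hW.ge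
  have hWK : ∀ w : W₂, (w : L) ∈ K := fun w => (hWle w.2).1
  have hWx : ∀ w : W₂, (w : L) * x = x * w := fun w =>
    Subgroup.mem_centralizer_singleton_iff.1 (hWle w.2).2
  have hmap : ∀ k : K, ConjClasses.map (MulEquiv.toMonoidHom ((MulAut.conjNormal x : MulAut K)))
      (ConjClasses.mk k) = ConjClasses.mk ((MulAut.conjNormal x : MulAut K) k) := fun _ => rfl
  let F : W₂ → {C : ConjClasses K // ConjClasses.map (MulEquiv.toMonoidHom
      ((MulAut.conjNormal x : MulAut K))) C = C} := fun w =>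
    ⟨ConjClasses.mk ⟨(w : L), hWK w⟩, by
      rw [hmap]
      congr 1
      apply Subtype.ext
      show ((MulAut.conjNormal x : MulAut K) ⟨(w : L), hWK w⟩ : L) = w
      rw [MulAut.conjNormal_apply]
      show x * (w : L) * x⁻¹ = w
      rw [← hWx w]; group⟩
  apply Nat.card_le_card_of_surjective F
  rintro ⟨C, hCinv⟩
  obtain ⟨k, rfl⟩ := ConjClasses.mk_surjective C
  have hCinv' := hCinv
  rw [hmap, ConjClasses.mk_eq_mk_iff_isConj, isConj_iff] at hCinv'
  obtain ⟨y, hy⟩ := hCinv'
  have hy' : (y : L) * (x * k * x⁻¹) * (y : L)⁻¹ = k := by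
    have := congrArg Subtype.val hy
    simpa [MulAut.conjNormal_apply] using this
  have hxn : x ∈ Subgroup.normalizer (K : Set L) := by
    rw [Subgroup.normalizer_eq_top]; trivial
  obtain ⟨z, hz, c, hc, hcx, hzc⟩ := Cfsg.Agent.S1496.result K x hxn hx y y.2
  set k' : L := z * k * z⁻¹ with hk'
  have hk'K : k' ∈ K := K.mul_mem (K.mul_mem hz k.2) (K.inv_mem hz)
  have h1 : (c * x) * k' = k' * (c * x) := by
    rw [← hzc, hk']
    have : (y : L) * x * k = k * (y * x) := by
      calc (y : L) * x * k = ((y : L) * (x * k * x⁻¹) * (y : L)⁻¹) * (y * x) := by group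
        _ = k * (y * x) := by rw [hy']
    calc z * (y * x) * z⁻¹ * (z * k * z⁻¹) = z * ((y : L) * x * k) * z⁻¹ := by group
      _ = z * (k * (y * x)) * z⁻¹ := by rw [this]
      _ = z * k * z⁻¹ * (z * (y * x) * z⁻¹) := by group
  obtain ⟨e, he1, he0⟩ := Nat.chineseRemainder hx 1 0
  have h2 : (x * c) ^ e = x :=
    pow_trick x c (orderOf x) (Nat.card K) e hcx.symm (pow_orderOf_eq_one x) (pow_card_sub hc) he1 he0
  have h3 : Commute (x * c) k' := by
    rw [← hcx]; exact h1
  have h4 : Commute x k' := by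
    have := h3.pow_left e
    rwa [h2] at this
  have hk'W : k' ∈ W₂ := by
    rw [← hW]
    exact ⟨hk'K, Subgroup.mem_centralizer_singleton_iff.2 h4.eq.symm⟩
  refine ⟨⟨k', hk'W⟩, ?_⟩
  apply Subtype.ext
  show ConjClasses.mk (⟨k', _⟩ : K) = ConjClasses.mk k
  rw [ConjClasses.mk_eq_mk_iff_isConj, isConj_comm, isConj_iff]
  exact ⟨⟨z, hz⟩, Subtype.ext (by simp [hk'])⟩

end Cfsg.Agent.S1512
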