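import Cfsg.Statements.S1513
import Cfsg.Agent.Lib.Helper31.TypeP

set_option autoImplicit false
open Cfsg

namespace Cfsg.Agent.S1513
/-- Let L be a finite group with K normal with complement W₁ ≠ 1 a cyclic Hall subgroup, and W₂ ≠ 1 a cyclic subgroup of K equal to C_K(x) for every non-identity x ∈ W₁, with W₁W₂ of odd order. For an irreducible character θ of K: if θ is not fixed under conjugation by some element of W₁, then the function induced from θ to L is an irreducible character of L; and the irreducible characters of K fixed by all of W₁ are exactly Nat.card W₂ in number, each inducing to the sum of Nat.card W₁ pairwise distinct irreducible characters of L. -/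
theorem result {L : Type*} [Group L] [Fintype L] (K W₁ W₂ : Subgroup L) [hK : K.Normal] (hKW₁ : K ⊓ W₁ = ⊥) (hKW₁' : K ⊔ W₁ = ⊤) (hW₁ : W₁ ≠ ⊥) (hW₁c : IsCyclic W₁) (hHall : Nat.Coprime (Nat.card W₁) W₁.index) (hW₂ : W₂ ≠ ⊥) (hW₂c : IsCyclic W₂) (hW₂K : W₂ ≤ K) (hC : ∀ x ∈ W₁, x ≠ 1 → K ⊓ Subgroup.centralizer ({x} : Set L) = W₂) (hodd : Odd (Nat.card ↥(W₁ ⊔ W₂))) : (∀ θ : K → ℂ, Cfsg.IsIrrCharacter K θ → (∃ x ∈ W₁, (fun k : K => θ ⟨x * k * x⁻¹, hK.conj_mem (k : L) k.2 x⟩) ≠ θ) → Cfsg.IsIrrCharacter L (Cfsg.indFun K θ)) ∧ Nat.card {θ : Cfsg.IrrCharacter K // ∀ x ∈ W₁, (fun k : K => (θ : K → ℂ) ⟨x * k * x⁻¹, hK.conj_mem (k : L) k.2 x⟩) = θ} = Nat.card W₂ ∧ (∀ θ : K → ℂ, Cfsg.IsIrrCharacter K θ → (∀ x ∈ W₁, (fun k : K => θ ⟨x * k * x⁻¹, hK.conj_mem (k : L) k.2 x⟩) = θ) → ∃ C : Finset (L → ℂ), C.card = Nat.card W₁ ∧ (∀ μ ∈ C, Cfsg.IsIrrCharacter L μ) ∧ Cfsg.indFun K θ = ∑ μ ∈ C, μ) := by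
  classical
  have hcl : ∀ θ : K → ℂ, Cfsg.IsIrrCharacter K θ → K ≤ Cfsg.Agent.Lib.Helper5.inertia hK θ :=
    fun θ hθ => Cfsg.Agent.Lib.Helper5.le_inertia hK
      (Cfsg.Agent.Lib.Helper20.isClassFunction_of_isCharacter
        (Cfsg.Agent.Lib.Helper20.isCharacter_of_isIrrCharacter hθ))
  refine ⟨?_, ?_, ?_⟩
  · rintro θ hθ ⟨x, hx, hxθ⟩
    apply Cfsg.Agent.Lib.Helper31.indFun_irr_of_inertia_eq K hθ
    apply le_antisymm _ (hcl θ hθ)
    intro g hg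
    obtain ⟨k, hk, w, hw, rfl⟩ := Cfsg.Agent.Lib.Helper31.tp_exists_mul hKW₁' g
    have hwI : w ∈ Cfsg.Agent.Lib.Helper5.inertia hK θ := by
      have := Subgroup.mul_mem _ (Subgroup.inv_mem _ (hcl θ hθ hk)) hg
      rwa [inv_mul_cancel_left] at this
    by_cases hw1 : w = 1
    · rw [hw1, mul_one]; exact hk
    · exfalso
      exact hxθ (Cfsg.Agent.Lib.Helper31.tp_inertia hKW₁ hKW₁' hW₁c hHall hW₂c hC hθ hw hw1 hwI hx)
  · obtain ⟨⟨s, hsW⟩, hs⟩ := hW₁c.exists_generator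
    have hz : W₁ ≤ Subgroup.zpowers s := by
      intro z hz
      obtain ⟨i, hi⟩ := Subgroup.mem_zpowers_iff.mp (hs ⟨z, hz⟩)
      exact Subgroup.mem_zpowers_iff.mpr ⟨i, by simpa using congrArg Subtype.val hi⟩
    have hs1 : s ≠ 1 := by
      rintro rfl
      apply hW₁
      rw [eq_bot_iff]
      rwa [Subgroup.zpowers_one_eq_bot] at hz
    have hcop : (orderOf s).Coprime (Nat.card K) :=
      Nat.Coprime.coprime_dvd_left (Subgroup.orderOf_dvd_natCard W₁ hsW)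
        (Cfsg.Agent.Lib.Helper31.tp_cop hKW₁ hKW₁' hHall)
    rw [← Cfsg.Agent.Lib.Helper31.card_inertia_eq K W₂ s hcop (hC s hsW hs1)
      (Cfsg.Agent.Lib.Helper31.comm_of_isCyclic_subgroup hW₂c)]
    refine Nat.card_congr (Equiv.subtypeEquivRight fun θ => ?_)
    constructor
    · intro h
      exact h s hsW
    · intro h x hx
      exact (Subgroup.zpowers_le.2 h) (hz hx)
  · intro θ hθ hinv
    have htop : ∀ g : L, g ∈ Cfsg.Agent.Lib.Helper5.inertia hK θ := by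
      intro g
      obtain ⟨k, hk, w, hw, rfl⟩ := Cfsg.Agent.Lib.Helper31.tp_exists_mul hKW₁' g
      exact Subgroup.mul_mem _ (hcl θ hθ hk) (hinv w hw)
    obtain ⟨E, hE, hEθ⟩ := Cfsg.Agent.Lib.Helper79.exists_irr_ext_of_cyclic K
      (Cfsg.Agent.Lib.Helper31.tp_quot_cyclic hKW₁' hW₁c) θ hθ
      (fun g n => (Cfsg.Agent.Lib.Helper5.mem_inertia' hK θ g).1 (htop g) n)
    have hres : (fun k : K => E k) = θ := funext hEθ
    obtain ⟨C, hC1, hC2, hC3⟩ := Cfsg.Agent.Lib.Helper31.ind_eq_sum_gall K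
      (Cfsg.Agent.Lib.Helper31.tp_quot_comm hKW₁' hW₁c) hE (by rw [hres]; exact hθ)
    rw [hres] at hC3
    exact ⟨C, by rw [hC1, Cfsg.Agent.Lib.Helper31.tp_index hKW₁ hKW₁'], hC2, hC3⟩

end Cfsg.Agent.S1513
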