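import Cfsg.Statements.S1518
import Cfsg.Agent.Lib.Helper32.ConjFun
import Cfsg.Agent.Lib.Helper32.DadeCount
import Cfsg.Agent.S1501
import Cfsg.Agent.S1500

set_option autoImplicit false
open Cfsg

namespace Cfsg.Agent.S1518

open Cfsg.Agent.Lib.Helper32 Cfsg.Agent.Lib.Helper20

/-- Under the Dade hypothesis for (A, L, H): if χ is an irreducible character of L vanishing at every non-identity element of L outside A, then the Dade image of χ − conj χ equals μ − conj μ for some irreducible character μ of G. -/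
theorem result {G : Type*} [Group G] [Fintype G] (A : Set G) (L : Subgroup G) [Fintype L] (H : G → Subgroup G) (hD : Cfsg.DadeHypothesis A L H) (χ : L → ℂ) (hχ : Cfsg.IsIrrCharacter L χ) (hsupp : ∀ x : L, x ≠ 1 → (x : G) ∉ A → χ x = 0) : ∃ μ : G → ℂ, Cfsg.IsIrrCharacter G μ ∧ Cfsg.dadeIsometry A L H (χ - Cfsg.conjFun χ) = μ - Cfsg.conjFun μ := by
  classical
  have hχc := isCharacter_of_isIrrCharacter hχ
  have hχ' := isIrr_conjFun hχ
  by_cases hreal : χ = conjFun χ
  · refine ⟨fun _ => 1, Cfsg.Agent.Lib.Helper83.isIrr_trivial, ?_⟩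
    rw [← hreal, sub_self]
    ext g
    have h1 : dadeIsometry A L H (0 : L → ℂ) g = 0 := by
      unfold dadeIsometry
      split_ifs <;> rfl
    rw [h1]
    simp [conjFun]
  set θ : L → ℂ := χ - conjFun χ with hθ
  have hθg : IsGeneralizedCharacter L θ := genChar_sub (genChar_of_irr hχ) (genChar_of_irr hχ')
  have hθc := genChar_isClassFunction hθg
  have hθA : ∀ x : L, (x : G) ∉ A → θ x = 0 := by
    intro x hx
    by_cases hx1 : x = 1
    · rw [hx1, hθ, Pi.sub_apply, conjFun_one_of_char hχc, sub_self]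
    · rw [hθ, Pi.sub_apply, conjFun_apply, hsupp x hx1 hx, map_zero, sub_self]
  have hτg := Cfsg.Agent.S1501.result A L H hD θ hθg hθA
  have hnorm : classInner (dadeIsometry A L H θ) (dadeIsometry A L H θ) = 2 := by
    rw [(Cfsg.Agent.S1500.result A L H hD θ hθc hθA).1 θ hθc hθA, hθ, classInner_sub_left,
      classInner_sub_right, classInner_sub_right, classInner_irr_self hχ, classInner_irr_self hχ',
      classInner_irr_ne hχ hχ' hreal, classInner_irr_ne hχ' hχ (Ne.symm hreal)]
    norm_num
  have hone : dadeIsometry A L H θ 1 = 0 := by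
    apply dadeIsometry_apply_not_mem
    rintro ⟨a, ha, x, u, hu, h⟩
    rw [mul_one, mul_inv_cancel] at h
    have h1 : (a : G) = u⁻¹ := eq_inv_of_mul_eq_one_left h.symm
    have h2 : (a : G) ∈ H a ⊓ (L ⊓ Subgroup.centralizer ({(a : G)} : Set G)) :=
      ⟨by rw [h1] at hu ⊢; exact Subgroup.inv_mem _ hu, dade_mem_CL hD ha⟩
    rw [hD.inf_eq_bot a ha, Subgroup.mem_bot] at h2
    exact hD.one_not_mem (h2 ▸ ha)
  obtain ⟨μ₁, μ₂, h₁, h₂, hne, he⟩ := genChar_norm_two hτg hnorm hone
  have hconj : conjFun (dadeIsometry A L H θ) = - dadeIsometry A L H θ := by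
    ext g
    rw [conjFun_apply, Pi.neg_apply]
    unfold dadeIsometry
    split_ifs with h
    · rw [hθ, Pi.sub_apply, conjFun_apply, map_sub, Complex.conj_conj]
      ring
    · simp
  rw [he, conjFun_sub] at hconj
  have h₁' := isIrr_conjFun h₁
  have h₂' := isIrr_conjFun h₂
  have key : conjFun μ₂ = μ₁ := by
    by_contra hcon
    have h3 := congrArg (fun f => classInner f μ₁) hconj
    rw [classInner_sub_left, classInner_neg_left, classInner_sub_left, classInner_irr_self h₁,
      classInner_irr_ne h₂' h₁ hcon, classInner_irr_ne h₂ h₁ (Ne.symm hne),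
      classInner_irr h₁' h₁] at h3
    split_ifs at h3 <;> norm_num at h3
  refine ⟨μ₁, h₁, ?_⟩
  rw [he, ← key, conjFun_conjFun]

end Cfsg.Agent.S1518
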