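import Cfsg.Statements.S1525
-- import your own Cfsg.Agent.* helpers here
import Cfsg.Agent.Lib.Helper32.DadeCount
import Mathlib.Algebra.Order.Chebyshev

set_option autoImplicit false
open Cfsg

namespace Cfsg.Agent.S1525

open Cfsg.Agent.Lib.Helper32

theorem finsum_mem_eq_sum_filter {X E : Type*} [Fintype X] [AddCommMonoid E] (S : Set X)
    [DecidablePred (· ∈ S)] (f : X → E) :
    ∑ᶠ u ∈ S, f u = ∑ u ∈ Finset.univ.filter (· ∈ S), f u := by
  rw [finsum_mem_def, finsum_eq_sum_of_fintype, Finset.sum_filter]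
  simp [Set.indicator_apply]

open Classical in
theorem dade_sum_real {G : Type*} [Group G] [Fintype G] (A : Set G) (L : Subgroup G) [Fintype L]
    (H : G → Subgroup G) (hD : Cfsg.DadeHypothesis A L H) (F : G → ℝ)
    (hF : ∀ g h : G, F (h * g * h⁻¹) = F g) :
    ∑ g ∈ Finset.univ.filter (· ∈ dadeSupp A L H), F g =
      (Nat.card G : ℝ) * (Nat.card L : ℝ)⁻¹ * ∑ a ∈ Finset.univ.filter (fun a : L => (a : G) ∈ A),
        (Nat.card (H a) : ℝ)⁻¹ * ∑ u ∈ Finset.univ.filter (fun u : G => u ∈ H a), F (a * u) := by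
  have h := dade_sum hD (fun g => (F g : ℂ)) (fun g h => by simp only; rw [hF])
  simp only [← Finset.sum_filter] at h
  apply Complex.ofReal_injective
  push_cast
  exact h


/-- Under the Dade hypothesis for (A, L, H), let χ be a class function of G and let ψ be a function on L whose value at each a ∈ A is the average of χ over the coset a·H(a). Then (1/|G|) Σ |χ g|² over the elements g of G conjugate into some coset a·H(a) with a ∈ A is at least (1/|L|) Σ_{a ∈ A ∩ L} |ψ a|². -/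
theorem result {G : Type*} [Group G] [Fintype G] (A : Set G) (L : Subgroup G) [Fintype L] (H : G → Subgroup G) (hD : Cfsg.DadeHypothesis A L H) (χ : G → ℂ) (hχ : Cfsg.IsClassFunction G χ) (ψ : L → ℂ) (hψ : ∀ a : L, (a : G) ∈ A → ψ a = (Nat.card (H a) : ℂ)⁻¹ * ∑ᶠ u ∈ (H a : Set G), χ (a * u)) : (Nat.card L : ℝ)⁻¹ * ∑ᶠ a ∈ {a : L | (a : G) ∈ A}, ‖ψ a‖ ^ 2 ≤ (Nat.card G : ℝ)⁻¹ * ∑ᶠ g ∈ {g : G | ∃ a ∈ A, ∃ u ∈ H a, ∃ x : G, x * g * x⁻¹ = a * u}, ‖χ g‖ ^ 2 := by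
  classical
  have hset : {g : G | ∃ a ∈ A, ∃ u ∈ H a, ∃ x : G, x * g * x⁻¹ = a * u} = dadeSupp A L H := by
    ext g
    constructor
    · rintro ⟨a, ha, u, hu, x, h⟩
      exact ⟨⟨a, hD.subset ha⟩, ha, x, u, hu, h⟩
    · rintro ⟨a, ha, x, u, hu, h⟩
      exact ⟨a, ha, u, hu, x, h⟩
  rw [hset, finsum_mem_eq_sum_filter, finsum_mem_eq_sum_filter,
    dade_sum_real A L H hD (fun g => ‖χ g‖ ^ 2) (fun g h => by rw [hχ])]
  have hG : (Nat.card G : ℝ) ≠ 0 := by exact_mod_cast (Nat.card_pos (α := G)).ne'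
  rw [← mul_assoc, ← mul_assoc, inv_mul_cancel₀ hG, one_mul]
  apply mul_le_mul_of_nonneg_left _ (by positivity)
  apply Finset.sum_le_sum
  intro a ha
  have ha' : (a : G) ∈ A := by simpa using ha
  rw [hψ a ha', finsum_mem_eq_sum_filter]
  set S := Finset.univ.filter (fun u : G => u ∈ (H a : Set G)) with hS
  have hS' : Finset.univ.filter (fun u : G => u ∈ H a) = S := rfl
  rw [hS']
  have hcard : (Nat.card (H a) : ℝ) = (S.card : ℝ) := by
    congr 1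
    rw [Nat.card_eq_fintype_card, Fintype.card_subtype]
    rfl
  have hpos : (0 : ℝ) < (Nat.card (H a) : ℝ) := by exact_mod_cast (Nat.card_pos (α := H a))
  rw [norm_mul, norm_inv, Complex.norm_natCast, mul_pow]
  have h1 : ‖∑ u ∈ S, χ (a * u)‖ ^ 2 ≤ (Nat.card (H a) : ℝ) * ∑ u ∈ S, ‖χ (a * u)‖ ^ 2 := by
    calc ‖∑ u ∈ S, χ (a * u)‖ ^ 2 ≤ (∑ u ∈ S, ‖χ (a * u)‖) ^ 2 := by
          apply pow_le_pow_left₀ (norm_nonneg _) (norm_sum_le _ _)
      _ ≤ (S.card : ℝ) * ∑ u ∈ S, ‖χ (a * u)‖ ^ 2 := sq_sum_le_card_mul_sum_sq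
      _ = _ := by rw [hcard]
  calc ((Nat.card (H a) : ℝ))⁻¹ ^ 2 * ‖∑ u ∈ S, χ (a * u)‖ ^ 2
      ≤ ((Nat.card (H a) : ℝ))⁻¹ ^ 2 * ((Nat.card (H a) : ℝ) * ∑ u ∈ S, ‖χ (a * u)‖ ^ 2) :=
        mul_le_mul_of_nonneg_left h1 (by positivity)
    _ = (Nat.card (H a) : ℝ)⁻¹ * ∑ u ∈ S, ‖χ (a * u)‖ ^ 2 := by
        field_simp

end Cfsg.Agent.S1525
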