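import Cfsg.Statements.S1527
import Cfsg.Agent.Lib.Helper31.TIPart

set_option autoImplicit false
open Cfsg

namespace Cfsg.Agent.S1527
/-- Let G be a finite group and H i (i in a finite index type) subgroups of pairwise coprime orders, each of whose underlying sets is a TI-subset of G, such that every non-identity element of G is conjugate to an element of some H i. Then Nat.card G − 1 = Σ_i [G : N_G(H i)] · (Nat.card (H i) − 1). -/
theorem result {G : Type*} [Group G] [Finite G] {ι : Type*} [Fintype ι] (H : ι → Subgroup G) (hcop : ∀ i j, i ≠ j → Nat.Coprime (Nat.card (H i)) (Nat.card (H j))) (hTI : ∀ i, Cfsg.IsTISubset (H i : Set G)) (hcover : ∀ g : G, g ≠ 1 → ∃ i, ∃ x : G, x * g * x⁻¹ ∈ H i) : Nat.card G - 1 = ∑ i, (Subgroup.normalizer (H i : Set G)).index * (Nat.card (H i) - 1) := by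
  classical
  have := Fintype.ofFinite G
  have h := Cfsg.Agent.Lib.Helper31.sum_eq_of_ti_cover H hcop hTI hcover
    (F := fun _ => (1 : ℂ)) (fun _ _ => rfl)
  have h1 : ∀ i, (∑ a : G, if (a ∈ H i ∧ a ≠ 1) then (1 : ℂ) else 0) =
      ((Nat.card (H i) - 1 : ℕ) : ℂ) := by
    intro i
    rw [Finset.sum_ite, Finset.sum_const_zero, add_zero, Finset.sum_const, nsmul_eq_mul, mul_one]
    congr 1
    have e1 : (Finset.univ.filter (fun a : G => a ∈ H i ∧ a ≠ 1)) =
        (Finset.univ.filter (fun a : G => a ∈ H i)).erase 1 := by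
      ext a
      simp [and_comm]
    rw [e1, Finset.card_erase_of_mem (by simp [(H i).one_mem]), Nat.card_eq_fintype_card,
      Fintype.card_subtype]
  simp only [h1] at h
  rw [Finset.sum_const, nsmul_eq_mul, mul_one] at h
  have h2 : (Nat.card G : ℂ) =
      ((1 + ∑ i, (Subgroup.normalizer (H i : Set G)).index * (Nat.card (H i) - 1) : ℕ) : ℂ) := by
    rw [Nat.card_eq_fintype_card]
    push_cast
    push_cast at h
    exact h
  have h3 := Nat.cast_injective h2
  omega

end Cfsg.Agent.S1527
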