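import Cfsg.Statements.S1528
import Cfsg.Agent.Lib.Helper83.FixedCount
import Cfsg.Agent.S0854

set_option autoImplicit false
open Cfsg
open Cfsg.Agent.Lib.Helper83 Cfsg.Agent.Lib.Helper20

namespace Cfsg.Agent.S1528

/-- Let N be a normal subgroup of the finite group G such that every element of G commuting with a non-identity element of N lies in N. If χ is an irreducible character of G with χ n ≠ χ 1 for some n ∈ N, then χ is the function induced from some irreducible character of N. -/
theorem result {G : Type*} [Group G] [Fintype G] (N : Subgroup G) [N.Normal] (hC : ∀ n ∈ N, n ≠ 1 → Subgroup.centralizer ({n} : Set G) ≤ N) (χ : G → ℂ) (hχ : Cfsg.IsIrrCharacter G χ) (hker : ∃ n ∈ N, χ n ≠ χ 1) : ∃ φ : N → ℂ, Cfsg.IsIrrCharacter N φ ∧ χ = Cfsg.indFun N φ := by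
  classical
  have hN : N.Normal := inferInstance
  have : Fintype N := Fintype.ofFinite N
  have := finite_irrCharacter (G := N)
  have := Fintype.ofFinite (IrrCharacter N)
  have hχc := isCharacter_of_isIrrCharacter hχ
  have hχcl := isClassFunction_of_isCharacter hχc
  have hres : IsClassFunction N (fun n : N => χ n) :=
    isClassFunction_of_isCharacter (isCharacter_restrict hχc N)
  -- a nontrivial constituent
  have hex : ∃ φ : IrrCharacter N, (φ : N → ℂ) ≠ (fun _ => 1) ∧
      classInner (fun n : N => χ n) (φ : N → ℂ) ≠ 0 := by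
    by_contra hcon
    push Not at hcon
    obtain ⟨n, hn, hne⟩ := hker
    apply hne
    have h1 := eq_sum_classInner_smul hres
    have h2 : ∀ m : N, χ m = classInner (fun n : N => χ n) (fun _ : N => (1 : ℂ)) := by
      intro m
      have h3 := congrFun h1 m
      rw [Finset.sum_apply, Finset.sum_eq_single (⟨fun _ => 1, isIrr_trivial⟩ : IrrCharacter N)] at h3
      · rw [h3]
        simp
      · intro φ _ hφ
        have : (φ : N → ℂ) ≠ fun _ => 1 := fun h => hφ (Subtype.ext h)
        rw [Pi.smul_apply, hcon φ this, zero_smul]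
      · intro h
        exact absurd (Finset.mem_univ _) h
    have h4 := h2 ⟨n, hn⟩
    have h5 := h2 1
    rw [show χ n = χ ((⟨n, hn⟩ : N) : G) from rfl, h4, ← h5]
    rfl
  obtain ⟨φ, hφ1, hφc⟩ := hex
  -- the inertia group is N
  have hT : ∀ g : G, g ∈ N ↔ ∀ n : N, (φ : N → ℂ) ⟨g * n * g⁻¹, hN.conj_mem (n : G) n.2 g⟩
      = (φ : N → ℂ) n := by
    intro g
    constructor
    · intro hg n
      exact isClassFunction_of_isCharacter (isCharacter_of_isIrrCharacter φ.2) n ⟨g, hg⟩
    · intro hg
      by_contra hgN
      have hcount := card_fixed_irr_eq_card_fixed_classes N g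
      have h1 : Nat.card {C : ConjClasses N // ∀ k : N, ConjClasses.mk k = C →
          ConjClasses.mk (⟨g * k * g⁻¹, hN.conj_mem k k.2 g⟩ : N) = C} ≤ 1 := by
        rw [Finite.card_le_one_iff_subsingleton]
        have key : ∀ C : {C : ConjClasses N // ∀ k : N, ConjClasses.mk k = C →
            ConjClasses.mk (⟨g * k * g⁻¹, hN.conj_mem k k.2 g⟩ : N) = C},
            C.1 = ConjClasses.mk 1 := by
          rintro ⟨C, hC'⟩
          obtain ⟨k, rfl⟩ := ConjClasses.mk_surjective C
          have h2 := hC' k rfl
          obtain ⟨m, hm⟩ := isConj_iff.mp (ConjClasses.mk_eq_mk_iff_isConj.mp h2)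
          by_cases hk : (k : G) = 1
          · have : k = 1 := Subtype.ext hk
            exact congrArg ConjClasses.mk this
          · exfalso
            apply hgN
            have hm' : (m : G) * (g * k * g⁻¹) * (m : G)⁻¹ = k := congrArg Subtype.val hm
            have h3 : (m : G) * g ∈ Subgroup.centralizer ({(k : G)} : Set G) := by
              rw [Subgroup.mem_centralizer_iff]
              intro y hy
              rw [Set.mem_singleton_iff] at hy
              subst hy
              have : (m : G) * g * k = k * ((m : G) * g) := by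
                conv_rhs => rw [← hm']
                group
              exact this.symm
            have h4 := hC k k.2 hk h3
            have h5 := N.mul_mem (N.inv_mem m.2) h4
            simpa using h5
        exact ⟨fun a b => Subtype.ext ((key a).trans (key b).symm)⟩
      rw [← hcount] at h1
      rw [Finite.card_le_one_iff_subsingleton] at h1
      have h2 := h1.elim ⟨φ, hg⟩ ⟨⟨fun _ => 1, isIrr_trivial⟩, fun _ => rfl⟩
      exact hφ1 (congrArg (fun z => (z.1 : N → ℂ)) h2)
  have hnorm := Cfsg.Agent.S0854.norm_ind N φ φ.2 N hT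
  rw [inv_mul_cancel₀ (Cfsg.Agent.Lib.Helper19.card_ne_zero_complex N)] at hnorm
  have hirr : IsIrrCharacter G (indFun N (φ : N → ℂ)) :=
    isIrrCharacter_of_classInner_self
      (Cfsg.Agent.Lib.Helper19.isCharacter_indFun N _ (isCharacter_of_isIrrCharacter φ.2)) hnorm
  refine ⟨φ, φ.2, ?_⟩
  by_contra hne
  have h1 := classInner_irr_ne hirr hχ (fun h => hne h.symm)
  rw [Cfsg.Agent.Lib.Helper19.frobenius_reciprocity N _ χ hχcl, ← classInner_conj_symm] at h1
  exact hφc ((map_eq_zero _).mp h1)

end Cfsg.Agent.S1528
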