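import Cfsg.Statements.S1532
-- import your own Cfsg.Agent.* helpers here
import Cfsg.Agent.Lib.Helper32.Feit2
import Cfsg.Agent.S1522

set_option autoImplicit false
open Cfsg

namespace Cfsg.Agent.S1532

open Cfsg.Agent.Lib.Helper32 Cfsg.Agent.Lib

/-- Let G be a finite group, p an odd prime and P a Sylow p-subgroup that is non-abelian, whose underlying set is a TI-subset of G, with P properly contained in its set normaliser N and C_G(x) ≤ P for every non-identity x ∈ P. Let Z be a nontrivial subgroup of the centre of P normalised by N. Then the set of irreducible characters χ of N with χ z ≠ χ 1 for some z ∈ Z is coherent for the map induced by induction from N to G. -/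
theorem result {G : Type*} [Group G] [Fintype G] (p : ℕ) [Fact p.Prime] (hp : p ≠ 2) (P : Sylow p G) (hna : ¬ IsMulCommutative (P : Subgroup G)) (hTI : Cfsg.IsTISubset ((P : Subgroup G) : Set G)) (hlt : (P : Subgroup G) < Subgroup.normalizer ((P : Subgroup G) : Set G)) (hC : ∀ k ∈ (P : Subgroup G), k ≠ 1 → Subgroup.centralizer ({k} : Set G) ≤ (P : Subgroup G)) [Fintype ↥(Subgroup.normalizer ((P : Subgroup G) : Set G))] (Z : Subgroup G) (hZ1 : Z ≠ ⊥) (hZP : ∀ z ∈ Z, z ∈ (P : Subgroup G) ∧ ∀ y ∈ (P : Subgroup G), z * y = y * z) (hZn : ∀ x ∈ Subgroup.normalizer ((P : Subgroup G) : Set G), ∀ z ∈ Z, x * z * x⁻¹ ∈ Z) : Cfsg.IsCoherent {χ : ↥(Subgroup.normalizer ((P : Subgroup G) : Set G)) → ℂ | Cfsg.IsIrrCharacter ↥(Subgroup.normalizer ((P : Subgroup G) : Set G)) χ ∧ ∃ z : ↥(Subgroup.normalizer ((P : Subgroup G) : Set G)), (z : G) ∈ Z ∧ χ z ≠ χ 1} {1}ᶜ (fun α => Cfsg.indFun (Subgroup.normalizer ((P : Subgroup G) : Set G)) α) := by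
  classical
  have hle : (P : Subgroup G) ≤ Subgroup.normalizer ((P : Subgroup G) : Set G) := hlt.le
  haveI hKn : ((P : Subgroup G).subgroupOf (Subgroup.normalizer ((P : Subgroup G) : Set G))).Normal :=
    ⟨fun k hk x => (Subgroup.mem_normalizer_iff.1 x.2 k).1 hk⟩
  haveI hZn' : (Z.subgroupOf (Subgroup.normalizer ((P : Subgroup G) : Set G))).Normal :=
    ⟨fun k hk x => hZn x x.2 k hk⟩
  have hset := ti_set_eq (P : Subgroup G) (Subgroup.normalizer ((P : Subgroup G) : Set G)) hC
  have hcardK : Nat.card ((P : Subgroup G).subgroupOf (Subgroup.normalizer ((P : Subgroup G) : Set G)))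
      = Nat.card (P : Subgroup G) := Nat.card_congr (Subgroup.subgroupOfEquivOfLe hle).toEquiv
  have hC' := ti_centralizer (P : Subgroup G) (Subgroup.normalizer ((P : Subgroup G) : Set G)) hC
  have hP1 : (P : Subgroup G) ≠ ⊥ := by
    intro h
    apply hZ1
    rw [eq_bot_iff, ← h]
    exact fun z hz => (hZP z hz).1
  have hodd : Odd (Nat.card (Subgroup.normalizer ((P : Subgroup G) : Set G))) := by
    rcases Nat.even_or_odd (Nat.card (Subgroup.normalizer ((P : Subgroup G) : Set G))) with hev | hodd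
    swap
    · exact hodd
    exfalso
    have hPodd : Odd (Nat.card (P : Subgroup G)) := by
      obtain ⟨n, hn⟩ := P.isPGroup'.exists_card_eq
      rw [hn]
      exact Odd.pow ((Fact.out : p.Prime).odd_of_ne_two hp)
    have h2 : 2 ∣ ((P : Subgroup G).subgroupOf (Subgroup.normalizer ((P : Subgroup G) : Set G))).index := by
      have h3 := hev.two_dvd
      rw [← Subgroup.card_mul_index ((P : Subgroup G).subgroupOf
        (Subgroup.normalizer ((P : Subgroup G) : Set G))), hcardK] at h3
      exact (Nat.Coprime.dvd_mul_left (Nat.coprime_two_left.2 hPodd)).1 h3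
    have hab := frob_abelian_of_even _ hC' h2
    apply hna
    refine ⟨⟨fun a b => Subtype.ext ?_⟩⟩
    have := congrArg (fun z : Subgroup.normalizer ((P : Subgroup G) : Set G) => (z : G))
      (hab ⟨a, hle a.2⟩ a.2 ⟨b, hle b.2⟩ b.2)
    exact this
  have hcoh := ti_odd_case (P : Subgroup G) _ rfl hodd hP1 hlt (P.isPGroup'.isNilpotent) hTI hC
  have hZK : Z.subgroupOf (Subgroup.normalizer ((P : Subgroup G) : Set G)) ≤
      (P : Subgroup G).subgroupOf (Subgroup.normalizer ((P : Subgroup G) : Set G)) :=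
    fun z hz => (hZP z hz).1
  have hZ1' : Z.subgroupOf (Subgroup.normalizer ((P : Subgroup G) : Set G)) ≠ ⊥ := by
    intro h
    apply hZ1
    rw [eq_bot_iff]
    intro x hx
    have : (⟨x, hle (hZP x hx).1⟩ : Subgroup.normalizer ((P : Subgroup G) : Set G)) ∈
      Z.subgroupOf (Subgroup.normalizer ((P : Subgroup G) : Set G)) := hx
    rw [h, Subgroup.mem_bot] at this
    rw [Subgroup.mem_bot]
    exact congrArg Subtype.val this
  have hirr : ∀ χ ∈ Cfsg.inducedIrrAbove
      ((P : Subgroup G).subgroupOf (Subgroup.normalizer ((P : Subgroup G) : Set G))) ⊥,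
      Cfsg.IsIrrCharacter _ χ := by
    intro χ hχ
    rw [hset] at hχ
    exact hχ.1
  have hseq := Cfsg.Agent.S1522.set_eq
    ((P : Subgroup G).subgroupOf (Subgroup.normalizer ((P : Subgroup G) : Set G)))
    (Z.subgroupOf (Subgroup.normalizer ((P : Subgroup G) : Set G))) hZK (fun χ hχ => hirr χ hχ.1)
  obtain ⟨χ, hχ⟩ := Cfsg.Agent.S1522.exists_not_above
    ((P : Subgroup G).subgroupOf (Subgroup.normalizer ((P : Subgroup G) : Set G)))
    (Z.subgroupOf (Subgroup.normalizer ((P : Subgroup G) : Set G))) hZK hZ1'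
  have hgoal : Cfsg.IsCoherent {χ : ↥(Subgroup.normalizer ((P : Subgroup G) : Set G)) → ℂ |
      Cfsg.IsIrrCharacter ↥(Subgroup.normalizer ((P : Subgroup G) : Set G)) χ ∧
      ∃ z ∈ Z.subgroupOf (Subgroup.normalizer ((P : Subgroup G) : Set G)), χ z ≠ χ 1} {1}ᶜ
      (fun α => Cfsg.indFun (Subgroup.normalizer ((P : Subgroup G) : Set G)) α) := by
    apply coherent_mono _ hcoh
    · rw [hseq] at hχ
      obtain ⟨h0, z, hz, hne⟩ := hχ
      have hc1 : conjFun χ 1 = χ 1 := conjFun_one_of_char (Helper83.IsIrr.isChar h0)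
      refine ⟨χ - conjFun χ, ?_, ?_⟩
      · rw [mem_zspanOn_one]
        refine ⟨Submodule.sub_mem _ (Submodule.subset_span ⟨h0, z, hz, hne⟩)
          (Submodule.subset_span ⟨isIrr_conjFun h0, z, hz, ?_⟩), ?_⟩
        · intro h
          apply hne
          have h2 := congrArg (starRingEnd ℂ) h
          rw [conjFun_apply, conjFun_apply, Complex.conj_conj, Complex.conj_conj] at h2
          exact h2
        · rw [Pi.sub_apply, hc1, sub_self]
      · intro h
        have h1 := Cfsg.Agent.S0161.result hodd ⟨χ, h0⟩ (by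
          intro g
          have := congrFun (sub_eq_zero.1 h) g
          rw [conjFun_apply] at this
          exact Complex.conj_eq_iff_im.1 this.symm)
        apply hne
        have h2 : χ = fun _ => 1 := h1
        rw [h2]
    · rw [← hseq]
      exact Set.sdiff_subset
  exact hgoal

end Cfsg.Agent.S1532
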