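import Cfsg.Statements.S1533
-- import your own Cfsg.Agent.* helpers here
import Cfsg.Agent.Lib.Helper32.Feit2

set_option autoImplicit false
open Cfsg

namespace Cfsg.Agent.S1533

open Cfsg.Agent.Lib.Helper32 Cfsg.Agent.Lib

/-- Let G be a finite group, p an odd prime, and P a nontrivial Sylow p-subgroup whose underlying set is a TI-subset of G, with P properly contained in its set normaliser N and C_G(x) ≤ P for every non-identity x ∈ P. Let S be the set of irreducible characters χ of N with χ x ≠ χ 1 for some x ∈ P. Then either S has exactly one member, P is elementary abelian and Nat.card P = [N:P] + 1; or (S, N minus 1, induction to G) is coherent. -/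
theorem result {G : Type*} [Group G] [Fintype G] (p : ℕ) [Fact p.Prime] (hp : p ≠ 2) (P : Sylow p G) (hP1 : (P : Subgroup G) ≠ ⊥) (hTI : Cfsg.IsTISubset ((P : Subgroup G) : Set G)) (hlt : (P : Subgroup G) < Subgroup.normalizer ((P : Subgroup G) : Set G)) (hC : ∀ k ∈ (P : Subgroup G), k ≠ 1 → Subgroup.centralizer ({k} : Set G) ≤ (P : Subgroup G)) [Fintype ↥(Subgroup.normalizer ((P : Subgroup G) : Set G))] : (Nat.card {χ : ↥(Subgroup.normalizer ((P : Subgroup G) : Set G)) → ℂ // Cfsg.IsIrrCharacter ↥(Subgroup.normalizer ((P : Subgroup G) : Set G)) χ ∧ ∃ x : ↥(Subgroup.normalizer ((P : Subgroup G) : Set G)), (x : G) ∈ (P : Subgroup G) ∧ χ x ≠ χ 1} = 1 ∧ Cfsg.IsElementaryAbelian p (P : Subgroup G) ∧ Nat.card (P : Subgroup G) = ((P : Subgroup G).subgroupOf (Subgroup.normalizer ((P : Subgroup G) : Set G))).index + 1) ∨ Cfsg.IsCoherent {χ : ↥(Subgroup.normalizer ((P : Subgroup G) : Set G)) → ℂ | Cfsg.IsIrrCharacter ↥(Subgroup.normalizer ((P : Subgroup G) : Set G)) χ ∧ ∃ x : ↥(Subgroup.normalizer ((P : Subgroup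 G) : Set G)), (x : G) ∈ (P : Subgroup G) ∧ χ x ≠ χ 1} {1}ᶜ (fun α => Cfsg.indFun (Subgroup.normalizer ((P : Subgroup G) : Set G)) α) := by
  classical
  have hle : (P : Subgroup G) ≤ Subgroup.normalizer ((P : Subgroup G) : Set G) := hlt.le
  haveI hKn : ((P : Subgroup G).subgroupOf (Subgroup.normalizer ((P : Subgroup G) : Set G))).Normal :=
    ⟨fun k hk x => (Subgroup.mem_normalizer_iff.1 x.2 k).1 hk⟩
  have hset := ti_set_eq (P : Subgroup G) (Subgroup.normalizer ((P : Subgroup G) : Set G)) hC
  have hcardK : Nat.card ((P : Subgroup G).subgroupOf (Subgroup.normalizer ((P : Subgroup G) : Set G)))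
      = Nat.card (P : Subgroup G) := Nat.card_congr (Subgroup.subgroupOfEquivOfLe hle).toEquiv
  have hC' := ti_centralizer (P : Subgroup G) (Subgroup.normalizer ((P : Subgroup G) : Set G)) hC
  rcases Nat.even_or_odd (Nat.card (Subgroup.normalizer ((P : Subgroup G) : Set G))) with hev | hodd
  swap
  · right
    rw [← hset]
    exact ti_odd_case (P : Subgroup G) _ rfl hodd hP1 hlt (P.isPGroup'.isNilpotent) hTI hC
  have hPodd : Odd (Nat.card (P : Subgroup G)) := by
    obtain ⟨n, hn⟩ := P.isPGroup'.exists_card_eq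
    rw [hn]
    exact Odd.pow ((Fact.out : p.Prime).odd_of_ne_two hp)
  have h2 : 2 ∣ ((P : Subgroup G).subgroupOf (Subgroup.normalizer ((P : Subgroup G) : Set G))).index := by
    have h3 := hev.two_dvd
    rw [← Subgroup.card_mul_index ((P : Subgroup G).subgroupOf
      (Subgroup.normalizer ((P : Subgroup G) : Set G))), hcardK] at h3
    exact (Nat.Coprime.dvd_mul_left (Nat.coprime_two_left.2 hPodd)).1 h3
  have hab := frob_abelian_of_even _ hC' h2
  have hK1 : (P : Subgroup G).subgroupOf (Subgroup.normalizer ((P : Subgroup G) : Set G)) ≠ ⊥ := by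
    intro h
    apply hP1
    rw [eq_bot_iff]
    intro x hx
    have : (⟨x, hle hx⟩ : Subgroup.normalizer ((P : Subgroup G) : Set G)) ∈
      (P : Subgroup G).subgroupOf (Subgroup.normalizer ((P : Subgroup G) : Set G)) := hx
    rw [h, Subgroup.mem_bot] at this
    rw [Subgroup.mem_bot]
    exact congrArg Subtype.val this
  have hiso := ind_isometry (Subgroup.normalizer ((P : Subgroup G) : Set G)) (P : Subgroup G) hle hTI rfl
  rw [hset] at hiso
  rcases frob_abelian_case _ hC' hab hK1 (fun α => Cfsg.indFun (Subgroup.normalizer ((P : Subgroup G) : Set G)) α)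
    hiso (ind_map_one _ _) with ⟨h1, h3, q, hq, hexp⟩ | hcoh
  · left
    refine ⟨h1, ⟨⟨⟨fun a b => Subtype.ext ?_⟩⟩, ?_⟩, ?_⟩
    · have := congrArg (fun z : Subgroup.normalizer ((P : Subgroup G) : Set G) => (z : G))
        (hab ⟨a, hle a.2⟩ a.2 ⟨b, hle b.2⟩ b.2)
      exact this
    · have hqp : q = p := by
        obtain ⟨x, hx1⟩ := Subgroup.ne_bot_iff_exists_ne_one.1 hP1
        have h4 : (x : G) ^ q = 1 := by
          have := congrArg (fun z : Subgroup.normalizer ((P : Subgroup G) : Set G) => (z : G))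
            (hexp ⟨x, hle x.2⟩ x.2)
          exact this
        have h5 : orderOf (x : G) ∣ q := orderOf_dvd_of_pow_eq_one h4
        have h6 : orderOf (x : G) ≠ 1 := by
          rw [Ne, orderOf_eq_one_iff]
          exact fun h => hx1 (Subtype.ext h)
        have h7 : orderOf (x : G) = q := (Nat.dvd_prime hq).1 h5 |>.resolve_left h6
        obtain ⟨k, hk⟩ := P.isPGroup' x
        have h8 : orderOf (x : G) ∣ p ^ k := by
          apply orderOf_dvd_of_pow_eq_one
          exact congrArg Subtype.val hk
        rw [h7] at h8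
        exact (Nat.prime_dvd_prime_iff_eq hq Fact.out).1 (hq.dvd_of_dvd_pow h8)
      intro a ha
      rw [← hqp]
      have := congrArg (fun z : Subgroup.normalizer ((P : Subgroup G) : Set G) => (z : G))
        (hexp ⟨a, hle ha⟩ ha)
      exact this
    · rw [← hcardK]; exact h3
  · right
    exact hcoh

end Cfsg.Agent.S1533
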