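import Cfsg.Statements.S1536
import Cfsg.Agent.Lib.Helper77.GlaubCount2
import Cfsg.Agent.Lib.Helper4.CharBasic

set_option autoImplicit false
open Cfsg

namespace Cfsg.Agent.S1536
/-- Let H be a normal subgroup of the finite group M whose order is coprime to its index. For x ∈ M: some non-principal irreducible character of H is unchanged under h ↦ θ(x h x⁻¹) if and only if some non-identity element of H commutes with x. -/
theorem result {M : Type*} [Group M] [Finite M] (H : Subgroup M) [hN : H.Normal] (hHall : Nat.Coprime (Nat.card H) H.index) (x : M) : (∃ θ : H → ℂ, Cfsg.IsIrrCharacter H θ ∧ θ ≠ (fun _ => 1) ∧ (fun h : H => θ ⟨x * h * x⁻¹, hN.conj_mem h h.2 x⟩) = θ) ↔ ∃ h ∈ H, h ≠ 1 ∧ x * h = h * x := by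
  classical
  have hfinI : Finite (Cfsg.IrrCharacter H) := Cfsg.Agent.Lib.Helper20.finite_irrCharacter
  obtain ⟨a, b, hab⟩ : IsCoprime (Nat.card H : ℤ) (H.index : ℤ) := Nat.isCoprime_iff_coprime.2 hHall
  set y : M := x ^ (a * (Nat.card H : ℤ)) with hy
  set h₀ : M := x ^ (b * (H.index : ℤ)) with hh₀
  have hxy : x = y * h₀ := by
    rw [hy, hh₀, ← zpow_add, hab, zpow_one]
  have hh₀H : h₀ ∈ H := by
    rw [hh₀, mul_comm, zpow_mul, zpow_natCast]
    exact H.zpow_mem (Subgroup.pow_index_mem H x) b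
  have hyord : y ^ H.index = 1 := by
    rw [hy, ← zpow_natCast, ← zpow_mul, mul_assoc]
    have : (Nat.card H : ℤ) * (H.index : ℤ) = (Nat.card M : ℤ) := by
      exact_mod_cast Subgroup.card_mul_index H
    rw [this, mul_comm, zpow_mul, zpow_natCast, pow_card_eq_one', one_zpow]
  have hcop : (orderOf y).Coprime (Nat.card H) :=
    (Nat.Coprime.coprime_dvd_right (orderOf_dvd_of_pow_eq_one hyord) hHall).symm
  have hnorm : ∀ z : M, z ∈ Subgroup.normalizer (H : Set M) := by
    intro z; rw [Subgroup.normalizer_eq_top]; trivial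
  have hcard := Cfsg.Agent.Lib.Helper77.card_inv_irr_eq H y (hnorm y) hcop _ rfl
  have hinv_iff : ∀ (z : M) (θ : H → ℂ),
      (fun h : H => θ ⟨z * h * z⁻¹, hN.conj_mem h h.2 z⟩) = θ ↔
        z ∈ Cfsg.Agent.Lib.Helper77.stabSub H θ := by
    intro z θ
    rw [Cfsg.Agent.Lib.Helper77.mem_stabSub]
    constructor
    · intro h
      refine ⟨hnorm z, ?_⟩
      intro g g' hg
      have : g' = ⟨z * g * z⁻¹, hN.conj_mem g g.2 z⟩ := Subtype.ext hg
      rw [this]
      exact congrFun h g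
    · rintro ⟨-, h⟩
      funext g
      exact h g _ rfl
  have hone : Cfsg.IsIrrCharacter H (fun _ => 1 : H → ℂ) := Cfsg.Agent.Lib.Helper4.isIrrCharacter_one
  have hone_inv : Cfsg.Agent.Lib.Helper77.InvUnder H y (fun _ => 1 : H → ℂ) := fun _ _ _ => rfl
  constructor
  · rintro ⟨θ, hθ, hθ1, hθx⟩
    have hx_st := (hinv_iff x θ).1 hθx
    have hy_st : y ∈ Cfsg.Agent.Lib.Helper77.stabSub H θ := Subgroup.zpow_mem _ hx_st _
    have h2 : 1 < Nat.card {χ : Cfsg.IrrCharacter H //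
        Cfsg.Agent.Lib.Helper77.InvUnder H y (χ : H → ℂ)} := by
      rw [Finite.one_lt_card_iff_nontrivial]
      refine ⟨⟨⟨⟨θ, hθ⟩, hy_st.2⟩, ⟨⟨_, hone⟩, hone_inv⟩, ?_⟩⟩
      intro h
      exact hθ1 (congrArg (fun z => (z.1 : H → ℂ)) h)
    rw [hcard, Finite.one_lt_card_iff_nontrivial] at h2
    obtain ⟨c, hc⟩ : ∃ c : (H ⊓ Subgroup.centralizer ({y} : Set M) : Subgroup M), c ≠ 1 := by
      by_contra hcon
      push Not at hcon
      obtain ⟨u, v, huv⟩ := h2
      apply huv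
      obtain ⟨u, rfl⟩ := ConjClasses.mk_surjective u
      obtain ⟨v, rfl⟩ := ConjClasses.mk_surjective v
      rw [hcon u, hcon v]
    by_cases h1 : h₀ = 1
    · refine ⟨c, c.2.1, fun h => hc (Subtype.ext h), ?_⟩
      rw [hxy, h1, mul_one]
      exact (Subgroup.mem_centralizer_singleton_iff.1 c.2.2).symm
    · refine ⟨h₀, hh₀H, h1, ?_⟩
      rw [hh₀]
      exact ((Commute.refl x).zpow_right _).eq
  · rintro ⟨h, hhH, hh1, hxh⟩
    have hyh : h * y = y * h := by
      rw [hy]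
      exact ((show Commute h x from hxh.symm).zpow_right _).eq
    have hmem : h ∈ (H ⊓ Subgroup.centralizer ({y} : Set M) : Subgroup M) :=
      ⟨hhH, Subgroup.mem_centralizer_singleton_iff.2 hyh⟩
    have h2 : 1 < Nat.card (ConjClasses (H ⊓ Subgroup.centralizer ({y} : Set M) : Subgroup M)) := by
      rw [Finite.one_lt_card_iff_nontrivial]
      refine ⟨⟨ConjClasses.mk ⟨h, hmem⟩, ConjClasses.mk 1, ?_⟩⟩
      intro he
      rw [ConjClasses.mk_eq_mk_iff_isConj, isConj_one_left] at he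
      exact hh1 (congrArg Subtype.val he)
    rw [← hcard, Finite.one_lt_card_iff_nontrivial] at h2
    obtain ⟨χ, hχ⟩ := exists_ne (⟨⟨_, hone⟩, hone_inv⟩ : {χ : Cfsg.IrrCharacter H //
        Cfsg.Agent.Lib.Helper77.InvUnder H y (χ : H → ℂ)})
    refine ⟨χ.1, χ.1.2, ?_, ?_⟩
    · intro h
      exact hχ (Subtype.ext (Subtype.ext h))
    · rw [hinv_iff, hxy]
      refine Subgroup.mul_mem _ ⟨hnorm y, χ.2⟩ ?_
      exact Cfsg.Agent.Lib.Helper77.le_stabSub_self H
        (Cfsg.Agent.Lib.Helper20.isClassFunction_of_isCharacter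
          (Cfsg.Agent.Lib.Helper20.isCharacter_of_isIrrCharacter χ.1.2)) hh₀H

end Cfsg.Agent.S1536
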