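import Cfsg.Statements.S1546
import Mathlib

set_option autoImplicit false
open Cfsg

namespace Cfsg.Agent.S1546

lemma geom_modEq (p q m : ℕ) (h : p ≡ 1 [MOD m]) : (∑ k ∈ Finset.range q, p ^ k) ≡ q [MOD m] := by
  induction q with
  | zero => simp [Nat.ModEq]
  | succ n ih =>
    rw [Finset.sum_range_succ]
    have h1 : p ^ n ≡ 1 [MOD m] := by
      have := h.pow n
      simpa using this
    exact ih.add h1

lemma all_dvd_mod (q N : ℕ) (hq : 1 < q) (hN : N ≠ 0)
    (hpr : ∀ r : ℕ, r.Prime → r ∣ N → r % q = 1) : ∀ x : ℕ, x ∣ N → x % q = 1 := by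
  intro x
  induction x using Nat.recOnMul with
  | zero => intro h; exact absurd (Nat.eq_zero_of_zero_dvd h) hN
  | one => intro _; exact Nat.mod_eq_of_lt hq
  | prime r hr => intro h; exact hpr r hr h
  | mul a b iha ihb =>
    intro h
    have ha := iha (Dvd.dvd.trans (Dvd.intro _ rfl) h)
    have hb := ihb (Dvd.dvd.trans (Dvd.intro_left _ rfl) h)
    rw [Nat.mul_mod, ha, hb]
    simpa using Nat.mod_eq_of_lt hq

/-- Let p and q be odd primes and N = (p ^ q − 1) / (p − 1) = 1 + p + ⋯ + p^(q−1). Then N is odd; if p ≡ 1 (mod q) then q ∣ N; and if p is not ≡ 1 (mod q) then N is coprime to p − 1 and every divisor of N is ≡ 1 (mod q). -/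
theorem result (p q : ℕ) (hp : p.Prime) (hq : q.Prime) (hp2 : p ≠ 2) (hq2 : q ≠ 2) : Odd ((p ^ q - 1) / (p - 1)) ∧ (p % q = 1 → q ∣ (p ^ q - 1) / (p - 1)) ∧ (p % q ≠ 1 → Nat.Coprime ((p ^ q - 1) / (p - 1)) (p - 1) ∧ ∀ x : ℕ, x ∣ (p ^ q - 1) / (p - 1) → x % q = 1) := by
  have hp2' : 2 ≤ p := hp.two_le
  have hq1 : 1 < q := hq.one_lt
  rw [← Nat.geomSum_eq hp2' q]
  set N := ∑ k ∈ Finset.range q, p ^ k with hN
  have hNmul : N * (p - 1) = p ^ q - 1 := by
    have := Nat.geomSum_eq hp2' q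
    have hdvd : (p - 1) ∣ p ^ q - 1 := by
      simpa using Nat.sub_dvd_pow_sub_pow p 1 q
    rw [hN, this, Nat.div_mul_cancel hdvd]
  have hNpos : N ≠ 0 := by
    intro h0
    rw [h0, zero_mul] at hNmul
    have : 1 < p ^ q := Nat.one_lt_pow hq.ne_zero hp.one_lt
    omega
  have hpodd : Odd p := hp.odd_of_ne_two hp2
  have hqodd : Odd q := hq.odd_of_ne_two hq2
  refine ⟨?_, ?_, ?_⟩
  · have h1 : p ≡ 1 [MOD 2] := by
      rcases hpodd with ⟨k, rfl⟩
      simp [Nat.ModEq, Nat.add_mod]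
    have h2 := geom_modEq p q 2 h1
    rw [Nat.odd_iff] at hqodd ⊢
    rw [← hqodd]; exact h2
  · intro h
    have h1 : p ≡ 1 [MOD q] := by
      rw [Nat.ModEq, h, Nat.mod_eq_of_lt hq1]
    have h2 := geom_modEq p q q h1
    exact (Nat.modEq_zero_iff_dvd).1 (h2.trans (by simp [Nat.ModEq]))
  · intro h
    have hcop : Nat.Coprime N (p - 1) := by
      have h1 : p ≡ 1 [MOD (p - 1)] := by
        have : p = 1 + (p - 1) := by omega
        conv_lhs => rw [this]
        simp [Nat.ModEq]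
      have h2 := geom_modEq p q (p - 1) h1
      have h3 : Nat.gcd N (p - 1) = Nat.gcd q (p - 1) := h2.gcd_eq
      rw [Nat.Coprime, h3]
      rw [← Nat.Coprime, Nat.Prime.coprime_iff_not_dvd hq]
      intro hd
      apply h
      obtain ⟨c, hc⟩ := hd
      have : p = 1 + q * c := by omega
      rw [this, Nat.add_mul_mod_self_left, Nat.mod_eq_of_lt hq1]
    refine ⟨hcop, ?_⟩
    apply all_dvd_mod q N hq1 hNpos
    intro r hr hrN
    have : Fact r.Prime := ⟨hr⟩
    have : Fact q.Prime := ⟨hq⟩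
    have hrpq : r ∣ p ^ q - 1 := hNmul ▸ Dvd.dvd.mul_right hrN _
    have hpq1 : ((p : ZMod r)) ^ q = 1 := by
      have h1 : ((p ^ q - 1 : ℕ) : ZMod r) = 0 := (ZMod.natCast_eq_zero_iff _ _).2 hrpq
      rw [Nat.cast_sub (Nat.one_le_pow _ _ hp.pos)] at h1
      push_cast at h1
      exact sub_eq_zero.1 h1
    have hpne : (p : ZMod r) ≠ 1 := by
      intro h1
      have h2 : ((p - 1 : ℕ) : ZMod r) = 0 := by
        rw [Nat.cast_sub hp.pos]; push_cast; rw [h1]; ring
      have h3 : r ∣ p - 1 := (ZMod.natCast_eq_zero_iff _ _).1 h2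
      have h4 : r ∣ Nat.gcd N (p - 1) := Nat.dvd_gcd hrN h3
      rw [hcop] at h4
      exact hr.one_lt.ne' (Nat.dvd_one.1 h4)
    have hord : orderOf (p : ZMod r) = q := orderOf_eq_prime hpq1 hpne
    have hp0 : (p : ZMod r) ≠ 0 := by
      intro h0
      rw [h0, zero_pow hq.ne_zero] at hpq1
      exact zero_ne_one hpq1
    have hdvd : q ∣ r - 1 := by
      rw [← hord]
      exact ZMod.orderOf_dvd_card_sub_one hp0
    obtain ⟨c, hc⟩ := hdvd
    have : r = 1 + q * c := by have := hr.pos; omega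
    rw [this, Nat.add_mul_mod_self_left, Nat.mod_eq_of_lt hq1]

end Cfsg.Agent.S1546
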