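import Cfsg.Statements.S1551
import Cfsg.Agent.Lib.Helper34.SextetStab

set_option autoImplicit false
open scoped Pointwise
open Cfsg

namespace Cfsg.Agent.S1551

/-- Structure of a sextet stabiliser: it induces every permutation of the six tetrads, the subgroup fixing each tetrad setwise has order 192, and there is a normal subgroup of order 64 consisting of elements squaring to the identity. -/
theorem result (S : Finset (Finset Cfsg.GolayPt)) (hS : S ∈ Cfsg.sextets) : (∀ e : Equiv.Perm ↥S, ∃ g ∈ MulAction.stabilizer Cfsg.M24 S, ∀ t : ↥S, (g : Equiv.Perm Cfsg.GolayPt) • (t : Finset Cfsg.GolayPt) = ((e t : ↥S) : Finset Cfsg.GolayPt)) ∧ Nat.card {g : ↥(MulAction.stabilizer Cfsg.M24 S) // ∀ t ∈ S, ((g : Cfsg.M24) : Equiv.Perm Cfsg.GolayPt) • t = t} = 192 ∧ ∃ N : Subgroup ↥(MulAction.stabilizer Cfsg.M24 S), N.Normal ∧ Nat.card N = 64 ∧ ∀ x ∈ N, x * x = 1 := by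
  refine ⟨?_, ?_, Cfsg.Agent.Lib.Helper34.sextet_stab_normal hS⟩
  · intro e
    obtain ⟨g, hg⟩ := Cfsg.Agent.Lib.Helper34.famHom_surjective (Cfsg.Agent.Lib.Helper34.sextet_swap hS) e
    refine ⟨g.1, g.2, fun t => ?_⟩
    rw [← hg]
    rfl
  · rw [← Cfsg.Agent.Lib.Helper34.card_sextet_ker hS]
    apply Nat.card_congr
    exact Equiv.subtypeEquivRight (fun g => Cfsg.Agent.Lib.Helper34.mem_famHom_ker.symm)

end Cfsg.Agent.S1551
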