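import Cfsg.Statements.S1552
import Cfsg.Agent.Lib.Helper33.SextetData
import Cfsg.Agent.Lib.Helper33.Orbit3

set_option autoImplicit false
open scoped Pointwise
open Cfsg

namespace Cfsg.Agent.S1552

/-- A sextet stabiliser has four orbits on the 1771 sextets, of sizes 1, 90, 240, 1440; and the stabiliser is a maximal proper subgroup. -/
theorem result (S : Finset (Finset Cfsg.GolayPt)) (hS : S ∈ Cfsg.sextets) : ∃ X₁ ∈ Cfsg.sextets, ∃ X₂ ∈ Cfsg.sextets, ∃ X₃ ∈ Cfsg.sextets, (MulAction.orbit ↥(MulAction.stabilizer Cfsg.M24 S) X₁).ncard = 90 ∧ (MulAction.orbit ↥(MulAction.stabilizer Cfsg.M24 S) X₂).ncard = 240 ∧ (MulAction.orbit ↥(MulAction.stabilizer Cfsg.M24 S) X₃).ncard = 1440 ∧ Cfsg.sextets = {S} ∪ MulAction.orbit ↥(MulAction.stabilizer Cfsg.M24 S) X₁ ∪ MulAction.orbit ↥(MulAction.stabilizer Cfsg.M24 S) X₂ ∪ MulAction.orbit ↥(MulAction.stabilizer Cfsg.M24 S) X₃ ∧ IsCoatom (MulAction.stabilizer Cfsg.M24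 S) := by
  have D := Cfsg.Agent.Lib.Helper33.sx_rank
  have hself := Cfsg.Agent.Lib.Helper33.sx_self
  have e : ∀ i ∈ ({32, 36, 48, 96} : Finset ℕ), Cfsg.Agent.Lib.Helper33.sxSz i =
      (if i = 32 then 1440 else if i = 36 then 240 else if i = 48 then 90 else 1) := by
    intro i hi
    simp only [Finset.mem_insert, Finset.mem_singleton] at hi
    rcases hi with rfl | rfl | rfl | rfl
    · exact Cfsg.Agent.Lib.Helper33.sxSz_32
    · exact Cfsg.Agent.Lib.Helper33.sxSz_36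
    · exact Cfsg.Agent.Lib.Helper33.sxSz_48
    · exact Cfsg.Agent.Lib.Helper33.sxSz_96
  have h1 : Cfsg.Agent.Lib.Helper33.sxSz (Cfsg.Agent.Lib.Helper33.relSq
      (Cfsg.Agent.Lib.Helper33.objM Cfsg.Agent.Lib.Helper33.sxTab 6 0)
      (Cfsg.Agent.Lib.Helper33.objM Cfsg.Agent.Lib.Helper33.sxTab 6 0)) = 1 := by
    rw [hself]; exact Cfsg.Agent.Lib.Helper33.sxSz_96
  obtain ⟨X₁, hX₁, hr₁⟩ := D.exists_rel hS (i := 48) (by rw [Cfsg.Agent.Lib.Helper33.sxSz_48]; norm_num)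
  obtain ⟨X₂, hX₂, hr₂⟩ := D.exists_rel hS (i := 36) (by rw [Cfsg.Agent.Lib.Helper33.sxSz_36]; norm_num)
  obtain ⟨X₃, hX₃, hr₃⟩ := D.exists_rel hS (i := 32) (by rw [Cfsg.Agent.Lib.Helper33.sxSz_32]; norm_num)
  refine ⟨X₁, hX₁, X₂, hX₂, X₃, hX₃, ?_, ?_, ?_, ?_, ?_⟩
  · rw [D.ncard_orbit_stabilizer hS hX₁, hr₁]; exact Cfsg.Agent.Lib.Helper33.sxSz_48
  · rw [D.ncard_orbit_stabilizer hS hX₂, hr₂]; exact Cfsg.Agent.Lib.Helper33.sxSz_36
  · rw [D.ncard_orbit_stabilizer hS hX₃, hr₃]; exact Cfsg.Agent.Lib.Helper33.sxSz_32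
  · rw [D.orbit_stabilizer_eq hS hX₁, D.orbit_stabilizer_eq hS hX₂, D.orbit_stabilizer_eq hS hX₃, hr₁, hr₂, hr₃]
    ext y
    simp only [Set.mem_union, Set.mem_singleton_iff, Set.mem_ofPred_eq]
    constructor
    · intro hy
      have hJ := D.relJ' {32, 36, 48, 96} Cfsg.Agent.Lib.Helper33.sx_relJ hS hy
      simp only [Finset.mem_insert, Finset.mem_singleton] at hJ
      rcases hJ with h | h | h | h
      · exact Or.inr ⟨hy, h⟩
      · exact Or.inl (Or.inr ⟨hy, h⟩)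
      · exact Or.inl (Or.inl (Or.inr ⟨hy, h⟩))
      · exact Or.inl (Or.inl (Or.inl (D.diag' h1 hS hy (by rw [h, hself]))))
    · rintro (((rfl | h) | h) | h)
      · exact hS
      · exact h.1
      · exact h.1
      · exact h.1
  · refine D.isCoatom_stabilizer {32, 36, 48, 96} Cfsg.Agent.Lib.Helper33.sx_relJ (D.diag_of_sz h1) ?_ ?_ hS
    · rw [hself]
      intro I hI
      rw [Finset.sum_congr rfl (fun i hi => e i (Finset.mem_powerset.1 hI hi)), Finset.sum_congr rfl e]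
      revert I
      decide
    · rw [Finset.sum_congr rfl e]
      decide

end Cfsg.Agent.S1552
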