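import Cfsg.Statements.S1554
import Cfsg.Agent.Lib.Helper34.OctStab

set_option autoImplicit false
open scoped Pointwise
open Cfsg

namespace Cfsg.Agent.S1554

/-- An octad stabiliser is a split extension: the joint stabiliser of the octad and a point outside it is a complement to the pointwise stabiliser of the octad, and is isomorphic to the alternating group of degree 8. -/
theorem result (o : Finset Cfsg.GolayPt) (ho : o ∈ Cfsg.octads) (p : Cfsg.GolayPt) (hp : p ∉ o) : (Cfsg.M24 ⊓ fixingSubgroup (Equiv.Perm Cfsg.GolayPt) (o : Set Cfsg.GolayPt)) ⊓ (Cfsg.M24 ⊓ MulAction.stabilizer (Equiv.Perm Cfsg.GolayPt) o ⊓ MulAction.stabilizer (Equiv.Perm Cfsg.GolayPt) p) = ⊥ ∧ (Cfsg.M24 ⊓ fixingSubgroup (Equiv.Perm Cfsg.GolayPt) (o : Set Cfsg.GolayPt)) ⊔ (Cfsg.M24 ⊓ MulAction.stabilizer (Equiv.Perm Cfsg.GolayPt) o ⊓ MulAction.stabilizer (Equiv.Perm Cfsg.GolayPt) p) = (Cfsg.M24 ⊓ MulAction.stabilizer (Equiv.Perm Cfsg.GolayPt) o) ∧ Nonempty (↥(Cfsg.M24 ⊓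 MulAction.stabilizer (Equiv.Perm Cfsg.GolayPt) o ⊓ MulAction.stabilizer (Equiv.Perm Cfsg.GolayPt) p) ≃* alternatingGroup (Fin 8)) := by
  refine ⟨?_, ?_, ?_⟩
  · rw [eq_bot_iff]
    rintro g ⟨hT, hA⟩
    exact Subgroup.mem_bot.2 (Cfsg.Agent.Lib.Helper34.octT_free ho hp hT hA.2)
  · apply le_antisymm
    · exact sup_le (inf_le_inf_left _ (Cfsg.Agent.Lib.Helper34.fix_le_stab o)) inf_le_left
    · intro g hg
      have hgp : g p ∉ o := fun h => hp ((Cfsg.Agent.Lib.Helper34.mem_iff_of_smul_eq hg.2 p).1 h)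
      obtain ⟨t, ht, e⟩ := Cfsg.Agent.Lib.Helper34.octT_trans ho hp hgp
      have h1 : t⁻¹ * g ∈ Cfsg.M24 ⊓ MulAction.stabilizer (Equiv.Perm Cfsg.GolayPt) o ⊓
          MulAction.stabilizer (Equiv.Perm Cfsg.GolayPt) p := by
        refine ⟨Subgroup.mul_mem _ (Subgroup.inv_mem _
          ⟨ht.1, Cfsg.Agent.Lib.Helper34.fix_le_stab o ht.2⟩) hg, ?_⟩
        show (t⁻¹ * g) p = p
        rw [Equiv.Perm.mul_apply, Equiv.Perm.inv_eq_iff_eq, e]
      have h2 : g = t * (t⁻¹ * g) := by group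
      rw [h2]
      exact Subgroup.mul_mem_sup ht h1
  · -- the order of the stabiliser of the octad and the point
    have hcard : Nat.card ↥(Cfsg.M24 ⊓ MulAction.stabilizer (Equiv.Perm Cfsg.GolayPt) o ⊓
        MulAction.stabilizer (Equiv.Perm Cfsg.GolayPt) p) = 20160 := by
      have horb : MulAction.orbit ↥(Cfsg.M24 ⊓ MulAction.stabilizer (Equiv.Perm Cfsg.GolayPt) o) p =
          ((oᶜ : Finset Cfsg.GolayPt) : Set Cfsg.GolayPt) := by
        ext y
        rw [Finset.mem_coe, Finset.mem_compl]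
        constructor
        · rintro ⟨g, rfl⟩
          exact fun h => hp ((Cfsg.Agent.Lib.Helper34.mem_iff_of_smul_eq g.2.2 p).1 h)
        · intro hy
          obtain ⟨t, ht, e⟩ := Cfsg.Agent.Lib.Helper34.octT_trans ho hp hy
          exact ⟨⟨t, ht.1, Cfsg.Agent.Lib.Helper34.fix_le_stab o ht.2⟩, e⟩
      have h1 := Subgroup.card_mul_index (MulAction.stabilizer
        ↥(Cfsg.M24 ⊓ MulAction.stabilizer (Equiv.Perm Cfsg.GolayPt) o) p)
      rw [MulAction.index_stabilizer, horb, Set.ncard_coe_finset, Finset.card_compl, ho.2,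
        Cfsg.Agent.Lib.Helper34.card_octStab ho,
        Nat.card_congr (Cfsg.Agent.Lib.Helper9.stabSubgroupEquiv _ p).toEquiv] at h1
      have h24 : Fintype.card Cfsg.GolayPt = 24 := by decide
      rw [h24] at h1
      omega
    set A := Cfsg.M24 ⊓ MulAction.stabilizer (Equiv.Perm Cfsg.GolayPt) o ⊓
        MulAction.stabilizer (Equiv.Perm Cfsg.GolayPt) p with hA
    let φ : ↥A →* Equiv.Perm ↥o :=
      (Cfsg.Agent.Lib.Helper34.resHom o).comp (Subgroup.inclusion (inf_le_left : A ≤ _))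
    have hinj : Function.Injective φ := by
      rw [injective_iff_map_eq_one]
      intro g hg
      have h1 : (Subgroup.inclusion (inf_le_left : A ≤ _) g) ∈ (Cfsg.Agent.Lib.Helper34.resHom o).ker := hg
      rw [Cfsg.Agent.Lib.Helper34.mem_ker_resHom] at h1
      apply Subtype.ext
      exact Cfsg.Agent.Lib.Helper34.octT_free ho hp h1 g.2.2
    have hrange : φ.range = alternatingGroup ↥o := by
      apply Cfsg.Agent.Lib.Helper34.eq_alt_of_card ho
      rw [← Nat.card_congr (MonoidHom.ofInjective hinj).toEquiv, hcard]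
    exact ⟨(MonoidHom.ofInjective hinj).trans ((MulEquiv.subgroupCongr hrange).trans
      (Equiv.altCongrHom (o.equivFinOfCardEq ho.2)))⟩

end Cfsg.Agent.S1554
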