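import Cfsg.Statements.S1555
import Cfsg.Agent.Lib.Helper34.OctMeet

set_option autoImplicit false
open scoped Pointwise
open Cfsg

namespace Cfsg.Agent.S1555

/-- Bottom row of the Leech triangle: an octad is met in a prescribed pair of its points by exactly 16 octads and in a prescribed 4-subset by exactly 4 octads. -/
theorem result (o : Finset Cfsg.GolayPt) (ho : o ∈ Cfsg.octads) (s : Finset Cfsg.GolayPt) (hs : s ⊆ o) : (s.card = 2 → {o' : Finset Cfsg.GolayPt | o' ∈ Cfsg.octads ∧ o ∩ o' = s}.ncard = 16) ∧ (s.card = 4 → {o' : Finset Cfsg.GolayPt | o' ∈ Cfsg.octads ∧ o ∩ o' = s}.ncard = 4) := by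
  exact ⟨fun h => Cfsg.Agent.Lib.Helper34.octad_meet_two ho hs h, fun h => Cfsg.Agent.Lib.Helper34.octad_meet_four ho hs h⟩

end Cfsg.Agent.S1555
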