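import Cfsg.Statements.S1559
import Cfsg.Agent.Lib.Helper33.TrioData
import Cfsg.Agent.Lib.Helper33.Orbit2
import Cfsg.Agent.Lib.Helper33.Orbit3

set_option autoImplicit false
open scoped Pointwise
open Cfsg

namespace Cfsg.Agent.S1559

/-- A trio stabiliser has five orbits on the 3795 trios, of sizes 1, 42, 56, 1008, 2688; and the stabiliser is a maximal proper subgroup. -/
theorem result (T : Finset (Finset Cfsg.GolayPt)) (hT : T ∈ Cfsg.trios) : ∃ X₁ ∈ Cfsg.trios, ∃ X₂ ∈ Cfsg.trios, ∃ X₃ ∈ Cfsg.trios, ∃ X₄ ∈ Cfsg.trios, (MulAction.orbit ↥(MulAction.stabilizer Cfsg.M24 T) X₁).ncard = 42 ∧ (MulAction.orbit ↥(MulAction.stabilizer Cfsg.M24 T) X₂).ncard = 56 ∧ (MulAction.orbit ↥(MulAction.stabilizer Cfsg.M24 T) X₃).ncard = 1008 ∧ (MulAction.orbit ↥(MulAction.stabilizer Cfsg.M24 T) X₄).ncard = 2688 ∧ Cfsg.trios = {T} ∪ MulAction.orbit ↥(MulAction.stabilizer Cfsg.M24 T) X₁ ∪ MulAction.orbit ↥(MulAction.stabilizer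 Cfsg.M24 T) X₂ ∪ MulAction.orbit ↥(MulAction.stabilizer Cfsg.M24 T) X₃ ∪ MulAction.orbit ↥(MulAction.stabilizer Cfsg.M24 T) X₄ ∧ IsCoatom (MulAction.stabilizer Cfsg.M24 T) := by
  have D := Cfsg.Agent.Lib.Helper33.tr_rank
  have hself := Cfsg.Agent.Lib.Helper33.tr_self
  have e : ∀ i ∈ ({72, 80, 96, 128, 192} : Finset ℕ), Cfsg.Agent.Lib.Helper33.trSz i =
      (if i = 72 then 2688 else if i = 80 then 1008 else if i = 96 then 56 else if i = 128 then 42 else 1) := by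
    intro i hi
    simp only [Finset.mem_insert, Finset.mem_singleton] at hi
    rcases hi with rfl | rfl | rfl | rfl | rfl
    · exact Cfsg.Agent.Lib.Helper33.trSz_72
    · exact Cfsg.Agent.Lib.Helper33.trSz_80
    · exact Cfsg.Agent.Lib.Helper33.trSz_96
    · exact Cfsg.Agent.Lib.Helper33.trSz_128
    · exact Cfsg.Agent.Lib.Helper33.trSz_192
  have h1 : Cfsg.Agent.Lib.Helper33.trSz (Cfsg.Agent.Lib.Helper33.relSq
      (Cfsg.Agent.Lib.Helper33.objM Cfsg.Agent.Lib.Helper33.trTab 3 0)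
      (Cfsg.Agent.Lib.Helper33.objM Cfsg.Agent.Lib.Helper33.trTab 3 0)) = 1 := by
    rw [hself]; exact Cfsg.Agent.Lib.Helper33.trSz_192
  obtain ⟨X₁, hX₁, hr₁⟩ := D.exists_rel hT (i := 128) (by rw [Cfsg.Agent.Lib.Helper33.trSz_128]; norm_num)
  obtain ⟨X₂, hX₂, hr₂⟩ := D.exists_rel hT (i := 96) (by rw [Cfsg.Agent.Lib.Helper33.trSz_96]; norm_num)
  obtain ⟨X₃, hX₃, hr₃⟩ := D.exists_rel hT (i := 80) (by rw [Cfsg.Agent.Lib.Helper33.trSz_80]; norm_num)
  obtain ⟨X₄, hX₄, hr₄⟩ := D.exists_rel hT (i := 72) (by rw [Cfsg.Agent.Lib.Helper33.trSz_72]; norm_num)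
  refine ⟨X₁, hX₁, X₂, hX₂, X₃, hX₃, X₄, hX₄, ?_, ?_, ?_, ?_, ?_, ?_⟩
  · rw [D.ncard_orbit_stabilizer hT hX₁, hr₁]; exact Cfsg.Agent.Lib.Helper33.trSz_128
  · rw [D.ncard_orbit_stabilizer hT hX₂, hr₂]; exact Cfsg.Agent.Lib.Helper33.trSz_96
  · rw [D.ncard_orbit_stabilizer hT hX₃, hr₃]; exact Cfsg.Agent.Lib.Helper33.trSz_80
  · rw [D.ncard_orbit_stabilizer hT hX₄, hr₄]; exact Cfsg.Agent.Lib.Helper33.trSz_72
  · rw [D.orbit_stabilizer_eq hT hX₁, D.orbit_stabilizer_eq hT hX₂, D.orbit_stabilizer_eq hT hX₃,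
      D.orbit_stabilizer_eq hT hX₄, hr₁, hr₂, hr₃, hr₄]
    ext y
    simp only [Set.mem_union, Set.mem_singleton_iff, Set.mem_ofPred_eq]
    constructor
    · intro hy
      have hJ := D.relJ' {72, 80, 96, 128, 192} Cfsg.Agent.Lib.Helper33.tr_relJ hT hy
      simp only [Finset.mem_insert, Finset.mem_singleton] at hJ
      rcases hJ with h | h | h | h | h
      · exact Or.inr ⟨hy, h⟩
      · exact Or.inl (Or.inr ⟨hy, h⟩)
      · exact Or.inl (Or.inl (Or.inr ⟨hy, h⟩))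
      · exact Or.inl (Or.inl (Or.inl (Or.inr ⟨hy, h⟩)))
      · exact Or.inl (Or.inl (Or.inl (Or.inl (D.diag' h1 hT hy (by rw [h, hself])))))
    · rintro ((((rfl | h) | h) | h) | h)
      · exact hT
      · exact h.1
      · exact h.1
      · exact h.1
      · exact h.1
  · refine D.isCoatom_stabilizer {72, 80, 96, 128, 192} Cfsg.Agent.Lib.Helper33.tr_relJ (D.diag_of_sz h1) ?_ ?_ hT
    · rw [hself]
      intro I hI
      rw [Finset.sum_congr rfl (fun i hi => e i (Finset.mem_powerset.1 hI hi)), Finset.sum_congr rfl e]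
      revert I
      decide
    · rw [Finset.sum_congr rfl e]
      decide

end Cfsg.Agent.S1559
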