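import Cfsg.Statements.S1560
import Cfsg.Agent.Lib.Helper33.DodData
import Cfsg.Agent.Lib.Helper33.Orbit2

set_option autoImplicit false
open scoped Pointwise
open Cfsg

namespace Cfsg.Agent.S1560

/-- Intersection numbers of dodecads: a dodecad meets every other dodecad in 0, 4, 6 or 8 points, meeting 495 of them in 4 points, 1584 in 6 points and 495 in 8 points. -/
theorem result (d : Finset Cfsg.GolayPt) (hd : d ∈ Cfsg.dodecads) : (∀ d' ∈ Cfsg.dodecads, d' ≠ d → (d ∩ d').card = 0 ∨ (d ∩ d').card = 4 ∨ (d ∩ d').card = 6 ∨ (d ∩ d').card = 8) ∧ {d' : Finset Cfsg.GolayPt | d' ∈ Cfsg.dodecads ∧ (d ∩ d').card = 4}.ncard = 495 ∧ {d' : Finset Cfsg.GolayPt | d' ∈ Cfsg.dodecads ∧ (d ∩ d').card = 6}.ncard = 1584 ∧ {d' : Finset Cfsg.GolayPt | d' ∈ Cfsg.dodecads ∧ (d ∩ d').card = 8}.ncard = 495 := by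
  refine ⟨?_, ?_, ?_, ?_⟩
  · intro d' hd' hne
    have h := Cfsg.Agent.Lib.Helper33.dod_rank.relJ' {0, 4, 6, 8, 12} Cfsg.Agent.Lib.Helper33.dod_relJ hd hd'
    simp only [Finset.mem_insert, Finset.mem_singleton] at h
    rcases h with h | h | h | h | h
    · exact Or.inl h
    · exact Or.inr (Or.inl h)
    · exact Or.inr (Or.inr (Or.inl h))
    · exact Or.inr (Or.inr (Or.inr h))
    · exfalso
      apply hne
      have h1 : d ∩ d' = d := Finset.eq_of_subset_of_card_le Finset.inter_subset_left (by rw [h, hd.2])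
      have h2 : d ∩ d' = d' := Finset.eq_of_subset_of_card_le Finset.inter_subset_right (by rw [h, hd'.2])
      rw [← h2, h1]
  · have := Cfsg.Agent.Lib.Helper33.dod_rank.count' hd 4
    rw [Cfsg.Agent.Lib.Helper33.dodSz_4] at this
    exact this
  · have := Cfsg.Agent.Lib.Helper33.dod_rank.count' hd 6
    rw [Cfsg.Agent.Lib.Helper33.dodSz_6] at this
    exact this
  · have := Cfsg.Agent.Lib.Helper33.dod_rank.count' hd 8
    rw [Cfsg.Agent.Lib.Helper33.dodSz_8] at this
    exact this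

end Cfsg.Agent.S1560
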