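import Cfsg.Statements.S1562
import Cfsg.Agent.Lib.Helper33.TriadData

set_option autoImplicit false
open scoped Pointwise
open Cfsg

namespace Cfsg.Agent.S1562

open Cfsg.Agent.Lib.Helper33 in
theorem rel_one_iff (T U : Finset GolayPt) :
    relOct T U = 1 ↔ (Disjoint T U ∧ ∃ o ∈ octads, T ∪ U ⊆ o) := by
  classical
  unfold relOct
  rw [Finset.disjoint_iff_inter_eq_empty, ← Finset.card_eq_zero]
  by_cases h : ∃ o ∈ octads, T ∪ U ⊆ o
  · rw [if_pos h]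
    constructor
    · intro h1; exact ⟨by omega, h⟩
    · rintro ⟨h1, _⟩; omega
  · rw [if_neg h]
    constructor
    · intro h1; omega
    · rintro ⟨_, h2⟩; exact absurd h2 h

open Cfsg.Agent.Lib.Helper33 in
theorem rel_zero_iff (T U : Finset GolayPt) :
    relOct T U = 0 ↔ (Disjoint T U ∧ ¬ ∃ o ∈ octads, T ∪ U ⊆ o) := by
  classical
  unfold relOct
  rw [Finset.disjoint_iff_inter_eq_empty, ← Finset.card_eq_zero]
  by_cases h : ∃ o ∈ octads, T ∪ U ⊆ o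
  · rw [if_pos h]
    constructor
    · intro h1; omega
    · rintro ⟨_, h2⟩; exact absurd h h2
  · rw [if_neg h]
    constructor
    · intro h1; exact ⟨by omega, h⟩
    · rintro ⟨h1, _⟩; omega


/-- Orbits of a triad stabiliser on the triads disjoint from it: the 210 triads inside a common octad with it form one orbit and the remaining 1120 another. -/
theorem result (T : Finset Cfsg.GolayPt) (hT : T.card = 3) : {U : Finset Cfsg.GolayPt | U.card = 3 ∧ Disjoint T U ∧ (∃ o ∈ Cfsg.octads, T ∪ U ⊆ o)}.ncard = 210 ∧ {U : Finset Cfsg.GolayPt | U.card = 3 ∧ Disjoint T U ∧ ¬ (∃ o ∈ Cfsg.octads, T ∪ U ⊆ o)}.ncard = 1120 ∧ ∀ U U' : Finset Cfsg.GolayPt, U.card = 3 → U'.card = 3 → Disjoint T U → Disjoint T U' → ((∃ o ∈ Cfsg.octads, T ∪ U ⊆ o) ↔ (∃ o ∈ Cfsg.octads, T ∪ U' ⊆ o)) → ∃ g : Equiv.Perm Cfsg.GolayPt, g ∈ Cfsg.M24 ∧ g • T = T ∧ g • U = U' := by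
  have D := Cfsg.Agent.Lib.Helper33.triad_rank
  have hT' : T ∈ {s : Finset GolayPt | s.card = 3} := hT
  refine ⟨?_, ?_, ?_⟩
  · have := D.count' hT' 1
    rw [Cfsg.Agent.Lib.Helper33.triadSz_1] at this
    rw [← this]
    congr 1
    ext U
    constructor
    · rintro ⟨h1, h2, h3⟩
      exact ⟨h1, (rel_one_iff T U).2 ⟨h2, h3⟩⟩
    · rintro ⟨h1, h2⟩
      exact ⟨h1, ((rel_one_iff T U).1 h2).1, ((rel_one_iff T U).1 h2).2⟩
  · have := D.count' hT' 0
    rw [Cfsg.Agent.Lib.Helper33.triadSz_0] at this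
    rw [← this]
    congr 1
    ext U
    constructor
    · rintro ⟨h1, h2, h3⟩
      exact ⟨h1, (rel_zero_iff T U).2 ⟨h2, h3⟩⟩
    · rintro ⟨h1, h2⟩
      exact ⟨h1, ((rel_zero_iff T U).1 h2).1, ((rel_zero_iff T U).1 h2).2⟩
  · intro U U' hU hU' hd hd' hiff
    have hrel : Cfsg.Agent.Lib.Helper33.relOct T U = Cfsg.Agent.Lib.Helper33.relOct T U' := by
      by_cases h : ∃ o ∈ Cfsg.octads, T ∪ U ⊆ o
      · rw [(rel_one_iff T U).2 ⟨hd, h⟩, (rel_one_iff T U').2 ⟨hd', hiff.1 h⟩]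
      · rw [(rel_zero_iff T U).2 ⟨hd, h⟩, (rel_zero_iff T U').2 ⟨hd', fun h2 => h (hiff.2 h2)⟩]
    obtain ⟨g, hg, hg'⟩ := D.trans₂' hT' (show U ∈ {s : Finset GolayPt | s.card = 3} from hU)
      (show U' ∈ {s : Finset GolayPt | s.card = 3} from hU') hrel
    exact ⟨g.1, g.2, hg, hg'⟩

end Cfsg.Agent.S1562
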