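import Cfsg.Statements.S1563
import Cfsg.Agent.Lib.Helper33.DuadData

set_option autoImplicit false
open scoped Pointwise
open Cfsg

namespace Cfsg.Agent.S1563

/-- The stabiliser of a pair of points (setwise) is a maximal proper subgroup of the group of the length-24 code. -/
theorem result (s : Finset Cfsg.GolayPt) (hs : s.card = 2) : IsCoatom (MulAction.stabilizer Cfsg.M24 s) := by
  have D := Cfsg.Agent.Lib.Helper33.duad_rank
  have h2 : (Cfsg.Agent.Lib.Helper33.unmask (Cfsg.Agent.Lib.Helper33.fld24 Cfsg.Agent.Lib.Helper33.duadTab 0) ∩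
      Cfsg.Agent.Lib.Helper33.unmask (Cfsg.Agent.Lib.Helper33.fld24 Cfsg.Agent.Lib.Helper33.duadTab 0)).card = 2 := by
    rw [Finset.inter_self]
    exact D.mem₀
  have e : ∀ i ∈ ({0, 1, 2} : Finset ℕ), Cfsg.Agent.Lib.Helper33.duadSz i =
      (if i = 0 then 231 else if i = 1 then 44 else 1) := by
    intro i hi
    simp only [Finset.mem_insert, Finset.mem_singleton] at hi
    rcases hi with rfl | rfl | rfl
    · exact Cfsg.Agent.Lib.Helper33.duadSz_0
    · exact Cfsg.Agent.Lib.Helper33.duadSz_1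
    · exact Cfsg.Agent.Lib.Helper33.duadSz_2
  refine D.isCoatom_stabilizer {0, 1, 2} Cfsg.Agent.Lib.Helper33.duad_relJ (D.diag_of_sz ?_) ?_ ?_ hs
  · show Cfsg.Agent.Lib.Helper33.duadSz _ = 1
    rw [h2]
    exact Cfsg.Agent.Lib.Helper33.duadSz_2
  · simp only [h2]
    intro I hI
    rw [Finset.sum_congr rfl (fun i hi => e i (Finset.mem_powerset.1 hI hi)), Finset.sum_congr rfl e]
    revert I
    decide
  · rw [Finset.sum_congr rfl e]
    decide

end Cfsg.Agent.S1563
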