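import Cfsg.Statements.S1564
import Cfsg.Agent.Lib.Helper33.TriadData

set_option autoImplicit false
open scoped Pointwise
open Cfsg

namespace Cfsg.Agent.S1564

/-- The stabiliser of a set of three points (setwise) is a maximal proper subgroup of the group of the length-24 code. -/
theorem result (s : Finset Cfsg.GolayPt) (hs : s.card = 3) : IsCoatom (MulAction.stabilizer Cfsg.M24 s) := by
  have D := Cfsg.Agent.Lib.Helper33.triad_rank
  have h7 : Cfsg.Agent.Lib.Helper33.relOct (Cfsg.Agent.Lib.Helper33.unmask (Cfsg.Agent.Lib.Helper33.fld24 Cfsg.Agent.Lib.Helper33.triadTab 0))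
      (Cfsg.Agent.Lib.Helper33.unmask (Cfsg.Agent.Lib.Helper33.fld24 Cfsg.Agent.Lib.Helper33.triadTab 0)) = 7 :=
    Cfsg.Agent.Lib.Helper33.triad_hc 0 (by norm_num)
  have e : ∀ i ∈ ({0, 1, 3, 5, 7} : Finset ℕ), Cfsg.Agent.Lib.Helper33.triadSz i =
      (if i = 0 then 1120 else if i = 1 then 210 else if i = 3 then 630 else if i = 5 then 63 else 1) := by
    intro i hi
    simp only [Finset.mem_insert, Finset.mem_singleton] at hi
    rcases hi with rfl | rfl | rfl | rfl | rfl
    · exact Cfsg.Agent.Lib.Helper33.triadSz_0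
    · exact Cfsg.Agent.Lib.Helper33.triadSz_1
    · exact Cfsg.Agent.Lib.Helper33.triadSz_3
    · exact Cfsg.Agent.Lib.Helper33.triadSz_5
    · exact Cfsg.Agent.Lib.Helper33.triadSz_7
  refine D.isCoatom_stabilizer {0, 1, 3, 5, 7} Cfsg.Agent.Lib.Helper33.triad_relJ (D.diag_of_sz ?_) ?_ ?_ hs
  · rw [h7]
    exact Cfsg.Agent.Lib.Helper33.triadSz_7
  · rw [h7]
    intro I hI
    rw [Finset.sum_congr rfl (fun i hi => e i (Finset.mem_powerset.1 hI hi)), Finset.sum_congr rfl e]
    revert I
    decide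
  · rw [Finset.sum_congr rfl e]
    decide

end Cfsg.Agent.S1564
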