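import Cfsg.Statements.S1565
import Cfsg.Agent.Lib.Helper33.OctData

set_option autoImplicit false
open scoped Pointwise
open Cfsg

namespace Cfsg.Agent.S1565

/-- The stabiliser of an octad is a maximal proper subgroup of the group of the length-24 code. -/
theorem result (o : Finset Cfsg.GolayPt) (ho : o ∈ Cfsg.octads) : IsCoatom (MulAction.stabilizer Cfsg.M24 o) := by
  refine Cfsg.Agent.Lib.Helper33.oct_rank.isCoatom_stabilizer {0, 2, 4, 8}
    Cfsg.Agent.Lib.Helper33.oct_relJ
    (Cfsg.Agent.Lib.Helper33.oct_rank.diag_of_sz ?_) ?_ ?_ ho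
  · have h8 : (Cfsg.Agent.Lib.Helper33.unmask (Cfsg.Agent.Lib.Helper33.fld24 Cfsg.Agent.Lib.Helper33.octTab 0) ∩
        Cfsg.Agent.Lib.Helper33.unmask (Cfsg.Agent.Lib.Helper33.fld24 Cfsg.Agent.Lib.Helper33.octTab 0)).card = 8 := by
      rw [Finset.inter_self]
      exact Cfsg.Agent.Lib.Helper33.oct_rank.mem₀.2
    show Cfsg.Agent.Lib.Helper33.octSz _ = 1
    rw [h8]
    exact Cfsg.Agent.Lib.Helper33.octSz_8
  · have h8 : (Cfsg.Agent.Lib.Helper33.unmask (Cfsg.Agent.Lib.Helper33.fld24 Cfsg.Agent.Lib.Helper33.octTab 0) ∩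
        Cfsg.Agent.Lib.Helper33.unmask (Cfsg.Agent.Lib.Helper33.fld24 Cfsg.Agent.Lib.Helper33.octTab 0)).card = 8 := by
      rw [Finset.inter_self]
      exact Cfsg.Agent.Lib.Helper33.oct_rank.mem₀.2
    simp only [h8]
    have e : ∀ i ∈ ({0, 2, 4, 8} : Finset ℕ), Cfsg.Agent.Lib.Helper33.octSz i =
        (if i = 0 then 30 else if i = 2 then 448 else if i = 4 then 280 else 1) := by
      intro i hi
      simp only [Finset.mem_insert, Finset.mem_singleton] at hi
      rcases hi with rfl | rfl | rfl | rfl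
      · exact Cfsg.Agent.Lib.Helper33.octSz_0
      · exact Cfsg.Agent.Lib.Helper33.octSz_2
      · exact Cfsg.Agent.Lib.Helper33.octSz_4
      · exact Cfsg.Agent.Lib.Helper33.octSz_8
    intro I hI
    rw [Finset.sum_congr rfl (fun i hi => e i (Finset.mem_powerset.1 hI hi)), Finset.sum_congr rfl e]
    revert I
    decide
  · have e : ∀ i ∈ ({0, 2, 4, 8} : Finset ℕ), Cfsg.Agent.Lib.Helper33.octSz i =
        (if i = 0 then 30 else if i = 2 then 448 else if i = 4 then 280 else 1) := by
      intro i hi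
      simp only [Finset.mem_insert, Finset.mem_singleton] at hi
      rcases hi with rfl | rfl | rfl | rfl
      · exact Cfsg.Agent.Lib.Helper33.octSz_0
      · exact Cfsg.Agent.Lib.Helper33.octSz_2
      · exact Cfsg.Agent.Lib.Helper33.octSz_4
      · exact Cfsg.Agent.Lib.Helper33.octSz_8
    rw [Finset.sum_congr rfl e]
    decide

end Cfsg.Agent.S1565
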