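import Cfsg.Statements.S1566
import Cfsg.Agent.Lib.Helper33.DodData
import Cfsg.Agent.Lib.Helper33.Orbit2

set_option autoImplicit false
open scoped Pointwise
open Cfsg

namespace Cfsg.Agent.S1566

open Cfsg.Agent.Lib.Helper33 in
theorem univ_mem_supports : (Finset.univ : Finset GolayPt) ∈ supports (golayCode : Set (GolayPt → ZMod 2)) := by
  rw [← unmask_all]
  exact (unmask_mem_supports_iff (by norm_num)).2 (by decide +kernel)

open Cfsg.Agent.Lib.Helper33 in
theorem compl_mem_dodecads {d : Finset GolayPt} (hd : d ∈ dodecads) : dᶜ ∈ dodecads := by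
  refine ⟨?_, ?_⟩
  · have := supports_symmDiff hd.1 univ_mem_supports
    have h2 : symmDiff d Finset.univ = dᶜ := by
      ext p; simp [Finset.mem_symmDiff]
    rwa [h2] at this
  · rw [Finset.card_compl, hd.2]; rfl

open Cfsg.Agent.Lib.Helper33 in
theorem szEq : ∀ i ∈ ({0, 4, 6, 8, 12} : Finset ℕ), dodSz i =
    (if i = 0 then 1 else if i = 4 then 495 else if i = 6 then 1584 else if i = 8 then 495 else 1) := by
  intro i hi
  simp only [Finset.mem_insert, Finset.mem_singleton] at hi
  rcases hi with rfl | rfl | rfl | rfl | rfl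
  · exact dodSz_0
  · exact dodSz_4
  · exact dodSz_6
  · exact dodSz_8
  · exact dodSz_12

theorem numeric : ∀ I ∈ ({0, 4, 6, 8, 12} : Finset ℕ).powerset, 12 ∈ I → 0 ∈ I → (∃ j ∈ I, j ≠ 0 ∧ j ≠ 12) →
    (∑ i ∈ I, (if i = 0 then 1 else if i = 4 then 495 else if i = 6 then 1584 else if i = 8 then 495 else 1)) ∣ 2576 →
    (∑ i ∈ I, (if i = 0 then 1 else if i = 4 then 495 else if i = 6 then 1584 else if i = 8 then 495 else 1)) = 2576 := by
  decide

theorem eq_of_card_inter {d y : Finset GolayPt} (hd : d.card = 12) (hy : y.card = 12)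
    (h : (d ∩ y).card = 12) : y = d := by
  have h1 : d ∩ y = d := Finset.eq_of_subset_of_card_le Finset.inter_subset_left (by rw [h, hd])
  have h2 : d ∩ y = y := Finset.eq_of_subset_of_card_le Finset.inter_subset_right (by rw [h, hy])
  rw [← h2, h1]

theorem eq_compl_of_card_inter {d y : Finset GolayPt} (hd : d.card = 12) (hy : y.card = 12)
    (h : (d ∩ y).card = 0) : y = dᶜ := by
  have h1 : Disjoint d y := by
    rw [Finset.disjoint_iff_inter_eq_empty]; exact Finset.card_eq_zero.1 h
  apply Finset.eq_of_subset_of_card_le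
  · intro p hp
    rw [Finset.mem_compl]
    exact fun hpd => (Finset.disjoint_left.1 h1 hpd hp)
  · rw [Finset.card_compl, hd, hy]; rfl

theorem mem_stab_iff {d : Finset GolayPt} (hd : d.card = 12) (g : ↥M24) :
    g ∈ MulAction.stabilizer ↥M24 ({d, dᶜ} : Finset (Finset GolayPt)) ↔ (g • d = d ∨ g • d = dᶜ) := by
  have hne : d ≠ dᶜ := by
    intro h
    have h1 : d.Nonempty := by rw [← Finset.card_pos, hd]; norm_num
    obtain ⟨p, hp⟩ := h1
    have hp' := hp
    rw [h, Finset.mem_compl] at hp'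
    exact hp' hp
  have hc : g • dᶜ = (g • d)ᶜ := by
    rw [Finset.compl_eq_univ_sdiff, Finset.smul_finset_sdiff, Finset.smul_finset_univ, Finset.compl_eq_univ_sdiff]
  rw [MulAction.mem_stabilizer_iff]
  have himg : g • ({d, dᶜ} : Finset (Finset GolayPt)) = {g • d, (g • d)ᶜ} := by
    rw [← hc]
    ext x
    simp only [Finset.mem_smul_finset, Finset.mem_insert, Finset.mem_singleton]
    constructor
    · rintro ⟨y, rfl | rfl, rfl⟩
      · exact Or.inl rfl
      · exact Or.inr rfl
    · rintro (rfl | rfl)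
      · exact ⟨d, Or.inl rfl, rfl⟩
      · exact ⟨dᶜ, Or.inr rfl, rfl⟩
  rw [himg]
  constructor
  · intro h
    have : g • d ∈ ({d, dᶜ} : Finset (Finset GolayPt)) := by
      rw [← h]; exact Finset.mem_insert_self _ _
    simpa using this
  · rintro (h | h)
    · rw [h]
    · rw [h, compl_compl, Finset.pair_comm]


/-- The setwise stabiliser of a dodecad together with its complement is a maximal proper subgroup of the group of the length-24 code. -/
theorem result (d : Finset Cfsg.GolayPt) (hd : d ∈ Cfsg.dodecads) : IsCoatom (MulAction.stabilizer Cfsg.M24 ({d, dᶜ} : Finset (Finset Cfsg.GolayPt))) := by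
  have D := Cfsg.Agent.Lib.Helper33.dod_rank
  have hdc := compl_mem_dodecads hd
  have hsum : ∑ i ∈ ({0, 4, 6, 8, 12} : Finset ℕ), Cfsg.Agent.Lib.Helper33.dodSz i = 2576 := by
    rw [Finset.sum_congr rfl szEq]; decide
  constructor
  · intro htop
    have h4 := D.count' hd 4
    rw [Cfsg.Agent.Lib.Helper33.dodSz_4] at h4
    have hne : {y | y ∈ dodecads ∧ (d ∩ y).card = 4}.Nonempty := by
      rw [← Set.ncard_pos (Set.toFinite _), h4]; norm_num
    obtain ⟨y, hy, hy4⟩ := hne
    have hyo : y ∈ MulAction.orbit ↥M24 d := by rw [D.orbit_eq hd]; exact hy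
    obtain ⟨g, rfl⟩ := hyo
    have hg : g ∈ MulAction.stabilizer ↥M24 ({d, dᶜ} : Finset (Finset GolayPt)) := by rw [htop]; trivial
    have hy4' : (d ∩ g • d).card = 4 := hy4
    rcases (mem_stab_iff hd.2 g).1 hg with h | h
    · rw [h, Finset.inter_self, hd.2] at hy4'; omega
    · rw [h, Finset.inter_compl, Finset.card_empty] at hy4'; omega
  · intro K hK
    have hHK : MulAction.stabilizer ↥M24 d ≤ K := by
      intro g hg
      exact hK.le ((mem_stab_iff hd.2 g).2 (Or.inl hg))
    obtain ⟨I, hI, hiff, hmul⟩ := D.overgroup {0, 4, 6, 8, 12} Cfsg.Agent.Lib.Helper33.dod_relJ hd K hHK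
    rw [hsum] at hmul
    have h12 : 12 ∈ I := by
      have := (hiff d hd).1 ⟨1, K.one_mem, one_smul _ d⟩
      simp only [Finset.inter_self, hd.2] at this
      exact this
    have h0 : 0 ∈ I := by
      have hyo : dᶜ ∈ MulAction.orbit ↥M24 d := by rw [D.orbit_eq hd]; exact hdc
      obtain ⟨g, hg⟩ := hyo
      have hg' : g • d = dᶜ := hg
      have := (hiff dᶜ hdc).1 ⟨g, hK.le ((mem_stab_iff hd.2 g).2 (Or.inr hg')), hg'⟩
      simp only [Finset.inter_compl, Finset.card_empty] at this
      exact this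
    obtain ⟨k, hkK, hkN⟩ := SetLike.exists_of_lt hK
    have hky : k • d ∈ dodecads := D.smul_mem k d hd
    have hj : ∃ j ∈ I, j ≠ 0 ∧ j ≠ 12 := by
      refine ⟨_, (hiff (k • d) hky).1 ⟨k, hkK, rfl⟩, ?_, ?_⟩
      · intro h
        exact hkN ((mem_stab_iff hd.2 k).2 (Or.inr (eq_compl_of_card_inter hd.2 hky.2 h)))
      · intro h
        exact hkN ((mem_stab_iff hd.2 k).2 (Or.inl (eq_of_card_inter hd.2 hky.2 h)))
    have hs : ∑ i ∈ I, Cfsg.Agent.Lib.Helper33.dodSz i = ∑ i ∈ I, (if i = 0 then 1 else if i = 4 then 495 else if i = 6 then 1584 else if i = 8 then 495 else 1) :=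
      Finset.sum_congr rfl (fun i hi => szEq i (Finset.mem_powerset.1 hI hi))
    rw [hs] at hmul
    have := numeric I hI h12 h0 hj (Dvd.intro _ hmul)
    rw [this] at hmul
    have h1 : K.index = 1 := by omega
    exact Subgroup.index_eq_one.1 h1

end Cfsg.Agent.S1566
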