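import Cfsg.Statements.S1568
import Cfsg.Agent.Lib.Helper11.LeechCount

set_option autoImplicit false
open Cfsg

namespace Cfsg.Agent.S1568

open Cfsg.Agent.Lib.Helper11 Cfsg.Agent.Lib.Helper9

theorem sq_le_norm (x : GolayPt → ℤ) (i : GolayPt) : x i ^ 2 ≤ sqNorm x :=
  Finset.single_le_sum (f := fun i => x i ^ 2) (fun j _ => by positivity) (Finset.mem_univ i)

theorem mem_box {x : GolayPt → ℤ} (h : sqNorm x = 48) (i : GolayPt) :
    x i ∈ Finset.Icc (-6 : ℤ) 6 := by
  have h1 := sq_le_norm x i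
  rw [h] at h1
  rw [Finset.mem_Icc]
  constructor <;> nlinarith

theorem fin_set (V : Finset ℤ) :
    {x : GolayPt → ℤ | x ∈ leechLattice ∧ sqNorm x = 48 ∧ ∀ i, x i ∈ V}.Finite := by
  apply Set.Finite.subset (Finset.finite_toSet (Fintype.piFinset (fun _ : GolayPt => V)))
  intro x hx
  simp only [Finset.mem_coe, Fintype.mem_piFinset]
  exact hx.2.2

theorem ncard_exists (a : ℤ) :
    {x : GolayPt → ℤ | x ∈ leechLattice ∧ sqNorm x = 48 ∧ ∃ i, |x i| = a}.ncard =
      {x : GolayPt → ℤ | x ∈ leechLattice ∧ sqNorm x = 48 ∧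
        ∀ i, x i ∈ Finset.Icc (-6 : ℤ) 6}.ncard -
      {x : GolayPt → ℤ | x ∈ leechLattice ∧ sqNorm x = 48 ∧
        ∀ i, x i ∈ (Finset.Icc (-6 : ℤ) 6).filter (fun t => |t| ≠ a)}.ncard := by
  rw [← Set.ncard_sdiff _ (fin_set _)]
  · congr 1
    ext x
    constructor
    · rintro ⟨h1, h2, i, hi⟩
      refine ⟨⟨h1, h2, mem_box h2⟩, fun h => ?_⟩
      exact (Finset.mem_filter.1 (h.2.2 i)).2 hi
    · rintro ⟨⟨h1, h2, h3⟩, h4⟩
      refine ⟨h1, h2, ?_⟩
      by_contra hne
      push Not at hne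
      exact h4 ⟨h1, h2, fun i => Finset.mem_filter.2 ⟨h3 i, hne i⟩⟩
  · intro x hx
    exact ⟨hx.1, hx.2.1, fun i => (Finset.mem_filter.1 (hx.2.2 i)).1⟩

theorem cAll : cntE (Finset.Icc (-6) 6) (2 ^ 128) 48 0 + cntE (Finset.Icc (-6) 6) (2 ^ 128) 48 1 =
    16773120 := by decide +kernel

theorem cNo4 : cntE ((Finset.Icc (-6 : ℤ) 6).filter (fun t => |t| ≠ 4)) (2 ^ 128) 48 0 +
    cntE ((Finset.Icc (-6 : ℤ) 6).filter (fun t => |t| ≠ 4)) (2 ^ 128) 48 1 = 13664256 := by
  decide +kernel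

theorem cNo5 : cntE ((Finset.Icc (-6 : ℤ) 6).filter (fun t => |t| ≠ 5)) (2 ^ 128) 48 0 +
    cntE ((Finset.Icc (-6 : ℤ) 6).filter (fun t => |t| ≠ 5)) (2 ^ 128) 48 1 = 16674816 := by
  decide +kernel

theorem c2 : cntE ({0, 2, -2} : Finset ℤ) (2 ^ 128) 48 0 +
    cntE ({0, 2, -2} : Finset ℤ) (2 ^ 128) 48 1 = 5275648 := by
  decide +kernel

theorem c3 : cntE ({1, -1, 3, -3} : Finset ℤ) (2 ^ 128) 48 0 +
    cntE ({1, -1, 3, -3} : Finset ℤ) (2 ^ 128) 48 1 = 8290304 := by
  decide +kernel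

theorem ncard_of (V : Finset ℤ) (hV : V.card ≤ 13) :
    {x : GolayPt → ℤ | x ∈ leechLattice ∧ sqNorm x = 48 ∧ ∀ i, x i ∈ V}.ncard =
      cntE V (2 ^ 128) 48 0 + cntE V (2 ^ 128) 48 1 := by
  have h := leech_ncard V (2 ^ 128) 48 (lt_of_le_of_lt (Nat.pow_le_pow_left hV 24) (by norm_num))
  exact_mod_cast h

theorem sum_ind (i : GolayPt) (c : ℤ) : ∑ m : GolayPt, (if m = i then c else 0) = c := by
  simp

theorem three_iff (x : GolayPt → ℤ) (hx : x ∈ leechLattice) (hn : sqNorm x = 48) :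
    (∃ i j k, i ≠ j ∧ j ≠ k ∧ i ≠ k ∧ |x i| = 3 ∧ |x j| = 3 ∧ |x k| = 3) ↔
      ∀ i, x i ∈ ({1, -1, 3, -3} : Finset ℤ) := by
  constructor
  · rintro ⟨i, j, k, hij, hjk, hik, hi, hj, hk⟩ l
    obtain ⟨e, he, hpar, -, -⟩ := (mem_leech_iff x).1 hx
    have hodd : ∀ m, x m % 2 = 1 := by
      intro m
      have h1 := hpar i
      have h2 := hpar m
      have : x i = 3 ∨ x i = -3 := by
        rcases abs_eq (by norm_num : (0 : ℤ) ≤ 3) |>.1 hi with h | h <;> omega
      omega
    have hbox := mem_box hn l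
    rw [Finset.mem_Icc] at hbox
    have hl := hodd l
    by_contra hne
    simp only [Finset.mem_insert, Finset.mem_singleton, not_or] at hne
    have hl5 : x l = 5 ∨ x l = -5 := by omega
    have hli : l ≠ i := by
      rintro rfl
      rcases hl5 with h | h <;> rw [h] at hi <;> norm_num at hi
    have hlj : l ≠ j := by
      rintro rfl
      rcases hl5 with h | h <;> rw [h] at hj <;> norm_num at hj
    have hlk : l ≠ k := by
      rintro rfl
      rcases hl5 with h | h <;> rw [h] at hk <;> norm_num at hk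
    have hsq : ∀ m, |x m| = 3 → x m ^ 2 = 9 := by
      intro m hm
      rw [← sq_abs, hm]; norm_num
    have hge : ∑ m : GolayPt, ((if m = i then (9 : ℤ) else 0) + (if m = j then 9 else 0) +
        (if m = k then 9 else 0) + (if m = l then 25 else 0)) ≤ ∑ m, x m ^ 2 := by
      apply Finset.sum_le_sum
      intro m _
      have hpos : 0 ≤ x m ^ 2 := by positivity
      by_cases h1 : m = i
      · subst h1
        rw [if_pos rfl, if_neg hij, if_neg hik, if_neg (Ne.symm hli), hsq m hi]; norm_num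
      · by_cases h2 : m = j
        · subst h2
          rw [if_neg h1, if_pos rfl, if_neg hjk, if_neg (Ne.symm hlj), hsq m hj]; norm_num
        · by_cases h3 : m = k
          · subst h3
            rw [if_neg h1, if_neg h2, if_pos rfl, if_neg (Ne.symm hlk), hsq m hk]; norm_num
          · by_cases h4 : m = l
            · subst h4
              rw [if_neg h1, if_neg h2, if_neg h3, if_pos rfl]
              rcases hl5 with h | h <;> rw [h] <;> norm_num
            · rw [if_neg h1, if_neg h2, if_neg h3, if_neg h4]; simpa using hpos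
    rw [Finset.sum_add_distrib, Finset.sum_add_distrib, Finset.sum_add_distrib, sum_ind, sum_ind,
      sum_ind, sum_ind] at hge
    have : sqNorm x = ∑ m, x m ^ 2 := rfl
    omega
  · intro h
    have hsq : ∀ m, x m ^ 2 = 1 + (if |x m| = 3 then 8 else 0) := by
      intro m
      have := h m
      simp only [Finset.mem_insert, Finset.mem_singleton] at this
      rcases this with h | h | h | h <;> rw [h] <;> norm_num
    have hs : sqNorm x = 24 + 8 * ((Finset.univ.filter fun m => |x m| = 3).card : ℤ) := by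
      unfold sqNorm
      simp only [hsq]
      rw [Finset.sum_add_distrib, Finset.sum_const, Finset.card_univ, card_golayPt,
        Finset.card_filter]
      push_cast
      rw [Finset.mul_sum]
      simp
    have h3 : (Finset.univ.filter fun m => |x m| = 3).card = 3 := by omega
    obtain ⟨i, j, k, hij, hik, hjk, hs⟩ := Finset.card_eq_three.1 h3
    have hm : ∀ m ∈ ({i, j, k} : Finset GolayPt), |x m| = 3 := by
      intro m hm
      rw [← hs] at hm
      exact (Finset.mem_filter.1 hm).2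
    exact ⟨i, j, k, hij, hjk, hik, hm i (by simp), hm j (by simp), hm k (by simp)⟩

/-- Shape census of the lattice vectors of sum of squares 48 (customary norm 6): the four families (2^12, 0^12), (±3^3, ±1^21), (±4, ±2^8, 0^15) and (±5, ±1^23) have 5275648, 8290304, 3108864 and 98304 members. -/
theorem result : {x : Cfsg.GolayPt → ℤ | x ∈ Cfsg.leechLattice ∧ Cfsg.sqNorm x = 48 ∧ ∀ i, x i = 0 ∨ x i = 2 ∨ x i = -2}.ncard = 5275648 ∧ {x : Cfsg.GolayPt → ℤ | x ∈ Cfsg.leechLattice ∧ Cfsg.sqNorm x = 48 ∧ ∃ i j k, i ≠ j ∧ j ≠ k ∧ i ≠ k ∧ |x i| = 3 ∧ |x j| = 3 ∧ |x k| = 3}.ncard = 8290304 ∧ {x : Cfsg.GolayPt → ℤ | x ∈ Cfsg.leechLattice ∧ Cfsg.sqNorm x = 48 ∧ ∃ i, |x i| = 4}.ncard = 3108864 ∧ {x : Cfsg.GolayPt → ℤ | x ∈ Cfsg.leechLattice ∧ Cfsg.sqNorm x = 48 ∧ ∃ i, |x i| = 5}.ncard = 98304 := by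
  refine ⟨?_, ?_, ?_, ?_⟩
  · rw [← c2, ← ncard_of _ (by decide)]
    congr 1
    ext x
    simp only [Set.mem_ofPred_eq, Finset.mem_insert, Finset.mem_singleton]
  · rw [← c3, ← ncard_of _ (by decide)]
    congr 1
    ext x
    simp only [Set.mem_ofPred_eq]
    constructor
    · rintro ⟨h1, h2, h3⟩
      exact ⟨h1, h2, (three_iff x h1 h2).1 h3⟩
    · rintro ⟨h1, h2, h3⟩
      exact ⟨h1, h2, (three_iff x h1 h2).2 h3⟩
  · rw [ncard_exists, ncard_of _ (by decide), ncard_of _ (by decide), cAll, cNo4]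
  · rw [ncard_exists, ncard_of _ (by decide), ncard_of _ (by decide), cAll, cNo5]

end Cfsg.Agent.S1568
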