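import Cfsg.Statements.S1569
import Cfsg.Agent.Lib.Helper11.LeechMod2

set_option autoImplicit false
open scoped Pointwise
open Cfsg

namespace Cfsg.Agent.S1569

/-- The cross through a lattice vector of customary norm 8 has exactly 48 members. -/
theorem result (x : Cfsg.GolayPt → ℤ) (hx : x ∈ Cfsg.leechLattice) (hxn : Cfsg.sqNorm x = 64) : (Cfsg.cross x).ncard = 48 := by
  exact Cfsg.Agent.Lib.Helper11.mod2_main.1 x hx hxn

end Cfsg.Agent.S1569
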