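import Cfsg.Statements.S1581
import Cfsg.Agent.Lib.Helper33.CoRank
import Cfsg.Agent.Lib.Helper33.C112
import Cfsg.Agent.Lib.Helper33.C162

set_option autoImplicit false
open Cfsg

namespace Cfsg.Agent.S1581

open Cfsg.Agent.Lib.Helper33

/-- The McLaughlin group acts with rank 3 and subdegrees 1, 112, 162 on its 275 points: the point stabiliser has two orbits on the remaining points, distinguished by customary inner product 1 or 2 with the fixed point. -/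
theorem result (u v x : ↥Cfsg.leechLattice) (hu : Cfsg.sqNorm (u : Cfsg.GolayPt → ℤ) = 48) (hv : Cfsg.sqNorm (v : Cfsg.GolayPt → ℤ) = 32 ∧ Cfsg.sqNorm ((u - v) : Cfsg.GolayPt → ℤ) = 32) (hx : x ∈ {x : ↥Cfsg.leechLattice | Cfsg.sqNorm (x : Cfsg.GolayPt → ℤ) = 32 ∧ Cfsg.sqNorm ((u - x) : Cfsg.GolayPt → ℤ) = 32 ∧ Cfsg.dotInt (v : Cfsg.GolayPt → ℤ) (x : Cfsg.GolayPt → ℤ) = 16}) : {y : ↥Cfsg.leechLattice | y ∈ {x : ↥Cfsg.leechLattice | Cfsg.sqNorm (x : Cfsg.GolayPt → ℤ) = 32 ∧ Cfsg.sqNorm ((u - x) : Cfsg.GolayPt → ℤ) = 32 ∧ Cfsg.dotInt (v : Cfsg.GolayPt → ℤ) (x : Cfsg.GolayPt → ℤ) = 16} ∧ Cfsg.dotInt (x : Cfsg.GolayPt → ℤ) (y : Cfsg.GolayPt → ℤ) = 8}.ncard = 112 ∧ {y : ↥Cfsg.leechLattice | y ∈ {x : ↥Cfsg.leechLattice | Cfsg.sqNorm (x : Cfsg.GolayPt → ℤ) = 32 ∧ Cfsg.sqNorm ((u - x) : Cfsg.GolayPt → ℤ) = 32 ∧ Cfsg.dotInt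 (v : Cfsg.GolayPt → ℤ) (x : Cfsg.GolayPt → ℤ) = 16} ∧ y ≠ x ∧ Cfsg.dotInt (x : Cfsg.GolayPt → ℤ) (y : Cfsg.GolayPt → ℤ) = 16}.ncard = 162 ∧ ∀ y ∈ {x : ↥Cfsg.leechLattice | Cfsg.sqNorm (x : Cfsg.GolayPt → ℤ) = 32 ∧ Cfsg.sqNorm ((u - x) : Cfsg.GolayPt → ℤ) = 32 ∧ Cfsg.dotInt (v : Cfsg.GolayPt → ℤ) (x : Cfsg.GolayPt → ℤ) = 16}, ∀ y' ∈ {x : ↥Cfsg.leechLattice | Cfsg.sqNorm (x : Cfsg.GolayPt → ℤ) = 32 ∧ Cfsg.sqNorm ((u - x) : Cfsg.GolayPt → ℤ) = 32 ∧ Cfsg.dotInt (v : Cfsg.GolayPt → ℤ) (x : Cfsg.GolayPt → ℤ) = 16}, y ≠ x → y' ≠ x → Cfsg.dotInt (x : Cfsg.GolayPt → ℤ) (y : Cfsg.GolayPt → ℤ) = Cfsg.dotInt (x : Cfsg.GolayPt → ℤ) (y' : Cfsg.GolayPt → ℤ) → ∃ g : ↥Cfsg.Co0, g • u = u ∧ g • v = v ∧ g • x = x ∧ g • y = y' := by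
  have hu' : ldot u u = 48 := by rw [ldot_self]; exact hu
  have hv' := (mem552_iff hu v).1 hv
  have hb := to_uv hu' hv'
  rw [set275 hu v] at hx ⊢
  have hb3 := to_uvx hu' hv' hx
  have e1 : {y : ↥Cfsg.leechLattice | y ∈ C2 24 16 (u, v) ∧ Cfsg.dotInt (x : Cfsg.GolayPt → ℤ) (y : Cfsg.GolayPt → ℤ) = 8} = C3 24 16 8 ((u, v), x) := fiberC3 24 16 8 (u, v) x
  have e2 : {y : ↥Cfsg.leechLattice | y ∈ C2 24 16 (u, v) ∧ y ≠ x ∧ Cfsg.dotInt (x : Cfsg.GolayPt → ℤ) (y : Cfsg.GolayPt → ℤ) = 16} = C3 24 16 16 ((u, v), x) := by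
    rw [← fiberC3]
    ext y
    constructor
    · rintro ⟨h1, _, h3⟩
      exact ⟨h1, h3⟩
    · rintro ⟨h1, h3⟩
      refine ⟨h1, ?_, h3⟩
      rintro rfl
      have h4 : ldot y y = 16 := h3
      rw [(mem_L2_iff y).1 h1.1] at h4
      norm_num at h4
  rw [e1, e2]
  refine ⟨c112_cls.count' hb3, c162_cls.count' hb3, ?_⟩
  have hcov := rank3_cover hx (c275_cls.count' hb) (c112_cls.count' hb3) (c162_cls.count' hb3) (by norm_num)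
    (by norm_num) (by norm_num) (by norm_num)
  intro y hy y' hy' hne hne' hd
  have hd' : ldot x y = ldot x y' := hd
  rcases hcov y hy with h | h | h
  · exact absurd h hne
  · obtain ⟨g, h1, h2⟩ := c112_cls.trans' hb3 (y := y) (z := y') ⟨hy.1, hy.2.1, hy.2.2, h⟩
      ⟨hy'.1, hy'.2.1, hy'.2.2, by rw [← h]; exact hd'.symm⟩
    exact ⟨g, (prod_fix3 h1).1, (prod_fix3 h1).2.1, (prod_fix3 h1).2.2, h2⟩
  · obtain ⟨g, h1, h2⟩ := c162_cls.trans' hb3 (y := y) (z := y') ⟨hy.1, hy.2.1, hy.2.2, h⟩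
      ⟨hy'.1, hy'.2.1, hy'.2.2, by rw [← h]; exact hd'.symm⟩
    exact ⟨g, (prod_fix3 h1).1, (prod_fix3 h1).2.1, (prod_fix3 h1).2.2, h2⟩

end Cfsg.Agent.S1581
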