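import Cfsg.Statements.S1584
import Cfsg.Agent.Lib.Helper33.CoRank
import Cfsg.Agent.Lib.Helper33.C22
import Cfsg.Agent.Lib.Helper33.C77

set_option autoImplicit false
open Cfsg

namespace Cfsg.Agent.S1584

open Cfsg.Agent.Lib.Helper33

/-- The Higman–Sims group acts with rank 3 and subdegrees 1, 22, 77 on its 100 points, the orbits of a point stabiliser being distinguished by customary inner product 1 with the fixed point. -/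
theorem result (v w x : ↥Cfsg.leechLattice) (hv : Cfsg.sqNorm (v : Cfsg.GolayPt → ℤ) = 48) (hw : Cfsg.sqNorm (w : Cfsg.GolayPt → ℤ) = 48) (hvw : Cfsg.dotInt (v : Cfsg.GolayPt → ℤ) (w : Cfsg.GolayPt → ℤ) = -32) (hx : x ∈ {x : ↥Cfsg.leechLattice | Cfsg.sqNorm (x : Cfsg.GolayPt → ℤ) = 32 ∧ Cfsg.dotInt (v : Cfsg.GolayPt → ℤ) (x : Cfsg.GolayPt → ℤ) = 24 ∧ Cfsg.dotInt (w : Cfsg.GolayPt → ℤ) (x : Cfsg.GolayPt → ℤ) = -24}) : {y : ↥Cfsg.leechLattice | y ∈ {x : ↥Cfsg.leechLattice | Cfsg.sqNorm (x : Cfsg.GolayPt → ℤ) = 32 ∧ Cfsg.dotInt (v : Cfsg.GolayPt → ℤ) (x : Cfsg.GolayPt → ℤ) = 24 ∧ Cfsg.dotInt (w : Cfsg.GolayPt → ℤ) (x : Cfsg.GolayPt → ℤ) = -24} ∧ Cfsg.dotInt (x : Cfsg.GolayPt → ℤ) (y : Cfsg.GolayPt → ℤ) = 8}.ncard = 22 ∧ {y : ↥Cfsg.leechLattice | y ∈ {x : ↥Cfsg.leechLattice | Cfsg.sqNorm (x : Cfsg.GolayPt → ℤ) = 32 ∧ Cfsg.dotInt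 (v : Cfsg.GolayPt → ℤ) (x : Cfsg.GolayPt → ℤ) = 24 ∧ Cfsg.dotInt (w : Cfsg.GolayPt → ℤ) (x : Cfsg.GolayPt → ℤ) = -24} ∧ y ≠ x ∧ Cfsg.dotInt (x : Cfsg.GolayPt → ℤ) (y : Cfsg.GolayPt → ℤ) ≠ 8}.ncard = 77 ∧ ∀ y ∈ {x : ↥Cfsg.leechLattice | Cfsg.sqNorm (x : Cfsg.GolayPt → ℤ) = 32 ∧ Cfsg.dotInt (v : Cfsg.GolayPt → ℤ) (x : Cfsg.GolayPt → ℤ) = 24 ∧ Cfsg.dotInt (w : Cfsg.GolayPt → ℤ) (x : Cfsg.GolayPt → ℤ) = -24}, ∀ y' ∈ {x : ↥Cfsg.leechLattice | Cfsg.sqNorm (x : Cfsg.GolayPt → ℤ) = 32 ∧ Cfsg.dotInt (v : Cfsg.GolayPt → ℤ) (x : Cfsg.GolayPt → ℤ) = 24 ∧ Cfsg.dotInt (w : Cfsg.GolayPt → ℤ) (x : Cfsg.GolayPt → ℤ) = -24}, y ≠ x → y' ≠ x → (Cfsg.dotInt (x : Cfsg.GolayPt → ℤ) (y : Cfsg.GolayPt → ℤ) = 8 ↔ Cfsg.dotInt (x : Cfsg.GolayPt → ℤ) (y' : Cfsg.GolayPt → ℤ) = 8) → ∃ g : ↥Cfsg.Co0, g • v = v ∧ g • w = w ∧ g • x = x ∧ g • y = y'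 := by
  have hv' : ldot v v = 48 := by rw [ldot_self]; exact hv
  have hw' : ldot w w = 48 := by rw [ldot_self]; exact hw
  have hb := to_hs hv' hw' hvw
  have e : {x : ↥Cfsg.leechLattice | Cfsg.sqNorm (x : Cfsg.GolayPt → ℤ) = 32 ∧ Cfsg.dotInt (v : Cfsg.GolayPt → ℤ) (x : Cfsg.GolayPt → ℤ) = 24 ∧ Cfsg.dotInt (w : Cfsg.GolayPt → ℤ) (x : Cfsg.GolayPt → ℤ) = -24} = C2 24 (-24) (v, w) := rfl
  rw [e] at hx ⊢
  have hb3 := to_hsx hv' hw' hvw hx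
  have hcov := rank3_cover hx (c100_cls.count' hb) (c22_cls.count' hb3) (c77_cls.count' hb3) (by norm_num)
    (by norm_num) (by norm_num) (by norm_num)
  have e1 : {y : ↥Cfsg.leechLattice | y ∈ C2 24 (-24) (v, w) ∧ Cfsg.dotInt (x : Cfsg.GolayPt → ℤ) (y : Cfsg.GolayPt → ℤ) = 8} = C3 24 (-24) 8 ((v, w), x) := fiberC3 24 (-24) 8 (v, w) x
  have e2 : {y : ↥Cfsg.leechLattice | y ∈ C2 24 (-24) (v, w) ∧ y ≠ x ∧ Cfsg.dotInt (x : Cfsg.GolayPt → ℤ) (y : Cfsg.GolayPt → ℤ) ≠ 8} = C3 24 (-24) 16 ((v, w), x) := by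
    rw [← fiberC3]
    ext y
    constructor
    · rintro ⟨h1, h2, h3⟩
      rcases hcov y h1 with h | h | h
      · exact absurd h h2
      · exact absurd h h3
      · exact ⟨h1, h⟩
    · rintro ⟨h1, h3⟩
      have h3' : ldot x y = 16 := h3
      refine ⟨h1, ?_, ?_⟩
      · rintro rfl
        rw [(mem_L2_iff y).1 h1.1] at h3'
        norm_num at h3'
      · show ldot x y ≠ 8
        rw [h3']; norm_num
  rw [e1, e2]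
  refine ⟨c22_cls.count' hb3, c77_cls.count' hb3, ?_⟩
  intro y hy y' hy' hne hne' hd
  have hd' : ldot x y = 8 ↔ ldot x y' = 8 := hd
  rcases hcov y hy with h | h | h
  · exact absurd h hne
  · obtain ⟨g, h1, h2⟩ := c22_cls.trans' hb3 (y := y) (z := y') ⟨hy.1, hy.2.1, hy.2.2, h⟩
      ⟨hy'.1, hy'.2.1, hy'.2.2, hd'.1 h⟩
    exact ⟨g, (prod_fix3 h1).1, (prod_fix3 h1).2.1, (prod_fix3 h1).2.2, h2⟩
  · have h' : ldot x y' = 16 := by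
      rcases hcov y' hy' with k | k | k
      · exact absurd k hne'
      · have := hd'.2 k
        rw [h] at this
        norm_num at this
      · exact k
    obtain ⟨g, h1, h2⟩ := c77_cls.trans' hb3 (y := y) (z := y') ⟨hy.1, hy.2.1, hy.2.2, h⟩
      ⟨hy'.1, hy'.2.1, hy'.2.2, h'⟩
    exact ⟨g, (prod_fix3 h1).1, (prod_fix3 h1).2.1, (prod_fix3 h1).2.2, h2⟩

end Cfsg.Agent.S1584
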