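import Cfsg.Statements.S1585
import Cfsg.Agent.Lib.Helper33.CoSets

set_option autoImplicit false
open Cfsg

namespace Cfsg.Agent.S1585

open Cfsg.Agent.Lib.Helper33

/-- Two vectors of customary norm 6 with inner product −4 are exchanged by some automorphism of the lattice. -/
theorem result (v w : ↥Cfsg.leechLattice) (hv : Cfsg.sqNorm (v : Cfsg.GolayPt → ℤ) = 48) (hw : Cfsg.sqNorm (w : Cfsg.GolayPt → ℤ) = 48) (hvw : Cfsg.dotInt (v : Cfsg.GolayPt → ℤ) (w : Cfsg.GolayPt → ℤ) = -32) : ∃ g : ↥Cfsg.Co0, g • v = w ∧ g • w = v := by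
  have hv' : ldot v v = 48 := by rw [ldot_self]; exact hv
  have hw' : ldot w w = 48 := by rw [ldot_self]; exact hw
  obtain ⟨g, hg⟩ := to_hs hv' hw' hvw
  obtain ⟨g', hg'⟩ := to_hs hw' hv' (by rw [ldot_comm]; exact hvw)
  rw [Prod.smul_mk, Prod.mk.injEq] at hg hg'
  exact ⟨g'⁻¹ * g, by rw [mul_smul, hg.1, ← hg'.1, inv_smul_smul], by rw [mul_smul, hg.2, ← hg'.2, inv_smul_smul]⟩

end Cfsg.Agent.S1585
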