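import Cfsg.Statements.S1587
-- import your own Cfsg.Agent.* helpers here

set_option autoImplicit false
open Matrix
open Cfsg

namespace Cfsg.Agent.S1587

theorem norm_ge_four (B : Matrix (Fin 24) (Fin 24) ℤ) (hpos : ∀ x : Fin 24 → ℤ, x ≠ 0 → 0 < x ⬝ᵥ (B *ᵥ x)) (heven : ∀ x : Fin 24 → ℤ, (2 : ℤ) ∣ x ⬝ᵥ (B *ᵥ x)) (h2 : ∀ x : Fin 24 → ℤ, x ⬝ᵥ (B *ᵥ x) ≠ 2) (z : Fin 24 → ℤ) (hz : z ≠ 0) : 4 ≤ z ⬝ᵥ (B *ᵥ z) := by
  have h1 := hpos z hz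
  have h3 := heven z
  have h4 := h2 z
  omega

theorem symm_form (B : Matrix (Fin 24) (Fin 24) ℤ) (hsymm : B.IsSymm) (x y : Fin 24 → ℤ) :
    y ⬝ᵥ (B *ᵥ x) = x ⬝ᵥ (B *ᵥ y) := by
  rw [Matrix.dotProduct_mulVec, ← Matrix.mulVec_transpose, hsymm.eq, dotProduct_comm]

/-- First step of the characterisation of the rank-24 lattice: in an even lattice without roots, norm-8 vectors congruent modulo 2 are equal, opposite or orthogonal. -/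
theorem result (B : Matrix (Fin 24) (Fin 24) ℤ) (hsymm : B.IsSymm) (hpos : ∀ x : Fin 24 → ℤ, x ≠ 0 → 0 < x ⬝ᵥ (B *ᵥ x)) (heven : ∀ x : Fin 24 → ℤ, (2 : ℤ) ∣ x ⬝ᵥ (B *ᵥ x)) (h2 : ∀ x : Fin 24 → ℤ, x ⬝ᵥ (B *ᵥ x) ≠ 2) (x y : Fin 24 → ℤ) (hx : x ⬝ᵥ (B *ᵥ x) = 8) (hy : y ⬝ᵥ (B *ᵥ y) = 8) (hc : ∀ i, (2 : ℤ) ∣ (x - y) i) : y = x ∨ y = -x ∨ x ⬝ᵥ (B *ᵥ y) = 0 := by
  choose z hz using hc
  have hxy : x = y + (2 : ℤ) • z := by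
    funext i
    have := hz i
    simp only [Pi.sub_apply] at this
    simp only [Pi.add_apply, Pi.smul_apply, smul_eq_mul]
    omega
  have hs := symm_form B hsymm
  by_cases h1 : y = x
  · exact Or.inl h1
  by_cases h3 : y = -x
  · exact Or.inr (Or.inl h3)
  refine Or.inr (Or.inr ?_)
  have hz0 : z ≠ 0 := by
    intro h
    apply h1
    rw [hxy, h]
    simp
  have hw0 : y + z ≠ 0 := by
    intro h
    apply h3
    rw [hxy]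
    have : z = -y := by
      rw [eq_neg_iff_add_eq_zero, add_comm]; exact h
    rw [this]
    funext i
    simp only [Pi.neg_apply, Pi.add_apply, Pi.smul_apply, smul_eq_mul]
    ring
  have a1 := norm_ge_four B hpos heven h2 z hz0
  have a2 := norm_ge_four B hpos heven h2 (y + z) hw0
  have e1 : x ⬝ᵥ (B *ᵥ x) = y ⬝ᵥ (B *ᵥ y) + 4 * (y ⬝ᵥ (B *ᵥ z)) + 4 * (z ⬝ᵥ (B *ᵥ z)) := by
    rw [hxy]
    simp only [Matrix.mulVec_add, Matrix.mulVec_smul, add_dotProduct, dotProduct_add, smul_dotProduct, dotProduct_smul, smul_eq_mul]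
    rw [hs y z]
    ring
  have e2 : (y + z) ⬝ᵥ (B *ᵥ (y + z)) = y ⬝ᵥ (B *ᵥ y) + 2 * (y ⬝ᵥ (B *ᵥ z)) + (z ⬝ᵥ (B *ᵥ z)) := by
    simp only [Matrix.mulVec_add, add_dotProduct, dotProduct_add]
    rw [hs y z]
    ring
  have e3 : x ⬝ᵥ (B *ᵥ y) = y ⬝ᵥ (B *ᵥ y) + 2 * (y ⬝ᵥ (B *ᵥ z)) := by
    rw [hxy]
    simp only [add_dotProduct, smul_dotProduct, smul_eq_mul]
    rw [hs y z]
  omega

end Cfsg.Agent.S1587
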