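import Cfsg.Statements.S1588
import Cfsg.Agent.S1587

set_option autoImplicit false
open Matrix
open Cfsg

namespace Cfsg.Agent.S1588

theorem short_congr (B : Matrix (Fin 24) (Fin 24) ℤ) (hsymm : B.IsSymm) (hpos : ∀ x : Fin 24 → ℤ, x ≠ 0 → 0 < x ⬝ᵥ (B *ᵥ x)) (heven : ∀ x : Fin 24 → ℤ, (2 : ℤ) ∣ x ⬝ᵥ (B *ᵥ x)) (h2 : ∀ x : Fin 24 → ℤ, x ⬝ᵥ (B *ᵥ x) ≠ 2) (x y : Fin 24 → ℤ) (hx : x ⬝ᵥ (B *ᵥ x) ≤ 8) (hy : y ⬝ᵥ (B *ᵥ y) ≤ 8) (hc : ∀ i, (2 : ℤ) ∣ (x - y) i) : y = x ∨ y = -x ∨ (x ⬝ᵥ (B *ᵥ x) = 8 ∧ y ⬝ᵥ (B *ᵥ y) = 8 ∧ x ⬝ᵥ (B *ᵥ y) = 0) := by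
  choose z hz using hc
  have hxy : x = y + (2 : ℤ) • z := by
    funext i
    have := hz i
    simp only [Pi.sub_apply] at this
    simp only [Pi.add_apply, Pi.smul_apply, smul_eq_mul]
    omega
  have hs := Cfsg.Agent.S1587.symm_form B hsymm
  by_cases h1 : y = x
  · exact Or.inl h1
  by_cases h3 : y = -x
  · exact Or.inr (Or.inl h3)
  refine Or.inr (Or.inr ?_)
  have hz0 : z ≠ 0 := by
    intro h
    apply h1
    rw [hxy, h]
    simp
  have hw0 : y + z ≠ 0 := by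
    intro h
    apply h3
    rw [hxy]
    have : z = -y := by
      rw [eq_neg_iff_add_eq_zero, add_comm]; exact h
    rw [this]
    funext i
    simp only [Pi.neg_apply, Pi.add_apply, Pi.smul_apply, smul_eq_mul]
    ring
  have a1 := Cfsg.Agent.S1587.norm_ge_four B hpos heven h2 z hz0
  have a2 := Cfsg.Agent.S1587.norm_ge_four B hpos heven h2 (y + z) hw0
  have e1 : x ⬝ᵥ (B *ᵥ x) = y ⬝ᵥ (B *ᵥ y) + 4 * (y ⬝ᵥ (B *ᵥ z)) + 4 * (z ⬝ᵥ (B *ᵥ z)) := by
    rw [hxy]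
    simp only [Matrix.mulVec_add, Matrix.mulVec_smul, add_dotProduct, dotProduct_add, smul_dotProduct, dotProduct_smul, smul_eq_mul]
    rw [hs y z]
    ring
  have e2 : (y + z) ⬝ᵥ (B *ᵥ (y + z)) = y ⬝ᵥ (B *ᵥ y) + 2 * (y ⬝ᵥ (B *ᵥ z)) + (z ⬝ᵥ (B *ᵥ z)) := by
    simp only [Matrix.mulVec_add, add_dotProduct, dotProduct_add]
    rw [hs y z]
    ring
  have e3 : x ⬝ᵥ (B *ᵥ y) = y ⬝ᵥ (B *ᵥ y) + 2 * (y ⬝ᵥ (B *ᵥ z)) := by
    rw [hxy]
    simp only [add_dotProduct, smul_dotProduct, smul_eq_mul]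
    rw [hs y z]
  omega

/-- reduction modulo 2 -/
def red (x : Fin 24 → ℤ) : Fin 24 → ZMod 2 := fun i => (x i : ZMod 2)

theorem red_eq_iff (x y : Fin 24 → ℤ) : red x = red y ↔ ∀ i, (2 : ℤ) ∣ (x - y) i := by
  constructor
  · intro h i
    have := congrFun h i
    simp only [red] at this
    rw [Pi.sub_apply]
    have h2 : ((x i - y i : ℤ) : ZMod 2) = 0 := by
      push_cast
      rw [this, sub_self]
    exact_mod_cast (ZMod.intCast_zmod_eq_zero_iff_dvd _ 2).1 h2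
  · intro h
    funext i
    have := h i
    rw [Pi.sub_apply] at this
    have h2 : ((x i - y i : ℤ) : ZMod 2) = 0 := (ZMod.intCast_zmod_eq_zero_iff_dvd _ 2).2 (by exact_mod_cast this)
    push_cast at h2
    simp only [red]
    exact sub_eq_zero.1 h2

theorem neg_form (B : Matrix (Fin 24) (Fin 24) ℤ) (x : Fin 24 → ℤ) : (-x) ⬝ᵥ (B *ᵥ (-x)) = x ⬝ᵥ (B *ᵥ x) := by
  simp [Matrix.mulVec_neg]

theorem red_neg (x : Fin 24 → ℤ) : red (-x) = red x := by
  rw [red_eq_iff]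
  intro i
  simp only [Pi.sub_apply, Pi.neg_apply]
  omega

/-- pairwise orthogonal anisotropic vectors: at most 24. -/
theorem card_ortho_le (B : Matrix (Fin 24) (Fin 24) ℤ) (P : Finset (Fin 24 → ℤ))
    (h8 : ∀ y ∈ P, y ⬝ᵥ (B *ᵥ y) = 8)
    (ho : ∀ y ∈ P, ∀ z ∈ P, y ≠ z → y ⬝ᵥ (B *ᵥ z) = 0) : P.card ≤ 24 := by
  have hli : LinearIndependent ℤ (fun y : P => (y : Fin 24 → ℤ)) := by
    rw [linearIndependent_iff']
    intro s g hg j hj
    have h1 : (∑ i ∈ s, g i • (i : Fin 24 → ℤ)) ⬝ᵥ (B *ᵥ (j : Fin 24 → ℤ)) = 0 := by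
      rw [hg, zero_dotProduct]
    rw [sum_dotProduct] at h1
    rw [Finset.sum_eq_single j] at h1
    · rw [smul_dotProduct, h8 j j.2, smul_eq_mul] at h1
      omega
    · intro i _ hij
      rw [smul_dotProduct, ho i i.2 j j.2 (fun h => hij (Subtype.ext h)), smul_zero]
    · intro h; exact absurd hj h
  have := hli.fintype_card_le_finrank
  simpa using this

theorem fiber_le (B : Matrix (Fin 24) (Fin 24) ℤ) (F : Finset (Fin 24 → ℤ))
    (h8 : ∀ y ∈ F, y ⬝ᵥ (B *ᵥ y) = 8)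
    (hneg : ∀ y ∈ F, -y ∈ F)
    (ho : ∀ y ∈ F, ∀ z ∈ F, z = y ∨ z = -y ∨ y ⬝ᵥ (B *ᵥ z) = 0) : F.card ≤ 48 := by
  classical
  set P := F.filter (fun y => toLex (-y) < toLex y) with hP
  have hPc : P.card ≤ 24 := by
    apply card_ortho_le B P
    · intro y hy
      exact h8 y (Finset.mem_filter.1 hy).1
    · intro y hy z hz hyz
      rw [hP, Finset.mem_filter] at hy hz
      rcases ho y hy.1 z hz.1 with h | h | h
      · exact absurd h.symm hyz
      · exfalso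
        have h1 := hy.2
        have h2 := hz.2
        rw [h, neg_neg] at h2
        exact lt_asymm h1 h2
      · exact h
  have hsub : F ⊆ P ∪ P.image (fun y => -y) := by
    intro y hy
    have hne : y ≠ -y := by
      intro h
      have h0 : y = 0 := by
        funext i
        have := congrFun h i
        simp only [Pi.neg_apply] at this
        simp only [Pi.zero_apply]
        omega
      have := h8 y hy
      rw [h0] at this
      simp at this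
    rcases lt_trichotomy (toLex (-y)) (toLex y) with h | h | h
    · exact Finset.mem_union_left _ (Finset.mem_filter.2 ⟨hy, h⟩)
    · exact absurd (toLex.injective h).symm hne
    · apply Finset.mem_union_right
      rw [Finset.mem_image]
      refine ⟨-y, Finset.mem_filter.2 ⟨hneg y hy, ?_⟩, neg_neg y⟩
      rw [neg_neg]; exact h
  calc F.card ≤ (P ∪ P.image (fun y => -y)).card := Finset.card_le_card hsub
    _ ≤ P.card + (P.image (fun y => -y)).card := Finset.card_union_le _ _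
    _ ≤ P.card + P.card := Nat.add_le_add_left Finset.card_image_le _
    _ ≤ 48 := by omega

theorem card_le_two_mul (B : Matrix (Fin 24) (Fin 24) ℤ) (hsymm : B.IsSymm) (hpos : ∀ x : Fin 24 → ℤ, x ≠ 0 → 0 < x ⬝ᵥ (B *ᵥ x)) (heven : ∀ x : Fin 24 → ℤ, (2 : ℤ) ∣ x ⬝ᵥ (B *ᵥ x)) (h2 : ∀ x : Fin 24 → ℤ, x ⬝ᵥ (B *ᵥ x) ≠ 2)
    (S : Finset (Fin 24 → ℤ)) (hS : ∀ y ∈ S, y ⬝ᵥ (B *ᵥ y) < 8) : S.card ≤ 2 * (S.image red).card := by
  classical
  apply Finset.card_le_mul_card_image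
  intro a ha
  obtain ⟨x0, hx0, rfl⟩ := Finset.mem_image.1 ha
  calc _ ≤ ({x0, -x0} : Finset (Fin 24 → ℤ)).card := Finset.card_le_card (by
          intro y hy
          rw [Finset.mem_filter] at hy
          have h1 := hS x0 hx0
          have h3 := hS y hy.1
          rcases short_congr B hsymm hpos heven h2 x0 y h1.le h3.le ((red_eq_iff _ _).1 hy.2.symm) with h | h | h
          · rw [h]; simp
          · rw [h]; simp
          · omega)
    _ ≤ 2 := Finset.card_le_two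

theorem disj_images (B : Matrix (Fin 24) (Fin 24) ℤ) (hsymm : B.IsSymm) (hpos : ∀ x : Fin 24 → ℤ, x ≠ 0 → 0 < x ⬝ᵥ (B *ᵥ x)) (heven : ∀ x : Fin 24 → ℤ, (2 : ℤ) ∣ x ⬝ᵥ (B *ᵥ x)) (h2 : ∀ x : Fin 24 → ℤ, x ⬝ᵥ (B *ᵥ x) ≠ 2)
    (S T : Finset (Fin 24 → ℤ)) (m n : ℤ) (hm : m ≤ 8) (hn : n ≤ 8) (hmn : m ≠ n)
    (hS : ∀ y ∈ S, y ⬝ᵥ (B *ᵥ y) = m) (hT : ∀ y ∈ T, y ⬝ᵥ (B *ᵥ y) = n) :
    Disjoint (S.image red) (T.image red) := by
  classical
  rw [Finset.disjoint_left]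
  intro a ha hb
  obtain ⟨x, hx, rfl⟩ := Finset.mem_image.1 ha
  obtain ⟨y, hy, hxy⟩ := Finset.mem_image.1 hb
  have h1 := hS x hx
  have h3 := hT y hy
  rcases short_congr B hsymm hpos heven h2 x y (by omega) (by omega) ((red_eq_iff _ _).1 hxy.symm) with h | h | h
  · rw [h] at h3; omega
  · rw [h, neg_form] at h3; omega
  · omega


/-- Second step of the characterisation: under the vector counts of the rank-24 lattice, the norm-8 vectors fall into congruence classes of exactly 48 modulo twice the lattice. -/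
theorem result (B : Matrix (Fin 24) (Fin 24) ℤ) (hsymm : B.IsSymm) (hpos : ∀ x : Fin 24 → ℤ, x ≠ 0 → 0 < x ⬝ᵥ (B *ᵥ x)) (heven : ∀ x : Fin 24 → ℤ, (2 : ℤ) ∣ x ⬝ᵥ (B *ᵥ x)) (h2 : ∀ x : Fin 24 → ℤ, x ⬝ᵥ (B *ᵥ x) ≠ 2) (h4 : {x : Fin 24 → ℤ | x ⬝ᵥ (B *ᵥ x) = 4}.ncard = 196560) (h6 : {x : Fin 24 → ℤ | x ⬝ᵥ (B *ᵥ x) = 6}.ncard = 16773120) (h8 : {x : Fin 24 → ℤ | x ⬝ᵥ (B *ᵥ x) = 8}.ncard = 398034000) (x : Fin 24 → ℤ) (hx : x ⬝ᵥ (B *ᵥ x) = 8) : {y : Fin 24 → ℤ | y ⬝ᵥ (B *ᵥ y) = 8 ∧ ∀ i, (2 : ℤ) ∣ (x - y) i}.ncard = 48 := by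
  classical
  have f4 : {x : Fin 24 → ℤ | x ⬝ᵥ (B *ᵥ x) = 4}.Finite := Set.finite_of_ncard_ne_zero (by rw [h4]; norm_num)
  have f6 : {x : Fin 24 → ℤ | x ⬝ᵥ (B *ᵥ x) = 6}.Finite := Set.finite_of_ncard_ne_zero (by rw [h6]; norm_num)
  have f8 : {x : Fin 24 → ℤ | x ⬝ᵥ (B *ᵥ x) = 8}.Finite := Set.finite_of_ncard_ne_zero (by rw [h8]; norm_num)
  have c4 : f4.toFinset.card = 196560 := by rw [← h4, Set.ncard_eq_toFinset_card _ f4]
  have c6 : f6.toFinset.card = 16773120 := by rw [← h6, Set.ncard_eq_toFinset_card _ f6]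
  have c8 : f8.toFinset.card = 398034000 := by rw [← h8, Set.ncard_eq_toFinset_card _ f8]
  have m4 : ∀ y ∈ f4.toFinset, y ⬝ᵥ (B *ᵥ y) = 4 := fun y hy => by simpa using hy
  have m6 : ∀ y ∈ f6.toFinset, y ⬝ᵥ (B *ᵥ y) = 6 := fun y hy => by simpa using hy
  have m8 : ∀ y ∈ f8.toFinset, y ⬝ᵥ (B *ᵥ y) = 8 := fun y hy => by simpa using hy
  have m0 : ∀ y ∈ ({0} : Finset (Fin 24 → ℤ)), y ⬝ᵥ (B *ᵥ y) = 0 := fun y hy => by
    rw [Finset.mem_singleton] at hy; rw [hy]; simp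
  generalize f4.toFinset = S4 at c4 m4
  generalize f6.toFinset = S6 at c6 m6
  have m8' : ∀ y, y ∈ f8.toFinset ↔ y ⬝ᵥ (B *ᵥ y) = 8 := fun y => by simp
  generalize f8.toFinset = S8 at c8 m8 m8'
  have i4 := card_le_two_mul B hsymm hpos heven h2 S4 (fun y hy => by rw [m4 y hy]; norm_num)
  have i6 := card_le_two_mul B hsymm hpos heven h2 S6 (fun y hy => by rw [m6 y hy]; norm_num)
  have dj := disj_images B hsymm hpos heven h2
  have d04 := dj {0} S4 0 4 (by norm_num) (by norm_num) (by norm_num) m0 m4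
  have d06 := dj {0} S6 0 6 (by norm_num) (by norm_num) (by norm_num) m0 m6
  have d08 := dj {0} S8 0 8 (by norm_num) (by norm_num) (by norm_num) m0 m8
  have d46 := dj S4 S6 4 6 (by norm_num) (by norm_num) (by norm_num) m4 m6
  have d48 := dj S4 S8 4 8 (by norm_num) (by norm_num) (by norm_num) m4 m8
  have d68 := dj S6 S8 6 8 (by norm_num) (by norm_num) (by norm_num) m6 m8
  have hU : ((({0} : Finset (Fin 24 → ℤ)).image red ∪ S4.image red) ∪ S6.image red ∪ S8.image red).card ≤ 16777216 := by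
    have := Finset.card_le_univ ((({0} : Finset (Fin 24 → ℤ)).image red ∪ S4.image red) ∪ S6.image red ∪ S8.image red)
    simpa [ZMod.card] using this
  rw [Finset.card_union_of_disjoint (by
        rw [Finset.disjoint_union_left, Finset.disjoint_union_left]; exact ⟨⟨d08, d48⟩, d68⟩),
      Finset.card_union_of_disjoint (by
        rw [Finset.disjoint_union_left]; exact ⟨d06, d46⟩),
      Finset.card_union_of_disjoint d04] at hU
  have h01 : (({0} : Finset (Fin 24 → ℤ)).image red).card = 1 := by simp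
  have n8 : (S8.image red).card ≤ 8292375 := by omega
  have hfib : ∀ c ∈ S8.image red, (S8.filter (fun y => red y = c)).card ≤ 48 := by
    intro c _
    apply fiber_le B
    · intro y hy
      exact m8 y (Finset.mem_filter.1 hy).1
    · intro y hy
      rw [Finset.mem_filter] at hy ⊢
      refine ⟨(m8' _).2 ?_, ?_⟩
      · rw [neg_form]; exact m8 y hy.1
      · rw [red_neg]; exact hy.2
    · intro y hy z hz
      rw [Finset.mem_filter] at hy hz
      rcases short_congr B hsymm hpos heven h2 y z (m8 y hy.1).le (m8 z hz.1).le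
        ((red_eq_iff _ _).1 (hy.2.trans hz.2.symm)) with h | h | h
      · exact Or.inl h
      · exact Or.inr (Or.inl h)
      · exact Or.inr (Or.inr h.2.2)
  have hset : {y : Fin 24 → ℤ | y ⬝ᵥ (B *ᵥ y) = 8 ∧ ∀ i, (2 : ℤ) ∣ (x - y) i} = ↑(S8.filter (fun y => red y = red x)) := by
    ext y
    simp only [Set.mem_setOf_eq, Finset.coe_filter, m8']
    rw [← red_eq_iff, eq_comm (a := red x)]
  rw [hset, Set.ncard_coe_finset]
  have hxm : red x ∈ S8.image red := Finset.mem_image_of_mem _ ((m8' x).2 hx)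
  by_contra hne
  have hlt : (S8.filter (fun y => red y = red x)).card < 48 := lt_of_le_of_ne (hfib _ hxm) hne
  have hsum := Finset.card_eq_sum_card_image red S8
  have hlt2 : ∑ c ∈ S8.image red, (S8.filter (fun y => red y = c)).card < ∑ c ∈ S8.image red, 48 :=
    Finset.sum_lt_sum hfib ⟨red x, hxm, hlt⟩
  rw [Finset.sum_const, smul_eq_mul] at hlt2
  omega

end Cfsg.Agent.S1588
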