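import Cfsg.Statements.S1589
import Cfsg.Agent.Lib.Helper94.M24Idx4

set_option autoImplicit false
open scoped Pointwise
open Cfsg

namespace Cfsg.Agent.S1589

open Cfsg.Agent.Lib.Helper94

open Cfsg.Agent.Lib.Helper94.M24I

theorem card_of_index (H : Subgroup ↥Cfsg.M24) :
    H.index * Nat.card (H.map Cfsg.M24.subtype) = 244823040 := by
  rw [Subgroup.card_map_of_injective Cfsg.M24.subtype_injective, H.index_mul_card, card_M24]

theorem wrap (H : Subgroup ↥Cfsg.M24) (W : Finset Cfsg.GolayPt)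
    (h : ∀ g, g ∈ H.map Cfsg.M24.subtype ↔ g ∈ Cfsg.M24 ∧ g • W = W) :
    H = MulAction.stabilizer Cfsg.M24 W := by
  ext a
  rw [MulAction.mem_stabilizer_iff]
  constructor
  · intro ha
    have h1 : (a : Equiv.Perm Cfsg.GolayPt) ∈ H.map Cfsg.M24.subtype := ⟨a, ha, rfl⟩
    exact ((h _).1 h1).2
  · intro hs
    have h1 : (a : Equiv.Perm Cfsg.GolayPt) ∈ H.map Cfsg.M24.subtype := (h _).2 ⟨a.2, hs⟩
    obtain ⟨b, hb, e⟩ := h1
    have : b = a := Subtype.ext e
    rw [← this]; exact hb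

/-- Subgroups of the group of the length-24 code of index 759, 276 and 1771 are exactly the octad, duad and sextet stabilisers, and no subgroup has index 253. -/
theorem result : (∀ H : Subgroup ↥Cfsg.M24, H.index = 759 → ∃ o ∈ Cfsg.octads, H = MulAction.stabilizer Cfsg.M24 o) ∧ (∀ H : Subgroup ↥Cfsg.M24, H.index = 276 → ∃ s : Finset Cfsg.GolayPt, s.card = 2 ∧ H = MulAction.stabilizer Cfsg.M24 s) ∧ (∀ H : Subgroup ↥Cfsg.M24, H.index = 1771 → ∃ S ∈ Cfsg.sextets, H = MulAction.stabilizer Cfsg.M24 S) ∧ ∀ H : Subgroup ↥Cfsg.M24, H.index ≠ 253 := by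
  refine ⟨?_, ?_, ?_, ?_⟩
  · intro H hH
    have hc := card_of_index H
    rw [hH] at hc
    obtain ⟨o, ho, h⟩ := part1 (Subgroup.map_subtype_le H) (by omega)
    exact ⟨o, ho, wrap H o h⟩
  · intro H hH
    have hc := card_of_index H
    rw [hH] at hc
    obtain ⟨s, hs, h⟩ := part2 (Subgroup.map_subtype_le H) (by omega)
    exact ⟨s, hs, wrap H s h⟩
  · intro H hH
    have hc := card_of_index H
    rw [hH] at hc
    obtain ⟨S, hS, h⟩ := part3 (Subgroup.map_subtype_le H) (by omega)
    refine ⟨S, hS, ?_⟩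
    apply Subgroup.eq_of_le_of_card_ge
    · intro a ha
      rw [MulAction.mem_stabilizer_iff]
      exact h _ ⟨a, ha, rfl⟩
    · rw [card_stab_sextet hS]
      have h2 := H.index_mul_card
      rw [hH, card_M24] at h2
      omega
  · intro H hH
    have hc := card_of_index H
    rw [hH] at hc
    exact part4 (Subgroup.map_subtype_le H) (by omega)

end Cfsg.Agent.S1589
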