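import Cfsg.Statements.S1591
import Cfsg.Agent.Lib.Helper34.TernaryGolay
-- import your own Cfsg.Agent.* helpers here

set_option autoImplicit false
open Cfsg

namespace Cfsg.Agent.S1591

open Cfsg.Agent.Lib.Helper34

theorem sq_enc : ∀ a : P6, ∑ p, enc a p * enc a p = 0 := by decide +kernel

theorem sq_zero (x : Cfsg.ArrayPt → ZMod 3) (hx : x ∈ Cfsg.ternaryGolayCode) : ∑ p, x p * x p = 0 := by
  obtain ⟨a, rfl⟩ := (mem_code_iff_enc x).1 hx
  exact sq_enc a

/-- Any two words of the length-12 ternary code have dot product zero. -/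
theorem result (x y : Cfsg.ArrayPt → ZMod 3) (hx : x ∈ Cfsg.ternaryGolayCode) (hy : y ∈ Cfsg.ternaryGolayCode) : ∑ p, x p * y p = 0 := by
  have h3 : (3 : ZMod 3) = 0 := by decide
  have h1 := sq_zero x hx
  have h2 := sq_zero y hy
  have h4 := sq_zero (x + y) (Cfsg.ternaryGolayCode.add_mem hx hy)
  have h5 : ∑ p, (x + y) p * (x + y) p = ∑ p, x p * x p + 2 * ∑ p, x p * y p + ∑ p, y p * y p := by
    rw [Finset.mul_sum, ← Finset.sum_add_distrib, ← Finset.sum_add_distrib]
    apply Finset.sum_congr rfl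
    intro p _
    simp only [Pi.add_apply]
    ring
  rw [h5, h1, h2] at h4
  linear_combination 2 * h4 - (∑ p, x p * y p) * h3

end Cfsg.Agent.S1591
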