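import Cfsg.Statements.S1594
import Cfsg.Agent.Lib.Helper10.TGAut

set_option autoImplicit false
open Cfsg

namespace Cfsg.Agent.S1594

/-- The monomial automorphism group of the length-12 ternary code has order 190080 and its permutation parts are exactly the automorphisms of its hexad system. -/
theorem result : Nat.card {f : Equiv.Perm Cfsg.ArrayPt × (Cfsg.ArrayPt → (ZMod 3)ˣ) // (∀ x ∈ Cfsg.ternaryGolayCode, Cfsg.monomialMap f.1 f.2 x ∈ Cfsg.ternaryGolayCode)} = 190080 ∧ {σ : Equiv.Perm Cfsg.ArrayPt | ∃ c : Cfsg.ArrayPt → (ZMod 3)ˣ, (∀ x ∈ Cfsg.ternaryGolayCode, Cfsg.monomialMap σ c x ∈ Cfsg.ternaryGolayCode)} = (Cfsg.setSystemAut {h : Finset Cfsg.ArrayPt | ∃ x ∈ Cfsg.ternaryGolayCode, Cfsg.ternarySupport x = h ∧ h.card = 6} : Set (Equiv.Perm Cfsg.ArrayPt)) := by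
  constructor
  · rw [← Cfsg.Agent.Lib.Helper10.card_TG]
    apply Nat.card_congr
    exact
      { toFun := fun f => ⟨⟨f.1.2, f.1.1⟩, f.2⟩
        invFun := fun w => ⟨(w.1.right, w.1.left), w.2⟩
        left_inv := fun f => rfl
        right_inv := fun w => rfl }
  · ext σ
    constructor
    · rintro ⟨c, h⟩
      exact Cfsg.Agent.Lib.Helper10.right_mem_aut (w := ⟨c, σ⟩) h
    · intro h
      obtain ⟨w, hw, rfl⟩ := Cfsg.Agent.Lib.Helper10.exists_right_eq h
      exact ⟨w.left, hw⟩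

end Cfsg.Agent.S1594
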