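import Cfsg.Statements.S1596
import Cfsg.Agent.Lib.Helper34.QuartetBase

set_option autoImplicit false
open scoped Pointwise
open Cfsg

namespace Cfsg.Agent.S1596

/-- A quartet of a dodecad is determined by any two of its triples: two disjoint triples uniting to a hexad extend to exactly one quartet. -/
theorem result (d : Finset Cfsg.GolayPt) (hd : d ∈ Cfsg.dodecads) (t u : Finset Cfsg.GolayPt) (ht : t.card = 3) (hu : u.card = 3) (htu : Disjoint t u) (hh : t ∪ u ∈ Cfsg.hexadsOn d) : ∃! Q : Finset (Finset Cfsg.GolayPt), Q ∈ Cfsg.quartets d ∧ t ∈ Q ∧ u ∈ Q := by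
  obtain ⟨g, hg, hgd, h7, h18⟩ := Cfsg.Agent.Lib.Helper34.triples_to_base hd ht hu htu hh
  have hne : t ≠ u := by
    rintro rfl
    rw [disjoint_self] at htu
    rw [htu] at ht
    simp at ht
  have hd' : g⁻¹ • Cfsg.Agent.Lib.Helper33.unmask Cfsg.Agent.Lib.Helper9.D0 = d := by
    rw [← hgd, inv_smul_smul]
  refine ⟨g⁻¹ • Cfsg.Agent.Lib.Helper34.Q0, ⟨?_, ?_, ?_⟩, ?_⟩
  · have := Cfsg.Agent.Lib.Helper34.smul_mem_quartets (Cfsg.M24.inv_mem hg) Cfsg.Agent.Lib.Helper34.Q0_mem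
    rwa [hd'] at this
  · have e : t = g⁻¹ • Cfsg.Agent.Lib.Helper33.unmask 0x7 := by rw [← h7, inv_smul_smul]
    rw [e]
    exact Finset.smul_mem_smul_finset (Cfsg.Agent.Lib.Helper34.mem_Q0.2 (Or.inl rfl))
  · have e : u = g⁻¹ • Cfsg.Agent.Lib.Helper33.unmask 0x1018 := by rw [← h18, inv_smul_smul]
    rw [e]
    exact Finset.smul_mem_smul_finset (Cfsg.Agent.Lib.Helper34.mem_Q0.2 (Or.inr (Or.inl rfl)))
  · rintro Q' ⟨hQ', ht', hu'⟩
    have hQ : g⁻¹ • Cfsg.Agent.Lib.Helper34.Q0 ∈ Cfsg.quartets d := by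
      have := Cfsg.Agent.Lib.Helper34.smul_mem_quartets (Cfsg.M24.inv_mem hg) Cfsg.Agent.Lib.Helper34.Q0_mem
      rwa [hd'] at this
    refine Cfsg.Agent.Lib.Helper34.quartet_unique hd.2 hQ' hQ hne ht' hu' ?_ ?_
    · have e : t = g⁻¹ • Cfsg.Agent.Lib.Helper33.unmask 0x7 := by rw [← h7, inv_smul_smul]
      rw [e]
      exact Finset.smul_mem_smul_finset (Cfsg.Agent.Lib.Helper34.mem_Q0.2 (Or.inl rfl))
    · have e : u = g⁻¹ • Cfsg.Agent.Lib.Helper33.unmask 0x1018 := by rw [← h18, inv_smul_smul]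
      rw [e]
      exact Finset.smul_mem_smul_finset (Cfsg.Agent.Lib.Helper34.mem_Q0.2 (Or.inr (Or.inl rfl)))

end Cfsg.Agent.S1596
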