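import Cfsg.Statements.S1598
import Cfsg.Agent.Lib.Helper34.QuartetStr2

set_option autoImplicit false
open scoped Pointwise
open Cfsg

namespace Cfsg.Agent.S1598

/-- A quartet stabiliser inside the dodecad stabiliser has order 432, a normal subgroup of order 9 with quotient GL(2, 3), and is transitive on the dodecad. -/
theorem result (d : Finset Cfsg.GolayPt) (hd : d ∈ Cfsg.dodecads) (Q : Finset (Finset Cfsg.GolayPt)) (hQ : Q ∈ Cfsg.quartets d) : Nat.card ↥(MulAction.stabilizer Cfsg.M24 d ⊓ MulAction.stabilizer Cfsg.M24 Q) = 432 ∧ (∃ (N : Subgroup ↥(MulAction.stabilizer Cfsg.M24 d ⊓ MulAction.stabilizer Cfsg.M24 Q)) (_ : N.Normal), Nat.card N = 9 ∧ Nonempty (↥(MulAction.stabilizer Cfsg.M24 d ⊓ MulAction.stabilizer Cfsg.M24 Q) ⧸ N ≃* GL (Fin 2) (ZMod 3))) ∧ ∀ p ∈ d, ∀ q ∈ d, ∃ g ∈ (MulAction.stabilizer Cfsg.M24 d ⊓ MulAction.stabilizer Cfsg.M24 Q), ((g :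 ↥Cfsg.M24) : Equiv.Perm Cfsg.GolayPt) p = q := by
  obtain ⟨u, hu, hud, huQ⟩ := Cfsg.Agent.Lib.Helper34.quartet_to_base' hd hQ
  have key := Cfsg.Agent.Lib.Helper34.quartet_key hu hud huQ
  refine ⟨Cfsg.Agent.Lib.Helper34.card_quartet_stab hd hQ,
    Cfsg.Agent.Lib.Helper34.structure_transport
      (Cfsg.Agent.Lib.Helper34.conjEquiv Cfsg.Agent.Lib.Helper34.HQ0_le_M24 hu key)
      Cfsg.Agent.Lib.Helper34.HQ0_structure, ?_⟩
  intro p hp q hq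
  have hp' : u p ∈ Cfsg.Agent.Lib.Helper33.unmask Cfsg.Agent.Lib.Helper9.D0 := by
    rw [← hud]; exact Cfsg.Agent.Lib.Helper9.smul_mem_of_mem hp
  have hq' : u q ∈ Cfsg.Agent.Lib.Helper33.unmask Cfsg.Agent.Lib.Helper9.D0 := by
    rw [← hud]; exact Cfsg.Agent.Lib.Helper9.smul_mem_of_mem hq
  obtain ⟨t, ht, htp⟩ := Cfsg.Agent.Lib.Helper34.HQ0_trans hp' hq'
  have htM : u⁻¹ * t * u ∈ Cfsg.M24 :=
    Cfsg.M24.mul_mem (Cfsg.M24.mul_mem (Cfsg.M24.inv_mem hu) (Cfsg.Agent.Lib.Helper34.HQ0_le_M24 ht)) hu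
  refine ⟨⟨u⁻¹ * t * u, htM⟩, (key _).2 ?_, ?_⟩
  · have : u * (u⁻¹ * t * u) * u⁻¹ = t := by group
    show u * (u⁻¹ * t * u) * u⁻¹ ∈ _
    rw [this]; exact ht
  · show (u⁻¹ * t * u) p = q
    rw [Equiv.Perm.mul_apply, Equiv.Perm.mul_apply, htp, Equiv.Perm.inv_eq_iff_eq]

end Cfsg.Agent.S1598
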