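import Cfsg.Statements.S1599
import Cfsg.Agent.Lib.Helper34.QuartetOrb

set_option autoImplicit false
open scoped Pointwise
open Cfsg

namespace Cfsg.Agent.S1599

/-- A quartet stabiliser has five orbits on the quartets of its dodecad, of sizes 1, 12, 27, 72, 108. -/
theorem result (d : Finset Cfsg.GolayPt) (hd : d ∈ Cfsg.dodecads) (Q : Finset (Finset Cfsg.GolayPt)) (hQ : Q ∈ Cfsg.quartets d) : ∃ X₁ ∈ Cfsg.quartets d, ∃ X₂ ∈ Cfsg.quartets d, ∃ X₃ ∈ Cfsg.quartets d, ∃ X₄ ∈ Cfsg.quartets d, (MulAction.orbit ↥(MulAction.stabilizer Cfsg.M24 d ⊓ MulAction.stabilizer Cfsg.M24 Q) X₁).ncard = 12 ∧ (MulAction.orbit ↥(MulAction.stabilizer Cfsg.M24 d ⊓ MulAction.stabilizer Cfsg.M24 Q) X₂).ncard = 27 ∧ (MulAction.orbit ↥(MulAction.stabilizer Cfsg.M24 d ⊓ MulAction.stabilizer Cfsg.M24 Q) X₃).ncard = 72 ∧ (MulAction.orbit ↥(MulAction.stabilizer Cfsg.M24 d ⊓ MulAction.stabilizer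 Cfsg.M24 Q) X₄).ncard = 108 ∧ Cfsg.quartets d = {Q} ∪ MulAction.orbit ↥(MulAction.stabilizer Cfsg.M24 d ⊓ MulAction.stabilizer Cfsg.M24 Q) X₁ ∪ MulAction.orbit ↥(MulAction.stabilizer Cfsg.M24 d ⊓ MulAction.stabilizer Cfsg.M24 Q) X₂ ∪ MulAction.orbit ↥(MulAction.stabilizer Cfsg.M24 d ⊓ MulAction.stabilizer Cfsg.M24 Q) X₃ ∪ MulAction.orbit ↥(MulAction.stabilizer Cfsg.M24 d ⊓ MulAction.stabilizer Cfsg.M24 Q) X₄ := by
  obtain ⟨x₀, D, hself, hJ0⟩ := Cfsg.Agent.Lib.Helper34.quartet_rank hd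
  have h1 : Cfsg.Agent.Lib.Helper34.qSz (Cfsg.Agent.Lib.Helper34.relP 4 x₀ x₀) = 1 := by
    rw [hself]; exact Cfsg.Agent.Lib.Helper34.qSz_324
  obtain ⟨X₁, hX₁, hr₁⟩ := D.exists_rel hQ (i := 90) (by rw [Cfsg.Agent.Lib.Helper34.qSz_90]; norm_num)
  obtain ⟨X₂, hX₂, hr₂⟩ := D.exists_rel hQ (i := 68) (by rw [Cfsg.Agent.Lib.Helper34.qSz_68]; norm_num)
  obtain ⟨X₃, hX₃, hr₃⟩ := D.exists_rel hQ (i := 54) (by rw [Cfsg.Agent.Lib.Helper34.qSz_54]; norm_num)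
  obtain ⟨X₄, hX₄, hr₄⟩ := D.exists_rel hQ (i := 26) (by rw [Cfsg.Agent.Lib.Helper34.qSz_26]; norm_num)
  refine ⟨X₁, hX₁, X₂, hX₂, X₃, hX₃, X₄, hX₄, ?_⟩
  rw [Cfsg.Agent.Lib.Helper34.quartet_orbit_conv d Q X₁, Cfsg.Agent.Lib.Helper34.quartet_orbit_conv d Q X₂,
    Cfsg.Agent.Lib.Helper34.quartet_orbit_conv d Q X₃, Cfsg.Agent.Lib.Helper34.quartet_orbit_conv d Q X₄]
  refine ⟨?_, ?_, ?_, ?_, ?_⟩
  · rw [D.ncard_orbit_stabilizer hQ hX₁, hr₁]; exact Cfsg.Agent.Lib.Helper34.qSz_90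
  · rw [D.ncard_orbit_stabilizer hQ hX₂, hr₂]; exact Cfsg.Agent.Lib.Helper34.qSz_68
  · rw [D.ncard_orbit_stabilizer hQ hX₃, hr₃]; exact Cfsg.Agent.Lib.Helper34.qSz_54
  · rw [D.ncard_orbit_stabilizer hQ hX₄, hr₄]; exact Cfsg.Agent.Lib.Helper34.qSz_26
  · rw [D.orbit_stabilizer_eq hQ hX₁, D.orbit_stabilizer_eq hQ hX₂, D.orbit_stabilizer_eq hQ hX₃,
      D.orbit_stabilizer_eq hQ hX₄, hr₁, hr₂, hr₃, hr₄]
    ext y
    simp only [Set.mem_union, Set.mem_singleton_iff, Set.mem_ofPred_eq]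
    constructor
    · intro hy
      have hJ := D.relJ' {324, 90, 68, 54, 26} hJ0 hQ hy
      simp only [Finset.mem_insert, Finset.mem_singleton] at hJ
      rcases hJ with h | h | h | h | h
      · exact Or.inl (Or.inl (Or.inl (Or.inl (D.diag' h1 hQ hy (by rw [h, hself])))))
      · exact Or.inl (Or.inl (Or.inl (Or.inr ⟨hy, h⟩)))
      · exact Or.inl (Or.inl (Or.inr ⟨hy, h⟩))
      · exact Or.inl (Or.inr ⟨hy, h⟩)
      · exact Or.inr ⟨hy, h⟩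
    · rintro ((((rfl | h) | h) | h) | h)
      · exact hQ
      · exact h.1
      · exact h.1
      · exact h.1
      · exact h.1

end Cfsg.Agent.S1599
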