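import Cfsg.Statements.S1601
import Cfsg.Agent.Lib.Helper34.L211

set_option autoImplicit false
open scoped Pointwise
open Cfsg

namespace Cfsg.Agent.S1601

/-- In the 3-transitive action of the smallest Mathieu group on the complementary dodecad, a point stabiliser is isomorphic to PSL(2, 11). -/
theorem result (d : Finset Cfsg.GolayPt) (hd : d ∈ Cfsg.dodecads) (p q : Cfsg.GolayPt) (hp : p ∈ d) (hq : q ∉ d) : Nonempty (↥(MulAction.stabilizer Cfsg.M24 d ⊓ MulAction.stabilizer Cfsg.M24 p ⊓ MulAction.stabilizer Cfsg.M24 q) ≃* Matrix.ProjectiveSpecialLinearGroup (Fin 2) (ZMod 11)) := by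
  obtain ⟨u0, hu0, hd0, hp0⟩ := Cfsg.Agent.Lib.Helper9.m12_trans_on d hd p hp
  have hq0 : u0 q ∉ Cfsg.Agent.Lib.Helper33.unmask Cfsg.Agent.Lib.Helper9.D0 := by
    rw [← hd0]; exact Cfsg.Agent.Lib.Helper9.smul_notMem_of_notMem hq
  obtain ⟨t, ht, _, h2⟩ := Cfsg.Agent.Lib.Helper9.step_of_T Cfsg.Agent.Lib.Helper9.K11_le
    Cfsg.Agent.Lib.Helper9.m11c_T2 (u0 q) (by
      rw [Cfsg.Agent.Lib.Helper34.notMem_unmask_iff, Cfsg.Agent.Lib.Helper33.mem_unmask] at hq0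
      exact hq0)
  have hu : t * u0 ∈ Cfsg.M24 := Cfsg.M24.mul_mem ht.1.1 hu0
  have hud : (t * u0) • d = Cfsg.Agent.Lib.Helper33.unmask Cfsg.Agent.Lib.Helper9.D0 := by
    rw [mul_smul, hd0]; exact ht.1.2
  have e0 : (t * u0) p = Cfsg.Agent.Lib.Helper33.pt 0 := by
    rw [Equiv.Perm.mul_apply, hp0]; exact ht.2 0 (by simp)
  have e5 : (t * u0) q = Cfsg.Agent.Lib.Helper33.pt 5 := h2
  have key : ∀ g : ↥Cfsg.M24, g ∈ (MulAction.stabilizer Cfsg.M24 d ⊓ MulAction.stabilizer Cfsg.M24 p ⊓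
      MulAction.stabilizer Cfsg.M24 q) ↔
      (t * u0) * g.1 * (t * u0)⁻¹ ∈ Cfsg.Agent.Lib.Helper9.fixL Cfsg.Agent.Lib.Helper9.H12 [5, 0] := by
    intro g
    have := Cfsg.Agent.Lib.Helper34.conj_mem_fixL_iff hu g.2 hud [5, 0]
      (fun i => if i = 0 then p else q) (by
        intro i hi
        simp only [List.mem_cons, List.not_mem_nil, or_false] at hi
        rcases hi with rfl | rfl
        · simpa using e5
        · simpa using e0)
    refine Iff.trans ?_ this.symm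
    constructor
    · rintro ⟨⟨h1, h2⟩, h3⟩
      refine ⟨h1, ?_⟩
      intro i hi
      simp only [List.mem_cons, List.not_mem_nil, or_false] at hi
      rcases hi with rfl | rfl
      · exact h3
      · exact h2
    · rintro ⟨h1, h2⟩
      exact ⟨⟨h1, h2 0 (by simp)⟩, h2 5 (by simp)⟩
  have hle : Cfsg.Agent.Lib.Helper9.fixL Cfsg.Agent.Lib.Helper9.H12 [5, 0] ≤ Cfsg.M24 :=
    fun g hg => hg.1.1
  obtain ⟨E⟩ := Cfsg.Agent.Lib.Helper34.fix50_equiv
  exact ⟨(Cfsg.Agent.Lib.Helper34.conjEquiv hle hu key).trans E⟩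

end Cfsg.Agent.S1601
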