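import Cfsg.Statements.S1602
import Cfsg.Agent.Lib.Helper34.M11Pair

set_option autoImplicit false
open scoped Pointwise
open Cfsg

namespace Cfsg.Agent.S1602

/-- In the 12-point action of the smallest Mathieu group the setwise stabiliser of a pair is isomorphic to the symmetric group of degree 5. -/
theorem result (d : Finset Cfsg.GolayPt) (hd : d ∈ Cfsg.dodecads) (p q q' : Cfsg.GolayPt) (hp : p ∈ d) (hq : q ∉ d) (hq' : q' ∉ d) (hqq' : q ≠ q') : Nonempty (↥(MulAction.stabilizer Cfsg.M24 d ⊓ MulAction.stabilizer Cfsg.M24 p ⊓ MulAction.stabilizer Cfsg.M24 ({q, q'} : Finset Cfsg.GolayPt)) ≃* Equiv.Perm (Fin 5)) := by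
  obtain ⟨o, ho, huniq⟩ := Cfsg.Agent.Lib.Helper34.exists_unique_hexOct hd hp hq hq' hqq'
  set H := MulAction.stabilizer Cfsg.M24 d ⊓ MulAction.stabilizer Cfsg.M24 p with hH
  set K := H ⊓ MulAction.stabilizer Cfsg.M24 ({q, q'} : Finset Cfsg.GolayPt) with hK
  -- the order of `K`
  have hcard : Nat.card ↥K = 120 := by
    have horb : MulAction.orbit ↥H ({q, q'} : Finset Cfsg.GolayPt) =
        ((dᶜ.powersetCard 2 : Finset (Finset Cfsg.GolayPt)) : Set (Finset Cfsg.GolayPt)) := by
      ext s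
      rw [Finset.mem_coe, Finset.mem_powersetCard]
      constructor
      · rintro ⟨g, rfl⟩
        have hgd : (g.1.1 : Equiv.Perm Cfsg.GolayPt) • d = d := g.2.1
        refine ⟨?_, ?_⟩
        · intro z hz
          obtain ⟨y, hy, rfl⟩ := Finset.mem_smul_finset.1 hz
          rw [Finset.mem_compl]
          intro hc
          have hc' : g.1.1 y ∈ d := hc
          rw [Cfsg.Agent.Lib.Helper34.mem_iff_of_smul_eq hgd] at hc'
          simp only [Finset.mem_insert, Finset.mem_singleton] at hy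
          rcases hy with rfl | rfl
          · exact hq hc'
          · exact hq' hc'
        · show (g.1.1 • ({q, q'} : Finset Cfsg.GolayPt)).card = 2
          rw [Finset.card_smul_finset, Finset.card_pair hqq']
      · rintro ⟨hs, hc⟩
        obtain ⟨a, b, hab, rfl⟩ := Finset.card_eq_two.1 hc
        have ha : a ∉ d := Finset.mem_compl.1 (hs (by simp))
        have hb : b ∉ d := Finset.mem_compl.1 (hs (by simp))
        obtain ⟨u, hu, hud, e0, e1, e2⟩ := Cfsg.Agent.Lib.Helper34.m11_pair_to_base hd hp hq hq' hqq'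
        obtain ⟨v, hv, hvd, f0, f1, f2⟩ := Cfsg.Agent.Lib.Helper34.m11_pair_to_base hd hp ha hb hab
        refine ⟨⟨⟨v⁻¹ * u, Cfsg.M24.mul_mem (Cfsg.M24.inv_mem hv) hu⟩, ⟨?_, ?_⟩⟩, ?_⟩
        · show (v⁻¹ * u) • d = d
          rw [mul_smul, hud, ← hvd, inv_smul_smul]
        · show (v⁻¹ * u) p = p
          rw [Equiv.Perm.mul_apply, e0, Equiv.Perm.inv_eq_iff_eq, f0]
        · show (v⁻¹ * u) • ({q, q'} : Finset Cfsg.GolayPt) = {a, b}
          rw [Finset.smul_finset_insert, Finset.smul_finset_singleton]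
          have g1 : (v⁻¹ * u) • q = a := by
            show (v⁻¹ * u) q = a
            rw [Equiv.Perm.mul_apply, e1, Equiv.Perm.inv_eq_iff_eq, f1]
          have g2 : (v⁻¹ * u) • q' = b := by
            show (v⁻¹ * u) q' = b
            rw [Equiv.Perm.mul_apply, e2, Equiv.Perm.inv_eq_iff_eq, f2]
          rw [g1, g2]
    have h1 := Subgroup.card_mul_index (MulAction.stabilizer ↥H ({q, q'} : Finset Cfsg.GolayPt))
    rw [MulAction.index_stabilizer, horb, Set.ncard_coe_finset, Finset.card_powersetCard,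
      Cfsg.Agent.Lib.Helper34.card_compl_dodecad hd, Cfsg.Agent.Lib.Helper9.card_m11 d hd p hp,
      Nat.card_congr (Cfsg.Agent.Lib.Helper9.stabSubgroupEquiv H _).toEquiv,
      show Nat.choose 12 2 = 66 by decide] at h1
    have h2 : Nat.card ↥K * 66 = 7920 := h1
    omega
  -- every element of `K` fixes the octad `o`
  have hKo : ∀ g ∈ K, (g : Equiv.Perm Cfsg.GolayPt) • o = o := by
    intro g hg
    obtain ⟨⟨h1, h2⟩, h3⟩ := hg
    have h1' : g.1 • d = d := h1
    have h2' : g.1 p = p := h2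
    have h3' : g.1 • ({q, q'} : Finset Cfsg.GolayPt) = {q, q'} := h3
    apply huniq
    have h4 := Cfsg.Agent.Lib.Helper34.hexOct_smul g.2 ho
    have hsub : ({q, q'} : Finset Cfsg.GolayPt) ⊆ g.1 • o := by
      rw [← h3']
      apply Finset.smul_finset_subset_smul_finset
      intro z hz
      simp only [Finset.mem_insert, Finset.mem_singleton] at hz
      rcases hz with rfl | rfl
      · exact ho.2.2.1
      · exact ho.2.2.2.1
    refine ⟨h4.1, ?_, hsub (by simp), hsub (by simp), ?_⟩
    · have := h4.2.1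
      rwa [h2'] at this
    · have := h4.2.2.2.2
      rwa [h1'] at this
  set B := (o ∩ d).erase p with hB
  have hBcard : B.card = 5 := by
    rw [hB, Finset.card_erase_of_mem (Finset.mem_inter.2 ⟨ho.2.1, hp⟩), ho.2.2.2.2]
  have hKB : ∀ g ∈ K, (g : Equiv.Perm Cfsg.GolayPt) • B = B := by
    intro g hg
    apply Cfsg.Agent.Lib.Helper34.smul_eq_of_mem_iff
    intro x
    have h1' : g.1 • d = d := hg.1.1
    have h2' : g.1 p = p := hg.1.2
    rw [hB, Finset.mem_erase, Finset.mem_erase, Finset.mem_inter, Finset.mem_inter,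
      Cfsg.Agent.Lib.Helper34.mem_iff_of_smul_eq (hKo g hg), Cfsg.Agent.Lib.Helper34.mem_iff_of_smul_eq h1']
    have : g.1 x ≠ p ↔ x ≠ p := by
      constructor
      · intro h e; exact h (e ▸ h2')
      · intro h e; exact h (g.1.injective (e.trans h2'.symm))
    rw [this]
  have hinj : Function.Injective (Cfsg.Agent.Lib.Helper34.resHomOf hKB) := by
    rw [injective_iff_map_eq_one]
    intro g hg
    rw [Cfsg.Agent.Lib.Helper34.resHomOf_eq_one_iff] at hg
    obtain ⟨x, hxB, _⟩ := Cfsg.Agent.Lib.Helper34.exists_emb B 5 (le_of_eq hBcard.symm) []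
      List.nodup_nil (by simp) (by simp)
    have hxd : ∀ i, x i ∈ d := fun i =>
      (Finset.mem_inter.1 (Finset.mem_of_mem_erase (hxB i))).2
    obtain ⟨g0, _, hu⟩ := Cfsg.Agent.Lib.Helper9.m12_sharp d hd x x hxd hxd
    have a1 := hu ⟨g.1, g.2.1.1⟩ (fun i => hg _ (hxB i))
    have a2 := hu 1 (fun i => rfl)
    have a3 : (⟨g.1, g.2.1.1⟩ : MulAction.stabilizer Cfsg.M24 d) = 1 := a1.trans a2.symm
    apply Subtype.ext
    exact congrArg (fun z : MulAction.stabilizer Cfsg.M24 d => z.1) a3
  have hbij : Function.Bijective (Cfsg.Agent.Lib.Helper34.resHomOf hKB) := by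
    apply hinj.bijective_of_nat_card_le
    rw [hcard, Nat.card_eq_fintype_card, Fintype.card_perm, Fintype.card_coe, hBcard]
    decide
  exact ⟨(MulEquiv.ofBijective _ hbij).trans (B.equivFinOfCardEq hBcard).permCongrHom⟩

end Cfsg.Agent.S1602
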