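import Cfsg.Statements.S1603
import Cfsg.Agent.Lib.Helper34.M11Cent2

set_option autoImplicit false
open scoped Pointwise
open Cfsg

namespace Cfsg.Agent.S1603

/-- Involution centralisers in the smallest Mathieu group are isomorphic to GL(2, 3). -/
theorem result (d : Finset Cfsg.GolayPt) (hd : d ∈ Cfsg.dodecads) (p : Cfsg.GolayPt) (hp : p ∈ d) (x : ↥(MulAction.stabilizer Cfsg.M24 d ⊓ MulAction.stabilizer Cfsg.M24 p)) (hx : orderOf x = 2) : Nonempty (↥(Subgroup.centralizer ({x} : Set ↥(MulAction.stabilizer Cfsg.M24 d ⊓ MulAction.stabilizer Cfsg.M24 p))) ≃* GL (Fin 2) (ZMod 3)) := by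
  obtain ⟨u1, hu1, hud1, hup1⟩ := Cfsg.Agent.Lib.Helper9.m12_trans_on d hd p hp
  -- the involution as a permutation
  have hx2 : x.1.1 * x.1.1 = 1 := by
    have h : x ^ 2 = 1 := by rw [← hx, pow_orderOf_eq_one]
    rw [pow_two] at h
    exact congrArg (fun z : ↥(MulAction.stabilizer Cfsg.M24 d ⊓ MulAction.stabilizer Cfsg.M24 p) => z.1.1) h
  have hx1 : x.1.1 ≠ 1 := by
    intro h
    have : x = 1 := by apply Subtype.ext; apply Subtype.ext; exact h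
    rw [this, orderOf_one] at hx
    omega
  have key : ∀ (w g : Equiv.Perm Cfsg.GolayPt), w ∈ Cfsg.M24 → g ∈ Cfsg.M24 →
      w • d = Cfsg.Agent.Lib.Helper33.unmask Cfsg.Agent.Lib.Helper9.D0 →
      w p = Cfsg.Agent.Lib.Helper33.pt 0 →
      (w * g * w⁻¹ ∈ Cfsg.Agent.Lib.Helper9.fixL Cfsg.Agent.Lib.Helper9.H12 [0] ↔ g • d = d ∧ g p = p) := by
    intro w g hw hg hwd hwp
    have := Cfsg.Agent.Lib.Helper34.conj_mem_fixL_iff hw hg hwd [0] (fun _ => p) (by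
      intro i hi
      simp only [List.mem_cons, List.not_mem_nil, or_false] at hi
      rw [hi]; exact hwp)
    refine this.trans ?_
    simp
  have hx1M : u1 * x.1.1 * u1⁻¹ ∈ Cfsg.Agent.Lib.Helper9.fixL Cfsg.Agent.Lib.Helper9.H12 [0] :=
    (key u1 x.1.1 hu1 x.1.2 hud1 hup1).2 ⟨x.2.1, x.2.2⟩
  obtain ⟨u2, hu2, e2⟩ := Cfsg.Agent.Lib.Helper34.inv_conj hx1M
    (by
      have : u1 * x.1.1 * u1⁻¹ * (u1 * x.1.1 * u1⁻¹) = u1 * (x.1.1 * x.1.1) * u1⁻¹ := by group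
      rw [this, hx2]; group)
    (by
      intro h
      apply hx1
      have : x.1.1 = u1⁻¹ * (u1 * x.1.1 * u1⁻¹) * u1 := by group
      rw [this, h]; group)
  set w := u2 * u1 with hw
  have hwM : w ∈ Cfsg.M24 := Cfsg.M24.mul_mem hu2.1.1 hu1
  have hwd : w • d = Cfsg.Agent.Lib.Helper33.unmask Cfsg.Agent.Lib.Helper9.D0 := by
    rw [hw, mul_smul, hud1]; exact hu2.1.2
  have hwp : w p = Cfsg.Agent.Lib.Helper33.pt 0 := by
    rw [hw, Equiv.Perm.mul_apply, hup1]; exact hu2.2 0 (by simp)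
  have hwx : w * x.1.1 * w⁻¹ = Cfsg.Agent.Lib.Helper33.permOf Cfsg.Agent.Lib.Helper34.invP := by
    rw [← e2, hw]; group
  obtain ⟨E⟩ := Cfsg.Agent.Lib.Helper34.cent0_equiv
  obtain ⟨F⟩ := Cfsg.Agent.Lib.Helper34.nonempty_mulEquiv_of_conj
    (Subgroup.centralizer ({x} : Set ↥(MulAction.stabilizer Cfsg.M24 d ⊓ MulAction.stabilizer Cfsg.M24 p)))
    Cfsg.Agent.Lib.Helper34.cent0 w
    (by
      intro z hz
      rw [Subgroup.mem_centralizer_iff] at hz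
      have h1 := hz x rfl
      have h2 : x.1.1 * z.1.1 = z.1.1 * x.1.1 :=
        congrArg (fun t : ↥(MulAction.stabilizer Cfsg.M24 d ⊓ MulAction.stabilizer Cfsg.M24 p) => t.1.1) h1
      rw [Cfsg.Agent.Lib.Helper34.mem_cent0]
      refine ⟨(key w z.1.1 hwM z.1.2 hwd hwp).2 ⟨z.2.1, z.2.2⟩, ?_⟩
      rw [← hwx]
      have a1 : w * x.1.1 * w⁻¹ * (w * z.1.1 * w⁻¹) = w * (x.1.1 * z.1.1) * w⁻¹ := by group
      have a2 : w * z.1.1 * w⁻¹ * (w * x.1.1 * w⁻¹) = w * (z.1.1 * x.1.1) * w⁻¹ := by group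
      rw [a1, a2, h2])
    (by
      intro k hk
      rw [Cfsg.Agent.Lib.Helper34.mem_cent0] at hk
      obtain ⟨hk1, hk2⟩ := hk
      have hgM : w⁻¹ * k * w ∈ Cfsg.M24 :=
        Cfsg.M24.mul_mem (Cfsg.M24.mul_mem (Cfsg.M24.inv_mem hwM) hk1.1.1) hwM
      have hconj : w * (w⁻¹ * k * w) * w⁻¹ = k := by group
      have h3 := (key w (w⁻¹ * k * w) hwM hgM hwd hwp).1 (by rw [hconj]; exact hk1)
      refine ⟨⟨⟨w⁻¹ * k * w, hgM⟩, ⟨h3.1, h3.2⟩⟩, ?_, rfl⟩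
      rw [Subgroup.mem_centralizer_iff]
      intro y hy
      rw [Set.mem_singleton_iff] at hy
      subst hy
      apply Subtype.ext; apply Subtype.ext
      show y.1.1 * (w⁻¹ * k * w) = (w⁻¹ * k * w) * y.1.1
      have hy' : y.1.1 = w⁻¹ * Cfsg.Agent.Lib.Helper33.permOf Cfsg.Agent.Lib.Helper34.invP * w := by
        rw [← hwx]; group
      rw [hy']
      have b1 : w⁻¹ * Cfsg.Agent.Lib.Helper33.permOf Cfsg.Agent.Lib.Helper34.invP * w * (w⁻¹ * k * w) =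
          w⁻¹ * (Cfsg.Agent.Lib.Helper33.permOf Cfsg.Agent.Lib.Helper34.invP * k) * w := by group
      have b2 : w⁻¹ * k * w * (w⁻¹ * Cfsg.Agent.Lib.Helper33.permOf Cfsg.Agent.Lib.Helper34.invP * w) =
          w⁻¹ * (k * Cfsg.Agent.Lib.Helper33.permOf Cfsg.Agent.Lib.Helper34.invP) * w := by group
      rw [b1, b2, hk2])
  exact ⟨F.trans E⟩

end Cfsg.Agent.S1603
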