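import Cfsg.Statements.S1604
import Cfsg.Agent.Lib.Helper34.M24FamData

set_option autoImplicit false
open scoped Pointwise
open Cfsg

namespace Cfsg.Agent.S1604

/-- A hexad stabiliser in the two-point stabiliser has orbits of sizes 1, 16, 60 on the 77 hexads: the 16 hexads disjoint from it and the 60 meeting it in two points. -/
theorem result (p q : Cfsg.GolayPt) (hpq : p ≠ q) (o o' o'' : Finset Cfsg.GolayPt) (ho : o ∈ Cfsg.octads) (ho' : o' ∈ Cfsg.octads) (ho'' : o'' ∈ Cfsg.octads) (hp : p ∈ o ∧ p ∈ o' ∧ p ∈ o'') (hq : q ∈ o ∧ q ∈ o' ∧ q ∈ o'') (h : (o ∩ o').card = (o ∩ o'').card) : {x : Finset Cfsg.GolayPt | x ∈ Cfsg.octads ∧ p ∈ x ∧ q ∈ x ∧ (o ∩ x).card = 2}.ncard = 16 ∧ {x : Finset Cfsg.GolayPt | x ∈ Cfsg.octads ∧ p ∈ x ∧ q ∈ x ∧ (o ∩ x).card = 4}.ncard = 60 ∧ ∃ g : Equiv.Perm Cfsg.GolayPt, g ∈ Cfsg.M24 ∧ g p = p ∧ g q = q ∧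 g • o = o ∧ g • o' = o'' := by
  obtain ⟨a, ha, hap, haq⟩ := Cfsg.Agent.Lib.Helper34.two_trans hpq
    (show Cfsg.Agent.Lib.Helper33.pt 0 ≠ Cfsg.Agent.Lib.Helper33.pt 1 by decide)
  have D := Cfsg.Agent.Lib.Helper34.famRank_transport (p := p) (q := q) (bp := true) (bq := true) ha
    (by rw [hap, haq]; exact Cfsg.Agent.Lib.Helper34.h22hex_rank)
  have hmem : ∀ y, y ∈ Cfsg.Agent.Lib.Helper34.octFam p q true true ↔ y ∈ Cfsg.octads ∧ p ∈ y ∧ q ∈ y := by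
    intro y; simp [Cfsg.Agent.Lib.Helper34.mem_octFam]
  have hoΩ := (hmem o).2 ⟨ho, hp.1, hq.1⟩
  refine ⟨?_, ?_, ?_⟩
  · have := D.count' hoΩ 2
    rw [Cfsg.Agent.Lib.Helper34.h22hex_sz2] at this
    rw [← this]; congr 1; ext y
    show _ ∧ _ ∧ _ ∧ _ ↔ _ ∧ _
    rw [hmem, and_assoc, and_assoc]
  · have := D.count' hoΩ 4
    rw [Cfsg.Agent.Lib.Helper34.h22hex_sz4] at this
    rw [← this]; congr 1; ext y
    show _ ∧ _ ∧ _ ∧ _ ↔ _ ∧ _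
    rw [hmem, and_assoc, and_assoc]
  · obtain ⟨g, hg, hg'⟩ := D.trans₂' hoΩ ((hmem o').2 ⟨ho', hp.2.1, hq.2.1⟩)
      ((hmem o'').2 ⟨ho'', hp.2.2, hq.2.2⟩) h
    obtain ⟨h1, h2, h3⟩ := Cfsg.Agent.Lib.Helper34.mem_ptStab.1 g.2
    exact ⟨g.1, h1, h2, h3, hg, hg'⟩

end Cfsg.Agent.S1604
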