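import Cfsg.Statements.S1605
import Cfsg.Agent.Lib.Helper34.M24FamData

set_option autoImplicit false
open scoped Pointwise
open Cfsg

namespace Cfsg.Agent.S1605

/-- The two-point stabiliser acts on the 176 octads through the first point avoiding the second with rank 3 and subdegrees 1, 70, 105 (intersections 8, 2, 4). -/
theorem result (p q : Cfsg.GolayPt) (hpq : p ≠ q) : {x : Finset Cfsg.GolayPt | (x ∈ Cfsg.octads ∧ p ∈ x ∧ q ∉ x)}.ncard = 176 ∧ (∀ o o' : Finset Cfsg.GolayPt, (o ∈ Cfsg.octads ∧ p ∈ o ∧ q ∉ o) → (o' ∈ Cfsg.octads ∧ p ∈ o' ∧ q ∉ o') → ∃ g : Equiv.Perm Cfsg.GolayPt, g ∈ Cfsg.M24 ∧ g p = p ∧ g q = q ∧ g • o = o') ∧ ∀ o : Finset Cfsg.GolayPt, (o ∈ Cfsg.octads ∧ p ∈ o ∧ q ∉ o) → {x : Finset Cfsg.GolayPt | (x ∈ Cfsg.octads ∧ p ∈ x ∧ q ∉ x) ∧ (o ∩ x).card = 2}.ncard = 70 ∧ {x : Finset Cfsg.GolayPt | (x ∈ Cfsg.octads ∧ p ∈ x ∧ q ∉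 x) ∧ (o ∩ x).card = 4}.ncard = 105 ∧ ∀ o' o'' : Finset Cfsg.GolayPt, (o' ∈ Cfsg.octads ∧ p ∈ o' ∧ q ∉ o') → (o'' ∈ Cfsg.octads ∧ p ∈ o'' ∧ q ∉ o'') → (o ∩ o').card = (o ∩ o'').card → ∃ g : Equiv.Perm Cfsg.GolayPt, g ∈ Cfsg.M24 ∧ g p = p ∧ g q = q ∧ g • o = o ∧ g • o' = o'' := by
  obtain ⟨a, ha, hap, haq⟩ := Cfsg.Agent.Lib.Helper34.two_trans hpq
    (show Cfsg.Agent.Lib.Helper33.pt 0 ≠ Cfsg.Agent.Lib.Helper33.pt 1 by decide)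
  have D := Cfsg.Agent.Lib.Helper34.famRank_transport (p := p) (q := q) (bp := true) (bq := false) ha
    (by rw [hap, haq]; exact Cfsg.Agent.Lib.Helper34.h22hep_rank)
  have hmem : ∀ y, y ∈ Cfsg.Agent.Lib.Helper34.octFam p q true false ↔ y ∈ Cfsg.octads ∧ p ∈ y ∧ q ∉ y := by
    intro y; simp [Cfsg.Agent.Lib.Helper34.mem_octFam]
  refine ⟨?_, ?_, ?_⟩
  · have := Cfsg.Agent.Lib.Helper34.fam_ncard_transport (p := p) (q := q) (bp := true) (bq := false) ha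
    rw [hap, haq, Cfsg.Agent.Lib.Helper34.h22hep_ncard] at this
    rw [← this]; congr 1; ext y
    exact (hmem y).symm
  · intro o o' ho ho'
    obtain ⟨g, hg⟩ := D.trans o ((hmem o).2 ho)
    obtain ⟨g', hg'⟩ := D.trans o' ((hmem o').2 ho')
    obtain ⟨h1, h2, h3⟩ := Cfsg.Agent.Lib.Helper34.mem_ptStab.1 (g'⁻¹ * g).2
    refine ⟨(g'⁻¹ * g).1, h1, h2, h3, ?_⟩
    show (g'⁻¹ * g) • o = o'
    rw [mul_smul, hg, ← hg', inv_smul_smul]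
  · intro o ho
    have hoΩ := (hmem o).2 ho
    refine ⟨?_, ?_, ?_⟩
    · have := D.count' hoΩ 2
      rw [Cfsg.Agent.Lib.Helper34.h22hep_sz2] at this
      rw [← this]; congr 1; ext y
      show _ ∧ _ ↔ _ ∧ _
      rw [hmem]
    · have := D.count' hoΩ 4
      rw [Cfsg.Agent.Lib.Helper34.h22hep_sz4] at this
      rw [← this]; congr 1; ext y
      show _ ∧ _ ↔ _ ∧ _
      rw [hmem]
    · intro o' o'' ho' ho'' h
      obtain ⟨g, hg, hg'⟩ := D.trans₂' hoΩ ((hmem o').2 ho') ((hmem o'').2 ho'') h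
      obtain ⟨h1, h2, h3⟩ := Cfsg.Agent.Lib.Helper34.mem_ptStab.1 g.2
      exact ⟨g.1, h1, h2, h3, hg, hg'⟩

end Cfsg.Agent.S1605
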