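import Cfsg.Statements.S1606
import Cfsg.Agent.Lib.Helper94.M22A

set_option autoImplicit false
open scoped Pointwise
open Cfsg

namespace Cfsg.Agent.S1606

open Cfsg.Agent.Lib.Helper94

open Cfsg Cfsg.Agent.Lib.Helper94.M22O in
theorem inv_app (k : Equiv.Perm GolayPt) (x : GolayPt) : k⁻¹ (k x) = x := k.symm_apply_apply x

open Cfsg Cfsg.Agent.Lib.Helper94.M22O in
theorem two_to_base (p q : GolayPt) (hpq : p ≠ q) : ∃ k ∈ M24, k p = pt 23 ∧ k q = pt 0 := by
  obtain ⟨k1, hk1, e1⟩ := exists_move (by norm_num) (by decide) tab1_ok p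
    (testBit_of_ne (l := []) (by decide) _ (by simp))
  obtain ⟨k2, hk2, e2⟩ := exists_move (by norm_num) (by decide) tab2_ok (k1 q)
    (testBit_of_ne (l := [23]) (by decide) _ (by
      intro t ht
      simp only [List.mem_singleton] at ht
      subst ht
      rw [← e1]; exact fun hh => hpq (k1.injective hh).symm))
  have f2 : k2 (pt 23) = pt 23 := hk2.2 23 (by simp)
  refine ⟨k2 * k1, M24.mul_mem hk2.1 hk1.1, ?_, ?_⟩
  · simp only [Equiv.Perm.mul_apply, e1, f2]
  · simp only [Equiv.Perm.mul_apply, e2]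

open Cfsg Cfsg.Agent.Lib.Helper94.M22O in
/-- the two point stabiliser, moved to the base points. -/
theorem exists_hom (p q : GolayPt) (hpq : p ≠ q) :
    ∃ f : ↥(MulAction.stabilizer M24 p ⊓ MulAction.stabilizer M24 q) →* Equiv.Perm GolayPt,
      Function.Injective f ∧ f.range = fixG [0, 23] := by
  obtain ⟨k, hk, kp, kq⟩ := two_to_base p q hpq
  refine ⟨(MulAut.conj k).toMonoidHom.comp ((Subgroup.subtype M24).comp (Subgroup.subtype _)),
    ?_, ?_⟩
  · intro a b hab
    have h1 := (MulAut.conj k).injective hab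
    exact Subtype.ext (Subtype.ext h1)
  · ext g
    constructor
    · rintro ⟨a, rfl⟩
      have ha := a.2
      rw [Subgroup.mem_inf, MulAction.mem_stabilizer_iff, MulAction.mem_stabilizer_iff] at ha
      have hp : (a.1.1 : Equiv.Perm GolayPt) p = p := ha.1
      have hq : (a.1.1 : Equiv.Perm GolayPt) q = q := ha.2
      rw [mem_fixG]
      refine ⟨M24.mul_mem (M24.mul_mem hk a.1.2) (M24.inv_mem hk), ?_⟩
      intro t ht
      simp only [List.mem_cons, List.not_mem_nil, or_false] at ht
      show k (a.1.1 (k⁻¹ (pt t))) = pt t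
      rcases ht with rfl | rfl
      · rw [← kq, inv_app, hq]
      · rw [← kp, inv_app, hp]
    · intro hg
      have hgM := (mem_fixG.1 hg).1
      have h23 := fix_23 hg
      have h0 := fix_0 hg
      have hm : k⁻¹ * g * k ∈ M24 := M24.mul_mem (M24.mul_mem (M24.inv_mem hk) hgM) hk
      refine ⟨⟨⟨k⁻¹ * g * k, hm⟩, ?_⟩, ?_⟩
      · rw [Subgroup.mem_inf, MulAction.mem_stabilizer_iff, MulAction.mem_stabilizer_iff]
        constructor
        · show k⁻¹ (g (k p)) = p
          rw [kp, h23, ← kp, inv_app]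
        · show k⁻¹ (g (k q)) = q
          rw [kq, h0, ← kq, inv_app]
      · show k * (k⁻¹ * g * k) * k⁻¹ = g
        group

/-- The stabiliser of two points in the group of the length-24 code has no subgroups of index 56 or 210. -/
theorem result (p q : Cfsg.GolayPt) (hpq : p ≠ q) (H : Subgroup ↥(MulAction.stabilizer Cfsg.M24 p ⊓ MulAction.stabilizer Cfsg.M24 q)) : H.index ≠ 56 ∧ H.index ≠ 210 := by
  obtain ⟨f, hf, hr⟩ := exists_hom p q hpq
  have hG : Nat.card ↥(MulAction.stabilizer Cfsg.M24 p ⊓ MulAction.stabilizer Cfsg.M24 q) = 443520 := by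
    rw [Nat.card_congr (MonoidHom.ofInjective hf).toEquiv, hr, card_fixG2]
  have hle : H.map f ≤ fixG [0, 23] := by
    rw [← hr]
    rintro _ ⟨a, _, rfl⟩
    exact ⟨a, rfl⟩
  have hc : Nat.card (H.map f) = Nat.card H := Subgroup.card_map_of_injective hf
  have hmul := H.card_mul_index
  rw [hG] at hmul
  constructor
  · intro h
    rw [h] at hmul
    have h1 : Nat.card H = 7920 := by omega
    have := M22O.card_le_660 (H.map f) hle (by rw [hc, h1]; norm_num) (by rw [hc, h1]; norm_num)
    rw [hc, h1] at this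
    omega
  · intro h
    rw [h] at hmul
    have h1 : Nat.card H = 2112 := by omega
    have := M22O.card_le_660 (H.map f) hle (by rw [hc, h1]; norm_num) (by rw [hc, h1]; norm_num)
    rw [hc, h1] at this
    omega

end Cfsg.Agent.S1606
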