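import Cfsg.Statements.S1607
import Cfsg.Agent.Lib.Helper34.M24FamData

set_option autoImplicit false
open scoped Pointwise
open Cfsg

namespace Cfsg.Agent.S1607

/-- The point stabiliser acts on the 253 heptads of its S(4, 7, 23) with rank 3 and subdegrees 1, 112, 140 (intersections 8, 2, 4). -/
theorem result (x : Cfsg.GolayPt) (o : Finset Cfsg.GolayPt) (ho : o ∈ Cfsg.octads) (hx : x ∈ o) : {o' : Finset Cfsg.GolayPt | o' ∈ Cfsg.octads ∧ x ∈ o' ∧ (o ∩ o').card = 2}.ncard = 112 ∧ {o' : Finset Cfsg.GolayPt | o' ∈ Cfsg.octads ∧ x ∈ o' ∧ (o ∩ o').card = 4}.ncard = 140 ∧ ∀ o' o'' : Finset Cfsg.GolayPt, o' ∈ Cfsg.octads → o'' ∈ Cfsg.octads → x ∈ o' → x ∈ o'' → (o ∩ o').card = (o ∩ o'').card → ∃ g : Equiv.Perm Cfsg.GolayPt, g ∈ Cfsg.M24 ∧ g x = x ∧ g • o = o ∧ g • o' = o'' := by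
  obtain ⟨a, ha, hax⟩ := Cfsg.Agent.Lib.Helper34.one_trans x (Cfsg.Agent.Lib.Helper33.pt 0)
  have D := Cfsg.Agent.Lib.Helper34.famRank_transport (p := x) (q := x) (bp := true) (bq := true) ha
    (by rw [hax]; exact Cfsg.Agent.Lib.Helper34.h23in_rank)
  have hmem : ∀ y, y ∈ Cfsg.Agent.Lib.Helper34.octFam x x true true ↔ y ∈ Cfsg.octads ∧ x ∈ y := by
    intro y; simp [Cfsg.Agent.Lib.Helper34.mem_octFam]
  have hoΩ := (hmem o).2 ⟨ho, hx⟩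
  refine ⟨?_, ?_, ?_⟩
  · have := D.count' hoΩ 2
    rw [Cfsg.Agent.Lib.Helper34.h23in_sz2] at this
    rw [← this]; congr 1; ext y
    show _ ∧ _ ∧ _ ↔ _ ∧ _
    rw [hmem, and_assoc]
  · have := D.count' hoΩ 4
    rw [Cfsg.Agent.Lib.Helper34.h23in_sz4] at this
    rw [← this]; congr 1; ext y
    show _ ∧ _ ∧ _ ↔ _ ∧ _
    rw [hmem, and_assoc]
  · intro o' o'' ho' ho'' hx' hx'' h
    obtain ⟨g, hg, hg'⟩ := D.trans₂' hoΩ ((hmem o').2 ⟨ho', hx'⟩) ((hmem o'').2 ⟨ho'', hx''⟩) h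
    obtain ⟨h1, h2, _⟩ := Cfsg.Agent.Lib.Helper34.mem_ptStab.1 g.2
    exact ⟨g.1, h1, h2, hg, hg'⟩

end Cfsg.Agent.S1607
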