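import Cfsg.Statements.S1608
import Cfsg.Agent.Lib.Helper34.M24FamData

set_option autoImplicit false
open scoped Pointwise
open Cfsg

namespace Cfsg.Agent.S1608

/-- The point stabiliser acts on the 506 octads avoiding the point with rank 4 and subdegrees 1, 15, 210, 280, the suborbits being given by intersection size with the fixed octad. -/
theorem result (x : Cfsg.GolayPt) (o : Finset Cfsg.GolayPt) (ho : o ∈ Cfsg.octads) (hx : x ∉ o) : {o' : Finset Cfsg.GolayPt | o' ∈ Cfsg.octads ∧ x ∉ o' ∧ (o ∩ o').card = 0}.ncard = 15 ∧ {o' : Finset Cfsg.GolayPt | o' ∈ Cfsg.octads ∧ x ∉ o' ∧ (o ∩ o').card = 4}.ncard = 210 ∧ {o' : Finset Cfsg.GolayPt | o' ∈ Cfsg.octads ∧ x ∉ o' ∧ (o ∩ o').card = 2}.ncard = 280 ∧ ∀ o' o'' : Finset Cfsg.GolayPt, o' ∈ Cfsg.octads → o'' ∈ Cfsg.octads → x ∉ o' → x ∉ o'' → (o ∩ o').card = (o ∩ o'').card → ∃ g : Equiv.Perm Cfsg.GolayPt, g ∈ Cfsg.M24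 ∧ g x = x ∧ g • o = o ∧ g • o' = o'' := by
  obtain ⟨a, ha, hax⟩ := Cfsg.Agent.Lib.Helper34.one_trans x (Cfsg.Agent.Lib.Helper33.pt 0)
  have D := Cfsg.Agent.Lib.Helper34.famRank_transport (p := x) (q := x) (bp := false) (bq := false) ha
    (by rw [hax]; exact Cfsg.Agent.Lib.Helper34.h23out_rank)
  have hmem : ∀ y, y ∈ Cfsg.Agent.Lib.Helper34.octFam x x false false ↔ y ∈ Cfsg.octads ∧ x ∉ y := by
    intro y; simp [Cfsg.Agent.Lib.Helper34.mem_octFam]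
  have hoΩ := (hmem o).2 ⟨ho, hx⟩
  refine ⟨?_, ?_, ?_, ?_⟩
  · have := D.count' hoΩ 0
    rw [Cfsg.Agent.Lib.Helper34.h23out_sz0] at this
    rw [← this]; congr 1; ext y
    show _ ∧ _ ∧ _ ↔ _ ∧ _
    rw [hmem, and_assoc]
  · have := D.count' hoΩ 4
    rw [Cfsg.Agent.Lib.Helper34.h23out_sz4] at this
    rw [← this]; congr 1; ext y
    show _ ∧ _ ∧ _ ↔ _ ∧ _
    rw [hmem, and_assoc]
  · have := D.count' hoΩ 2
    rw [Cfsg.Agent.Lib.Helper34.h23out_sz2] at this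
    rw [← this]; congr 1; ext y
    show _ ∧ _ ∧ _ ↔ _ ∧ _
    rw [hmem, and_assoc]
  · intro o' o'' ho' ho'' hx' hx'' h
    obtain ⟨g, hg, hg'⟩ := D.trans₂' hoΩ ((hmem o').2 ⟨ho', hx'⟩) ((hmem o'').2 ⟨ho'', hx''⟩) h
    obtain ⟨h1, h2, _⟩ := Cfsg.Agent.Lib.Helper34.mem_ptStab.1 g.2
    exact ⟨g.1, h1, h2, hg, hg'⟩

end Cfsg.Agent.S1608
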