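import Cfsg.Statements.S1609
import Cfsg.Agent.Lib.Helper94.M23Sub

set_option autoImplicit false
open scoped Pointwise
open Cfsg

namespace Cfsg.Agent.S1609

open Cfsg.Agent.Lib.Helper94

open Cfsg.Agent.Lib.Helper94.M23S

theorem wrap (x : Cfsg.GolayPt) (H : Subgroup ↥(MulAction.stabilizer Cfsg.M24 x))
    (W : Finset Cfsg.GolayPt)
    (h : ∀ g, g ∈ (H.map (MulAction.stabilizer Cfsg.M24 x).subtype).map Cfsg.M24.subtype ↔
      (g ∈ Cfsg.M24 ∧ g x = x) ∧ g • W = W) :
    H = (MulAction.stabilizer Cfsg.M24 W).subgroupOf (MulAction.stabilizer Cfsg.M24 x) := by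
  ext a
  rw [Subgroup.mem_subgroupOf, MulAction.mem_stabilizer_iff]
  constructor
  · intro ha
    have h1 : ((a : Cfsg.M24) : Equiv.Perm Cfsg.GolayPt) ∈
        (H.map (MulAction.stabilizer Cfsg.M24 x).subtype).map Cfsg.M24.subtype :=
      ⟨_, ⟨a, ha, rfl⟩, rfl⟩
    exact ((h _).1 h1).2
  · intro hs
    have h1 : ((a : Cfsg.M24) : Equiv.Perm Cfsg.GolayPt) ∈
        (H.map (MulAction.stabilizer Cfsg.M24 x).subtype).map Cfsg.M24.subtype :=
      (h _).2 ⟨⟨(a : Cfsg.M24).2, a.2⟩, hs⟩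
    obtain ⟨m, ⟨b, hb, rfl⟩, e⟩ := h1
    have : b = a := Subtype.ext (Subtype.ext e)
    rw [← this]; exact hb

/-- Subgroups of index 253 in the Mathieu group of degree 23 are exactly the duad stabilisers and the heptad stabilisers. -/
theorem result (x : Cfsg.GolayPt) (H : Subgroup ↥(MulAction.stabilizer Cfsg.M24 x)) (hH : H.index = 253) : (∃ s : Finset Cfsg.GolayPt, s.card = 2 ∧ x ∉ s ∧ H = (MulAction.stabilizer Cfsg.M24 s).subgroupOf (MulAction.stabilizer Cfsg.M24 x)) ∨ ∃ o ∈ Cfsg.octads, x ∈ o ∧ H = (MulAction.stabilizer Cfsg.M24 o).subgroupOf (MulAction.stabilizer Cfsg.M24 x) := by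
  have hcH : Nat.card H = 40320 := by
    have h1 := H.index_mul_card
    rw [hH, card_stab] at h1
    omega
  have hc : Nat.card ((H.map (MulAction.stabilizer Cfsg.M24 x).subtype).map Cfsg.M24.subtype) =
      40320 := by
    rw [Subgroup.card_map_of_injective Cfsg.M24.subtype_injective,
      Subgroup.card_map_of_injective (MulAction.stabilizer Cfsg.M24 x).subtype_injective, hcH]
  have hx : ∀ g ∈ (H.map (MulAction.stabilizer Cfsg.M24 x).subtype).map Cfsg.M24.subtype,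
      g x = x := by
    rintro _ ⟨m, ⟨b, _, rfl⟩, rfl⟩
    exact b.2
  rcases main x _ (Subgroup.map_subtype_le _) hx hc with ⟨s, h1, h2, h3⟩ | ⟨o, h1, h2, h3⟩
  · left
    exact ⟨s, h1, h2, wrap x H s h3⟩
  · right
    exact ⟨o, h1, h2, wrap x H o h3⟩

end Cfsg.Agent.S1609
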