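import Cfsg.Statements.S1611
import Cfsg.Agent.Lib.Helper34.Hexacode
-- import your own Cfsg.Agent.* helpers here

set_option autoImplicit false
open Cfsg

namespace Cfsg.Agent.S1611

open Cfsg.Agent.Lib.Helper34

def L3 (a b c : K4) : K4 := K4.add (K4.add a b) c
def L4 (a b c : K4) : K4 := K4.add (K4.add (K4.mul .v a) (K4.mul .w b)) c
def L5 (a b c : K4) : K4 := K4.add (K4.add (K4.mul .w a) (K4.mul .v b)) c

def IsW (y : Fin 6 → K4) : Prop :=
  y 3 = L3 (y 0) (y 1) (y 2) ∧ y 4 = L4 (y 0) (y 1) (y 2) ∧ y 5 = L5 (y 0) (y 1) (y 2)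

instance decIsW : DecidablePred IsW := fun y => by unfold IsW; infer_instance

theorem isW_kenc : ∀ q : P3, IsW (kenc q) := by decide +kernel

def dec3 (a b c : K4) : P3 :=
  (K4.add (K4.mul .w a) (K4.mul .v b),
   K4.add (K4.add (K4.mul .v a) (K4.mul .v b)) c,
   K4.add b c)

theorem kenc_dec3 : ∀ a b c : K4, kenc (dec3 a b c) 0 = a ∧ kenc (dec3 a b c) 1 = b ∧
    kenc (dec3 a b c) 2 = c ∧ kenc (dec3 a b c) 3 = L3 a b c ∧ kenc (dec3 a b c) 4 = L4 a b c ∧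
    kenc (dec3 a b c) 5 = L5 a b c := by decide +kernel

theorem isW_iff (y : Fin 6 → K4) : IsW y ↔ ∃ q, kenc q = y := by
  constructor
  · rintro ⟨h3, h4, h5⟩
    obtain ⟨e0, e1, e2, e3, e4, e5⟩ := kenc_dec3 (y 0) (y 1) (y 2)
    refine ⟨dec3 (y 0) (y 1) (y 2), ?_⟩
    funext i
    fin_cases i
    · exact e0
    · exact e1
    · exact e2
    · exact e3.trans h3.symm
    · exact e4.trans h4.symm
    · exact e5.trans h5.symm
  · rintro ⟨q, rfl⟩
    exact isW_kenc q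

def E (σ : Equiv.Perm (Fin 6)) (L : K4 → K4 → K4 → K4) (j : Fin 6) (d0 d1 d2 dj : K4) : Bool :=
  [hG1, hG2, hG3].all fun g => K4.mul dj (g (σ.symm j)) ==
    L (K4.mul d0 (g (σ.symm 0))) (K4.mul d1 (g (σ.symm 1))) (K4.mul d2 (g (σ.symm 2)))

def nz : List K4 := [.o, .w, .v]

theorem swap_none : ∀ d0 ∈ nz, ∀ d1 ∈ nz, ∀ d2 ∈ nz, ∀ d3 ∈ nz, ∀ d4 ∈ nz, ∀ d5 ∈ nz,
    (E (Equiv.swap 0 1) L3 3 d0 d1 d2 d3 && E (Equiv.swap 0 1) L4 4 d0 d1 d2 d4 &&
      E (Equiv.swap 0 1) L5 5 d0 d1 d2 d5) = false := by decide +kernel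

theorem diag_const : ∀ d0 ∈ nz, ∀ d1 ∈ nz, ∀ d2 ∈ nz, ∀ d3 ∈ nz, ∀ d4 ∈ nz, ∀ d5 ∈ nz,
    (E 1 L3 3 d0 d1 d2 d3 && E 1 L4 4 d0 d1 d2 d4 && E 1 L5 5 d0 d1 d2 d5) = true →
      d0 = d1 ∧ d0 = d2 ∧ d0 = d3 ∧ d0 = d4 ∧ d0 = d5 := by
  decide +kernel

theorem even_ex : ∀ σ : Equiv.Perm (Fin 6), Equiv.Perm.sign σ = 1 → ∃ d1 ∈ nz, ∃ d2 ∈ nz,
    (∃ d3 ∈ nz, E σ L3 3 .o d1 d2 d3 = true) ∧ (∃ d4 ∈ nz, E σ L4 4 .o d1 d2 d4 = true) ∧
      (∃ d5 ∈ nz, E σ L5 5 .o d1 d2 d5 = true) := by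
  decide +kernel

theorem E_iff (σ : Equiv.Perm (Fin 6)) (L : K4 → K4 → K4 → K4) (j : Fin 6) (d0 d1 d2 dj : K4) :
    E σ L j d0 d1 d2 dj = true ↔ ∀ g ∈ [hG1, hG2, hG3], K4.mul dj (g (σ.symm j)) =
      L (K4.mul d0 (g (σ.symm 0))) (K4.mul d1 (g (σ.symm 1))) (K4.mul d2 (g (σ.symm 2))) := by
  unfold E
  rw [List.all_eq_true]
  simp only [beq_iff_eq]

/-- The model-level criterion. -/
def Em (σ : Equiv.Perm (Fin 6)) (d : Fin 6 → K4) : Bool :=
  E σ L3 3 (d 0) (d 1) (d 2) (d 3) && E σ L4 4 (d 0) (d 1) (d 2) (d 4) &&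
    E σ L5 5 (d 0) (d 1) (d 2) (d 5)

theorem Em_iff (σ : Equiv.Perm (Fin 6)) (d : Fin 6 → K4) :
    Em σ d = true ↔ ∀ g ∈ [hG1, hG2, hG3], IsW (fun i => K4.mul (d i) (g (σ.symm i))) := by
  unfold Em IsW
  rw [Bool.and_eq_true, Bool.and_eq_true, E_iff, E_iff, E_iff]
  constructor
  · rintro ⟨⟨h3, h4⟩, h5⟩ g hg
    exact ⟨h3 g hg, h4 g hg, h5 g hg⟩
  · intro h
    exact ⟨⟨fun g hg => (h g hg).1, fun g hg => (h g hg).2.1⟩, fun g hg => (h g hg).2.2⟩

section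
variable {F : Type*} [Field F]

/-- A monomial map as a linear map. -/
def mL (σ : Equiv.Perm (Fin 6)) (c : Fin 6 → Fˣ) : (Fin 6 → F) →ₗ[F] (Fin 6 → F) where
  toFun := monomialMap σ c
  map_add' x y := by funext i; simp [monomialMap, mul_add]
  map_smul' a x := by funext i; simp [monomialMap, mul_left_comm]

theorem comp_mono (τ σ : Equiv.Perm (Fin 6)) (c' c : Fin 6 → Fˣ) (x : Fin 6 → F) :
    monomialMap τ c' (monomialMap σ c x) = monomialMap (τ * σ) (fun i => c' i * c (τ.symm i)) x := by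
  funext i
  simp only [monomialMap, Units.val_mul, mul_assoc]
  rfl

theorem mono_inj (σ : Equiv.Perm (Fin 6)) (c : Fin 6 → Fˣ) :
    Function.Injective (monomialMap σ c : (Fin 6 → F) → (Fin 6 → F)) := by
  intro x y h
  funext i
  have := congrFun h (σ i)
  simpa [monomialMap] using this

variable [Fintype F] (hF : Fintype.card F = 4) (ω : F) (hω : ω ^ 2 + ω + 1 = 0)

/-- The invariance predicate of the statement. -/
def Pr (ω : F) (σ : Equiv.Perm (Fin 6)) (c : Fin 6 → Fˣ) : Prop :=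
  ∀ x ∈ hexacode F ω, monomialMap σ c x ∈ hexacode F ω

omit [Fintype F] in
theorem Pr_iff_gens (σ : Equiv.Perm (Fin 6)) (c : Fin 6 → Fˣ) :
    Pr ω σ c ↔ ∀ g ∈ [hG1, hG2, hG3], monomialMap σ c (fun i => phi ω (g i)) ∈ hexacode F ω := by
  have e1 : (![ω, ω ^ 2, ω ^ 2, ω, ω ^ 2, ω] : Fin 6 → F) = fun i => phi ω (hG1 i) := by
    funext i; fin_cases i <;> rfl
  have e2 : (![ω ^ 2, ω, ω, ω ^ 2, ω ^ 2, ω] : Fin 6 → F) = fun i => phi ω (hG2 i) := by
    funext i; fin_cases i <;> rfl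
  have e3 : (![ω ^ 2, ω, ω ^ 2, ω, ω, ω ^ 2] : Fin 6 → F) = fun i => phi ω (hG3 i) := by
    funext i; fin_cases i <;> rfl
  have : Pr ω σ c ↔ hexacode F ω ≤ (hexacode F ω).comap (mL σ c) := Iff.rfl
  rw [this]
  conv_lhs => lhs; unfold hexacode
  rw [Submodule.span_le, e1, e2, e3]
  constructor
  · intro h g hg
    simp only [List.mem_cons, List.not_mem_nil, or_false] at hg
    rcases hg with rfl | rfl | rfl
    · exact h (Set.mem_insert _ _)
    · exact h (Set.mem_insert_of_mem _ (Set.mem_insert _ _))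
    · exact h (Set.mem_insert_of_mem _ (Set.mem_insert_of_mem _ rfl))
  · intro h x hx
    simp only [Set.mem_insert_iff, Set.mem_singleton_iff] at hx
    rcases hx with rfl | rfl | rfl
    · exact h hG1 (by simp)
    · exact h hG2 (by simp)
    · exact h hG3 (by simp)

include hF hω

theorem Pr_iff_Em (σ : Equiv.Perm (Fin 6)) (c : Fin 6 → Fˣ) (d : Fin 6 → K4)
    (hd : ∀ i, (c i : F) = phi ω (d i)) : Pr ω σ c ↔ Em σ d = true := by
  have h2 := two_eq_zero_of_card hF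
  rw [Pr_iff_gens, Em_iff]
  apply forall₂_congr
  intro g _
  have : monomialMap σ c (fun i => phi ω (g i)) =
      fun i => phi ω (K4.mul (d i) (g (σ.symm i))) := by
    funext i
    simp only [monomialMap, hd, phi_mul ω h2 hω]
  rw [this, mem_hexacode_iff hF ω hω, isW_iff]
  constructor
  · rintro ⟨q, hq⟩
    refine ⟨q, ?_⟩
    funext i
    exact phi_injective ω h2 hω (congrFun hq i)
  · rintro ⟨q, hq⟩
    exact ⟨q, by rw [hq]⟩

theorem exists_model (c : Fin 6 → Fˣ) :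
    ∃ d : Fin 6 → K4, (∀ i, (c i : F) = phi ω (d i)) ∧ ∀ i, d i ∈ nz := by
  choose d hd using fun i => (phi_bijective hF ω hω).2 (c i : F)
  refine ⟨d, fun i => (hd i).symm, fun i => ?_⟩
  have : d i ≠ .z := by
    intro h
    have h1 := hd i
    rw [h] at h1
    exact (c i).ne_zero h1.symm
  revert this
  cases d i <;> simp [nz]

omit hF [Fintype F] in
theorem exists_units (d : Fin 6 → K4) (hd : ∀ i, d i ∈ nz) :
    ∃ c : Fin 6 → Fˣ, ∀ i, (c i : F) = phi ω (d i) := by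
  refine ⟨fun i => Units.mk0 (phi ω (d i)) ?_, fun i => rfl⟩
  rw [Ne, phi_eq_zero ω hω]
  have := hd i
  revert this
  cases d i <;> simp [nz]

theorem diag (c : Fin 6 → Fˣ) (h : Pr ω 1 c) (i j : Fin 6) : c i = c j := by
  obtain ⟨d, hd, hn⟩ := exists_model hF ω hω c
  have h1 := (Pr_iff_Em hF ω hω 1 c d hd).1 h
  obtain ⟨e1, e2, e3, e4, e5⟩ := diag_const _ (hn 0) _ (hn 1) _ (hn 2) _ (hn 3) _ (hn 4) _ (hn 5) h1
  have all : ∀ k, d k = d 0 := by
    intro k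
    fin_cases k
    · rfl
    · exact e1.symm
    · exact e2.symm
    · exact e3.symm
    · exact e4.symm
    · exact e5.symm
  apply Units.ext
  rw [hd, hd, all i, all j]

theorem even_mem (σ : Equiv.Perm (Fin 6)) (hσ : Equiv.Perm.sign σ = 1) : ∃ c, Pr ω σ c := by
  obtain ⟨d1, h1, d2, h2, ⟨d3, h3, e3⟩, ⟨d4, h4, e4⟩, ⟨d5, h5, e5⟩⟩ := even_ex σ hσ
  have hn : ∀ i, (![.o, d1, d2, d3, d4, d5] : Fin 6 → K4) i ∈ nz := by
    intro i
    fin_cases i
    · simp [nz]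
    · exact h1
    · exact h2
    · exact h3
    · exact h4
    · exact h5
  obtain ⟨c, hc⟩ := exists_units ω hω _ hn
  refine ⟨c, (Pr_iff_Em hF ω hω σ c _ hc).2 ?_⟩
  change (E σ L3 3 .o d1 d2 d3 && E σ L4 4 .o d1 d2 d4 && E σ L5 5 .o d1 d2 d5) = true
  rw [e3, e4, e5]
  rfl

theorem mem_even (σ : Equiv.Perm (Fin 6)) (c : Fin 6 → Fˣ) (h : Pr ω σ c) :
    Equiv.Perm.sign σ = 1 := by
  rcases Int.units_eq_one_or (Equiv.Perm.sign σ) with h1 | h1
  · exact h1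
  exfalso
  have hτ : Equiv.Perm.sign (Equiv.swap (0 : Fin 6) 1 * σ⁻¹) = 1 := by
    rw [Equiv.Perm.sign_mul, Equiv.Perm.sign_inv, h1, Equiv.Perm.sign_swap (by decide)]
    rfl
  obtain ⟨c', hc'⟩ := even_mem hF ω hω _ hτ
  have h3 : Pr ω (Equiv.swap (0 : Fin 6) 1)
      (fun i => c' i * c ((Equiv.swap (0 : Fin 6) 1 * σ⁻¹).symm i)) := by
    intro x hx
    have := hc' _ (h x hx)
    rw [comp_mono, inv_mul_cancel_right] at this
    exact this
  obtain ⟨d, hd, hn⟩ := exists_model hF ω hω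
    (fun i => c' i * c ((Equiv.swap (0 : Fin 6) 1 * σ⁻¹).symm i))
  have h4 := (Pr_iff_Em hF ω hω _ _ d hd).1 h3
  have h5 := swap_none _ (hn 0) _ (hn 1) _ (hn 2) _ (hn 3) _ (hn 4) _ (hn 5)
  unfold Em at h4
  rw [h4] at h5
  exact Bool.noConfusion h5

theorem ratio (σ : Equiv.Perm (Fin 6)) (c c' : Fin 6 → Fˣ) (h : Pr ω σ c) (h' : Pr ω σ c') :
    ∃ l : Fˣ, ∀ i, c' i = l * c i := by
  have hfin : Finite ↥(hexacode F ω) := inferInstance
  let f : ↥(hexacode F ω) → ↥(hexacode F ω) := fun x => ⟨monomialMap σ c x.1, h x.1 x.2⟩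
  have hinj : Function.Injective f := fun x y e =>
    Subtype.ext (mono_inj σ c (congrArg Subtype.val e))
  have hsurj := Finite.surjective_of_injective hinj
  have h1 : Pr ω 1 (fun i => c' i * (c i)⁻¹) := by
    intro y hy
    obtain ⟨x, hx⟩ := hsurj ⟨y, hy⟩
    have hx' : monomialMap σ c x.1 = y := congrArg Subtype.val hx
    have : monomialMap 1 (fun i => c' i * (c i)⁻¹) y = monomialMap σ c' x.1 := by
      rw [← hx']
      funext i
      change ((c' i * (c i)⁻¹ : Fˣ) : F) * ((c i : F) * x.1 (σ.symm i)) = (c' i : F) * x.1 (σ.symm i)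
      rw [← mul_assoc, ← Units.val_mul, inv_mul_cancel_right]
    rw [this]
    exact h' x.1 x.2
  refine ⟨c' 0 * (c 0)⁻¹, fun i => ?_⟩
  have : c' i * (c i)⁻¹ = c' 0 * (c 0)⁻¹ := diag hF ω hω _ h1 i 0
  rw [← this, inv_mul_cancel_right]

omit hF hω [Fintype F] in
theorem scale (σ : Equiv.Perm (Fin 6)) (c : Fin 6 → Fˣ) (l : Fˣ) (h : Pr ω σ c) :
    Pr ω σ (fun i => l * c i) := by
  intro x hx
  have : monomialMap σ (fun i => l * c i) x = (l : F) • monomialMap σ c x := by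
    funext i
    simp [monomialMap, mul_assoc]
  rw [this]
  exact (hexacode F ω).smul_mem _ (h x hx)

theorem count :
    Nat.card {f : Equiv.Perm (Fin 6) × (Fin 6 → Fˣ) // Pr ω f.1 f.2} = 1080 := by
  classical
  choose cc hcc using fun σ : alternatingGroup (Fin 6) =>
    even_mem hF ω hω σ.1 (Equiv.Perm.mem_alternatingGroup.1 σ.2)
  let Ψ : alternatingGroup (Fin 6) × Fˣ → {f : Equiv.Perm (Fin 6) × (Fin 6 → Fˣ) // Pr ω f.1 f.2} :=
    fun p => ⟨(p.1.1, fun i => p.2 * cc p.1 i), scale ω _ _ _ (hcc p.1)⟩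
  have hb : Function.Bijective Ψ := by
    constructor
    · rintro ⟨σ, l⟩ ⟨σ', l'⟩ e
      have e1 : σ.1 = σ'.1 := congrArg (fun z => z.1.1) e
      have e1' : σ = σ' := Subtype.ext e1
      subst e1'
      have e2 : (fun i => l * cc σ i) = fun i => l' * cc σ i := congrArg (fun z => z.1.2) e
      have e3 := congrFun e2 0
      simp only [mul_left_inj] at e3
      rw [e3]
    · rintro ⟨⟨σ, c⟩, h⟩
      have hs : σ ∈ alternatingGroup (Fin 6) :=
        Equiv.Perm.mem_alternatingGroup.2 (mem_even hF ω hω σ c h)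
      obtain ⟨l, hl⟩ := ratio hF ω hω σ (cc ⟨σ, hs⟩) c (hcc ⟨σ, hs⟩) h
      refine ⟨(⟨σ, hs⟩, l), ?_⟩
      apply Subtype.ext
      apply Prod.ext
      · rfl
      · funext i
        exact (hl i).symm
  rw [← Nat.card_congr (Equiv.ofBijective Ψ hb), Nat.card_prod]
  have a1 : Nat.card (alternatingGroup (Fin 6)) = 360 := by
    have := two_mul_card_alternatingGroup (α := Fin 6)
    rw [Fintype.card_perm, Fintype.card_fin] at this
    rw [Nat.card_eq_fintype_card]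
    have h720 : Nat.factorial 6 = 720 := rfl
    omega
  have a2 : Nat.card Fˣ = 3 := by
    rw [Nat.card_eq_fintype_card, Fintype.card_units, hF]
  rw [a1, a2]

end

/-- The monomial automorphism group of the hexacode has order 1080: its diagonal part is the scalars and its permutation parts form the alternating group of degree 6. -/
theorem result (F : Type*) [Field F] [Fintype F] [DecidableEq F] (hF : Fintype.card F = 4) (ω : F) (hω : ω ^ 2 + ω + 1 = 0) : Nat.card {f : Equiv.Perm (Fin 6) × (Fin 6 → Fˣ) // (∀ x ∈ Cfsg.hexacode F ω, Cfsg.monomialMap f.1 f.2 x ∈ Cfsg.hexacode F ω)} = 1080 ∧ (∀ c : Fin 6 → Fˣ, (∀ x ∈ Cfsg.hexacode F ω, Cfsg.monomialMap 1 c x ∈ Cfsg.hexacode F ω) → ∀ i j, c i = c j) ∧ {σ : Equiv.Perm (Fin 6) | ∃ c : Fin 6 → Fˣ, (∀ x ∈ Cfsg.hexacode F ω, Cfsg.monomialMap σ c x ∈ Cfsg.hexacode F ω)} = (alternatingGroup (Fin 6) : Set (Equiv.Perm (Fin 6))) := by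
  refine ⟨count hF ω hω, fun c h i j => diag hF ω hω c h i j, ?_⟩
  ext σ
  constructor
  · rintro ⟨c, hc⟩
    exact Equiv.Perm.mem_alternatingGroup.2 (mem_even hF ω hω σ c hc)
  · intro h
    exact even_mem hF ω hω σ (Equiv.Perm.mem_alternatingGroup.1 h)

end Cfsg.Agent.S1611
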