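import Cfsg.Statements.S1622
import Cfsg.Agent.Lib.Helper43.J2Trans

set_option autoImplicit false
open Quaternion
open Cfsg

namespace Cfsg.Agent.S1622

/-- The reflection group is transitive on its 315 reflections by conjugation. -/
theorem result (f f' : Equiv.Perm ↥Cfsg.Spor.icoLeech) (hf : Cfsg.Spor.IsIcoReflection f) (hf' : Cfsg.Spor.IsIcoReflection f') : ∃ g ∈ Cfsg.Spor.twoJ2, g * f * g⁻¹ = f' := by
  obtain ⟨g, hg, h1⟩ := Cfsg.Agent.Lib.Helper43.J2.refl_conj hf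
  obtain ⟨g', hg', h2⟩ := Cfsg.Agent.Lib.Helper43.J2.refl_conj hf'
  refine ⟨g'⁻¹ * g, Cfsg.Spor.twoJ2.mul_mem (Cfsg.Spor.twoJ2.inv_mem hg') hg, ?_⟩
  have : f' = g'⁻¹ * (g' * f' * g'⁻¹) * g' := by group
  rw [this, h2, ← h1]
  group

end Cfsg.Agent.S1622
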