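import Cfsg.Statements.S1631
-- import your own Cfsg.Agent.* helpers here
import Cfsg.Agent.Lib.Helper17.UnitTransv2

set_option autoImplicit false
open scoped MatrixGroups
open Cfsg

namespace Cfsg.Agent.S1631

open Cfsg.Agent.Lib.Helper17 Matrix

/-- The unitary transvections of SU(n, 2), n ≥ 4, form a generating conjugacy class of 3-transpositions. -/
theorem result (F : Type) [Field F] [Fintype F] [DecidableEq F] (hF : Fintype.card F = 4) (n : ℕ) (hn : 4 ≤ n) : Cfsg.IsThreeTranspositionClass {g : ↥(Cfsg.SU n F 2) | (((g : Matrix.SpecialLinearGroup (Fin n) F) : Matrix (Fin n) (Fin n) F) - 1).rank = 1} := by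
  have hF' : Fintype.card F = 2 ^ 2 := by rw [hF]; norm_num
  have h2 : (2 : F) = 0 := by
    have := add_pow_q hF' (1 : F) 1
    linear_combination this
  have hone : (1 : F) ^ 2 = -1 := by linear_combination h2
  -- the transvection attached to an isotropic vector
  have hform : ∀ d : ↥(Cfsg.SU n F 2), (suMat d - 1).rank = 1 →
      ∃ (u : Fin n → F) (hu0 : Cfsg.hermForm n F 2 u u = 0), u ≠ 0 ∧ d = transvSU hF' u 1 hu0 hone := by
    intro d hd
    obtain ⟨u, c, hu, hc, hu0, hc1, hd'⟩ := su_rank_one_form hF' d hd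
    refine ⟨u, hu0, hu, ?_⟩
    apply suMat_injective
    have hc' : c = 1 := by
      simp only [Nat.add_one_sub_one, pow_one] at hc1
      linear_combination hc1 - h2
    change suMat d = Cfsg.unitaryTransvection n 2 u 1
    rw [← hc']
    exact hd'
  have hsq : ∀ (u : Fin n → F) (hu0 : Cfsg.hermForm n F 2 u u = 0),
      transvSU hF' u 1 hu0 hone * transvSU hF' u 1 hu0 hone = 1 := by
    intro u hu0
    apply su_ext
    intro x
    rw [suMat_mul_mulVec, transvSU_mulVec, transvSU_mulVec, suMat_one, Matrix.one_mulVec, hermForm_add_left,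
      hermForm_smul_left, hu0]
    funext i
    simp only [Pi.add_apply, Pi.smul_apply, smul_eq_mul]
    linear_combination (Cfsg.hermForm n F 2 x u * u i) * h2
  have hconj : ∀ (g : ↥(Cfsg.SU n F 2)) (u : Fin n → F) (hu0 : Cfsg.hermForm n F 2 u u = 0)
      (hgu0 : Cfsg.hermForm n F 2 (suMat g *ᵥ u) (suMat g *ᵥ u) = 0),
      g * transvSU hF' u 1 hu0 hone = transvSU hF' (suMat g *ᵥ u) 1 hgu0 hone * g := by
    intro g u hu0 hgu0
    apply suMat_injective
    exact su_mul_transvection g u 1
  refine ⟨⟨?_, ?_⟩, ?_, closure_rank_one_eq_top hF' n (by omega)⟩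
  · intro d hd
    obtain ⟨u, hu0, hu, rfl⟩ := hform d hd
    apply orderOf_eq_prime
    · rw [sq, hsq]
    · intro h1
      have hd' : (suMat (transvSU hF' u 1 hu0 hone) - 1).rank = 1 := hd
      rw [h1, suMat_one, sub_self, Matrix.rank_zero] at hd'
      exact zero_ne_one hd'
  · intro d hd e he
    obtain ⟨u, hu0, hu, rfl⟩ := hform d hd
    obtain ⟨u', hu0', hu', rfl⟩ := hform e he
    by_cases ha : Cfsg.hermForm n F 2 u u' = 0
    · left
      have ha' := hermForm_eq_zero_comm hF' ha
      have hcomm : transvSU hF' u 1 hu0 hone * transvSU hF' u' 1 hu0' hone =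
          transvSU hF' u' 1 hu0' hone * transvSU hF' u 1 hu0 hone := by
        apply su_ext
        intro x
        rw [suMat_mul_mulVec, suMat_mul_mulVec, transvSU_mulVec, transvSU_mulVec, transvSU_mulVec, transvSU_mulVec]
        simp only [hermForm_add_left, hermForm_smul_left, ha, ha']
        module
      rw [sq]
      calc transvSU hF' u 1 hu0 hone * transvSU hF' u' 1 hu0' hone *
            (transvSU hF' u 1 hu0 hone * transvSU hF' u' 1 hu0' hone)
          = transvSU hF' u 1 hu0 hone * (transvSU hF' u' 1 hu0' hone * transvSU hF' u 1 hu0 hone) *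
            transvSU hF' u' 1 hu0' hone := by group
        _ = (transvSU hF' u 1 hu0 hone * transvSU hF' u 1 hu0 hone) *
            (transvSU hF' u' 1 hu0' hone * transvSU hF' u' 1 hu0' hone) := by rw [← hcomm]; group
        _ = 1 := by rw [hsq, hsq, one_mul]
    · right
      obtain ⟨a, hadef⟩ : ∃ a, a = Cfsg.hermForm n F 2 u u' := ⟨_, rfl⟩
      rw [← hadef] at ha
      have ha' : Cfsg.hermForm n F 2 u' u = a ^ 2 := by rw [hadef, hermForm_conj hF']
      have ha3 : a ^ 3 = 1 := by
        have := FiniteField.pow_card_sub_one_eq_one a ha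
        rwa [hF] at this
      obtain ⟨d, hd_def⟩ : ∃ d, d = transvSU hF' u 1 hu0 hone := ⟨_, rfl⟩
      obtain ⟨e, he_def⟩ : ∃ e, e = transvSU hF' u' 1 hu0' hone := ⟨_, rfl⟩
      rw [← hd_def, ← he_def]
      have hdd : d * d = 1 := by rw [hd_def, hsq]
      have hee : e * e = 1 := by rw [he_def, hsq]
      have h1 : Cfsg.hermForm n F 2 (suMat d *ᵥ u') (suMat d *ᵥ u') = 0 := by rw [su_hermForm, hu0']
      have h2' : Cfsg.hermForm n F 2 (suMat e *ᵥ u) (suMat e *ᵥ u) = 0 := by rw [su_hermForm, hu0]
      have e1 : d * e * d = transvSU hF' (suMat d *ᵥ u') 1 h1 hone := by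
        have := hconj d u' hu0' h1
        rw [← he_def] at this
        rw [this, mul_assoc, hdd, mul_one]
      have e2 : e * d * e = transvSU hF' (suMat e *ᵥ u) 1 h2' hone := by
        have := hconj e u hu0 h2'
        rw [← hd_def] at this
        rw [this, mul_assoc, hee, mul_one]
      have e3 : d * e * d = e * d * e := by
        rw [e1, e2]
        apply suMat_injective
        change Cfsg.unitaryTransvection n 2 (suMat d *ᵥ u') 1 = Cfsg.unitaryTransvection n 2 (suMat e *ᵥ u) 1
        have hv : suMat d *ᵥ u' = a ^ 2 • (suMat e *ᵥ u) := by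
          rw [hd_def, he_def, transvSU_mulVec, transvSU_mulVec, ha', ← hadef, smul_add, smul_smul, one_mul, one_mul,
            ← pow_succ, ha3, one_smul, add_comm]
        rw [hv, unitaryTransvection_smul, ← pow_mul]
        congr 1
        calc (1 : F) * a ^ (2 * (2 + 1)) = (a ^ 3) ^ 2 := by ring
          _ = 1 := by rw [ha3, one_pow]
      calc (d * e) ^ 3 = (d * e * d) * (e * d * e) := by rw [pow_succ, pow_succ, pow_one]; group
        _ = (d * e * d) * (d * e * d) := by rw [e3]
        _ = 1 := by rw [e1, hsq]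
  · obtain ⟨e₂, f₂, he0, hf0, h1⟩ := exists_hyp_pair_two hF'
    obtain ⟨k, rfl⟩ : ∃ k, n = k + 2 := ⟨n - 2, by omega⟩
    have hu0 : Cfsg.hermForm (k + 2) F 2 (appendEquiv F k 2 (0, e₂)) (appendEquiv F k 2 (0, e₂)) = 0 := by
      rw [hermForm_append, he0, hermForm_zero_left, add_zero]
    have hu : appendEquiv F k 2 (0, e₂) ≠ 0 := by
      intro h0
      rw [LinearEquiv.map_eq_zero_iff] at h0
      have : e₂ = 0 := congrArg Prod.snd h0
      rw [this, hermForm_zero_left] at h1
      exact zero_ne_one h1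
    have hmem : (suMat (transvSU hF' _ 1 hu0 hone) - 1).rank = 1 :=
      rank_transvection_sub_one hF' _ 1 hu one_ne_zero
    refine ⟨transvSU hF' _ 1 hu0 hone, hmem, ?_⟩
    ext g
    change (suMat g - 1).rank = 1 ↔ IsConj _ g
    constructor
    · intro hg
      exact su_transv_conj hF' (by omega) _ _ hmem hg
    · intro hg
      obtain ⟨c, hc⟩ := isConj_iff.mp hg
      change (suMat g - 1).rank = 1
      rw [← hc, rank_conj_sub_one]
      exact hmem

end Cfsg.Agent.S1631
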