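import Cfsg.Statements.S1635
import Cfsg.Agent.Lib.Helper34.GolayCosets

set_option autoImplicit false
open Cfsg

namespace Cfsg.Agent.S1635

/-- Coset leaders of the length-24 code: a coset contains a unique word of weight ≤ 3, or else exactly six words of weight 4 and none lighter. -/
theorem result (w : Cfsg.GolayPt → ZMod 2) : ({v : Cfsg.GolayPt → ZMod 2 | hammingNorm v ≤ 4 ∧ w - v ∈ Cfsg.golayCode}.ncard = 1 ∧ ∃ v : Cfsg.GolayPt → ZMod 2, hammingNorm v ≤ 3 ∧ w - v ∈ Cfsg.golayCode) ∨ ({v : Cfsg.GolayPt → ZMod 2 | hammingNorm v ≤ 4 ∧ w - v ∈ Cfsg.golayCode}.ncard = 6 ∧ ∀ v : Cfsg.GolayPt → ZMod 2, w - v ∈ Cfsg.golayCode → hammingNorm v ≤ 4 → hammingNorm v = 4) := by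
  have hn : ∀ v : Cfsg.GolayPt → ZMod 2, hammingNorm v = (Cfsg.support₂ v).card := fun v => rfl
  have hsub : ∀ v : Cfsg.GolayPt → ZMod 2, w - v ∈ Cfsg.golayCode ↔
      symmDiff (Cfsg.support₂ w) (Cfsg.support₂ v) ∈
        Cfsg.supports (Cfsg.golayCode : Set (Cfsg.GolayPt → ZMod 2)) := by
    intro v
    rw [← Cfsg.Agent.Lib.Helper34.ind_mem_code_iff, Cfsg.Agent.Lib.Helper34.ind_symmDiff,
      Cfsg.Agent.Lib.Helper34.ind_support, Cfsg.Agent.Lib.Helper34.ind_support]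
    have e2 : w + v = w - v := by
      funext p
      simp only [Pi.add_apply, Pi.sub_apply]
      exact (CharTwo.sub_eq_add _ _).symm
    rw [e2]
  have hmem : ∀ v : Cfsg.GolayPt → ZMod 2, (hammingNorm v ≤ 4 ∧ w - v ∈ Cfsg.golayCode) ↔
      Cfsg.support₂ v ∈ Cfsg.Agent.Lib.Helper34.leaders (Cfsg.support₂ w) := by
    intro v
    rw [hn, hsub]
    rfl
  have hset : {v : Cfsg.GolayPt → ZMod 2 | hammingNorm v ≤ 4 ∧ w - v ∈ Cfsg.golayCode} =
      Cfsg.Agent.Lib.Helper34.ind '' Cfsg.Agent.Lib.Helper34.leaders (Cfsg.support₂ w) := by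
    ext v
    constructor
    · intro hv
      exact ⟨Cfsg.support₂ v, (hmem v).1 hv, Cfsg.Agent.Lib.Helper34.ind_support v⟩
    · rintro ⟨T, hT, rfl⟩
      apply (hmem _).2
      rw [Cfsg.Agent.Lib.Helper34.support_ind]
      exact hT
  rw [hset, Set.ncard_image_of_injective _ Cfsg.Agent.Lib.Helper34.ind_injective]
  rcases Cfsg.Agent.Lib.Helper34.leaders_dichotomy (Cfsg.support₂ w) with ⟨h1, T, hT, h3⟩ | ⟨h6, h4⟩
  · left
    refine ⟨h1, Cfsg.Agent.Lib.Helper34.ind T, ?_, ?_⟩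
    · rw [hn, Cfsg.Agent.Lib.Helper34.support_ind]; exact h3
    · rw [hsub, Cfsg.Agent.Lib.Helper34.support_ind]; exact hT.2
  · right
    refine ⟨h6, ?_⟩
    intro v hv hv4
    rw [hn]
    exact h4 _ ((hmem v).1 ⟨hv4, hv⟩)

end Cfsg.Agent.S1635
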