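import Cfsg.Statements.S1636
import Cfsg.Agent.Lib.Helper34.Golay23

set_option autoImplicit false
open Cfsg

namespace Cfsg.Agent.S1636

/-- The punctured length-23 code has weight distribution 0^1 7^253 8^506 11^1288 12^1288 15^506 16^253 23^1. -/
theorem result : {u : ZMod 23 → ZMod 2 | ∃ w ∈ Cfsg.golayCode, ∀ x : ZMod 23, u x = w (some x)}.ncard = 4096 ∧ {u : ZMod 23 → ZMod 2 | u ∈ {u : ZMod 23 → ZMod 2 | ∃ w ∈ Cfsg.golayCode, ∀ x : ZMod 23, u x = w (some x)} ∧ hammingNorm u = 7}.ncard = 253 ∧ {u : ZMod 23 → ZMod 2 | u ∈ {u : ZMod 23 → ZMod 2 | ∃ w ∈ Cfsg.golayCode, ∀ x : ZMod 23, u x = w (some x)} ∧ hammingNorm u = 8}.ncard = 506 ∧ {u : ZMod 23 → ZMod 2 | u ∈ {u : ZMod 23 → ZMod 2 | ∃ w ∈ Cfsg.golayCode, ∀ x : ZMod 23, u x = w (some x)} ∧ hammingNorm u = 11}.ncard = 1288 ∧ {u : ZMod 23 → ZMod 2 | u ∈ {u : ZMod 23 → ZMod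 2 | ∃ w ∈ Cfsg.golayCode, ∀ x : ZMod 23, u x = w (some x)} ∧ hammingNorm u = 12}.ncard = 1288 ∧ {u : ZMod 23 → ZMod 2 | u ∈ {u : ZMod 23 → ZMod 2 | ∃ w ∈ Cfsg.golayCode, ∀ x : ZMod 23, u x = w (some x)} ∧ hammingNorm u = 15}.ncard = 506 ∧ {u : ZMod 23 → ZMod 2 | u ∈ {u : ZMod 23 → ZMod 2 | ∃ w ∈ Cfsg.golayCode, ∀ x : ZMod 23, u x = w (some x)} ∧ hammingNorm u = 16}.ncard = 253 ∧ ∀ u ∈ {u : ZMod 23 → ZMod 2 | ∃ w ∈ Cfsg.golayCode, ∀ x : ZMod 23, u x = w (some x)}, u ≠ 0 → 7 ≤ hammingNorm u := by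
  exact ⟨Cfsg.Agent.Lib.Helper34.ncard_code23, (Cfsg.Agent.Lib.Helper34.count23 7).trans Cfsg.Agent.Lib.Helper34.cnt23_7, (Cfsg.Agent.Lib.Helper34.count23 8).trans Cfsg.Agent.Lib.Helper34.cnt23_8,
    (Cfsg.Agent.Lib.Helper34.count23 11).trans Cfsg.Agent.Lib.Helper34.cnt23_11, (Cfsg.Agent.Lib.Helper34.count23 12).trans Cfsg.Agent.Lib.Helper34.cnt23_12,
    (Cfsg.Agent.Lib.Helper34.count23 15).trans Cfsg.Agent.Lib.Helper34.cnt23_15, (Cfsg.Agent.Lib.Helper34.count23 16).trans Cfsg.Agent.Lib.Helper34.cnt23_16, Cfsg.Agent.Lib.Helper34.min_weight23⟩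

end Cfsg.Agent.S1636
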