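import Cfsg.Statements.S1638
import Cfsg.Agent.Lib.Helper34.M24FamData2

set_option autoImplicit false
open scoped Pointwise
open Cfsg

namespace Cfsg.Agent.S1638

/-- Fix two points p ≠ q and a pair s of two further points. Among the pairs avoiding p, q and disjoint from s, exactly 30 lie in an octad together with p, q and s and exactly 160 do not; and any two pairs other than s that meet s in equally many points and agree on that octad property are carried to one another by an element of the group of the length-24 code fixing p, q and s. -/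
theorem result (p q : Cfsg.GolayPt) (hpq : p ≠ q) (s : Finset Cfsg.GolayPt) (hs : (s.card = 2 ∧ p ∉ s ∧ q ∉ s)) : {t : Finset Cfsg.GolayPt | (t.card = 2 ∧ p ∉ t ∧ q ∉ t) ∧ Disjoint s t ∧ (∃ o ∈ Cfsg.octads, p ∈ o ∧ q ∈ o ∧ s ∪ t ⊆ o)}.ncard = 30 ∧ {t : Finset Cfsg.GolayPt | (t.card = 2 ∧ p ∉ t ∧ q ∉ t) ∧ Disjoint s t ∧ ¬ (∃ o ∈ Cfsg.octads, p ∈ o ∧ q ∈ o ∧ s ∪ t ⊆ o)}.ncard = 160 ∧ ∀ t t' : Finset Cfsg.GolayPt, (t.card = 2 ∧ p ∉ t ∧ q ∉ t) → (t'.card = 2 ∧ p ∉ t' ∧ q ∉ t') → t ≠ s → t' ≠ s → (s ∩ t).card = (s ∩ t').card → ((∃ o ∈ Cfsg.octads, p ∈ o ∧ q ∈ o ∧ s ∪ t ⊆ o) ↔ (∃ o ∈ Cfsg.octads, p ∈ o ∧ q ∈ o ∧ s ∪ t' ⊆ o)) → ∃ g : Equiv.Perm Cfsg.GolayPt, g ∈ Cfsg.M24 ∧ g p = p ∧ g q = q ∧ g • s = s ∧ g • t = t' := by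
  obtain ⟨a, ha, hap, haq⟩ := Cfsg.Agent.Lib.Helper34.two_trans hpq
    (show Cfsg.Agent.Lib.Helper33.pt 0 ≠ Cfsg.Agent.Lib.Helper33.pt 1 by decide)
  have D := Cfsg.Agent.Lib.Helper34.subFamRank_transport Cfsg.Agent.Lib.Helper34.smul_mem_duads'
    (p := p) (q := q) (bp := false) (bq := false) ha
    (rel := Cfsg.Agent.Lib.Helper34.relPQ (a p) (a q)) (rel' := Cfsg.Agent.Lib.Helper34.relPQ p q)
    (Cfsg.Agent.Lib.Helper34.relPQ_smul ha p q)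
    (by rw [hap, haq]; exact Cfsg.Agent.Lib.Helper34.du22_rank)
  have hmem : ∀ y, y ∈ Cfsg.Agent.Lib.Helper34.subFam {s : Finset Cfsg.GolayPt | s.card = 2} p q false false ↔
      (y.card = 2 ∧ p ∉ y ∧ q ∉ y) := by
    intro y; simp [Cfsg.Agent.Lib.Helper34.mem_subFam]
  have hsΩ := (hmem s).2 hs
  have hrel1 : ∀ y, Cfsg.Agent.Lib.Helper34.relPQ p q s y = 1 ↔
      (Disjoint s y ∧ (∃ o ∈ Cfsg.octads, p ∈ o ∧ q ∈ o ∧ s ∪ y ⊆ o)) := by
    intro y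
    rw [Finset.disjoint_iff_inter_eq_empty, ← Finset.card_eq_zero]
    unfold Cfsg.Agent.Lib.Helper34.relPQ
    by_cases hP : ∃ o ∈ Cfsg.octads, p ∈ o ∧ q ∈ o ∧ s ∪ y ⊆ o
    · rw [if_pos hP]
      constructor
      · intro h; exact ⟨by omega, hP⟩
      · rintro ⟨h, _⟩; omega
    · rw [if_neg hP]
      constructor
      · intro h; omega
      · rintro ⟨_, h⟩; exact absurd h hP
  have hrel0 : ∀ y, Cfsg.Agent.Lib.Helper34.relPQ p q s y = 0 ↔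
      (Disjoint s y ∧ ¬ (∃ o ∈ Cfsg.octads, p ∈ o ∧ q ∈ o ∧ s ∪ y ⊆ o)) := by
    intro y
    rw [Finset.disjoint_iff_inter_eq_empty, ← Finset.card_eq_zero]
    unfold Cfsg.Agent.Lib.Helper34.relPQ
    by_cases hP : ∃ o ∈ Cfsg.octads, p ∈ o ∧ q ∈ o ∧ s ∪ y ⊆ o
    · rw [if_pos hP]
      constructor
      · intro h; omega
      · rintro ⟨_, h⟩; exact absurd hP h
    · rw [if_neg hP]
      constructor
      · intro h; exact ⟨by omega, hP⟩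
      · rintro ⟨h, _⟩; omega
  refine ⟨?_, ?_, ?_⟩
  · have := D.count' hsΩ 1
    rw [Cfsg.Agent.Lib.Helper34.du22_sz1] at this
    rw [← this]; congr 1; ext y
    show _ ∧ _ ↔ _ ∧ _
    rw [hmem, hrel1]
  · have := D.count' hsΩ 0
    rw [Cfsg.Agent.Lib.Helper34.du22_sz0] at this
    rw [← this]; congr 1; ext y
    show _ ∧ _ ↔ _ ∧ _
    rw [hmem, hrel0]
  · intro t t' ht ht' _ _ hc hiff
    have hr : Cfsg.Agent.Lib.Helper34.relPQ p q s t = Cfsg.Agent.Lib.Helper34.relPQ p q s t' := by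
      unfold Cfsg.Agent.Lib.Helper34.relPQ
      rw [hc]
      congr 1
      by_cases hP : ∃ o ∈ Cfsg.octads, p ∈ o ∧ q ∈ o ∧ s ∪ t ⊆ o
      · rw [if_pos hP, if_pos (hiff.1 hP)]
      · rw [if_neg hP, if_neg (fun h => hP (hiff.2 h))]
    obtain ⟨g, hg, hg'⟩ := D.trans₂' hsΩ ((hmem t).2 ht) ((hmem t').2 ht') hr
    obtain ⟨h1, h2, h3⟩ := Cfsg.Agent.Lib.Helper34.mem_ptStab.1 g.2
    exact ⟨g.1, h1, h2, h3, hg, hg'⟩

end Cfsg.Agent.S1638
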