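import Cfsg.Statements.S1639
import Cfsg.Agent.Lib.Helper34.M24FamData2

set_option autoImplicit false
open scoped Pointwise
open Cfsg

namespace Cfsg.Agent.S1639

/-- The point stabiliser acts on the 1288 dodecads through the point with rank 4 and subdegrees 1, 165, 330, 792, distinguished by intersection 4, 8, 6 with the fixed dodecad. -/
theorem result (x : Cfsg.GolayPt) (d : Finset Cfsg.GolayPt) (hd : d ∈ Cfsg.dodecads) (hx : x ∈ d) : {d' : Finset Cfsg.GolayPt | d' ∈ Cfsg.dodecads ∧ x ∈ d' ∧ (d ∩ d').card = 4}.ncard = 165 ∧ {d' : Finset Cfsg.GolayPt | d' ∈ Cfsg.dodecads ∧ x ∈ d' ∧ (d ∩ d').card = 8}.ncard = 330 ∧ {d' : Finset Cfsg.GolayPt | d' ∈ Cfsg.dodecads ∧ x ∈ d' ∧ (d ∩ d').card = 6}.ncard = 792 ∧ ∀ d' d'' : Finset Cfsg.GolayPt, d' ∈ Cfsg.dodecads → d'' ∈ Cfsg.dodecads → x ∈ d' → x ∈ d'' → (d ∩ d').card = (d ∩ d'').card → ∃ g : Equiv.Perm Cfsg.GolayPt,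 g ∈ Cfsg.M24 ∧ g x = x ∧ g • d = d ∧ g • d' = d'' := by
  obtain ⟨a, ha, hax⟩ := Cfsg.Agent.Lib.Helper34.one_trans x (Cfsg.Agent.Lib.Helper33.pt 0)
  have D := Cfsg.Agent.Lib.Helper34.subFamRank_transport Cfsg.Agent.Lib.Helper34.smul_mem_dodecads'
    (p := x) (q := x) (bp := true) (bq := true) ha
    (rel := fun x y => (x ∩ y).card) (rel' := fun x y => (x ∩ y).card)
    (Cfsg.Agent.Lib.Helper33.card_inter_smul a)
    (by rw [hax]; exact Cfsg.Agent.Lib.Helper34.d23in_rank)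
  have hmem : ∀ y, y ∈ Cfsg.Agent.Lib.Helper34.subFam Cfsg.dodecads x x true true ↔
      y ∈ Cfsg.dodecads ∧ x ∈ y := by
    intro y; simp [Cfsg.Agent.Lib.Helper34.mem_subFam]
  have hdΩ := (hmem d).2 ⟨hd, hx⟩
  refine ⟨?_, ?_, ?_, ?_⟩
  · have := D.count' hdΩ 4
    rw [Cfsg.Agent.Lib.Helper34.d23in_sz4] at this
    rw [← this]; congr 1; ext y
    show _ ∧ _ ∧ _ ↔ _ ∧ _
    rw [hmem, and_assoc]
  · have := D.count' hdΩ 8
    rw [Cfsg.Agent.Lib.Helper34.d23in_sz8] at this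
    rw [← this]; congr 1; ext y
    show _ ∧ _ ∧ _ ↔ _ ∧ _
    rw [hmem, and_assoc]
  · have := D.count' hdΩ 6
    rw [Cfsg.Agent.Lib.Helper34.d23in_sz6] at this
    rw [← this]; congr 1; ext y
    show _ ∧ _ ∧ _ ↔ _ ∧ _
    rw [hmem, and_assoc]
  · intro d' d'' hd' hd'' hx' hx'' h
    obtain ⟨g, hg, hg'⟩ := D.trans₂' hdΩ ((hmem d').2 ⟨hd', hx'⟩) ((hmem d'').2 ⟨hd'', hx''⟩) h
    obtain ⟨h1, h2, _⟩ := Cfsg.Agent.Lib.Helper34.mem_ptStab.1 g.2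
    exact ⟨g.1, h1, h2, hg, hg'⟩

end Cfsg.Agent.S1639
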