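import Cfsg.Statements.S1641
import Cfsg.Agent.Lib.Helper33.CoRank
import Cfsg.Agent.Lib.Helper33.C352
import Cfsg.Agent.Lib.Helper33.C1100
import Cfsg.Agent.Lib.Helper33.C4125
import Cfsg.Agent.Lib.Helper33.C5600

set_option autoImplicit false
open Cfsg

namespace Cfsg.Agent.S1641

open Cfsg.Agent.Lib.Helper33

/-- The third Conway group acts on the 11178 cosets of the Higman–Sims group with rank 5 and subdegrees 1, 352, 1100, 4125, 5600. -/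
theorem result (u x : ↥Cfsg.leechLattice) (hu : Cfsg.sqNorm (u : Cfsg.GolayPt → ℤ) = 48) (hx : x ∈ {x : ↥Cfsg.leechLattice | Cfsg.sqNorm (x : Cfsg.GolayPt → ℤ) = 32 ∧ Cfsg.dotInt (u : Cfsg.GolayPt → ℤ) (x : Cfsg.GolayPt → ℤ) = -16}) : ∃ y₁ ∈ {x : ↥Cfsg.leechLattice | Cfsg.sqNorm (x : Cfsg.GolayPt → ℤ) = 32 ∧ Cfsg.dotInt (u : Cfsg.GolayPt → ℤ) (x : Cfsg.GolayPt → ℤ) = -16}, ∃ y₂ ∈ {x : ↥Cfsg.leechLattice | Cfsg.sqNorm (x : Cfsg.GolayPt → ℤ) = 32 ∧ Cfsg.dotInt (u : Cfsg.GolayPt → ℤ) (x : Cfsg.GolayPt → ℤ) = -16}, ∃ y₃ ∈ {x : ↥Cfsg.leechLattice | Cfsg.sqNorm (x : Cfsg.GolayPt → ℤ) = 32 ∧ Cfsg.dotInt (u : Cfsg.GolayPt → ℤ) (x : Cfsg.GolayPt → ℤ) = -16}, ∃ y₄ ∈ {x : ↥Cfsg.leechLattice | Cfsg.sqNorm (x : Cfsg.GolayPt → ℤ) = 32 ∧ Cfsg.dotInt (u : Cfsg.GolayPt → ℤ) (x : Cfsg.GolayPt → ℤ) = -16}, (MulAction.orbit ↥(MulAction.stabilizer ↥Cfsg.Co0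 u ⊓ MulAction.stabilizer ↥Cfsg.Co0 x) y₁).ncard = 352 ∧ (MulAction.orbit ↥(MulAction.stabilizer ↥Cfsg.Co0 u ⊓ MulAction.stabilizer ↥Cfsg.Co0 x) y₂).ncard = 1100 ∧ (MulAction.orbit ↥(MulAction.stabilizer ↥Cfsg.Co0 u ⊓ MulAction.stabilizer ↥Cfsg.Co0 x) y₃).ncard = 4125 ∧ (MulAction.orbit ↥(MulAction.stabilizer ↥Cfsg.Co0 u ⊓ MulAction.stabilizer ↥Cfsg.Co0 x) y₄).ncard = 5600 ∧ {x : ↥Cfsg.leechLattice | Cfsg.sqNorm (x : Cfsg.GolayPt → ℤ) = 32 ∧ Cfsg.dotInt (u : Cfsg.GolayPt → ℤ) (x : Cfsg.GolayPt → ℤ) = -16} = {x} ∪ MulAction.orbit ↥(MulAction.stabilizer ↥Cfsg.Co0 u ⊓ MulAction.stabilizer ↥Cfsg.Co0 x) y₁ ∪ MulAction.orbit ↥(MulAction.stabilizer ↥Cfsg.Co0 u ⊓ MulAction.stabilizer ↥Cfsg.Co0 x) y₂ ∪ MulAction.orbit ↥(MulAction.stabilizer ↥Cfsg.Co0 u ⊓ MulAction.stabilizer ↥Cfsg.Co0 x) y₃ ∪ MulAction.orbit ↥(MulAction.stabilizer ↥Cfsg.Co0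 u ⊓ MulAction.stabilizer ↥Cfsg.Co0 x) y₄ := by
  have hu' : ldot u u = 48 := by rw [ldot_self]; exact hu
  have e : {x : ↥Cfsg.leechLattice | Cfsg.sqNorm (x : Cfsg.GolayPt → ℤ) = 32 ∧ Cfsg.dotInt (u : Cfsg.GolayPt → ℤ) (x : Cfsg.GolayPt → ℤ) = -16} = C1 (-16) u := rfl
  rw [e] at hx ⊢
  have hb := to_uy hu' hx
  obtain ⟨y₁, hy₁⟩ := c352_cls.nonempty (by norm_num) hb
  obtain ⟨y₂, hy₂⟩ := c1100_cls.nonempty (by norm_num) hb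
  obtain ⟨y₃, hy₃⟩ := c4125_cls.nonempty (by norm_num) hb
  obtain ⟨y₄, hy₄⟩ := c5600_cls.nonempty (by norm_num) hb
  refine ⟨y₁, C2_sub_C1 hy₁, y₂, C2_sub_C1 hy₂, y₃, C2_sub_C1 hy₃, y₄, C2_sub_C1 hy₄, ?_⟩
  rw [orbit_stab2, orbit_stab2, orbit_stab2, orbit_stab2, c352_cls.orbit_eq hb hy₁, c1100_cls.orbit_eq hb hy₂,
    c4125_cls.orbit_eq hb hy₃, c5600_cls.orbit_eq hb hy₄]
  refine ⟨c352_cls.count' hb, c1100_cls.count' hb, c4125_cls.count' hb, c5600_cls.count' hb, ?_⟩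
  have hn := c11178_cls.count' (to_lu0 hu')
  have hfin : (C1 (-16) u).Finite := Set.finite_of_ncard_ne_zero (by rw [hn]; norm_num)
  have key := fiber_cover (C1 (-16) u) hfin (fun y => ldot x y) {32, -8, 16, 0, 8} (by
    rw [Finset.sum_insert (by decide), Finset.sum_insert (by decide), Finset.sum_insert (by decide),
      Finset.sum_insert (by decide), Finset.sum_singleton,
      ncard_fiber32 hx (C1_sub _ _), fiberC2, fiberC2, fiberC2, fiberC2, c352_cls.count' hb, c1100_cls.count' hb,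
      c4125_cls.count' hb, c5600_cls.count' hb, hn]
    norm_num)
  ext y
  constructor
  · intro hy
    have := key y hy
    simp only [Finset.mem_insert, Finset.mem_singleton] at this
    rcases this with h | h | h | h | h
    · exact Or.inl (Or.inl (Or.inl (Or.inl (eq_of_ldot_32 hx.1 hy.1 h))))
    · exact Or.inl (Or.inl (Or.inl (Or.inr ⟨hy.1, hy.2, h⟩)))
    · exact Or.inl (Or.inl (Or.inr ⟨hy.1, hy.2, h⟩))
    · exact Or.inl (Or.inr ⟨hy.1, hy.2, h⟩)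
    · exact Or.inr ⟨hy.1, hy.2, h⟩
  · rintro ((((h | h) | h) | h) | h)
    · rw [Set.mem_singleton_iff.1 h]; exact hx
    · exact C2_sub_C1 h
    · exact C2_sub_C1 h
    · exact C2_sub_C1 h
    · exact C2_sub_C1 h

end Cfsg.Agent.S1641
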