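import Cfsg.Statements.S1643
import Cfsg.Agent.Lib.Helper94.M24L

set_option autoImplicit false
open scoped Pointwise
open Cfsg

namespace Cfsg.Agent.S1643

open Cfsg.Agent.Lib.Helper94

open Cfsg.Agent.Lib.Helper94.M22O

/-- the squares part of the generating sets. -/
def SQ : Set (Equiv.Perm Cfsg.GolayPt) :=
  {g : Equiv.Perm Cfsg.GolayPt | ∃ u : (ZMod 23)ˣ, IsSquare u ∧ g = Equiv.optionCongr (Units.mulLeft u)}

theorem gens_le (H : Subgroup (Equiv.Perm Cfsg.GolayPt)) (hs : sh ∈ H) (hx : xx ∈ H) :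
    ({Equiv.optionCongr (Equiv.addRight (1 : ZMod 23))} ∪ SQ : Set (Equiv.Perm Cfsg.GolayPt)) ⊆ H := by
  rintro g (hg | ⟨u, hu, rfl⟩)
  · rw [Set.mem_singleton_iff.1 hg, shift_eq]; exact hs
  · obtain ⟨j, hj⟩ := square_eq u hu
    rw [hj]; exact H.pow_mem hx j

theorem gens_le' (H : Subgroup (Equiv.Perm Cfsg.GolayPt)) (hs : sh ∈ H) (hx : xx ∈ H)
    (hp : Cfsg.projInv ∈ H) :
    ({Equiv.optionCongr (Equiv.addRight (1 : ZMod 23)), Cfsg.projInv} ∪ SQ :
      Set (Equiv.Perm Cfsg.GolayPt)) ⊆ H := by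
  rintro g ((hg | hg) | ⟨u, hu, rfl⟩)
  · rw [hg, shift_eq]; exact hs
  · rw [Set.mem_singleton_iff.1 hg]; exact hp
  · obtain ⟨j, hj⟩ := square_eq u hu
    rw [hj]; exact H.pow_mem hx j

theorem projInv_mem24 : Cfsg.projInv ∈ Cfsg.M24 := by
  rw [projInv_eq]; exact permOf_mem_M24 PI_in

theorem partL (L : Subgroup (Equiv.Perm Cfsg.GolayPt))
    (hL : L = Subgroup.closure ({Equiv.optionCongr (Equiv.addRight (1 : ZMod 23)), Cfsg.projInv} ∪ SQ)) :
    L ≤ Cfsg.M24 ∧ Nat.card L = 6072 ∧ IsCoatom (L.subgroupOf Cfsg.M24) := by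
  have hs : sh ∈ L := by
    rw [hL, ← shift_eq]; exact Subgroup.subset_closure (Or.inl (Or.inl rfl))
  have hp : Cfsg.projInv ∈ L := by
    rw [hL]; exact Subgroup.subset_closure (Or.inl (Or.inr rfl))
  have hx : xx ∈ L := by
    rw [hL]; exact Subgroup.subset_closure (Or.inr xx_square)
  have hle : L ≤ Cfsg.M24 := by
    rw [hL, Subgroup.closure_le]
    exact gens_le' _ sh_mem xx_mem projInv_mem24
  have hst : L ≤ MulAction.stabilizer (Equiv.Perm Cfsg.GolayPt) (famOf O23) := by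
    rw [hL, Subgroup.closure_le]
    exact gens_le' _ (MulAction.mem_stabilizer_iff.2 sh_fam) (MulAction.mem_stabilizer_iff.2 xx_fam)
      (MulAction.mem_stabilizer_iff.2 pi_fam)
  have hne : L ≠ Cfsg.M24 := by
    intro h
    have h1 : permOf CT ∈ L := by rw [h]; exact permOf_mem_M24 CT_in
    exact ct_fam (MulAction.mem_stabilizer_iff.1 (hst h1))
  have hc : Nat.card L = 6072 := by
    rcases M24max L hle hs hx ⟨_, hp, projInv_23⟩ with h | h
    · exact h
    · exact absurd h hne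
  refine ⟨hle, hc, isCoatom_subgroupOf L _ hle hne ?_⟩
  intro K hLK hK
  rcases M24max K hK (hLK hs) (hLK hx) ⟨_, hLK hp, projInv_23⟩ with h | h
  · left
    exact (Subgroup.eq_of_le_of_card_ge hLK (by rw [h, hc])).symm
  · right; exact h

theorem stab_eq : MulAction.stabilizer Cfsg.M24 (none : Cfsg.GolayPt) =
    (fixG [23]).subgroupOf Cfsg.M24 := by
  ext x
  rw [MulAction.mem_stabilizer_iff, Subgroup.mem_subgroupOf, mem_fixG]
  constructor
  · intro h
    refine ⟨x.2, ?_⟩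
    intro t ht
    rw [List.mem_singleton.1 ht]
    exact h
  · intro h
    exact h.2 23 (by simp)

theorem fix_le : fixG [23] ≤ Cfsg.M24 := fun _ hg => (mem_fixG.1 hg).1

theorem partB (B : Subgroup (Equiv.Perm Cfsg.GolayPt))
    (hB : B = Subgroup.closure ({Equiv.optionCongr (Equiv.addRight (1 : ZMod 23))} ∪ SQ)) :
    B ≤ Cfsg.M24 ⊓ MulAction.stabilizer (Equiv.Perm Cfsg.GolayPt) (none : Cfsg.GolayPt) ∧
    Nat.card B = 253 ∧
    IsCoatom ((B.subgroupOf Cfsg.M24).subgroupOf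
      (MulAction.stabilizer Cfsg.M24 (none : Cfsg.GolayPt))) := by
  have hs : sh ∈ B := by
    rw [hB, ← shift_eq]; exact Subgroup.subset_closure (Or.inl rfl)
  have hx : xx ∈ B := by
    rw [hB]; exact Subgroup.subset_closure (Or.inr xx_square)
  have hle : B ≤ fixG [23] := by
    rw [hB, Subgroup.closure_le]
    refine gens_le _ (mem_fixG.2 ⟨sh_mem, ?_⟩) (mem_fixG.2 ⟨xx_mem, ?_⟩)
    · intro t ht; rw [List.mem_singleton.1 ht]; exact sh_23
    · intro t ht; rw [List.mem_singleton.1 ht]; exact xx_23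
  have hN : B ≤ Subgroup.normalizer
      ((Subgroup.zpowers sh : Subgroup (Equiv.Perm Cfsg.GolayPt)) : Set _) ⊓ Cfsg.M24 := by
    rw [hB, Subgroup.closure_le]
    exact gens_le _ sh_norm_sh xx_norm_sh
  have hc : Nat.card B = 253 := by
    rcases M23max B hle hs hx with h | h
    · exact h
    · exfalso
      have d := Subgroup.card_dvd_of_le hN
      rw [card_N23, h, card_fixG1] at d
      norm_num at d
  have hne : B ≠ fixG [23] := by
    intro h
    rw [h, card_fixG1] at hc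
    norm_num at hc
  refine ⟨?_, hc, ?_⟩
  · intro g hg
    have := mem_fixG.1 (hle hg)
    exact ⟨this.1, MulAction.mem_stabilizer_iff.2 (this.2 23 (by simp))⟩
  · rw [stab_eq]
    apply isCoatom_subgroupOf
    · exact Subgroup.subgroupOf_mono _ hle
    · intro h
      apply hne
      rw [← Subgroup.map_subgroupOf_eq_of_le (hle.trans fix_le), h,
        Subgroup.map_subgroupOf_eq_of_le fix_le]
    · intro K h1 h2
      have h1' : B ≤ K.map Cfsg.M24.subtype := by
        rw [← Subgroup.map_subgroupOf_eq_of_le (hle.trans fix_le)]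
        exact Subgroup.map_mono h1
      have h2' : K.map Cfsg.M24.subtype ≤ fixG [23] := by
        rw [← Subgroup.map_subgroupOf_eq_of_le fix_le]
        exact Subgroup.map_mono h2
      rcases M23max _ h2' (h1' hs) (h1' hx) with h | h
      · left
        have e := (Subgroup.eq_of_le_of_card_ge h1' (by rw [h, hc])).symm
        rw [← Subgroup.map_subgroupOf_eq_of_le (hle.trans fix_le)] at e
        exact Subgroup.map_injective Cfsg.M24.subtype_injective e
      · right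
        rw [← Subgroup.map_subgroupOf_eq_of_le fix_le] at h
        exact Subgroup.map_injective Cfsg.M24.subtype_injective h

/-- PSL(2, 23) = ⟨t ↦ t+1, t ↦ u t (u square), t ↦ −1/t⟩ is maximal of order 6072 in the group of the length-24 code, and its point stabiliser 23:11 (order 253) is maximal in the Mathieu group of degree 23. -/
theorem result : (Subgroup.closure ({Equiv.optionCongr (Equiv.addRight (1 : ZMod 23)), Cfsg.projInv} ∪ {g : Equiv.Perm Cfsg.GolayPt | ∃ u : (ZMod 23)ˣ, IsSquare u ∧ g = Equiv.optionCongr (Units.mulLeft u)}) ≤ Cfsg.M24 ∧ Nat.card ↥(Subgroup.closure ({Equiv.optionCongr (Equiv.addRight (1 : ZMod 23)), Cfsg.projInv} ∪ {g : Equiv.Perm Cfsg.GolayPt | ∃ u : (ZMod 23)ˣ, IsSquare u ∧ g = Equiv.optionCongr (Units.mulLeft u)})) = 6072 ∧ IsCoatom ((Subgroup.closure ({Equiv.optionCongr (Equiv.addRight (1 : ZMod 23)), Cfsg.projInv} ∪ {g : Equiv.Perm Cfsg.GolayPt | ∃ u : (ZMod 23)ˣ, IsSquare u ∧ g = Equiv.optionCongr (Units.mulLeft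 u)})).subgroupOf Cfsg.M24)) ∧ (Subgroup.closure ({Equiv.optionCongr (Equiv.addRight (1 : ZMod 23))} ∪ {g : Equiv.Perm Cfsg.GolayPt | ∃ u : (ZMod 23)ˣ, IsSquare u ∧ g = Equiv.optionCongr (Units.mulLeft u)}) ≤ Cfsg.M24 ⊓ MulAction.stabilizer (Equiv.Perm Cfsg.GolayPt) (none : Cfsg.GolayPt) ∧ Nat.card ↥(Subgroup.closure ({Equiv.optionCongr (Equiv.addRight (1 : ZMod 23))} ∪ {g : Equiv.Perm Cfsg.GolayPt | ∃ u : (ZMod 23)ˣ, IsSquare u ∧ g = Equiv.optionCongr (Units.mulLeft u)})) = 253 ∧ IsCoatom (((Subgroup.closure ({Equiv.optionCongr (Equiv.addRight (1 : ZMod 23))} ∪ {g : Equiv.Perm Cfsg.GolayPt | ∃ u : (ZMod 23)ˣ, IsSquare u ∧ g = Equiv.optionCongr (Units.mulLeft u)})).subgroupOf Cfsg.M24).subgroupOf (MulAction.stabilizer Cfsg.M24 (none : Cfsg.GolayPt)))) := by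
  exact ⟨partL _ rfl, partB _ rfl⟩

end Cfsg.Agent.S1643
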