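import Cfsg.Statements.S1679
import Cfsg.Agent.Lib.Helper88.SuzRho
import Cfsg.Agent.Lib.Helper88.G24Iso

set_option autoImplicit false
open Cfsg

namespace Cfsg.Agent.S1679

/-- In the presented sporadic Suzuki group (generators a, …, g), the subgroup generated by the images of a, …, f is isomorphic to the adjoint Chevalley group of type G₂ over a field with four elements. -/
theorem result : ∃ (K : Type) (_ : Field K) (_ : Fintype K), Fintype.card K = 4 ∧ Nonempty ((((Subgroup.closure ({Cfsg.Spor.Suz.a, Cfsg.Spor.Suz.b, Cfsg.Spor.Suz.c, Cfsg.Spor.Suz.d, Cfsg.Spor.Suz.e, Cfsg.Spor.Suz.f} : Set (FreeGroup Cfsg.Spor.Suz.Gen))).map (PresentedGroup.mk (Cfsg.Spor.coxRelators Cfsg.Spor.Suz.edges ∪ {r | r ∈ Cfsg.Spor.Suz.extra})))) ≃* Cfsg.Lie.chevG2.group K) := by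
  obtain ⟨e⟩ := Lib.Helper88.SuzP.K_iso
  obtain ⟨e'⟩ := Lib.Helper88.G24.mat_iso
  exact ⟨Lib.Helper34.F4c, inferInstance, inferInstance, Lib.Helper34.F4c.card, ⟨e.trans e'⟩⟩

end Cfsg.Agent.S1679
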