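import Cfsg.Statements.S1681
import Cfsg.Agent.Lib.Helper35.Suz22880.Check
import Cfsg.Agent.Lib.Helper35.Suz22880.Perm

set_option autoImplicit false
open Cfsg

namespace Cfsg.Agent.S1681

/-- In the presented sporadic Suzuki group (generators a, …, g), the subgroup generated by the images of a, b, c, d, f, g has index 22880. -/
theorem result : (((Subgroup.closure ({Cfsg.Spor.Suz.a, Cfsg.Spor.Suz.b, Cfsg.Spor.Suz.c, Cfsg.Spor.Suz.d, Cfsg.Spor.Suz.f, Cfsg.Spor.Suz.g} : Set (FreeGroup Cfsg.Spor.Suz.Gen))).map (PresentedGroup.mk (Cfsg.Spor.coxRelators Cfsg.Spor.Suz.edges ∪ {r | r ∈ Cfsg.Spor.Suz.extra})))).index = 22880 := by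
  exact Cfsg.Agent.Lib.Helper35.cox_index Cfsg.Spor.Suz.edges Cfsg.Spor.Suz.extra Cfsg.Agent.Lib.Helper35.PresSuz.cc Cfsg.Agent.Lib.Helper35.PresSuz.extraL
    Cfsg.Agent.Lib.Helper35.PresSuz.R Cfsg.Agent.Lib.Helper35.PresSuz.allGens Cfsg.Agent.Lib.Helper35.PresSuz.hall Cfsg.Agent.Lib.Helper35.PresSuz.hOK Cfsg.Agent.Lib.Helper35.PresSuz.hextra
    ({Cfsg.Spor.Suz.a, Cfsg.Spor.Suz.b, Cfsg.Spor.Suz.c, Cfsg.Spor.Suz.d, Cfsg.Spor.Suz.f, Cfsg.Spor.Suz.g} : Set (FreeGroup Cfsg.Spor.Suz.Gen))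
    Cfsg.Agent.Lib.Helper35.Suz22880.SL (by
      have h : Cfsg.Agent.Lib.Helper35.Suz22880.SL.map FreeGroup.mk = [Cfsg.Spor.Suz.a, Cfsg.Spor.Suz.b, Cfsg.Spor.Suz.c, Cfsg.Spor.Suz.d, Cfsg.Spor.Suz.f, Cfsg.Spor.Suz.g] := rfl
      rw [h]; ext x; simp)
    Cfsg.Agent.Lib.Helper35.Suz22880.S Cfsg.Agent.Lib.Helper35.Suz22880.hS 22879 Cfsg.Agent.Lib.Helper35.Suz22880.permData Cfsg.Agent.Lib.Helper35.Suz22880.certData

end Cfsg.Agent.S1681
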