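import Cfsg.Statements.S1682
import Cfsg.Agent.Lib.Helper88.HeSp4
import Cfsg.Agent.S1683

set_option autoImplicit false
open Cfsg

namespace Cfsg.Agent.S1682

/-- In the presented Held group, the subgroup H generated by the images of a, c, d, e, f, (ab)^2 and (bcde)^7 has a normal subgroup of index 2 isomorphic to the 4-dimensional symplectic group over a field with four elements. -/
theorem result : ∃ (N : Subgroup (((Subgroup.closure ({Cfsg.Spor.He.a, Cfsg.Spor.He.c, Cfsg.Spor.He.d, Cfsg.Spor.He.e, Cfsg.Spor.He.f, (Cfsg.Spor.He.a * Cfsg.Spor.He.b) ^ 2, (Cfsg.Spor.He.b * Cfsg.Spor.He.c * Cfsg.Spor.He.d * Cfsg.Spor.He.e) ^ 7} : Set (FreeGroup Cfsg.Spor.He.Gen))).map (PresentedGroup.mk (Cfsg.Spor.coxRelators Cfsg.Spor.He.edges ∪ {r | r ∈ Cfsg.Spor.He.extra}))))) (K : Type) (_ : Field K) (_ : Fintype K), N.Normal ∧ N.index = 2 ∧ Fintype.card K = 4 ∧ Nonempty (N ≃* Matrix.symplecticGroup (Fin 2) K) := by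
  have hle : Lib.Helper88.HeP.N0.comap Lib.Helper88.HeP.rho ≤ Lib.Helper88.HeP.K := by
    intro x hx
    obtain ⟨k, hk, e⟩ := Lib.Helper88.HeP.N0_le_K (Subgroup.mem_comap.1 hx)
    rw [← Lib.Helper88.HeP.rho_inj e]
    exact hk
  have e1 := Subgroup.subgroupOfEquivOfLe hle
  have e2 := Subgroup.equivMapOfInjective (Lib.Helper88.HeP.N0.comap Lib.Helper88.HeP.rho) Lib.Helper88.HeP.rho
    Lib.Helper88.HeP.rho_inj
  have e3 := MulEquiv.subgroupCongr (Subgroup.map_comap_eq_self Lib.Helper88.HeP.N0_le_range)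
  obtain ⟨e4⟩ := Lib.Helper88.HeP.N0_iso
  have c1 := Nat.card_congr ((e1.trans e2).trans e3).toEquiv
  rw [Lib.Helper88.HeP.card_N0] at c1
  have c2 := Subgroup.card_mul_index ((Lib.Helper88.HeP.N0.comap Lib.Helper88.HeP.rho).subgroupOf Lib.Helper88.HeP.K)
  have c3 := Subgroup.card_mul_index Lib.Helper88.HeP.K
  have c4 : Lib.Helper88.HeP.K.index = 2058 := Cfsg.Agent.S1683.result.1
  rw [c4, Cfsg.Agent.S1695.result.2] at c3
  rw [c1] at c2
  have c5 : Nat.card Lib.Helper88.HeP.K = 1958400 :=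
    Nat.eq_of_mul_eq_mul_right (by norm_num : 0 < 2058) (c3.trans (by norm_num : 4030387200 = 1958400 * 2058))
  rw [c5] at c2
  have hidx : ((Lib.Helper88.HeP.N0.comap Lib.Helper88.HeP.rho).subgroupOf Lib.Helper88.HeP.K).index = 2 :=
    Nat.eq_of_mul_eq_mul_left (by norm_num : 0 < 979200) (c2.trans (by norm_num : 1958400 = 979200 * 2))
  exact ⟨(Lib.Helper88.HeP.N0.comap Lib.Helper88.HeP.rho).subgroupOf Lib.Helper88.HeP.K, Lib.Helper34.F4c,
    inferInstance, inferInstance, Subgroup.normal_of_index_eq_two hidx, hidx, Lib.Helper34.F4c.card,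
    ⟨((e1.trans e2).trans e3).trans e4⟩⟩

end Cfsg.Agent.S1682
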