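import Cfsg.Statements.S1685
import Cfsg.Agent.Lib.Helper35.Fi22b.Check
import Cfsg.Agent.Lib.Helper35.Fi22b.Perm

set_option autoImplicit false
open Cfsg

namespace Cfsg.Agent.S1685

/-- In the presented Fischer group Fi₂₂ (generators a, …, i), the subgroup generated by the images of b, c, d, e, f, g, h, i has index 14080. -/
theorem result : (((Subgroup.closure ({Cfsg.Spor.Fi22.b, Cfsg.Spor.Fi22.c, Cfsg.Spor.Fi22.d, Cfsg.Spor.Fi22.e, Cfsg.Spor.Fi22.f, Cfsg.Spor.Fi22.g, Cfsg.Spor.Fi22.h, Cfsg.Spor.Fi22.i} : Set (FreeGroup Cfsg.Spor.Fi22.Gen))).map (PresentedGroup.mk (Cfsg.Spor.coxRelators Cfsg.Spor.Fi22.edges ∪ {r | r ∈ Cfsg.Spor.Fi22.extra})))).index = 14080 := by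
  exact Cfsg.Agent.Lib.Helper35.cox_index Cfsg.Spor.Fi22.edges Cfsg.Spor.Fi22.extra Cfsg.Agent.Lib.Helper35.PresFi22.cc Cfsg.Agent.Lib.Helper35.PresFi22.extraL
    Cfsg.Agent.Lib.Helper35.PresFi22.R Cfsg.Agent.Lib.Helper35.PresFi22.allGens Cfsg.Agent.Lib.Helper35.PresFi22.hall Cfsg.Agent.Lib.Helper35.PresFi22.hOK Cfsg.Agent.Lib.Helper35.PresFi22.hextra
    ({Cfsg.Spor.Fi22.b, Cfsg.Spor.Fi22.c, Cfsg.Spor.Fi22.d, Cfsg.Spor.Fi22.e, Cfsg.Spor.Fi22.f, Cfsg.Spor.Fi22.g, Cfsg.Spor.Fi22.h, Cfsg.Spor.Fi22.i} : Set (FreeGroup Cfsg.Spor.Fi22.Gen))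
    Cfsg.Agent.Lib.Helper35.Fi22b.SL (by
      have h : Cfsg.Agent.Lib.Helper35.Fi22b.SL.map FreeGroup.mk = [Cfsg.Spor.Fi22.b, Cfsg.Spor.Fi22.c, Cfsg.Spor.Fi22.d, Cfsg.Spor.Fi22.e, Cfsg.Spor.Fi22.f, Cfsg.Spor.Fi22.g, Cfsg.Spor.Fi22.h, Cfsg.Spor.Fi22.i] := rfl
      rw [h]; ext x; simp)
    Cfsg.Agent.Lib.Helper35.Fi22b.S Cfsg.Agent.Lib.Helper35.Fi22b.hS 14079 Cfsg.Agent.Lib.Helper35.Fi22b.permData Cfsg.Agent.Lib.Helper35.Fi22b.certData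

end Cfsg.Agent.S1685
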