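import Cfsg.Statements.S1688
import Cfsg.Agent.Lib.Helper35.Fi23Ord.Main

set_option autoImplicit false
open Cfsg

namespace Cfsg.Agent.S1688

/-- In the presented Fischer group Fi₂₃, the subgroup generated by the images of a, …, i is a non-split double cover of the presented Fischer group Fi₂₂. -/
theorem result : Cfsg.IsNonsplitDoubleCover (((Subgroup.closure ({Cfsg.Spor.Fi23.a, Cfsg.Spor.Fi23.b, Cfsg.Spor.Fi23.c, Cfsg.Spor.Fi23.d, Cfsg.Spor.Fi23.e, Cfsg.Spor.Fi23.f, Cfsg.Spor.Fi23.g, Cfsg.Spor.Fi23.h, Cfsg.Spor.Fi23.i} : Set (FreeGroup Cfsg.Spor.Fi23.Gen))).map (PresentedGroup.mk (Cfsg.Spor.coxRelators Cfsg.Spor.Fi23.edges ∪ {r | r ∈ Cfsg.Spor.Fi23.extra})))) Cfsg.Spor.Fi22 := by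
  obtain ⟨Φ, hΦ⟩ := Cfsg.Agent.Lib.Helper35.exists_perm_hom Cfsg.Agent.Lib.Helper35.Fi23Ord.I Cfsg.Agent.Lib.Helper35.Fi23a.permData
  obtain ⟨_, _, hinj⟩ := Cfsg.Agent.Lib.Helper35.card_eq_and_injective Cfsg.Agent.Lib.Helper35.Fi23Ord.I Cfsg.Agent.Lib.Helper35.Fi23a.permData.pv Φ hΦ 4089470473293004800
    (by norm_num) Cfsg.Agent.Lib.Helper35.Fi23Ord.up0 Cfsg.Agent.Lib.Helper35.Fi23Ord.lo0
  have h := (Cfsg.Agent.Lib.Helper35.Fi23Ord.cover_gen Cfsg.Agent.Lib.Helper35.Fi23Ord.I.val Φ hΦ hinj).1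
  have e := Cfsg.Agent.Lib.Helper35.cox_map_closure Cfsg.Spor.Fi23.edges Cfsg.Spor.Fi23.extra Cfsg.Agent.Lib.Helper35.PresFi23.cc Cfsg.Agent.Lib.Helper35.PresFi23.extraL
    Cfsg.Agent.Lib.Helper35.PresFi23.R Cfsg.Agent.Lib.Helper35.PresFi23.allGens Cfsg.Agent.Lib.Helper35.PresFi23.hall Cfsg.Agent.Lib.Helper35.PresFi23.hOK Cfsg.Agent.Lib.Helper35.PresFi23.hextra
    ({Cfsg.Spor.Fi23.a, Cfsg.Spor.Fi23.b, Cfsg.Spor.Fi23.c, Cfsg.Spor.Fi23.d, Cfsg.Spor.Fi23.e, Cfsg.Spor.Fi23.f, Cfsg.Spor.Fi23.g, Cfsg.Spor.Fi23.h, Cfsg.Spor.Fi23.i} : Set (FreeGroup Cfsg.Spor.Fi23.Gen))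
    Cfsg.Agent.Lib.Helper35.Fi23a.SL (by
      have h : Cfsg.Agent.Lib.Helper35.Fi23a.SL.map FreeGroup.mk = [Cfsg.Spor.Fi23.a, Cfsg.Spor.Fi23.b, Cfsg.Spor.Fi23.c, Cfsg.Spor.Fi23.d, Cfsg.Spor.Fi23.e, Cfsg.Spor.Fi23.f, Cfsg.Spor.Fi23.g, Cfsg.Spor.Fi23.h, Cfsg.Spor.Fi23.i] := rfl
      rw [h]; ext x; simp)
  rw [e]
  exact h

end Cfsg.Agent.S1688
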