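import Cfsg.Statements.S1689
import Cfsg.Agent.Lib.Helper35.Fi23a.Check
import Cfsg.Agent.Lib.Helper35.Fi23a.Perm

set_option autoImplicit false
open Cfsg

namespace Cfsg.Agent.S1689

/-- In the presented Fischer group Fi₂₃, let H be the subgroup generated by the images of a, …, i. Then H has index 31671, H has orbits of sizes 3510 and 28160 on the cosets of H other than H itself. -/
theorem result : (((Subgroup.closure ({Cfsg.Spor.Fi23.a, Cfsg.Spor.Fi23.b, Cfsg.Spor.Fi23.c, Cfsg.Spor.Fi23.d, Cfsg.Spor.Fi23.e, Cfsg.Spor.Fi23.f, Cfsg.Spor.Fi23.g, Cfsg.Spor.Fi23.h, Cfsg.Spor.Fi23.i} : Set (FreeGroup Cfsg.Spor.Fi23.Gen))).map (PresentedGroup.mk (Cfsg.Spor.coxRelators Cfsg.Spor.Fi23.edges ∪ {r | r ∈ Cfsg.Spor.Fi23.extra})))).index = 31671 ∧ ∃ q₁ q₂ : Cfsg.Spor.Fi23 ⧸ (((Subgroup.closure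 ({Cfsg.Spor.Fi23.a, Cfsg.Spor.Fi23.b, Cfsg.Spor.Fi23.c, Cfsg.Spor.Fi23.d, Cfsg.Spor.Fi23.e, Cfsg.Spor.Fi23.f, Cfsg.Spor.Fi23.g, Cfsg.Spor.Fi23.h, Cfsg.Spor.Fi23.i} : Set (FreeGroup Cfsg.Spor.Fi23.Gen))).map (PresentedGroup.mk (Cfsg.Spor.coxRelators Cfsg.Spor.Fi23.edges ∪ {r | r ∈ Cfsg.Spor.Fi23.extra})))), (MulAction.orbit (((Subgroup.closure ({Cfsg.Spor.Fi23.a, Cfsg.Spor.Fi23.b, Cfsg.Spor.Fi23.c, Cfsg.Spor.Fi23.d, Cfsg.Spor.Fi23.e, Cfsg.Spor.Fi23.f, Cfsg.Spor.Fi23.g, Cfsg.Spor.Fi23.h, Cfsg.Spor.Fi23.i} : Set (FreeGroup Cfsg.Spor.Fi23.Gen))).map (PresentedGroup.mk (Cfsg.Spor.coxRelators Cfsg.Spor.Fi23.edges ∪ {r | r ∈ Cfsg.Spor.Fi23.extra})))) q₁).ncard = 3510 ∧ (MulAction.orbit (((Subgroup.closure ({Cfsg.Spor.Fi23.a, Cfsg.Spor.Fi23.b, Cfsg.Spor.Fi23.c, Cfsg.Spor.Fi23.d, Cfsg.Spor.Fi23.e,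 Cfsg.Spor.Fi23.f, Cfsg.Spor.Fi23.g, Cfsg.Spor.Fi23.h, Cfsg.Spor.Fi23.i} : Set (FreeGroup Cfsg.Spor.Fi23.Gen))).map (PresentedGroup.mk (Cfsg.Spor.coxRelators Cfsg.Spor.Fi23.edges ∪ {r | r ∈ Cfsg.Spor.Fi23.extra})))) q₂).ncard = 28160 := by
  obtain ⟨hidx, L, hL⟩ := Cfsg.Agent.Lib.Helper35.cox_index_orbits Cfsg.Spor.Fi23.edges Cfsg.Spor.Fi23.extra Cfsg.Agent.Lib.Helper35.PresFi23.cc Cfsg.Agent.Lib.Helper35.PresFi23.extraL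
    Cfsg.Agent.Lib.Helper35.PresFi23.R Cfsg.Agent.Lib.Helper35.PresFi23.allGens Cfsg.Agent.Lib.Helper35.PresFi23.hall Cfsg.Agent.Lib.Helper35.PresFi23.hOK Cfsg.Agent.Lib.Helper35.PresFi23.hextra
    ({Cfsg.Spor.Fi23.a, Cfsg.Spor.Fi23.b, Cfsg.Spor.Fi23.c, Cfsg.Spor.Fi23.d, Cfsg.Spor.Fi23.e, Cfsg.Spor.Fi23.f, Cfsg.Spor.Fi23.g, Cfsg.Spor.Fi23.h, Cfsg.Spor.Fi23.i} : Set (FreeGroup Cfsg.Spor.Fi23.Gen))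
    Cfsg.Agent.Lib.Helper35.Fi23a.SL (by
      have h : Cfsg.Agent.Lib.Helper35.Fi23a.SL.map FreeGroup.mk = [Cfsg.Spor.Fi23.a, Cfsg.Spor.Fi23.b, Cfsg.Spor.Fi23.c, Cfsg.Spor.Fi23.d, Cfsg.Spor.Fi23.e, Cfsg.Spor.Fi23.f, Cfsg.Spor.Fi23.g, Cfsg.Spor.Fi23.h, Cfsg.Spor.Fi23.i] := rfl
      rw [h]; ext x; simp)
    Cfsg.Agent.Lib.Helper35.Fi23a.S Cfsg.Agent.Lib.Helper35.Fi23a.hS 31670 Cfsg.Agent.Lib.Helper35.Fi23a.permData Cfsg.Agent.Lib.Helper35.Fi23a.certData Cfsg.Agent.Lib.Helper35.Fi23a.orbData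
  refine ⟨hidx, ?_⟩
  obtain ⟨q0, m0, h0⟩ := hL 2 (by decide +kernel) Cfsg.Agent.Lib.Helper35.Fi23a.orep2
  obtain ⟨q1, m1, h1⟩ := hL 1 (by decide +kernel) Cfsg.Agent.Lib.Helper35.Fi23a.orep1
  exact ⟨q0, q1, h0.trans Cfsg.Agent.Lib.Helper35.Fi23a.ocnt2, h1.trans Cfsg.Agent.Lib.Helper35.Fi23a.ocnt1⟩

end Cfsg.Agent.S1689
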