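import Cfsg.Statements.S1690
import Cfsg.Agent.Lib.Helper35.Fi24a.Check
import Cfsg.Agent.Lib.Helper35.Fi24b.Perm

set_option autoImplicit false
open Cfsg

namespace Cfsg.Agent.S1690

/-- In the presented group Fi₂₄ = Fi₂₄′:2, the subgroup generated by the images of a, b, c, d, e, f, g, h, i, j and l (every generator but k) has index 306936. -/
theorem result : (((Subgroup.closure ({Cfsg.Spor.Fi24.a, Cfsg.Spor.Fi24.b, Cfsg.Spor.Fi24.c, Cfsg.Spor.Fi24.d, Cfsg.Spor.Fi24.e, Cfsg.Spor.Fi24.f, Cfsg.Spor.Fi24.g, Cfsg.Spor.Fi24.h, Cfsg.Spor.Fi24.i, Cfsg.Spor.Fi24.j, Cfsg.Spor.Fi24.l} : Set (FreeGroup Cfsg.Spor.Fi24.Gen))).map (PresentedGroup.mk (Cfsg.Spor.coxRelators Cfsg.Spor.Fi24.edges ∪ {r | r ∈ Cfsg.Spor.Fi24.extra})))).index = 306936 := by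
  exact Cfsg.Agent.Lib.Helper35.cox_index Cfsg.Spor.Fi24.edges Cfsg.Spor.Fi24.extra Cfsg.Agent.Lib.Helper35.PresFi24.cc Cfsg.Agent.Lib.Helper35.PresFi24.extraL
    Cfsg.Agent.Lib.Helper35.PresFi24.R Cfsg.Agent.Lib.Helper35.PresFi24.allGens Cfsg.Agent.Lib.Helper35.PresFi24.hall Cfsg.Agent.Lib.Helper35.PresFi24.hOK Cfsg.Agent.Lib.Helper35.PresFi24.hextra
    ({Cfsg.Spor.Fi24.a, Cfsg.Spor.Fi24.b, Cfsg.Spor.Fi24.c, Cfsg.Spor.Fi24.d, Cfsg.Spor.Fi24.e, Cfsg.Spor.Fi24.f, Cfsg.Spor.Fi24.g, Cfsg.Spor.Fi24.h, Cfsg.Spor.Fi24.i, Cfsg.Spor.Fi24.j, Cfsg.Spor.Fi24.l} : Set (FreeGroup Cfsg.Spor.Fi24.Gen))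
    Cfsg.Agent.Lib.Helper35.Fi24a.SL (by
      have h : Cfsg.Agent.Lib.Helper35.Fi24a.SL.map FreeGroup.mk = [Cfsg.Spor.Fi24.a, Cfsg.Spor.Fi24.b, Cfsg.Spor.Fi24.c, Cfsg.Spor.Fi24.d, Cfsg.Spor.Fi24.e, Cfsg.Spor.Fi24.f, Cfsg.Spor.Fi24.g, Cfsg.Spor.Fi24.h, Cfsg.Spor.Fi24.i, Cfsg.Spor.Fi24.j, Cfsg.Spor.Fi24.l] := rfl
      rw [h]; ext x; simp)
    Cfsg.Agent.Lib.Helper35.Fi24a.S Cfsg.Agent.Lib.Helper35.Fi24a.hS 306935 Cfsg.Agent.Lib.Helper35.Fi24b.permData Cfsg.Agent.Lib.Helper35.Fi24a.certData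

end Cfsg.Agent.S1690
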