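import Cfsg.Statements.S1691
-- import your own Cfsg.Agent.* helpers here

set_option autoImplicit false
open Cfsg

namespace Cfsg.Agent.S1691

open Cfsg.Spor

abbrev rels : Set (FreeGroup Fi24.Gen) := coxRelators Fi24.edges ∪ {r | r ∈ Fi24.extra}

def sgnFun : Fi24.Gen → Multiplicative (ZMod 2) := fun _ => Multiplicative.ofAdd 1

lemma sgn_of (x : Fi24.Gen) : FreeGroup.lift sgnFun (FreeGroup.of x) = Multiplicative.ofAdd 1 := by
  simp [sgnFun]

lemma sq_one (z : Multiplicative (ZMod 2)) : z * z = 1 := by
  revert z; decide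

lemma sgn_rel : ∀ r ∈ rels, FreeGroup.lift sgnFun r = 1 := by
  intro r hr
  rcases hr with hr | hr
  · obtain ⟨x, _, y, _, rfl⟩ := hr
    rw [map_pow, map_mul, sgn_of, sgn_of, sq_one, one_pow]
  · simp only [Set.mem_ofPred_eq, Fi24.extra, List.mem_cons, List.not_mem_nil, or_false] at hr
    rcases hr with rfl | rfl
    · simp only [map_mul, map_inv, map_pow, sgn_of]
      decide
    · simp only [map_mul, map_inv, map_pow, sgn_of]
      decide

def sgn : Fi24 →* Multiplicative (ZMod 2) := PresentedGroup.toGroup sgn_rel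

lemma sgn_gen (x : Fi24.Gen) : sgn (PresentedGroup.of x) = Multiplicative.ofAdd 1 := by
  simp [sgn, sgnFun]

lemma cox_rel (x y : Fi24.Gen) (hx : x ∈ coxNodes Fi24.edges) (hy : y ∈ coxNodes Fi24.edges) :
    ((PresentedGroup.of x : Fi24) * PresentedGroup.of y) ^ coxLabel Fi24.edges x y = 1 := by
  have h : (FreeGroup.of x * FreeGroup.of y) ^ coxLabel Fi24.edges x y ∈ rels :=
    Or.inl ⟨x, hx, y, hy, rfl⟩
  have := PresentedGroup.one_of_mem h
  simpa [PresentedGroup.of] using this

abbrev q : Fi24 →* Abelianization Fi24 := Abelianization.of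

lemma mem_nodes (x : Fi24.Gen) : x ∈ coxNodes Fi24.edges := by
  cases x <;> decide

lemma q_sq (x : Fi24.Gen) : q (PresentedGroup.of x) * q (PresentedGroup.of x) = 1 := by
  have h := cox_rel x x (mem_nodes x) (mem_nodes x)
  have h1 : coxLabel Fi24.edges x x = 1 := by simp [coxLabel]
  rw [h1, pow_one] at h
  rw [← map_mul, h, map_one]

lemma q_edge (x y : Fi24.Gen) (h3 : coxLabel Fi24.edges x y = 3) :
    q (PresentedGroup.of x) = q (PresentedGroup.of y) := by
  have h := cox_rel x y (mem_nodes x) (mem_nodes y)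
  rw [h3] at h
  have h' := congrArg q h
  rw [map_pow, map_mul, map_one] at h'
  have hx := q_sq x
  have hy := q_sq y
  set X := q (PresentedGroup.of x)
  set Y := q (PresentedGroup.of y)
  have e1 : (X * Y) ^ 3 = (X * X) * (Y * Y) * (X * Y) := by
    rw [pow_succ, pow_succ, pow_one]
    simp only [mul_assoc, mul_comm, mul_left_comm]
  rw [e1, hx, hy, one_mul, one_mul] at h'
  calc X = X * (Y * Y) := by rw [hy, mul_one]
    _ = (X * Y) * Y := by rw [mul_assoc]
    _ = Y := by rw [h', one_mul]

lemma q_all (x : Fi24.Gen) : q (PresentedGroup.of x) = q (PresentedGroup.of Fi24.Gen.d) := by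
  have hc := q_edge .c .d (by decide)
  have hb := (q_edge .b .c (by decide)).trans hc
  have ha := (q_edge .a .b (by decide)).trans hb
  have hk := (q_edge .k .a (by decide)).trans ha
  have hl := (q_edge .l .k (by decide)).trans hk
  have he := (q_edge .d .e (by decide)).symm
  have hf := (q_edge .e .f (by decide)).symm.trans he
  have hg := (q_edge .f .g (by decide)).symm.trans hf
  have hj := (q_edge .g .j (by decide)).symm.trans hg
  have hh := (q_edge .d .h (by decide)).symm
  have hi := (q_edge .h .i (by decide)).symm.trans hh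
  cases x <;> first | rfl | assumption

lemma z_cases (z : Multiplicative (ZMod 2)) : z = 1 ∨ z = Multiplicative.ofAdd 1 := by
  revert z; decide

def tau : Multiplicative (ZMod 2) →* Abelianization Fi24 :=
  MonoidHom.mk' (fun z => if z = 1 then 1 else q (PresentedGroup.of Fi24.Gen.d)) (by
    intro z w
    have h1 : (Multiplicative.ofAdd (1 : ZMod 2)) ≠ 1 := by decide
    have h2 : (Multiplicative.ofAdd (1 : ZMod 2)) * Multiplicative.ofAdd 1 = 1 := by decide
    rcases z_cases z with rfl | rfl <;> rcases z_cases w with rfl | rfl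
    · simp
    · simp
    · simp
    · simp only [h1, h2, if_true, if_false]
      exact (q_sq _).symm)

lemma tau_one : tau (Multiplicative.ofAdd 1) = q (PresentedGroup.of Fi24.Gen.d) := by
  have h1 : (Multiplicative.ofAdd (1 : ZMod 2)) ≠ 1 := by decide
  simp [tau, h1]

lemma tau_sgn : tau.comp sgn = q := by
  apply PresentedGroup.ext
  intro x
  rw [MonoidHom.comp_apply, sgn_gen, tau_one, ← q_all]

lemma ker_eq : sgn.ker = commutator Fi24 := by
  apply le_antisymm
  · intro g hg
    have h1 : q g = 1 := by
      rw [← tau_sgn, MonoidHom.comp_apply, MonoidHom.mem_ker.mp hg, map_one]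
    have := (QuotientGroup.eq_one_iff (N := commutator Fi24) g).mp h1
    exact this
  · exact Abelianization.commutator_subset_ker sgn

lemma sgn_surj : Function.Surjective sgn := by
  intro z
  rcases z_cases z with rfl | rfl
  · exact ⟨1, map_one _⟩
  · exact ⟨PresentedGroup.of Fi24.Gen.d, sgn_gen _⟩

/-- The commutator subgroup of the presented group Fi₂₄ has index 2 (the presented group is Fi₂₄′:2 with Fi₂₄′ its derived subgroup). -/
theorem result : (commutator Cfsg.Spor.Fi24).index = 2 := by
  rw [← ker_eq, Subgroup.index_ker, MonoidHom.range_eq_top.mpr sgn_surj]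
  simp [Nat.card_eq_fintype_card]

end Cfsg.Agent.S1691
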