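import Cfsg.Statements.S1754
import Cfsg.Agent.Lib.Helper36.TI
import Cfsg.Agent.Lib.Helper28.Components

set_option autoImplicit false
open Cfsg

namespace Cfsg.Agent.S1754

/-- Let A be a standard subgroup of the finite group G (A quasisimple, C_G(A) tightly embedded of even order, A commuting elementwise with no other conjugate of itself, and N_G(A) = N_G(C_G(A))), and let t be an involution of G centralizing A. Then the centralizer of t lies in the normalizer of A; in particular A, viewed inside C_G(t), is a component of C_G(t). -/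
theorem result {G : Type*} [Group G] [Finite G]
    (A : Subgroup G) (hA : Cfsg.IsStandardSubgroup A) (t : G) (ht : orderOf t = 2) (htA : t ∈ Subgroup.centralizer (A : Set G)) :
    Subgroup.centralizer ({t} : Set G) ≤ Subgroup.normalizer (A : Set G) ∧
      Cfsg.IsComponent (A.subgroupOf (Subgroup.centralizer ({t} : Set G))) := by
  obtain ⟨hqs, ⟨_, htight⟩, _, hnorm⟩ := hA
  set K := Subgroup.centralizer (A : Set G) with hK
  have hle : Subgroup.centralizer ({t} : Set G) ≤ Subgroup.normalizer (A : Set G) := by
    intro c hc
    rw [hnorm]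
    by_contra hcN
    have hodd := htight c hcN
    have hct : c * t = t * c := Subgroup.mem_centralizer_singleton_iff.mp hc
    have htmem : t ∈ K ⊓ K.map (MulAut.conj c).toMonoidHom := by
      refine Subgroup.mem_inf.mpr ⟨htA, ?_⟩
      rw [Cfsg.Agent.Lib.Helper36.mem_map_conj]
      have : c⁻¹ * t * c = t := by
        rw [mul_assoc, ← hct]; group
      rw [this]; exact htA
    have h2 : orderOf (⟨t, htmem⟩ : ↥(K ⊓ K.map (MulAut.conj c).toMonoidHom)) = 2 := by
      rw [Subgroup.orderOf_mk]; exact ht
    have hdvd := orderOf_dvd_natCard (⟨t, htmem⟩ : ↥(K ⊓ K.map (MulAut.conj c).toMonoidHom))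
    rw [h2] at hdvd
    exact (Nat.not_even_iff_odd.mpr hodd) (even_iff_two_dvd.mpr hdvd)
  refine ⟨hle, ?_⟩
  have hAC : A ≤ Subgroup.centralizer ({t} : Set G) := by
    intro a ha
    rw [Subgroup.mem_centralizer_singleton_iff]
    exact (Subgroup.mem_centralizer_iff.mp htA) a ha
  constructor
  · have : (A.subgroupOf (Subgroup.centralizer ({t} : Set G))).Normal :=
      (Subgroup.normal_subgroupOf_iff_le_normalizer hAC).mpr hle
    exact this.isSubnormal
  · exact Cfsg.Agent.Lib.Helper28.isQuasisimple_of_equiv (Subgroup.subgroupOfEquivOfLe hAC).symm hqs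

end Cfsg.Agent.S1754
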