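import Cfsg.Statements.S1755
import Cfsg.Agent.Lib.Helper36.GF2Type

set_option autoImplicit false
open Cfsg

namespace Cfsg.Agent.S1755

open Cfsg.Agent.Lib.Helper36

/-- Let G be a finite group and let z be an involution of G such that Q, the generalized Fitting subgroup of the centralizer C of z, is a 2-group of symplectic type (every characteristic abelian subgroup of Q is cyclic). Let B be a characteristic abelian subgroup of Q, viewed as a subgroup of G. Then for every g in G, the conjugate of B by g either equals B or meets B trivially. -/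
theorem result {G : Type*} [Group G] [Finite G] (z : G) (hz : orderOf z = 2) (hQ : Cfsg.IsOfSymplecticType ↥(Cfsg.generalizedFittingSubgroup ↥(Subgroup.centralizer ({z} : Set G))))
    (B : Subgroup ↥(Cfsg.generalizedFittingSubgroup ↥(Subgroup.centralizer ({z} : Set G)))) (hBc : B.Characteristic) (hBa : IsMulCommutative ↥B) (g : G) :
    ((B.map (Cfsg.generalizedFittingSubgroup ↥(Subgroup.centralizer ({z} : Set G))).subtype).map (Subgroup.centralizer ({z} : Set G)).subtype).map (MulAut.conj g).toMonoidHom =
        (B.map (Cfsg.generalizedFittingSubgroup ↥(Subgroup.centralizer ({z} : Set G))).subtype).map (Subgroup.centralizer ({z} : Set G)).subtype ∨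
      ((B.map (Cfsg.generalizedFittingSubgroup ↥(Subgroup.centralizer ({z} : Set G))).subtype).map (Subgroup.centralizer ({z} : Set G)).subtype).map (MulAut.conj g).toMonoidHom ⊓
        (B.map (Cfsg.generalizedFittingSubgroup ↥(Subgroup.centralizer ({z} : Set G))).subtype).map (Subgroup.centralizer ({z} : Set G)).subtype = ⊥ := by
  classical
  have hp2 : Fact (Nat.Prime 2) := ⟨Nat.prime_two⟩
  set BG := (B.map (FsC z).subtype).map (CC z).subtype with hBG
  by_cases hbot : BG.map (MulAut.conj g).toMonoidHom ⊓ BG = ⊥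
  · right; exact hbot
  left
  -- involutions of BG equal z
  have key : ∀ d ∈ BG, orderOf d = 2 → d = z := by
    rintro _ ⟨_, ⟨b, hb, rfl⟩, rfl⟩ hd
    have hb2 : orderOf b = 2 := by
      rw [← hd]
      change orderOf b = orderOf (((b : ↥(FsC z)) : ↥(CC z)) : G)
      rw [Subgroup.orderOf_coe, Subgroup.orderOf_coe]
    let ζ : ↥(FsC z) := ⟨zC z, zC_mem_FsC z hz⟩
    have hζc : ζ ∈ Subgroup.center ↥(FsC z) := by
      rw [Subgroup.mem_center_iff]
      intro x
      apply Subtype.ext
      exact (Subgroup.mem_center_iff.mp (zC_mem_center z)) x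
    have hζ2 : orderOf ζ = 2 := by
      rw [← hz]
      change orderOf ζ = orderOf (((ζ : ↥(FsC z)) : ↥(CC z)) : G)
      rw [Subgroup.orderOf_coe, Subgroup.orderOf_coe]
    have := symp_involution_unique hQ ζ hζc hζ2 B hBc hBa b hb hb2
    rw [this]
    rfl
  have hBG2 : IsPGroup 2 ↥BG := by
    have h1 : IsPGroup 2 ↥B := hQ.1.to_subgroup B
    exact (h1.map (FsC z).subtype).map (CC z).subtype
  set D := BG.map (MulAut.conj g).toMonoidHom ⊓ BG with hD
  have hD2 : IsPGroup 2 ↥D := hBG2.to_le inf_le_right
  have hcard : 2 ∣ Nat.card ↥D := by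
    rcases hD2.card_eq_or_dvd with h | h
    · exact absurd (Subgroup.card_eq_one.mp h) hbot
    · exact h
  obtain ⟨d, hd⟩ := exists_prime_orderOf_dvd_card' 2 hcard
  have hd' : orderOf (d : G) = 2 := by rw [Subgroup.orderOf_coe]; exact hd
  have hd1 : (d : G) = z := key d (Subgroup.mem_inf.mp d.2).2 hd'
  have hd2 : g⁻¹ * (d : G) * g = z := by
    apply key
    · exact (mem_map_conj BG g d).mp (Subgroup.mem_inf.mp d.2).1
    · rw [← hd']
      have := (MulAut.conj g⁻¹).orderOf_eq (d : G)
      simpa [MulAut.conj_apply] using this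
  rw [hd1] at hd2
  have hgC : g ∈ CC z := by
    rw [Subgroup.mem_centralizer_singleton_iff]
    calc g * z = g * (g⁻¹ * z * g) := by rw [hd2]
      _ = z * g := by group
  have hN : (B.map (FsC z).subtype).Normal :=
    Cfsg.Agent.Lib.Helper28.map_subtype_normal_of_characteristic
      Cfsg.Agent.Lib.Helper28.genFitting_normal hBc
  have hconj : ∀ c ∈ CC z, ∀ x ∈ BG, c * x * c⁻¹ ∈ BG := by
    rintro c hc _ ⟨x, hx, rfl⟩
    exact ⟨⟨c, hc⟩ * x * ⟨c, hc⟩⁻¹, hN.conj_mem x hx ⟨c, hc⟩, rfl⟩
  rw [map_conj_eq_iff_mem_normalizer, Subgroup.mem_normalizer_iff]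
  intro x
  constructor
  · exact hconj g hgC x
  · intro hx
    have := hconj g⁻¹ ((CC z).inv_mem hgC) _ hx
    simpa [mul_assoc] using this

end Cfsg.Agent.S1755
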