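import Cfsg.Statements.S1756
import Cfsg.Agent.Lib.Helper36.CentralAutRel

set_option autoImplicit false
open Cfsg

namespace Cfsg.Agent.S1756

/-- Let Q be an extraspecial 2-subgroup of the finite group G (special with centre of order 2) and t an involution of G normalizing Q such that the centralizer of t in Q has index at most 2 in Q. Then t lies in the product of Q with the centralizer of Q. -/
theorem result {G : Type*} [Group G] [Finite G] (Q : Subgroup G)
    (hQ : Cfsg.IsExtraspecial 2 ↥Q) (t : G) (ht : orderOf t = 2) (htN : t ∈ Subgroup.normalizer (Q : Set G))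
    (hi : (Subgroup.centralizer ({t} : Set G) ⊓ Q).relIndex Q ≤ 2) :
    t ∈ Q ⊔ Subgroup.centralizer (Q : Set G) := by
  have : Fact (Nat.Prime 2) := ⟨Nat.prime_two⟩
  apply Cfsg.Agent.Lib.Helper36.mem_sup_centralizer_of_commutator_central Q hQ.1.2.2 hQ.2 t
  set M : Subgroup G := Subgroup.centralizer ({t} : Set G) ⊓ Q with hMdef
  have hMmem : ∀ q : G, q ∈ M ↔ (q * t = t * q ∧ q ∈ Q) := by
    intro q
    rw [hMdef, Subgroup.mem_inf, Subgroup.mem_centralizer_singleton_iff]
  have htt : t * t = 1 := by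
    have := pow_orderOf_eq_one t
    rwa [ht, pow_two] at this
  have htinv : t⁻¹ = t := inv_eq_of_mul_eq_one_left htt
  have hconjQ : ∀ q ∈ Q, t * q * t⁻¹ ∈ Q := fun q hq =>
    ((Subgroup.mem_normalizer_iff.mp htN) q).mp hq
  have hne : M.relIndex Q ≠ 0 := by
    rw [Subgroup.relIndex]
    exact Subgroup.index_ne_zero_of_finite
  intro e he
  by_cases heM : e ∈ M
  · have h1 := ((hMmem e).mp heM).1
    have : t * e * t⁻¹ * e⁻¹ = 1 := by
      rw [← h1]; group
    rw [this]; exact Subgroup.one_mem _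
  have hidx : (M.subgroupOf Q).index = 2 := by
    have h1 : M.relIndex Q ≠ 1 := by
      intro h
      rw [Subgroup.relIndex_eq_one] at h
      exact heM (h he)
    have : M.relIndex Q = 2 := by omega
    exact this
  have hM2 : ∀ a ∈ Q, ∀ b ∈ Q, (a * b ∈ M ↔ (a ∈ M ↔ b ∈ M)) := by
    intro a ha b hb
    have := Subgroup.mul_mem_iff_of_index_two hidx (a := ⟨a, ha⟩) (b := ⟨b, hb⟩)
    simpa [Subgroup.mem_subgroupOf] using this
  set x := e with hx
  set c := t * x * t⁻¹ * x⁻¹ with hc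
  have hcQ : c ∈ Q := Q.mul_mem (hconjQ x he) (Q.inv_mem he)
  have hxinvM : x⁻¹ ∉ M := fun h => heM (by simpa using M.inv_mem h)
  -- Step A
  have hA : ∀ m ∈ M, c * m = m * c := by
    intro m hm
    have hmQ := ((hMmem m).mp hm).2
    have h2 : t * m = m * t := ((hMmem m).mp hm).1.symm
    have hm' : x⁻¹ * m * x ∈ M := by
      rw [hM2 _ (Q.mul_mem (Q.inv_mem he) hmQ) _ he, hM2 _ (Q.inv_mem he) _ hmQ]
      simp [hxinvM, hm, heM]
    have h1 : Commute t (x⁻¹ * m * x) := ((hMmem _).mp hm').1.symm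
    have e1 : t⁻¹ * (x⁻¹ * m * x) = (x⁻¹ * m * x) * t⁻¹ := h1.inv_left
    calc t * x * t⁻¹ * x⁻¹ * m = t * x * (t⁻¹ * (x⁻¹ * m * x)) * x⁻¹ := by group
      _ = t * x * ((x⁻¹ * m * x) * t⁻¹) * x⁻¹ := by rw [e1]
      _ = (t * m) * x * t⁻¹ * x⁻¹ := by group
      _ = (m * t) * x * t⁻¹ * x⁻¹ := by rw [h2]
      _ = m * (t * x * t⁻¹ * x⁻¹) := by group
  -- Step B
  have hB : c * x = x * c := by
    by_cases hcM : c ∈ M
    · have h1 : c * t = t * c := ((hMmem c).mp hcM).1
      have h2 : t * c * t⁻¹ = c⁻¹ := by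
        rw [hc]
        calc t * (t * x * t⁻¹ * x⁻¹) * t⁻¹ = (t * t) * x * t⁻¹ * x⁻¹ * t⁻¹ := by group
          _ = x * t * x⁻¹ * t⁻¹ := by rw [htt, htinv]; group
          _ = (t * x * t⁻¹ * x⁻¹)⁻¹ := by group
      have h3 : c = c⁻¹ := by
        rw [← h2, ← h1]; group
      have hxx : x * x ∈ M := by
        rw [hM2 _ he _ he]
      have h4 : x * x * t = t * (x * x) := ((hMmem _).mp hxx).1
      have h5 : c * x * c * x = x * x := by
        calc c * x * c * x = t * (x * x) * t⁻¹ := by rw [hc]; group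
          _ = x * x * t * t⁻¹ := by rw [← h4]
          _ = x * x := by group
      have h6 : c * x = x * c⁻¹ := by
        calc c * x = (c * x * c * x) * x⁻¹ * c⁻¹ := by group
          _ = x * x * x⁻¹ * c⁻¹ := by rw [h5]
          _ = x * c⁻¹ := by group
      rw [h6, ← h3]
    · have hm : c * x⁻¹ ∈ M := by
        rw [hM2 _ hcQ _ (Q.inv_mem he)]
        simp [hcM, hxinvM]
      have h1 := hA _ hm
      have h2 : c * x⁻¹ = x⁻¹ * c := by
        apply mul_left_cancel (a := c)
        rw [h1]; group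
      calc c * x = x * (x⁻¹ * c) * x := by group
        _ = x * (c * x⁻¹) * x := by rw [h2]
        _ = x * c := by group
  refine Subgroup.mem_inf.mpr ⟨hcQ, ?_⟩
  rw [Subgroup.mem_centralizer_iff]
  intro y hy
  have hyQ : y ∈ Q := hy
  by_cases hyM : y ∈ M
  · exact (hA y hyM).symm
  · have hm : y * x⁻¹ ∈ M := by
      rw [hM2 _ hyQ _ (Q.inv_mem he)]
      simp [hyM, hxinvM]
    have h1 := hA _ hm
    calc y * c = (y * x⁻¹) * (x * c) := by group
      _ = (y * x⁻¹) * (c * x) := by rw [hB]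
      _ = ((y * x⁻¹) * c) * x := by group
      _ = (c * (y * x⁻¹)) * x := by rw [h1]
      _ = c * y := by group

end Cfsg.Agent.S1756
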