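import Cfsg.Statements.S1774
import Cfsg.Agent.Lib.Helper36.SympExp4
import Cfsg.Agent.Lib.Helper36.ElemAb

set_option autoImplicit false
open Cfsg

namespace Cfsg.Agent.S1774

open Cfsg.Agent.Lib.Helper36 Subgroup

variable {G : Type*} [Group G]

theorem comm_of_comm_one {a b : G} (h : a * b * a⁻¹ * b⁻¹ = 1) : a * b = b * a := by
  calc a * b = (a * b * a⁻¹ * b⁻¹) * (b * a) := by group
    _ = b * a := by rw [h, one_mul]

theorem comm_zp {a z c : G} (hz : z * z = 1) (h : a * z = z * a) (hc : c ∈ zpowers z) :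
    a * c = c * a := by
  rcases mem_zpowers_of_sq hz hc with h1 | h1
  · rw [h1, mul_one, one_mul]
  · rw [h1, h]

theorem zp_sq {z c : G} (hz : z * z = 1) (hc : c ∈ zpowers z) : c * c = 1 := by
  rcases mem_zpowers_of_sq hz hc with h1 | h1
  · rw [h1, mul_one]
  · rw [h1, hz]

/-- the abstract setting: `Q` plays the role of `F*(C(z))` -/
structure Good (z : G) (Q : Subgroup G) : Prop where
  z2 : z * z = 1
  z1 : z ≠ 1
  zQ : z ∈ Q
  cz : ∀ q ∈ Q, q * z = z * q
  norm : ∀ c : G, c * z = z * c → ∀ q ∈ Q, c * q * c⁻¹ ∈ Q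
  sq : ∀ q ∈ Q, q * q ∈ zpowers z
  cen : ∀ x ∈ Q, x * x = 1 → (∀ q ∈ Q, x * q = q * x) → x ∈ zpowers z
  stab : ∀ h : G, h * z = z * h → (∀ q ∈ Q, h * q * h⁻¹ * q⁻¹ ∈ zpowers z) → h ∈ Q

namespace Good

variable {z : G} {Q : Subgroup G}

theorem zinv (h : Good z Q) : z⁻¹ = z := inv_eq_of_mul_eq_one_left h.z2

theorem czp (h : Good z Q) {c : G} (hc : c ∈ zpowers z) : ∀ q ∈ Q, q * c = c * q :=
  fun q hq => comm_zp h.z2 (h.cz q hq) hc

theorem comm_mem (h : Good z Q) : ∀ a ∈ Q, ∀ b ∈ Q, a * b * a⁻¹ * b⁻¹ ∈ zpowers z := by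
  intro a ha b hb
  have h1 := h.sq (a * b) (Q.mul_mem ha hb)
  have h2 := h.sq a⁻¹ (Q.inv_mem ha)
  have h3 := h.sq b⁻¹ (Q.inv_mem hb)
  have h4 := h.czp h2 b⁻¹ (Q.inv_mem hb)
  have h5 : a * b * a⁻¹ * b⁻¹ = (a * b) * (a * b) * ((a⁻¹ * a⁻¹) * (b⁻¹ * b⁻¹)) := by
    calc a * b * a⁻¹ * b⁻¹ = (a * b) * (a * b) * ((b⁻¹ * (a⁻¹ * a⁻¹)) * b⁻¹) := by group
      _ = (a * b) * (a * b) * (((a⁻¹ * a⁻¹) * b⁻¹) * b⁻¹) := by rw [h4]
      _ = (a * b) * (a * b) * ((a⁻¹ * a⁻¹) * (b⁻¹ * b⁻¹)) := by group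
  rw [h5]
  exact mul_mem h1 (mul_mem h2 h3)

theorem exists_conj (h : Good z Q) {t : G} (htQ : t ∈ Q) (ht2 : t * t = 1) (htz : t ∉ zpowers z) :
    ∃ q ∈ Q, q * t * q⁻¹ = t * z := by
  by_contra hcon
  push Not at hcon
  apply htz
  apply h.cen t htQ ht2
  intro q hq
  rcases mem_zpowers_of_sq h.z2 (h.comm_mem q hq t htQ) with h1 | h1
  · exact (comm_of_comm_one h1).symm
  · exfalso
    apply hcon q hq
    calc q * t * q⁻¹ = (q * t * q⁻¹ * t⁻¹) * t := by group
      _ = z * t := by rw [h1]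
      _ = t * z := (h.cz t htQ).symm

end Good

theorem comm_inv' {a b : G} (h : a * b = b * a) : b * a⁻¹ = a⁻¹ * b := by
  calc b * a⁻¹ = a⁻¹ * (a * b) * a⁻¹ := by group
    _ = a⁻¹ * (b * a) * a⁻¹ := by rw [h]
    _ = a⁻¹ * b := by group

section Main

variable {z t q₀ : G} {Q Q₁ : Subgroup G}

/-- every element of `Q` centralizes `t` or lies in `q₀ C_Q(t)` -/
theorem split (hz : Good z Q) (htQ : t ∈ Q) (hq₀t : q₀ * t * q₀⁻¹ = t * z) :
    ∀ q ∈ Q, q * t = t * q ∨ (q₀⁻¹ * q) * t = t * (q₀⁻¹ * q) := by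
  intro q hq
  rcases mem_zpowers_of_sq hz.z2 (hz.comm_mem q hq t htQ) with h1 | h1
  · left; exact comm_of_comm_one h1
  · right
    have h2 : q * t * q⁻¹ = t * z := by
      calc q * t * q⁻¹ = (q * t * q⁻¹ * t⁻¹) * t := by group
        _ = z * t := by rw [h1]
        _ = t * z := (hz.cz t htQ).symm
    have h3 : q * t = t * z * q := by rw [← h2]; group
    have h4 : q₀ * t = t * z * q₀ := by rw [← hq₀t]; group
    have h5 : q₀⁻¹ * (t * z) = t * q₀⁻¹ := by
      calc q₀⁻¹ * (t * z) = q₀⁻¹ * (t * z * q₀) * q₀⁻¹ := by group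
        _ = q₀⁻¹ * (q₀ * t) * q₀⁻¹ := by rw [h4]
        _ = t * q₀⁻¹ := by group
    calc q₀⁻¹ * q * t = q₀⁻¹ * (q * t) := by group
      _ = q₀⁻¹ * (t * z * q) := by rw [h3]
      _ = (q₀⁻¹ * (t * z)) * q := by group
      _ = t * q₀⁻¹ * q := by rw [h5]
      _ = t * (q₀⁻¹ * q) := by group

theorem central_of (hz : Good z Q) (htQ : t ∈ Q) (hq₀ : q₀ ∈ Q) (hq₀t : q₀ * t * q₀⁻¹ = t * z)
    {x : G} (hx : x ∈ Q) (hx2 : x * x = 1)
    (hxR : ∀ r ∈ Q, r * t = t * r → x * r = r * x) (hxq : x * q₀ = q₀ * x) : x ∈ zpowers z := by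
  apply hz.cen x hx hx2
  intro q hq
  rcases split hz htQ hq₀t q hq with h | h
  · exact hxR q hq h
  · have h1 := hxR (q₀⁻¹ * q) (Q.mul_mem (Q.inv_mem hq₀) hq) h
    calc x * q = x * q₀ * (q₀⁻¹ * q) := by group
      _ = q₀ * x * (q₀⁻¹ * q) := by rw [hxq]
      _ = q₀ * (x * (q₀⁻¹ * q)) := by group
      _ = q₀ * ((q₀⁻¹ * q) * x) := by rw [h1]
      _ = q * x := by group

theorem dichotomy (hz : Good z Q) (htQ : t ∈ Q) (ht2 : t * t = 1) (hq₀ : q₀ ∈ Q)
    (hq₀t : q₀ * t * q₀⁻¹ = t * z) {x : G} (hx : x ∈ Q) (hx2 : x * x = 1)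
    (hxR : ∀ r ∈ Q, r * t = t * r → x * r = r * x) :
    x ∈ zpowers z ∨ x * t ∈ zpowers z := by
  rcases mem_zpowers_of_sq hz.z2 (hz.comm_mem q₀ hq₀ x hx) with h1 | h1
  · left; exact central_of hz htQ hq₀ hq₀t hx hx2 hxR (comm_of_comm_one h1).symm
  · right
    have hxt : x * t = t * x := hxR t htQ rfl
    apply central_of hz htQ hq₀ hq₀t (Q.mul_mem hx htQ)
    · calc x * t * (x * t) = x * (t * x) * t := by group
        _ = x * (x * t) * t := by rw [hxt]
        _ = (x * x) * (t * t) := by group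
        _ = 1 := by rw [hx2, ht2, one_mul]
    · intro r hr hrt
      calc x * t * r = x * (t * r) := by group
        _ = x * (r * t) := by rw [hrt]
        _ = (x * r) * t := by group
        _ = (r * x) * t := by rw [hxR r hr hrt]
        _ = r * (x * t) := by group
    · have h2 : q₀ * x = z * x * q₀ := by rw [← h1]; group
      have h4 : q₀ * t = t * z * q₀ := by rw [← hq₀t]; group
      symm
      calc q₀ * (x * t) = (q₀ * x) * t := by group
        _ = z * x * q₀ * t := by rw [h2]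
        _ = z * x * (q₀ * t) := by group
        _ = z * x * (t * z * q₀) := by rw [h4]
        _ = (z * (x * t)) * z * q₀ := by group
        _ = ((x * t) * z) * z * q₀ := by rw [hz.cz (x * t) (Q.mul_mem hx htQ)]
        _ = (x * t) * (z * z) * q₀ := by group
        _ = x * t * q₀ := by rw [hz.z2, mul_one]

theorem main (hz : Good z Q) (ht : Good t Q₁) (htQ : t ∈ Q) (hne : t ≠ z)
    (hconj : ∀ w : G, w * z * w⁻¹ = t → ∀ q ∈ Q, w * q * w⁻¹ ∈ Q₁) : z ∈ Q₁ := by
  by_contra hzQ₁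
  have hzt : t * z = z * t := hz.cz t htQ
  have htz : t ∉ zpowers z := by
    intro h
    rcases mem_zpowers_of_sq hz.z2 h with h1 | h1
    · exact ht.z1 h1
    · exact hne h1
  obtain ⟨q₀, hq₀, hq₀t⟩ := hz.exists_conj htQ ht.z2 htz
  have hzinv := hz.zinv
  have htinv := ht.zinv
  have hI : ∀ x ∈ Q, x ∈ Q₁ → x ∈ zpowers t := by
    intro x hx hx1
    have hx2 : x * x = 1 := by
      rcases mem_zpowers_of_sq hz.z2 (hz.sq x hx) with h | h
      · exact h
      · exact absurd (h ▸ Q₁.mul_mem hx1 hx1) hzQ₁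
    have hxR : ∀ r ∈ Q, r * t = t * r → x * r = r * x := by
      intro r hr hrt
      rcases mem_zpowers_of_sq hz.z2 (hz.comm_mem x hx r hr) with h | h
      · exact comm_of_comm_one h
      · exfalso
        apply hzQ₁
        rw [← h]
        have h1 := ht.norm r hrt x⁻¹ (Q₁.inv_mem hx1)
        have h2 : x * r * x⁻¹ * r⁻¹ = x * (r * x⁻¹ * r⁻¹) := by group
        rw [h2]; exact Q₁.mul_mem hx1 h1
    rcases dichotomy hz htQ ht.z2 hq₀ hq₀t hx hx2 hxR with h | h
    · rcases mem_zpowers_of_sq hz.z2 h with h1 | h1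
      · rw [h1]; exact one_mem _
      · exact absurd (h1 ▸ hx1) hzQ₁
    · rcases mem_zpowers_of_sq hz.z2 h with h1 | h1
      · have : x = t := by
          calc x = x * t * t⁻¹ := by group
            _ = t := by rw [h1, one_mul, htinv]
        rw [this]; exact mem_zpowers t
      · exact absurd (h1 ▸ Q₁.mul_mem hx1 ht.zQ) hzQ₁
  have hRD : ∀ r ∈ Q, r * t = t * r → ∀ d ∈ Q₁, d * z = z * d →
      r * d * r⁻¹ * d⁻¹ ∈ zpowers t := by
    intro r hr hrt d hd hdz
    apply hI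
    · have h1 := hz.norm d hdz r⁻¹ (Q.inv_mem hr)
      have h2 : r * d * r⁻¹ * d⁻¹ = r * (d * r⁻¹ * d⁻¹) := by group
      rw [h2]; exact Q.mul_mem hr h1
    · exact Q₁.mul_mem (ht.norm r hrt d hd) (Q₁.inv_mem hd)
  have h3 : q₀ * z * q₀⁻¹ = z := by rw [hz.cz q₀ hq₀]; group
  have hB2 : ∀ y ∈ Q₁, z * y * z⁻¹ * y⁻¹ ∈ zpowers t → z * y = y * z := by
    intro y hy hyz
    rcases mem_zpowers_of_sq ht.z2 hyz with h | h
    · exact comm_of_comm_one h
    · exfalso
      apply hzQ₁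
      have hyt : y * t = t * y := ht.cz y hy
      have h1 : y * z * y⁻¹ = t * z := by
        calc y * z * y⁻¹ = (z⁻¹ * (z * y * z⁻¹ * y⁻¹))⁻¹ := by group
          _ = (z⁻¹ * t)⁻¹ := by rw [h]
          _ = t⁻¹ * z := by group
          _ = t * z := by rw [htinv]
      have h2 : y * t * y⁻¹ = t := by rw [hyt]; group
      have hw1 : (y * q₀ * y) * z * (y * q₀ * y)⁻¹ = t := by
        calc (y * q₀ * y) * z * (y * q₀ * y)⁻¹
            = y * (q₀ * (y * z * y⁻¹) * q₀⁻¹) * y⁻¹ := by group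
          _ = y * (q₀ * (t * z) * q₀⁻¹) * y⁻¹ := by rw [h1]
          _ = y * ((q₀ * t * q₀⁻¹) * (q₀ * z * q₀⁻¹)) * y⁻¹ := by group
          _ = y * ((t * z) * z) * y⁻¹ := by rw [hq₀t, h3]
          _ = y * (t * (z * z)) * y⁻¹ := by group
          _ = y * t * y⁻¹ := by rw [hz.z2, mul_one]
          _ = t := h2
      have hw2 : (y * q₀ * y) * t * (y * q₀ * y)⁻¹ = z := by
        calc (y * q₀ * y) * t * (y * q₀ * y)⁻¹
            = y * (q₀ * (y * t * y⁻¹) * q₀⁻¹) * y⁻¹ := by group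
          _ = y * (q₀ * t * q₀⁻¹) * y⁻¹ := by rw [h2]
          _ = y * (t * z) * y⁻¹ := by rw [hq₀t]
          _ = (y * t * y⁻¹) * (y * z * y⁻¹) := by group
          _ = t * (t * z) := by rw [h2, h1]
          _ = (t * t) * z := by group
          _ = z := by rw [ht.z2, one_mul]
      rw [← hw2]
      exact hconj _ hw1 t htQ
  have hzt' : z * t = t * z := hzt.symm
  have hU : ∀ x ∈ Q₁, z * x * z⁻¹ * x⁻¹ ∈ Q₁ ∧
      z * (z * x * z⁻¹ * x⁻¹) = (z * x * z⁻¹ * x⁻¹) * z := by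
    intro x hx
    have hu : z * x * z⁻¹ * x⁻¹ ∈ Q₁ := Q₁.mul_mem (ht.norm z hzt' x hx) (Q₁.inv_mem hx)
    refine ⟨hu, hB2 _ hu ?_⟩
    have hzu : z * (z * x * z⁻¹ * x⁻¹) * z⁻¹ = (z * x * z⁻¹ * x⁻¹)⁻¹ := by
      calc z * (z * x * z⁻¹ * x⁻¹) * z⁻¹ = (z * z) * x * z⁻¹ * x⁻¹ * z⁻¹ := by group
        _ = x * z⁻¹ * x⁻¹ * z⁻¹ := by rw [hz.z2, one_mul]
        _ = x * z * x⁻¹ * z⁻¹ := by rw [hzinv]
        _ = (z * x * z⁻¹ * x⁻¹)⁻¹ := by group
    rw [hzu, ← mul_inv_rev]
    exact inv_mem (ht.sq _ hu)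
  have hfinal : ∀ x ∈ Q₁, z * x * z⁻¹ * x⁻¹ ∈ zpowers t := by
    by_cases hA : ∃ r₀ ∈ Q, r₀ * t = t * r₀ ∧ r₀ * r₀ = z
    · obtain ⟨r₀, hr₀, hr₀t, hr₀2⟩ := hA
      have hV : ∀ x ∈ Q₁, r₀ * x * r₀⁻¹ * x⁻¹ ∈ Q₁ ∧
          z * (r₀ * x * r₀⁻¹ * x⁻¹) = (r₀ * x * r₀⁻¹ * x⁻¹) * z := by
        intro x hx
        have hv : r₀ * x * r₀⁻¹ * x⁻¹ ∈ Q₁ :=
          Q₁.mul_mem (ht.norm r₀ hr₀t x hx) (Q₁.inv_mem hx)
        refine ⟨hv, hB2 _ hv ?_⟩
        obtain ⟨hu, huz⟩ := hU x hx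
        have h1 : z * (r₀ * x * r₀⁻¹ * x⁻¹) * z⁻¹ * (r₀ * x * r₀⁻¹ * x⁻¹)⁻¹
            = (r₀ * (z * x * z⁻¹ * x⁻¹) * r₀⁻¹ * (z * x * z⁻¹ * x⁻¹)⁻¹) *
              ((z * x * z⁻¹ * x⁻¹) * (r₀ * x * r₀⁻¹ * x⁻¹) * (z * x * z⁻¹ * x⁻¹)⁻¹ *
                (r₀ * x * r₀⁻¹ * x⁻¹)⁻¹) := by
          rw [← hr₀2]
          simp only [mul_assoc, mul_inv_rev, inv_inv, inv_mul_cancel_left, mul_inv_cancel_left]
        rw [h1]
        exact mul_mem (hRD r₀ hr₀ hr₀t _ hu huz.symm) (ht.comm_mem _ hu _ hv)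
      intro x hx
      obtain ⟨hv, hvz⟩ := hV x hx
      have h1 : z * x * z⁻¹ * x⁻¹
          = (r₀ * (r₀ * x * r₀⁻¹ * x⁻¹) * r₀⁻¹ * (r₀ * x * r₀⁻¹ * x⁻¹)⁻¹) *
            ((r₀ * x * r₀⁻¹ * x⁻¹) * (r₀ * x * r₀⁻¹ * x⁻¹)) := by
        rw [← hr₀2]
        simp only [mul_assoc, mul_inv_rev, inv_inv, inv_mul_cancel_left, mul_inv_cancel_left]
      rw [h1]
      exact mul_mem (hRD r₀ hr₀ hr₀t _ hv hvz.symm) (ht.sq _ hv)
    · push Not at hA
      have hR2 : ∀ r ∈ Q, r * t = t * r → r * r = 1 := by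
        intro r hr hrt
        rcases mem_zpowers_of_sq hz.z2 (hz.sq r hr) with h | h
        · exact h
        · exact absurd h (hA r hr hrt)
      have hRab : ∀ a ∈ Q, a * t = t * a → ∀ b ∈ Q, b * t = t * b → a * b = b * a := by
        intro a ha hat b hb hbt
        have habt : (a * b) * t = t * (a * b) := by
          calc a * b * t = a * (b * t) := by group
            _ = a * (t * b) := by rw [hbt]
            _ = (a * t) * b := by group
            _ = (t * a) * b := by rw [hat]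
            _ = t * (a * b) := by group
        have h1 := hR2 _ (Q.mul_mem ha hb) habt
        have h2 := hR2 a ha hat
        have h3 := hR2 b hb hbt
        calc a * b = a * ((a * b) * (a * b)) * b := by rw [h1, mul_one]
          _ = (a * a) * (b * a) * (b * b) := by simp only [mul_assoc]
          _ = b * a := by rw [h2, h3, one_mul, mul_one]
      have hR4 : ∀ r ∈ Q, r * t = t * r → r ∈ zpowers z ∨ r * t ∈ zpowers z := by
        intro r hr hrt
        exact dichotomy hz htQ ht.z2 hq₀ hq₀t hr (hR2 r hr hrt)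
          (fun s hs hst => hRab r hr hrt s hs hst)
      have hDQ : ∀ d ∈ Q₁, d * z = z * d → d ∈ Q := by
        intro d hd hdz
        have hdt : d * t = t * d := ht.cz d hd
        have hdR : ∀ r ∈ Q, r * t = t * r → d * r = r * d := by
          intro r hr hrt
          rcases hR4 r hr hrt with h | h
          · exact comm_zp hz.z2 hdz h
          · have h1 := comm_zp hz.z2 hdz h
            have hdt' : d * t⁻¹ = t⁻¹ * d := by rw [htinv]; exact hdt
            calc d * r = d * (r * t) * t⁻¹ := by group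
              _ = (r * t) * d * t⁻¹ := by rw [h1]
              _ = (r * t) * (d * t⁻¹) := by group
              _ = (r * t) * (t⁻¹ * d) := by rw [hdt']
              _ = r * d := by group
        obtain ⟨c, hcdef⟩ : ∃ c, c = d * q₀ * d⁻¹ * q₀⁻¹ := ⟨_, rfl⟩
        have hcQ : c ∈ Q := by
          rw [hcdef]; exact Q.mul_mem (hz.norm d hdz q₀ hq₀) (Q.inv_mem hq₀)
        have E3 : q₀ * (t * z) * q₀⁻¹ = t := by
          calc q₀ * (t * z) * q₀⁻¹ = (q₀ * t * q₀⁻¹) * (q₀ * z * q₀⁻¹) := by group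
            _ = (t * z) * z := by rw [hq₀t, h3]
            _ = t * (z * z) := by group
            _ = t := by rw [hz.z2, mul_one]
        have E1 : q₀⁻¹ * t * q₀ = t * z := by
          calc q₀⁻¹ * t * q₀ = q₀⁻¹ * (q₀ * (t * z) * q₀⁻¹) * q₀ := by rw [E3]
            _ = t * z := by group
        have hdtz : d * (t * z) = (t * z) * d := by
          calc d * (t * z) = (d * t) * z := by group
            _ = (t * d) * z := by rw [hdt]
            _ = t * (d * z) := by group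
            _ = t * (z * d) := by rw [hdz]
            _ = (t * z) * d := by group
        have E2 : d⁻¹ * (t * z) * d = t * z := by
          calc d⁻¹ * (t * z) * d = d⁻¹ * ((t * z) * d) := by group
            _ = d⁻¹ * (d * (t * z)) := by rw [hdtz]
            _ = t * z := by group
        have E4 : d * t * d⁻¹ = t := by rw [hdt]; group
        have hct : c * t = t * c := by
          have h5 : c * t * c⁻¹ = t := by
            rw [hcdef]
            calc d * q₀ * d⁻¹ * q₀⁻¹ * t * (d * q₀ * d⁻¹ * q₀⁻¹)⁻¹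
                = d * (q₀ * (d⁻¹ * (q₀⁻¹ * t * q₀) * d) * q₀⁻¹) * d⁻¹ := by group
              _ = t := by rw [E1, E2, E3, E4]
          calc c * t = (c * t * c⁻¹) * c := by group
            _ = t * c := by rw [h5]
        have hcz : c ∈ zpowers z := by
          rcases hR4 c hcQ hct with h | h
          · exact h
          · exfalso
            apply hz.z1
            obtain ⟨ζ, hζ, hcζ⟩ : ∃ ζ ∈ zpowers z, c = ζ * t :=
              ⟨c * t, h, by rw [mul_assoc, ht.z2, mul_one]⟩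
            have hζq : q₀ * ζ = ζ * q₀ := hz.czp hζ q₀ hq₀
            have hζt : t * ζ = ζ * t := hz.czp hζ t htQ
            have hζζ := zp_sq hz.z2 hζ
            have hk1 : c * (q₀ * c * q₀⁻¹) = z := by
              calc c * (q₀ * c * q₀⁻¹) = ζ * t * (q₀ * (ζ * t) * q₀⁻¹) := by rw [hcζ]
                _ = ζ * t * ((q₀ * ζ) * t * q₀⁻¹) := by group
                _ = ζ * t * ((ζ * q₀) * t * q₀⁻¹) := by rw [hζq]
                _ = ζ * (t * ζ) * (q₀ * t * q₀⁻¹) := by group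
                _ = ζ * (ζ * t) * (t * z) := by rw [hζt, hq₀t]
                _ = (ζ * ζ) * (t * t) * z := by simp only [mul_assoc]
                _ = z := by rw [hζζ, ht.z2, one_mul, one_mul]
            have hdqq := comm_zp hz.z2 hdz (hz.sq q₀ hq₀)
            have hk2 : c * (q₀ * c * q₀⁻¹) = 1 := by
              rw [hcdef]
              calc d * q₀ * d⁻¹ * q₀⁻¹ * (q₀ * (d * q₀ * d⁻¹ * q₀⁻¹) * q₀⁻¹)
                  = (d * (q₀ * q₀)) * d⁻¹ * q₀⁻¹ * q₀⁻¹ := by
                    simp only [mul_assoc, inv_mul_cancel_left]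
                _ = ((q₀ * q₀) * d) * d⁻¹ * q₀⁻¹ * q₀⁻¹ := by rw [hdqq]
                _ = 1 := by simp [mul_assoc]
            rw [← hk1, hk2]
        apply hz.stab d hdz
        intro q hq
        rcases split hz htQ hq₀t q hq with h | h
        · have h5 := hdR q hq h
          have h1 : d * q * d⁻¹ * q⁻¹ = 1 := by rw [h5]; group
          rw [h1]; exact one_mem _
        · have h1 := comm_inv' (hdR _ (Q.mul_mem (Q.inv_mem hq₀) hq) h)
          have h2 : d * q * d⁻¹ * q⁻¹ = c := by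
            rw [hcdef]
            calc d * q * d⁻¹ * q⁻¹ = d * q₀ * ((q₀⁻¹ * q) * d⁻¹) * q⁻¹ := by group
              _ = d * q₀ * (d⁻¹ * (q₀⁻¹ * q)) * q⁻¹ := by rw [h1]
              _ = d * q₀ * d⁻¹ * q₀⁻¹ := by group
          rw [h2]; exact hcz
      intro x hx
      obtain ⟨hu, huz⟩ := hU x hx
      exact hI _ (hDQ _ hu huz.symm) hu
  exact hzQ₁ (ht.stab z hzt' hfinal)

end Main

theorem Good.map {z : G} {Q : Subgroup G} (h : Good z Q) (φ : G ≃* G) :
    Good (φ z) (Q.map φ.toMonoidHom) := by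
  have hzp : ∀ c : G, c ∈ zpowers (φ z) ↔ φ.symm c ∈ zpowers z := by
    intro c
    have h1 : zpowers (φ z) = (zpowers z).map φ.toMonoidHom :=
      (MonoidHom.map_zpowers φ.toMonoidHom z).symm
    rw [h1, mem_map_equiv]
  have hcomm : ∀ c : G, c * φ z = φ z * c → φ.symm c * z = z * φ.symm c := by
    intro c hc
    have := congrArg φ.symm hc
    simpa using this
  refine ⟨?_, ?_, ?_, ?_, ?_, ?_, ?_, ?_⟩
  · rw [← map_mul, h.z2, map_one]
  · exact (map_ne_one_iff φ φ.injective).mpr h.z1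
  · rw [mem_map_equiv, MulEquiv.symm_apply_apply]; exact h.zQ
  · intro q hq
    rw [mem_map_equiv] at hq
    apply φ.symm.injective
    have := h.cz _ hq
    simpa using this
  · intro c hc q hq
    rw [mem_map_equiv] at hq ⊢
    have := h.norm _ (hcomm c hc) _ hq
    simpa using this
  · intro q hq
    rw [mem_map_equiv] at hq
    rw [hzp]
    have := h.sq _ hq
    simpa using this
  · intro x hx hx2 hxc
    rw [mem_map_equiv] at hx
    rw [hzp]
    apply h.cen _ hx
    · have := congrArg φ.symm hx2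
      simpa using this
    · intro q hq
      have h1 := hxc (φ q) (by rw [mem_map_equiv, MulEquiv.symm_apply_apply]; exact hq)
      have := congrArg φ.symm h1
      simpa using this
  · intro k hk hkq
    rw [mem_map_equiv]
    apply h.stab _ (hcomm k hk)
    intro q hq
    have h1 := hkq (φ q) (by rw [mem_map_equiv, MulEquiv.symm_apply_apply]; exact hq)
    rw [hzp] at h1
    simpa using h1

theorem good_QQ {G : Type*} [Group G] [Finite G] (z : G) (hz : orderOf z = 2)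
    (hQ : Cfsg.IsOfSymplecticType ↥(FsC z)) (h4 : ∀ q ∈ QQ z, q ^ 4 = 1) : Good z (QQ z) := by
  have hz2 : z * z = 1 := by rw [← pow_two, ← hz, pow_orderOf_eq_one]
  have hz1 : z ≠ 1 := by
    rintro rfl; rw [orderOf_one] at hz; omega
  let j : ↥(FsC z) →* G := (CC z).subtype.comp (FsC z).subtype
  have hj : Function.Injective j :=
    (CC z).subtype_injective.comp (FsC z).subtype_injective
  have hjQ : ∀ e : ↥(FsC z), j e ∈ QQ z := fun e => ⟨e.1, e.2, rfl⟩
  have hQj : ∀ q ∈ QQ z, ∃ e : ↥(FsC z), j e = q := by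
    rintro _ ⟨c, hc, rfl⟩
    exact ⟨⟨c, hc⟩, rfl⟩
  let zE : ↥(FsC z) := ⟨zC z, zC_mem_FsC z hz⟩
  have hjz : j zE = z := rfl
  have hzEc : zE ∈ center ↥(FsC z) := by
    rw [mem_center_iff]
    intro x
    apply Subtype.ext
    exact mem_center_iff.mp (zC_mem_center z) x
  have hzEord : orderOf zE = 2 := by
    rw [← hz]; exact (orderOf_injective j hj zE).symm
  have hzp : zpowers z = (zpowers zE).map j := (MonoidHom.map_zpowers j zE).symm
  have h4' : ∀ e : ↥(FsC z), e ^ 4 = 1 := by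
    intro e
    apply hj
    rw [map_pow, map_one]
    exact h4 _ (hjQ e)
  refine ⟨hz2, hz1, z_mem_QQ z hz, ?_, ?_, ?_, ?_, ?_⟩
  · intro q hq
    exact mem_centralizer_singleton_iff.mp (QQ_le_CC z hq)
  · intro c hc q hq
    exact conj_mem_QQ z (mem_centralizer_singleton_iff.mpr hc) hq
  · intro q hq
    obtain ⟨e, rfl⟩ := hQj q hq
    rw [hzp, ← map_mul, mem_map_iff_mem hj, ← pow_two]
    exact sq_mem_of_symp hQ h4' zE hzEc hzEord e
  · intro x hx hx2 hxc
    obtain ⟨e, rfl⟩ := hQj x hx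
    rw [hzp, mem_map_iff_mem hj]
    have he2 : e * e = 1 := by
      apply hj; rw [map_mul, map_one]; exact hx2
    have hec : e ∈ center ↥(FsC z) := by
      rw [mem_center_iff]
      intro y
      apply hj
      rw [map_mul, map_mul]
      exact (hxc _ (hjQ y)).symm
    by_cases he1 : e = 1
    · rw [he1]; exact one_mem _
    · have hord : orderOf e = 2 := by
        have hp2 : Fact (Nat.Prime 2) := ⟨Nat.prime_two⟩
        exact orderOf_eq_prime (by rw [pow_two]; exact he2) he1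
      rw [symp_involution_unique hQ zE hzEc hzEord (center ↥(FsC z)) inferInstance inferInstance
        e hec hord]
      exact mem_zpowers zE
  · intro k hk hkq
    have hkC : k ∈ CC z := mem_centralizer_singleton_iff.mpr hk
    refine ⟨⟨k, hkC⟩, ?_, rfl⟩
    apply mem_genFitting_of_stab hQ.1 (zC z) (zC_mem_center z) (Subtype.ext hz2)
    intro q hq
    have h1 := hkq q ⟨q, hq, rfl⟩
    rcases mem_zpowers_of_sq hz2 h1 with h | h
    · have : (⟨k, hkC⟩ : ↥(CC z)) * q * (⟨k, hkC⟩ : ↥(CC z))⁻¹ * q⁻¹ = 1 := Subtype.ext h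
      rw [this]; exact one_mem _
    · have : (⟨k, hkC⟩ : ↥(CC z)) * q * (⟨k, hkC⟩ : ↥(CC z))⁻¹ * q⁻¹ = zC z := Subtype.ext h
      rw [this]; exact mem_zpowers _

theorem mem_closure_pair {z t u : G} (hz2 : z * z = 1) (ht2 : t * t = 1) (hzt : z * t = t * z)
    (hu : u ∈ closure ({z, t} : Set G)) : u = 1 ∨ u = z ∨ u = t ∨ u = z * t := by
  have htinv : t⁻¹ = t := inv_eq_of_mul_eq_one_left ht2
  have hc : ∀ v ∈ zpowers z, t * v = v * t := fun v hv => comm_zp hz2 hzt.symm hv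
  have hle : closure ({z, t} : Set G) ≤ adj (zpowers z) t ht2 hc := by
    rw [closure_le]
    rintro x (rfl | rfl)
    · exact le_adj _ _ _ _ (mem_zpowers _)
    · exact self_mem_adj _ _ _ _
  rcases hle hu with h | h
  · rcases mem_zpowers_of_sq hz2 h with h1 | h1
    · exact Or.inl h1
    · exact Or.inr (Or.inl h1)
  · rcases mem_zpowers_of_sq hz2 h with h1 | h1
    · right; right; left
      calc u = u * t * t⁻¹ := by group
        _ = t := by rw [h1, one_mul, htinv]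
    · right; right; right
      calc u = u * t * t⁻¹ := by group
        _ = z * t := by rw [h1, htinv]

theorem conj_mul (a b u : G) : (a * b) * u * (a * b)⁻¹ = a * (b * u * b⁻¹) * a⁻¹ := by group

theorem conj_prod (a u v : G) : a * (u * v) * a⁻¹ = (a * u * a⁻¹) * (a * v * a⁻¹) := by group

/-- Let G be a finite group and let z be an involution of G such that Q, the generalized Fitting subgroup of the centralizer C of z, is a 2-group of symplectic type (every characteristic abelian subgroup of Q is cyclic); suppose every element of Q has order dividing 4. Let g ∈ G with z' = g z g⁻¹ ≠ z and z' ∈ Q. Then z lies in the conjugate g Q g⁻¹, and the subgroup X generated by Q and g Q g⁻¹ induces every automorphism of the four-group generated by z and z': for any two distinct non-identity elements u, v of that four-group there is x ∈ X with x z x⁻¹ = u and x z' x⁻¹ = v. -/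
theorem result {G : Type*} [Group G] [Finite G] (z : G) (hz : orderOf z = 2) (hQ : Cfsg.IsOfSymplecticType ↥(Cfsg.generalizedFittingSubgroup ↥(Subgroup.centralizer ({z} : Set G))))
    (h4 : ∀ q ∈ (Cfsg.generalizedFittingSubgroup ↥(Subgroup.centralizer ({z} : Set G))).map (Subgroup.centralizer ({z} : Set G)).subtype, q ^ 4 = 1) (g : G) (hne : g * z * g⁻¹ ≠ z) (hin : g * z * g⁻¹ ∈ (Cfsg.generalizedFittingSubgroup ↥(Subgroup.centralizer ({z} : Set G))).map (Subgroup.centralizer ({z} : Set G)).subtype) :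
    z ∈ ((Cfsg.generalizedFittingSubgroup ↥(Subgroup.centralizer ({z} : Set G))).map (Subgroup.centralizer ({z} : Set G)).subtype).map (MulAut.conj g).toMonoidHom ∧
      ∀ u ∈ Subgroup.closure ({z, g * z * g⁻¹} : Set G), ∀ v ∈ Subgroup.closure ({z, g * z * g⁻¹} : Set G),
        u ≠ 1 → v ≠ 1 → u ≠ v →
          ∃ x ∈ (Cfsg.generalizedFittingSubgroup ↥(Subgroup.centralizer ({z} : Set G))).map (Subgroup.centralizer ({z} : Set G)).subtype ⊔ ((Cfsg.generalizedFittingSubgroup ↥(Subgroup.centralizer ({z} : Set G))).map (Subgroup.centralizer ({z} : Set G)).subtype).map (MulAut.conj g).toMonoidHom, x * z * x⁻¹ = u ∧ x * (g * z * g⁻¹) * x⁻¹ = v := by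
  have hGz : Good z (QQ z) := good_QQ z hz hQ h4
  have hGt : Good (g * z * g⁻¹) ((QQ z).map (MulAut.conj g).toMonoidHom) := hGz.map (MulAut.conj g)
  have hconj : ∀ w : G, w * z * w⁻¹ = g * z * g⁻¹ → ∀ q ∈ QQ z,
      w * q * w⁻¹ ∈ (QQ z).map (MulAut.conj g).toMonoidHom := by
    intro w hw q hq
    have h1 : (g⁻¹ * w) * z = z * (g⁻¹ * w) := by
      calc g⁻¹ * w * z = g⁻¹ * (w * z * w⁻¹) * w := by group
        _ = g⁻¹ * (g * z * g⁻¹) * w := by rw [hw]
        _ = z * (g⁻¹ * w) := by group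
    refine ⟨_, hGz.norm _ h1 q hq, ?_⟩
    change g * ((g⁻¹ * w) * q * (g⁻¹ * w)⁻¹) * g⁻¹ = w * q * w⁻¹
    group
  have hzQ₁ : z ∈ (QQ z).map (MulAut.conj g).toMonoidHom := main hGz hGt hin hne hconj
  refine ⟨hzQ₁, ?_⟩
  obtain ⟨t, htdef⟩ : ∃ t, t = g * z * g⁻¹ := ⟨_, rfl⟩
  rw [← htdef] at hGt hne hin ⊢
  have hz2 := hGz.z2
  have ht2 := hGt.z2
  have htz : t * z = z * t := hGz.cz t hin
  have htn : t ∉ zpowers z := by
    intro h
    rcases mem_zpowers_of_sq hz2 h with h1 | h1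
    · exact hGt.z1 h1
    · exact hne h1
  have hzn : z ∉ zpowers t := by
    intro h
    rcases mem_zpowers_of_sq ht2 h with h1 | h1
    · exact hGz.z1 h1
    · exact hne h1.symm
  obtain ⟨q₀, hq₀, A2⟩ := hGz.exists_conj hin ht2 htn
  obtain ⟨q₁, hq₁, B1⟩ := hGt.exists_conj hzQ₁ hz2 hzn
  have A1 : q₀ * z * q₀⁻¹ = z := by rw [hGz.cz q₀ hq₀]; group
  have B2 : q₁ * t * q₁⁻¹ = t := by rw [hGt.cz q₁ hq₁]; group
  have e1 : z * (t * z) = t := by
    rw [htz, ← mul_assoc, hz2, one_mul]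
  have e2 : t * (z * t) = z := by
    rw [← htz, ← mul_assoc, ht2, one_mul]
  have hq₀X : q₀ ∈ QQ z ⊔ (QQ z).map (MulAut.conj g).toMonoidHom := mem_sup_left hq₀
  have hq₁X : q₁ ∈ QQ z ⊔ (QQ z).map (MulAut.conj g).toMonoidHom := mem_sup_right hq₁
  intro u hu v hv hu1 hv1 huv
  rcases mem_closure_pair hz2 ht2 htz.symm hu with rfl | rfl | rfl | rfl
  · exact absurd rfl hu1
  · rcases mem_closure_pair hz2 ht2 htz.symm hv with rfl | rfl | rfl | rfl
    · exact absurd rfl hv1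
    · exact absurd rfl huv
    · exact ⟨1, one_mem _, by group, by group⟩
    · exact ⟨q₀, hq₀X, A1, by rw [A2, htz]⟩
  · rcases mem_closure_pair hz2 ht2 htz.symm hv with rfl | rfl | rfl | rfl
    · exact absurd rfl hv1
    · refine ⟨q₁ * q₀ * q₁, mul_mem (mul_mem hq₁X hq₀X) hq₁X, ?_, ?_⟩
      · rw [conj_mul, conj_mul, B1, conj_prod q₀, A1, A2, e1, B2]
      · rw [conj_mul, conj_mul, B2, A2, conj_prod q₁, B2, B1, e2]
    · exact absurd rfl huv
    · refine ⟨q₀ * q₁, mul_mem hq₀X hq₁X, ?_, ?_⟩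
      · rw [conj_mul, B1, conj_prod q₀, A1, A2, e1]
      · rw [conj_mul, B2, A2, htz]
  · rcases mem_closure_pair hz2 ht2 htz.symm hv with rfl | rfl | rfl | rfl
    · exact absurd rfl hv1
    · refine ⟨q₁ * q₀, mul_mem hq₁X hq₀X, ?_, ?_⟩
      · rw [conj_mul, A1, B1]
      · rw [conj_mul, A2, conj_prod q₁, B2, B1, e2]
    · exact ⟨q₁, hq₁X, B1, B2⟩
    · exact absurd rfl huv

end Cfsg.Agent.S1774
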