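import Cfsg.Statements.S1775
-- import your own Cfsg.Agent.* helpers here
import Cfsg.Agent.Lib.Helper27.BProp

set_option autoImplicit false
open Cfsg

namespace Cfsg.Agent.S1775

/-- Let G be a finite group whose generalized Fitting subgroup is a non-abelian simple group and in which every proper section (every quotient H/N of a proper subgroup H, or of G by a nontrivial normal subgroup) has the B-property. Let x, y be commuting involutions, let D be the intersection of the 2-layer of C_G(x) with C_G(y), and let J be a 2-component of D. Write Q for the quotient of C_G(y) by its largest normal odd-order subgroup. Then (i) the image of J in Q is a component of the centralizer in Q of the image of x; and (ii) for every J-invariant subgroup E of odd order of C_G(x) ∩ C_G(y), the commutator subgroup [J, E] lies in the largest normal odd-order subgroup of C_G(y). -/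
theorem result {G : Type*} [Group G] [Finite G]
    (hF : IsSimpleGroup ↥(Cfsg.generalizedFittingSubgroup G)) (hF' : ¬ IsMulCommutative ↥(Cfsg.generalizedFittingSubgroup G))
    (hsec : ∀ (H : Subgroup G) (N : Subgroup ↥H) [N.Normal], (H ≠ ⊤ ∨ N ≠ ⊥) → Cfsg.HasBProperty (↥H ⧸ N))
    (x y : G) (hx : orderOf x = 2) (hy : orderOf y = 2) (hxy : x * y = y * x)
    (J : Subgroup ↥((Cfsg.pLayer 2 ↥(Subgroup.centralizer ({x} : Set G))).map (Subgroup.centralizer ({x} : Set G)).subtype ⊓ Subgroup.centralizer ({y} : Set G)))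
    (hJ : Cfsg.IsPComponent 2 J) :
    Cfsg.IsComponent
        ((((J.map (Subgroup.subtype _)).subgroupOf (Subgroup.centralizer ({y} : Set G))).map (QuotientGroup.mk' (Cfsg.oddCore ↥(Subgroup.centralizer ({y} : Set G))))).subgroupOf
          (Subgroup.centralizer ({(QuotientGroup.mk' (Cfsg.oddCore ↥(Subgroup.centralizer ({y} : Set G))) ⟨x, Subgroup.mem_centralizer_singleton_iff.mpr hxy⟩ : ↥(Subgroup.centralizer ({y} : Set G)) ⧸ Cfsg.oddCore ↥(Subgroup.centralizer ({y} : Set G)))} : Set _))) ∧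
      ∀ E : Subgroup G, E ≤ Subgroup.centralizer ({x} : Set G) ⊓ Subgroup.centralizer ({y} : Set G) → Odd (Nat.card ↥E) →
        (∀ j ∈ J.map (Subgroup.subtype _), ∀ e ∈ E, j * e * j⁻¹ ∈ E) →
          ⁅J.map (Subgroup.subtype _), E⁆ ≤ (Cfsg.oddCore ↥(Subgroup.centralizer ({y} : Set G))).map (Subgroup.centralizer ({y} : Set G)).subtype := by
  have hF2 : Fact (Nat.Prime 2) := ⟨Nat.prime_two⟩
  have hD : (Cfsg.pLayer 2 ↥(Subgroup.centralizer ({x} : Set G))).map (Subgroup.centralizer ({x} : Set G)).subtype ⊓ Subgroup.centralizer ({y} : Set G) ≤ Subgroup.centralizer ({x} : Set G) ⊓ Subgroup.centralizer ({y} : Set G) :=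
    inf_le_inf (Subgroup.map_subtype_le _) le_rfl
  have hLn : Subgroup.centralizer ({x} : Set G) ≤ Subgroup.normalizer (((Cfsg.pLayer 2 ↥(Subgroup.centralizer ({x} : Set G))).map (Subgroup.centralizer ({x} : Set G)).subtype : Subgroup G) : Set G) := by
    have hn : (Cfsg.pLayer 2 ↥(Subgroup.centralizer ({x} : Set G))).Normal :=
      Cfsg.Agent.Lib.Helper29.pLayer_normal 2
    have h1 := Subgroup.le_normalizer_map (H := Cfsg.pLayer 2 ↥(Subgroup.centralizer ({x} : Set G)))
      (Subgroup.centralizer ({x} : Set G)).subtype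
    rw [Subgroup.normalizer_eq_top, ← MonoidHom.range_eq_map, Subgroup.range_subtype] at h1
    exact h1
  have hDn : Subgroup.centralizer ({x} : Set G) ⊓ Subgroup.centralizer ({y} : Set G) ≤ Subgroup.normalizer (((Cfsg.pLayer 2 ↥(Subgroup.centralizer ({x} : Set G))).map (Subgroup.centralizer ({x} : Set G)).subtype ⊓ Subgroup.centralizer ({y} : Set G) : Subgroup G) : Set G) :=
    le_trans (inf_le_inf hLn Subgroup.le_normalizer) Subgroup.inf_normalizer_le_normalizer_inf
  have hJ0 : Cfsg.IsPComponentOf 2 (J.map (Subgroup.subtype _)) ((Cfsg.pLayer 2 ↥(Subgroup.centralizer ({x} : Set G))).map (Subgroup.centralizer ({x} : Set G)).subtype ⊓ Subgroup.centralizer ({y} : Set G)) := by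
    refine ⟨Subgroup.map_subtype_le _, ?_⟩
    rw [Subgroup.subgroupOf, Subgroup.comap_map_eq_self_of_injective (Subgroup.subtype_injective _)]
    exact hJ
  have hJle := hJ0.1.trans hD
  have hx2 : x ^ 2 = 1 := by rw [← hx]; exact pow_orderOf_eq_one x
  have h1 := Cfsg.Agent.Lib.Helper27.isPComponent_map_cxyMap hx2 hxy hD hDn hJ0
  -- `C(y)` is proper
  have hCy : Subgroup.centralizer ({y} : Set G) ≠ ⊤ := by
    intro htop
    have hyc : ∀ g : G, g * y = y * g := by
      intro g
      have : g ∈ Subgroup.centralizer ({y} : Set G) := by rw [htop]; exact Subgroup.mem_top g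
      exact (Subgroup.mem_centralizer_singleton_iff.1 this)
    have hyF : y ∈ Cfsg.generalizedFittingSubgroup G := by
      apply Cfsg.Agent.Lib.Helper28.centralizer_genFitting_le
      rw [Subgroup.mem_centralizer_iff]
      intro g _
      exact hyc g
    have hcen : (⟨y, hyF⟩ : ↥(Cfsg.generalizedFittingSubgroup G)) ∈ Subgroup.center ↥(Cfsg.generalizedFittingSubgroup G) := by
      rw [Subgroup.mem_center_iff]
      intro g
      exact Subtype.ext (hyc g)
    rcases (inferInstance : (Subgroup.center ↥(Cfsg.generalizedFittingSubgroup G)).Normal).eq_bot_or_eq_top with h | h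
    · rw [h, Subgroup.mem_bot] at hcen
      have : y = 1 := congrArg Subtype.val hcen
      rw [this, orderOf_one] at hy
      omega
    · apply hF'
      refine ⟨⟨fun a b => ?_⟩⟩
      have : b ∈ Subgroup.center ↥(Cfsg.generalizedFittingSubgroup G) := by rw [h]; exact Subgroup.mem_top b
      exact (Subgroup.mem_center_iff.1 this a)
  have hB := hsec (Subgroup.centralizer ({y} : Set G)) (Cfsg.oddCore ↥(Subgroup.centralizer ({y} : Set G))) (Or.inl hCy)
  have hxb : orderOf (QuotientGroup.mk' (Cfsg.oddCore ↥(Subgroup.centralizer ({y} : Set G))) ⟨x, Subgroup.mem_centralizer_singleton_iff.mpr hxy⟩ : ↥(Subgroup.centralizer ({y} : Set G)) ⧸ Cfsg.oddCore ↥(Subgroup.centralizer ({y} : Set G))) = 2 := by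
    apply orderOf_eq_prime
    · rw [← map_pow]
      have : (⟨x, Subgroup.mem_centralizer_singleton_iff.mpr hxy⟩ : ↥(Subgroup.centralizer ({y} : Set G))) ^ 2 = 1 := Subtype.ext hx2
      rw [this, map_one]
    · intro h
      rw [← MonoidHom.mem_ker, QuotientGroup.ker_mk'] at h
      have h3 : orderOf (⟨⟨x, Subgroup.mem_centralizer_singleton_iff.mpr hxy⟩, h⟩ : ↥(Cfsg.oddCore ↥(Subgroup.centralizer ({y} : Set G)))) ∣ Nat.card ↥(Cfsg.oddCore ↥(Subgroup.centralizer ({y} : Set G))) := orderOf_dvd_natCard _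
      rw [← Subgroup.orderOf_coe, ← Subgroup.orderOf_coe] at h3
      change orderOf x ∣ _ at h3
      rw [hx] at h3
      exact Cfsg.Agent.Lib.Helper28.pPrimeCore_not_dvd (G := ↥(Subgroup.centralizer ({y} : Set G))) 2 h3
  have hB2 := hB _ hxb
  rw [show Cfsg.oddCore (↥(Subgroup.centralizer ({y} : Set G)) ⧸ Cfsg.oddCore ↥(Subgroup.centralizer ({y} : Set G))) = ⊥ from Cfsg.Agent.Lib.Helper29.pPrimeCore_quotient_eq_bot 2, le_bot_iff,
    Subgroup.map_eq_bot_iff_of_injective _ (Subgroup.subtype_injective _)] at hB2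
  have hq := (Cfsg.Agent.Lib.Helper29.IsPComponent.quasisimple_iff h1).2 (by
    rw [Cfsg.Agent.Lib.Helper29.IsPComponent.core_eq h1, eq_bot_iff, ← hB2]
    exact Subgroup.commutator_mono (Cfsg.Agent.Lib.Helper29.IsPComponent.le_pLayer h1) inf_le_left)
  have hcomp : Cfsg.IsComponent _ := ⟨h1.1, hq⟩
  refine ⟨by rw [← Cfsg.Agent.Lib.Helper27.map_cxyMap_eq hxy hJle]; exact hcomp, ?_⟩
  intro E hE hodd hn
  have hEc : (Nat.card ((E.subgroupOf (Subgroup.centralizer ({x} : Set G) ⊓ Subgroup.centralizer ({y} : Set G))).map (Cfsg.Agent.Lib.Helper27.cxyMap 2 x y hxy))).Coprime 2 := by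
    refine Nat.Coprime.coprime_dvd_left (Subgroup.card_map_dvd _ _) ?_
    rw [Nat.card_congr (Subgroup.subgroupOfEquivOfLe hE).toEquiv]
    exact Nat.coprime_two_right.2 hodd
  have hnb : (((J.map (Subgroup.subtype _)).subgroupOf (Subgroup.centralizer ({x} : Set G) ⊓ Subgroup.centralizer ({y} : Set G))).map (Cfsg.Agent.Lib.Helper27.cxyMap 2 x y hxy)) ≤ Subgroup.normalizer (((E.subgroupOf (Subgroup.centralizer ({x} : Set G) ⊓ Subgroup.centralizer ({y} : Set G))).map (Cfsg.Agent.Lib.Helper27.cxyMap 2 x y hxy) : Subgroup _) : Set _) := by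
    refine le_trans (Subgroup.map_mono ?_) (Subgroup.le_normalizer_map _)
    intro j hj
    apply Cfsg.Agent.Lib.Helper56.mem_normalizer_of_map_le
    rintro _ ⟨e, he, rfl⟩
    exact hn j hj e he
  have hc := Cfsg.Agent.Lib.Helper27.IsComponent_comm_eq_bot_of_coprime hcomp
    (Cfsg.Agent.Lib.Helper29.IsPComponent.dvd_card h1) hEc hnb
  have hcent := Subgroup.commutator_eq_bot_iff_le_centralizer.1 hc
  rw [Subgroup.commutator_comm, Subgroup.commutator_le]
  intro e he j hj
  rw [commutatorElement_def]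
  have h5 := Subgroup.mem_centralizer_iff.1
    (hcent (Subgroup.mem_map_of_mem (Cfsg.Agent.Lib.Helper27.cxyMap 2 x y hxy)
      (show (⟨e, hE he⟩ : ↥(Subgroup.centralizer ({x} : Set G) ⊓ Subgroup.centralizer ({y} : Set G))) ∈ E.subgroupOf _ from he))) _
    (Subgroup.mem_map_of_mem (Cfsg.Agent.Lib.Helper27.cxyMap 2 x y hxy)
      (show (⟨j, hJle hj⟩ : ↥(Subgroup.centralizer ({x} : Set G) ⊓ Subgroup.centralizer ({y} : Set G))) ∈ (J.map (Subgroup.subtype _)).subgroupOf _ from hj))
  have h6 : Cfsg.Agent.Lib.Helper27.cxyMap 2 x y hxy ((⟨e, hE he⟩ : ↥(Subgroup.centralizer ({x} : Set G) ⊓ Subgroup.centralizer ({y} : Set G))) * ⟨j, hJle hj⟩ * (⟨e, hE he⟩)⁻¹ * (⟨j, hJle hj⟩)⁻¹) = 1 := by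
    simp only [map_mul, map_inv]
    rw [← h5]; group
  have h7 := congrArg Subtype.val h6
  refine ⟨Subgroup.inclusion inf_le_right ((⟨e, hE he⟩ : ↥(Subgroup.centralizer ({x} : Set G) ⊓ Subgroup.centralizer ({y} : Set G))) * ⟨j, hJle hj⟩ * (⟨e, hE he⟩)⁻¹ * (⟨j, hJle hj⟩)⁻¹), ?_, rfl⟩
  rw [SetLike.mem_coe, ← QuotientGroup.ker_mk' (Cfsg.oddCore ↥(Subgroup.centralizer ({y} : Set G)))]
  exact h7

end Cfsg.Agent.S1775
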