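import Cfsg.Statements.S1780
-- import your own Cfsg.Agent.* helpers here

set_option autoImplicit false
open Cfsg

namespace Cfsg.Agent.S1780

/-- Let A be a finite abelian 2-group and t an automorphism of A whose order is a power of 2. If every element of A fixed by t² is fixed by t, then t fixes every element of A. -/
theorem result {A : Type*} [CommGroup A] [Finite A]
    (hA : IsPGroup 2 A) (t : MulAut A) (ht : ∃ k : ℕ, orderOf t = 2 ^ k) (hC : ∀ a : A, t (t a) = a → t a = a) :
    ∀ a : A, t a = a := by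
  classical
  obtain ⟨k, hk⟩ := ht
  by_contra hcon
  push Not at hcon
  obtain ⟨a0, ha0⟩ := hcon
  let N : A →* A :=
    { toFun := fun a => t a * a⁻¹
      map_one' := by simp
      map_mul' := by
        intro x y
        simp only [map_mul, mul_inv]
        exact mul_mul_mul_comm _ _ _ _ }
  have hN : ∀ a, N a = t a * a⁻¹ := fun a => rfl
  let W : Subgroup A := N.range ⊓ (powMonoidHom 2 : A →* A).ker
  have hWmem : ∀ x, x ∈ W ↔ (∃ a, N a = x) ∧ x ^ 2 = 1 := by
    intro x
    simp [W, Subgroup.mem_inf, MonoidHom.mem_range, MonoidHom.mem_ker]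
  have htW : ∀ x, (MulAut.toPerm A t) x ∈ W ↔ x ∈ W := by
    intro x
    have e1 : (MulAut.toPerm A t) x = t x := rfl
    rw [e1, hWmem, hWmem]
    constructor
    · rintro ⟨⟨a, ha⟩, h2⟩
      refine ⟨⟨t⁻¹ a, ?_⟩, ?_⟩
      · apply t.injective
        rw [← ha, hN, hN, map_mul, map_inv]
        simp
      · apply t.injective
        rw [map_pow, h2, map_one]
    · rintro ⟨⟨a, ha⟩, h2⟩
      refine ⟨⟨t a, ?_⟩, ?_⟩
      · rw [← ha, hN, hN, map_mul, map_inv]
      · rw [← map_pow, h2, map_one]
  let σ : Equiv.Perm W := (MulAut.toPerm A t).subtypePerm htW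
  have hσ : σ ^ 2 ^ k = 1 := by
    have h1 : (MulAut.toPerm A t) ^ 2 ^ k = 1 := by
      rw [← map_pow, ← hk, pow_orderOf_eq_one, map_one]
    simp only [σ, Equiv.Perm.subtypePerm_pow, h1]
    rfl
  -- the range of N is a nontrivial 2-group
  have hR : IsPGroup 2 N.range := hA.to_subgroup _
  have hRnt : Nat.card N.range ≠ 1 := by
    intro h
    have := (Subgroup.card_eq_one.mp h)
    have hmem : N a0 ∈ N.range := ⟨a0, rfl⟩
    rw [this, Subgroup.mem_bot, hN] at hmem
    exact ha0 (mul_inv_eq_one.mp hmem)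
  have h2R : 2 ∣ Nat.card N.range := hR.card_eq_or_dvd.resolve_left hRnt
  obtain ⟨r, hr⟩ := exists_prime_orderOf_dvd_card' 2 h2R
  have hWnt : Nat.card W ≠ 1 := by
    intro h
    have := (Subgroup.card_eq_one.mp h)
    have hmem : (r : A) ∈ W := by
      rw [hWmem]
      refine ⟨r.2, ?_⟩
      have : r ^ 2 = 1 := by rw [← hr, pow_orderOf_eq_one]
      exact_mod_cast congrArg Subtype.val this
    rw [this, Subgroup.mem_bot] at hmem
    have : r = 1 := Subtype.ext hmem
    rw [this, orderOf_one] at hr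
    omega
  have h2W : 2 ∣ Nat.card W := (hA.to_subgroup W).card_eq_or_dvd.resolve_left hWnt
  have : Fintype W := Fintype.ofFinite W
  have : Fact (Nat.Prime 2) := ⟨Nat.prime_two⟩
  rw [Nat.card_eq_fintype_card] at h2W
  have h1fix : σ 1 = 1 := by
    apply Subtype.ext
    exact map_one t
  obtain ⟨b, hb, hb1⟩ := Equiv.Perm.exists_fixed_point_of_prime' h2W hσ h1fix
  have hbt : t (b : A) = b := congrArg Subtype.val hb
  obtain ⟨⟨a, ha⟩, hb2⟩ := (hWmem b).mp b.2
  have hta : t a = a * b := by
    rw [← ha, hN]; simp [mul_comm]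
  have : t (t a) = a := by
    rw [hta, map_mul, hta, hbt, mul_assoc, ← pow_two, hb2, mul_one]
  have h3 := hC a this
  apply hb1
  apply Subtype.ext
  rw [← ha, hN, h3]
  simp

end Cfsg.Agent.S1780
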