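import Cfsg.Statements.S1781
import Cfsg.Agent.Lib.Helper36.TI
import Cfsg.Agent.S1780

set_option autoImplicit false
open Cfsg

namespace Cfsg.Agent.S1781

open Cfsg.Agent.Lib.Helper36

open scoped IsMulCommutative in
theorem centralizes_of_sq {G : Type*} [Group G] [Finite G] (B : Subgroup G) (hB2 : IsPGroup 2 ↥B)
    (hBa : IsMulCommutative ↥B) (a : G) (ha : a ∈ Subgroup.normalizer (B : Set G))
    (ha2 : ∃ k : ℕ, orderOf a = 2 ^ k)
    (hC : ∀ b ∈ B, a ^ 2 * b = b * a ^ 2 → a * b = b * a) : ∀ b ∈ B, a * b = b * a := by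
  let t : MulAut ↥B := B.normalizerMonoidHom ⟨a, ha⟩
  have ht : ∀ b : ↥B, ((t b : ↥B) : G) = a * b * a⁻¹ := fun b => rfl
  have hord : ∃ k : ℕ, orderOf t = 2 ^ k := by
    obtain ⟨k, hk⟩ := ha2
    have h1 : orderOf t ∣ orderOf (⟨a, ha⟩ : Subgroup.normalizer (B : Set G)) :=
      orderOf_map_dvd _ _
    have h2 : orderOf (⟨a, ha⟩ : Subgroup.normalizer (B : Set G)) = orderOf a :=
      Subgroup.orderOf_mk a ha
    rw [h2, hk] at h1
    obtain ⟨j, _, hj⟩ := (Nat.dvd_prime_pow Nat.prime_two).mp h1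
    exact ⟨j, hj⟩
  have key := Cfsg.Agent.S1780.result (A := ↥B) hB2 t hord (by
    intro b hb
    have hb' : a * (a * b * a⁻¹) * a⁻¹ = (b : G) := by
      have := congrArg Subtype.val hb
      rw [ht, ht] at this
      exact this
    have h1 : a ^ 2 * (b : G) = b * a ^ 2 := by
      calc a ^ 2 * (b : G) = (a * (a * b * a⁻¹) * a⁻¹) * a ^ 2 := by
            simp only [pow_two]; group
        _ = b * a ^ 2 := by rw [hb']
    have h2 := hC b b.2 h1
    apply Subtype.ext
    rw [ht, h2]
    group)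
  intro b hb
  have := congrArg Subtype.val (key ⟨b, hb⟩)
  rw [ht] at this
  calc a * b = (a * b * a⁻¹) * a := by group
    _ = b * a := by rw [this]

theorem ti_conj {G : Type*} [Group G] (A : Subgroup G)
    (hti : ∀ h : G, A.map (MulAut.conj h).toMonoidHom = A ∨ A.map (MulAut.conj h).toMonoidHom ⊓ A = ⊥)
    (g h : G) :
    (A.map (MulAut.conj g).toMonoidHom).map (MulAut.conj h).toMonoidHom = A.map (MulAut.conj g).toMonoidHom ∨
      (A.map (MulAut.conj g).toMonoidHom).map (MulAut.conj h).toMonoidHom ⊓ A.map (MulAut.conj g).toMonoidHom = ⊥ := by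
  have e : (A.map (MulAut.conj g).toMonoidHom).map (MulAut.conj h).toMonoidHom =
      (A.map (MulAut.conj (g⁻¹ * h * g)).toMonoidHom).map (MulAut.conj g).toMonoidHom := by
    rw [Subgroup.map_map, Subgroup.map_map]
    congr 1
    ext x
    simp [MulAut.conj_apply, mul_assoc]
  rw [e]
  rcases hti (g⁻¹ * h * g) with h1 | h1
  · left; rw [h1]
  · right
    rw [← Subgroup.map_inf _ _ _ (MulAut.conj g).injective, h1, Subgroup.map_bot]

/-- Let A be an abelian 2-subgroup of the finite group G such that every conjugate of A equals A or meets A trivially, and let g ∈ G with g A g⁻¹ ≠ A. Then either the subgroup of those elements of A that normalize g A g⁻¹ is an elementary abelian 2-group, or A and g A g⁻¹ commute elementwise. -/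
theorem result {G : Type*} [Group G] [Finite G] (A : Subgroup G)
    (hA2 : IsPGroup 2 ↥A) (hAa : IsMulCommutative ↥A)
    (hti : ∀ h : G, A.map (MulAut.conj h).toMonoidHom = A ∨ A.map (MulAut.conj h).toMonoidHom ⊓ A = ⊥)
    (g : G) (hg : A.map (MulAut.conj g).toMonoidHom ≠ A) :
    Cfsg.IsElementaryAbelian 2 (A ⊓ Subgroup.normalizer ((A.map (MulAut.conj g).toMonoidHom : Subgroup G) : Set G)) ∨
      ⁅A, A.map (MulAut.conj g).toMonoidHom⁆ = ⊥ := by
  classical
  set B := A.map (MulAut.conj g).toMonoidHom with hBdef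
  by_cases hel : ∀ a ∈ A ⊓ Subgroup.normalizer (B : Set G), a ^ 2 = 1
  · left
    refine ⟨?_, hel⟩
    refine ⟨⟨?_⟩⟩
    rintro ⟨x, hx⟩ ⟨y, hy⟩
    apply Subtype.ext
    have h3 : x * y = y * x := congrArg Subtype.val (hAa.is_comm.comm ⟨x, hx.1⟩ ⟨y, hy.1⟩)
    exact h3
  · right
    push Not at hel
    obtain ⟨a, haAN, ha2⟩ := hel
    obtain ⟨haA, haN⟩ := Subgroup.mem_inf.mp haAN
    have hAB : A ⊓ B = ⊥ := by
      rcases hti g with h | h
      · exact absurd h hg
      · rw [inf_comm]; exact h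
    have hcard : Nat.card ↥B = Nat.card ↥A :=
      Subgroup.card_map_of_injective (MulAut.conj g).injective
    have hB2 : IsPGroup 2 ↥B := hA2.map _
    have hBa : IsMulCommutative ↥B := by
      refine ⟨⟨?_⟩⟩
      rintro ⟨x, hx⟩ ⟨y, hy⟩
      obtain ⟨x', hx', rfl⟩ := hx
      obtain ⟨y', hy', rfl⟩ := hy
      apply Subtype.ext
      have := congrArg Subtype.val (hAa.is_comm.comm ⟨x', hx'⟩ ⟨y', hy'⟩)
      change (MulAut.conj g).toMonoidHom x' * (MulAut.conj g).toMonoidHom y' =
        (MulAut.conj g).toMonoidHom y' * (MulAut.conj g).toMonoidHom x'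
      rw [← map_mul, ← map_mul]
      exact congrArg _ this
    have hord : ∃ k : ℕ, orderOf a = 2 ^ k := by
      obtain ⟨k, hk⟩ := (IsPGroup.iff_orderOf.mp hA2) ⟨a, haA⟩
      exact ⟨k, by rw [← hk, Subgroup.orderOf_mk]⟩
    -- elements of G commuting with a nontrivial element of A normalize A
    have hnorm : ∀ x ∈ A, x ≠ 1 → ∀ b : G, x * b = b * x → b ∈ Subgroup.normalizer (A : Set G) := by
      intro x hx hx1 b hxb
      rw [← map_conj_eq_iff_mem_normalizer]
      rcases hti b with h | h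
      · exact h
      · exfalso
        have : x ∈ A.map (MulAut.conj b).toMonoidHom ⊓ A := by
          refine Subgroup.mem_inf.mpr ⟨?_, hx⟩
          rw [mem_map_conj]
          have : b⁻¹ * x * b = x := by
            rw [mul_assoc, hxb]; group
          rw [this]; exact hx
        rw [h, Subgroup.mem_bot] at this
        exact hx1 this
    have hcent : ∀ b ∈ B, a * b = b * a := by
      apply centralizes_of_sq B hB2 hBa a haN hord
      intro b hb hcomm
      have hbN := hnorm (a ^ 2) (A.pow_mem haA 2) ha2 b hcomm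
      have hmem : a * b * a⁻¹ * b⁻¹ ∈ A ⊓ B := by
        refine Subgroup.mem_inf.mpr ⟨?_, ?_⟩
        · have : a * b * a⁻¹ * b⁻¹ = a * (b * a⁻¹ * b⁻¹) := by group
          rw [this]
          exact A.mul_mem haA (((Subgroup.mem_normalizer_iff.mp hbN) a⁻¹).mp (A.inv_mem haA))
        · exact B.mul_mem (((Subgroup.mem_normalizer_iff.mp haN) b).mp hb) (B.inv_mem hb)
      rw [hAB, Subgroup.mem_bot] at hmem
      calc a * b = (a * b * a⁻¹ * b⁻¹) * (b * a) := by group
        _ = b * a := by rw [hmem, one_mul]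
    have ha1 : a ≠ 1 := by
      rintro rfl
      exact ha2 (one_pow 2)
    have hBN : B ≤ Subgroup.normalizer (A : Set G) := fun b hb => hnorm a haA ha1 b (hcent b hb)
    exact commutator_eq_bot_of_le_normalizer A B (fun x _ => ti_conj A hti g x) hcard.ge hAB hBN

end Cfsg.Agent.S1781
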