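import Cfsg.Statements.S1782
import Cfsg.Agent.Lib.Helper36.TI
import Cfsg.Agent.Lib.Helper36.PGroupAux

set_option autoImplicit false
open Cfsg

namespace Cfsg.Agent.S1782

open Cfsg.Agent.Lib.Helper36 Subgroup

/-- `s` normalizes `R`, or the conjugate of `R` by `s` commutes with `R` and meets it trivially. -/
def Good {S : Type*} [Group S] (R : Subgroup S) (s : S) : Prop :=
  s ∈ normalizer (R : Set S) ∨
    ((∀ a ∈ R, ∀ b ∈ R, a * (s * b * s⁻¹) = (s * b * s⁻¹) * a) ∧ (∀ a ∈ R, s * a * s⁻¹ ∈ R → a = 1))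

theorem step1 {S : Type*} [Group S] (hS : IsPGroup 2 S) (R T : Subgroup S)
    (hR : ∀ t ∈ T, Good R t) (hT : ∀ r ∈ R, Good T r) (r t : S) (hr : r ∈ R) (ht : t ∈ T)
    (htN : t ∉ normalizer (R : Set S)) (hrN : r ∉ normalizer (T : Set S)) : t ^ 2 = 1 := by
  by_contra ht2
  obtain ⟨hc1, -⟩ := (hR t ht).resolve_left htN
  have stepρ : ∀ ρ ∈ R, ρ ∉ normalizer (T : Set S) → ρ * ρ ∉ normalizer (T : Set S) := by
    intro ρ hρ hρN h
    obtain ⟨hc2, hd2⟩ := (hT ρ hρ).resolve_left hρN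
    have h1 : Commute t (ρ * t * ρ⁻¹) := hc2 t ht t ht
    have h1' : t⁻¹ * (ρ * t * ρ⁻¹) = (ρ * t * ρ⁻¹) * t⁻¹ := h1.inv_left
    have h2 : ρ * (t * ρ⁻¹ * t⁻¹) = (t * ρ⁻¹ * t⁻¹) * ρ := hc1 ρ hρ ρ⁻¹ (R.inv_mem hρ)
    have key : ρ * (t * t) * ρ⁻¹ = (ρ * ρ) * t * (ρ * ρ)⁻¹ * t := by
      calc ρ * (t * t) * ρ⁻¹ = (ρ * t * ρ⁻¹) * ((ρ * t * ρ⁻¹) * t⁻¹) * t := by group
        _ = (ρ * t * ρ⁻¹) * (t⁻¹ * (ρ * t * ρ⁻¹)) * t := by rw [h1']
        _ = ρ * ((t * ρ⁻¹ * t⁻¹) * ρ) * (t * ρ⁻¹ * t⁻¹) * (t * t) := by group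
        _ = ρ * (ρ * (t * ρ⁻¹ * t⁻¹)) * (t * ρ⁻¹ * t⁻¹) * (t * t) := by rw [h2]
        _ = (ρ * ρ) * t * (ρ * ρ)⁻¹ * t := by group
    have hmem : ρ * (t * t) * ρ⁻¹ ∈ T := by
      rw [key]
      exact T.mul_mem (((mem_normalizer_iff.mp h) t).mp ht) ht
    have := hd2 (t * t) (T.mul_mem ht ht) hmem
    exact ht2 (by rw [pow_two]; exact this)
  have claim : ∀ i : ℕ, r ^ (2 ^ i) ∈ R ∧ r ^ (2 ^ i) ∉ normalizer (T : Set S) := by
    intro i
    induction i with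
    | zero => simpa using ⟨hr, hrN⟩
    | succ i ih =>
      have e : r ^ (2 ^ (i + 1)) = r ^ (2 ^ i) * r ^ (2 ^ i) := by
        rw [pow_succ, pow_mul, pow_two]
      rw [e]
      exact ⟨R.mul_mem ih.1 ih.1, stepρ _ ih.1 ih.2⟩
  obtain ⟨k, hk⟩ := hS r
  have := (claim k).2
  rw [hk] at this
  exact this (one_mem _)

theorem constr {S : Type*} [Group S] (R T : Subgroup S) (w x : S) (hw : w ∈ R)
    (hwN : w ∈ normalizer (T : Set S)) (hx : x ∈ T)
    (hc : ∀ a ∈ R, ∀ b ∈ R, a * (x * b * x⁻¹) = (x * b * x⁻¹) * a)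
    (hd : ∀ a ∈ R, x * a * x⁻¹ ∈ R → a = 1) (hw2 : w ^ 2 ≠ 1) :
    w⁻¹ * (x * w * x⁻¹) ∈ T ∧ (w⁻¹ * (x * w * x⁻¹)) ^ 2 ≠ 1 := by
  constructor
  · have h1 : w⁻¹ * x * w⁻¹⁻¹ ∈ T := ((mem_normalizer_iff.mp (inv_mem hwN)) x).mp hx
    rw [inv_inv] at h1
    have := T.mul_mem h1 (T.inv_mem hx)
    have e : w⁻¹ * (x * w * x⁻¹) = w⁻¹ * x * w * x⁻¹ := by group
    rw [e]; exact this
  · intro h
    have h1 : w⁻¹ * (x * w * x⁻¹) = (x * w * x⁻¹) * w⁻¹ := hc w⁻¹ (R.inv_mem hw) w hw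
    have h2 : x * (w * w) * x⁻¹ = w * w := by
      calc x * (w * w) * x⁻¹ = (w * w) * (w⁻¹ * (w⁻¹ * (x * w * x⁻¹)) * (x * w * x⁻¹)) := by group
        _ = (w * w) * (w⁻¹ * ((x * w * x⁻¹) * w⁻¹) * (x * w * x⁻¹)) := by rw [h1]
        _ = (w * w) * (w⁻¹ * (x * w * x⁻¹)) ^ 2 := by rw [pow_two]; group
        _ = w * w := by rw [h, mul_one]
    have h3 := hd (w * w) (R.mul_mem hw hw) (by rw [h2]; exact R.mul_mem hw hw)
    exact hw2 (by rw [pow_two]; exact h3)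

theorem core {S : Type*} [Group S] (hS : IsPGroup 2 S) (R T : Subgroup S)
    (hR : ∀ t ∈ T, Good R t) (hT : ∀ r ∈ R, Good T r) (hwR : ∃ w ∈ R, w ^ 2 ≠ 1) :
    T ≤ normalizer (R : Set S) ∨ R ≤ normalizer (T : Set S) := by
  by_contra hcon
  rw [not_or, SetLike.not_le_iff_exists, SetLike.not_le_iff_exists] at hcon
  obtain ⟨⟨x, hx, hxN⟩, ⟨r, hr, hrN⟩⟩ := hcon
  have F1 : ∀ t ∈ T, t ∉ normalizer (R : Set S) → t ^ 2 = 1 := fun t ht htN =>
    step1 hS R T hR hT r t hr ht htN hrN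
  have F1' : ∀ ρ ∈ R, ρ ∉ normalizer (T : Set S) → ρ ^ 2 = 1 := fun ρ hρ hρN =>
    step1 hS T R hT hR x ρ hx hρ hρN hxN
  obtain ⟨hc, hd⟩ := (hR x hx).resolve_left hxN
  obtain ⟨hc', hd'⟩ := (hT r hr).resolve_left hrN
  have key : ∀ w ∈ R, w ^ 2 ≠ 1 → (w ^ 2) ^ 2 ≠ 1 := by
    intro w hw hw2
    have hwN : w ∈ normalizer (T : Set S) := by
      by_contra h
      exact hw2 (F1' w hw h)
    have hrwN : r * w ∉ normalizer (T : Set S) := by
      intro h
      apply hrN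
      have := mul_mem h (inv_mem hwN)
      simpa using this
    have hrw2 : (r * w) ^ 2 = 1 := F1' _ (R.mul_mem hr hw) hrwN
    have hr2 : r ^ 2 = 1 := F1' r hr hrN
    have hrinv : r⁻¹ = r := inv_eq_of_mul_eq_one_left (by rw [← pow_two]; exact hr2)
    have hinvert : r * w⁻¹ * r⁻¹ = w := by
      rw [pow_two] at hrw2
      calc r * w⁻¹ * r⁻¹ = r * w⁻¹ * r⁻¹ * (r * w * (r * w)) := by rw [hrw2, mul_one]
        _ = r * r * w := by group
        _ = w := by rw [← pow_two, hr2, one_mul]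
    obtain ⟨htT, ht2⟩ := constr R T w x hw hwN hx hc hd hw2
    set t := w⁻¹ * (x * w * x⁻¹) with ht
    have htN : t ∈ normalizer (R : Set S) := by
      by_contra h
      exact ht2 (F1 t htT h)
    obtain ⟨-, hw12⟩ := constr T R t r htT htN hr hc' hd' ht2
    have h1 : r * (x * w * x⁻¹) = (x * w * x⁻¹) * r := hc r hr w hw
    have h2 : w * (x * w * x⁻¹) = (x * w * x⁻¹) * w := hc w hw w hw
    have e : t⁻¹ * (r * t * r⁻¹) = w ^ 2 := by
      rw [ht, pow_two]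
      calc (w⁻¹ * (x * w * x⁻¹))⁻¹ * (r * (w⁻¹ * (x * w * x⁻¹)) * r⁻¹)
          = (x * w * x⁻¹)⁻¹ * w * ((r * w⁻¹ * r⁻¹) * (r * (x * w * x⁻¹)) * r⁻¹) := by group
        _ = (x * w * x⁻¹)⁻¹ * w * (w * ((x * w * x⁻¹) * r) * r⁻¹) := by rw [hinvert, h1]
        _ = (x * w * x⁻¹)⁻¹ * w * (w * (x * w * x⁻¹)) := by group
        _ = (x * w * x⁻¹)⁻¹ * w * ((x * w * x⁻¹) * w) := by rw [h2]
        _ = (x * w * x⁻¹)⁻¹ * (w * (x * w * x⁻¹)) * w := by group
        _ = (x * w * x⁻¹)⁻¹ * ((x * w * x⁻¹) * w) * w := by rw [h2]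
        _ = w * w := by group
    rw [e] at hw12
    exact hw12
  obtain ⟨w, hw, hw2⟩ := hwR
  have claim : ∀ i : ℕ, w ^ (2 ^ i) ∈ R ∧ (w ^ (2 ^ i)) ^ 2 ≠ 1 := by
    intro i
    induction i with
    | zero => simpa using ⟨hw, hw2⟩
    | succ i ih =>
      have e : w ^ (2 ^ (i + 1)) = (w ^ (2 ^ i)) ^ 2 := by
        rw [pow_succ, pow_mul]
      rw [e]
      exact ⟨R.pow_mem ih.1 2, key _ ih.1 ih.2⟩
  obtain ⟨k, hk⟩ := hS w
  have := (claim k).2
  rw [hk] at this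
  exact this (one_pow 2)

/-- Let S be a finite 2-group and Δ a set of subgroups of S closed under conjugation by S, all of the same order, each with nontrivial Frattini subgroup, and such that two distinct members of Δ meet trivially. Then any two distinct members of Δ commute elementwise. -/
theorem result {S : Type*} [Group S] [Finite S] (hS : IsPGroup 2 S)
    (Δ : Set (Subgroup S)) (hinv : ∀ s : S, ∀ R ∈ Δ, R.map (MulAut.conj s).toMonoidHom ∈ Δ)
    (hΦ : ∀ R ∈ Δ, frattini ↥R ≠ ⊥) (hord : ∀ R ∈ Δ, ∀ T ∈ Δ, Nat.card ↥R = Nat.card ↥T)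
    (hti : ∀ R ∈ Δ, ∀ T ∈ Δ, R = T ∨ R ⊓ T = ⊥) :
    ∀ R ∈ Δ, ∀ T ∈ Δ, R ≠ T → ⁅R, T⁆ = ⊥ := by
  have hp2 : Fact (Nat.Prime 2) := ⟨Nat.prime_two⟩
  have hw : ∀ R ∈ Δ, ∃ w ∈ R, w ^ 2 ≠ 1 := by
    intro R hR
    by_contra hcon
    push Not at hcon
    apply hΦ R hR
    apply frattini_eq_bot_of_sq_eq_one
    intro x
    apply Subtype.ext
    exact hcon x x.2
  have key : ∀ n : ℕ, ∀ H : Subgroup S, Nat.card H = n → ∀ R ∈ Δ, ∀ T ∈ Δ, R ≤ H → T ≤ H →
      R ≠ T → ⁅R, T⁆ = ⊥ := by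
    intro n
    induction n using Nat.strong_induction_on with
    | _ n ih =>
      intro H hHn R hR T hT hRH hTH hne
      have good : ∀ R ∈ Δ, ∀ T ∈ Δ, R ≤ H → T ≤ H → R ≠ T → ∀ t ∈ T, Good R t := by
        intro R hR T hT hRH hTH hne t ht
        by_cases htN : t ∈ normalizer (R : Set S)
        · left; exact htN
        right
        have hne' : R.map (MulAut.conj t).toMonoidHom ≠ R := by
          rwa [Ne, map_conj_eq_iff_mem_normalizer]
        have hRt := hinv t R hR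
        have hRneH : R ≠ H := by
          rintro rfl
          have h1 := (hti R hR T hT).resolve_left hne
          have h2 : T = ⊥ := by rw [← h1]; exact (inf_eq_right.mpr hTH).symm
          obtain ⟨w, hwT, hw2⟩ := hw T hT
          rw [h2, mem_bot] at hwT
          exact hw2 (by rw [hwT, one_pow])
        obtain ⟨M, hRM, hMH, hMne, hMnorm⟩ := exists_normal_proper hS R H hRH hRneH
        have hcardM : Nat.card M < n := by
          by_contra hcon
          push Not at hcon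
          rw [← hHn] at hcon
          exact hMne (eq_of_le_of_card_ge hMH hcon)
        have hRtM : R.map (MulAut.conj t).toMonoidHom ≤ M := by
          rintro _ ⟨a, ha, rfl⟩
          exact hMnorm t (hTH ht) a (hRM ha)
        have hcomm := ih _ hcardM M rfl R hR _ hRt hRM hRtM hne'.symm
        have hdisj : R ⊓ R.map (MulAut.conj t).toMonoidHom = ⊥ :=
          (hti R hR _ hRt).resolve_left hne'.symm
        constructor
        · intro a ha b hb
          rw [commutator_eq_bot_iff_le_centralizer] at hcomm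
          exact ((mem_centralizer_iff.mp (hcomm ha)) _ (conj_mem_map_conj R t b hb)).symm
        · intro a ha h
          have : t * a * t⁻¹ ∈ R ⊓ R.map (MulAut.conj t).toMonoidHom :=
            mem_inf.mpr ⟨h, conj_mem_map_conj R t a ha⟩
          rw [hdisj, mem_bot] at this
          calc a = t⁻¹ * (t * a * t⁻¹) * t := by group
            _ = 1 := by rw [this]; group
      have hRT : R ⊓ T = ⊥ := (hti R hR T hT).resolve_left hne
      have tiOf : ∀ A ∈ Δ, ∀ s : S, A.map (MulAut.conj s).toMonoidHom = A ∨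
          A.map (MulAut.conj s).toMonoidHom ⊓ A = ⊥ := fun A hA s => hti _ (hinv s A hA) A hA
      rcases core hS R T (good R hR T hT hRH hTH hne) (good T hT R hR hTH hRH hne.symm) (hw R hR)
        with h | h
      · exact commutator_eq_bot_of_le_normalizer R T (fun a _ => tiOf T hT a) (hord R hR T hT).le
          hRT h
      · rw [commutator_comm]
        exact commutator_eq_bot_of_le_normalizer T R (fun a _ => tiOf R hR a) (hord T hT R hR).le
          (by rw [inf_comm]; exact hRT) h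
  intro R hR T hT hne
  exact key _ ⊤ rfl R hR T hT le_top le_top hne

end Cfsg.Agent.S1782
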