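import Cfsg.Statements.S1783
import Cfsg.Agent.Lib.Helper36.TIFamily
import Cfsg.Agent.Lib.Helper36.Stability
import Cfsg.Agent.S1265
import Cfsg.Agent.S1781

set_option autoImplicit false
open Cfsg

namespace Cfsg.Agent.S1783

open Cfsg.Agent.Lib.Helper36 Subgroup

theorem conj_conj {X : Type*} [Group X] (A : Subgroup X) (s u : X) :
    (A.map (MulAut.conj u).toMonoidHom).map (MulAut.conj s).toMonoidHom =
      A.map (MulAut.conj (s * u)).toMonoidHom := by
  rw [Subgroup.map_map]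
  congr 1
  ext x
  simp [MulAut.conj_apply, mul_assoc]

theorem ti_pair {X : Type*} [Group X] (A : Subgroup X)
    (hti : ∀ h : X, A.map (MulAut.conj h).toMonoidHom = A ∨ A.map (MulAut.conj h).toMonoidHom ⊓ A = ⊥)
    (u v : X) : A.map (MulAut.conj u).toMonoidHom = A.map (MulAut.conj v).toMonoidHom ∨
      A.map (MulAut.conj u).toMonoidHom ⊓ A.map (MulAut.conj v).toMonoidHom = ⊥ := by
  have h := Cfsg.Agent.S1781.ti_conj A hti v (u * v⁻¹)
  rw [conj_conj] at h
  simpa using h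

/-- Let X be a finite group whose generalized Fitting subgroup equals its largest normal 2-subgroup Q, and let A be an abelian 2-subgroup of X such that every conjugate of A equals A or meets A trivially. Let B be the subgroup generated by the squares of the elements of A. Then B lies in Q, and if B is not an elementary abelian 2-group then the normal closure of B in X is commutative. -/
theorem result {X : Type*} [Group X] [Finite X]
    (hX : Cfsg.generalizedFittingSubgroup X = Cfsg.pCore 2 X) (A : Subgroup X) (hA2 : IsPGroup 2 ↥A) (hAa : IsMulCommutative ↥A)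
    (hti : ∀ h : X, A.map (MulAut.conj h).toMonoidHom = A ∨ A.map (MulAut.conj h).toMonoidHom ⊓ A = ⊥) :
    Subgroup.closure ((fun a : X => a ^ 2) '' (A : Set X)) ≤ Cfsg.pCore 2 X ∧
      (¬ Cfsg.IsElementaryAbelian 2 (Subgroup.closure ((fun a : X => a ^ 2) '' (A : Set X))) →
        IsMulCommutative ↥(Subgroup.normalClosure ((fun a : X => a ^ 2) '' (A : Set X)))) := by
  classical
  set Q := Cfsg.pCore 2 X with hQdef
  have hQ2 : IsPGroup 2 ↥Q := Cfsg.Agent.Lib.Helper28.pCore_isPGroup 2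
  have hQn : Q.Normal := inferInstance
  have hcen : centralizer (Q : Set X) ≤ Q := by
    have := Cfsg.Agent.S1265.result (G := X)
    rwa [hX] at this
  have hAcomm : ∀ x ∈ A, ∀ y ∈ A, x * y = y * x := fun x hx y hy =>
    congrArg Subtype.val (hAa.is_comm.comm ⟨x, hx⟩ ⟨y, hy⟩)
  have part1 : sqSub A ≤ Q := by
    rw [sqSub, closure_le]
    rintro _ ⟨a, ha, rfl⟩
    change a ^ 2 ∈ Q
    have ha : a ∈ A := ha
    by_cases hwA : ∃ w ∈ A, w ^ 2 ≠ 1
    swap
    · push Not at hwA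
      rw [hwA a ha]; exact one_mem _
    obtain ⟨w, hw, hw2⟩ := hwA
    set H₀ := Q ⊔ A with hH₀def
    have hH₀ : IsPGroup 2 ↥H₀ := IsPGroup.to_sup_of_normal_left hQ2 hA2
    let Δ : Set (Subgroup X) := Set.range (fun s : X => A.map (MulAut.conj s).toMonoidHom)
    have hAΔ : A ∈ Δ := ⟨1, by ext x; rw [mem_map_conj]; simp⟩
    have hfam := ti_family_commute H₀ hH₀ Δ
      (by rintro s _ _ ⟨u, rfl⟩; exact ⟨s * u, (conj_conj A s u).symm⟩)
      (by
        rintro _ ⟨u, rfl⟩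
        refine ⟨u * w * u⁻¹, conj_mem_map_conj A u w hw, ?_⟩
        intro h
        apply hw2
        rw [conj_pow] at h
        calc w ^ 2 = u⁻¹ * (u * w ^ 2 * u⁻¹) * u := by group
          _ = 1 := by rw [h]; group)
      (by
        rintro _ ⟨u, rfl⟩ _ ⟨v, rfl⟩
        rw [card_map_of_injective (MulAut.conj u).injective,
          card_map_of_injective (MulAut.conj v).injective])
      (by rintro _ ⟨u, rfl⟩ _ ⟨v, rfl⟩; exact ti_pair A hti u v)
    have hcommute : ∀ q ∈ Q, ∀ x ∈ A, ∀ y ∈ A, x * (q * y * q⁻¹) = (q * y * q⁻¹) * x := by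
      intro q hq x hx y hy
      by_cases hAq : A.map (MulAut.conj q).toMonoidHom = A
      · have : q * y * q⁻¹ ∈ A := by
          rw [← hAq]; exact conj_mem_map_conj A q y hy
        exact hAcomm x hx _ this
      · have hle : A.map (MulAut.conj q).toMonoidHom ≤ H₀ := by
          rintro _ ⟨z, hz, rfl⟩
          have hq' : q ∈ H₀ := (le_sup_left : Q ≤ H₀) hq
          have hz' : z ∈ H₀ := (le_sup_right : A ≤ H₀) hz
          exact mul_mem (mul_mem hq' hz') (inv_mem hq')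
        have h1 := hfam A hAΔ _ ⟨q, rfl⟩ le_sup_right hle (Ne.symm hAq)
        rw [commutator_eq_bot_iff_le_centralizer] at h1
        exact ((mem_centralizer_iff.mp (h1 hx)) _ (conj_mem_map_conj A q y hy)).symm
    apply stabSq_le_pCore Q hQ2 hcen
    intro P hP hPQ q hq
    have hd : a * q * a⁻¹ * q⁻¹ ∈ P := P.mul_mem (hP.conj_mem q hq a) (P.inv_mem hq)
    have h1 : a * (q * a⁻¹ * q⁻¹) = (q * a⁻¹ * q⁻¹) * a :=
      hcommute q (hPQ hq) a ha a⁻¹ (A.inv_mem ha)
    have e : a ^ 2 * q * (a ^ 2)⁻¹ * q⁻¹ = (a * q * a⁻¹ * q⁻¹) ^ 2 := by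
      rw [pow_two, pow_two]
      calc a * a * q * (a * a)⁻¹ * q⁻¹ = a * (a * (q * a⁻¹ * q⁻¹)) * q * a⁻¹ * q⁻¹ := by group
        _ = a * ((q * a⁻¹ * q⁻¹) * a) * q * a⁻¹ * q⁻¹ := by rw [h1]
        _ = a * q * a⁻¹ * q⁻¹ * (a * q * a⁻¹ * q⁻¹) := by group
    rw [e]
    exact sq_mem_sqSub P hd
  refine ⟨part1, ?_⟩
  intro hnotEA
  set B := sqSub A with hBdef
  have hBA : B ≤ A := sqSub_le A
  have hBcomm : ∀ x ∈ B, ∀ y ∈ B, x * y = y * x := fun x hx y hy => hAcomm x (hBA hx) y (hBA hy)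
  have hwB : ∃ b ∈ B, b ^ 2 ≠ 1 := by
    by_contra hcon
    push Not at hcon
    apply hnotEA
    exact ⟨⟨⟨fun x y => Subtype.ext (hBcomm x x.2 y y.2)⟩⟩, hcon⟩
  obtain ⟨b, hb, hb2⟩ := hwB
  let Δ : Set (Subgroup X) := Set.range (fun s : X => B.map (MulAut.conj s).toMonoidHom)
  have hfam := ti_family_commute Q hQ2 Δ
    (by rintro s _ _ ⟨u, rfl⟩; exact ⟨s * u, (conj_conj B s u).symm⟩)
    (by
      rintro _ ⟨u, rfl⟩
      refine ⟨u * b * u⁻¹, conj_mem_map_conj B u b hb, ?_⟩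
      intro h
      apply hb2
      rw [conj_pow] at h
      calc b ^ 2 = u⁻¹ * (u * b ^ 2 * u⁻¹) * u := by group
        _ = 1 := by rw [h]; group)
    (by
      rintro _ ⟨u, rfl⟩ _ ⟨v, rfl⟩
      rw [card_map_of_injective (MulAut.conj u).injective,
        card_map_of_injective (MulAut.conj v).injective])
    (by
      rintro _ ⟨u, rfl⟩ _ ⟨v, rfl⟩
      rcases ti_pair A hti u v with h | h
      · left
        change B.map _ = B.map _
        rw [hBdef, map_sqSub, map_sqSub, h]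
      · right
        rw [eq_bot_iff, ← h]
        exact inf_le_inf (map_mono hBA) (map_mono hBA))
  have hBQ : ∀ u : X, B.map (MulAut.conj u).toMonoidHom ≤ Q := by
    rintro u _ ⟨z, hz, rfl⟩
    exact hQn.conj_mem z (part1 hz) u
  change IsMulCommutative ↥(closure (Group.conjugatesOfSet ((fun a : X => a ^ 2) '' (A : Set X))))
  apply isMulCommutative_closure
  intro x hx y hy
  rw [Group.mem_conjugatesOfSet_iff] at hx hy
  obtain ⟨_, ⟨a1, ha1, rfl⟩, hc1⟩ := hx
  obtain ⟨_, ⟨a2, ha2, rfl⟩, hc2⟩ := hy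
  obtain ⟨c1, rfl⟩ := isConj_iff.mp hc1
  obtain ⟨c2, rfl⟩ := isConj_iff.mp hc2
  have hx1 : c1 * a1 ^ 2 * c1⁻¹ ∈ B.map (MulAut.conj c1).toMonoidHom :=
    conj_mem_map_conj B c1 _ (sq_mem_sqSub A ha1)
  have hx2 : c2 * a2 ^ 2 * c2⁻¹ ∈ B.map (MulAut.conj c2).toMonoidHom :=
    conj_mem_map_conj B c2 _ (sq_mem_sqSub A ha2)
  by_cases heq : B.map (MulAut.conj c1).toMonoidHom = B.map (MulAut.conj c2).toMonoidHom
  · rw [heq] at hx1
    obtain ⟨z1, hz1, e1⟩ := hx1
    obtain ⟨z2, hz2, e2⟩ := hx2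
    change c1 * a1 ^ 2 * c1⁻¹ * (c2 * a2 ^ 2 * c2⁻¹) = c2 * a2 ^ 2 * c2⁻¹ * (c1 * a1 ^ 2 * c1⁻¹)
    rw [← e1, ← e2, ← map_mul, ← map_mul, hBcomm z1 hz1 z2 hz2]
  · have h1 := hfam _ ⟨c1, rfl⟩ _ ⟨c2, rfl⟩ (hBQ c1) (hBQ c2) heq
    rw [commutator_eq_bot_iff_le_centralizer] at h1
    exact ((mem_centralizer_iff.mp (h1 hx1)) _ hx2).symm

end Cfsg.Agent.S1783
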