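import Cfsg.Statements.S1784
import Cfsg.Agent.Lib.Helper36.Pairing
import Cfsg.Agent.Lib.Helper36.GF2Type

set_option autoImplicit false
open Cfsg

namespace Cfsg.Agent.S1784

open Cfsg.Agent.Lib.Helper36 Subgroup

theorem mem_zpowers_two {G : Type*} [Group G] {z x : G} (hz : z * z = 1) (hx : x ∈ zpowers z) :
    x = 1 ∨ x = z := by
  obtain ⟨k, rfl⟩ := hx
  rcases Int.even_or_odd' k with ⟨m, rfl | rfl⟩
  · left
    change z ^ (2 * m) = 1
    rw [zpow_mul, zpow_two, hz, one_zpow]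
  · right
    change z ^ (2 * m + 1) = z
    rw [zpow_add, zpow_mul, zpow_two, hz, one_zpow, one_mul, zpow_one]

theorem core {E : Type*} [Group E] [Finite E]
    (hcomm : commutator E = center E) (hcard : Nat.card (center E) = 2)
    (a : E →* E) (ha2 : ∀ x, a (a x) = x) (haz : ∀ x ∈ center E, a x = x) (hane : ∃ x, a x ≠ x)
    (E₀ : Subgroup E) (hE₀ : ∀ q, q ∈ E₀ ↔ a q * q⁻¹ ∈ center E) :
    closure (Set.range fun q => a q * q⁻¹) = centralizer (E₀ : Set E) ∧
      closure (Set.range fun q => a q * q⁻¹) ≤ E₀ := by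
  have hp2 : Fact (Nat.Prime 2) := ⟨Nat.prime_two⟩
  have hc : ∀ u x : E, u * x * u⁻¹ * x⁻¹ ∈ center E := by
    intro u x
    rw [← hcomm]
    exact Subgroup.commutator_mem_commutator (mem_top u) (mem_top x)
  have hz2 : ∀ t ∈ center E, t * t = 1 := by
    intro t ht
    have h1 := pow_card_eq_one' (G := center E) (x := ⟨t, ht⟩)
    rw [hcard] at h1
    have h2 := congrArg Subtype.val h1
    simpa [pow_two] using h2
  have hsq : ∀ x : E, x * x ∈ center E := by
    intro x
    rw [mem_center_iff]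
    intro y
    obtain ⟨t, ht, h1⟩ : ∃ t ∈ center E, x * y = t * (y * x) :=
      ⟨x * y * x⁻¹ * y⁻¹, hc x y, by group⟩
    have htc := mem_center_iff.mp ht
    calc y * (x * x) = (t * t) * (y * x * x) := by rw [hz2 t ht]; group
      _ = t * (t * (y * x)) * x := by group
      _ = t * (x * y) * x := by rw [← h1]
      _ = (t * x) * (y * x) := by group
      _ = (x * t) * (y * x) := by rw [htc x]
      _ = x * (t * (y * x)) := by group
      _ = x * (x * y) := by rw [← h1]
      _ = x * x * y := by group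
  set K := closure (Set.range fun q => a q * q⁻¹) with hK
  have hgen : ∀ q, a q * q⁻¹ ∈ K := fun q => subset_closure ⟨q, rfl⟩
  have hK1 : K ≤ E₀ := by
    rw [hK, closure_le]
    rintro _ ⟨q, rfl⟩
    change a q * q⁻¹ ∈ E₀
    rw [hE₀]
    have h1 : a (a q * q⁻¹) * (a q * q⁻¹)⁻¹ = (q * (a q)⁻¹) * (q * (a q)⁻¹) := by
      rw [map_mul, ha2, map_inv, mul_inv_rev, inv_inv]
    rw [h1]; exact hsq _
  have hK2 : K ≤ centralizer (E₀ : Set E) := by
    rw [hK, closure_le]
    rintro _ ⟨q, rfl⟩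
    change a q * q⁻¹ ∈ centralizer (E₀ : Set E)
    rw [mem_centralizer_iff]
    intro w hw
    obtain ⟨ε, hε, h1⟩ : ∃ ε ∈ center E, q * w = ε * (w * q) :=
      ⟨q * w * q⁻¹ * w⁻¹, hc q w, by group⟩
    obtain ⟨ζ, hζ, h2⟩ : ∃ ζ ∈ center E, a w = ζ * w := ⟨a w * w⁻¹, (hE₀ w).mp hw, by group⟩
    have h3 : a q * a w = ε * (a w * a q) := by
      rw [← map_mul, h1, map_mul, map_mul, haz ε hε]
    have hεc := mem_center_iff.mp hε
    have hζc := mem_center_iff.mp hζ
    have h4 : a q * w = ε * (w * a q) := by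
      rw [h2] at h3
      apply mul_left_cancel (a := ζ)
      calc ζ * (a q * w) = (ζ * a q) * w := by group
        _ = (a q * ζ) * w := by rw [hζc (a q)]
        _ = a q * (ζ * w) := by group
        _ = ε * (ζ * w * a q) := h3
        _ = (ε * ζ) * (w * a q) := by group
        _ = (ζ * ε) * (w * a q) := by rw [hζc ε]
        _ = ζ * (ε * (w * a q)) := by group
    have h5 : w * q⁻¹ = ε * (q⁻¹ * w) := by
      calc w * q⁻¹ = q⁻¹ * (q * w) * q⁻¹ := by group
        _ = q⁻¹ * (ε * (w * q)) * q⁻¹ := by rw [h1]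
        _ = (q⁻¹ * ε) * w := by group
        _ = (ε * q⁻¹) * w := by rw [hεc q⁻¹]
        _ = ε * (q⁻¹ * w) := by group
    calc w * (a q * q⁻¹) = (w * a q) * q⁻¹ := by group
      _ = (ε * ε) * (w * a q) * q⁻¹ := by rw [hz2 ε hε, one_mul]
      _ = ε * (ε * (w * a q)) * q⁻¹ := by group
      _ = ε * (a q * w) * q⁻¹ := by rw [← h4]
      _ = (ε * a q) * (w * q⁻¹) := by group
      _ = (ε * a q) * (ε * (q⁻¹ * w)) := by rw [h5]
      _ = ε * (a q * ε) * (q⁻¹ * w) := by group
      _ = ε * (ε * a q) * (q⁻¹ * w) := by rw [hεc (a q)]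
      _ = (ε * ε) * (a q * q⁻¹ * w) := by group
      _ = a q * q⁻¹ * w := by rw [hz2 ε hε, one_mul]
  have hK3 : ∀ x : E, ∀ k ∈ K, x * k * x⁻¹ ∈ K := by
    intro x
    have h0 : K ≤ K.comap (MulAut.conj x).toMonoidHom := by
      conv_lhs => rw [hK]
      rw [closure_le]
      rintro _ ⟨q, rfl⟩
      change x * (a q * q⁻¹) * x⁻¹ ∈ K
      have h1 : x * (a q * q⁻¹) * x⁻¹ = (a x * x⁻¹)⁻¹ * (a (x * q) * (x * q)⁻¹) := by
        rw [map_mul]; group
      rw [h1]
      exact K.mul_mem (K.inv_mem (hgen x)) (hgen (x * q))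
    intro k hk
    exact h0 hk
  have hK4 : center E ≤ K := by
    have hex : ∃ t ∈ center E, t ∈ K ∧ t ≠ 1 := by
      obtain ⟨q, hq⟩ := hane
      have hcK : a q * q⁻¹ ∈ K := hgen q
      have hc1 : a q * q⁻¹ ≠ 1 := fun h => hq (mul_inv_eq_one.mp h)
      by_cases hcz : a q * q⁻¹ ∈ center E
      · exact ⟨_, hcz, hcK, hc1⟩
      · rw [mem_center_iff] at hcz
        push Not at hcz
        obtain ⟨y, hy⟩ := hcz
        refine ⟨(a q * q⁻¹) * y * (a q * q⁻¹)⁻¹ * y⁻¹, hc _ _, ?_, ?_⟩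
        · have h1 := K.mul_mem hcK (hK3 y _ (K.inv_mem hcK))
          have h2 : (a q * q⁻¹) * y * (a q * q⁻¹)⁻¹ * y⁻¹
              = a q * q⁻¹ * (y * (a q * q⁻¹)⁻¹ * y⁻¹) := by group
          rw [h2]; exact h1
        · intro h
          apply hy
          calc y * (a q * q⁻¹)
              = ((a q * q⁻¹) * y * (a q * q⁻¹)⁻¹ * y⁻¹)⁻¹ * ((a q * q⁻¹) * y) := by group
            _ = (a q * q⁻¹) * y := by rw [h, inv_one, one_mul]
    obtain ⟨t, htZ, htK, ht1⟩ := hex
    obtain ⟨y, -, hy⟩ := (Nat.card_eq_two_iff' (1 : center E)).mp hcard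
    intro s hs
    by_cases hs1 : s = 1
    · rw [hs1]; exact K.one_mem
    · have h1 : (⟨s, hs⟩ : center E) = y := hy _ (fun h => hs1 (congrArg Subtype.val h))
      have h2 : (⟨t, htZ⟩ : center E) = y := hy _ (fun h => ht1 (congrArg Subtype.val h))
      have h3 : s = t := congrArg Subtype.val (h1.trans h2.symm)
      rw [h3]; exact htK
  have hZn : (center E).Normal := inferInstance
  have hid : ∀ q₁ q₂ : E, (a q₁ * q₁⁻¹)⁻¹ * (a q₂ * q₂⁻¹)
      = q₁ * (a (q₁⁻¹ * q₂) * (q₁⁻¹ * q₂)⁻¹) * q₁⁻¹ := by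
    intro q₁ q₂
    rw [map_mul, map_inv]; group
  have hiff : ∀ q₁ q₂ : E, q₁⁻¹ * q₂ ∈ E₀ ↔ (a q₁ * q₁⁻¹)⁻¹ * (a q₂ * q₂⁻¹) ∈ center E := by
    intro q₁ q₂
    rw [hid, hE₀]
    constructor
    · intro h; exact hZn.conj_mem _ h _
    · intro h
      have h1 := hZn.conj_mem _ h q₁⁻¹
      have h2 : q₁⁻¹ * (q₁ * (a (q₁⁻¹ * q₂) * (q₁⁻¹ * q₂)⁻¹) * q₁⁻¹) * q₁⁻¹⁻¹
          = a (q₁⁻¹ * q₂) * (q₁⁻¹ * q₂)⁻¹ := by group
      rwa [h2] at h1
  have hC2 : 2 * E₀.index ≤ Nat.card K := by
    have h1 := ((center E).subgroupOf K).card_mul_index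
    have h2 : Nat.card ((center E).subgroupOf K) = 2 := by
      rw [← hcard]; exact Nat.card_congr (subgroupOfEquivOfLe hK4).toEquiv
    rw [h2] at h1
    rw [← h1]
    apply Nat.mul_le_mul_left
    let f : E ⧸ E₀ → ↥K ⧸ (center E).subgroupOf K :=
      Quotient.map' (fun q => (⟨a q * q⁻¹, hgen q⟩ : ↥K)) (by
        intro q₁ q₂ h
        rw [QuotientGroup.leftRel_apply] at h ⊢
        rw [mem_subgroupOf]
        exact (hiff q₁ q₂).mp h)
    apply Nat.card_le_card_of_injective f
    intro x y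
    induction x using Quotient.inductionOn' with | _ q₁ => ?_
    induction y using Quotient.inductionOn' with | _ q₂ => ?_
    intro h
    have h3 : ((⟨a q₁ * q₁⁻¹, hgen q₁⟩ : ↥K) : ↥K ⧸ (center E).subgroupOf K)
        = ((⟨a q₂ * q₂⁻¹, hgen q₂⟩ : ↥K) : ↥K ⧸ (center E).subgroupOf K) := h
    rw [QuotientGroup.eq, mem_subgroupOf] at h3
    exact QuotientGroup.eq.mpr ((hiff q₁ q₂).mpr h3)
  have hZE₀ : center E ≤ E₀ := hK4.trans hK1
  have hE₀n : E₀.Normal := by
    refine ⟨fun n hn g => ?_⟩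
    have h1 : g * n * g⁻¹ = (g * n * g⁻¹ * n⁻¹) * n := by group
    rw [h1]
    exact E₀.mul_mem (hZE₀ (hc g n)) hn
  have hC1 := card_centralizer_le hcomm hcard E₀
  exact ⟨eq_of_le_of_card_ge hK2 (hC1.trans hC2), hK1⟩

/-- Let G be a finite group and let z be an involution of G such that Q, the generalized Fitting subgroup of the centralizer C of z, is a 2-group of symplectic type (every characteristic abelian subgroup of Q is cyclic); suppose Q is extraspecial, and view Q inside G. Let α be an involution of C that is not in Q, and let Q₀ be the subgroup of those q ∈ Q whose commutator with α lies in the subgroup generated by z. Then (a) the subgroup generated by the commutators α q α⁻¹ q⁻¹, q ∈ Q, equals the centre of Q₀; and (b) if Q₀ is not contained in the product of the centralizer of α in Q with the subgroup generated by z, then some element of Q conjugates α to α z. -/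
theorem result {G : Type*} [Group G] [Finite G] (z : G) (hz : orderOf z = 2) (hQ : Cfsg.IsOfSymplecticType ↥(Cfsg.generalizedFittingSubgroup ↥(Subgroup.centralizer ({z} : Set G)))) (hE : Cfsg.IsExtraspecial 2 ↥(Cfsg.generalizedFittingSubgroup ↥(Subgroup.centralizer ({z} : Set G))))
    (α : G) (hα : orderOf α = 2) (hαC : α ∈ Subgroup.centralizer ({z} : Set G)) (hαQ : α ∉ (Cfsg.generalizedFittingSubgroup ↥(Subgroup.centralizer ({z} : Set G))).map (Subgroup.centralizer ({z} : Set G)).subtype)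
    (Q₀ : Subgroup G) (hQ₀ : ∀ q : G, q ∈ Q₀ ↔ (q ∈ (Cfsg.generalizedFittingSubgroup ↥(Subgroup.centralizer ({z} : Set G))).map (Subgroup.centralizer ({z} : Set G)).subtype ∧ α * q * α⁻¹ * q⁻¹ ∈ Subgroup.zpowers z)) :
    Subgroup.closure ((fun q : G => α * q * α⁻¹ * q⁻¹) '' ((Cfsg.generalizedFittingSubgroup ↥(Subgroup.centralizer ({z} : Set G))).map (Subgroup.centralizer ({z} : Set G)).subtype : Set G)) = (Subgroup.center ↥Q₀).map Q₀.subtype ∧
      (¬ Q₀ ≤ ((Cfsg.generalizedFittingSubgroup ↥(Subgroup.centralizer ({z} : Set G))).map (Subgroup.centralizer ({z} : Set G)).subtype ⊓ Subgroup.centralizer ({α} : Set G)) ⊔ Subgroup.zpowers z →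
        ∃ q ∈ (Cfsg.generalizedFittingSubgroup ↥(Subgroup.centralizer ({z} : Set G))).map (Subgroup.centralizer ({z} : Set G)).subtype, q * α * q⁻¹ = α * z) := by
  have hp2 : Fact (Nat.Prime 2) := ⟨Nat.prime_two⟩
  have hz2 : z * z = 1 := by rw [← pow_two, ← hz, pow_orderOf_eq_one]
  have hα2 : α * α = 1 := by rw [← pow_two, ← hα, pow_orderOf_eq_one]
  have hαinv : α⁻¹ = α := inv_eq_of_mul_eq_one_left hα2
  have hzinv : z⁻¹ = z := inv_eq_of_mul_eq_one_left hz2
  have hαz : α * z = z * α := mem_centralizer_singleton_iff.mp hαC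
  have hz1 : z ≠ 1 := by
    rintro rfl; rw [orderOf_one] at hz; omega
  constructor
  · have hn : (FsC z).Normal := Cfsg.Agent.Lib.Helper28.genFitting_normal
    let j : ↥(FsC z) →* G := (CC z).subtype.comp (FsC z).subtype
    have hj : Function.Injective j :=
      (CC z).subtype_injective.comp (FsC z).subtype_injective
    have hjQ : ∀ e : ↥(FsC z), j e ∈ QQ z := fun e => ⟨e.1, e.2, rfl⟩
    have hQj : ∀ q ∈ QQ z, ∃ e : ↥(FsC z), j e = q := by
      rintro _ ⟨c, hc, rfl⟩
      exact ⟨⟨c, hc⟩, rfl⟩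
    let αC : ↥(CC z) := ⟨α, hαC⟩
    let a : ↥(FsC z) →* ↥(FsC z) :=
      MonoidHom.mk' (fun x => ⟨αC * x * αC⁻¹, hn.conj_mem x x.2 αC⟩) (by
        intro x y
        apply Subtype.ext
        change αC * (x * y) * αC⁻¹ = (αC * x * αC⁻¹) * (αC * y * αC⁻¹)
        group)
    have hja : ∀ x, j (a x) = α * j x * α⁻¹ := fun x => rfl
    let zE : ↥(FsC z) := ⟨zC z, zC_mem_FsC z hz⟩
    have hjz : j zE = z := rfl
    have hzEc : zE ∈ center ↥(FsC z) := by
      rw [mem_center_iff]
      intro x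
      apply Subtype.ext
      exact mem_center_iff.mp (zC_mem_center z) x
    have hcen : center ↥(FsC z) = zpowers zE := by
      symm
      apply eq_of_le_of_card_ge (by rw [zpowers_le]; exact hzEc)
      rw [hE.2, Nat.card_zpowers]
      have : orderOf zE = orderOf z := (orderOf_injective j hj zE).symm
      rw [this, hz]
    have hceniff : ∀ e : ↥(FsC z), e ∈ center ↥(FsC z) ↔ j e ∈ zpowers z := by
      intro e
      have h1 : zpowers z = (zpowers zE).map j := (MonoidHom.map_zpowers j zE).symm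
      rw [hcen, h1, mem_map_iff_mem hj]
    have hcore := core hE.1.2.2 hE.2 a
      (by
        intro x
        apply hj
        rw [hja, hja]
        calc α * (α * j x * α⁻¹) * α⁻¹ = (α * α) * j x * (α * α)⁻¹ := by group
          _ = j x := by rw [hα2]; group)
      (by
        intro x hx
        apply hj
        rw [hja]
        rcases mem_zpowers_two hz2 ((hceniff x).mp hx) with h | h
        · rw [h]; group
        · rw [h, hαz]; group)
      (by
        by_contra hcon
        push Not at hcon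
        apply hαQ
        apply centralizer_QQ_le z hz
        rw [mem_centralizer_iff]
        intro q hq
        obtain ⟨e, rfl⟩ := hQj q hq
        have h1 := congrArg j (hcon e)
        rw [hja] at h1
        calc j e * α = (α * j e * α⁻¹) * α := by rw [h1]
          _ = α * j e := by group)
      (Q₀.comap j)
      (by
        intro q
        rw [mem_comap, hQ₀, hceniff, map_mul, hja, map_inv]
        exact ⟨fun h => h.2, fun h => ⟨hjQ q, h⟩⟩)
    obtain ⟨hK, hKE₀⟩ := hcore
    have himg : (fun q : G => α * q * α⁻¹ * q⁻¹) '' (QQ z : Set G)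
        = j '' (Set.range fun q => a q * q⁻¹) := by
      ext x
      constructor
      · rintro ⟨q, hq, rfl⟩
        obtain ⟨e, rfl⟩ := hQj q hq
        exact ⟨_, ⟨e, rfl⟩, by rw [map_mul, hja, map_inv]⟩
      · rintro ⟨_, ⟨e, rfl⟩, rfl⟩
        exact ⟨j e, hjQ e, by rw [map_mul, hja, map_inv]⟩
    have hQ₀Q : ∀ q ∈ Q₀, q ∈ QQ z := fun q hq => ((hQ₀ q).mp hq).1
    change closure ((fun q : G => α * q * α⁻¹ * q⁻¹) '' (QQ z : Set G)) = _
    rw [himg, ← MonoidHom.map_closure]
    ext x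
    constructor
    · rintro ⟨k, hk, rfl⟩
      have hk0 : j k ∈ Q₀ := hKE₀ hk
      refine ⟨⟨j k, hk0⟩, ?_, rfl⟩
      rw [SetLike.mem_coe, mem_center_iff]
      intro y
      apply Subtype.ext
      obtain ⟨e, he⟩ := hQj y (hQ₀Q y y.2)
      have heE₀ : e ∈ Q₀.comap j := by rw [mem_comap, he]; exact y.2
      rw [SetLike.mem_coe, hK] at hk
      have h1 := (mem_centralizer_iff.mp hk) e heE₀
      have h2 := congrArg j h1
      rw [map_mul, map_mul, he] at h2
      exact h2
    · rintro ⟨⟨x, hx⟩, hxc, rfl⟩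
      obtain ⟨k, rfl⟩ := hQj x (hQ₀Q x hx)
      refine ⟨k, ?_, rfl⟩
      rw [SetLike.mem_coe, hK, mem_centralizer_iff]
      intro e he
      apply hj
      rw [map_mul, map_mul]
      exact congrArg Subtype.val ((mem_center_iff.mp hxc) ⟨j e, he⟩)
  · intro hnot
    obtain ⟨q, hq0, hqn⟩ := SetLike.not_le_iff_exists.mp hnot
    obtain ⟨hqQ, hqz⟩ := (hQ₀ q).mp hq0
    refine ⟨q, hqQ, ?_⟩
    rcases mem_zpowers_two hz2 hqz with h | h
    · exfalso
      apply hqn
      apply (le_sup_left : _ ≤ _ ⊔ zpowers z)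
      refine mem_inf.mpr ⟨hqQ, ?_⟩
      rw [mem_centralizer_singleton_iff]
      calc q * α = (α * q * α⁻¹ * q⁻¹)⁻¹ * (α * q) := by group
        _ = α * q := by rw [h]; group
    · calc q * α * q⁻¹ = q * α⁻¹ * q⁻¹ := by rw [hαinv]
        _ = α⁻¹ * (α * q * α⁻¹ * q⁻¹) := by group
        _ = α * z := by rw [h, hαinv]

end Cfsg.Agent.S1784
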