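import Cfsg.Statements.S1785
import Cfsg.Agent.Lib.Helper36.ElemAb
import Mathlib.GroupTheory.Commutator.Basic

set_option autoImplicit false
open Cfsg

namespace Cfsg.Agent.S1785

open Cfsg.Agent.Lib.Helper36 Subgroup

variable {X : Type*} [Group X]

/-- `C_E(U)` -/
abbrev cE (E U : Subgroup X) : Subgroup X := E ⊓ centralizer (U : Set X)

theorem ea_comm {A : Subgroup X} (hA : Cfsg.IsElementaryAbelian 2 A) :
    ∀ a ∈ A, ∀ b ∈ A, a * b = b * a := fun a ha b hb =>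
  congrArg Subtype.val (hA.1.is_comm.comm ⟨a, ha⟩ ⟨b, hb⟩)

theorem ea_sq {A : Subgroup X} (hA : Cfsg.IsElementaryAbelian 2 A) : ∀ a ∈ A, a * a = 1 :=
  fun a ha => by rw [← pow_two]; exact hA.2 a ha

theorem ea_mk {A : Subgroup X} (h1 : ∀ a ∈ A, ∀ b ∈ A, a * b = b * a) (h2 : ∀ a ∈ A, a * a = 1) :
    Cfsg.IsElementaryAbelian 2 A :=
  ⟨⟨⟨fun a b => Subtype.ext (h1 a a.2 b b.2)⟩⟩, fun a ha => by rw [pow_two]; exact h2 a ha⟩

theorem ea_le {A B : Subgroup X} (hA : Cfsg.IsElementaryAbelian 2 A) (h : B ≤ A) :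
    Cfsg.IsElementaryAbelian 2 B :=
  ea_mk (fun a ha b hb => ea_comm hA a (h ha) b (h hb)) (fun a ha => ea_sq hA a (h ha))

theorem card_cE_adj [Finite X] (E : Subgroup X) [hEn : E.Normal] (hE : Cfsg.IsElementaryAbelian 2 E)
    (U : Subgroup X) (w : X) (hw : w * w = 1) (hc : ∀ u ∈ U, w * u = u * w) :
    Nat.card (cE E U) ≤ Nat.card (cE E (adj U w hw hc)) ^ 2 := by
  have hF : cE E U ≤ E := inf_le_left
  have h1 := card_le_sq_centralizer (cE E U) (fun a ha b hb => ea_comm hE a (hF ha) b (hF hb))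
    (fun a ha => ea_sq hE a (hF ha)) w hw (by
      intro f hf
      refine mem_inf.mpr ⟨hEn.conj_mem f (hF hf) w, ?_⟩
      rw [mem_centralizer_iff]
      intro u hu
      have h2 : u * f = f * u := (mem_centralizer_iff.mp (mem_inf.mp hf).2) u hu
      have h3 : w * u = u * w := hc u hu
      have h4 : u * w⁻¹ = w⁻¹ * u := by
        calc u * w⁻¹ = w⁻¹ * (w * u) * w⁻¹ := by group
          _ = w⁻¹ * (u * w) * w⁻¹ := by rw [h3]
          _ = w⁻¹ * u := by group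
      calc u * (w * f * w⁻¹) = (u * w) * f * w⁻¹ := by group
        _ = (w * u) * f * w⁻¹ := by rw [h3]
        _ = w * (u * f) * w⁻¹ := by group
        _ = w * (f * u) * w⁻¹ := by rw [h2]
        _ = w * f * (u * w⁻¹) := by group
        _ = w * f * (w⁻¹ * u) := by rw [h4]
        _ = w * f * w⁻¹ * u := by group)
  have hle : cE E U ⊓ centralizer {w} ≤ cE E (adj U w hw hc) := by
    intro x hx
    obtain ⟨hx1, hx2⟩ := mem_inf.mp hx
    obtain ⟨hxE, hxU⟩ := mem_inf.mp hx1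
    refine mem_inf.mpr ⟨hxE, ?_⟩
    rw [mem_centralizer_iff]
    have hxw : x * w = w * x := mem_centralizer_singleton_iff.mp hx2
    rintro y (hy | hy)
    · exact (mem_centralizer_iff.mp hxU) y hy
    · have h2 : (y * w) * x = x * (y * w) := (mem_centralizer_iff.mp hxU) _ hy
      apply mul_right_cancel (b := w)
      calc y * x * w = y * (x * w) := by group
        _ = y * (w * x) := by rw [hxw]
        _ = (y * w) * x := by group
        _ = x * (y * w) := h2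
        _ = x * y * w := by group
  exact h1.trans (Nat.pow_le_pow_left (card_le_of_le hle) 2)

theorem card_cE_step [Finite X] (E : Subgroup X) [hEn : E.Normal]
    (hE : Cfsg.IsElementaryAbelian 2 E) (U U' : Subgroup X) (hUU' : U ≤ U')
    (hU' : Cfsg.IsElementaryAbelian 2 U') (hcard : Nat.card U' = 2 * Nat.card U) :
    Nat.card (cE E U) ≤ Nat.card (cE E U') ^ 2 := by
  have hex : ∃ w ∈ U', w ∉ U := by
    by_contra hcon
    push Not at hcon
    have := card_le_of_le (show U' ≤ U from hcon)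
    have hpos : 0 < Nat.card U := Nat.card_pos
    omega
  obtain ⟨w, hwU', hwU⟩ := hex
  have hw : w * w = 1 := ea_sq hU' w hwU'
  have hc : ∀ u ∈ U, w * u = u * w := fun u hu => ea_comm hU' w hwU' u (hUU' hu)
  have hle : adj U w hw hc ≤ U' := adj_le hUU' hwU'
  have heq : adj U w hw hc = U' := by
    apply eq_of_le_of_card_ge hle
    rw [card_adj U w hw hc hwU, hcard]
  have := card_cE_adj E hE U w hw hc
  rwa [heq] at this

theorem exists_mid [Finite X] (A U : Subgroup X) (hUA : U ≤ A) (n k m : ℕ)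
    (hU : Nat.card U = 2 ^ n) (hA : Nat.card A = 2 ^ m) (hnk : n ≤ k) (hkm : k ≤ m) :
    ∃ U' : Subgroup X, U ≤ U' ∧ U' ≤ A ∧ Nat.card U' = 2 ^ k := by
  have hp2 : Fact (Nat.Prime 2) := ⟨Nat.prime_two⟩
  have hH : Nat.card (U.subgroupOf A) = 2 ^ n := by
    rw [← hU]; exact Nat.card_congr (subgroupOfEquivOfLe hUA).toEquiv
  obtain ⟨K, hK, hHK⟩ := Sylow.exists_subgroup_card_pow_prime_le (G := ↥A) 2
    (by rw [hA]; exact pow_dvd_pow 2 hkm) (U.subgroupOf A) hH hnk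
  refine ⟨K.map A.subtype, ?_, map_subtype_le K, ?_⟩
  · intro u hu
    exact ⟨⟨u, hUA hu⟩, hHK (mem_subgroupOf.mpr hu), rfl⟩
  · rw [card_map_of_injective A.subtype_injective, hK]

theorem card_cE_chain [Finite X] (E : Subgroup X) [hEn : E.Normal]
    (hE : Cfsg.IsElementaryAbelian 2 E) (A : Subgroup X) (hA : Cfsg.IsElementaryAbelian 2 A) (m : ℕ)
    (hAm : Nat.card A = 2 ^ m) :
    ∀ j : ℕ, ∀ (U : Subgroup X) (n : ℕ), U ≤ A → Nat.card U = 2 ^ n → n + j = m →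
      Nat.card (cE E U) ≤ Nat.card (cE E A) ^ (2 ^ j) := by
  intro j
  induction j with
  | zero =>
    intro U n hUA hU hn
    have : U = A := eq_of_le_of_card_ge hUA (by rw [hU, hAm]; simp at hn; rw [hn])
    rw [this]; simp
  | succ j ih =>
    intro U n hUA hU hn
    obtain ⟨U', hUU', hU'A, hU'⟩ := exists_mid A U hUA n (n + 1) m hU hAm (Nat.le_succ n) (by omega)
    have h1 := card_cE_step E hE U U' hUU' (ea_le hA hU'A) (by rw [hU', hU, pow_succ]; ring)
    have h2 := ih U' (n + 1) hU'A hU' (by omega)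
    calc Nat.card (cE E U) ≤ Nat.card (cE E U') ^ 2 := h1
      _ ≤ (Nat.card (cE E A) ^ (2 ^ j)) ^ 2 := Nat.pow_le_pow_left h2 2
      _ = Nat.card (cE E A) ^ (2 ^ (j + 1)) := by rw [← pow_mul, pow_succ]

theorem card_pow2 [Finite X] (hX : IsPGroup 2 X) (H : Subgroup X) : ∃ k, Nat.card H = 2 ^ k :=
  haveI : Fact (Nat.Prime 2) := ⟨Nat.prime_two⟩
  (IsPGroup.iff_card (p := 2)).mp (hX.to_subgroup H)

theorem cE_eq_of_le {E D : Subgroup X} (hE : Cfsg.IsElementaryAbelian 2 E) (hD : D ≤ E) :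
    cE E D = E := by
  apply inf_eq_left.mpr
  intro x hx
  rw [mem_centralizer_iff]
  intro u hu
  exact ea_comm hE u (hD hu) x hx

theorem exists_ext [Finite X] (hX : IsPGroup 2 X) (E : Subgroup X) [hEn : E.Normal]
    (hE : Cfsg.IsElementaryAbelian 2 E) (hE32 : 32 ≤ Nat.card ↥E)
    (A : Subgroup X) (hA : Cfsg.IsElementaryAbelian 2 A) (m : ℕ) (hm : m ≤ 3)
    (hAm : Nat.card A = 2 ^ m) : ∃ e ∈ cE E A, e ∉ A := by
  by_contra hcon
  push Not at hcon
  have hle : cE E A ≤ A ⊓ E := fun x hx => mem_inf.mpr ⟨hcon x hx, (mem_inf.mp hx).1⟩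
  obtain ⟨d, hd⟩ := card_pow2 hX (A ⊓ E)
  have hdm : d ≤ m := by
    have h1 := card_le_of_le (show A ⊓ E ≤ A from inf_le_left)
    rw [hd, hAm] at h1
    exact (Nat.pow_le_pow_iff_right (by norm_num)).mp h1
  have h1 := card_cE_chain E hE A hA m hAm (m - d) (A ⊓ E) d inf_le_left hd (by omega)
  rw [cE_eq_of_le hE inf_le_right] at h1
  have h2 : Nat.card (cE E A) ≤ 2 ^ d := hd ▸ card_le_of_le hle
  have h3 : 32 ≤ (2 ^ d) ^ (2 ^ (m - d)) :=
    hE32.trans (h1.trans (Nat.pow_le_pow_left h2 _))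
  interval_cases m <;> interval_cases d <;> norm_num at h3

theorem comm_of_mem_cE {E A : Subgroup X} {e : X} (he : e ∈ cE E A) : ∀ u ∈ A, e * u = u * e :=
  fun u hu => ((mem_centralizer_iff.mp (mem_inf.mp he).2) u hu).symm

theorem commutator_bot_of_le {A B K : Subgroup X} (hK : ∀ a ∈ K, ∀ b ∈ K, a * b = b * a)
    (hA : A ≤ K) (hB : B ≤ K) : ⁅A, B⁆ = ⊥ := by
  rw [commutator_eq_bot_iff_le_centralizer]
  intro a ha
  rw [mem_centralizer_iff]
  intro b hb
  exact hK b (hB hb) a (hA ha)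

theorem step [Finite X] (hX : IsPGroup 2 X) (E : Subgroup X) [hEn : E.Normal]
    (hE : Cfsg.IsElementaryAbelian 2 E) (hE32 : 32 ≤ Nat.card ↥E)
    (A : Subgroup X) (hA : Cfsg.IsElementaryAbelian 2 A) (hA8 : Nat.card A = 8) (hAE : ¬ A ≤ E) :
    ∃ A' : Subgroup X, Cfsg.IsElementaryAbelian 2 A' ∧ Nat.card A' = 8 ∧ ⁅A, A'⁆ = ⊥ ∧
      Nat.card ↥(A ⊓ E) < Nat.card ↥(A' ⊓ E) := by
  obtain ⟨e, heC, heA⟩ := exists_ext hX E hE hE32 A hA 3 le_rfl (by rw [hA8]; norm_num)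
  have heE : e ∈ E := (mem_inf.mp heC).1
  have he2 : e * e = 1 := ea_sq hE e heE
  have hec : ∀ u ∈ A, e * u = u * e := comm_of_mem_cE heC
  obtain ⟨d, hd⟩ := card_pow2 hX (A ⊓ E)
  have hd2 : d ≤ 2 := by
    by_contra hcon
    have h3 : 3 ≤ d := by omega
    have h1 : A ⊓ E = A := eq_of_le_of_card_ge inf_le_left (by
      rw [hd, hA8]
      calc 8 = 2 ^ 3 := by norm_num
        _ ≤ 2 ^ d := Nat.pow_le_pow_right (by norm_num) h3)
    exact hAE (inf_eq_left.mp h1)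
  obtain ⟨A₀, hDA₀, hA₀A, hA₀⟩ := exists_mid A (A ⊓ E) inf_le_left d 2 3 hd
    (by rw [hA8]; norm_num) hd2 (by norm_num)
  have hec₀ : ∀ u ∈ A₀, e * u = u * e := fun u hu => hec u (hA₀A hu)
  have hecD : ∀ u ∈ A ⊓ E, e * u = u * e := fun u hu => hec u (mem_inf.mp hu).1
  have hA₀ea := ea_le hA hA₀A
  refine ⟨adj A₀ e he2 hec₀, ea_mk (adj_comm (ea_comm hA₀ea)) (adj_sq (ea_sq hA₀ea)), ?_, ?_, ?_⟩
  · rw [card_adj A₀ e he2 hec₀ (fun h => heA (hA₀A h)), hA₀]; norm_num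
  · exact commutator_bot_of_le (K := adj A e he2 hec) (adj_comm (ea_comm hA)) (le_adj _ _ _ _)
      (adj_le (hA₀A.trans (le_adj _ _ _ _)) (self_mem_adj _ _ _ _))
  · have h1 : adj (A ⊓ E) e he2 hecD ≤ adj A₀ e he2 hec₀ ⊓ E :=
      le_inf (adj_le (hDA₀.trans (le_adj _ _ _ _)) (self_mem_adj _ _ _ _))
        (adj_le inf_le_right heE)
    have h2 := card_le_of_le h1
    rw [card_adj (A ⊓ E) e he2 hecD (fun h => heA (mem_inf.mp h).1)] at h2
    have hpos : 0 < Nat.card ↥(A ⊓ E) := Nat.card_pos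
    omega

/-- the commuting relation on `E₈`-subgroups -/
abbrev RR (C D : Subgroup X) : Prop :=
  Cfsg.IsElementaryAbelian 2 C ∧ Nat.card ↥C = 8 ∧ Cfsg.IsElementaryAbelian 2 D ∧
    Nat.card ↥D = 8 ∧ ⁅C, D⁆ = ⊥

theorem RR_symm : Std.Symm (RR (X := X)) := ⟨by
  rintro C D ⟨h1, h2, h3, h4, h5⟩
  exact ⟨h3, h4, h1, h2, by rw [commutator_comm]; exact h5⟩⟩

theorem connect_to_E [Finite X] (hX : IsPGroup 2 X) (E : Subgroup X) [hEn : E.Normal]
    (hE : Cfsg.IsElementaryAbelian 2 E) (hE32 : 32 ≤ Nat.card ↥E) :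
    ∀ n : ℕ, ∀ A : Subgroup X, Cfsg.IsElementaryAbelian 2 A → Nat.card A = 8 →
      8 - Nat.card ↥(A ⊓ E) ≤ n →
      ∃ A' : Subgroup X, Cfsg.IsElementaryAbelian 2 A' ∧ Nat.card A' = 8 ∧ A' ≤ E ∧
        Relation.ReflTransGen RR A A' := by
  intro n
  induction n with
  | zero =>
    intro A hA hA8 hn
    have h1 : A ⊓ E = A := eq_of_le_of_card_ge inf_le_left (by rw [hA8]; omega)
    exact ⟨A, hA, hA8, inf_eq_left.mp h1, Relation.ReflTransGen.refl⟩
  | succ n ih =>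
    intro A hA hA8 hn
    by_cases hAE : A ≤ E
    · exact ⟨A, hA, hA8, hAE, Relation.ReflTransGen.refl⟩
    · obtain ⟨A₁, hA₁, hA₁8, hcomm, hlt⟩ := step hX E hE hE32 A hA hA8 hAE
      obtain ⟨A', hA', hA'8, hA'E, hchain⟩ := ih A₁ hA₁ hA₁8 (by omega)
      exact ⟨A', hA', hA'8, hA'E, Relation.ReflTransGen.head ⟨hA, hA8, hA₁, hA₁8, hcomm⟩ hchain⟩

/-- Let X be a finite 2-group having a normal elementary abelian subgroup of order at least 32. Then (a) for any two elementary abelian subgroups A, B of X of order 8 there is a chain A = A₁, A₂, …, Aₙ = B of elementary abelian subgroups of order 8 in which consecutive members commute elementwise; and (b) every elementary abelian subgroup of X of order 4 is contained in an elementary abelian subgroup of order 8. -/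
theorem result {X : Type*} [Group X] [Finite X]
    (hX : IsPGroup 2 X) (E : Subgroup X) [E.Normal] (hE : Cfsg.IsElementaryAbelian 2 E) (hE32 : 32 ≤ Nat.card ↥E) :
    (∀ A B : Subgroup X, Cfsg.IsElementaryAbelian 2 A → Nat.card ↥A = 8 → Cfsg.IsElementaryAbelian 2 B → Nat.card ↥B = 8 →
        Relation.ReflTransGen
          (fun C D : Subgroup X => Cfsg.IsElementaryAbelian 2 C ∧ Nat.card ↥C = 8 ∧ Cfsg.IsElementaryAbelian 2 D ∧ Nat.card ↥D = 8 ∧ ⁅C, D⁆ = ⊥)
          A B) ∧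
      (∀ V : Subgroup X, Cfsg.IsElementaryAbelian 2 V → Nat.card ↥V = 4 →
        ∃ A : Subgroup X, V ≤ A ∧ Cfsg.IsElementaryAbelian 2 A ∧ Nat.card ↥A = 8) := by
  constructor
  · intro A B hA hA8 hB hB8
    obtain ⟨A', hA', hA'8, hA'E, hchA⟩ := connect_to_E hX E hE hE32 _ A hA hA8 le_rfl
    obtain ⟨B', hB', hB'8, hB'E, hchB⟩ := connect_to_E hX E hE hE32 _ B hB hB8 le_rfl
    have h1 : RR A' B' := ⟨hA', hA'8, hB', hB'8, commutator_bot_of_le (ea_comm hE) hA'E hB'E⟩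
    haveI := RR_symm (X := X)
    exact (hchA.tail h1).trans ((Relation.ReflTransGen.stdSymm (r := RR (X := X))).symm _ _ hchB)
  · intro V hV hV4
    obtain ⟨e, heC, heV⟩ := exists_ext hX E hE hE32 V hV 2 (by norm_num) (by rw [hV4]; norm_num)
    have he2 : e * e = 1 := ea_sq hE e (mem_inf.mp heC).1
    have hec : ∀ u ∈ V, e * u = u * e := comm_of_mem_cE heC
    refine ⟨adj V e he2 hec, le_adj _ _ _ _, ea_mk (adj_comm (ea_comm hV)) (adj_sq (ea_sq hV)), ?_⟩
    rw [card_adj V e he2 hec heV, hV4]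

end Cfsg.Agent.S1785
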