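import Cfsg.Statements.S1786
import Cfsg.Agent.Lib.Helper36.TimB
import Cfsg.Agent.Lib.Helper36.TimC
import Cfsg.Agent.Lib.Helper28.Rel
import Cfsg.Agent.Lib.Helper3.Frattini

set_option autoImplicit false
open Cfsg

namespace Cfsg.Agent.S1786

open Cfsg.Agent.Lib.Helper36 Subgroup
open scoped commutatorElement

theorem core {G : Type*} [Group G] [Finite G] (V : Subgroup G)
    (hV : Cfsg.IsElementaryAbelian 2 V)
    (h1 : Cfsg.Agent.Lib.Helper28.fstarIn (normalizer (V : Set G)) = Cfsg.Agent.Lib.Helper28.opIn 2 (normalizer (V : Set G)))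
    (h2 : ∀ A : Subgroup G, V ≤ A → A ≤ normalizer (V : Set G) → IsMulCommutative ↥A →
      (∀ m ∈ normalizer (V : Set G), ∀ a ∈ A, m * a * m⁻¹ ∈ A) → A = V)
    (hti : ∀ x : G, V.map (MulAut.conj x).toMonoidHom = V ∨
      V.map (MulAut.conj x).toMonoidHom ⊓ V = ⊥)
    (g : G) (hg : V.map (MulAut.conj g).toMonoidHom ≠ V)
    (Q : Subgroup G) (hQ : Q = Cfsg.Agent.Lib.Helper28.opIn 2 (normalizer (V : Set G)))
    (hgQ : V.map (MulAut.conj g).toMonoidHom ≤ Q) :
    V ≤ Q.map (MulAut.conj g).toMonoidHom ∧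
      (∀ w ∈ V ⊔ V.map (MulAut.conj g).toMonoidHom, w ≠ 1 →
        ∃! U : Subgroup G, (∃ x : G, U = V.map (MulAut.conj x).toMonoidHom) ∧
          U ≤ V ⊔ V.map (MulAut.conj g).toMonoidHom ∧ w ∈ U) ∧
      (Q ⊓ centralizer (V : Set G)) ⊔ (Q ⊓ centralizer (V : Set G)).map (MulAut.conj g).toMonoidHom ≤
        normalizer ((V ⊔ V.map (MulAut.conj g).toMonoidHom : Subgroup G) : Set G) ∧
      (∀ hN : ((centralizer ((V ⊔ V.map (MulAut.conj g).toMonoidHom : Subgroup G) : Set G)).subgroupOf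
          ((Q ⊓ centralizer (V : Set G)) ⊔
            (Q ⊓ centralizer (V : Set G)).map (MulAut.conj g).toMonoidHom)).Normal,
        ∃ (F : Type) (_ : Field F) (_ : Fintype F), Fintype.card F = Nat.card ↥V ∧
        Nonempty (↥((Q ⊓ centralizer (V : Set G)) ⊔
            (Q ⊓ centralizer (V : Set G)).map (MulAut.conj g).toMonoidHom) ⧸
          (centralizer ((V ⊔ V.map (MulAut.conj g).toMonoidHom : Subgroup G) : Set G)).subgroupOf
            ((Q ⊓ centralizer (V : Set G)) ⊔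
              (Q ⊓ centralizer (V : Set G)).map (MulAut.conj g).toMonoidHom) ≃*
          Matrix.SpecialLinearGroup (Fin 2) F)) ∧
      Q ⊓ centralizer (V : Set G) = Q ∧ (frattini ↥Q).map Q.subtype = V ∧
      (center ↥Q).map Q.subtype = V ∧ (commutator ↥Q).map Q.subtype = V := by
  have : Fact (Nat.Prime 2) := ⟨Nat.prime_two⟩
  obtain ⟨M, hM⟩ : ∃ M : Subgroup G, M = normalizer (V : Set G) := ⟨_, rfl⟩
  rw [← hM] at h1 hQ
  have sqA : ∀ a ∈ V, a * a = 1 := fun a ha => by rw [← pow_two]; exact hV.2 a ha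
  have commA : ∀ a ∈ V, ∀ b ∈ V, a * b = b * a := fun a ha b hb =>
    congrArg Subtype.val (hV.1.is_comm.comm ⟨a, ha⟩ ⟨b, hb⟩)
  have hQM : Q ≤ M := by rw [hQ]; exact Cfsg.Agent.Lib.Helper28.opIn_le 2 M
  have hMQ : M ≤ normalizer (Q : Set G) := by rw [hQ]; exact Cfsg.Agent.Lib.Helper28.le_normalizer_opIn 2 M
  have hQp : IsPGroup 2 ↥Q := by rw [hQ]; exact Cfsg.Agent.Lib.Helper28.opIn_isPGroup 2 M
  have hle : ∀ X : Subgroup G, X ≤ M → M ≤ normalizer (X : Set G) → IsPGroup 2 X → X ≤ Q := by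
    intro X h1 h2 h3
    rw [hQ]; exact Cfsg.Agent.Lib.Helper28.le_opIn h1 h2 h3
  have hCQ : M ⊓ centralizer (Q : Set G) ≤ Q := by
    have := Cfsg.Agent.Lib.Helper28.inf_centralizer_fstarIn_le M
    rwa [h1, ← hQ] at this
  have h2' : ∀ J : Subgroup G, V ≤ J → J ≤ M → (∀ x ∈ J, ∀ y ∈ J, x * y = y * x) →
      (∀ m ∈ M, ∀ j ∈ J, m * j * m⁻¹ ∈ J) → J ≤ V := by
    intro J hVJ hJM hJab hJinv
    refine le_of_eq (h2 J hVJ (hM ▸ hJM) ⟨⟨fun x y => Subtype.ext (hJab x.1 x.2 y.1 y.2)⟩⟩ ?_)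
    intro m hm
    exact hJinv m (hM ▸ hm)
  have hti' : ∀ x : G, ∀ a ∈ V, a ≠ 1 → x * a * x⁻¹ ∈ V → x ∈ M := by
    intro x a ha ha1 hxa
    rw [hM, ← map_conj_eq_iff_mem_normalizer]
    rcases hti x with h | h
    · exact h
    · exfalso
      have : x * a * x⁻¹ ∈ V.map (MulAut.conj x).toMonoidHom ⊓ V :=
        mem_inf.mpr ⟨conj_mem_map_conj V x a ha, hxa⟩
      rw [h, mem_bot] at this
      apply ha1
      calc a = x⁻¹ * (x * a * x⁻¹) * x := by group
        _ = 1 := by rw [this]; group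
  have tg : TG V (Q ⊓ centralizer (V : Set G)) :=
    TG.of_local V M Q hM sqA commA hQM hMQ hQp hle hCQ h2' hti'
  obtain ⟨P, hP⟩ : ∃ P : Subgroup G, P = Q ⊓ centralizer (V : Set G) := ⟨_, rfl⟩
  rw [← hP] at tg ⊢
  obtain ⟨B, hB⟩ : ∃ B : Subgroup G, B = V.map (MulAut.conj g).toMonoidHom := ⟨_, rfl⟩
  have disj : ∀ x ∈ V, x ∈ V.map (MulAut.conj g).toMonoidHom → x = 1 := by
    intro x hx hxB
    rcases hti g with h | h
    · exact absurd h hg
    · have : x ∈ V.map (MulAut.conj g).toMonoidHom ⊓ V := mem_inf.mpr ⟨hxB, hx⟩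
      rwa [h, mem_bot] at this
  have neA : ∃ a ∈ V, a ≠ 1 := by
    by_contra hcon
    push Not at hcon
    apply hg
    have hbot : V = ⊥ := (eq_bot_iff_forall V).mpr hcon
    rw [hbot, Subgroup.map_bot]
  have pair := tg.pair g disj neA
  obtain ⟨P', hP'⟩ : ∃ P' : Subgroup G, P' = P.map (MulAut.conj g).toMonoidHom := ⟨_, rfl⟩
  rw [← hB] at hgQ pair ⊢
  rw [← hP'] at pair ⊢
  -- `B` centralizes `V`
  have hBV : ∀ b ∈ B, ∀ a ∈ V, b * a = a * b := by
    have hcomm : ⁅V, B⁆ = ⊥ := by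
      apply commutator_eq_bot_of_le_normalizer V B
      · intro a _
        by_cases hex : ∃ b ∈ B, b ≠ 1 ∧ a * b * a⁻¹ ∈ B
        · obtain ⟨b, hb, hb1, hab⟩ := hex
          left
          rw [map_conj_eq_iff_mem_normalizer]
          exact pair.tB.ti a b hb hb1 hab
        · right
          push Not at hex
          rw [eq_bot_iff_forall]
          intro x hx
          obtain ⟨hx1, hx2⟩ := mem_inf.mp hx
          rw [mem_map_conj] at hx1
          by_contra hx0
          have h3 : a⁻¹ * x * a ≠ 1 := by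
            intro h4
            apply hx0
            calc x = a * (a⁻¹ * x * a) * a⁻¹ := by group
              _ = 1 := by rw [h4]; group
          apply hex _ hx1 h3
          have e : a * (a⁻¹ * x * a) * a⁻¹ = x := by group
          rw [e]; exact hx2
      · exact le_of_eq pair.card
      · rw [eq_bot_iff_forall]
        intro x hx
        exact pair.disj x (mem_inf.mp hx).1 (mem_inf.mp hx).2
      · rw [← hM]; exact hgQ.trans hQM
    rw [commutator_eq_bot_iff_le_centralizer] at hcomm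
    intro b hb a ha
    exact mem_centralizer_iff.mp (hcomm ha) b hb
  have hBP : B ≤ P := by
    intro b hb
    rw [hP]
    exact mem_inf.mpr ⟨hgQ hb, mem_centralizer_iff.mpr fun a ha => (hBV b hb a ha).symm⟩
  have hAP' : V ≤ P' := pair.le_of_le hBP
  have sld := pair.slData hBP hAP'
  have hPQ' : P' ≤ Q.map (MulAut.conj g).toMonoidHom := by
    rw [hP', hP]; exact Subgroup.map_mono inf_le_left
  have hWmem : ∀ w, w ∈ V ⊔ B ↔ ∃ a ∈ V, ∃ b ∈ B, w = a * b := by
    intro w
    constructor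
    · intro hw
      exact (sup_le (left_le_cprod V B sld.commAB) (right_le_cprod V B sld.commAB)) hw
    · rintro ⟨a, ha, b, hb, rfl⟩
      exact mul_mem (mem_sup_left ha) (mem_sup_right hb)
  have hconjeq : ∀ x y w : G, w ≠ 1 → w ∈ V.map (MulAut.conj x).toMonoidHom →
      w ∈ V.map (MulAut.conj y).toMonoidHom →
      V.map (MulAut.conj x).toMonoidHom = V.map (MulAut.conj y).toMonoidHom := by
    intro x y w hw1 hwx hwy
    rw [mem_map_conj] at hwx hwy
    have hn : y⁻¹ * x ∈ normalizer (V : Set G) := by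
      apply tg.ti _ _ hwx
      · intro h0
        apply hw1
        calc w = x * (x⁻¹ * w * x) * x⁻¹ := by group
          _ = 1 := by rw [h0]; group
      · have e : y⁻¹ * x * (x⁻¹ * w * x) * (y⁻¹ * x)⁻¹ = y⁻¹ * w * y := by group
        rw [e]; exact hwy
    ext u
    rw [mem_map_conj, mem_map_conj, mem_normalizer_iff.mp hn (x⁻¹ * u * x)]
    have e : y⁻¹ * x * (x⁻¹ * u * x) * (y⁻¹ * x)⁻¹ = y⁻¹ * u * y := by group
    rw [e]
  have hPW : ∀ x ∈ P, ∀ w ∈ V ⊔ B, x * w * x⁻¹ ∈ V ⊔ B := by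
    intro x hx w hw
    obtain ⟨a, ha, b, hb, rfl⟩ := (hWmem w).mp hw
    rw [hWmem]
    refine ⟨a * (x * b * x⁻¹ * b⁻¹), V.mul_mem ha (sld.phi_mem x hx b hb), b, hb, ?_⟩
    calc x * (a * b) * x⁻¹ = (x * a) * b * x⁻¹ := by group
      _ = (a * x) * b * x⁻¹ := by rw [sld.cPA x hx a ha]
      _ = a * (x * b * x⁻¹ * b⁻¹) * b := by group
  have hP'W : ∀ y ∈ P', ∀ w ∈ V ⊔ B, y * w * y⁻¹ ∈ V ⊔ B := by
    intro y hy w hw
    obtain ⟨a, ha, b, hb, rfl⟩ := (hWmem w).mp hw
    rw [hWmem]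
    refine ⟨a, ha, (y * a * y⁻¹ * a⁻¹) * b, B.mul_mem (sld.psi_mem y hy a ha) hb, ?_⟩
    have h3 := sld.commAB a ha _ (sld.psi_mem y hy a ha)
    calc y * (a * b) * y⁻¹ = y * a * (b * y⁻¹) := by group
      _ = y * a * (y⁻¹ * b) := by rw [← comm_inv_left (sld.cPB y hy b hb)]
      _ = ((y * a * y⁻¹ * a⁻¹) * a) * b := by group
      _ = (a * (y * a * y⁻¹ * a⁻¹)) * b := by rw [h3]
      _ = a * (y * a * y⁻¹ * a⁻¹ * b) := mul_assoc _ _ _
  -- `Q` centralizes `V`
  have hVQ : V ≤ Q := tg.AP.trans (by rw [hP]; exact inf_le_left)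
  have hQV : ∀ q ∈ Q, ∀ a ∈ V, q * a = a * q := by
    have : (V.subgroupOf Q).Normal :=
      (normal_subgroupOf_iff_le_normalizer hVQ).mpr (by rw [← hM]; exact hQM)
    have hne : V.subgroupOf Q ≠ ⊥ := by
      obtain ⟨a, ha, ha1⟩ := neA
      intro h0
      have : (⟨a, hVQ ha⟩ : ↥Q) ∈ V.subgroupOf Q := ha
      rw [h0, mem_bot] at this
      exact ha1 (congrArg Subtype.val this)
    have h3 := Cfsg.Agent.Lib.Helper3.normal_inf_center_ne_bot' hQp (V.subgroupOf Q) hne
    obtain ⟨⟨a₀, ha₀⟩, ha₀1⟩ := ne_bot_iff_exists_ne_one.mp h3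
    obtain ⟨ha₀V, ha₀Z⟩ := mem_inf.mp ha₀
    have ha₀V' : a₀.1 ∈ V := ha₀V
    have ha₀1' : a₀.1 ≠ 1 := fun h0 => ha₀1 (Subtype.ext (Subtype.ext h0))
    have ha₀c : ∀ q ∈ Q, q * a₀.1 = a₀.1 * q := fun q hq =>
      congrArg Subtype.val (mem_center_iff.mp ha₀Z ⟨q, hq⟩)
    intro q hq a ha
    by_cases ha1 : a = 1
    · rw [ha1, mul_one, one_mul]
    obtain ⟨k, hk⟩ := pair.exists_conj hBP hAP' a₀.1 ha₀V' ha₀1' a ha ha1
    have hkM : k ∈ M := hti' k a₀.1 ha₀V' ha₀1' (hk ▸ ha)
    have hq' : k⁻¹ * q * k ∈ Q := by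
      have := (mem_normalizer_iff.mp (hMQ (M.inv_mem hkM)) q).mp hq
      rwa [inv_inv] at this
    rw [← hk]
    exact (conj_comm_of (ha₀c _ hq').symm).symm
  have hPeq : P = Q := by
    rw [hP]
    apply inf_eq_left.mpr
    intro q hq
    exact mem_centralizer_iff.mpr fun a ha => (hQV q hq a ha).symm
  have hcommle : commutator ↥Q ≤ V.subgroupOf Q := by
    rw [_root_.commutator_def, commutator_le]
    intro x _ y _
    change (⁅x, y⁆ : ↥Q).1 ∈ V
    have := tg.comm_mem x.1 (hPeq ▸ x.2) y.1 (hPeq ▸ y.2)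
    simpa [commutatorElement_def] using this
  have hcommeq : (commutator ↥Q).map Q.subtype = V := by
    apply le_antisymm
    · rintro _ ⟨x, hx, rfl⟩
      exact hcommle hx
    · intro a ha
      obtain ⟨b, hb, hb1⟩ := pair.neB
      obtain ⟨x, hx, hxa⟩ := sld.trans b hb hb1 a ha
      refine ⟨⁅(⟨x, hPeq ▸ hx⟩ : ↥Q), (⟨b, hgQ hb⟩ : ↥Q)⁆, ?_, ?_⟩
      · rw [_root_.commutator_def]
        exact commutator_mem_commutator (mem_top _) (mem_top _)
      · rw [← hxa]
        simp [commutatorElement_def]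
  refine ⟨hAP'.trans hPQ', ?_, ?_, fun hN => sld.sl2 hN, hPeq, ?_, ?_, hcommeq⟩
  · -- unique conjugate through each element
    intro w hw hw1
    obtain ⟨a, ha, b, hb, rfl⟩ := (hWmem w).mp hw
    have hex : ∃ x : G, V.map (MulAut.conj x).toMonoidHom ≤ V ⊔ B ∧
        a * b ∈ V.map (MulAut.conj x).toMonoidHom := by
      by_cases hb1 : b = 1
      · refine ⟨1, ?_, ?_⟩
        · intro u hu
          rw [mem_map_conj] at hu
          exact mem_sup_left (by simpa using hu)
        · rw [mem_map_conj, hb1]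
          simpa using ha
      · obtain ⟨x, hx, hxa⟩ := sld.trans b hb hb1 a ha
        refine ⟨x * g, ?_, ?_⟩
        · intro u hu
          rw [mem_map_conj] at hu
          have h3 : x⁻¹ * u * x ∈ B := by
            rw [hB, mem_map_conj]
            have e : g⁻¹ * (x⁻¹ * u * x) * g = (x * g)⁻¹ * u * (x * g) := by group
            rw [e]; exact hu
          have := hPW x hx _ (mem_sup_right h3)
          have e : x * (x⁻¹ * u * x) * x⁻¹ = u := by group
          rwa [e] at this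
        · rw [mem_map_conj]
          have h3 : b ∈ V.map (MulAut.conj g).toMonoidHom := hB ▸ hb
          rw [mem_map_conj] at h3
          have e : (x * g)⁻¹ * (a * b) * (x * g) = g⁻¹ * b * g := by
            rw [← hxa]; group
          rw [e]; exact h3
    obtain ⟨x, hx1, hx2⟩ := hex
    refine ⟨V.map (MulAut.conj x).toMonoidHom, ⟨⟨x, rfl⟩, hx1, hx2⟩, ?_⟩
    rintro U ⟨⟨y, rfl⟩, -, hy2⟩
    exact hconjeq y x _ hw1 hy2 hx2
  · exact sup_le (le_normalizer_of_conj hPW) (le_normalizer_of_conj hP'W)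
  · -- Frattini subgroup
    apply le_antisymm
    · have := Cfsg.Agent.Lib.Helper3.frattini_le_of_elementary_quotient Nat.prime_two
        (V.subgroupOf Q) hcommle (fun x => by
          change (x ^ 2 : ↥Q).1 ∈ V
          have := tg.sq x.1 (hPeq ▸ x.2)
          simpa [pow_two] using this)
      rintro _ ⟨x, hx, rfl⟩
      exact this hx
    · rw [← hcommeq]
      exact Subgroup.map_mono (Cfsg.Agent.Lib.Helper3.commutator_le_frattini hQp)
  · -- centre
    apply le_antisymm
    · rintro _ ⟨x, hx, rfl⟩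
      apply tg.cen x.1 (hM ▸ hQM x.2)
      intro p hp
      exact (congrArg Subtype.val (mem_center_iff.mp hx ⟨p, hPeq ▸ hp⟩)).symm
    · intro a ha
      refine ⟨⟨a, hVQ ha⟩, mem_center_iff.mpr fun q => Subtype.ext (hQV q.1 q.2 a ha), rfl⟩


/-- Let G be a finite group, V an elementary abelian 2-subgroup of G and M the normalizer of V; write Q for the largest normal 2-subgroup of M. Suppose (1) the generalized Fitting subgroup of M equals Q; (2) V is a maximal abelian normal subgroup of M; (3) every conjugate of V equals V or meets V trivially, and for some g ∈ G the conjugate V' = g V g⁻¹ is different from V and contained in Q. Let P be the centralizer of V in Q, W the subgroup generated by V and V', and H the subgroup generated by P and g P g⁻¹. Then: (a) V is contained in g Q g⁻¹; (b) every non-identity element of W lies in exactly one conjugate of V contained in W, H normalizes W, and H modulo the centralizer of W in H is isomorphic to the special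 linear group of dimension 2 over the field with |V| elements; (c) P = Q, and V equals the Frattini subgroup, the centre and the commutator subgroup of Q. -/
theorem result {G : Type*} [Group G] [Finite G] (V : Subgroup G)
    (hV : Cfsg.IsElementaryAbelian 2 V)
    (h1 : (Cfsg.generalizedFittingSubgroup ↥(Subgroup.normalizer (V : Set G))).map (Subgroup.normalizer (V : Set G)).subtype =
      (Cfsg.pCore 2 ↥(Subgroup.normalizer (V : Set G))).map (Subgroup.normalizer (V : Set G)).subtype)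
    (h2 : ∀ A : Subgroup G, V ≤ A → A ≤ Subgroup.normalizer (V : Set G) → IsMulCommutative ↥A →
      (∀ m ∈ Subgroup.normalizer (V : Set G), ∀ a ∈ A, m * a * m⁻¹ ∈ A) → A = V)
    (hti : ∀ x : G, V.map (MulAut.conj x).toMonoidHom = V ∨ V.map (MulAut.conj x).toMonoidHom ⊓ V = ⊥)
    (g : G) (hg : V.map (MulAut.conj g).toMonoidHom ≠ V)
    (hgQ : V.map (MulAut.conj g).toMonoidHom ≤ (Cfsg.pCore 2 ↥(Subgroup.normalizer (V : Set G))).map (Subgroup.normalizer (V : Set G)).subtype) :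
    let Q : Subgroup G := (Cfsg.pCore 2 ↥(Subgroup.normalizer (V : Set G))).map (Subgroup.normalizer (V : Set G)).subtype
    let P : Subgroup G := Q ⊓ Subgroup.centralizer (V : Set G)
    let W : Subgroup G := V ⊔ V.map (MulAut.conj g).toMonoidHom
    let H : Subgroup G := P ⊔ P.map (MulAut.conj g).toMonoidHom
    V ≤ Q.map (MulAut.conj g).toMonoidHom ∧
      (∀ w ∈ W, w ≠ 1 → ∃! U : Subgroup G, (∃ x : G, U = V.map (MulAut.conj x).toMonoidHom) ∧ U ≤ W ∧ w ∈ U) ∧
      H ≤ Subgroup.normalizer (W : Set G) ∧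
      (∀ hN : ((Subgroup.centralizer (W : Set G)).subgroupOf H).Normal, ∃ (F : Type) (_ : Field F) (_ : Fintype F), Fintype.card F = Nat.card ↥V ∧
        Nonempty (↥H ⧸ (Subgroup.centralizer (W : Set G)).subgroupOf H ≃* Matrix.SpecialLinearGroup (Fin 2) F)) ∧
      P = Q ∧ (frattini ↥Q).map Q.subtype = V ∧ (Subgroup.center ↥Q).map Q.subtype = V ∧ (commutator ↥Q).map Q.subtype = V := by
  intro Q P W H
  exact core V hV h1 h2 hti g hg Q rfl hgQ

end Cfsg.Agent.S1786
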