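import Cfsg.Statements.S1850
import Cfsg.Agent.Lib.Helper37.CharPLocal

set_option autoImplicit false
open Cfsg

namespace Cfsg.Agent.S1850

/-- Let G be a non-abelian finite simple QTKE-group and T a Sylow 2-subgroup of G. If U is a nontrivial 2-subgroup of G with U ∩ Z(T) ≠ 1, then F*(N_G(U)) = O₂(N_G(U)). -/
theorem result {G : Type*} [Group G] [Finite G] [IsSimpleGroup G]
    (hG : ¬ IsMulCommutative G) (hQ : Cfsg.IsQTKE G) (T : Sylow 2 G) (U : Subgroup G)
    (hU : IsPGroup 2 ↥U) (hZ : U ⊓ ((T : Subgroup G) ⊓ Subgroup.centralizer ((T : Subgroup G) : Set G)) ≠ ⊥) :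
    Subgroup.normalizer (U : Set G) ∈ Cfsg.calHe G := by
  have : Fact (Nat.Prime 2) := ⟨Nat.prime_two⟩
  obtain ⟨z, hzW, hz⟩ := Lib.Helper37.exists_orderOf_eq_of_isPGroup (hU.to_le inf_le_left) hZ
  have hzU : z ∈ U := hzW.1
  have hzC : z ∈ Subgroup.centralizer ((T : Subgroup G) : Set G) := hzW.2.2
  have hTC : (T : Subgroup G) ≤ Subgroup.centralizer ({z} : Set G) := by
    intro t ht
    rw [Subgroup.mem_centralizer_singleton_iff]
    exact (Subgroup.mem_centralizer_iff.1 hzC) t ht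
  have hloc : Cfsg.IsTwoLocal (Subgroup.centralizer ({z} : Set G)) := by
    refine ⟨Subgroup.zpowers z, ?_, ?_, (Lib.Helper37.normalizer_zpowers_of_orderOf_two hz).symm⟩
    · apply IsPGroup.of_card (n := 1)
      rw [Nat.card_zpowers, hz, pow_one]
    · intro h
      rw [Subgroup.zpowers_eq_bot] at h
      rw [h] at hz
      simp at hz
  have hchar : Cfsg.IsOfCharacteristicTwo ↥(Subgroup.centralizer ({z} : Set G)) :=
    hQ.2.2 _ hloc ⟨T, hTC⟩
  exact (Lib.Helper37.charP_normalizer_of_involution hU hz hzU hchar).genFitting_eq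

end Cfsg.Agent.S1850
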