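import Cfsg.Statements.S1851
import Cfsg.Agent.Lib.Helper37.QTFaithful

set_option autoImplicit false
open Cfsg

namespace Cfsg.Agent.S1851

open Cfsg.Agent.Lib Cfsg.Agent.Lib.Helper37 in
theorem upward {G : Type*} [Group G] [Finite G] (hE : Cfsg.IsOfEvenCharacteristic G)
    (T : Sylow 2 G) (L : Subgroup G) (hL : L ∈ Cfsg.calLf (T : Subgroup G)) :
    ∀ K ∈ Cfsg.calL (T : Subgroup G), L ≤ K → K ∈ Cfsg.calLf (T : Subgroup G) := by
  have : Fact (Nat.Prime 2) := ⟨Nat.prime_two⟩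
  intro K hK hLK
  obtain ⟨⟨⟨_, _, hLsn, _⟩, _, _⟩, ⟨hL1, hLodd, _⟩, hLV⟩ := hL
  obtain ⟨⟨_, hKperf, hKsn, _⟩, _, hKO⟩ := id hK
  have hKH : K ≤ K ⊔ (T : Subgroup G) := le_sup_left
  have hLH : L ≤ L ⊔ (T : Subgroup G) := le_sup_left
  have hperf : ⁅K, K⁆ = K := by
    have := congrArg (Subgroup.map (K ⊔ (T : Subgroup G)).subtype) hKperf
    rwa [Subgroup.map_commutator, Subgroup.map_subgroupOf_eq_of_le hKH] at this
  have hKres : Helper52.pResOf 2 K = K := pResOf_eq_of_perfect 2 hperf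
  have hLres : Helper52.pResOf 2 L = L := by rw [← oddGenerated_eq_pResOf, hLodd]
  have hchar : CharP 2 ↥(K ⊔ (T : Subgroup G)) := charP_of_evenChar hE T le_sup_right hKO
  refine ⟨hK, ⟨?_, ?_, ?_⟩, ?_⟩
  · rintro rfl
    exact hL1 (le_bot_iff.1 hLK)
  · rw [oddGenerated_eq_pResOf, hKres]
  · exact (hchar.of_subnormal_le hKH hKsn).genFitting_eq
  · intro hKV
    apply hLV
    unfold Cfsg.moduleV at hKV ⊢
    rw [Subgroup.commutator_comm, Subgroup.commutator_eq_bot_iff_le_centralizer] at hKV ⊢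
    apply le_centralizer_omegaZ_of_rel_subnormal hLH hLsn hLres
    have h1 := le_centralizer_omegaZ_of_rel_subnormal' hKH hKsn hKres hKV
    refine hLK.trans (h1.trans (Subgroup.centralizer_le (SetLike.coe_subset_coe.2 ?_)))
    -- `Ω₁Z(O₂(LT)) ≤ Ω₁Z(O₂(KT))`
    have hHH : L ⊔ (T : Subgroup G) ≤ K ⊔ (T : Subgroup G) := sup_le_sup_right hLK _
    have hQQ : Cfsg.pCoreOf 2 (K ⊔ (T : Subgroup G)) ≤ Cfsg.pCoreOf 2 (L ⊔ (T : Subgroup G)) := by
      apply Helper52.le_pCoreOf ((Helper52.pCoreOf_le_sylow T le_sup_right).trans le_sup_right)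
        (hHH.trans (Helper52.le_normalizer_pCoreOf _)) (Helper53.pCoreOf_isPGroup 2 _)
    intro v hv
    have hv1 := Helper52.mem_omegaZ.1 hv
    have hvc : v ∈ Subgroup.centralizer (Cfsg.pCoreOf 2 (K ⊔ (T : Subgroup G)) : Set G) :=
      Subgroup.centralizer_le (SetLike.coe_subset_coe.2 hQQ) hv1.2.1
    exact Helper52.mem_omegaZ.2 ⟨Helper52.charP_subtype_iff.1 hchar
      ⟨hHH (Helper52.pCoreOf_le _ hv1.1), hvc⟩, hvc, hv1.2.2⟩

/-- Let G be a non-abelian finite simple QTKE-group and T a Sylow 2-subgroup of G, and let L be a member of ℒ_f(G, T) (a member of ℒ(G, T) that lies in 𝒳 — L ≠ 1, L = O²(L), F*(L) = O₂(L) — and acts nontrivially on Ω₁(Z(O₂(L)))). Then (1) every member K of ℒ(G, T) containing L is again in ℒ_f(G, T) (a sharper form of (1) also compares the modules [Ω₁(Z(R)), L] and [Ω₁(Z(R')), K] for suitable 2-subgroups R, R'; that comparison is not included); and (2) if L is maximal under inclusion among the members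 of ℒ_f(G, T), then L is a maximal member of ℒ(G, T), hence a member of ℒ_f*(G, T). -/
theorem result {G : Type*} [Group G] [Finite G] [IsSimpleGroup G]
    (hG : ¬ IsMulCommutative G) (hQ : Cfsg.IsQTKE G) (T : Sylow 2 G) (L : Subgroup G)
    (hL : L ∈ Cfsg.calLf (T : Subgroup G)) :
    (∀ K ∈ Cfsg.calL (T : Subgroup G), L ≤ K → K ∈ Cfsg.calLf (T : Subgroup G)) ∧
    ((∀ K ∈ Cfsg.calLf (T : Subgroup G), L ≤ K → K = L) → L ∈ Cfsg.calLfMax (T : Subgroup G)) := by
  have key := upward hQ.2.2 T L hL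
  exact ⟨key, fun h => ⟨⟨hL.1, fun K hK hLK => h K (key K hK hLK) hLK⟩, hL.2⟩⟩

end Cfsg.Agent.S1851
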