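import Cfsg.Statements.S1957
-- import your own Cfsg.Agent.* helpers here
import Cfsg.Agent.Lib.Helper54.CoprimeGen
import Cfsg.Agent.Lib.Helper53.Basic
import Cfsg.Agent.Lib.Helper58.PGroup
import Cfsg.Agent.Lib.Helper11.DihedralSylow

set_option autoImplicit false
open Cfsg

namespace Cfsg.Agent.S1957

variable {G : Type*} [Group G]

/-- ambient description of `O_2(C)` for a subgroup `C` of characteristic 2 -/
theorem exists_core [Finite G] (C : Subgroup G) (hC : Cfsg.IsOfCharacteristicTwo ↥C) :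
    ∃ R : Subgroup G, R ≤ C ∧ IsPGroup 2 R ∧ (∀ c ∈ C, ∀ r ∈ R, c * r * c⁻¹ ∈ R) ∧
      (∀ c ∈ C, (∀ r ∈ R, c * r = r * c) → c ∈ R) ∧
      (∀ W : Subgroup G, W ≤ C → IsPGroup 2 W → (∀ c ∈ C, ∀ w ∈ W, c * w * c⁻¹ ∈ W) → W ≤ R) := by
  have hn : (pCore 2 ↥C).Normal := Cfsg.Agent.Lib.Helper53.pCore_normal 2 ↥C
  refine ⟨(pCore 2 ↥C).map C.subtype, ?_, ?_, ?_, ?_, ?_⟩
  · exact Subgroup.map_subtype_le _
  · exact (Cfsg.Agent.Lib.Helper53.pCore_isPGroup 2 ↥C).map _
  · rintro c hc _ ⟨r, hr, rfl⟩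
    exact ⟨⟨c, hc⟩ * r * ⟨c, hc⟩⁻¹, hn.conj_mem r hr ⟨c, hc⟩, rfl⟩
  · intro c hc h
    refine ⟨⟨c, hc⟩, hC ?_, rfl⟩
    rw [Subgroup.mem_centralizer_iff]
    intro r hr
    apply Subtype.ext
    exact (h r ⟨r, hr, rfl⟩).symm
  · intro W hW hW2 hWn
    have h1 : W.subgroupOf C ≤ pCore 2 ↥C := by
      apply Cfsg.Agent.Lib.Helper53.le_pCore
      · constructor
        intro w hw c
        exact hWn c c.2 w hw
      · exact hW2.comap_subtype
    intro w hw
    exact ⟨⟨w, hW hw⟩, h1 hw, rfl⟩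

theorem conj_pow' (e r ε : G) (h : e * r * e⁻¹ = r * ε) (hε : e * ε = ε * e) (j : ℕ) :
    e ^ j * r * (e ^ j)⁻¹ = r * ε ^ j := by
  induction j with
  | zero => simp
  | succ j ih =>
    have h1 : e * ε ^ j * e⁻¹ = ε ^ j := by
      have : Commute e (ε ^ j) := (show Commute e ε from hε).pow_right j
      rw [this.eq, mul_assoc, mul_inv_cancel, mul_one]
    calc e ^ (j + 1) * r * (e ^ (j + 1))⁻¹ = e * (e ^ j * r * (e ^ j)⁻¹) * e⁻¹ := by
          rw [pow_succ']; group
      _ = e * (r * ε ^ j) * e⁻¹ := by rw [ih]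
      _ = (e * r * e⁻¹) * (e * ε ^ j * e⁻¹) := by group
      _ = r * ε ^ (j + 1) := by rw [h, h1, pow_succ', mul_assoc]

theorem comm_of_odd (e r ε : G) (h : e * r * e⁻¹ = r * ε) (hε : e * ε = ε * e) (hε2 : ε * ε = 1)
    (ho : Odd (orderOf e)) : e * r = r * e := by
  have h1 := conj_pow' e r ε h hε (orderOf e)
  rw [pow_orderOf_eq_one] at h1
  obtain ⟨k, hk⟩ := ho
  have h2 : ε ^ orderOf e = ε := by
    rw [hk, pow_succ, pow_mul, pow_two, hε2, one_pow, one_mul]
  rw [h2] at h1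
  have h3 : ε = 1 := by simpa using h1.symm
  rw [h3, mul_one] at h
  calc e * r = e * r * e⁻¹ * e := by group
    _ = r * e := by rw [h]

theorem eq_one_of_odd_of_two (e : G) (h1 : Odd (orderOf e)) (h2 : ∃ k : ℕ, e ^ 2 ^ k = 1) : e = 1 := by
  obtain ⟨k, hk⟩ := h2
  have h3 : orderOf e ∣ 2 ^ k := orderOf_dvd_of_pow_eq_one hk
  have h4 : Nat.Coprime (orderOf e) (2 ^ k) := (Nat.Coprime.pow_right k h1.coprime_two_right)
  have h5 : orderOf e = 1 := Nat.Coprime.eq_one_of_dvd h4 h3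
  exact orderOf_eq_one_iff.mp h5

theorem klein_cases {U : Subgroup G} (hU : IsKleinFour ↥U) {u v y : G} (hu : u ∈ U) (hv : v ∈ U)
    (hy : y ∈ U) (hu1 : u ≠ 1) (hv1 : v ≠ 1) (huv : u ≠ v) : y = 1 ∨ y = u ∨ y = v ∨ y = u * v := by
  classical
  have : Finite ↥U := Nat.finite_of_card_ne_zero (by rw [hU.card_four]; norm_num)
  have : Fintype ↥U := Fintype.ofFinite _
  have h := IsKleinFour.eq_finset_univ (G := ↥U) (x := ⟨u, hu⟩) (y := ⟨v, hv⟩)
    (by intro h; exact hu1 (congrArg Subtype.val h)) (by intro h; exact hv1 (congrArg Subtype.val h))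
    (by intro h; exact huv (congrArg Subtype.val h))
  have h2 : (⟨y, hy⟩ : ↥U) ∈ (Finset.univ : Finset ↥U) := Finset.mem_univ _
  rw [← h] at h2
  simp only [Finset.mem_insert, Finset.mem_singleton] at h2
  rcases h2 with h2 | h2 | h2 | h2
  · exact Or.inr (Or.inr (Or.inr (congrArg Subtype.val h2)))
  · exact Or.inr (Or.inl (congrArg Subtype.val h2))
  · exact Or.inr (Or.inr (Or.inl (congrArg Subtype.val h2)))
  · exact Or.inl (congrArg Subtype.val h2)

/-- `c` acts on `R` trivially modulo `⟨u⟩` -/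
def Triv (R : Subgroup G) (u c : G) : Prop := ∀ r ∈ R, c * r * c⁻¹ = r ∨ c * r * c⁻¹ = r * u

theorem Triv.mul {R : Subgroup G} {u c c' : G} (hu2 : u * u = 1) (hc : Triv R u c) (hc' : Triv R u c')
    (hcu : c * u = u * c) : Triv R u (c * c') := by
  intro r hr
  have h0 : c * u * c⁻¹ = u := by rw [hcu, mul_assoc, mul_inv_cancel, mul_one]
  have e1 : c * c' * r * (c * c')⁻¹ = c * (c' * r * c'⁻¹) * c⁻¹ := by group
  rw [e1]
  rcases hc' r hr with h | h
  · rw [h]; exact hc r hr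
  · rw [h]
    have e2 : c * (r * u) * c⁻¹ = (c * r * c⁻¹) * (c * u * c⁻¹) := by group
    rw [e2, h0]
    rcases hc r hr with h' | h'
    · right; rw [h']
    · left; rw [h', mul_assoc, hu2, mul_one]

theorem Triv.conj {R : Subgroup G} {u c g : G} (hc : Triv R u c)
    (hg : ∀ r ∈ R, g⁻¹ * r * g ∈ R) (hgu : g * u = u * g) : Triv R u (g * c * g⁻¹) := by
  intro r hr
  have h0 : g * u * g⁻¹ = u := by rw [hgu, mul_assoc, mul_inv_cancel, mul_one]
  have e1 : g * c * g⁻¹ * r * (g * c * g⁻¹)⁻¹ = g * (c * (g⁻¹ * r * g) * c⁻¹) * g⁻¹ := by group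
  rw [e1]
  rcases hc _ (hg r hr) with h | h
  · left; rw [h]; group
  · right; rw [h]
    have e2 : g * (g⁻¹ * r * g * u) * g⁻¹ = r * (g * u * g⁻¹) := by group
    rw [e2, h0]

theorem key [Finite G] (C R U D : Subgroup G) (u : G) (hu1 : u ≠ 1) (hu2 : u * u = 1)
    (hCu : ∀ c ∈ C, c * u = u * c)
    (hR2 : IsPGroup 2 R) (hRn : ∀ c ∈ C, ∀ r ∈ R, c * r * c⁻¹ ∈ R)
    (hRc : ∀ c ∈ C, (∀ r ∈ R, c * r = r * c) → c ∈ R)
    (hUC : U ≤ C) (hU4 : IsKleinFour ↥U) (huU : u ∈ U) (huR : u ∈ R)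
    (hRU : ∀ r ∈ R, ∀ x ∈ U, r * x * r⁻¹ ∈ U)
    (hDC : D ≤ C) (hDodd : Odd (Nat.card D)) (hUD : ∀ x ∈ U, ∀ d ∈ D, x * d * x⁻¹ ∈ D) :
    ∀ d ∈ D, ∀ x ∈ U, x * d = d * x := by
  intro d hd x hx
  set e : G := x * d * x⁻¹ * d⁻¹ with he
  have heD : e ∈ D := D.mul_mem (hUD x hx d hd) (D.inv_mem hd)
  have heo : Odd (orderOf e) := by
    have h1 : orderOf e ∣ Nat.card D := by
      have := orderOf_dvd_natCard (⟨e, heD⟩ : ↥D)
      rwa [Subgroup.orderOf_mk] at this
    exact Odd.of_dvd_nat hDodd h1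
  have fin : e ∈ R → x * d = d * x := by
    intro heR
    have h1 : e = 1 := by
      apply eq_one_of_odd_of_two e heo
      obtain ⟨k, hk⟩ := hR2 ⟨e, heR⟩
      exact ⟨k, by simpa using congrArg Subtype.val hk⟩
    calc x * d = e * d * x := by rw [he]; group
      _ = d * x := by rw [h1, one_mul]
  apply fin
  by_cases hUR : U ≤ R
  · have h1 : d * x⁻¹ * d⁻¹ ∈ R := hRn d (hDC hd) _ (R.inv_mem (hUR hx))
    have h2 : e = x * (d * x⁻¹ * d⁻¹) := by rw [he]; group
    rw [h2]
    exact R.mul_mem (hUR hx) h1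
  · obtain ⟨v, hvU, hvR⟩ := SetLike.not_le_iff_exists.mp hUR
    have hv1 : v ≠ 1 := fun h => hvR (h ▸ R.one_mem)
    have huv : u ≠ v := fun h => hvR (h ▸ huR)
    have hUR' : ∀ y ∈ U, y ∈ R → y = 1 ∨ y = u := by
      intro y hy hyR
      rcases klein_cases hU4 huU hvU hy hu1 hv1 huv with h | h | h | h
      · exact Or.inl h
      · exact Or.inr h
      · exact absurd (h ▸ hyR) hvR
      · exfalso
        apply hvR
        have : v = u * y := by rw [h, ← mul_assoc, hu2, one_mul]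
        rw [this]
        exact R.mul_mem huR hyR
    have hT : ∀ x' ∈ U, Triv R u x' := by
      intro x' hx' r hr
      have h1 : r⁻¹ * (x' * r * x'⁻¹) ∈ R := R.mul_mem (R.inv_mem hr) (hRn x' (hUC hx') r hr)
      have h2 : r⁻¹ * (x' * r * x'⁻¹) ∈ U := by
        have h3 := hRU r⁻¹ (R.inv_mem hr) x' hx'
        rw [inv_inv] at h3
        have h4 : r⁻¹ * (x' * r * x'⁻¹) = (r⁻¹ * x' * r) * x'⁻¹ := by group
        rw [h4]
        exact U.mul_mem h3 (U.inv_mem hx')
      rcases hUR' _ h2 h1 with h | h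
      · left
        calc x' * r * x'⁻¹ = r * (r⁻¹ * (x' * r * x'⁻¹)) := by group
          _ = r := by rw [h, mul_one]
      · right
        calc x' * r * x'⁻¹ = r * (r⁻¹ * (x' * r * x'⁻¹)) := by group
          _ = r * u := by rw [h]
    have hTe : Triv R u e := by
      have h2 : e = x * (d * x⁻¹ * d⁻¹) := by rw [he]; group
      rw [h2]
      apply Triv.mul hu2 (hT x hx) _ (hCu x (hUC hx))
      apply Triv.conj (hT x⁻¹ (U.inv_mem hx)) _ (hCu d (hDC hd))
      intro r hr
      have := hRn d⁻¹ (C.inv_mem (hDC hd)) r hr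
      rwa [inv_inv] at this
    apply hRc e (hDC heD)
    intro r hr
    rcases hTe r hr with h | h
    · calc e * r = e * r * e⁻¹ * e := by group
        _ = r * e := by rw [h]
    · exact comm_of_odd e r u h (hCu e (hDC heD)) hu2 heo

theorem le_normalizer_of (H K : Subgroup G) (h : ∀ k ∈ K, ∀ x ∈ H, k * x * k⁻¹ ∈ H) :
    K ≤ Subgroup.normalizer (H : Set G) := by
  intro k hk
  rw [Subgroup.mem_normalizer_iff]
  intro x
  constructor
  · exact h k hk x
  · intro hx
    have := h k⁻¹ (K.inv_mem hk) _ hx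
    have e : k⁻¹ * (k * x * k⁻¹) * k⁻¹⁻¹ = x := by group
    rwa [e] at this

theorem conj_mem_of_le_normalizer {H K : Subgroup G} (h : K ≤ Subgroup.normalizer (H : Set G))
    {k x : G} (hk : k ∈ K) (hx : x ∈ H) : k * x * k⁻¹ ∈ H :=
  (Subgroup.mem_normalizer_iff.mp (h hk) x).mp hx

/-- case A: `u` central in the Sylow subgroup -/
theorem core_le_sylow [Finite G] (P : Sylow 2 G) (C R : Subgroup G)
    (hPC : (P : Subgroup G) ≤ C)
    (hR2 : IsPGroup 2 R) (hRn : ∀ c ∈ C, ∀ r ∈ R, c * r * c⁻¹ ∈ R) : R ≤ (P : Subgroup G) := by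
  have h1 : IsPGroup 2 ((P : Subgroup G) ⊔ R : Subgroup G) :=
    P.isPGroup'.to_sup_of_normal_right' hR2
      (le_normalizer_of R P (fun k hk x hx => hRn k (hPC hk) x hx))
  have h2 := P.is_maximal' h1 le_sup_left
  rw [← h2]
  exact le_sup_right

open Cfsg.Agent.Lib.Helper11 in
/-- case B: `u` is not central in the Sylow subgroup, whose centre is cyclic -/
theorem caseB [Finite G] (P : Sylow 2 G) (U C R : Subgroup G) (u y : G)
    (hUP : U ≤ (P : Subgroup G)) (hPU : ∀ p ∈ (P : Subgroup G), ∀ x ∈ U, p * x * p⁻¹ ∈ U)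
    (hU4 : IsKleinFour ↥U)
    (hcyc : IsCyclic ↥((P : Subgroup G) ⊓ Subgroup.centralizer ((P : Subgroup G) : Set G)))
    (huU : u ∈ U) (hu1 : u ≠ 1) (hyP : y ∈ (P : Subgroup G)) (hyu : y * u ≠ u * y)
    (hCmem : ∀ c, c * u = u * c → c ∈ C)
    (hR2 : IsPGroup 2 R) (hRn : ∀ c ∈ C, ∀ r ∈ R, c * r * c⁻¹ ∈ R) :
    ∀ r ∈ R, ∀ x ∈ U, r * x * r⁻¹ ∈ U := by
  classical
  -- the central involution `u0`
  have hUn : (U.subgroupOf (P : Subgroup G)).Normal := ⟨fun n hn g => by
    rw [Subgroup.mem_subgroupOf] at hn ⊢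
    exact hPU g g.2 n hn⟩
  have hUne : U.subgroupOf (P : Subgroup G) ≠ ⊥ := by
    intro h
    have h1 : (⟨u, hUP huU⟩ : ↥(P : Subgroup G)) ∈ U.subgroupOf (P : Subgroup G) :=
      Subgroup.mem_subgroupOf.mpr huU
    rw [h, Subgroup.mem_bot] at h1
    exact hu1 (congrArg Subtype.val h1)
  have h0 := Cfsg.Agent.Lib.Helper58.normal_inf_center_ne_bot (p := 2) P.isPGroup'
    (U.subgroupOf (P : Subgroup G)) hUne
  obtain ⟨b, hb1⟩ := Subgroup.ne_bot_iff_exists_ne_one.mp h0
  obtain ⟨u0, hu0P, hu0U, hu0c, hu01⟩ : ∃ u0 : G, u0 ∈ (P : Subgroup G) ∧ u0 ∈ U ∧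
      (∀ p ∈ (P : Subgroup G), p * u0 = u0 * p) ∧ u0 ≠ 1 := by
    refine ⟨((b : ↥(P : Subgroup G)) : G), (b : ↥(P : Subgroup G)).2,
      Subgroup.mem_subgroupOf.mp (Subgroup.mem_inf.mp b.2).1, ?_, ?_⟩
    · intro p hp
      have := Subgroup.mem_center_iff.mp (Subgroup.mem_inf.mp b.2).2 ⟨p, hp⟩
      exact congrArg Subtype.val this
    · intro h
      apply hb1
      apply Subtype.ext
      apply Subtype.ext
      exact h
  have huu0 : u ≠ u0 := fun h => hyu (h ▸ hu0c y hyP)
  have hsq : ∀ x ∈ U, x * x = 1 := fun x hx => kleinFour_mul_self hU4 hx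
  have hcomm : ∀ x ∈ U, ∀ x' ∈ U, x * x' = x' * x := fun x hx x' hx' => kleinFour_comm hU4 hx hx'
  have hcases : ∀ x ∈ U, x = 1 ∨ x = u ∨ x = u0 ∨ x = u * u0 := fun x hx =>
    klein_cases hU4 huU hu0U hx hu1 hu01 huu0
  -- conjugates of `u`
  have hconj : ∀ p ∈ (P : Subgroup G), p * u * p⁻¹ = u ∨ p * u * p⁻¹ = u * u0 := by
    intro p hp
    rcases hcases _ (hPU p hp u huU) with h | h | h | h
    · exfalso; apply hu1
      calc u = p⁻¹ * (p * u * p⁻¹) * p := by group
        _ = 1 := by rw [h]; group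
    · exact Or.inl h
    · exfalso; apply huu0
      calc u = p⁻¹ * (p * u * p⁻¹) * p := by group
        _ = p⁻¹ * (u0 * p) := by rw [h]; group
        _ = u0 := by rw [← hu0c p hp]; group
    · exact Or.inr h
  have hconj0 : ∀ p ∈ (P : Subgroup G), p * u0 * p⁻¹ = u0 := by
    intro p hp
    rw [hu0c p hp]; group
  set P1 : Subgroup G := (P : Subgroup G) ⊓ Subgroup.centralizer {u} with hP1
  have memP1 : ∀ p, p ∈ P1 ↔ p ∈ (P : Subgroup G) ∧ p * u = u * p := by
    intro p
    rw [hP1, Subgroup.mem_inf, Subgroup.mem_centralizer_singleton_iff]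
  have hP1P : P1 ≤ (P : Subgroup G) := inf_le_left
  have hP1U : ∀ p ∈ P1, ∀ x ∈ U, p * x = x * p := by
    intro p hp x hx
    obtain ⟨hpP, hpu⟩ := (memP1 p).mp hp
    rcases hcases x hx with h | h | h | h
    · simp [h]
    · rw [h]; exact hpu
    · rw [h]; exact hu0c p hpP
    · rw [h, ← mul_assoc, hpu, mul_assoc, hu0c p hpP, mul_assoc]
  have hUP1 : U ≤ P1 := fun x hx => (memP1 x).mpr ⟨hUP hx, hcomm x hx u huU⟩
  have hyP1 : y ∉ P1 := fun h => hyu ((memP1 y).mp h).2
  have hyconj : y * u * y⁻¹ = u * u0 := by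
    rcases hconj y hyP with h | h
    · exfalso; apply hyu
      calc y * u = y * u * y⁻¹ * y := by group
        _ = u * y := by rw [h]
    · exact h
  have hdich : ∀ p ∈ (P : Subgroup G), p ∈ P1 ∨ p * y ∈ P1 := by
    intro p hp
    rcases hconj p hp with h | h
    · left
      refine (memP1 p).mpr ⟨hp, ?_⟩
      calc p * u = p * u * p⁻¹ * p := by group
        _ = u * p := by rw [h]
    · right
      refine (memP1 _).mpr ⟨(P : Subgroup G).mul_mem hp hyP, ?_⟩
      have h1 : p * y * u * (p * y)⁻¹ = u := by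
        calc p * y * u * (p * y)⁻¹ = p * (y * u * y⁻¹) * p⁻¹ := by group
          _ = (p * u * p⁻¹) * (p * u0 * p⁻¹) := by rw [hyconj]; group
          _ = u := by rw [h, hconj0 p hp, mul_assoc, hsq u0 hu0U, mul_one]
      calc p * y * u = p * y * u * (p * y)⁻¹ * (p * y) := by group
        _ = u * (p * y) := by rw [h1]
  have hidx : (P1.subgroupOf (P : Subgroup G)).index = 2 := by
    rw [Subgroup.index_eq_two_iff]
    refine ⟨⟨y, hyP⟩, fun b => ?_⟩
    by_cases hb : (b : G) ∈ P1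
    · right
      refine ⟨Subgroup.mem_subgroupOf.mpr hb, fun h => hyP1 ?_⟩
      have h' : (b : G) * y ∈ P1 := Subgroup.mem_subgroupOf.mp h
      have e : y = (b : G)⁻¹ * ((b : G) * y) := by group
      rw [e]
      exact P1.mul_mem (P1.inv_mem hb) h'
    · left
      refine ⟨?_, fun h => hb (Subgroup.mem_subgroupOf.mp h)⟩
      rcases hdich b b.2 with h | h
      · exact absurd h hb
      · exact Subgroup.mem_subgroupOf.mpr h
  have hc1 : Nat.card P1 * 2 = Nat.card (P : Subgroup G) := by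
    have h1 := Subgroup.card_mul_index (P1.subgroupOf (P : Subgroup G))
    rw [hidx, Nat.card_congr (Subgroup.subgroupOfEquivOfLe hP1P).toEquiv] at h1
    exact h1
  have hP1R : IsPGroup 2 (P1 ⊔ R : Subgroup G) :=
    (P.isPGroup'.to_le hP1P).to_sup_of_normal_right' hR2
      (le_normalizer_of R P1 (fun k hk x hx => hRn k (hCmem k ((memP1 k).mp hk).2) x hx))
  obtain ⟨Q, hQ⟩ := hP1R.exists_le_sylow
  have hP1Q : P1 ≤ (Q : Subgroup G) := le_sup_left.trans hQ
  have hRQ : R ≤ (Q : Subgroup G) := le_sup_right.trans hQ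
  have hcQ : Nat.card (Q : Subgroup G) = Nat.card (P : Subgroup G) := by
    rw [Q.card_eq_multiplicity, P.card_eq_multiplicity]
  have hidxQ : (P1.subgroupOf (Q : Subgroup G)).index = 2 := by
    have h1 := Subgroup.card_mul_index (P1.subgroupOf (Q : Subgroup G))
    rw [Nat.card_congr (Subgroup.subgroupOfEquivOfLe hP1Q).toEquiv, hcQ, ← hc1] at h1
    exact Nat.eq_of_mul_eq_mul_left Nat.card_pos h1
  have hQn : (Q : Subgroup G) ≤ Subgroup.normalizer (P1 : Set G) :=
    (Subgroup.normal_subgroupOf_iff_le_normalizer hP1Q).mp (Subgroup.normal_of_index_eq_two hidxQ)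
  -- `P` normalises `P1`
  have hPn : ∀ p ∈ (P : Subgroup G), ∀ q ∈ P1, p * q * p⁻¹ ∈ P1 := by
    intro p hp q hq
    refine (memP1 _).mpr ⟨(P : Subgroup G).mul_mem ((P : Subgroup G).mul_mem hp (hP1P hq))
      ((P : Subgroup G).inv_mem hp), ?_⟩
    have h1 : p⁻¹ * u * p ∈ U := by
      have := hPU p⁻¹ ((P : Subgroup G).inv_mem hp) u huU
      rwa [inv_inv] at this
    calc p * q * p⁻¹ * u = p * (q * (p⁻¹ * u * p)) * p⁻¹ := by group
      _ = p * ((p⁻¹ * u * p) * q) * p⁻¹ := by rw [hP1U q hq _ h1]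
      _ = u * (p * q * p⁻¹) := by group
  have hZ : ∀ w ∈ P1, (∀ p ∈ P1, p * w = w * p) → w * w = 1 → y * w = w * y → w = 1 ∨ w = u0 := by
    intro w hw hwc hw2 hyw
    by_cases hw1 : w = 1
    · exact Or.inl hw1
    right
    have hwZ : w ∈ (P : Subgroup G) ⊓ Subgroup.centralizer ((P : Subgroup G) : Set G) := by
      refine Subgroup.mem_inf.mpr ⟨hP1P hw, ?_⟩
      rw [Subgroup.mem_centralizer_iff]
      intro p hp
      rcases hdich p hp with h | h
      · exact hwc p h
      · have h1 := hwc _ h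
        have h2 : p * w * y = w * p * y := by
          calc p * w * y = p * (w * y) := by group
            _ = p * y * w := by rw [← hyw]; group
            _ = w * (p * y) := h1
            _ = w * p * y := by group
        exact mul_right_cancel h2
    have hu0Z : u0 ∈ (P : Subgroup G) ⊓ Subgroup.centralizer ((P : Subgroup G) : Set G) := by
      refine Subgroup.mem_inf.mpr ⟨hu0P, ?_⟩
      rw [Subgroup.mem_centralizer_iff]
      intro p hp
      exact hu0c p hp
    have ho : ∀ a : G, a * a = 1 → a ≠ 1 → orderOf a = 2 := by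
      intro a ha ha1
      exact orderOf_eq_prime (by rw [pow_two]; exact ha) ha1
    exact eq_of_orderOf_two_of_mem_cyclic _ hwZ hu0Z (ho w hw2 hw1) (ho u0 (hsq u0 hu0U) hu01)
  have hW : ∀ x ∈ P1, (∀ p ∈ P1, p * x = x * p) → x * x = 1 → x ∈ U := by
    intro x hx hxc hx2
    have hx'P1 : y * x * y⁻¹ ∈ P1 := hPn y hyP x hx
    have hx'c : ∀ p ∈ P1, p * (y * x * y⁻¹) = (y * x * y⁻¹) * p := by
      intro p hp
      have h1 : y⁻¹ * p * y ∈ P1 := by
        have := hPn y⁻¹ ((P : Subgroup G).inv_mem hyP) p hp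
        rwa [inv_inv] at this
      calc p * (y * x * y⁻¹) = y * ((y⁻¹ * p * y) * x) * y⁻¹ := by group
        _ = y * (x * (y⁻¹ * p * y)) * y⁻¹ := by rw [hxc _ h1]
        _ = (y * x * y⁻¹) * p := by group
    have hxx' : (y * x * y⁻¹) * x = x * (y * x * y⁻¹) := hxc _ hx'P1
    have hyy : y * y ∈ P1 := by
      rcases hdich y hyP with h | h
      · exact absurd h hyP1
      · exact h
    have hz := hZ (x * (y * x * y⁻¹)) (P1.mul_mem hx hx'P1)
      (by
        intro p hp
        calc p * (x * (y * x * y⁻¹)) = (p * x) * (y * x * y⁻¹) := by group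
          _ = x * (p * (y * x * y⁻¹)) := by rw [hxc p hp]; group
          _ = x * (y * x * y⁻¹) * p := by rw [hx'c p hp]; group)
      (by
        calc x * (y * x * y⁻¹) * (x * (y * x * y⁻¹))
            = x * ((y * x * y⁻¹) * x) * (y * x * y⁻¹) := by group
          _ = x * (x * (y * x * y⁻¹)) * (y * x * y⁻¹) := by rw [hxx']
          _ = (x * x) * (y * (x * x) * y⁻¹) := by group
          _ = 1 := by rw [hx2]; group)
      (by
        have h1 : y * y * x = x * (y * y) := hxc _ hyy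
        calc y * (x * (y * x * y⁻¹)) = (y * x * y⁻¹) * ((y * y * x) * y⁻¹) := by group
          _ = (y * x * y⁻¹) * (x * (y * y) * y⁻¹) := by rw [h1]
          _ = ((y * x * y⁻¹) * x) * y := by group
          _ = x * (y * x * y⁻¹) * y := by rw [hxx'])
    have hxinv : x⁻¹ = x := inv_eq_of_mul_eq_one_left hx2
    rcases hz with hz | hz
    · -- `y` centralises `x`
      have h1 : y * x * y⁻¹ = x := by
        calc y * x * y⁻¹ = x⁻¹ * (x * (y * x * y⁻¹)) := by group
          _ = x := by rw [hz, mul_one, hxinv]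
      have h2 : y * x = x * y := by
        calc y * x = y * x * y⁻¹ * y := by group
          _ = x * y := by rw [h1]
      rcases hZ x hx hxc hx2 h2 with h | h
      · rw [h]; exact U.one_mem
      · rw [h]; exact hu0U
    · have h1 : y * x * y⁻¹ = x * u0 := by
        calc y * x * y⁻¹ = x⁻¹ * (x * (y * x * y⁻¹)) := by group
          _ = x * u0 := by rw [hz, hxinv]
      have huP1 : u ∈ P1 := hUP1 huU
      have hux : u * x = x * u := hxc u huP1
      have h3 := hZ (x * u) (P1.mul_mem hx huP1)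
        (by
          intro p hp
          rw [← mul_assoc, hxc p hp, mul_assoc, hP1U p hp u huU, mul_assoc])
        (by
          calc x * u * (x * u) = x * (u * x) * u := by group
            _ = (x * x) * (u * u) := by rw [hux]; group
            _ = 1 := by rw [hx2, hsq u huU, mul_one])
        (by
          have h4 : y * (x * u) * y⁻¹ = x * u := by
            calc y * (x * u) * y⁻¹ = (y * x * y⁻¹) * (y * u * y⁻¹) := by group
              _ = x * (u0 * u) * u0 := by rw [h1, hyconj]; group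
              _ = x * u * (u0 * u0) := by rw [hcomm u0 hu0U u huU]; group
              _ = x * u := by rw [hsq u0 hu0U, mul_one]
          calc y * (x * u) = y * (x * u) * y⁻¹ * y := by group
            _ = x * u * y := by rw [h4])
      have h5 : x = (x * u) * u := by rw [mul_assoc, hsq u huU, mul_one]
      rw [h5]
      rcases h3 with h | h
      · rw [h, one_mul]; exact huU
      · rw [h]; exact U.mul_mem hu0U huU
  intro r hr x hx
  have hrQ : r ∈ (Q : Subgroup G) := hRQ hr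
  apply hW
  · exact conj_mem_of_le_normalizer hQn hrQ (hUP1 hx)
  · intro p hp
    have h1 : r⁻¹ * p * r ∈ P1 := by
      have := conj_mem_of_le_normalizer hQn ((Q : Subgroup G).inv_mem hrQ) hp
      rwa [inv_inv] at this
    calc p * (r * x * r⁻¹) = r * ((r⁻¹ * p * r) * x) * r⁻¹ := by group
      _ = r * (x * (r⁻¹ * p * r)) * r⁻¹ := by rw [hP1U _ h1 x hx]
      _ = r * x * r⁻¹ * p := by group
  · calc r * x * r⁻¹ * (r * x * r⁻¹) = r * (x * x) * r⁻¹ := by group
      _ = 1 := by rw [hsq x hx]; group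

theorem mem_zpowers_two {u x : G} (hu2 : u * u = 1) (hx : x ∈ Subgroup.zpowers u) : x = 1 ∨ x = u := by
  obtain ⟨k, rfl⟩ := Subgroup.mem_zpowers_iff.mp hx
  have h2 : u ^ (2 : ℤ) = 1 := by
    rw [zpow_ofNat, pow_two]; exact hu2
  rcases Int.even_or_odd' k with ⟨m, hm | hm⟩
  · left; rw [hm, zpow_mul, h2, one_zpow]
  · right; rw [hm, zpow_add, zpow_mul, h2, one_zpow, one_mul, zpow_one]

theorem main [Finite G] (h2 : Cfsg.IsCharacteristicTwoType G)
    (P : Sylow 2 G) (U : Subgroup G) (hUP : U ≤ (P : Subgroup G))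
    (hUn : (P : Subgroup G) ≤ Subgroup.normalizer (U : Set G))
    (hU4 : IsKleinFour ↥U)
    (hUZ : ¬ IsCyclic ↥((P : Subgroup G) ⊓ Subgroup.centralizer ((P : Subgroup G) : Set G)) →
      U ≤ Subgroup.centralizer ((P : Subgroup G) : Set G))
    (K : Subgroup G) (hK : Odd (Nat.card K)) (hUK : U ≤ Subgroup.normalizer (K : Set G))
    (u : G) (huU : u ∈ U) (hu1 : u ≠ 1) :
    ∀ d ∈ K ⊓ Subgroup.centralizer {u}, ∀ x ∈ U, x * d = d * x := by
  have hPU : ∀ p ∈ (P : Subgroup G), ∀ x ∈ U, p * x * p⁻¹ ∈ U :=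
    fun p hp x hx => conj_mem_of_le_normalizer hUn hp hx
  have hu2 : u * u = 1 := Cfsg.Agent.Lib.Helper11.kleinFour_mul_self hU4 huU
  have huT : u ∈ Subgroup.zpowers u := Subgroup.mem_zpowers u
  have hT2 : IsPGroup 2 ↥(Subgroup.zpowers u) := by
    rintro ⟨x, hx⟩
    refine ⟨1, ?_⟩
    apply Subtype.ext
    rcases mem_zpowers_two hu2 hx with h | h
    · simp [h]
    · simp [h, pow_two, hu2]
  have hTne : Subgroup.zpowers u ≠ ⊥ := by
    intro h
    rw [h, Subgroup.mem_bot] at huT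
    exact hu1 huT
  have hC := h2.2 _ hT2 hTne
  obtain ⟨R, hRC, hR2, hRn, hRc, hRmax⟩ := exists_core _ hC
  have hCu : ∀ c ∈ Subgroup.normalizer ((Subgroup.zpowers u : Subgroup G) : Set G), c * u = u * c := by
    intro c hc
    have h1 : c * u * c⁻¹ ∈ Subgroup.zpowers u := (Subgroup.mem_normalizer_iff.mp hc u).mp huT
    rcases mem_zpowers_two hu2 h1 with h | h
    · exfalso; apply hu1
      calc u = c⁻¹ * (c * u * c⁻¹) * c := by group
        _ = 1 := by rw [h]; group
    · calc c * u = c * u * c⁻¹ * c := by group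
        _ = u * c := by rw [h]
  have hCmem : ∀ c, c * u = u * c →
      c ∈ Subgroup.normalizer ((Subgroup.zpowers u : Subgroup G) : Set G) := by
    intro c hc
    have hc' : c * u * c⁻¹ = u := by rw [hc]; group
    have hc'' : c⁻¹ * u * c = u := by
      calc c⁻¹ * u * c = c⁻¹ * (u * c) := by group
        _ = u := by rw [← hc]; group
    rw [Subgroup.mem_normalizer_iff]
    intro x
    constructor
    · intro hx
      rcases mem_zpowers_two hu2 hx with h | h
      · rw [h]; simp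
      · rw [h, hc']; exact huT
    · intro hx
      have e : x = c⁻¹ * (c * x * c⁻¹) * c := by group
      rw [e]
      rcases mem_zpowers_two hu2 hx with h | h
      · rw [h]; simp
      · rw [h, hc'']; exact huT
  have huR : u ∈ R := by
    apply hRmax _ Subgroup.le_normalizer hT2 _ huT
    intro c hc w hw
    exact (Subgroup.mem_normalizer_iff.mp hc w).mp hw
  have hUcomm : ∀ x ∈ U, x * u = u * x :=
    fun x hx => Cfsg.Agent.Lib.Helper11.kleinFour_comm hU4 hx huU
  have hRU : ∀ r ∈ R, ∀ x ∈ U, r * x * r⁻¹ ∈ U := by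
    by_cases hcen : ∀ p ∈ (P : Subgroup G), p * u = u * p
    · have h1 : R ≤ (P : Subgroup G) :=
        core_le_sylow P _ R (fun p hp => hCmem p (hcen p hp)) hR2 hRn
      exact fun r hr x hx => hPU r (h1 hr) x hx
    · push Not at hcen
      obtain ⟨y, hyP, hyu⟩ := hcen
      have hcyc : IsCyclic ↥((P : Subgroup G) ⊓ Subgroup.centralizer ((P : Subgroup G) : Set G)) := by
        by_contra hn
        have h1 := hUZ hn huU
        rw [Subgroup.mem_centralizer_iff] at h1
        exact hyu (h1 y hyP)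
      exact caseB P U _ R u y hUP hPU hU4 hcyc huU hu1 hyP hyu hCmem hR2 hRn
  apply key _ R U (K ⊓ Subgroup.centralizer {u}) u hu1 hu2 hCu hR2 hRn hRc
    (fun x hx => hCmem x (hUcomm x hx)) hU4 huU huR hRU
  · intro d hd
    apply hCmem
    exact Subgroup.mem_centralizer_singleton_iff.mp (Subgroup.mem_inf.mp hd).2
  · exact Odd.of_dvd_nat hK (Subgroup.card_dvd_of_le inf_le_left)
  · intro x hx d hd
    obtain ⟨hdK, hdu⟩ := Subgroup.mem_inf.mp hd
    rw [Subgroup.mem_centralizer_singleton_iff] at hdu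
    refine Subgroup.mem_inf.mpr ⟨conj_mem_of_le_normalizer hUK hx hdK, ?_⟩
    rw [Subgroup.mem_centralizer_singleton_iff]
    have hxu := hUcomm x hx
    have hxu' : x⁻¹ * u = u * x⁻¹ := by
      calc x⁻¹ * u = x⁻¹ * (u * x) * x⁻¹ := by group
        _ = u * x⁻¹ := by rw [← hxu]; group
    calc x * d * x⁻¹ * u = x * d * (x⁻¹ * u) := by group
      _ = x * (d * u) * x⁻¹ := by rw [hxu']; group
      _ = (x * u) * d * x⁻¹ := by rw [hdu]; group
      _ = u * (x * d * x⁻¹) := by rw [hxu]; group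

/-- Let `G` be a finite non-abelian simple group in which every local subgroup is solvable and which is of characteristic 2 type. Let `P` be a Sylow 2-subgroup of `G` and `U` a normal subgroup of `P` that is a four-group, with `U` central in `P` if the centre of `P` is not cyclic. Then `U` centralizes every subgroup of odd order of `G` that it normalizes. -/
theorem result {G : Type*} [Group G] [Finite G]
    [IsSimpleGroup G] (hna : ¬ IsMulCommutative G) (hN : Cfsg.IsNGroup G) (h2 : Cfsg.IsCharacteristicTwoType G)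
    (P : Sylow 2 G) (U : Subgroup G) (hUP : U ≤ (P : Subgroup G)) (hUn : (P : Subgroup G) ≤ Subgroup.normalizer (U : Set G))
    (hU4 : IsKleinFour ↥U)
    (hUZ : ¬ IsCyclic ↥((P : Subgroup G) ⊓ Subgroup.centralizer ((P : Subgroup G) : Set G)) →
      U ≤ Subgroup.centralizer ((P : Subgroup G) : Set G))
    (K : Subgroup G) (hK : Odd (Nat.card K)) (hUK : U ≤ Subgroup.normalizer (K : Set G)) :
    U ≤ Subgroup.centralizer (K : Set G) := by
  have hcomm : IsMulCommutative ↥U := IsKleinFour.isMulCommutative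
  have hncyc : ¬ IsCyclic ↥U := IsKleinFour.not_isCyclic
  have hcop : (Nat.card U).Coprime (Nat.card K) := by
    rw [hU4.card_four]
    have : Nat.Coprime 2 (Nat.card K) := hK.coprime_two_left
    exact Nat.Coprime.pow_left 2 this
  have hgen := Cfsg.Agent.Lib.Helper54.iSup_inf_centralizer_eq_of_not_isCyclic U K hncyc hUK hcop
  rw [Subgroup.le_centralizer_iff, ← hgen]
  apply iSup₂_le
  rintro a ⟨haU, ha1⟩ d hd
  rw [Subgroup.mem_centralizer_iff]
  intro x hx
  exact main h2 P U hUP hUn hU4 hUZ K hK hUK a haU ha1 d hd x hx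

end Cfsg.Agent.S1957
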