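import Cfsg.Statements.S1958
-- import your own Cfsg.Agent.* helpers here
import Cfsg.Agent.Lib.Helper28.RelBalance

set_option autoImplicit false
open Cfsg

namespace Cfsg.Agent.S1958

open Cfsg.Agent.Lib.Helper28 Cfsg.Agent.Lib.Helper27

theorem half {G : Type*} [Group G] [Finite G]
    (p : ℕ) [Fact p.Prime] (x y : G) (hx : orderOf x = p) (hxy : x * y = y * x)
    (hCy : Group.IsSolvable ↥(Subgroup.centralizer ({y} : Set G))) :
    Cfsg.centralizerPPrimeCore p x ⊓ Subgroup.centralizer {y} ≤ Cfsg.centralizerPPrimeCore p y := by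
  refine le_map_pPrimeCore_of_solvable (a := x) hCy
    (Subgroup.mem_centralizer_singleton_iff.mpr hxy) (hx ▸ pow_orderOf_eq_one x)
    inf_le_right ?_ (inf_le_left.trans (cpc_le p x)) ?_
  · intro hd
    exact cpc_not_dvd p x (hd.trans (Subgroup.card_dvd_of_le inf_le_left))
  · exact le_normalizer_inf' (inf_le_right.trans (cpc_normalized p x))
      (inf_le_left.trans Subgroup.le_normalizer)

/-- Let `G` be a finite group, `p` a prime, and `x, y` commuting elements of order `p` whose centralizers `C_G(x)` and `C_G(y)` are both solvable. Then `O_{p'}(C_G(x)) ∩ C_G(y) = O_{p'}(C_G(y)) ∩ C_G(x)` (balance). -/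
theorem result {G : Type*} [Group G] [Finite G]
    (p : ℕ) [Fact p.Prime] (x y : G) (hx : orderOf x = p) (hy : orderOf y = p) (hxy : x * y = y * x)
    (hCx : Group.IsSolvable ↥(Subgroup.centralizer ({x} : Set G))) (hCy : Group.IsSolvable ↥(Subgroup.centralizer ({y} : Set G))) :
    Cfsg.centralizerPPrimeCore p x ⊓ Subgroup.centralizer {y} = Cfsg.centralizerPPrimeCore p y ⊓ Subgroup.centralizer {x} := by
  apply le_antisymm
  · exact le_inf (half p x y hx hxy hCy) (inf_le_left.trans (cpc_le p x))
  · exact le_inf (half p y x hy hxy.symm hCx) (inf_le_left.trans (cpc_le p y))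

end Cfsg.Agent.S1958
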