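import Cfsg.Statements.S1959
import Cfsg.Agent.Lib.Helper39.Control

set_option autoImplicit false
open Cfsg
open Cfsg.Agent.Lib.Helper39

namespace Cfsg.Agent.S1959

inductive Gd {G : Type*} [Group G] (X : Set G) (S : Subgroup G) : Subgroup G → G → Prop
  | nil (B : Subgroup G) : B ≤ S → Gd X S B 1
  | step (B : Subgroup G) (c x : G) : Gd X S B c → x ∈ X → cj (x * c) B ≤ S → Gd X S B (x * c)

section
variable {G : Type*} [Group G] {X : Set G} {S : Subgroup G}

theorem Gd.src {B : Subgroup G} {c : G} (h : Gd X S B c) : B ≤ S := by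
  induction h with
  | nil hB => exact hB
  | step c x _ _ _ ih => exact ih

theorem Gd.tgt {B : Subgroup G} {c : G} (h : Gd X S B c) : cj c B ≤ S := by
  cases h with
  | nil hB => rw [cj_one]; exact hB
  | step c x _ _ h3 => exact h3

theorem Gd.mono {B : Subgroup G} {c : G} (h : Gd X S B c) {B' : Subgroup G} (hB : B' ≤ B) :
    Gd X S B' c := by
  induction h with
  | nil h1 => exact Gd.nil B' (le_trans hB h1)
  | step c x _ hx h3 ih => exact Gd.step B' c x ih hx (le_trans (cj_mono _ hB) h3)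

theorem Gd.trans {B : Subgroup G} {c : G} (h1 : Gd X S B c) {B2 : Subgroup G} {d : G}
    (h2 : Gd X S B2 d) (e : B2 = cj c B) : Gd X S B (d * c) := by
  induction h2 with
  | nil _ => rw [one_mul]; exact h1
  | step d x _ hx h3 ih =>
    rw [mul_assoc]
    apply Gd.step B (d * c) x ih hx
    rw [← mul_assoc, cj_mul, ← e]; exact h3

theorem Gd.symm (hX : ∀ x ∈ X, x⁻¹ ∈ X) {B : Subgroup G} {c : G} (h : Gd X S B c) :
    Gd X S (cj c B) c⁻¹ := by
  induction h with
  | nil hB => rw [cj_one, inv_one]; exact Gd.nil B hB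
  | step c x h1 hx h3 ih =>
    rw [mul_inv_rev]
    have s1 : Gd X S (cj (x * c) B) (x⁻¹ * 1) := by
      apply Gd.step _ 1 x⁻¹ (Gd.nil _ h3) (hX x hx)
      rw [mul_one, cj_mul, cj_inv_cj]; exact h1.tgt
    rw [mul_one] at s1
    exact s1.trans ih (by rw [cj_mul, cj_inv_cj])

theorem Gd.conj {B : Subgroup G} {c : G} (h : Gd X S B c) (k : G) {X' : Set G}
    (hX : ∀ x ∈ X, k * x * k⁻¹ ∈ X') : Gd X' (cj k S) (cj k B) (k * c * k⁻¹) := by
  induction h with
  | nil hB =>
    have : k * 1 * k⁻¹ = 1 := by group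
    rw [this]; exact Gd.nil _ (cj_mono k hB)
  | step c x _ hx h3 ih =>
    have e : k * (x * c) * k⁻¹ = (k * x * k⁻¹) * (k * c * k⁻¹) := by group
    rw [e]
    apply Gd.step _ _ _ ih (hX x hx)
    rw [← e, ← cj_mul]
    have e2 : k * (x * c) * k⁻¹ * k = k * (x * c) := by group
    rw [e2, cj_mul]
    exact cj_mono k h3

theorem Gd.toDef {B : Subgroup G} {c : G} (h : Gd X S B c) :
    ∃ (n : ℕ) (c' : Fin (n + 1) → G), c' 0 = 1 ∧
      (∀ i : Fin n, c' i.succ * (c' i.castSucc)⁻¹ ∈ X) ∧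
      (∀ i : Fin (n + 1), cj (c' i) B ≤ S) ∧ c' (Fin.last n) = c := by
  induction h with
  | nil hB =>
    exact ⟨0, fun _ => 1, rfl, fun i => i.elim0, fun _ => by rw [cj_one]; exact hB, rfl⟩
  | step c x _ hx h3 ih =>
    obtain ⟨n, c', h0, hs, hall, hlast⟩ := ih
    refine ⟨n + 1, Fin.snoc c' (x * c), ?_, ?_, ?_, ?_⟩
    · have : (0 : Fin (n + 1 + 1)) = Fin.castSucc (0 : Fin (n + 1)) := rfl
      rw [this, Fin.snoc_castSucc]; exact h0
    · intro i
      refine Fin.lastCases ?_ ?_ i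
      · have e1 : (Fin.last n).succ = Fin.last (n + 1) := rfl
        rw [e1, Fin.snoc_last, Fin.snoc_castSucc, hlast]
        simpa using hx
      · intro j
        rw [Fin.succ_castSucc, Fin.snoc_castSucc, Fin.snoc_castSucc]
        exact hs j
    · intro i
      refine Fin.lastCases ?_ ?_ i
      · rw [Fin.snoc_last]; exact h3
      · intro j
        rw [Fin.snoc_castSucc]; exact hall j
    · rw [Fin.snoc_last]

theorem Gd.ofDef {B : Subgroup G} (n : ℕ) (c : Fin (n + 1) → G) (h0 : c 0 = 1)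
    (hs : ∀ i : Fin n, c i.succ * (c i.castSucc)⁻¹ ∈ X)
    (hall : ∀ i : Fin (n + 1), cj (c i) B ≤ S) : ∀ i : Fin (n + 1), Gd X S B (c i) := by
  intro i
  induction i using Fin.induction with
  | zero =>
    rw [h0]
    have := hall 0
    rw [h0, cj_one] at this
    exact Gd.nil B this
  | succ i ih =>
    have e : c i.succ = (c i.succ * (c i.castSucc)⁻¹) * c i.castSucc := by group
    rw [e]
    apply Gd.step _ _ _ ih (hs i)
    rw [← e]; exact hall _

end

/-- `g` acts on `B` as a chain of steps from `X`, staying inside `S`. -/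
def Good {G : Type*} [Group G] (X : Set G) (S : Subgroup G) (B : Subgroup G) (g : G) : Prop :=
  ∃ c : G, Gd X S B c ∧ ∀ a ∈ B, c * a * c⁻¹ = g * a * g⁻¹

section
variable {G : Type*} [Group G] {X : Set G} {S : Subgroup G}

theorem Good.mono {B B' : Subgroup G} {g : G} (h : Good X S B g) (hB : B' ≤ B) : Good X S B' g := by
  obtain ⟨c, hc, hca⟩ := h
  exact ⟨c, hc.mono hB, fun a ha => hca a (hB ha)⟩

theorem Good.trans {B : Subgroup G} {g h : G} (h1 : Good X S B g) (h2 : Good X S (cj g B) h) :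
    Good X S B (h * g) := by
  obtain ⟨c, hc, hca⟩ := h1
  obtain ⟨d, hd, hda⟩ := h2
  refine ⟨d * c, hc.trans hd (conj_eq_of_same_action hca).symm, ?_⟩
  intro a ha
  have h2 := hda (g * a * g⁻¹) (conj_mem_cj ha)
  calc d * c * a * (d * c)⁻¹ = d * (c * a * c⁻¹) * d⁻¹ := by group
    _ = d * (g * a * g⁻¹) * d⁻¹ := by rw [hca a ha]
    _ = h * (g * a * g⁻¹) * h⁻¹ := h2
    _ = h * g * a * (h * g)⁻¹ := by group

theorem Good.symm (hX : ∀ x ∈ X, x⁻¹ ∈ X) {B : Subgroup G} {g : G} (h1 : Good X S B g) :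
    Good X S (cj g B) g⁻¹ := by
  obtain ⟨c, hc, hca⟩ := h1
  refine ⟨c⁻¹, by rw [← conj_eq_of_same_action hca]; exact hc.symm hX, ?_⟩
  intro a ha
  have ha' : g⁻¹ * a * g ∈ B := mem_cj.mp ha
  have h1 := hca _ ha'
  have h2 : c * (g⁻¹ * a * g) * c⁻¹ = a := by rw [h1]; group
  calc c⁻¹ * a * c⁻¹⁻¹ = c⁻¹ * (c * (g⁻¹ * a * g) * c⁻¹) * c := by rw [h2]; group
    _ = g⁻¹ * a * g⁻¹⁻¹ := by group

theorem Good.congr {B : Subgroup G} {g g' : G} (h1 : Good X S B g)
    (h : ∀ a ∈ B, g * a * g⁻¹ = g' * a * g'⁻¹) : Good X S B g' := by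
  obtain ⟨c, hc, hca⟩ := h1
  exact ⟨c, hc, fun a ha => by rw [hca a ha, h a ha]⟩

theorem Good.ofGd {Y : Set G} {P : Subgroup G} (hPS : P ≤ S)
    (hY : ∀ x ∈ Y, ∀ B : Subgroup G, B ≤ P → cj x B ≤ P → Good X S B x)
    {B : Subgroup G} {c : G} (h : Gd Y P B c) : Good X S B c := by
  induction h with
  | nil hB => exact ⟨1, Gd.nil B (le_trans hB hPS), fun _ _ => rfl⟩
  | step c x h1 hx h3 ih =>
    apply ih.trans
    apply hY x hx _ h1.tgt
    rw [← cj_mul]; exact h3

end

theorem fcsf_sylow {G : Type*} [Group G] [Finite G] {p : ℕ} [Fact p.Prime]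
    {𝓦 : Set (Subgroup G → Subgroup G)} (h𝓦 : ∀ W ∈ 𝓦, Cfsg.IsConjugacyFunctor p W) {H : Subgroup G}
    (hc : FamilyControlsStrongFusionIn p 𝓦 H) {R : Subgroup G} (hRH : R ≤ H) (hR : IsPGroup p R)
    (hRidx : ¬ p ∣ R.relIndex H) (B : Subgroup G) (h : G) (hh : h ∈ H) (hB : B ≤ R)
    (hhB : cj h B ≤ R) :
    Good {x | ∃ W ∈ 𝓦, x ∈ H ⊓ Subgroup.normalizer ((W R : Subgroup G) : Set G)} R B h := by
  obtain ⟨T, hTH, hT, hTidx, hctl⟩ := hc
  obtain ⟨k, hk, hkR⟩ := sylow_conj hRH hR hRidx hTH hT hTidx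
  obtain ⟨n, c, h0, hs, hall, hlast⟩ := hctl (cj k B : Subgroup G) (k * h * k⁻¹)
    (H.mul_mem (H.mul_mem hk hh) (H.inv_mem hk))
    (by rw [← hkR]; exact cj_mono k hB)
    (by
      rintro _ ⟨a, ha, rfl⟩
      have ha' : k⁻¹ * a * k ∈ B := mem_cj.mp ha
      have h1 : h * (k⁻¹ * a * k) * h⁻¹ ∈ R := hhB (conj_mem_cj ha')
      have h2 : k * (h * (k⁻¹ * a * k) * h⁻¹) * k⁻¹ ∈ T := by rw [← hkR]; exact conj_mem_cj h1
      have e : k * h * k⁻¹ * a * (k * h * k⁻¹)⁻¹ = k * (h * (k⁻¹ * a * k) * h⁻¹) * k⁻¹ := by group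
      simp only [e]
      exact h2)
  have hgd : Gd {x | ∃ W ∈ 𝓦, x ∈ H ⊓ Subgroup.normalizer ((W T : Subgroup G) : Set G)} T (cj k B)
      (c (Fin.last n)) := by
    apply Gd.ofDef n c h0 hs
    intro i
    rintro _ ⟨a, ha, rfl⟩
    have := hall i ⟨a, ha, rfl⟩
    simpa [MulAut.conj_apply] using this
  have hgd2 := hgd.conj k⁻¹
    (X' := {x | ∃ W ∈ 𝓦, x ∈ H ⊓ Subgroup.normalizer ((W R : Subgroup G) : Set G)})
    (by
      rintro x ⟨W, hW, hx1, hx2⟩
      refine ⟨W, hW, H.mul_mem (H.mul_mem (H.inv_mem hk) hx1) (by simpa using hk), ?_⟩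
      have h1 : x ∈ Subgroup.normalizer ((W T : Subgroup G) : Set G) := hx2
      rw [← hkR, functor_cj (h𝓦 W hW) hR, ← cj_normalizer, mem_cj] at h1
      simpa using h1)
  rw [cj_inv_cj, ← hkR, cj_inv_cj] at hgd2
  refine ⟨_, hgd2, ?_⟩
  intro a ha
  have h1 := hlast (k * a * k⁻¹) (conj_mem_cj ha)
  set d := c (Fin.last n) with hd
  calc k⁻¹ * d * k⁻¹⁻¹ * a * (k⁻¹ * d * k⁻¹⁻¹)⁻¹ = k⁻¹ * (d * (k * a * k⁻¹) * d⁻¹) * k := by group
    _ = k⁻¹ * (k * h * k⁻¹ * (k * a * k⁻¹) * (k * h * k⁻¹)⁻¹) * k := by rw [h1]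
    _ = h * a * h⁻¹ := by group

theorem climb {G : Type*} [Group G] [Finite G] {p : ℕ} [Fact p.Prime] (S : Sylow p G)
    (𝓦 : Set (Subgroup G → Subgroup G)) (h𝓦 : ∀ W ∈ 𝓦, Cfsg.IsConjugacyFunctor p W)
    (hloc : ∀ T : Subgroup G, T ≤ (S : Subgroup G) → T ≠ ⊥ →
      ¬ p ∣ ((S : Subgroup G) ⊓ Subgroup.normalizer ((T : Subgroup G) : Set G)).relIndex
        (Subgroup.normalizer ((T : Subgroup G) : Set G)) →
      Cfsg.FamilyControlsStrongFusionIn p 𝓦 (Subgroup.normalizer ((T : Subgroup G) : Set G)))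
    (X : Set G)
    (hXdef : X = {x | ∃ W ∈ 𝓦, x ∈ Subgroup.normalizer ((W (S : Subgroup G) : Subgroup G) : Set G)})
    (m : ℕ)
    (hX : ∀ B' : Subgroup G, B' ≤ (S : Subgroup G) → m < Nat.card B' →
        ∀ g : G, cj g B' ≤ (S : Subgroup G) → Good X (S : Subgroup G) B' g) :
    ∀ n : ℕ, ∀ P : Subgroup G, P ≤ (S : Subgroup G) → P ≠ ⊥ → (m < Nat.card P ∨ P = (S : Subgroup G)) →
      Nat.card (S : Subgroup G) - Nat.card P = n →
      ∀ W ∈ 𝓦, ∀ z ∈ Subgroup.normalizer ((W P : Subgroup G) : Set G), ∀ B : Subgroup G, B ≤ P →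
        cj z B ≤ (S : Subgroup G) → Good X (S : Subgroup G) B z := by
  have hXinv : ∀ x ∈ X, x⁻¹ ∈ X := by
    rw [hXdef]
    rintro x ⟨W, hW, hx⟩
    exact ⟨W, hW, inv_mem hx⟩
  intro n
  induction n using Nat.strong_induction_on with
  | _ n ih =>
    intro P hPS hPne hPm hn W hW z hz B hBP hzB
    rcases eq_or_lt_of_le hPS with heq | hlt
    · refine ⟨z * 1, Gd.step B 1 z (Gd.nil B (le_trans hBP hPS)) ?_ (by rw [mul_one]; exact hzB), ?_⟩
      · rw [hXdef]; exact ⟨W, hW, by rw [← heq]; exact hz⟩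
      · intro a _; rw [mul_one]
    · have hmP : m < Nat.card P := by
        rcases hPm with h | h
        · exact h
        · exact absurd h hlt.ne
      have hPp : IsPGroup p P := S.2.to_le hPS
      set T' := W P with hT'
      have hT'ne : T' ≠ ⊥ := ((h𝓦 W hW) P hPp).2.1 hPne
      have hgrow : P < (S : Subgroup G) ⊓ Subgroup.normalizer (T' : Set G) :=
          lt_of_lt_of_le (lt_inf_normalizer S.2 hlt)
            (inf_le_inf_left _ (normalizer_le_normalizer_functor (h𝓦 W hW) hPp))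
      obtain ⟨k, hk1, hk2⟩ := exists_fully_normalized S T'
      set U := cj k T' with hU
      set P2 := (S : Subgroup G) ⊓ Subgroup.normalizer (U : Set G) with hP2
      have hT'S : T' ≤ (S : Subgroup G) := le_trans ((h𝓦 W hW) P hPp).1 hPS
      have hUS : U ≤ (S : Subgroup G) :=
        le_trans (cj_mono k (le_inf hT'S Subgroup.le_normalizer)) (le_trans hk1 inf_le_left)
      have hUne : U ≠ ⊥ := by
        intro h
        apply hT'ne
        have := congrArg (cj k⁻¹) h
        rw [hU, cj_inv_cj] at this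
        rw [this]; exact Subgroup.map_bot _
      have hc1 := card_lt_of_lt hgrow
      have hc2 : Nat.card ((S : Subgroup G) ⊓ Subgroup.normalizer (T' : Set G) : Subgroup G)
            ≤ Nat.card P2 := by
          rw [← card_cj k]; exact Subgroup.card_le_of_le hk1
      have hc3 : Nat.card P2 ≤ Nat.card (S : Subgroup G) := Subgroup.card_le_of_le inf_le_left
      have hP2ne : P2 ≠ ⊥ := by
        intro h
        apply hUne
        rw [eq_bot_iff, ← h]
        exact le_inf hUS Subgroup.le_normalizer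
      have hP2p : IsPGroup p P2 := S.2.to_le inf_le_left
      -- the two sets lie in `N_S(T')`
      have hB1 : B ≤ (S : Subgroup G) ⊓ Subgroup.normalizer (T' : Set G) := le_trans hBP hgrow.le
      have hB2 : cj z B ≤ (S : Subgroup G) ⊓ Subgroup.normalizer (T' : Set G) := by
        apply le_inf hzB
        have := cj_mono z (le_trans hB1 inf_le_right)
        rwa [cj_self_of_mem hz] at this
      have hz' : k * z * k⁻¹ ∈ Subgroup.normalizer (U : Set G) := by
        rw [hU, ← cj_normalizer]; exact conj_mem_cj hz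
      have g1 : Good X (S : Subgroup G) (cj k B) (k * z * k⁻¹) := by
        have hg := fcsf_sylow h𝓦 (hloc U hUS hUne hk2) inf_le_right hP2p hk2 (cj k B) (k * z * k⁻¹) hz'
          (le_trans (cj_mono k hB1) hk1)
          (by
            rw [← cj_mul]
            have e : k * z * k⁻¹ * k = k * z := by group
            rw [e, cj_mul]
            exact le_trans (cj_mono k hB2) hk1)
        obtain ⟨c, hc, hca⟩ := hg
        have := Good.ofGd (X := X) (S := (S : Subgroup G)) (inf_le_left : P2 ≤ (S : Subgroup G))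
          (by
            rintro x ⟨W', hW', hx⟩ B'' hB'' hxB''
            exact ih _ (by omega) P2 inf_le_left hP2ne (Or.inl (by omega)) rfl W' hW' x hx.2 B'' hB''
              (le_trans hxB'' inf_le_left)) hc
        exact this.congr hca
      have g2 : Good X (S : Subgroup G) B k :=
        (hX _ inf_le_left (by omega) k (le_trans hk1 inf_le_left)).mono hB1
      have g3 : Good X (S : Subgroup G) (cj z B) k :=
        (hX _ inf_le_left (by omega) k (le_trans hk1 inf_le_left)).mono hB2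
      have g4 := g2.trans g1
      have g5 := g3.symm hXinv
      have e1 : cj (k * z * k⁻¹ * k) B = cj k (cj z B) := by
        rw [← cj_mul]; congr 1; group
      have g6 := g4.trans (by rw [e1]; exact g5)
      have e2 : k⁻¹ * (k * z * k⁻¹ * k) = z := by group
      rwa [e2] at g6

/-- Let p be a prime, G a finite group with Sylow p-subgroup S, and 𝓦 a set of conjugacy functors for p on G. Suppose that 𝓦 controls strong fusion in N_G(T) for every nonidentity subgroup T of S for which N_S(T) is a Sylow p-subgroup of N_G(T). Then 𝓦 controls strong fusion in G. (A set of functors controls strong fusion in a subgroup H when, for a Sylow p-subgroup T' of H, every conjugation of a tuple of elements of T' into T' by an element of H is a composite of conjugations inside the normalizers N_H(W(T')), W ∈ 𝓦, all intermediate tuples staying in T'.) -/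
theorem result {G : Type*} [Group G] [Finite G] {p : ℕ} [Fact p.Prime] (S : Sylow p G) (𝓦 : Set (Subgroup G → Subgroup G)) (h𝓦 : ∀ W ∈ 𝓦, Cfsg.IsConjugacyFunctor p W) (hloc : ∀ T : Subgroup G, T ≤ (S : Subgroup G) → T ≠ ⊥ → ¬ p ∣ ((S : Subgroup G) ⊓ Subgroup.normalizer ((T : Subgroup G) : Set G)).relIndex (Subgroup.normalizer ((T : Subgroup G) : Set G)) → Cfsg.FamilyControlsStrongFusionIn p 𝓦 (Subgroup.normalizer ((T : Subgroup G) : Set G))) : Cfsg.FamilyControlsStrongFusionIn p 𝓦 ⊤ := by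
  set X : Set G := {x | ∃ W ∈ 𝓦, x ∈ Subgroup.normalizer ((W (S : Subgroup G) : Subgroup G) : Set G)}
    with hXdef
  have hXinv : ∀ x ∈ X, x⁻¹ ∈ X := by
    rintro x ⟨W, hW, hx⟩
    exact ⟨W, hW, inv_mem hx⟩
  have main := alperin_abstract S (fun B g => Good X (S : Subgroup G) B g)
    (fun B B' g hB hR => hR.mono hB)
    (fun B g h hR1 hR2 => hR1.trans hR2)
    (fun B g hR => hR.symm hXinv)
    (fun B hB hIH => by
      obtain ⟨k, hk1, hk2⟩ := exists_fully_normalized S B
      have hUS : cj k B ≤ (S : Subgroup G) :=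
          le_trans (cj_mono k (le_inf hB Subgroup.le_normalizer)) (le_trans hk1 inf_le_left)
      refine ⟨cj k B, hUS, ⟨k, rfl⟩, hk2, ?_⟩
      intro y hy
      by_cases hbot : cj k B = ⊥
      · refine ⟨1, Gd.nil _ hUS, ?_⟩
        intro a ha
        rw [hbot, Subgroup.mem_bot] at ha
        subst ha; simp
      · set U := cj k B with hU
        set P0 := (S : Subgroup G) ⊓ Subgroup.normalizer (U : Set G) with hP0
        have hP0p : IsPGroup p P0 := S.2.to_le inf_le_left
        have hUP0 : U ≤ P0 := le_inf hUS Subgroup.le_normalizer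
        have hP0ne : P0 ≠ ⊥ := by
          intro h
          apply hbot
          rw [eq_bot_iff, ← h]
          exact hUP0
        have hcond : Nat.card B < Nat.card P0 ∨ P0 = (S : Subgroup G) := by
          rcases eq_or_lt_of_le hUS with heq | hlt
          · right
            exact le_antisymm inf_le_left (heq ▸ hUP0)
          · left
            have := card_lt_of_lt (lt_inf_normalizer S.2 hlt)
            rwa [hU, card_cj] at this
        obtain ⟨c, hc, hca⟩ := fcsf_sylow h𝓦 (hloc U hUS hbot hk2) inf_le_right hP0p hk2 U y hy hUP0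
          (by rw [cj_eq_of_mem_normalizer hy]; exact hUP0)
        have := Good.ofGd (X := X) (S := (S : Subgroup G)) (inf_le_left : P0 ≤ (S : Subgroup G))
          (by
            rintro x ⟨W', hW', hx⟩ B'' hB'' hxB''
            exact climb S 𝓦 h𝓦 hloc X hXdef (Nat.card B) hIH _ P0 inf_le_left hP0ne hcond rfl W' hW'
              x hx.2 B'' hB'' (le_trans hxB'' inf_le_left)) hc
        exact this.congr hca)
  refine ⟨S, le_top, S.2, sylow_relIndex_top S, ?_⟩
  intro A h _ hA hAh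
  have hcl : cj h (Subgroup.closure A) ≤ (S : Subgroup G) := by
    rw [cj, MonoidHom.map_closure, Subgroup.closure_le]
    rintro _ ⟨a, ha, rfl⟩
    have := hAh ⟨a, ha, rfl⟩
    simpa [MulAut.conj_apply] using this
  obtain ⟨c, hc, hca⟩ := main (Subgroup.closure A) ((Subgroup.closure_le _).mpr hA) h hcl
  obtain ⟨n, c', h0, hs, hall, hlast⟩ := hc.toDef
  refine ⟨n, c', h0, ?_, ?_, ?_⟩
  · intro i
    obtain ⟨W, hW, hx⟩ := hs i
    exact ⟨W, hW, Subgroup.mem_top _, hx⟩
  · intro i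
    rintro _ ⟨a, ha, rfl⟩
    exact hall i (conj_mem_cj (Subgroup.subset_closure ha))
  · intro a ha
    rw [hlast]
    exact hca a (Subgroup.subset_closure ha)

end Cfsg.Agent.S1959
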