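import Cfsg.Statements.S1961
import Cfsg.Agent.Lib.Helper39.Control

set_option autoImplicit false
open Cfsg
open Cfsg.Agent.Lib.Helper39

namespace Cfsg.Agent.S1961

theorem climb {G : Type*} [Group G] [Finite G] {p : ℕ} [Fact p.Prime] (S : Sylow p G)
    (W : Subgroup G → Subgroup G) (hW : Cfsg.IsConjugacyFunctor p W)
    (hloc : ∀ T : Subgroup G, T ≠ ⊥ → Cfsg.IsWellPlaced p W (S : Subgroup G) T →
      Cfsg.ControlsStrongFusionIn p W (Subgroup.normalizer ((T : Subgroup G) : Set G))) :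
    ∀ n : ℕ, ∀ T : Subgroup G, T ≠ ⊥ → Cfsg.IsWellPlaced p W (S : Subgroup G) T →
      Nat.card (S : Subgroup G) -
        Nat.card ((S : Subgroup G) ⊓ Subgroup.normalizer (T : Set G) : Subgroup G) = n →
      ∀ U : Subgroup G, U ≤ (S : Subgroup G) ⊓ Subgroup.normalizer (T : Set G) →
      ∀ y ∈ Subgroup.normalizer (T : Set G), cj y U ≤ (S : Subgroup G) →
      ∃ x ∈ Subgroup.normalizer ((W (S : Subgroup G) : Subgroup G) : Set G),
        ∀ a ∈ U, x * a * x⁻¹ = y * a * y⁻¹ := by
  intro n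
  induction n using Nat.strong_induction_on with
  | _ n ih =>
    intro T hT hwp hn U hU y hy hyU
    set P := (S : Subgroup G) ⊓ Subgroup.normalizer (T : Set G) with hP
    have hPp : IsPGroup p P := S.2.to_le inf_le_left
    have hyU' : cj y U ≤ P := by
      apply le_inf hyU
      have := cj_mono y (le_trans hU inf_le_right)
      rwa [cj_self_of_mem hy] at this
    obtain ⟨x, hx, hxa⟩ := csf_sylow hW (hloc T hT hwp) inf_le_right hPp (hwp.2 0) U y hy hU hyU'
    rcases eq_or_lt_of_le (inf_le_left : P ≤ (S : Subgroup G)) with heq | hlt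
    · refine ⟨x, ?_, hxa⟩
      have e : W P = W (S : Subgroup G) := congrArg W heq
      rw [← e]; exact hx.2
    · have hgrow : P < (S : Subgroup G) ⊓ Subgroup.normalizer ((W P : Subgroup G) : Set G) :=
          lt_of_lt_of_le (lt_inf_normalizer S.2 hlt)
            (inf_le_inf_left _ (normalizer_le_normalizer_functor hW hPp))
      have hc2 := card_lt_of_lt hgrow
      have hc3 : Nat.card ((S : Subgroup G) ⊓ Subgroup.normalizer ((W P : Subgroup G) : Set G) : Subgroup G)
            ≤ Nat.card (S : Subgroup G) := Subgroup.card_le_of_le inf_le_left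
      have hPne : P ≠ ⊥ := by
        intro h
        apply hT
        rw [eq_bot_iff, ← h]
        exact le_inf hwp.1 Subgroup.le_normalizer
      obtain ⟨x', hx', hxa'⟩ := ih _ (by omega) (W P) ((hW P hPp).2.1 hPne)
        (wellPlaced_step hW S.2 hwp) rfl U (le_trans hU hgrow.le) x hx.2
        (by rw [conj_eq_of_same_action hxa]; exact hyU)
      exact ⟨x', hx', fun a ha => by rw [hxa' a ha, hxa a ha]⟩

/-- Local-to-global control of strong fusion through well-placed subgroups. Let p be a prime, G a finite group with Sylow p-subgroup S, and W a conjugacy functor for p on G. If W controls strong fusion in N_G(T) for every nonidentity subgroup T of S that is well placed in S with respect to W, then W controls strong fusion in G. -/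
theorem result {G : Type*} [Group G] [Finite G] {p : ℕ} [Fact p.Prime] (S : Sylow p G) (W : Subgroup G → Subgroup G) (hW : Cfsg.IsConjugacyFunctor p W) (hloc : ∀ T : Subgroup G, T ≠ ⊥ → Cfsg.IsWellPlaced p W (S : Subgroup G) T → Cfsg.ControlsStrongFusionIn p W (Subgroup.normalizer ((T : Subgroup G) : Set G))) : Cfsg.ControlsStrongFusionIn p W ⊤ := by
  have main := alperin_abstract S
    (fun B g => ∃ x ∈ Subgroup.normalizer ((W (S : Subgroup G) : Subgroup G) : Set G),
        ∀ a ∈ B, x * a * x⁻¹ = g * a * g⁻¹)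
    (fun B B' g hB ⟨x, hx, hxa⟩ => ⟨x, hx, fun a ha => hxa a (hB ha)⟩)
    (fun B g h ⟨x1, hx1, hxa1⟩ ⟨x2, hx2, hxa2⟩ => ⟨x2 * x1, mul_mem hx2 hx1, fun a ha => by
      have h2 := hxa2 (g * a * g⁻¹) (conj_mem_cj ha)
      calc x2 * x1 * a * (x2 * x1)⁻¹ = x2 * (x1 * a * x1⁻¹) * x2⁻¹ := by group
        _ = x2 * (g * a * g⁻¹) * x2⁻¹ := by rw [hxa1 a ha]
        _ = h * (g * a * g⁻¹) * h⁻¹ := h2
        _ = h * g * a * (h * g)⁻¹ := by group⟩)
    (fun B g ⟨x, hx, hxa⟩ => ⟨x⁻¹, inv_mem hx, fun a ha => by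
      have ha' : g⁻¹ * a * g ∈ B := mem_cj.mp ha
      have h1 := hxa _ ha'
      have h2 : x * (g⁻¹ * a * g) * x⁻¹ = a := by rw [h1]; group
      calc x⁻¹ * a * x⁻¹⁻¹ = x⁻¹ * (x * (g⁻¹ * a * g) * x⁻¹) * x := by rw [h2]; group
        _ = g⁻¹ * a * g⁻¹⁻¹ := by group⟩)
    (fun B hB _ => by
      obtain ⟨k, hk, _⟩ := exists_wellPlaced_conj S hW B hB
      refine ⟨cj k B, hk.1, ⟨k, rfl⟩, hk.2 0, ?_⟩
      intro y hy
      by_cases hbot : cj k B = ⊥
      · refine ⟨1, one_mem _, ?_⟩
        intro a ha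
        rw [hbot, Subgroup.mem_bot] at ha
        subst ha; simp
      · exact climb S W hW hloc _ _ hbot hk rfl _ (le_inf hk.1 Subgroup.le_normalizer) y hy
          (by rw [cj_eq_of_mem_normalizer hy]; exact hk.1))
  refine ⟨S, le_top, S.2, sylow_relIndex_top S, ?_⟩
  intro A h _ hA hAh
  have hcl : cj h (Subgroup.closure A) ≤ (S : Subgroup G) := by
    rw [cj, MonoidHom.map_closure, Subgroup.closure_le]
    rintro _ ⟨a, ha, rfl⟩
    have := hAh ⟨a, ha, rfl⟩
    simpa [MulAut.conj_apply] using this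
  obtain ⟨x, hx, hxa⟩ := main (Subgroup.closure A) ((Subgroup.closure_le _).mpr hA) h hcl
  exact ⟨x, ⟨Subgroup.mem_top x, hx⟩, fun a ha => hxa a (Subgroup.subset_closure ha)⟩

end Cfsg.Agent.S1961
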