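import Cfsg.Statements.S1965
import Cfsg.Agent.Lib.Helper39.Alperin

set_option autoImplicit false
open Cfsg
open Cfsg.Agent.Lib.Helper39

namespace Cfsg.Agent.S1965

inductive Ch {G : Type*} [Group G] (𝓕 : Set (Subgroup G)) : Subgroup G → G → Prop
  | nil (B : Subgroup G) : Ch 𝓕 B 1
  | cons (B T : Subgroup G) (x g : G) : T ∈ 𝓕 → x ∈ Subgroup.normalizer (T : Set G) → B ≤ T →
      Ch 𝓕 (cj x⁻¹ B) g → Ch 𝓕 B (x * g)

theorem Ch.mono {G : Type*} [Group G] {𝓕 : Set (Subgroup G)} {B : Subgroup G} {g : G}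
    (h : Ch 𝓕 B g) : ∀ B' : Subgroup G, B' ≤ B → Ch 𝓕 B' g := by
  induction h with
  | nil B => intro B' _; exact Ch.nil B'
  | cons B T x g hT hx hB _ ih =>
    intro B' hB'
    exact Ch.cons B' T x g hT hx (le_trans hB' hB) (ih _ (cj_mono _ hB'))

theorem Ch.trans {G : Type*} [Group G] {𝓕 : Set (Subgroup G)} {B : Subgroup G} {g : G}
    (h : Ch 𝓕 B g) : ∀ h' : G, Ch 𝓕 (cj g⁻¹ B) h' → Ch 𝓕 B (g * h') := by
  induction h with
  | nil B => intro h' hh; simpa [cj_one] using hh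
  | cons B T x g hT hx hB _ ih =>
    intro h' hh
    rw [mul_assoc]
    apply Ch.cons B T x _ hT hx hB
    apply ih
    rw [← cj_mul, ← mul_inv_rev]
    exact hh

theorem Ch.symm {G : Type*} [Group G] {𝓕 : Set (Subgroup G)} {B : Subgroup G} {g : G}
    (h : Ch 𝓕 B g) : Ch 𝓕 (cj g⁻¹ B) g⁻¹ := by
  induction h with
  | nil B => simpa using Ch.nil _
  | cons B T x g hT hx hB _ ih =>
    rw [mul_inv_rev, cj_mul]
    apply ih.trans
    rw [cj_inv_cj]
    have := Ch.cons (cj x⁻¹ B) T x⁻¹ 1 hT (inv_mem hx)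
      (by
        have h1 := cj_mono x⁻¹ hB
        rwa [cj_eq_of_mem_normalizer (inv_mem hx)] at h1) (Ch.nil _)
    simpa using this

theorem Ch.toFam {G : Type*} [Group G] {𝓕 : Set (Subgroup G)} {B : Subgroup G} {g : G}
    (h : Ch 𝓕 B g) : ∃ (n : ℕ) (T : Fin n → Subgroup G) (x : Fin n → G), (List.ofFn x).prod = g ∧
      (∀ i, T i ∈ 𝓕) ∧ (∀ i, x i ∈ Subgroup.normalizer ((T i : Subgroup G) : Set G)) ∧
      (∀ h : 0 < n, B ≤ T ⟨0, h⟩) ∧
      ∀ (i : Fin n) (h : i.val + 1 < n),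
        cj (((List.ofFn x).take (i.val + 1)).prod)⁻¹ B ≤ T ⟨i.val + 1, h⟩ := by
  induction h with
  | nil B => exact ⟨0, Fin.elim0, Fin.elim0, by simp, fun i => i.elim0, fun i => i.elim0,
      fun h => absurd h (lt_irrefl 0), fun i => i.elim0⟩
  | cons B T0 x0 g hT hx hB _ ih =>
    obtain ⟨n, T, x, hprod, hT', hx', h0, hs⟩ := ih
    refine ⟨n + 1, Fin.cons T0 T, Fin.cons x0 x, ?_, ?_, ?_, ?_, ?_⟩
    · rw [List.ofFn_succ]; simp [hprod]
    · intro i; refine Fin.cases ?_ ?_ i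
      · simpa using hT
      · intro j; simpa using hT' j
    · intro i; refine Fin.cases ?_ ?_ i
      · simpa using hx
      · intro j; simpa using hx' j
    · intro _; exact hB
    · intro i hi
      have hi' : i.val < n := by omega
      have e1 : (Fin.cons T0 T : Fin (n + 1) → Subgroup G) ⟨i.val + 1, hi⟩ = T ⟨i.val, hi'⟩ := by
        have : (⟨i.val + 1, hi⟩ : Fin (n + 1)) = Fin.succ ⟨i.val, hi'⟩ := rfl
        rw [this, Fin.cons_succ]
      rw [e1, List.ofFn_succ]
      simp only [Fin.cons_zero, Fin.cons_succ, List.take_succ_cons, List.prod_cons, mul_inv_rev]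
      rw [cj_mul]
      rcases Nat.eq_zero_or_pos i.val with hz | hpos
      · have : (⟨i.val, hi'⟩ : Fin n) = ⟨0, by omega⟩ := by ext; exact hz
        rw [this, hz]
        simpa [cj_one] using h0 (by omega)
      · obtain ⟨j, hj⟩ : ∃ j, i.val = j + 1 := ⟨i.val - 1, by omega⟩
        have := hs ⟨j, by omega⟩ (by simp only; omega)
        have e2 : (⟨i.val, hi'⟩ : Fin n) = ⟨j + 1, by omega⟩ := by ext; exact hj
        rw [e2, hj]
        exact this

theorem closure_conj_le {G : Type*} [Group G] {A : Set G} {g : G} {S : Subgroup G}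
    (h : (fun a => g⁻¹ * a * g) '' A ⊆ S) : cj g⁻¹ (Subgroup.closure A) ≤ S := by
  rw [cj, MonoidHom.map_closure, Subgroup.closure_le]
  rintro _ ⟨a, ha, rfl⟩
  have := h ⟨a, ha, rfl⟩
  simpa [MulAut.conj_apply] using this

theorem image_subset_of_cj_le {G : Type*} [Group G] {A : Set G} {g : G} {T : Subgroup G}
    (h : cj g⁻¹ (Subgroup.closure A) ≤ T) : (fun a => g⁻¹ * a * g) '' A ⊆ T := by
  rintro _ ⟨a, ha, rfl⟩
  have := h (conj_mem_cj (g := g⁻¹) (Subgroup.subset_closure ha))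
  simpa using this

/-- Let p be a prime, G a finite group with Sylow p-subgroup S and 𝓕 a set of subgroups of S. Suppose that every subgroup T of S is G-conjugate to some member U of 𝓕 for which N_S(U) is a Sylow p-subgroup of N_G(U). Then 𝓕 is a conjugation family for S in G. -/
theorem result {G : Type*} [Group G] [Finite G] {p : ℕ} [Fact p.Prime] (S : Sylow p G) (𝓕 : Set (Subgroup G)) (h𝓕 : ∀ U ∈ 𝓕, U ≤ (S : Subgroup G)) (h : ∀ T : Subgroup G, T ≤ (S : Subgroup G) → ∃ U ∈ 𝓕, (∃ g : G, T.map (MulAut.conj g).toMonoidHom = U) ∧ ¬ p ∣ ((S : Subgroup G) ⊓ Subgroup.normalizer ((U : Subgroup G) : Set G)).relIndex (Subgroup.normalizer ((U : Subgroup G) : Set G))) : Cfsg.IsConjugationFamily 𝓕 (S : Subgroup G) := by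
  refine ⟨h𝓕, ?_⟩
  intro A g _ hA hAg
  have main := alperin_abstract S (fun B g => Ch 𝓕 B g⁻¹)
    (fun B B' g hB hR => hR.mono B' hB)
    (fun B g h hR1 hR2 => by
      rw [mul_inv_rev]
      apply hR1.trans
      rw [inv_inv]; exact hR2)
    (fun B g hR => by
      have := hR.symm
      simpa only [inv_inv] using this)
    (fun B hB _ => by
      obtain ⟨U, hU, hk, hidx⟩ := h B hB
      refine ⟨U, h𝓕 U hU, hk, hidx, ?_⟩
      intro y hy
      have := Ch.cons U U y⁻¹ 1 hU (inv_mem hy) le_rfl (Ch.nil _)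
      simpa using this)
  have hch : Ch 𝓕 (Subgroup.closure A) g := by
    have := main (Subgroup.closure A) ((Subgroup.closure_le _).mpr hA) g⁻¹ (closure_conj_le hAg)
    rwa [inv_inv] at this
  obtain ⟨n, T, x, hprod, hT, hx, h0, hs⟩ := hch.toFam
  refine ⟨n, T, x, hprod, hT, hx, ?_, ?_⟩
  · intro hn
    exact subset_trans Subgroup.subset_closure (h0 hn)
  · intro i hi
    exact image_subset_of_cj_le (hs i hi)

end Cfsg.Agent.S1965
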