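import Cfsg.Statements.S1966
import Cfsg.Agent.Lib.Helper39.SylowRel

set_option autoImplicit false
open Cfsg
open Cfsg.Agent.Lib.Helper39

namespace Cfsg.Agent.S1966

theorem pCore_le_sylow {G : Type*} [Group G] [Finite G] {p : ℕ} [Fact p.Prime] (S : Sylow p G) :
    Cfsg.pCore p G ≤ (S : Subgroup G) := by
  apply sSup_le
  rintro N ⟨hN, hNp⟩
  obtain ⟨h, -, hle⟩ := exists_conj_le_of_relIndex (p := p) (H := ⊤) (R := (S : Subgroup G)) (Q := N)
    le_top S.2 (sylow_relIndex_top S) le_top hNp
  rwa [cj_eq_of_mem_normalizer (by rw [Subgroup.normalizer_eq_top]; exact Subgroup.mem_top h)] at hle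

/-- Let p be a prime, G a finite group with Sylow p-subgroup S and 𝓕 a conjugation family for S in G. Then the members of 𝓕 containing O_p(G) still form a conjugation family for S in G. -/
theorem result {G : Type*} [Group G] [Finite G] {p : ℕ} [Fact p.Prime] (S : Sylow p G) (𝓕 : Set (Subgroup G)) (h : Cfsg.IsConjugationFamily 𝓕 (S : Subgroup G)) : Cfsg.IsConjugationFamily {T : Subgroup G | T ∈ 𝓕 ∧ Cfsg.pCore p G ≤ T} (S : Subgroup G) := by
  have hnorm : (Cfsg.pCore p G).Normal := Subgroup.sSup_normal _ (fun _ h => h.1)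
  refine ⟨fun T hT => h.1 T hT.1, ?_⟩
  intro A g hne hA hAg
  obtain ⟨n, T, x, hprod, hT, hx, h0, hs⟩ := h.2 (A ∪ (Cfsg.pCore p G : Set G)) g
    (hne.mono Set.subset_union_left)
    (Set.union_subset hA (pCore_le_sylow S))
    (by
      rintro _ ⟨a, ha | ha, rfl⟩
      · exact hAg ⟨a, ha, rfl⟩
      · apply pCore_le_sylow S
        have := hnorm.conj_mem a ha g⁻¹
        simpa using this)
  refine ⟨n, T, x, hprod, ?_, hx, ?_, ?_⟩
  · intro i
    refine ⟨hT i, ?_⟩
    rcases Nat.eq_zero_or_pos i.val with hz | hpos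
    · have e : i = ⟨0, by have := i.2; omega⟩ := by ext; exact hz
      rw [e]
      exact fun a ha => h0 _ (Or.inr ha)
    · obtain ⟨j, hj⟩ : ∃ j, i.val = j + 1 := ⟨i.val - 1, by omega⟩
      have hjn : j + 1 < n := by have := i.2; omega
      have := hs ⟨j, by omega⟩ hjn
      have e : i = ⟨j + 1, hjn⟩ := by ext; exact hj
      rw [e]
      intro a ha
      set q := ((List.ofFn x).take (j + 1)).prod with hq
      have h1 : q * a * q⁻¹ ∈ Cfsg.pCore p G := hnorm.conj_mem a ha q
      have h2 := this ⟨q * a * q⁻¹, Or.inr h1, rfl⟩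
      simp only at h2
      have e2 : q⁻¹ * (q * a * q⁻¹) * q = a := by group
      rw [e2] at h2
      exact h2
  · intro hn
    exact subset_trans Set.subset_union_left (h0 hn)
  · intro i hi
    exact subset_trans (Set.image_mono Set.subset_union_left) (hs i hi)

end Cfsg.Agent.S1966
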