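import Cfsg.Statements.S1968
import Cfsg.Agent.Lib.Helper39.WellPlaced
import Mathlib.Data.Fintype.Lattice

set_option autoImplicit false
open Cfsg
open Cfsg.Agent.Lib.Helper39

namespace Cfsg.Agent.S1968

theorem exists_witness {G : Type*} [Group G] [Finite G] {p : ℕ} [Fact p.Prime] (S : Sylow p G)
    (W : Subgroup G → Subgroup G) (hW : Cfsg.IsConjugacyFunctor p W) (A : Subgroup G)
    (hAS : A ≤ (S : Subgroup G)) (hnwc : ¬ Cfsg.IsWeaklyClosed A (S : Subgroup G)) :
    ∃ T : Subgroup G, Cfsg.IsWellPlaced p W (S : Subgroup G) T ∧ A ≤ T ∧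
      ¬ Subgroup.normalizer (T : Set G) ≤ Subgroup.normalizer (A : Set G) := by
  by_contra hcon
  push Not at hcon
  apply hnwc
  refine ⟨hAS, ?_⟩
  have main := alperin_abstract S (fun B g => (A ≤ B ∨ A ≤ cj g B) → cj g A = A)
    (fun B B' g hB hR hor => hR (hor.imp (fun h => le_trans h hB) (fun h => le_trans h (cj_mono g hB))))
    (fun B g h hR1 hR2 hor => by
      rcases hor with h1 | h1
      · have e1 := hR1 (Or.inl h1)
        have e2 := hR2 (Or.inl (by rw [← e1]; exact cj_mono g h1))
        rw [cj_mul, e1, e2]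
      · rw [cj_mul] at h1
        have e2 := hR2 (Or.inr h1)
        have h2 : A ≤ cj g B := by
          have := cj_mono h⁻¹ h1
          rw [cj_inv_cj] at this
          have e3 : cj h⁻¹ A = A := by
            conv_lhs => rw [← e2]
            exact cj_inv_cj h A
          rwa [e3] at this
        have e1 := hR1 (Or.inr h2)
        rw [cj_mul, e1, e2])
    (fun B g hR hor => by
      have e1 : cj g A = A := by
        apply hR
        rcases hor with h1 | h1
        · exact Or.inr h1
        · rw [cj_inv_cj] at h1; exact Or.inl h1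
      conv_lhs => rw [← e1]
      exact cj_inv_cj g A)
    (fun B hB _ => by
      obtain ⟨k, hk, _⟩ := exists_wellPlaced_conj S hW B hB
      refine ⟨cj k B, hk.1, ⟨k, rfl⟩, hk.2 0, ?_⟩
      intro y hy hor
      have hA : A ≤ cj k B := by
        rcases hor with h1 | h1
        · exact h1
        · rwa [cj_eq_of_mem_normalizer hy] at h1
      exact cj_eq_of_mem_normalizer (hcon _ hk hA hy))
  intro g hg
  exact main A hAS g hg (Or.inl le_rfl)

/-- Let p be a prime, G a finite group with Sylow p-subgroup S and W a conjugacy functor for p on G with Z(P) ≤ W(P) for every p-subgroup P. Let A be a subgroup of Z(S) normalized by N_G(W(S)) that is not weakly closed in S with respect to G. Then there is a subgroup T of S, well placed in S with respect to W, such that: A ≤ T; N_G(W(N_S(T))) normalizes A; N_S(T) is a Sylow p-subgroup of N_G(T); A ≤ Z(N_S(T)); and A is not weakly closed in N_S(T) with respect to N_G(T), that is, some N_G(T)-conjugate of A other than A lies in N_S(T). -/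
theorem result {G : Type*} [Group G] [Finite G] {p : ℕ} [Fact p.Prime] (S : Sylow p G) (W : Subgroup G → Subgroup G) (hW : Cfsg.IsConjugacyFunctor p W) (hWZ : ∀ P : Subgroup G, IsPGroup p ↥P → P ⊓ Subgroup.centralizer (P : Set G) ≤ W P) (A : Subgroup G) (hAZ : A ≤ (S : Subgroup G) ⊓ Subgroup.centralizer ((S : Subgroup G) : Set G)) (hAN : Subgroup.normalizer ((W (S : Subgroup G) : Subgroup G) : Set G) ≤ Subgroup.normalizer ((A : Subgroup G) : Set G)) (hnwc : ¬ Cfsg.IsWeaklyClosed A (S : Subgroup G)) : ∃ T : Subgroup G, Cfsg.IsWellPlaced p W (S : Subgroup G) T ∧ A ≤ T ∧ Subgroup.normalizer ((W ((S : Subgroup G) ⊓ Subgroup.normalizer ((T : Subgroup G) : Set G)) : Subgroup G) : Set G) ≤ Subgroup.normalizer ((A : Subgroup G) : Set G) ∧ ¬ p ∣ ((S : Subgroup G) ⊓ Subgroup.normalizer ((T : Subgroup G) : Set G)).relIndex (Subgroup.normalizer ((T : Subgroup G) : Set G)) ∧ A ≤ Subgroup.centralizer (((S : Subgroup G) ⊓ Subgroup.normalizer ((T : Subgroup G) : Set G) : Subgroup G) : Set G) ∧ ∃ g ∈ Subgroup.normalizer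 ((T : Subgroup G) : Set G), A.map (MulAut.conj g).toMonoidHom ≤ (S : Subgroup G) ⊓ Subgroup.normalizer ((T : Subgroup G) : Set G) ∧ A.map (MulAut.conj g).toMonoidHom ≠ A := by
  have hAS : A ≤ (S : Subgroup G) := le_trans hAZ inf_le_left
  have hAC : A ≤ Subgroup.centralizer ((S : Subgroup G) : Set G) := le_trans hAZ inf_le_right
  let 𝒯 := {T : Subgroup G // Cfsg.IsWellPlaced p W (S : Subgroup G) T ∧ A ≤ T ∧
      ¬ Subgroup.normalizer (T : Set G) ≤ Subgroup.normalizer (A : Set G)}
  obtain ⟨T0, hT0⟩ := exists_witness S W hW A hAS hnwc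
  have : Nonempty 𝒯 := ⟨⟨T0, hT0⟩⟩
  obtain ⟨⟨T, hT1, hT2, hT3⟩, hmax⟩ := Finite.exists_max
    (fun T : 𝒯 => Nat.card ((S : Subgroup G) ⊓ Subgroup.normalizer ((T : Subgroup G) : Set G) : Subgroup G))
  set P := (S : Subgroup G) ⊓ Subgroup.normalizer (T : Set G) with hP
  have hPp : IsPGroup p P := S.2.to_le inf_le_left
  have hAcP : A ≤ Subgroup.centralizer (P : Set G) :=
    le_trans hAC (Subgroup.centralizer_le inf_le_left)
  have hTP : T ≤ P := le_inf hT1.1 Subgroup.le_normalizer
  refine ⟨T, hT1, hT2, ?_, hT1.2 0, hAcP, ?_⟩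
  · by_contra hcon
    have hmem : Cfsg.IsWellPlaced p W (S : Subgroup G) (W P) ∧ A ≤ W P ∧
      ¬ Subgroup.normalizer ((W P : Subgroup G) : Set G) ≤ Subgroup.normalizer (A : Set G) :=
      ⟨wellPlaced_step hW S.2 hT1, le_trans (le_inf (le_trans hT2 hTP) hAcP) (hWZ P hPp), hcon⟩
    have hle := hmax ⟨W P, hmem⟩
    simp only at hle
    rcases eq_or_lt_of_le (inf_le_left : P ≤ (S : Subgroup G)) with heq | hlt
    · apply hcon
      have e : W P = W (S : Subgroup G) := congrArg W heq
      rw [e]; exact hAN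
    · have hgrow : P < (S : Subgroup G) ⊓ Subgroup.normalizer ((W P : Subgroup G) : Set G) :=
          lt_of_lt_of_le (lt_inf_normalizer S.2 hlt)
            (inf_le_inf_left _ (normalizer_le_normalizer_functor hW hPp))
      have := card_lt_of_lt hgrow
      omega
  · obtain ⟨g, hg, hgA⟩ := SetLike.not_le_iff_exists.mp hT3
    refine ⟨g, hg, ?_, ?_⟩
    · have := cj_mono g hT2
      rw [cj_eq_of_mem_normalizer hg] at this
      exact le_trans this hTP
    · intro h
      exact hgA (mem_normalizer_of_cj_eq h)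

end Cfsg.Agent.S1968
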