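import Cfsg.Statements.S1992
import Cfsg.Agent.Lib.Helper40.KInfQuartic

set_option autoImplicit false
open Cfsg

namespace Cfsg.Agent.S1992



/-- Let G be a finite group in which, for every prime q dividing the order of G, every Sylow q-subgroup is its own normalizer. Then the order of G is a power of a single prime (G is a q-group for some prime q; for G trivial any prime works). -/
theorem result {G : Type*} [Group G] [Finite G] (h : ∀ q : ℕ, q.Prime → q ∣ Nat.card G → ∀ Q : Sylow q G, Subgroup.normalizer ((Q : Subgroup G) : Set G) = Q) : ∃ q : ℕ, q.Prime ∧ IsPGroup q G := by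
  exact Cfsg.Agent.Lib.Helper40.isPGroup_of_self_normalizing
    (fun p _ _ => Cfsg.Agent.Lib.Helper40.quartic_lower p) h

end Cfsg.Agent.S1992
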