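import Cfsg.Statements.S1995
import Cfsg.Agent.Lib.Helper40.TransferRed2

set_option autoImplicit false
universe u
open Cfsg

namespace Cfsg.Agent.S1995

open Cfsg.Agent.Lib.Helper40

/-- Let p be a prime, G a finite group and 𝓦 a set of isomorphism-invariant p-group functors (W assigns to every group Q a subgroup W(Q), nontrivial whenever Q is a nontrivial finite p-group, and every isomorphism from a finite p-group Q onto a group R carries W(Q) onto W(R)). If the conjugacy functors induced by 𝓦 control transfer in every section G* = K/R of G with C_{G*}(O_p(G*)) ≤ O_p(G*), then they control transfer in G: S ∩ G' is generated by the subgroups S ∩ (N_G(W(S)))', W ∈ 𝓦, for a Sylow p-subgroup S. -/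
theorem result {G : Type u} [Group G] [Finite G] {p : ℕ} [Fact p.Prime] (𝓦 : Set (∀ (Q : Type u) [Group Q], Subgroup Q)) (h𝓦 : ∀ W ∈ 𝓦, Cfsg.IsCharPFunctor.{u} p W) (hloc : ∀ (K R : Subgroup G) [hR : (R.subgroupOf K).Normal], Subgroup.centralizer ((Cfsg.pCore p (↥K ⧸ R.subgroupOf K) : Subgroup (↥K ⧸ R.subgroupOf K)) : Set (↥K ⧸ R.subgroupOf K)) ≤ Cfsg.pCore p (↥K ⧸ R.subgroupOf K) → Cfsg.FamilyControlsTransferIn p ((fun W => Cfsg.inducedFunctor (G := (↥K ⧸ R.subgroupOf K)) W) '' 𝓦) ⊤) : Cfsg.FamilyControlsTransferIn p ((fun W => Cfsg.inducedFunctor (G := G) W) '' 𝓦) ⊤ := by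
  have hall : ∀ (K R : Subgroup G) (_ : (R.subgroupOf K).Normal),
      CT p 𝓦 (↥K ⧸ R.subgroupOf K) := by
    by_contra hcon
    push Not at hcon
    obtain ⟨K, R, hR, hn, hmin⟩ := exists_minimal_failing h𝓦 hcon
    apply hn
    by_cases hc : Subgroup.centralizer ((Cfsg.pCore p (↥K ⧸ R.subgroupOf K) :
        Subgroup (↥K ⧸ R.subgroupOf K)) : Set (↥K ⧸ R.subgroupOf K)) ≤
        Cfsg.pCore p (↥K ⧸ R.subgroupOf K)
    · exact hloc K R hc
    · apply CT.of_not_constrained h𝓦 _ _ hc
      · intro H hH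
        exact hmin H (isSec_subgroup H) (card_subgroup_lt H hH)
      · intro N _ hN
        exact hmin _ (isSec_quotient N) (card_quotient_lt N hN)
  exact CT.of_isSec h𝓦 hall (IsSec.refl G)

end Cfsg.Agent.S1995
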