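import Cfsg.Statements.S1996
import Cfsg.Agent.Lib.Helper57.FC8
-- import your own Cfsg.Agent.* helpers here

set_option autoImplicit false
universe u
open Cfsg

namespace Cfsg.Agent.S1996


/-- Let p be a prime, G a finite group and W₁, W₂ two isomorphism-invariant p-group functors (W assigns to every group Q a subgroup W(Q), nontrivial whenever Q is a nontrivial finite p-group, and every isomorphism from a finite p-group Q onto a group R carries W(Q) onto W(R)). Suppose that G* = N_{G*}(W₁(S*)) N_{G*}(W₂(S*)) whenever G* = K/R is a section of G with C_{G*}(O_p(G*)) ≤ O_p(G*) and S* is a Sylow p-subgroup of G*. Then the pair {W₁, W₂} controls strong fusion in G. -/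
theorem result {G : Type u} [Group G] [Finite G] {p : ℕ} [Fact p.Prime] (W₁ W₂ : ∀ (Q : Type u) [Group Q], Subgroup Q) (hW₁ : Cfsg.IsCharPFunctor.{u} p W₁) (hW₂ : Cfsg.IsCharPFunctor.{u} p W₂) (hfac : ∀ (K R : Subgroup G) [hR : (R.subgroupOf K).Normal], Subgroup.centralizer ((Cfsg.pCore p (↥K ⧸ R.subgroupOf K) : Subgroup (↥K ⧸ R.subgroupOf K)) : Set (↥K ⧸ R.subgroupOf K)) ≤ Cfsg.pCore p (↥K ⧸ R.subgroupOf K) → ∀ T : Sylow p (↥K ⧸ R.subgroupOf K), ∀ x : (↥K ⧸ R.subgroupOf K), ∃ a ∈ Subgroup.normalizer ((Cfsg.inducedFunctor (G := (↥K ⧸ R.subgroupOf K)) W₁ (T : Subgroup (↥K ⧸ R.subgroupOf K)) : Subgroup (↥K ⧸ R.subgroupOf K)) : Set (↥K ⧸ R.subgroupOf K)), ∃ b ∈ Subgroup.normalizer ((Cfsg.inducedFunctor (G := (↥K ⧸ R.subgroupOf K)) W₂ (T : Subgroup (↥K ⧸ R.subgroupOf K)) : Subgroup (↥K ⧸ R.subgroupOf K)) : Set (↥K ⧸ R.subgroupOf K)), x = a * b) : Cfsg.FamilyControlsStrongFusionIn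 p {Cfsg.inducedFunctor (G := G) W₁, Cfsg.inducedFunctor (G := G) W₂} ⊤ := by
  have h𝓦 : ∀ W' ∈ ({W₁, W₂} : Set (∀ (Q : Type u) [Group Q], Subgroup Q)),
      Cfsg.IsCharPFunctor.{u} p W' := by
    rintro W' (rfl | rfl)
    · exact hW₁
    · exact hW₂
  obtain ⟨S⟩ : Nonempty (Sylow p G) := inferInstance
  have key := Cfsg.Agent.Lib.Helper57.FC.family_of_ctl (𝓦 := {W₁, W₂}) S ?_
  · rwa [Set.image_pair] at key
  apply Cfsg.Agent.Lib.Helper57.FC.sections_master h𝓦 _ G (Cfsg.Agent.Lib.Helper40.IsSec.refl G) S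
  intro X _ hX hc T
  apply Cfsg.Agent.Lib.Helper57.FC.ctl_of_section_hyp h𝓦 _ X hX hc T
  intro K R hR hc' T'
  intro B hB g hgB
  obtain ⟨a, ha, b, hb, rfl⟩ := hfac K R hc' T' g
  set N₁ := Subgroup.normalizer ((Cfsg.inducedFunctor (G := (↥K ⧸ R.subgroupOf K)) W₁
    (T' : Subgroup (↥K ⧸ R.subgroupOf K)) : Subgroup (↥K ⧸ R.subgroupOf K)) :
    Set (↥K ⧸ R.subgroupOf K)) with hN₁
  set N₂ := Subgroup.normalizer ((Cfsg.inducedFunctor (G := (↥K ⧸ R.subgroupOf K)) W₂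
    (T' : Subgroup (↥K ⧸ R.subgroupOf K)) : Subgroup (↥K ⧸ R.subgroupOf K)) :
    Set (↥K ⧸ R.subgroupOf K)) with hN₂
  have hd := Cfsg.Agent.Lib.Helper57.FC.deco_id p (↥K ⧸ R.subgroupOf K)
  have hT₁ : (T' : Subgroup (↥K ⧸ R.subgroupOf K)) ≤ N₁ :=
    le_trans Subgroup.le_normalizer
      (Cfsg.Agent.Lib.Helper57.FC.normalizer_le_fam h𝓦 hd ⟨W₁, Or.inl rfl⟩ T'.2)
  have hT₂ : (T' : Subgroup (↥K ⧸ R.subgroupOf K)) ≤ N₂ :=
    le_trans Subgroup.le_normalizer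
      (Cfsg.Agent.Lib.Helper57.FC.normalizer_le_fam h𝓦 hd ⟨W₂, Or.inr rfl⟩ T'.2)
  have h1 : Cfsg.Agent.Lib.Helper39.cj b B ≤ N₁ ⊓ N₂ := by
    rintro _ ⟨x, hx, rfl⟩
    refine ⟨?_, N₂.mul_mem (N₂.mul_mem hb (hT₂ (hB hx))) (N₂.inv_mem hb)⟩
    have h2 : a * b * x * (a * b)⁻¹ ∈ N₁ := hT₁ (hgB (Cfsg.Agent.Lib.Helper39.conj_mem_cj hx))
    have h3 := N₁.mul_mem (N₁.mul_mem (N₁.inv_mem ha) h2) ha
    have e : a⁻¹ * (a * b * x * (a * b)⁻¹) * a = b * x * b⁻¹ := by group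
    rw [e] at h3
    exact h3
  obtain ⟨n, hn, hnB⟩ := Cfsg.Agent.Lib.Helper39.exists_conj_le_of_relIndex (le_inf hT₁ hT₂) T'.2
    (Cfsg.Agent.Lib.Helper39.sylow_relIndex_of_le T' (le_inf hT₁ hT₂)) h1
    (Cfsg.Agent.Lib.Helper39.isPGroup_cj b (T'.2.to_le hB))
  have g1 : Cfsg.Agent.Lib.Helper57.FC.Gen
      (Cfsg.Agent.Lib.Helper57.FC.Hs (Cfsg.Agent.Lib.Helper57.FC.fam {W₁, W₂} id)
        (T' : Subgroup (↥K ⧸ R.subgroupOf K))) (T' : Subgroup (↥K ⧸ R.subgroupOf K)) B (n * b) :=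
    Cfsg.Agent.Lib.Helper57.FC.Gen.base ⟨⟨W₂, Or.inr rfl⟩, rfl⟩ (N₂.mul_mem hn.2 hb) hB
      (by rw [Cfsg.Agent.Lib.Helper39.cj_mul]; exact hnB)
  have g2 := Cfsg.Agent.Lib.Helper57.FC.Gen.comp g1
    (Cfsg.Agent.Lib.Helper57.FC.Gen.base (x := a * n⁻¹) ⟨⟨W₁, Or.inl rfl⟩, rfl⟩
      (N₁.mul_mem ha (N₁.inv_mem hn.1)) g1.le_right (by
        rw [← Cfsg.Agent.Lib.Helper39.cj_mul]
        have e : a * n⁻¹ * (n * b) = a * b := by group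
        rw [e]; exact hgB))
  have e : a * n⁻¹ * (n * b) = a * b := by group
  rwa [e] at g2

end Cfsg.Agent.S1996
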