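import Cfsg.Statements.S2791
import Cfsg.Agent.Lib.Helper52.Misc

set_option autoImplicit false
open Cfsg

namespace Cfsg.Agent.S2791

open Cfsg.Agent.Lib.Helper52
open scoped Pointwise

section aux
variable {G : Type*} [Group G]

abbrev cj (g : G) (A : Subgroup G) : Subgroup G := A.map (MulAut.conj g).toMonoidHom

theorem mem_cj {g x : G} {A : Subgroup G} : x ∈ cj g A ↔ g⁻¹ * x * g ∈ A := mem_map_conj

theorem cj_cj (a b : G) (A : Subgroup G) : cj a (cj b A) = cj (a * b) A := by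
  ext x
  simp only [mem_cj]
  rw [mul_inv_rev]
  constructor <;> intro h <;> simpa [mul_assoc] using h

theorem conj_mem_cj {g a : G} {A : Subgroup G} (ha : a ∈ A) : g * a * g⁻¹ ∈ cj g A := ⟨a, ha, rfl⟩

theorem inv_conj_mem [Finite G] {A : Subgroup G} {w : G} (h : ∀ a ∈ A, w * a * w⁻¹ ∈ A) :
    ∀ a ∈ A, w⁻¹ * a * w ∈ A := by
  have h1 : ∀ k : ℕ, ∀ a ∈ A, w ^ k * a * (w ^ k)⁻¹ ∈ A := by
    intro k
    induction k with
    | zero => intro a ha; simpa using ha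
    | succ k ih =>
      intro a ha
      have : w ^ (k + 1) * a * (w ^ (k + 1))⁻¹ = w * (w ^ k * a * (w ^ k)⁻¹) * w⁻¹ := by
        rw [pow_succ']; group
      rw [this]
      exact h _ (ih a ha)
  have h2 : w⁻¹ = w ^ (orderOf w - 1) := by
    rw [eq_comm, ← mul_eq_one_iff_eq_inv, ← pow_succ, Nat.sub_add_cancel (orderOf_pos w),
      pow_orderOf_eq_one]
  intro a ha
  have := h1 (orderOf w - 1) a ha
  rw [← h2] at this
  simpa using this

theorem isPGroup_zpowers {p k : ℕ} {g : G} (h : g ^ (p ^ k) = 1) :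
    IsPGroup p (Subgroup.zpowers g) := by
  rintro ⟨_, ⟨j, rfl⟩⟩
  refine ⟨k, Subtype.ext ?_⟩
  show (g ^ j) ^ (p ^ k) = 1
  rw [← zpow_natCast, ← zpow_mul, mul_comm, zpow_mul, zpow_natCast, h, one_zpow]

theorem F1 [Finite G] {p : ℕ} {S A : Subgroup G}
    (hsyl : ∀ Q : Subgroup G, IsPGroup p Q → ∃ h : G, Q ≤ cj h S)
    (hcl : ∀ x ∈ A, ∀ g : G, g * x * g⁻¹ ∈ S → g * x * g⁻¹ ∈ A)
    {Q : Subgroup G} (hQ : IsPGroup p Q) {k₁ k₂ : G} (h2 : cj k₂ A ≤ Q) {a : G}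
    (ha : a ∈ cj k₁ A) (haQ : a ∈ Q) : a ∈ cj k₂ A := by
  obtain ⟨h, hh⟩ := hsyl Q hQ
  have s1 : ∀ a' ∈ A, (h⁻¹ * k₂) * a' * (h⁻¹ * k₂)⁻¹ ∈ A := by
    intro a' ha'
    apply hcl a' ha'
    have := mem_cj.1 (hh (h2 (conj_mem_cj (g := k₂) ha')))
    have e : h⁻¹ * k₂ * a' * (h⁻¹ * k₂)⁻¹ = h⁻¹ * (k₂ * a' * k₂⁻¹) * h := by group
    rw [e]
    exact this
  have s2 := inv_conj_mem s1
  have s3 : h⁻¹ * a * h ∈ A := by
    have h1 := mem_cj.1 ha
    have e : h⁻¹ * a * h = (h⁻¹ * k₁) * (k₁⁻¹ * a * k₁) * (h⁻¹ * k₁)⁻¹ := by group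
    rw [e]
    apply hcl _ h1
    rw [← e]
    exact mem_cj.1 (hh haQ)
  have s4 := s2 _ s3
  rw [mem_cj]
  have e : k₂⁻¹ * a * k₂ = (h⁻¹ * k₂)⁻¹ * (h⁻¹ * a * h) * (h⁻¹ * k₂) := by group
  rw [e]
  exact s4

/-- normalizers grow -/
theorem norm_grow [Finite G] {p : ℕ} [Fact p.Prime] {B A₁ : Subgroup G}
    (hBA : B ≤ Subgroup.normalizer (A₁ : Set G)) (hQ : IsPGroup p (B ⊔ A₁ : Subgroup G))
    (hne : ¬ A₁ ≤ B) : ∃ a ∈ A₁, a ∈ Subgroup.normalizer (B : Set G) ∧ a ∉ B := by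
  have hnil : Group.IsNilpotent (B ⊔ A₁ : Subgroup G) := hQ.isNilpotent
  have h1 : B.subgroupOf (B ⊔ A₁) < ⊤ := by
    rw [lt_top_iff_ne_top]
    intro h
    rw [Subgroup.subgroupOf_eq_top] at h
    exact hne (le_sup_right.trans h)
  have h2 := Group.normalizerCondition_of_isNilpotent _ h1
  rw [← Subgroup.subgroupOf_normalizer_eq le_sup_left] at h2
  obtain ⟨y, hy1, hy2⟩ := SetLike.exists_of_lt h2
  have hy3 : (y : G) ∈ ((B ⊔ A₁ : Subgroup G) : Set G) := y.2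
  rw [Subgroup.coe_mul_of_left_le_normalizer_right _ _ hBA] at hy3
  obtain ⟨b, hb, a, ha, hba⟩ := hy3
  have e : a = b⁻¹ * (y : G) := by rw [← hba]; simp
  refine ⟨a, ha, ?_, ?_⟩
  · rw [e]
    exact Subgroup.mul_mem _ (Subgroup.inv_mem _ (Subgroup.le_normalizer hb)) hy1
  · intro haB
    apply hy2
    show (y : G) ∈ B
    rw [← hba]
    exact B.mul_mem hb haB

theorem main [Finite G] {p : ℕ} [Fact p.Prime] {S A : Subgroup G}
    (hsyl : ∀ Q : Subgroup G, IsPGroup p Q → ∃ h : G, Q ≤ cj h S)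
    (hS : IsPGroup p S) (hAS : A ≤ S)
    (hcl : ∀ x ∈ A, ∀ g : G, g * x * g⁻¹ ∈ S → g * x * g⁻¹ ∈ A)
    (hcomm : ∀ a ∈ A, ∀ b ∈ A, a * b = b * a) :
    ∀ (B : Subgroup G), IsPGroup p B → ∀ k₁ k₂ : G,
      B ≤ Subgroup.normalizer (cj k₁ A : Set G) → B ≤ Subgroup.normalizer (cj k₂ A : Set G) →
      ∃ c ∈ Subgroup.centralizer (B : Set G), cj c (cj k₂ A) = cj k₁ A := by
  intro B
  induction' hn : Nat.card G - Nat.card B using Nat.strong_induction_on with n ih generalizing B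
  intro hB k₁ k₂ hB1 hB2
  have hAp : ∀ k, IsPGroup p (cj k A) := fun k => (hS.to_le hAS).map _
  have hAc : ∀ k, ∀ a ∈ cj k A, ∀ b ∈ cj k A, a * b = b * a := by
    intro k a ha b hb
    have := hcomm _ (mem_cj.1 ha) _ (mem_cj.1 hb)
    have e1 : a * b = k * ((k⁻¹ * a * k) * (k⁻¹ * b * k)) * k⁻¹ := by group
    have e2 : b * a = k * ((k⁻¹ * b * k) * (k⁻¹ * a * k)) * k⁻¹ := by group
    rw [e1, e2, this]
  have hQ1 : IsPGroup p (B ⊔ cj k₁ A : Subgroup G) := hB.to_sup_of_normal_right' (hAp k₁) hB1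
  have hQ2 : IsPGroup p (B ⊔ cj k₂ A : Subgroup G) := hB.to_sup_of_normal_right' (hAp k₂) hB2
  have heq : ∀ (Q : Subgroup G), IsPGroup p Q → ∀ j₁ j₂, cj j₁ A ≤ Q → cj j₂ A ≤ Q →
      cj j₂ A = cj j₁ A := by
    intro Q hQ j₁ j₂ h1 h2
    exact le_antisymm (fun a ha => F1 hsyl hcl hQ h1 ha (h2 ha))
      (fun a ha => F1 hsyl hcl hQ h2 ha (h1 ha))
  by_cases c1 : cj k₁ A ≤ B
  · refine ⟨1, Subgroup.one_mem _, ?_⟩
    rw [cj_cj, one_mul]
    exact heq _ hQ2 k₁ k₂ (c1.trans le_sup_left) le_sup_right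
  by_cases c2 : cj k₂ A ≤ B
  · refine ⟨1, Subgroup.one_mem _, ?_⟩
    rw [cj_cj, one_mul]
    exact heq _ hQ1 k₁ k₂ le_sup_right (c2.trans le_sup_left)
  obtain ⟨a₁, ha₁, ha₁N, ha₁B⟩ := norm_grow hB1 hQ1 c1
  obtain ⟨a₂, ha₂, ha₂N, ha₂B⟩ := norm_grow hB2 hQ2 c2
  set D : Subgroup G := cj k₁ A ⊓ B with hD
  have hD2 : D = cj k₂ A ⊓ B := by
    apply le_antisymm
    · intro d hd
      exact ⟨F1 hsyl hcl hQ2 le_sup_right hd.1 (le_sup_left (b := cj k₂ A) hd.2), hd.2⟩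
    · intro d hd
      exact ⟨F1 hsyl hcl hQ1 le_sup_right hd.1 (le_sup_left (b := cj k₁ A) hd.2), hd.2⟩
  have hND : Subgroup.normalizer (B : Set G) ≤ Subgroup.normalizer (D : Set G) := by
    apply le_normalizer_of_conj_mem
    intro n hn d hd
    have h1 : n * d * n⁻¹ ∈ B := mem_normalizer_conj hn hd.2
    refine ⟨?_, h1⟩
    have h2 : n * d * n⁻¹ ∈ cj (n * k₁) A := by
      rw [← cj_cj]; exact conj_mem_cj hd.1
    exact F1 hsyl hcl hQ1 le_sup_right h2 (le_sup_left (b := cj k₁ A) h1)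
  set X : Subgroup G := chainStabRel (Subgroup.normalizer (B : Set G)) B D hND ⊓
    Subgroup.centralizer (D : Set G) with hX
  have hDp : IsPGroup p D := hB.to_le inf_le_right
  have ha₁X : a₁ ∈ X := by
    refine ⟨⟨ha₁N, ?_⟩, ?_⟩
    · intro b hb
      refine ⟨?_, ?_⟩
      · have e : a₁ * b * a₁⁻¹ * b⁻¹ = a₁ * (b * a₁⁻¹ * b⁻¹) := by group
        rw [e]
        exact Subgroup.mul_mem _ ha₁ (mem_normalizer_conj (hB1 hb) (Subgroup.inv_mem _ ha₁))
      · exact B.mul_mem (mem_normalizer_conj ha₁N hb) (B.inv_mem hb)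
    · show a₁ ∈ Subgroup.centralizer (D : Set G)
      rw [Subgroup.mem_centralizer_iff]
      intro d hd
      exact hAc k₁ d hd.1 a₁ ha₁
  have ha₂X : a₂ ∈ X := by
    refine ⟨⟨ha₂N, ?_⟩, ?_⟩
    · intro b hb
      rw [hD2]
      refine ⟨?_, ?_⟩
      · have e : a₂ * b * a₂⁻¹ * b⁻¹ = a₂ * (b * a₂⁻¹ * b⁻¹) := by group
        rw [e]
        exact Subgroup.mul_mem _ ha₂ (mem_normalizer_conj (hB2 hb) (Subgroup.inv_mem _ ha₂))
      · exact B.mul_mem (mem_normalizer_conj ha₂N hb) (B.inv_mem hb)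
    · show a₂ ∈ Subgroup.centralizer (D : Set G)
      rw [Subgroup.mem_centralizer_iff]
      intro d hd
      have hd' : d ∈ cj k₂ A ⊓ B := hD2 ▸ hd
      exact hAc k₂ d hd'.1 a₂ ha₂
  have hXN : X ≤ Subgroup.normalizer (B : Set G) := fun x hx => hx.1.1
  have hXpow : ∀ x ∈ X, ∃ k : ℕ, x ^ (p ^ k) ∈ Subgroup.centralizer (B : Set G) := by
    intro x hx
    refine ⟨Nat.card G, ?_⟩
    have := pow_centralizes x B D (p ^ Nat.card G) hx.1.2
      (fun d hd => (Subgroup.mem_centralizer_iff.1 hx.2 d hd).symm)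
      (pow_card_eq_one_of_isPGroup hDp)
    rw [Subgroup.mem_centralizer_iff]
    intro b hb
    exact (this b hb).symm
  have key : ∃ c ∈ Subgroup.centralizer (B : Set G), ∃ R : Subgroup G, IsPGroup p R ∧ R ≤ X ∧
      a₁ ∈ R ∧ c * a₂ * c⁻¹ ∈ R := by
    have hCn : ((Subgroup.centralizer (B : Set G)).subgroupOf X).Normal := by
      apply Subgroup.normal_subgroupOf_of_le_normalizer
      exact hXN.trans (normalizer_le_normalizer_centralizer' B)
    obtain ⟨e₁, he₁⟩ := hAp k₁ ⟨a₁, ha₁⟩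
    obtain ⟨e₂, he₂⟩ := hAp k₂ ⟨a₂, ha₂⟩
    have he₁' : (⟨a₁, ha₁X⟩ : X) ^ (p ^ e₁) = 1 :=
      Subtype.ext (by simpa using congrArg Subtype.val he₁)
    have he₂' : (⟨a₂, ha₂X⟩ : X) ^ (p ^ e₂) = 1 :=
      Subtype.ext (by simpa using congrArg Subtype.val he₂)
    obtain ⟨R, hR⟩ := (isPGroup_zpowers he₁').exists_le_sylow
    obtain ⟨R₂, hR₂⟩ := (isPGroup_zpowers he₂').exists_le_sylow
    obtain ⟨x, hx⟩ := MulAction.exists_smul_eq X R₂ R
    have htop : (⊤ : Subgroup X) ≤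
        (R : Subgroup X) ⊔ (Subgroup.centralizer (B : Set G)).subgroupOf X :=
      normal_le_of_sylow_inf R ⊤ ((Subgroup.centralizer (B : Set G)).subgroupOf X) _
        (fun d _ => by
          obtain ⟨k, hk⟩ := hXpow d.1 d.2
          exact ⟨k, by simpa [Subgroup.mem_subgroupOf] using hk⟩)
        (inf_le_right.trans le_sup_left) (inf_le_right.trans le_sup_right)
    have hx' : x ∈ (((R : Subgroup X) ⊔ (Subgroup.centralizer (B : Set G)).subgroupOf X :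
        Subgroup X) : Set X) := htop (Subgroup.mem_top x)
    rw [Subgroup.mul_normal] at hx'
    obtain ⟨r, hr, c, hc, hrc⟩ := hx'
    have h0 : MulAut.conj x • (⟨a₂, ha₂X⟩ : X) ∈ MulAut.conj x • (R₂ : Subgroup X) :=
      Subgroup.smul_mem_pointwise_smul _ _ _ (hR₂ (Subgroup.mem_zpowers _))
    rw [← Sylow.coe_subgroup_smul, hx] at h0
    have h1 : x * ⟨a₂, ha₂X⟩ * x⁻¹ ∈ (R : Subgroup X) := by
      simpa [MulAut.smul_def] using h0
    have h2 : c * ⟨a₂, ha₂X⟩ * c⁻¹ ∈ (R : Subgroup X) := by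
      have e : c * ⟨a₂, ha₂X⟩ * c⁻¹ = r⁻¹ * (x * ⟨a₂, ha₂X⟩ * x⁻¹) * r := by
        rw [← hrc]
        simp only []
        group
      rw [e]
      exact Subgroup.mul_mem _ (Subgroup.mul_mem _ (Subgroup.inv_mem _ hr) h1) hr
    exact ⟨c.1, hc, (R : Subgroup X).map X.subtype, R.2.map _, Subgroup.map_subtype_le _,
      ⟨⟨a₁, ha₁X⟩, hR (Subgroup.mem_zpowers _), rfl⟩, ⟨_, h2, rfl⟩⟩
  obtain ⟨c, hc, R, hRp, hRX, ha₁R, ha₂R⟩ := key
  have hBR : IsPGroup p (R ⊔ B : Subgroup G) := hRp.to_sup_of_normal_right' hB (hRX.trans hXN)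
  obtain ⟨h, hh⟩ := hsyl _ hBR
  have hSp : IsPGroup p (cj h S) := hS.map _
  have hAS' : cj h A ≤ cj h S := Subgroup.map_mono hAS
  have hSN : cj h S ≤ Subgroup.normalizer (cj h A : Set G) := by
    apply le_normalizer_of_conj_mem
    intro s hs a ha
    have h1 : s * a * s⁻¹ ∈ cj (s * h) A := by rw [← cj_cj]; exact conj_mem_cj ha
    exact F1 hsyl hcl hSp hAS' h1
      (Subgroup.mul_mem _ (Subgroup.mul_mem _ hs (hAS' ha)) (Subgroup.inv_mem _ hs))
  have hBS : B ≤ cj h S := le_sup_right.trans hh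
  have ha₁S : a₁ ∈ cj h S := hh (le_sup_left (b := B) ha₁R)
  have ha₂S : c * a₂ * c⁻¹ ∈ cj h S := hh (le_sup_left (b := B) ha₂R)
  have ha₂c : c * a₂ * c⁻¹ ∈ cj (c * k₂) A := by rw [← cj_cj]; exact conj_mem_cj ha₂
  have hcard : ∀ z : G, z ∉ B →
      Nat.card G - Nat.card (B ⊔ Subgroup.zpowers z : Subgroup G) < n := by
    intro z hz
    have h1 : B < B ⊔ Subgroup.zpowers z := by
      refine lt_of_le_of_ne le_sup_left ?_
      intro h
      apply hz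
      rw [h]
      exact le_sup_right (a := B) (Subgroup.mem_zpowers z)
    have h2 : Nat.card B < Nat.card (B ⊔ Subgroup.zpowers z : Subgroup G) :=
      Set.ncard_lt_ncard (s := (B : Set G)) (SetLike.coe_ssubset_coe.2 h1) (Set.toFinite _)
    have h3 : Nat.card (B ⊔ Subgroup.zpowers z : Subgroup G) ≤ Nat.card G :=
      Subgroup.card_le_card_group _
    omega
  obtain ⟨c₁, hc₁, hc₁'⟩ := ih _ (hcard a₁ ha₁B) (B ⊔ Subgroup.zpowers a₁) rfl
    (hSp.to_le (sup_le hBS (by rw [Subgroup.zpowers_le]; exact ha₁S))) k₁ h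
    (sup_le hB1 (by rw [Subgroup.zpowers_le]; exact Subgroup.le_normalizer ha₁))
    ((sup_le hBS (by rw [Subgroup.zpowers_le]; exact ha₁S)).trans hSN)
  have ha₂B' : c * a₂ * c⁻¹ ∉ B := by
    intro hb
    apply ha₂B
    have h1 := Subgroup.mem_centralizer_iff.1 hc _ hb
    have : a₂ = c * a₂ * c⁻¹ := by
      have h2 : c * a₂ = c * (c * a₂ * c⁻¹) := by rw [← h1]; group
      exact mul_left_cancel h2
    rw [this]
    exact hb
  have hB2' : B ≤ Subgroup.normalizer (cj (c * k₂) A : Set G) := by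
    apply le_normalizer_of_conj_mem
    intro b hb x hx
    rw [← cj_cj] at hx ⊢
    rw [mem_cj] at hx ⊢
    have hbc : Commute b c := Subgroup.mem_centralizer_iff.1 hc b hb
    have e1 : c⁻¹ * b = b * c⁻¹ := hbc.inv_right.eq.symm
    have e2 : b⁻¹ * c = c * b⁻¹ := hbc.inv_left.eq
    have e : c⁻¹ * (b * x * b⁻¹) * c = b * (c⁻¹ * x * c) * b⁻¹ := by
      calc c⁻¹ * (b * x * b⁻¹) * c = (c⁻¹ * b) * x * (b⁻¹ * c) := by group
        _ = (b * c⁻¹) * x * (c * b⁻¹) := by rw [e1, e2]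
        _ = _ := by group
    rw [e]
    exact mem_normalizer_conj (hB2 hb) hx
  obtain ⟨c₂, hc₂, hc₂'⟩ := ih _ (hcard _ ha₂B') (B ⊔ Subgroup.zpowers (c * a₂ * c⁻¹)) rfl
    (hSp.to_le (sup_le hBS (by rw [Subgroup.zpowers_le]; exact ha₂S))) h (c * k₂)
    ((sup_le hBS (by rw [Subgroup.zpowers_le]; exact ha₂S)).trans hSN)
    (sup_le hB2' (by rw [Subgroup.zpowers_le]; exact Subgroup.le_normalizer ha₂c))
  refine ⟨c₁ * c₂ * c, ?_, ?_⟩
  · have hcen : ∀ z : G, Subgroup.centralizer ((B ⊔ Subgroup.zpowers z : Subgroup G) : Set G) ≤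
        Subgroup.centralizer (B : Set G) :=
      fun z => Subgroup.centralizer_le (SetLike.coe_subset_coe.2 le_sup_left)
    exact Subgroup.mul_mem _ (Subgroup.mul_mem _ (hcen _ hc₁) (hcen _ hc₂)) hc
  · rw [← cj_cj (c₁ * c₂) c, ← cj_cj c₁ c₂, cj_cj c k₂, hc₂', hc₁']

end aux

/-- Let S be a Sylow p-subgroup of the finite group G and A an abelian subgroup of S that is strongly closed in S with respect to G. Then A controls strong fusion in G: for some Sylow p-subgroup T containing A, whenever a subset of T is conjugated into T by an element of G, the same elementwise conjugation is induced by an element of N_G(A). -/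
theorem result {G : Type*} [Group G] [Finite G] {p : ℕ} [Fact p.Prime] (S : Sylow p G) (A : Subgroup G) (hA : IsMulCommutative ↥A) (hsc : Cfsg.IsStronglyClosed A (S : Subgroup G)) : Cfsg.ControlsStrongFusion p A := by
  classical
  obtain ⟨hAS, hcl⟩ := hsc
  have hsyl : ∀ Q : Subgroup G, IsPGroup p Q → ∃ h : G, Q ≤ cj h (S : Subgroup G) := by
    intro Q hQ
    obtain ⟨T, hT⟩ := hQ.exists_le_sylow
    obtain ⟨g, hg⟩ := MulAction.exists_smul_eq G S T
    refine ⟨g, ?_⟩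
    intro x hx
    have h1 := hT hx
    rw [← hg, Sylow.coe_subgroup_smul, Subgroup.mem_pointwise_smul_iff_inv_smul_mem] at h1
    rw [mem_cj]
    simpa [MulAut.smul_def, mul_assoc] using h1
  have hcomm : ∀ a ∈ A, ∀ b ∈ A, a * b = b * a := by
    intro a ha b hb
    have := hA.is_comm.comm ⟨a, ha⟩ ⟨b, hb⟩
    simpa using congrArg Subtype.val this
  have hSA : ∀ s ∈ (S : Subgroup G), ∀ a ∈ A, s * a * s⁻¹ ∈ A := fun s hs a ha =>
    hcl a ha s (Subgroup.mul_mem _ (Subgroup.mul_mem _ hs (hAS ha)) (Subgroup.inv_mem _ hs))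
  have hA1 : cj 1 A = A := by
    ext x
    simp
  refine ⟨S, hAS, fun Bs hBs => ⟨hBs, fun g hg => ?_⟩⟩
  have hBS : Subgroup.closure Bs ≤ (S : Subgroup G) := (Subgroup.closure_le _).2 hBs
  have hBg : Subgroup.closure Bs ≤ (S : Subgroup G).comap (MulAut.conj g).toMonoidHom := by
    apply (Subgroup.closure_le _).2
    intro b hb
    exact hg ⟨b, hb, rfl⟩
  have hB1 : Subgroup.closure Bs ≤ Subgroup.normalizer (cj 1 A : Set G) := by
    rw [hA1]
    exact le_normalizer_of_conj_mem (fun b hb a ha => hSA b (hBS hb) a ha)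
  have hB2 : Subgroup.closure Bs ≤ Subgroup.normalizer (cj g⁻¹ A : Set G) := by
    apply le_normalizer_of_conj_mem
    intro b hb x hx
    rw [mem_cj] at hx ⊢
    have h1 : g * b * g⁻¹ ∈ (S : Subgroup G) := hBg hb
    have := hSA _ h1 _ hx
    have e : g⁻¹⁻¹ * (b * x * b⁻¹) * g⁻¹ = g * b * g⁻¹ * (g⁻¹⁻¹ * x * g⁻¹) * (g * b * g⁻¹)⁻¹ := by
      group
    rw [e]
    exact this
  obtain ⟨c, hc, hcA⟩ := main hsyl S.2 hAS hcl hcomm (Subgroup.closure Bs) (S.2.to_le hBS) 1 g⁻¹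
    hB1 hB2
  rw [hA1, cj_cj] at hcA
  have hw : c * g⁻¹ ∈ Subgroup.normalizer (A : Set G) := by
    rw [Subgroup.mem_normalizer_iff]
    intro a
    constructor
    · intro ha
      rw [← hcA]
      exact conj_mem_cj ha
    · intro ha
      rw [← hcA, mem_cj] at ha
      simpa [mul_assoc] using ha
  refine ⟨g * c⁻¹, ?_, ?_⟩
  · have := Subgroup.inv_mem _ hw
    simpa using this
  · intro a ha
    have hac : Commute a c := Subgroup.mem_centralizer_iff.1 hc a (Subgroup.subset_closure ha)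
    have e1 : c⁻¹ * a = a * c⁻¹ := hac.inv_right.eq.symm
    calc g * a * g⁻¹ = g * (a * c⁻¹) * c * g⁻¹ := by group
      _ = g * (c⁻¹ * a) * c * g⁻¹ := by rw [e1]
      _ = g * c⁻¹ * a * (g * c⁻¹)⁻¹ := by group

end Cfsg.Agent.S2791
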