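import Cfsg.Statements.S1998
import Cfsg.Agent.Lib.Helper40.MinFail

set_option autoImplicit false
universe u
open Cfsg

namespace Cfsg.Agent.S1998

open Cfsg.Agent.Lib.Helper40

theorem ct_of_proper {G : Type u} [Group G] [Finite G] {p : ℕ}
    {𝓦 : Set (∀ (Q : Type u) [Group Q], Subgroup Q)} (h𝓦 : ∀ W ∈ 𝓦, Cfsg.IsCharPFunctor.{u} p W)
    (hsec : ∀ (K R : Subgroup G) [hR : (R.subgroupOf K).Normal], (K = ⊤ → R ≠ ⊥) →
      Cfsg.FamilyControlsTransferIn p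
        ((fun W => Cfsg.inducedFunctor (G := (↥K ⧸ R.subgroupOf K)) W) '' 𝓦) ⊤)
    (Y : Type u) [Group Y] (hY : IsSec G Y) (hlt : Nat.card Y < Nat.card G) : CT p 𝓦 Y := by
  obtain ⟨K, R, hR, ⟨e⟩⟩ := hY.exists_equiv
  have h1 : CT p 𝓦 (↥K ⧸ R.subgroupOf K) := hsec K R (by
    rintro rfl rfl
    have h2 : Nat.card (↥(⊤ : Subgroup G) ⧸ (⊥ : Subgroup G).subgroupOf ⊤) = Nat.card G := by
      have h3 : ((⊥ : Subgroup G).subgroupOf ⊤).index = Nat.card (⊤ : Subgroup G) := by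
        rw [Subgroup.bot_subgroupOf, Subgroup.index_bot]
      rw [Subgroup.card_top] at h3
      exact h3
    rw [← Nat.card_congr e.toEquiv, h2] at hlt
    exact lt_irrefl _ hlt)
  exact h1.of_mulEquiv h𝓦 e

/-- Let p be a prime, G a finite group with Sylow p-subgroup S, and 𝓦 a nonempty set of isomorphism-invariant p-group functors (W assigns to every group Q a subgroup W(Q), nontrivial whenever Q is a nontrivial finite p-group, and every isomorphism from a finite p-group Q onto a group R carries W(Q) onto W(R)). Suppose the induced conjugacy functors control transfer in every section of G other than G itself, but not in G. Let T be the subgroup generated by the S ∩ (N_G(W(S)))', W ∈ 𝓦, and M = N_G(T ∩ O_p(G)). Then: C_G(O_p(G)) ≤ O_p(G); M is a proper subgroup of G containing every proper subgroup of G that contains S (the unique maximal subgroup over S); [O_p(G), M] ≤ O_p(G) ∩ M' ≤ O_p(G) ∩ T; and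 every element u of S outside O_p(G) satisfies [X, u, …, u] ≰ Y with p − 1 entries u, for some chief factor X/Y of G with X ≤ O_p(G). -/
theorem result {G : Type u} [Group G] [Finite G] {p : ℕ} [Fact p.Prime] (S : Sylow p G) (𝓦 : Set (∀ (Q : Type u) [Group Q], Subgroup Q)) (h𝓦 : ∀ W ∈ 𝓦, Cfsg.IsCharPFunctor.{u} p W) (hne : 𝓦.Nonempty) (hsec : ∀ (K R : Subgroup G) [hR : (R.subgroupOf K).Normal], (K = ⊤ → R ≠ ⊥) → Cfsg.FamilyControlsTransferIn p ((fun W => Cfsg.inducedFunctor (G := (↥K ⧸ R.subgroupOf K)) W) '' 𝓦) ⊤) (hG : ¬ Cfsg.FamilyControlsTransferIn p ((fun W => Cfsg.inducedFunctor (G := G) W) '' 𝓦) ⊤) (T M : Subgroup G) (hT : T = (⨆ W ∈ 𝓦, (S : Subgroup G) ⊓ ⁅Subgroup.normalizer ((Cfsg.inducedFunctor (G := G) W (S : Subgroup G) : Subgroup G) : Set G), Subgroup.normalizer ((Cfsg.inducedFunctor (G := G) W (S : Subgroup G) : Subgroup G) : Set G)⁆)) (hM : M = Subgroup.normalizer ((T ⊓ Cfsg.pCore p G : Subgroup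 G) : Set G)) : Subgroup.centralizer ((Cfsg.pCore p G : Subgroup G) : Set G) ≤ Cfsg.pCore p G ∧ (M ≠ ⊤ ∧ ∀ H : Subgroup G, (S : Subgroup G) ≤ H → H ≠ ⊤ → H ≤ M) ∧ (⁅Cfsg.pCore p G, M⁆ ≤ Cfsg.pCore p G ⊓ ⁅M, M⁆ ∧ Cfsg.pCore p G ⊓ ⁅M, M⁆ ≤ Cfsg.pCore p G ⊓ T) ∧ ∀ u : G, u ∈ (S : Subgroup G) → u ∉ Cfsg.pCore p G → ∃ U V : Subgroup G, Cfsg.IsChiefFactor U V ∧ U ≤ Cfsg.pCore p G ∧ ¬ Cfsg.iterCommutator U (Subgroup.zpowers u) (p - 1) ≤ V := by
  have hsec' := ct_of_proper h𝓦 hsec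
  have core := minfail_core h𝓦 hne S
    (fun H hH => hsec' H (isSec_subgroup H) (card_subgroup_lt H hH))
    (fun N _ hN => hsec' _ (isSec_quotient N) (card_quotient_lt N hN)) hG
  have hT' : T = foc 𝓦 ⊤ (S : Subgroup G) := by
    rw [hT]; simp only [foc, top_inf_eq]
  rw [← hT', ← hM] at core
  obtain ⟨h1, ⟨h2, h3⟩, ⟨h4, h5⟩, h6⟩ := core
  exact ⟨h1, ⟨h2, h3⟩, h5 M (h3 _ le_rfl h4) h2, h6⟩

end Cfsg.Agent.S1998
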