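import Cfsg.Statements.S2004
import Cfsg.Agent.Lib.Helper14.PStableReduction
import Cfsg.Agent.Lib.Helper14.QuadAbstract
import Cfsg.Agent.Lib.Helper14.SectionNormalizer
import Cfsg.Agent.S0274

set_option autoImplicit false
open Cfsg

namespace Cfsg.Agent.S2004

/-- Let p be an odd prime and G a finite group such that SL₂(p) is not involved in N_G(P) for any nonidentity p-subgroup P of G. Then every section of G is p-stable in the normalizer form: in each section, whenever an element of the normalizer of a p-subgroup Q acts quadratically on Q, its image in N(Q)/C(Q) lies in O_p(N(Q)/C(Q)). -/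
theorem result {G : Type*} [Group G] [Finite G] {p : ℕ} [Fact p.Prime] (hp : p ≠ 2) (h : ∀ P : Subgroup G, IsPGroup p ↥P → P ≠ ⊥ → ¬ Cfsg.Involves (Matrix.SpecialLinearGroup (Fin 2) (ZMod p)) ↥(Subgroup.normalizer ((P : Subgroup G) : Set G))) : ∀ (K R : Subgroup G) [hR : (R.subgroupOf K).Normal], Cfsg.IsNormalizerPStable p (↥K ⧸ R.subgroupOf K) := by
  classical
  intro K R hR
  have hD : Cfsg.Agent.Lib.Helper14.DicksonLite p :=
    fun F _ _ _ R hR => Cfsg.Agent.S0274.result p hp R hR
  apply Cfsg.Agent.Lib.Helper14.isNormalizerPStable_of_local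
    (fun Γ _ => ¬ Cfsg.Involves (Matrix.SpecialLinearGroup (Fin 2) (ZMod p)) Γ)
  · intro Γ _ N _ h h'
    exact h (Cfsg.Agent.Lib.Helper14.involves_of_quotient _ h')
  · intro Γ _ _ h V _ hV
    exact Cfsg.Agent.Lib.Helper14.isPStableOn_of_not_involves hD V hV h
  · intro Q' hQ' hne h'
    obtain ⟨P, hP, hPne, hinv⟩ :=
      Cfsg.Agent.Lib.Helper14.exists_involves_normalizer_of_section K R Q' hQ' hne h'
    exact h P hP hPne hinv

end Cfsg.Agent.S2004
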