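import Cfsg.Statements.S2009
import Mathlib

set_option autoImplicit false
open Cfsg

namespace Cfsg.Agent.S2009

theorem inverts {H : Type*} [Group H] [Finite H] (N : Subgroup H) [N.Normal] (t : H)
    (ht : t * t = 1) (hfix : N ⊓ Subgroup.centralizer ({t} : Set H) = ⊥) :
    ∀ n ∈ N, t * n * t⁻¹ = n⁻¹ := by
  intro n hn
  let φ : N →* N := (MulAut.conjNormal t).toMonoidHom
  have hφ : ∀ x : N, ((φ x : N) : H) = t * x * t⁻¹ := fun x => MulAut.conjNormal_apply t x
  have hfpf : MonoidHom.FixedPointFree φ := by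
    intro x hx
    have h1 : t * x * t⁻¹ = (x : H) := by rw [← hφ x, hx]
    have h2 : (x : H) ∈ N ⊓ Subgroup.centralizer ({t} : Set H) := by
      refine Subgroup.mem_inf.2 ⟨x.2, ?_⟩
      rw [Subgroup.mem_centralizer_singleton_iff]
      calc (x : H) * t = (t * x * t⁻¹) * t := by rw [h1]
        _ = t * x := by group
    rw [hfix, Subgroup.mem_bot] at h2
    exact Subtype.ext h2
  have hinv : Function.Involutive φ := by
    intro x
    apply Subtype.ext
    rw [hφ, hφ]
    have ht' : t⁻¹ = t := inv_eq_of_mul_eq_one_left ht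
    rw [ht']
    calc t * (t * x * t) * t = (t * t) * x * (t * t) := by group
      _ = x := by rw [ht]; simp
  have := congrFun (hfpf.coe_eq_inv_of_involutive hinv) ⟨n, hn⟩
  have h3 := congrArg (Subtype.val) this
  rw [hφ] at h3
  simpa using h3

theorem eq_bot_of_ne_top {H : Type*} [Group H] [Finite H] (z : H)
    (hN : ∀ N : Subgroup H, N.Normal → N ≠ ⊤ → N ⊓ Subgroup.centralizer ({z} : Set H) = ⊥)
    (E : Subgroup H) (hE : IsKleinFour ↥E) (hzE : z ∈ E) (hc : ∀ e ∈ E, e ≠ 1 → IsConj z e)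
    (N : Subgroup H) [hNn : N.Normal] (hNt : N ≠ ⊤) : N = ⊥ := by
  have hfix : ∀ t ∈ E, t ≠ 1 → N ⊓ Subgroup.centralizer ({t} : Set H) = ⊥ := by
    intro t htE ht1
    obtain ⟨g, hg⟩ := isConj_iff.1 (hc t htE ht1)
    rw [eq_bot_iff]
    intro n hnn
    obtain ⟨hn, hnt⟩ := Subgroup.mem_inf.1 hnn
    rw [Subgroup.mem_centralizer_singleton_iff] at hnt
    have h1 : g⁻¹ * n * g ∈ N ⊓ Subgroup.centralizer ({z} : Set H) := by
      refine Subgroup.mem_inf.2 ⟨by simpa using hNn.conj_mem n hn g⁻¹, ?_⟩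
      rw [Subgroup.mem_centralizer_singleton_iff]
      have hz : z = g⁻¹ * t * g := by rw [← hg]; group
      rw [hz]
      calc g⁻¹ * n * g * (g⁻¹ * t * g) = g⁻¹ * (n * t) * g := by group
        _ = g⁻¹ * (t * n) * g := by rw [hnt]
        _ = g⁻¹ * t * g * (g⁻¹ * n * g) := by group
    rw [hN N hNn hNt, Subgroup.mem_bot] at h1
    rw [Subgroup.mem_bot]
    have : n = g * (g⁻¹ * n * g) * g⁻¹ := by group
    rw [this, h1]; simp
  have hsq : ∀ t ∈ E, t * t = 1 := by
    intro t ht
    have := IsKleinFour.mul_self (⟨t, ht⟩ : E)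
    exact congrArg Subtype.val this
  obtain ⟨e, he1, hez⟩ : ∃ e : E, e ≠ 1 ∧ e ≠ ⟨z, hzE⟩ := by
    by_contra hcon
    push Not at hcon
    apply IsKleinFour.not_isCyclic (G := E)
    refine ⟨⟨⟨z, hzE⟩, fun e => ?_⟩⟩
    by_cases h1 : e = 1
    · exact ⟨0, by simp [h1]⟩
    · exact ⟨1, by simp [hcon e h1]⟩
  have he1' : (e : H) ≠ 1 := fun h => he1 (Subtype.ext h)
  have hez' : (e : H) ≠ z := fun h => hez (Subtype.ext h)
  by_cases hz1 : z = 1
  · -- then the centralizer of z is everything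
    have := hN N hNn hNt
    rw [hz1] at this
    rw [eq_bot_iff] at this ⊢
    intro n hn
    exact this (Subgroup.mem_inf.2 ⟨hn, by simp [Subgroup.mem_centralizer_singleton_iff]⟩)
  have hze : z * e ∈ E := E.mul_mem hzE e.2
  have hze1 : z * (e : H) ≠ 1 := by
    intro h
    apply hez'
    have h2 := hsq z hzE
    exact (mul_left_cancel (h.trans h2.symm))
  rw [eq_bot_iff]
  intro n hn
  have h1 := inverts N z (hsq z hzE) (hfix z hzE hz1)
  have h2 := inverts N e (hsq e e.2) (hfix e e.2 he1')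
  have h3 : n ∈ N ⊓ Subgroup.centralizer ({z * (e : H)} : Set H) := by
    refine Subgroup.mem_inf.2 ⟨hn, ?_⟩
    rw [Subgroup.mem_centralizer_singleton_iff]
    have h4 : z * (e * n * (e : H)⁻¹) * z⁻¹ = n := by
      rw [h2 n hn, h1 _ (N.inv_mem hn), inv_inv]
    calc n * (z * e) = (z * (e * n * (e : H)⁻¹) * z⁻¹) * (z * e) := by rw [h4]
      _ = z * e * n := by group
  rw [hfix _ hze hze1] at h3
  exact h3

/-- Let H be a finite group and z an involution such that every proper normal subgroup of H meets the centralizer of z trivially, and suppose z lies in a Klein four-subgroup E of H all three of whose involutions are conjugate to z in H. Then H is simple. -/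
theorem result {H : Type*} [Group H] [Finite H] (z : H) (hz : orderOf z = 2) (hN : ∀ N : Subgroup H, N.Normal → N ≠ ⊤ → N ⊓ Subgroup.centralizer ({z} : Set H) = ⊥) (E : Subgroup H) (hE : IsKleinFour ↥E) (hzE : z ∈ E) (hc : ∀ e ∈ E, e ≠ 1 → IsConj z e) : IsSimpleGroup H := by
  haveI : Nontrivial H := ⟨z, 1, by rintro rfl; simp at hz⟩
  refine ⟨fun N hNn => ?_⟩
  by_cases h : N = ⊤
  · exact Or.inr h
  · exact Or.inl (eq_bot_of_ne_top z hN E hE hzE hc N h)

end Cfsg.Agent.S2009
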