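import Cfsg.Statements.S2008
import Cfsg.Agent.S2009

set_option autoImplicit false
open Cfsg

namespace Cfsg.Agent.S2008



/-- Let H be a finite group and z an involution such that every proper normal subgroup of H meets the centralizer of z trivially, and suppose z lies in a Klein four-subgroup E of H all three of whose involutions are conjugate to z in H. Then H has no non-trivial abelian normal subgroup. -/
theorem result {H : Type*} [Group H] [Finite H] (z : H) (hz : orderOf z = 2) (hN : ∀ N : Subgroup H, N.Normal → N ≠ ⊤ → N ⊓ Subgroup.centralizer ({z} : Set H) = ⊥) (E : Subgroup H) (hE : IsKleinFour ↥E) (hzE : z ∈ E) (hc : ∀ e ∈ E, e ≠ 1 → IsConj z e) (N : Subgroup H) [N.Normal] (hab : IsMulCommutative ↥N) : N = ⊥ := by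
  by_cases h : N = ⊤
  · exfalso
    obtain ⟨e, he1, hez⟩ : ∃ e : E, e ≠ 1 ∧ e ≠ ⟨z, hzE⟩ := by
      by_contra hcon
      push Not at hcon
      apply IsKleinFour.not_isCyclic (G := E)
      refine ⟨⟨⟨z, hzE⟩, fun e => ?_⟩⟩
      by_cases h1 : e = 1
      · exact ⟨0, by simp [h1]⟩
      · exact ⟨1, by simp [hcon e h1]⟩
    have he1' : (e : H) ≠ 1 := fun h => he1 (Subtype.ext h)
    have hez' : (e : H) ≠ z := fun h => hez (Subtype.ext h)
    obtain ⟨g, hg⟩ := isConj_iff.1 (hc e e.2 he1')
    apply hez'
    have hcomm : g * z = z * g := by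
      have hg' : g ∈ N := by rw [h]; trivial
      have hz' : z ∈ N := by rw [h]; trivial
      have := isMulCommutative_iff.1 hab (⟨g, hg'⟩ : N) ⟨z, hz'⟩
      exact congrArg Subtype.val this
    rw [← hg, hcomm]; group
  · exact Cfsg.Agent.S2009.eq_bot_of_ne_top z hN E hE hzE hc N h

end Cfsg.Agent.S2008
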