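import Cfsg.Statements.S2100
import Cfsg.Agent.Lib.Helper23.StU8

set_option autoImplicit false
open Cfsg

namespace Cfsg.Agent.S2100

/-- Schur multipliers of the Chevalley groups of type G₂: over a field with q ≥ 5 elements the Schur multiplier of G₂(q) is trivial (here the Schur multiplier is described through stem extensions, as in the definitions); the cases q = 3 and q = 4 are exceptional and q = 2 gives a non-simple group. -/
theorem result {F : Type*} [Field F] [Fintype F] (hF : 5 ≤ Fintype.card F) : Cfsg.HasCyclicSchurMultiplier ↥(Cfsg.Lie.chevG2.group F) 1 := by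
  have hK5 : ∃ s : Finset F, 4 < s.card := ⟨Finset.univ, by rw [Finset.card_univ]; omega⟩
  constructor
  · refine ⟨↥(Cfsg.Lie.chevG2.group F), inferInstance, inferInstance, MonoidHom.id _,
      ⟨Function.surjective_id, ?_, ?_⟩, ?_⟩
    · rw [MonoidHom.ker_id]; exact bot_le
    · rw [MonoidHom.ker_id]; exact bot_le
    · have hsub : ∀ x : (MonoidHom.id ↥(Cfsg.Lie.chevG2.group F)).ker, x = 1 := by
        intro x
        have h : (x : ↥(Cfsg.Lie.chevG2.group F)) ∈ (⊥ : Subgroup _) :=
          MonoidHom.ker_id.le x.2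
        exact Subtype.ext (Subgroup.mem_bot.1 h)
      exact ⟨{ toFun := fun _ => 1, invFun := fun _ => 1,
               left_inv := fun x => (hsub x).symm,
               right_inv := fun x => Subsingleton.elim (α := ZMod 1) _ _,
               map_mul' := fun _ _ => (one_mul _).symm }⟩
  · intro Γ _ _ σ hσ
    obtain ⟨h1, h2, h3⟩ := hσ
    have hbot := Cfsg.Agent.Lib.Helper23.StP.stem_ker_bot (D := Cfsg.Lie.chevG2) (by simp) hK5 σ h1 h2 h3
    refine ⟨1, fun x => ⟨1, ?_⟩⟩
    have h : (x : Γ) ∈ (⊥ : Subgroup Γ) := hbot.le x.2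
    exact (Subtype.ext (Subgroup.mem_bot.1 h)).symm

end Cfsg.Agent.S2100
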