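import Cfsg.Statements.S2103
import Cfsg.Agent.Lib.Helper45.StV5

set_option autoImplicit false
open Cfsg

namespace Cfsg.Agent.S2103

/-- Schur multipliers of the Chevalley groups of type F₄: over a finite field with more than 2 elements the Schur multiplier of F₄(q) is trivial (here the Schur multiplier is described through stem extensions, as in the definitions); q = 2 is exceptional. -/
theorem result {F : Type*} [Field F] [Fintype F] (hF : 3 ≤ Fintype.card F) : Cfsg.HasCyclicSchurMultiplier ↥(Cfsg.Lie.chevF4.group F) 1 := by
  classical
  obtain ⟨v, hv⟩ := IsCyclic.exists_ofOrder_eq_natCard (α := Fˣ)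
  rw [Nat.card_eq_fintype_card, Fintype.card_units] at hv
  constructor
  · refine ⟨↥(Cfsg.Lie.chevF4.group F), inferInstance, inferInstance, MonoidHom.id _,
      ⟨Function.surjective_id, ?_, ?_⟩, ?_⟩
    · rw [MonoidHom.ker_id]; exact bot_le
    · rw [MonoidHom.ker_id]; exact bot_le
    · have hsub : ∀ x : (MonoidHom.id ↥(Cfsg.Lie.chevF4.group F)).ker, x = 1 := by
        intro x
        have h : (x : ↥(Cfsg.Lie.chevF4.group F)) ∈ (⊥ : Subgroup _) :=
          MonoidHom.ker_id.le x.2
        exact Subtype.ext (Subgroup.mem_bot.1 h)
      exact ⟨{ toFun := fun _ => 1, invFun := fun _ => 1,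
               left_inv := fun x => (hsub x).symm,
               right_inv := fun x => Subsingleton.elim (α := ZMod 1) _ _,
               map_mul' := fun _ _ => (one_mul _).symm }⟩
  · intro Γ _ _ σ hσ
    obtain ⟨h1, h2, h3⟩ := hσ
    have hbot : σ.ker = ⊥ := by
      by_cases h5 : 5 ≤ Fintype.card F
      · have hK5 : ∃ s : Finset F, 4 < s.card := ⟨Finset.univ, by rw [Finset.card_univ]; omega⟩
        exact Cfsg.Agent.Lib.Helper23.StP.stem_ker_bot (D := Cfsg.Lie.chevF4) (by simp) hK5 σ h1 h2 h3
      · by_cases h3' : Fintype.card F = 3
        · rw [h3'] at hv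
          have h20 : (2 : F) ≠ 0 := by
            intro h0
            have hd : ringChar F ∣ 2 := ringChar.dvd (by exact_mod_cast h0)
            have h2' : ringChar F = 2 := by
              rcases (Nat.dvd_prime Nat.prime_two).1 hd with h | h
              · exact absurd h (CharP.ringChar_ne_one)
              · exact h
            have := FiniteField.even_card_iff_char_two.1 h2'
            omega
          refine Cfsg.Agent.Lib.Helper45.StV.stem_ker_bot_small (D := Cfsg.Lie.chevF4) (by simp)
            Cfsg.Agent.Lib.Helper45.StV.vtabF4_2 hv (by norm_num) ?_ σ h1 h2 h3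
          intro N hN
          simp only [List.mem_cons, List.not_mem_nil, or_false] at hN
          rcases hN with rfl | rfl | rfl | rfl
          · simp
          · simp
          · simpa using h20
          · simpa using h20
        · have h4 : Fintype.card F = 4 := by omega
          rw [h4] at hv
          refine Cfsg.Agent.Lib.Helper45.StV.stem_ker_bot_small (D := Cfsg.Lie.chevF4) (by simp)
            Cfsg.Agent.Lib.Helper45.StV.vtabF4_3 hv (by norm_num) ?_ σ h1 h2 h3
          intro N hN
          simp only [List.mem_cons, List.not_mem_nil, or_false] at hN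
          rcases hN with rfl | rfl
          · simp
          · simp
    refine ⟨1, fun x => ⟨1, ?_⟩⟩
    have h : (x : Γ) ∈ (⊥ : Subgroup Γ) := hbot.le x.2
    exact (Subtype.ext (Subgroup.mem_bot.1 h)).symm

end Cfsg.Agent.S2103
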