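import Cfsg.Statements.S2111
import Cfsg.Agent.Lib.Helper8.SzSchur
import Cfsg.Agent.Lib.Helper8.SzLie

set_option autoImplicit false
open Cfsg

namespace Cfsg.Agent.S2111

/-- Schur multipliers of the Suzuki groups: for q = 2^(2m+1) with m ≥ 2 the Schur multiplier of Sz(q) is trivial (here the Schur multiplier is described through stem extensions, as in the definitions); q = 8 is exceptional. -/
theorem result {F : Type*} [Field F] [Fintype F] {m : ℕ} (hm : 2 ≤ m) (hF : Fintype.card F = 2 ^ (2 * m + 1)) : Cfsg.HasCyclicSchurMultiplier ↥(Cfsg.Lie.Sz F (2 ^ (m + 1))) 1 := by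

  have := Cfsg.Agent.Lib.Helper8.charP_two_of_card hF
  have hm1 : 1 ≤ m := by omega
  constructor
  · refine ⟨↥(Cfsg.Lie.Sz F (2 ^ (m + 1))), inferInstance, inferInstance, MonoidHom.id _,
      ⟨Function.surjective_id, ?_, ?_⟩, ?_⟩
    · rw [MonoidHom.ker_id]; exact bot_le
    · rw [MonoidHom.ker_id]; exact bot_le
    · have hsub : ∀ x : (MonoidHom.id ↥(Cfsg.Lie.Sz F (2 ^ (m + 1)))).ker, x = 1 := by
        intro x
        have h : (x : ↥(Cfsg.Lie.Sz F (2 ^ (m + 1)))) ∈ (⊥ : Subgroup _) :=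
          MonoidHom.ker_id.le x.2
        exact Subtype.ext (Subgroup.mem_bot.1 h)
      exact ⟨{ toFun := fun _ => 1, invFun := fun _ => 1,
               left_inv := fun x => (hsub x).symm,
               right_inv := fun x => Subsingleton.elim (α := ZMod 1) _ _,
               map_mul' := fun _ _ => (one_mul _).symm }⟩
  · intro Γ _ _ σ hσ
    obtain ⟨h1, h2, h3⟩ := hσ
    let e := Cfsg.Agent.Lib.Helper8.lieSzEquiv hF hm1
    have hker : (e.symm.toMonoidHom.comp σ).ker = σ.ker := by
      ext x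
      simp [MonoidHom.mem_ker]
    have hbot := Cfsg.Agent.Lib.Helper8.Sz_stem_trivial hF hm (e.symm.toMonoidHom.comp σ)
      (e.symm.surjective.comp h1) (by rw [hker]; exact h2) (by rw [hker]; exact h3)
    rw [hker] at hbot
    refine ⟨1, fun x => ⟨1, ?_⟩⟩
    have h : (x : Γ) ∈ (⊥ : Subgroup Γ) := hbot.le x.2
    exact (Subtype.ext (Subgroup.mem_bot.1 h)).symm


end Cfsg.Agent.S2111
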