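import Cfsg.Statements.S2113
import Cfsg.Agent.Lib.Helper8.Ree.XFin
import Cfsg.Agent.Lib.Helper8.ReeSL2
import Cfsg.Agent.Lib.Helper8.ReeSeven

set_option autoImplicit false
open Cfsg

namespace Cfsg.Agent.S2113

/-- Schur multipliers of the small Ree groups: for q = 3^(2m+1) with m ≥ 1 the Schur multiplier of ²G₂(q) is trivial (here the Schur multiplier is described through stem extensions, as in the definitions). -/
theorem result {K : Type*} [Field K] [Fintype K] {m : ℕ} (hm : 1 ≤ m) (hK : Fintype.card K = 3 ^ (2 * m + 1)) : Cfsg.HasCyclicSchurMultiplier ↥(Cfsg.Lie.twistedG2 K (3 ^ m)) 1 := by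
  have : CharP K 3 := Cfsg.Agent.Lib.Helper22.charP_of_card_pow Nat.prime_three hK
  have b := Cfsg.Agent.Lib.Helper23.bundle_of_mem K (D := Cfsg.Lie.chevG2) (by simp)
  obtain ⟨α, hα⟩ := Cfsg.Agent.Lib.Helper22.exists_isogG2 (Cfsg.Agent.Lib.Helper22.cube_surj hK) b.hA
  obtain ⟨t₀, ht₀⟩ := Cfsg.Agent.Lib.Helper8.exists_reePs_ne hK hm
  constructor
  · refine ⟨↥(Cfsg.Lie.twistedG2 K (3 ^ m)), inferInstance, inferInstance, MonoidHom.id _,
      ⟨Function.surjective_id, ?_, ?_⟩, ?_⟩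
    · rw [MonoidHom.ker_id]; exact bot_le
    · rw [MonoidHom.ker_id]; exact bot_le
    · have hsub : ∀ x : (MonoidHom.id ↥(Cfsg.Lie.twistedG2 K (3 ^ m))).ker, x = 1 := by
        intro x
        have h : (x : ↥(Cfsg.Lie.twistedG2 K (3 ^ m))) ∈ (⊥ : Subgroup _) :=
          MonoidHom.ker_id.le x.2
        exact Subtype.ext (Subgroup.mem_bot.1 h)
      exact ⟨{ toFun := fun _ => 1, invFun := fun _ => 1,
               left_inv := fun x => (hsub x).symm,
               right_inv := fun x => Subsingleton.elim (α := ZMod 1) _ _,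
               map_mul' := fun _ _ => (one_mul _).symm }⟩
  · intro Γ _ _ σ hσ
    obtain ⟨h1, h2, h3⟩ := hσ
    have hbot := (Cfsg.Agent.Lib.Helper8.reeFull hK b α hα hm t₀ ht₀).stem_trivial
      (Cfsg.Agent.Lib.Helper8.reeRho b.hA m)
      (Cfsg.Agent.Lib.Helper8.reeRho_injective hK b α hα hm) σ h1 h2 h3
    refine ⟨1, fun x => ⟨1, ?_⟩⟩
    have h : (x : Γ) ∈ (⊥ : Subgroup Γ) := hbot.le x.2
    exact (Subtype.ext (Subgroup.mem_bot.1 h)).symm

end Cfsg.Agent.S2113
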