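import Cfsg.Statements.S2116
import Cfsg.Agent.Lib.Helper43.AltSeven

set_option autoImplicit false
open Cfsg

namespace Cfsg.Agent.S2116

/-- Exceptional Schur multipliers of the alternating groups: for n = 6 and n = 7 the Schur multiplier of the alternating group of degree n is cyclic of order 6 (here the Schur multiplier is described through stem extensions, as in the definitions). -/
theorem result (n : ℕ) (hn : n = 6 ∨ n = 7) : Cfsg.HasCyclicSchurMultiplier (alternatingGroup (Fin n)) 6 := by
  rcases hn with rfl | rfl
  · exact Cfsg.Agent.Lib.Helper43.AM.mult6
  · exact Cfsg.Agent.Lib.Helper43.AM.mult7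

end Cfsg.Agent.S2116
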