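import Cfsg.Statements.S2123
import Cfsg.Agent.Lib.Helper23.AutOut3

set_option autoImplicit false
open Cfsg

namespace Cfsg.Agent.S2123

/-- Outer automorphisms of the (adjoint, simple) Chevalley groups of type E₆: over a field with q = p^f (p prime) elements, the outer automorphism group of E₆(q) has order 2 · gcd(3, q − 1) · f (diagonal, field and graph automorphisms). -/
theorem result {F : Type*} [Field F] [Fintype F] (p f : ℕ) [Fact p.Prime] [CharP F p] (hF : Fintype.card F = p ^ f) : Nat.card (Cfsg.Out ↥(Cfsg.Lie.chevE6.group F)) = 2 * Nat.gcd 3 (p ^ f - 1) * f := by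
  have hd := Cfsg.Agent.S1035.result (F := F) hF (Cfsg.Lie.chevE6, Nat.gcd 3 (p ^ f - 1)) (by simp)
  have h := Lib.Helper23.card_out_eq p f hF (D := Cfsg.Lie.chevE6) (by simp) hd (Lib.Helper23.card_adm_E6 F)
  rw [h]
  ring

end Cfsg.Agent.S2123
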