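import Cfsg.Statements.S2130
import Cfsg.Agent.Lib.Helper23.TwAutE6b
import Cfsg.Agent.Lib.Helper45.TwSyl
import Cfsg.Agent.Lib.Helper45.TwNC

set_option autoImplicit false
open Cfsg

namespace Cfsg.Agent.S2130

/-- Outer automorphisms of the twisted groups of type ²E₆: for q = p^f (p prime), with the group realised over the field with q² elements, the outer automorphism group of ²E₆(q) has order 2 · gcd(3, q + 1) · f (diagonal automorphisms and the field automorphisms of the quadratic extension). -/
theorem result {K : Type*} [Field K] [Fintype K] (p f : ℕ) [Fact p.Prime] [CharP K p] (hK : Fintype.card K = p ^ (2 * f)) (hf : 1 ≤ f) : Nat.card (Cfsg.Out ↥(Cfsg.Lie.twistedE6 K (p ^ f))) = 2 * Nat.gcd 3 (p ^ f + 1) * f := by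
  classical
  have hp : p.Prime := Fact.out
  have h4 : 2 < Fintype.card K := by
    rw [hK]
    calc 2 < 2 ^ 2 := by norm_num
      _ ≤ p ^ 2 := Nat.pow_le_pow_left hp.two_le 2
      _ ≤ p ^ (2 * f) := Nat.pow_le_pow_right hp.pos (by omega)
  have hc : ∃ c : K, c ≠ 0 ∧ c ≠ 1 := by
    by_contra hcon
    push_neg at hcon
    have hsub : (Finset.univ : Finset K) ⊆ {0, 1} := by
      intro c _
      by_cases h0 : c = 0
      · simp [h0]
      · simp [hcon c h0]
    have := Finset.card_le_card hsub
    rw [Finset.card_univ] at this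
    have h2 : ({0, 1} : Finset K).card ≤ 2 := Finset.card_le_two
    omega
  exact Cfsg.Agent.Lib.Helper23.TwAut.card_out_E6 p f hK hf (Cfsg.Agent.Lib.Helper45.sylow_twE6 p f hK hf)
    (fun hA => Cfsg.Agent.Lib.Helper45.e6_not_commute hA hc)

end Cfsg.Agent.S2130
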