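import Cfsg.Statements.S2140
import Cfsg.Agent.Lib.Helper5.MinIdx.Top
import Cfsg.Agent.Lib.Helper5.MinIdx.Exi

set_option autoImplicit false
open Cfsg

namespace Cfsg.Agent.S2140

/-- Minimal index of a proper subgroup of the linear groups: for n ≥ 3 and a field F with q elements, (n, q) ≠ (4, 2), every proper subgroup of PSL_n(F) has index at least (q^n − 1)/(q − 1), and some subgroup has exactly that index (the stabiliser of a point of the projective space). -/
theorem result {F : Type*} [Field F] [Fintype F] {q : ℕ} (hF : Fintype.card F = q) (n : ℕ) (hn : 3 ≤ n) (hexc : ¬ (n = 4 ∧ q = 2)) : (∀ H : Subgroup (Matrix.ProjectiveSpecialLinearGroup (Fin n) F), H ≠ ⊤ → (q ^ n - 1) / (q - 1) ≤ H.index) ∧ (∃ H : Subgroup (Matrix.ProjectiveSpecialLinearGroup (Fin n) F), H.index = (q ^ n - 1) / (q - 1)) := by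
  classical
  subst hF
  refine ⟨fun H hH => ?_, Cfsg.Agent.Lib.Helper5.MinIdx.exists_index n (by omega)⟩
  have hq : 2 ≤ Fintype.card F := Fintype.one_lt_card
  have hsurj : Function.Surjective
      (QuotientGroup.mk' (Subgroup.center (Matrix.SpecialLinearGroup (Fin n) F))) :=
    QuotientGroup.mk'_surjective _
  set K : Subgroup (Matrix.SpecialLinearGroup (Fin n) F) :=
    H.comap (QuotientGroup.mk' (Subgroup.center (Matrix.SpecialLinearGroup (Fin n) F))) with hK
  have hidx : K.index = H.index := Subgroup.index_comap_of_surjective H hsurj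
  have hKtop : K ≠ ⊤ := by
    intro h
    apply hH
    rw [← Subgroup.index_eq_one, ← hidx, h, Subgroup.index_top]
  have key := Cfsg.Agent.Lib.Helper5.MinIdx.sl_index (ι := Fin n) (F := F)
    (by rw [Fintype.card_fin]; exact hn) (by
      rintro ⟨h4, hx⟩
      rw [Fintype.card_fin] at h4
      apply hexc ⟨h4, ?_⟩
      apply le_antisymm _ hq
      have : (Finset.univ : Finset F) ⊆ {0, 1} := by
        intro x _
        rcases hx x with h | h <;> simp [h]
      calc Fintype.card F = (Finset.univ : Finset F).card := rfl
        _ ≤ ({0, 1} : Finset F).card := Finset.card_le_card this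
        _ ≤ 2 := Finset.card_le_two) K hKtop
  rw [Fintype.card_fin, Nat.card_eq_fintype_card, hidx] at key
  apply Nat.div_le_of_le_mul
  rw [mul_comm]
  omega

end Cfsg.Agent.S2140
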