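import Cfsg.Statements.S2156
import Cfsg.Agent.Lib.Helper45.AutOut1
import Cfsg.Agent.Lib.Helper22.AutE
import Cfsg.Agent.Lib.Helper22.AutD2
import Cfsg.Agent.Lib.Helper23.AutSym
import Cfsg.Agent.Lib.Helper23.AutG

set_option autoImplicit false
open Cfsg

namespace Cfsg.Agent.S2156

open Cfsg.Lie in
theorem cartan_exists (D : ChevalleyDatum)
    (hD : D ∈ [chevG2, chevB2, chevD4, chevF4, chevE6, chevE7, chevE8]) :
    ∃ i j : Fin D.rank, D.cartan i (D.simple j) = -1 := by
  simp only [List.mem_cons, List.not_mem_nil, or_false] at hD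
  rcases hD with rfl | rfl | rfl | rfl | rfl | rfl | rfl <;> decide +kernel

/-- Over a finite field, every automorphism of the Chevalley group of type G₂, B₂, D₄, F₄, E₆, E₇ or E₈ is the composite of a field automorphism, a graph automorphism, a diagonal automorphism and an inner automorphism: `θ y = x · d(g(f y)) · x⁻¹` for some group element `x`, diagonal `d`, graph `g` and field `f` (each possibly the identity; diagonal here includes conjugation by elements of the diagonal subgroup H). -/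
theorem result {F : Type*} [Field F] [Finite F] (D : Cfsg.Lie.ChevalleyDatum) (hD : D ∈ [Cfsg.Lie.chevG2, Cfsg.Lie.chevB2, Cfsg.Lie.chevD4, Cfsg.Lie.chevF4, Cfsg.Lie.chevE6, Cfsg.Lie.chevE7, Cfsg.Lie.chevE8]) (θ : ↥(D.group F) ≃* ↥(D.group F)) :
    ∃ (x : ↥(D.group F)) (d g f : ↥(D.group F) ≃* ↥(D.group F)),
      D.IsDiagonalAut d ∧ D.IsGraphAut g ∧ D.IsFieldAut f ∧ ∀ y : ↥(D.group F), θ y = x * d (g (f y)) * x⁻¹ := by
  have hC := Lib.Helper22.simple_comm (F := F) D hD
  exact Lib.Helper45.steinberg_of_rungs hD (Lib.Helper45.hSyl_of_mem hD) hC.1 hC.2.1 hC.2.2.1 hC.2.2.2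
    (Lib.Helper23.symm_of_adj D hD) (Lib.Helper22.len_test D hD) (Lib.Helper22.cartan_conn D hD)
    (cartan_exists D hD) (Lib.Helper23.exists_graphAut_of_symm D hD)
    (Lib.Helper22.exists_diagAut D hD) θ

end Cfsg.Agent.S2156
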