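import Cfsg.Statements.S2158
import Cfsg.Agent.Lib.Helper23.AutNorm

set_option autoImplicit false
open Cfsg

namespace Cfsg.Agent.S2158

/-- In a Chevalley group of type G₂, B₂, D₄, F₄, E₆, E₇ or E₈ over any field, an element of the group whose matrix is the diagonal matrix `ĥ(χ)` of a character `χ` of the root lattice already lies in the diagonal subgroup H (the non-trivial inclusion of the statement that the group meets the group of all such diagonal matrices in H). -/
theorem result {F : Type*} [Field F] (D : Cfsg.Lie.ChevalleyDatum) (hD : D ∈ [Cfsg.Lie.chevG2, Cfsg.Lie.chevB2, Cfsg.Lie.chevD4, Cfsg.Lie.chevF4, Cfsg.Lie.chevE6, Cfsg.Lie.chevE7, Cfsg.Lie.chevE8]) (χ : ℕ → Fˣ) (hχ : D.IsRootCharacter χ) (g : GL D.Idx F) (hg : g ∈ D.group F)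
    (hgχ : (g : Matrix D.Idx D.Idx F) = D.charDiag F χ) : g ∈ D.diagonalSubgroup F := by
  have b := Lib.Helper23.bundle_of_mem F hD
  have hinv : ((g⁻¹ : GL D.Idx F) : Matrix D.Idx D.Idx F) = D.charDiag F (fun s => (χ s)⁻¹) := by
    apply Units.inv_eq_of_mul_eq_one_right
    rw [hgχ]
    unfold Cfsg.Lie.ChevalleyDatum.charDiag
    rw [Matrix.diagonal_mul_diagonal, ← Matrix.diagonal_one]
    congr 1
    ext i
    rcases i with i | i <;> simp
  have key : ∀ r < D.nroots, ∀ t : F, g * b.hA.X r t * g⁻¹ = b.hA.X r ((χ r : F) * t) := by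
    intro r hr t
    apply Units.ext
    rw [Units.val_mul, Units.val_mul, hgχ, hinv, b.hA.coe_X, b.hA.coe_X]
    exact Cfsg.Agent.S2157.result D hD χ hχ r hr t
  apply b.mem_diag_of_conj_X hg
  · intro r hr t
    rw [key r hr.1]
    exact b.hA.X_mem_pos hr _
  · intro r hr t
    rw [key r hr.1]
    exact b.hA.X_mem_neg hr _

end Cfsg.Agent.S2158
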