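import Cfsg.Statements.S2160
import Cfsg.Agent.Lib.Helper22.GenSimple
import Cfsg.Agent.Lib.Helper23.ChevAll

set_option autoImplicit false
open Cfsg

namespace Cfsg.Agent.S2160

/-- In a Chevalley group of type G₂, B₂, D₄, F₄, E₆, E₇ or E₈ over a finite field, every field automorphism commutes with every graph automorphism. -/
theorem result {F : Type*} [Field F] [Finite F] (D : Cfsg.Lie.ChevalleyDatum) (hD : D ∈ [Cfsg.Lie.chevG2, Cfsg.Lie.chevB2, Cfsg.Lie.chevD4, Cfsg.Lie.chevF4, Cfsg.Lie.chevE6, Cfsg.Lie.chevE7, Cfsg.Lie.chevE8]) (f g : ↥(D.group F) ≃* ↥(D.group F))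
    (hf : D.IsFieldAut f) (hg : D.IsGraphAut g) (y : ↥(D.group F)) : f (g y) = g (f y) := by
  have b := Lib.Helper23.bundle_of_mem F hD
  have hA := b.hA
  obtain ⟨σ, hσ⟩ := hf
  obtain ⟨π, _, hπ⟩ := hg
  have key : f.toMonoidHom.comp g.toMonoidHom = g.toMonoidHom.comp f.toMonoidHom := by
    apply Lib.Helper22.hom_ext_GS hA b.hR b.hN
    · intro i hi t
      apply Subtype.ext
      apply Units.ext
      show ((f (g _) : GL D.Idx F) : Matrix D.Idx D.Idx F) = ((g (f _) : GL D.Idx F) : Matrix D.Idx D.Idx F)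
      have h1 := (hπ ⟨hA.X (D.simple i) t, hA.X_mem_group _ _⟩ ⟨i, hi⟩ t).1 (hA.coe_X _ _)
      have h2 := hσ _ _ _ (b.hR.simple_lt (π ⟨i, hi⟩).isLt) h1
      have h3 := hσ ⟨hA.X (D.simple i) t, hA.X_mem_group _ _⟩ _ t (b.hR.simple_lt hi) (hA.coe_X _ _)
      have h4 := (hπ _ ⟨i, hi⟩ _).1 h3
      rw [h2, h4, map_pow]
    · intro i hi t
      apply Subtype.ext
      apply Units.ext
      show ((f (g _) : GL D.Idx F) : Matrix D.Idx D.Idx F) = ((g (f _) : GL D.Idx F) : Matrix D.Idx D.Idx F)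
      have h1 := (hπ ⟨hA.X (D.neg (D.simple i)) t, hA.X_mem_group _ _⟩ ⟨i, hi⟩ t).2 (hA.coe_X _ _)
      have h2 := hσ _ _ _ (b.hR.neg_lt (b.hR.simple_lt (π ⟨i, hi⟩).isLt)) h1
      have h3 := hσ ⟨hA.X (D.neg (D.simple i)) t, hA.X_mem_group _ _⟩ _ t (b.hR.neg_lt (b.hR.simple_lt hi)) (hA.coe_X _ _)
      have h4 := (hπ _ ⟨i, hi⟩ _).2 h3
      rw [h2, h4, map_pow]
  exact DFunLike.congr_fun key y

end Cfsg.Agent.S2160
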