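import Cfsg.Statements.S2298
import Cfsg.Agent.Lib.Helper44.GL2Data

set_option autoImplicit false
open Cfsg

namespace Cfsg.Agent.S2298

open Cfsg.Agent.Lib.Helper44 in
/-- Over a finite field F with q elements, every irreducible complex character of GL₂ has degree 1, q − 1, q or q + 1; and when q ≥ 3 (so that these four numbers are distinct) there are exactly q − 1 irreducible characters of degree 1, exactly q − 1 of degree q, exactly (q − 1)(q − 2)/2 of degree q + 1 and exactly q(q − 1)/2 of degree q − 1. -/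
theorem result {F : Type*} [Field F] [Fintype F] :
    (∀ χ : Matrix.GeneralLinearGroup (Fin 2) F → ℂ, Cfsg.IsIrrCharacter (Matrix.GeneralLinearGroup (Fin 2) F) χ →
      χ 1 = 1 ∨ χ 1 = (Fintype.card F : ℂ) - 1 ∨ χ 1 = (Fintype.card F : ℂ) ∨ χ 1 = (Fintype.card F : ℂ) + 1) ∧
    (3 ≤ Fintype.card F →
      Nat.card {χ : Cfsg.IrrCharacter (Matrix.GeneralLinearGroup (Fin 2) F) // (χ : Matrix.GeneralLinearGroup (Fin 2) F → ℂ) 1 = 1} = Fintype.card F - 1 ∧
      Nat.card {χ : Cfsg.IrrCharacter (Matrix.GeneralLinearGroup (Fin 2) F) // (χ : Matrix.GeneralLinearGroup (Fin 2) F → ℂ) 1 = (Fintype.card F : ℂ)} = Fintype.card F - 1 ∧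
      Nat.card {χ : Cfsg.IrrCharacter (Matrix.GeneralLinearGroup (Fin 2) F) // (χ : Matrix.GeneralLinearGroup (Fin 2) F → ℂ) 1 = (Fintype.card F : ℂ) + 1} = (Fintype.card F - 1) * (Fintype.card F - 2) / 2 ∧
      Nat.card {χ : Cfsg.IrrCharacter (Matrix.GeneralLinearGroup (Fin 2) F) // (χ : Matrix.GeneralLinearGroup (Fin 2) F → ℂ) 1 = (Fintype.card F : ℂ) - 1} = Fintype.card F * (Fintype.card F - 1) / 2) := by
  classical
  obtain ⟨ψ, hψ⟩ := exists_primitive_addChar F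
  obtain ⟨m₀, m₁, hm1, hm0, hdeg, htriv, e1, e2, e3, e4⟩ := gl2_data hψ
  have hq : 1 < Fintype.card F := Fintype.one_lt_card
  have htype : ∀ χ : IrrGL F, (m₀ χ = 1 ∧ m₁ χ = 0) ∨ (m₀ χ = 0 ∧ m₁ χ = 1) ∨ (m₀ χ = 1 ∧ m₁ χ = 1) ∨
      (m₀ χ = 2 ∧ m₁ χ = 1) := by
    intro χ
    have h1 := hm1 χ
    have h0 := hm0 χ
    by_cases h : m₁ χ = 0
    · left
      refine ⟨?_, h⟩
      have h2 := hdeg χ
      rw [htriv χ h, h] at h2
      have h2' : (1 : ℂ) = ((m₀ χ + (Fintype.card F - 1) * 0 : ℕ) : ℂ) := h2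
      have h3 : 1 = m₀ χ + (Fintype.card F - 1) * 0 := by exact_mod_cast h2'
      omega
    · right
      have : m₁ χ = 1 := by omega
      omega
  constructor
  · intro χ hχ
    have h2 := hdeg ⟨χ, hχ⟩
    change χ 1 = _ at h2
    rw [h2]
    rcases htype ⟨χ, hχ⟩ with ⟨h0, h1⟩ | ⟨h0, h1⟩ | ⟨h0, h1⟩ | ⟨h0, h1⟩ <;> rw [h0, h1] <;>
      push_cast [Nat.cast_sub hq.le]
    · left; ring
    · right; left; ring
    · right; right; left; ring
    · right; right; right; ring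
  · intro hq4
    have hcard : ∀ c : ℕ, ∀ z : ℂ, z = c →
        Nat.card {χ : Cfsg.IrrCharacter (Matrix.GeneralLinearGroup (Fin 2) F) // (χ : Matrix.GeneralLinearGroup (Fin 2) F → ℂ) 1 = z} =
        ∑ χ : IrrGL F, if m₀ χ + (Fintype.card F - 1) * m₁ χ = c then 1 else 0 := by
      intro c z hz
      rw [Nat.card_congr (Equiv.subtypeEquivRight (q := fun χ : IrrGL F => m₀ χ + (Fintype.card F - 1) * m₁ χ = c) ?_),
        Nat.card_eq_fintype_card, Fintype.card_subtype]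
      · simp
      · intro χ
        rw [hdeg χ, hz]
        exact Nat.cast_inj
    rw [hcard 1 1 (by simp), hcard (Fintype.card F) _ rfl, hcard (Fintype.card F + 1) _ (by simp),
      hcard (Fintype.card F - 1) _ (by rw [Nat.cast_sub hq.le]; simp)]
    have p1 : ∀ χ : IrrGL F, m₁ χ ^ 2 =
        (if m₀ χ + (Fintype.card F - 1) * m₁ χ = Fintype.card F then 1 else 0) +
        (if m₀ χ + (Fintype.card F - 1) * m₁ χ = Fintype.card F + 1 then 1 else 0) +
        (if m₀ χ + (Fintype.card F - 1) * m₁ χ = Fintype.card F - 1 then 1 else 0) := by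
      intro χ
      rcases htype χ with ⟨h0, h1⟩ | ⟨h0, h1⟩ | ⟨h0, h1⟩ | ⟨h0, h1⟩ <;> rw [h0, h1] <;> split_ifs <;> omega
    have p2 : ∀ χ : IrrGL F, m₀ χ * m₁ χ =
        (if m₀ χ + (Fintype.card F - 1) * m₁ χ = Fintype.card F then 1 else 0) +
        2 * (if m₀ χ + (Fintype.card F - 1) * m₁ χ = Fintype.card F + 1 then 1 else 0) := by
      intro χ
      rcases htype χ with ⟨h0, h1⟩ | ⟨h0, h1⟩ | ⟨h0, h1⟩ | ⟨h0, h1⟩ <;> rw [h0, h1] <;> split_ifs <;> omega
    have p3 : ∀ χ : IrrGL F, m₀ χ ^ 2 =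
        (if m₀ χ + (Fintype.card F - 1) * m₁ χ = 1 then 1 else 0) +
        (if m₀ χ + (Fintype.card F - 1) * m₁ χ = Fintype.card F then 1 else 0) +
        4 * (if m₀ χ + (Fintype.card F - 1) * m₁ χ = Fintype.card F + 1 then 1 else 0) := by
      intro χ
      rcases htype χ with ⟨h0, h1⟩ | ⟨h0, h1⟩ | ⟨h0, h1⟩ | ⟨h0, h1⟩ <;> rw [h0, h1] <;> split_ifs <;> omega
    have p4 : ∀ χ : IrrGL F, 1 =
        (if m₀ χ + (Fintype.card F - 1) * m₁ χ = 1 then 1 else 0) +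
        (if m₀ χ + (Fintype.card F - 1) * m₁ χ = Fintype.card F then 1 else 0) +
        (if m₀ χ + (Fintype.card F - 1) * m₁ χ = Fintype.card F + 1 then 1 else 0) +
        (if m₀ χ + (Fintype.card F - 1) * m₁ χ = Fintype.card F - 1 then 1 else 0) := by
      intro χ
      rcases htype χ with ⟨h0, h1⟩ | ⟨h0, h1⟩ | ⟨h0, h1⟩ | ⟨h0, h1⟩ <;> rw [h0, h1] <;> split_ifs <;> omega
    rw [Finset.sum_congr rfl (fun χ _ => p1 χ)] at e1
    rw [Finset.sum_congr rfl (fun χ _ => p2 χ)] at e2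
    rw [Finset.sum_congr rfl (fun χ _ => p3 χ)] at e3
    have e4' : ∑ _χ : IrrGL F, 1 = Fintype.card F ^ 2 - 1 := by simpa using e4
    rw [Finset.sum_congr rfl (fun χ _ => p4 χ)] at e4'
    simp only [Finset.sum_add_distrib, ← Finset.mul_sum] at e1 e2 e3 e4'
    generalize (∑ χ : IrrGL F, if m₀ χ + (Fintype.card F - 1) * m₁ χ = 1 then 1 else 0) = n1 at *
    generalize (∑ χ : IrrGL F, if m₀ χ + (Fintype.card F - 1) * m₁ χ = Fintype.card F then 1 else 0) = n2 at *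
    generalize (∑ χ : IrrGL F, if m₀ χ + (Fintype.card F - 1) * m₁ χ = Fintype.card F + 1 then 1 else 0) = n3 at *
    generalize (∑ χ : IrrGL F, if m₀ χ + (Fintype.card F - 1) * m₁ χ = Fintype.card F - 1 then 1 else 0) = n4 at *
    obtain ⟨k, hk⟩ := Nat.exists_eq_add_of_le hq4
    rw [hk] at e1 e2 e3 e4' ⊢
    have a1 : 3 + k - 1 = k + 2 := by omega
    have a2 : 3 + k - 2 = k + 1 := by omega
    rw [a1] at e1 e2 e3 ⊢
    rw [a2]
    have b1 : (k + 2) ^ 2 = (k + 2) * (k + 1) + (k + 2) := by ring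
    have b2 : (3 + k) ^ 2 = (k + 2) * (k + 1) + 3 * (k + 2) + 1 := by ring
    have b3 : (3 + k) * (k + 2) = (k + 2) * (k + 1) + 2 * (k + 2) := by ring
    rw [b1] at e1 e2 e3
    rw [b2] at e4'
    rw [b3]
    generalize (k + 2) * (k + 1) = K at *
    omega

end Cfsg.Agent.S2298
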