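import Cfsg.Statements.S2301
import Cfsg.Agent.Lib.Helper44.Unip
-- import your own Cfsg.Agent.* helpers here

set_option autoImplicit false
open Cfsg

namespace Cfsg.Agent.S2301

open Cfsg.Agent.Lib.Helper44 Matrix

theorem aux {F : Type*} [Field F] (p : ℕ) [Fact p.Prime] [CharP F p] (g : SpecialLinearGroup (Fin 2) F)
    (hg : orderOf g = p) : (g : Matrix (Fin 2) (Fin 2) F).trace = 2 ∧ NonScalar (g : Matrix (Fin 2) (Fin 2) F) := by
  have h1 : g ^ p = 1 := hg ▸ pow_orderOf_eq_one g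
  have h2 : (g : Matrix (Fin 2) (Fin 2) F) ^ p = 1 := by
    rw [← Matrix.SpecialLinearGroup.coe_pow, h1]; rfl
  obtain ⟨ht, hd⟩ := unip_of_pow_eq_one p h2
  refine ⟨ht, nonScalar_of_unip_ne_one ht hd ?_⟩
  intro h3
  have : g = 1 := Subtype.ext h3
  rw [this, orderOf_one] at hg
  exact (Fact.out : p.Prime).one_lt.ne hg

theorem exists_conj_u {F : Type*} [Field F] (p : ℕ) [Fact p.Prime] [CharP F p] (g : SpecialLinearGroup (Fin 2) F)
    (hg : orderOf g = p) : ∃ b : F, b ≠ 0 ∧ IsConj g (uSL b) := by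
  obtain ⟨ht, hn⟩ := aux p g hg
  obtain ⟨x, y, hxy⟩ := exists_Qf_ne_zero hn
  exact ⟨_, neg_ne_zero.mpr hxy, sl2_isConj_uSL ht hxy⟩

theorem orderOf_uSL {F : Type*} [Field F] (p : ℕ) [Fact p.Prime] [CharP F p] {b : F} (hb : b ≠ 0) :
    orderOf (uSL b) = p := by
  apply orderOf_eq_prime
  · apply Subtype.ext
    rw [Matrix.SpecialLinearGroup.coe_pow]
    exact pow_eq_one_of_unip p (trace_uSL b) (uSL b).2
  · intro h
    have := congrFun (congrFun (congrArg (fun z : SpecialLinearGroup (Fin 2) F => (z : Matrix (Fin 2) (Fin 2) F)) h) 0) 1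
    simp at this
    exact hb this

theorem odd_card {F : Type*} [Field F] [Fintype F] (p : ℕ) [Fact p.Prime] [CharP F p] (hp : p ≠ 2) :
    Odd (Fintype.card F) := by
  rw [Nat.odd_iff]
  apply FiniteField.odd_card_of_char_ne_two
  rw [ringChar.eq F p]
  exact hp

theorem eq_uSL {F : Type*} [Field F] (g : SpecialLinearGroup (Fin 2) F)
    (h00 : (g : Matrix (Fin 2) (Fin 2) F) 0 0 = 1) (h11 : (g : Matrix (Fin 2) (Fin 2) F) 1 1 = 1)
    (h10 : (g : Matrix (Fin 2) (Fin 2) F) 1 0 = 0) : g = uSL ((g : Matrix (Fin 2) (Fin 2) F) 0 1) := by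
  apply Subtype.ext
  ext i j
  fin_cases i <;> fin_cases j <;> simp [h00, h11, h10]

/-- Over a finite field with q elements of odd characteristic p, the elements of order p of SL₂ (the non-identity unipotent elements) fall into exactly two conjugacy classes, each of size (q² − 1)/2; two upper unitriangular matrices with non-zero off-diagonal entries b and b′ are conjugate exactly when bb′ is a square. -/
theorem result {F : Type*} [Field F] [Fintype F] (p : ℕ) [Fact p.Prime] [CharP F p] (hp : p ≠ 2) :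
    Nat.card {C : ConjClasses (Matrix.SpecialLinearGroup (Fin 2) F) // ∃ g : Matrix.SpecialLinearGroup (Fin 2) F, orderOf g = p ∧ ConjClasses.mk g = C} = 2 ∧
    (∀ g : Matrix.SpecialLinearGroup (Fin 2) F, orderOf g = p → Nat.card (ConjClasses.mk g).carrier = (Fintype.card F ^ 2 - 1) / 2) ∧
    ∀ g h : Matrix.SpecialLinearGroup (Fin 2) F, (g : Matrix (Fin 2) (Fin 2) F) 0 0 = 1 → (g : Matrix (Fin 2) (Fin 2) F) 1 1 = 1 → (g : Matrix (Fin 2) (Fin 2) F) 1 0 = 0 → (g : Matrix (Fin 2) (Fin 2) F) 0 1 ≠ 0 →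
      (h : Matrix (Fin 2) (Fin 2) F) 0 0 = 1 → (h : Matrix (Fin 2) (Fin 2) F) 1 1 = 1 → (h : Matrix (Fin 2) (Fin 2) F) 1 0 = 0 → (h : Matrix (Fin 2) (Fin 2) F) 0 1 ≠ 0 →
      (IsConj g h ↔ IsSquare ((g : Matrix (Fin 2) (Fin 2) F) 0 1 * (h : Matrix (Fin 2) (Fin 2) F) 0 1)) := by
  classical
  have hodd := odd_card (F := F) p hp
  have h2 : (2 : F) ≠ 0 := two_ne_zero_of_odd hodd
  obtain ⟨d, hd⟩ := FiniteField.exists_nonsquare (ringChar_ne_two_of_odd hodd)
  have hd0 : d ≠ 0 := by rintro rfl; exact hd IsSquare.zero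
  refine ⟨?_, ?_, ?_⟩
  · have : ∀ C : ConjClasses (SpecialLinearGroup (Fin 2) F),
        (∃ g : SpecialLinearGroup (Fin 2) F, orderOf g = p ∧ ConjClasses.mk g = C) ↔
          C ∈ ({ConjClasses.mk (uSL 1), ConjClasses.mk (uSL d)} : Finset (ConjClasses (SpecialLinearGroup (Fin 2) F))) := by
      intro C
      simp only [Finset.mem_insert, Finset.mem_singleton]
      constructor
      · rintro ⟨g, hg, rfl⟩
        obtain ⟨b, hb, hc⟩ := exists_conj_u p g hg
        by_cases hs : IsSquare b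
        · left
          rw [ConjClasses.mk_eq_mk_iff_isConj]
          exact hc.trans ((sl2_isConj_uSL_iff hb one_ne_zero).mpr (by simpa using hs))
        · right
          rw [ConjClasses.mk_eq_mk_iff_isConj]
          exact hc.trans ((sl2_isConj_uSL_iff hb hd0).mpr (isSquare_mul_of_not_isSquare hodd hs hd))
      · rintro (rfl | rfl)
        · exact ⟨_, orderOf_uSL p one_ne_zero, rfl⟩
        · exact ⟨_, orderOf_uSL p hd0, rfl⟩
    rw [Nat.card_congr (Equiv.subtypeEquivRight this), Nat.card_eq_fintype_card, Fintype.card_coe,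
      Finset.card_pair]
    rw [Ne, ConjClasses.mk_eq_mk_iff_isConj, sl2_isConj_uSL_iff one_ne_zero hd0]
    simpa using hd
  · intro g hg
    obtain ⟨b, hb, hc⟩ := exists_conj_u p g hg
    rw [ConjClasses.mk_eq_mk_iff_isConj.mpr hc]
    have h1 := card_carrier_mul_card_centralizer (uSL b)
    rw [card_centralizer_uSL hb, card_sq_eq_one_of_two_ne_zero h2, card_SL2,
      Nat.card_eq_fintype_card (α := F), ← mul_assoc, ← mul_assoc] at h1
    have h3 := Nat.eq_of_mul_eq_mul_right Fintype.card_pos h1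
    have : 1 ≤ Fintype.card F := Fintype.card_pos
    obtain ⟨k, hk⟩ := Nat.exists_eq_add_of_le this
    rw [hk] at h3 ⊢
    have e1 : 1 + k - 1 = k := by omega
    have e2 : (1 + k) ^ 2 = (1 + k + 1) * k + 1 := by ring
    rw [e1] at h3
    rw [e2, ← h3]
    omega
  · intro g h g00 g11 g10 g01 h00 h11 h10 h01
    rw [eq_uSL g g00 g11 g10, eq_uSL h h00 h11 h10]
    simp only [coe_uSL]
    exact sl2_isConj_uSL_iff g01 h01

end Cfsg.Agent.S2301
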