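import Cfsg.Statements.S2302
import Cfsg.Agent.Lib.Helper44.Unip
-- import your own Cfsg.Agent.* helpers here

set_option autoImplicit false
open Cfsg

namespace Cfsg.Agent.S2302

open Cfsg.Agent.Lib.Helper44 Matrix

theorem aux {F : Type*} [Field F] (p : ℕ) [Fact p.Prime] [CharP F p] (g : SpecialLinearGroup (Fin 2) F)
    (hg : orderOf g = p) : (g : Matrix (Fin 2) (Fin 2) F).trace = 2 ∧ NonScalar (g : Matrix (Fin 2) (Fin 2) F) := by
  have h1 : g ^ p = 1 := hg ▸ pow_orderOf_eq_one g
  have h2 : (g : Matrix (Fin 2) (Fin 2) F) ^ p = 1 := by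
    rw [← Matrix.SpecialLinearGroup.coe_pow, h1]; rfl
  obtain ⟨ht, hd⟩ := unip_of_pow_eq_one p h2
  refine ⟨ht, nonScalar_of_unip_ne_one ht hd ?_⟩
  intro h3
  have : g = 1 := Subtype.ext h3
  rw [this, orderOf_one] at hg
  exact (Fact.out : p.Prime).one_lt.ne hg

theorem conj_u {F : Type*} [Field F] [Fintype F] [CharP F 2] (g : SpecialLinearGroup (Fin 2) F) (hg : orderOf g = 2) :
    IsConj g (uSL 1) := by
  obtain ⟨ht, hn⟩ := aux 2 g hg
  obtain ⟨x, y, hxy⟩ := exists_Qf_ne_zero hn
  obtain ⟨x', y', h1⟩ := exists_Qf_eq_one_of_isSquare hxy (isSquare_of_charTwo _)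
  have := sl2_isConj_uSL ht (x := x') (y := y') (by rw [h1]; exact one_ne_zero)
  rw [h1] at this
  have h2 : (-1 : F) = 1 := by
    have : (2 : F) = 0 := CharTwo.two_eq_zero
    linear_combination -this
  rwa [h2] at this

/-- Over a finite field with q elements of characteristic 2, the involutions of SL₂ (the non-identity unipotent elements) form a single conjugacy class, of size q² − 1. -/
theorem result {F : Type*} [Field F] [Fintype F] [CharP F 2] (g h : Matrix.SpecialLinearGroup (Fin 2) F) (hg : orderOf g = 2) (hh : orderOf h = 2) :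
    IsConj g h ∧ Nat.card (ConjClasses.mk g).carrier = Fintype.card F ^ 2 - 1 := by
  refine ⟨(conj_u g hg).trans (conj_u h hh).symm, ?_⟩
  rw [ConjClasses.mk_eq_mk_iff_isConj.mpr (conj_u g hg)]
  have h1 := card_carrier_mul_card_centralizer (uSL (1 : F))
  rw [card_centralizer_uSL one_ne_zero, card_sq_eq_one_of_two_eq_zero CharTwo.two_eq_zero, card_SL2,
    Nat.card_eq_fintype_card (α := F), one_mul, ← mul_assoc] at h1
  have h2 := Nat.eq_of_mul_eq_mul_right Fintype.card_pos h1
  rw [h2]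
  have : 1 ≤ Fintype.card F := Fintype.card_pos
  obtain ⟨k, hk⟩ := Nat.exists_eq_add_of_le this
  rw [hk]
  have e1 : 1 + k - 1 = k := by omega
  have e2 : (1 + k) ^ 2 = (1 + k + 1) * k + 1 := by ring
  rw [e1, e2]
  omega

end Cfsg.Agent.S2302
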