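import Cfsg.Statements.S2303
import Cfsg.Agent.Lib.Helper44.Elliptic
-- import your own Cfsg.Agent.* helpers here

set_option autoImplicit false
open Cfsg

namespace Cfsg.Agent.S2303

open Cfsg.Agent.Lib.Helper44 Matrix

theorem mem_centralizer_iff {F : Type*} [Field F] (g x : GL (Fin 2) F) :
    x ∈ Subgroup.centralizer ({g} : Set (GL (Fin 2) F)) ↔
      (g : Matrix (Fin 2) (Fin 2) F) * (x : Matrix (Fin 2) (Fin 2) F) = (x : Matrix (Fin 2) (Fin 2) F) * (g : Matrix (Fin 2) (Fin 2) F) := by
  rw [Subgroup.mem_centralizer_singleton_iff]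
  constructor
  · intro h
    have := congrArg (fun z : GL (Fin 2) F => (z : Matrix (Fin 2) (Fin 2) F)) h
    simpa using this.symm
  · intro h
    apply Units.ext
    simpa using h.symm

/-- Diagonal elements. -/
def diagGL {F : Type*} [Field F] (u v : Fˣ) : GL (Fin 2) F :=
  ⟨!![(u : F), 0; 0, (v : F)], !![((u⁻¹ : Fˣ) : F), 0; 0, ((v⁻¹ : Fˣ) : F)],
    by ext i j; fin_cases i <;> fin_cases j <;> simp [Matrix.mul_apply, Fin.sum_univ_two],
    by ext i j; fin_cases i <;> fin_cases j <;> simp [Matrix.mul_apply, Fin.sum_univ_two]⟩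

theorem part1 {F : Type*} [Field F] [Fintype F] (g : GL (Fin 2) F)
    (h01 : (g : Matrix (Fin 2) (Fin 2) F) 0 1 = 0) (h10 : (g : Matrix (Fin 2) (Fin 2) F) 1 0 = 0)
    (hne : (g : Matrix (Fin 2) (Fin 2) F) 0 0 ≠ (g : Matrix (Fin 2) (Fin 2) F) 1 1) :
    Nat.card (Subgroup.centralizer ({g} : Set (GL (Fin 2) F))) = (Fintype.card F - 1) ^ 2 := by
  have hmem : ∀ p : Fˣ × Fˣ, diagGL p.1 p.2 ∈ Subgroup.centralizer ({g} : Set (GL (Fin 2) F)) := by
    intro p
    rw [mem_centralizer_iff]
    ext i j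
    fin_cases i <;> fin_cases j <;> simp [diagGL, Matrix.mul_apply, Fin.sum_univ_two, h01, h10, mul_comm]
  have hbij : Function.Bijective (fun p : Fˣ × Fˣ =>
      (⟨diagGL p.1 p.2, hmem p⟩ : Subgroup.centralizer ({g} : Set (GL (Fin 2) F)))) := by
    constructor
    · rintro ⟨u, v⟩ ⟨u', v'⟩ h
      have h' := congrArg (fun z : Subgroup.centralizer ({g} : Set (GL (Fin 2) F)) =>
        ((z : GL (Fin 2) F) : Matrix (Fin 2) (Fin 2) F)) h
      have e0 := congrFun (congrFun h' 0) 0
      have e1 := congrFun (congrFun h' 1) 1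
      simp [diagGL] at e0 e1
      rw [Units.ext e0, Units.ext e1]
    · rintro ⟨x, hx⟩
      rw [mem_centralizer_iff] at hx
      have e01 := congrFun (congrFun hx 0) 1
      have e10 := congrFun (congrFun hx 1) 0
      simp [Matrix.mul_apply, Fin.sum_univ_two, h01, h10] at e01 e10
      have x01 : (x : Matrix (Fin 2) (Fin 2) F) 0 1 = 0 := by
        have : ((g : Matrix (Fin 2) (Fin 2) F) 0 0 - (g : Matrix (Fin 2) (Fin 2) F) 1 1) * (x : Matrix (Fin 2) (Fin 2) F) 0 1 = 0 := by
          linear_combination e01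
        exact (mul_eq_zero.mp this).resolve_left (sub_ne_zero.mpr hne)
      have x10 : (x : Matrix (Fin 2) (Fin 2) F) 1 0 = 0 := by
        have : ((g : Matrix (Fin 2) (Fin 2) F) 0 0 - (g : Matrix (Fin 2) (Fin 2) F) 1 1) * (x : Matrix (Fin 2) (Fin 2) F) 1 0 = 0 := by
          linear_combination -e10
        exact (mul_eq_zero.mp this).resolve_left (sub_ne_zero.mpr hne)
      have hdet := (Matrix.isUnits_det_units x).ne_zero
      rw [Matrix.det_fin_two, x01, x10] at hdet
      have x00 : (x : Matrix (Fin 2) (Fin 2) F) 0 0 ≠ 0 := by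
        intro h; apply hdet; rw [h]; ring
      have x11 : (x : Matrix (Fin 2) (Fin 2) F) 1 1 ≠ 0 := by
        intro h; apply hdet; rw [h]; ring
      refine ⟨(Units.mk0 _ x00, Units.mk0 _ x11), ?_⟩
      apply Subtype.ext
      apply Units.ext
      ext i j
      fin_cases i <;> fin_cases j <;> simp [diagGL, x01, x10]
  rw [← Nat.card_congr (Equiv.ofBijective _ hbij), Nat.card_prod, Nat.card_units, Nat.card_eq_fintype_card, sq]

theorem det_add_smul_ne_zero {F : Type*} [Field F] {m : Matrix (Fin 2) (Fin 2) F} (h : Elliptic m) {x y : F}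
    (hxy : x ≠ 0 ∨ y ≠ 0) : (x • (1 : Matrix (Fin 2) (Fin 2) F) + y • m).det ≠ 0 := by
  intro hd
  obtain ⟨v, hv, e⟩ := Matrix.exists_mulVec_eq_zero_iff.mpr hd
  rw [Matrix.add_mulVec, Matrix.smul_mulVec, Matrix.smul_mulVec, Matrix.one_mulVec] at e
  by_cases hy : y = 0
  · subst hy
    have hx : x ≠ 0 := by simpa using hxy
    simp at e
    rcases e with e | e
    · exact hx e
    · exact hv e
  · apply h (-(x / y)) v hv
    have : y • (m *ᵥ v) = y • (-(x / y) • v) := by
      rw [smul_smul]
      have : y * -(x / y) = -x := by field_simp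
      rw [this, neg_smul]
      exact eq_neg_of_add_eq_zero_right e
    exact smul_right_injective _ hy this

theorem part2 {F : Type*} [Field F] [Fintype F] (g : GL (Fin 2) F) (hell : Elliptic (g : Matrix (Fin 2) (Fin 2) F)) :
    Nat.card (Subgroup.centralizer ({g} : Set (GL (Fin 2) F))) = Fintype.card F ^ 2 - 1 := by
  classical
  have g10 : (g : Matrix (Fin 2) (Fin 2) F) 1 0 ≠ 0 := by
    have := Qf_ne_zero_of_elliptic hell (x := 1) (y := 0) (Or.inl one_ne_zero)
    simpa [Qf] using this
  have hor : ∀ p : {p : F × F // p ≠ 0}, p.1.1 ≠ 0 ∨ p.1.2 ≠ 0 := by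
    rintro ⟨⟨x, y⟩, hp⟩
    by_contra hc
    simp only [not_or, not_not] at hc
    exact hp (Prod.ext hc.1 hc.2)
  let el : {p : F × F // p ≠ 0} → GL (Fin 2) F := fun p =>
    Matrix.GeneralLinearGroup.mkOfDetNeZero _ (det_add_smul_ne_zero hell (hor p))
  have hel : ∀ p, ((el p : GL (Fin 2) F) : Matrix (Fin 2) (Fin 2) F) =
      p.1.1 • (1 : Matrix (Fin 2) (Fin 2) F) + p.1.2 • (g : Matrix (Fin 2) (Fin 2) F) := fun p => rfl
  have hmem : ∀ p, el p ∈ Subgroup.centralizer ({g} : Set (GL (Fin 2) F)) := by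
    intro p
    rw [mem_centralizer_iff, hel]
    simp [mul_add, add_mul]
  have hbij : Function.Bijective (fun p =>
      (⟨el p, hmem p⟩ : Subgroup.centralizer ({g} : Set (GL (Fin 2) F)))) := by
    constructor
    · rintro ⟨⟨x, y⟩, hp⟩ ⟨⟨x', y'⟩, hp'⟩ h
      have h' := congrArg (fun z : Subgroup.centralizer ({g} : Set (GL (Fin 2) F)) =>
        ((z : GL (Fin 2) F) : Matrix (Fin 2) (Fin 2) F)) h
      simp only [hel] at h'
      have e0 := congrFun (congrFun h' 0) 0
      have e1 := congrFun (congrFun h' 1) 0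
      simp at e0 e1
      have hy : y = y' := by
        rcases e1 with e1 | e1
        · exact e1
        · exact absurd e1 g10
      subst hy
      have hx : x = x' := by linear_combination e0
      subst hx
      rfl
    · rintro ⟨m, hm⟩
      rw [mem_centralizer_iff] at hm
      have e00 := congrFun (congrFun hm 0) 0
      have e10 := congrFun (congrFun hm 1) 0
      simp [Matrix.mul_apply, Fin.sum_univ_two] at e00 e10
      set y := (m : Matrix (Fin 2) (Fin 2) F) 1 0 / (g : Matrix (Fin 2) (Fin 2) F) 1 0 with hy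
      set x := (m : Matrix (Fin 2) (Fin 2) F) 0 0 - y * (g : Matrix (Fin 2) (Fin 2) F) 0 0 with hx
      have hmat : (m : Matrix (Fin 2) (Fin 2) F) = x • (1 : Matrix (Fin 2) (Fin 2) F) + y • (g : Matrix (Fin 2) (Fin 2) F) := by
        ext i j
        fin_cases i <;> fin_cases j <;> simp [hx, hy]
        · field_simp
          linear_combination -e00
        · field_simp
        · field_simp
          linear_combination -e10
      have hp : (x, y) ≠ (0 : F × F) := by
        intro h0
        have hx0 : x = 0 := congrArg Prod.fst h0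
        have hy0 : y = 0 := congrArg Prod.snd h0
        have hdet := (Matrix.isUnits_det_units m).ne_zero
        rw [hmat, hx0, hy0] at hdet
        simp at hdet
      refine ⟨⟨(x, y), hp⟩, ?_⟩
      apply Subtype.ext
      apply Units.ext
      rw [hmat]
      rfl
  rw [← Nat.card_congr (Equiv.ofBijective _ hbij), Nat.card_eq_fintype_card, Fintype.card_subtype_compl,
    Fintype.card_prod, Fintype.card_subtype_eq, sq]

/-- Over a finite field with q elements: a diagonal element of GL₂ with two distinct diagonal entries has centralizer of order (q − 1)² (so q(q + 1) conjugates), and an element of GL₂ with no eigenvector in F² has centralizer of order q² − 1 (so q(q − 1) conjugates). -/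
theorem result {F : Type*} [Field F] [Fintype F] (g : Matrix.GeneralLinearGroup (Fin 2) F) :
    ((g : Matrix (Fin 2) (Fin 2) F) 0 1 = 0 → (g : Matrix (Fin 2) (Fin 2) F) 1 0 = 0 → (g : Matrix (Fin 2) (Fin 2) F) 0 0 ≠ (g : Matrix (Fin 2) (Fin 2) F) 1 1 →
      Nat.card (Subgroup.centralizer ({g} : Set (Matrix.GeneralLinearGroup (Fin 2) F))) = (Fintype.card F - 1) ^ 2) ∧
    ((∀ (c : F) (v : Fin 2 → F), v ≠ 0 → (g : Matrix (Fin 2) (Fin 2) F).mulVec v ≠ c • v) →
      Nat.card (Subgroup.centralizer ({g} : Set (Matrix.GeneralLinearGroup (Fin 2) F))) = Fintype.card F ^ 2 - 1) := by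
  exact ⟨part1 g, part2 g⟩

end Cfsg.Agent.S2303
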