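import Cfsg.Statements.S2305
import Cfsg.Agent.Lib.Helper44.PSValues
-- import your own Cfsg.Agent.* helpers here

set_option autoImplicit false
open Cfsg

namespace Cfsg.Agent.S2305

open Cfsg.Agent.Lib.Helper44 Matrix

theorem symm {F : Type*} [Field F] [Fintype F] [DecidableEq F] (α β : MulChar F ℂ) :
    indFun (upperTriangularGL 2 F) (borelHomGL α β) = indFun (upperTriangularGL 2 F) (borelHomGL β α) := by
  ext g
  by_cases h10 : (g : Matrix (Fin 2) (Fin 2) F) 1 0 = 0
  · obtain ⟨⟨a, d, x⟩, hp⟩ := triGL_bijective.2 ⟨g, mem_upperTriangularGL_two.mpr h10⟩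
    have hg : g = triGL a d x := (congrArg Subtype.val hp).symm
    rw [hg]
    by_cases had : a = d
    · subst had
      rw [indFun_borelGL_tri, indFun_borelGL_tri, mul_comm (α a) (β a)]
    · rw [indFun_borelGL_tri_ne _ _ had, indFun_borelGL_tri_ne _ _ had]
      ring
  · rw [indFun_borelGL_apply, indFun_borelGL_apply, if_neg h10, if_neg h10, zero_add, zero_add]
    set s := ((g : Matrix (Fin 2) (Fin 2) F) 0 0 - (g : Matrix (Fin 2) (Fin 2) F) 1 1) / (g : Matrix (Fin 2) (Fin 2) F) 1 0 with hs
    rw [← Equiv.sum_comp (Equiv.subLeft s)]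
    apply Finset.sum_congr rfl
    intro c _
    have e1 : Qf (g : Matrix (Fin 2) (Fin 2) F) (Equiv.subLeft s c) 1 = Qf (g : Matrix (Fin 2) (Fin 2) F) c 1 := by
      simp only [Equiv.subLeft_apply, Qf, hs]
      field_simp
      ring
    have e2 : (g : Matrix (Fin 2) (Fin 2) F) 1 0 * (Equiv.subLeft s c) + (g : Matrix (Fin 2) (Fin 2) F) 1 1 =
        (g : Matrix (Fin 2) (Fin 2) F) 0 0 - c * (g : Matrix (Fin 2) (Fin 2) F) 1 0 := by
      simp only [Equiv.subLeft_apply, hs]
      field_simp
      ring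
    have e3 : (g : Matrix (Fin 2) (Fin 2) F) 0 0 - (Equiv.subLeft s c) * (g : Matrix (Fin 2) (Fin 2) F) 1 0 =
        (g : Matrix (Fin 2) (Fin 2) F) 1 0 * c + (g : Matrix (Fin 2) (Fin 2) F) 1 1 := by
      simp only [Equiv.subLeft_apply, hs]
      field_simp
      ring
    rw [e1, e2, e3, mul_comm]

/-- The character `(a, d) ↦ α a * β d` of `Fˣ × Fˣ`. -/
noncomputable def prodHom {F : Type*} [Field F] (α β : MulChar F ℂ) : Fˣ × Fˣ →* ℂ where
  toFun p := α (p.1 : F) * β (p.2 : F)
  map_one' := by simp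
  map_mul' p q := by simp only [Prod.fst_mul, Prod.snd_mul, Units.val_mul, map_mul]; ring

theorem prodHom_inj {F : Type*} [Field F] {α β α' β' : MulChar F ℂ} (h : prodHom α β = prodHom α' β') :
    α = α' ∧ β = β' := by
  constructor
  · apply MulChar.ext
    intro a
    have := DFunLike.congr_fun h (a, 1)
    simpa [prodHom] using this
  · apply MulChar.ext
    intro a
    have := DFunLike.congr_fun h (1, a)
    simpa [prodHom] using this

theorem dedekind {M : Type*} [Monoid M] (f₁ f₂ f₃ f₄ : M →* ℂ)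
    (h : ∀ x, f₁ x + f₂ x = f₃ x + f₄ x) : f₁ = f₃ ∨ f₁ = f₄ := by
  classical
  have hli := linearIndependent_monoidHom M ℂ
  rw [linearIndependent_iff] at hli
  have := hli (Finsupp.single f₁ 1 + Finsupp.single f₂ 1 - Finsupp.single f₃ 1 - Finsupp.single f₄ 1) (by
    simp only [map_sub, map_add, Finsupp.linearCombination_single, one_smul]
    ext x
    simp only [Pi.sub_apply, Pi.add_apply, Pi.zero_apply]
    linear_combination h x)
  have h1 := DFunLike.congr_fun this f₁
  simp only [Finsupp.coe_sub, Finsupp.coe_add, Pi.sub_apply, Pi.add_apply, Finsupp.single_eq_same,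
    Finsupp.coe_zero, Pi.zero_apply] at h1
  by_contra hc
  simp only [not_or] at hc
  rw [Finsupp.single_eq_of_ne (Ne.symm hc.1).symm, Finsupp.single_eq_of_ne (Ne.symm hc.2).symm] at h1
  by_cases h12 : f₂ = f₁
  · rw [h12, Finsupp.single_eq_same] at h1
    norm_num at h1
  · rw [Finsupp.single_eq_of_ne (Ne.symm h12)] at h1
    norm_num at h1

/-- Over a finite field F, for multiplicative characters α, β, α′, β′ of F, the characters of GL₂ induced from the linear characters b ↦ α(b₁₁) β(b₂₂) and b ↦ α′(b₁₁) β′(b₂₂) of the upper triangular subgroup coincide exactly when {α, β} = {α′, β′} as unordered pairs. -/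
theorem result {F : Type*} [Field F] [Fintype F] [DecidableEq F] (α β α' β' : MulChar F ℂ) :
    Cfsg.indFun (Cfsg.upperTriangularGL 2 F) (fun b => α (((b : Matrix.GeneralLinearGroup (Fin 2) F) : Matrix (Fin 2) (Fin 2) F) 0 0) * β (((b : Matrix.GeneralLinearGroup (Fin 2) F) : Matrix (Fin 2) (Fin 2) F) 1 1)) = Cfsg.indFun (Cfsg.upperTriangularGL 2 F) (fun b => α' (((b : Matrix.GeneralLinearGroup (Fin 2) F) : Matrix (Fin 2) (Fin 2) F) 0 0) * β' (((b : Matrix.GeneralLinearGroup (Fin 2) F) : Matrix (Fin 2) (Fin 2) F) 1 1)) ↔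
      (α = α' ∧ β = β') ∨ (α = β' ∧ β = α') := by
  change indFun (upperTriangularGL 2 F) (borelHomGL α β) = indFun (upperTriangularGL 2 F) (borelHomGL α' β') ↔ _
  constructor
  · intro h
    have key : ∀ p : Fˣ × Fˣ, prodHom α β p + prodHom β α p = prodHom α' β' p + prodHom β' α' p := by
      rintro ⟨a, d⟩
      simp only [prodHom, MonoidHom.coe_mk, OneHom.coe_mk]
      by_cases had : a = d
      · subst had
        have := congrFun h (triGL a a 0)
        rw [indFun_borelGL_scalar, indFun_borelGL_scalar] at this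
        have hq : ((Fintype.card F : ℂ) + 1) ≠ 0 := by
          have : ((Fintype.card F + 1 : ℕ) : ℂ) ≠ 0 := Nat.cast_ne_zero.mpr (Nat.succ_ne_zero _)
          simpa using this
        have h2 := mul_left_cancel₀ hq this
        linear_combination 2 * h2
      · have := congrFun h (triGL a d 0)
        rw [indFun_borelGL_tri_ne _ _ had, indFun_borelGL_tri_ne _ _ had] at this
        linear_combination this
    rcases dedekind _ _ _ _ key with h1 | h1
    · exact Or.inl (prodHom_inj h1)
    · exact Or.inr (prodHom_inj h1)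
  · rintro (⟨rfl, rfl⟩ | ⟨rfl, rfl⟩)
    · rfl
    · exact symm _ _

end Cfsg.Agent.S2305
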