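import Cfsg.Statements.S2306
import Cfsg.Agent.Lib.Helper44.PSInner
import Cfsg.Agent.Lib.Helper44.CharTools
-- import your own Cfsg.Agent.* helpers here

set_option autoImplicit false
open Cfsg

namespace Cfsg.Agent.S2306

open Cfsg.Agent.Lib.Helper44 in
/-- Over a finite field F, for a multiplicative character α of F, the function induced to SL₂ from the linear character b ↦ α(b₁₁) of the upper triangular subgroup is an irreducible character if and only if α² ≠ 1. -/
theorem result {F : Type*} [Field F] [Fintype F] [DecidableEq F] (α : MulChar F ℂ) :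
    Cfsg.IsIrrCharacter (Matrix.SpecialLinearGroup (Fin 2) F) (Cfsg.indFun ((Cfsg.upperTriangularGL 2 F).comap Matrix.SpecialLinearGroup.toGL) (fun b => α (((b : Matrix.SpecialLinearGroup (Fin 2) F) : Matrix (Fin 2) (Fin 2) F) 0 0))) ↔ α ^ 2 ≠ 1 := by
  change IsIrrCharacter _ (indFun (borelSL F) (borelHomSL α)) ↔ _
  have hsq : α = α⁻¹ ↔ α ^ 2 = 1 := by
    rw [eq_inv_iff_mul_eq_one, sq]
  rw [Cfsg.Agent.Lib.Helper20.isIrrCharacter_iff, classInner_PS_SL, if_pos rfl]
  constructor
  · rintro ⟨-, h⟩ h2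
    rw [if_pos (hsq.mpr h2)] at h
    norm_num at h
  · intro h
    refine ⟨Cfsg.Agent.Lib.Helper19.isCharacter_indFun _ _ (isCharacter_monoidHom _), ?_⟩
    rw [if_neg (fun e => h (hsq.mp e)), add_zero]

end Cfsg.Agent.S2306
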