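import Cfsg.Statements.S2307
import Cfsg.Agent.Lib.Helper44.SL2Half

set_option autoImplicit false
open Cfsg

namespace Cfsg.Agent.S2307

open Cfsg.Agent.Lib.Helper44 in
/-- Over a finite field F with q elements, q odd, let α be the multiplicative character of F of order 2. The character of SL₂ induced from the linear character b ↦ α(b₁₁) of the upper triangular subgroup is the sum of two distinct irreducible characters, each of degree (q + 1)/2, which are conjugate under GL₂: some fixed element of GL₂ conjugates the one into the other. -/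
theorem result {F : Type*} [Field F] [Fintype F] [DecidableEq F] (hodd : Odd (Fintype.card F)) (α : MulChar F ℂ)
    (hα : α ^ 2 = 1) (hα1 : α ≠ 1) :
    ∃ χ₁ χ₂ : Matrix.SpecialLinearGroup (Fin 2) F → ℂ, Cfsg.IsIrrCharacter (Matrix.SpecialLinearGroup (Fin 2) F) χ₁ ∧ Cfsg.IsIrrCharacter (Matrix.SpecialLinearGroup (Fin 2) F) χ₂ ∧ χ₁ ≠ χ₂ ∧
      Cfsg.indFun ((Cfsg.upperTriangularGL 2 F).comap Matrix.SpecialLinearGroup.toGL) (fun b => α (((b : Matrix.SpecialLinearGroup (Fin 2) F) : Matrix (Fin 2) (Fin 2) F) 0 0)) = χ₁ + χ₂ ∧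
      χ₁ 1 = (((Fintype.card F + 1) / 2 : ℕ) : ℂ) ∧ χ₂ 1 = (((Fintype.card F + 1) / 2 : ℕ) : ℂ) ∧
      ∃ x : Matrix.GeneralLinearGroup (Fin 2) F, ∀ g h : Matrix.SpecialLinearGroup (Fin 2) F,
        Matrix.SpecialLinearGroup.toGL h = x * Matrix.SpecialLinearGroup.toGL g * x⁻¹ → χ₂ h = χ₁ g := by
  obtain ⟨ψ, hψ⟩ := exists_primitive_addChar F
  obtain ⟨ε, hε⟩ := FiniteField.exists_nonsquare (ringChar_ne_two_of_odd hodd)
  have hε0 : ε ≠ 0 := by rintro rfl; exact hε IsSquare.zero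
  obtain ⟨χ₁, χ₂, h₁, h₂, hR, ⟨a0, a1, a2⟩, ⟨b0, b1, b2⟩, d1, d2⟩ := sl2_half_PS hodd hψ hε α hα hα1
  refine ⟨χ₁, χ₂, h₁, h₂, ?_, hR, d1, d2, triGL (Units.mk0 ε hε0) 1 0, ?_⟩
  · intro e
    rw [e, b1] at a1
    norm_num at a1
  · intro g h hgh
    have key := sl2_twist_eq hodd hψ (ε := Units.mk0 ε hε0) hε h₁ h₂ (by rw [a0, b0]) (by rw [a1]; exact b2.symm)
      (by rw [b1]; exact a2) (by rw [a1]; intro e; rw [Units.val_mk0, a2] at e; norm_num at e)
    rw [← toGL_twist] at hgh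
    have hh : h = twist (Units.mk0 ε hε0) g := by
      apply Subtype.ext
      have := congrArg (fun z : Matrix.GeneralLinearGroup (Fin 2) F => (z : Matrix (Fin 2) (Fin 2) F)) hgh
      exact this
    rw [hh, key]

end Cfsg.Agent.S2307
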