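import Cfsg.Statements.S2308
import Cfsg.Agent.Lib.Helper44.Elliptic
-- import your own Cfsg.Agent.* helpers here

set_option autoImplicit false
open Cfsg

namespace Cfsg.Agent.S2308

open Cfsg.Agent.Lib.Helper44 in
/-- Values of the permutation character of GL₂ over a finite field F with q elements on the cosets of its upper triangular subgroup (equivalently, the number of lines of F² that an element maps to themselves): q + 1 at a scalar matrix, 2 at a diagonal matrix with two different diagonal entries, 0 at an element with no eigenvector in F², and 1 at an upper triangular matrix with equal diagonal entries and non-zero upper right entry. -/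
theorem result {F : Type*} [Field F] [Fintype F] (g : Matrix.GeneralLinearGroup (Fin 2) F) :
    ((∃ a : F, (g : Matrix (Fin 2) (Fin 2) F) = a • (1 : Matrix (Fin 2) (Fin 2) F)) → Cfsg.fixedPointCharacter (Cfsg.upperTriangularGL 2 F) g = Fintype.card F + 1) ∧
    ((g : Matrix (Fin 2) (Fin 2) F) 0 1 = 0 → (g : Matrix (Fin 2) (Fin 2) F) 1 0 = 0 → (g : Matrix (Fin 2) (Fin 2) F) 0 0 ≠ (g : Matrix (Fin 2) (Fin 2) F) 1 1 →
      Cfsg.fixedPointCharacter (Cfsg.upperTriangularGL 2 F) g = 2) ∧
    ((∀ (c : F) (v : Fin 2 → F), v ≠ 0 → (g : Matrix (Fin 2) (Fin 2) F).mulVec v ≠ c • v) → Cfsg.fixedPointCharacter (Cfsg.upperTriangularGL 2 F) g = 0) ∧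
    ((g : Matrix (Fin 2) (Fin 2) F) 1 0 = 0 → (g : Matrix (Fin 2) (Fin 2) F) 0 0 = (g : Matrix (Fin 2) (Fin 2) F) 1 1 → (g : Matrix (Fin 2) (Fin 2) F) 0 1 ≠ 0 →
      Cfsg.fixedPointCharacter (Cfsg.upperTriangularGL 2 F) g = 1) := by
  classical
  have key := fixedPointCharacter_eq_of_transversal (upperTriangularGL 2 F) repGL repGL_transversal g
  simp only [conj_repGL_mem_iff] at key
  rw [key]
  refine ⟨?_, ?_, ?_, ?_⟩
  · rintro ⟨a, ha⟩
    have : ∀ i : Option F, fixPred (g : Matrix (Fin 2) (Fin 2) F) i := by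
      rintro (_ | c)
      · simp [ha]
      · simp [ha, Qf]
    rw [Nat.card_congr (Equiv.subtypeUnivEquiv this), Nat.card_eq_fintype_card, Fintype.card_option]
    push_cast; ring
  · intro h01 h10 hne
    have : ∀ i : Option F, fixPred (g : Matrix (Fin 2) (Fin 2) F) i ↔ i ∈ ({none, some 0} : Finset (Option F)) := by
      rintro (_ | c)
      · simp [h10]
      · simp [Qf, h10, h01, sub_eq_zero, hne.symm]
    rw [Nat.card_congr (Equiv.subtypeEquivRight this), Nat.card_eq_fintype_card, Fintype.card_coe]
    simp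
  · intro hell
    have hell' : Elliptic (g : Matrix (Fin 2) (Fin 2) F) := hell
    have : ∀ i : Option F, ¬ fixPred (g : Matrix (Fin 2) (Fin 2) F) i := by
      rintro (_ | c)
      · have := Qf_ne_zero_of_elliptic hell' (x := 1) (y := 0) (Or.inl one_ne_zero)
        simpa [Qf] using this
      · exact Qf_ne_zero_of_elliptic hell' (Or.inr one_ne_zero)
    have : IsEmpty {i : Option F // fixPred (g : Matrix (Fin 2) (Fin 2) F) i} := ⟨fun i => this i.1 i.2⟩
    simp
  · intro h10 heq hne
    have : ∀ i : Option F, fixPred (g : Matrix (Fin 2) (Fin 2) F) i ↔ i ∈ ({none} : Finset (Option F)) := by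
      rintro (_ | c)
      · simp [h10]
      · simp [Qf, h10, heq, hne]
    rw [Nat.card_congr (Equiv.subtypeEquivRight this), Nat.card_eq_fintype_card, Fintype.card_coe]
    simp

end Cfsg.Agent.S2308
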