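import Cfsg.Statements.S2309
import Cfsg.Agent.Lib.Helper44.GL2PS

set_option autoImplicit false
open Cfsg

namespace Cfsg.Agent.S2309

open Cfsg.Agent.Lib.Helper44 in
/-- Over a finite field F with q elements: every irreducible complex character of GL₂ of degree q − 1 vanishes at every diagonal matrix with two distinct entries, and every irreducible complex character of degree q + 1 vanishes at every element with no eigenvector in F². -/
theorem result {F : Type*} [Field F] [Fintype F] (χ : Matrix.GeneralLinearGroup (Fin 2) F → ℂ) (hχ : Cfsg.IsIrrCharacter (Matrix.GeneralLinearGroup (Fin 2) F) χ) (g : Matrix.GeneralLinearGroup (Fin 2) F) :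
    (χ 1 = (Fintype.card F : ℂ) - 1 → (g : Matrix (Fin 2) (Fin 2) F) 0 1 = 0 → (g : Matrix (Fin 2) (Fin 2) F) 1 0 = 0 → (g : Matrix (Fin 2) (Fin 2) F) 0 0 ≠ (g : Matrix (Fin 2) (Fin 2) F) 1 1 → χ g = 0) ∧
    (χ 1 = (Fintype.card F : ℂ) + 1 → (∀ (c : F) (v : Fin 2 → F), v ≠ 0 → (g : Matrix (Fin 2) (Fin 2) F).mulVec v ≠ c • v) → χ g = 0) := by
  classical
  obtain ⟨m₀, m₁, hm, hm0, hdeg, -, hlin⟩ := gl2_types hχ
  have hch := Cfsg.Agent.Lib.Helper82.isIrr_isChar hχ
  obtain ⟨r, hr, hsum, hreg⟩ := gl2_exists_r hch
  rw [hm0] at hsum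
  have hsum' : m₀ = ∑ p, r p := by exact_mod_cast hsum
  have key : ∀ k : ℕ, (Fintype.card F : ℂ) = k → Fintype.card F = k := by
    intro k hk
    exact_mod_cast hk
  have hq : 1 < Fintype.card F := Fintype.one_lt_card
  constructor
  · intro h1 h01 h10 hne
    obtain ⟨a, d, ha, hd, hg⟩ := gl2_eq_triGL h10
    rw [h01] at hg
    have had : a ≠ d := by
      intro e
      apply hne
      rw [← ha, ← hd, e]
    interval_cases m₁
    · exfalso
      have h2 := hlin rfl
      rw [h2] at h1
      have h3 := key 2 (by push_cast; linear_combination -h1)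
      have h4 : Fintype.card Fˣ = 1 := by rw [Fintype.card_units, h3]
      have := Fintype.card_le_one_iff_subsingleton.mp h4.le
      exact had (Subsingleton.elim _ _)
    · have h2 : (m₀ : ℂ) = 0 := by rw [h1] at hdeg; push_cast at hdeg; linear_combination -hdeg
      have h3 : m₀ = 0 := by exact_mod_cast h2
      rw [h3] at hsum'
      have h4 : ∀ p, r p = 0 := by
        intro p
        exact (Finset.sum_eq_zero_iff.mp hsum'.symm) p (Finset.mem_univ _)
      rw [hg, hreg a d had]
      simp [h4]
  · intro h1 hell
    have hell' : Elliptic (g : Matrix (Fin 2) (Fin 2) F) := hell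
    interval_cases m₁
    · exfalso
      have h2 := hlin rfl
      rw [h2] at h1
      have h3 := key 0 (by push_cast; linear_combination -h1)
      omega
    · have h2 : (m₀ : ℂ) = 2 := by rw [h1] at hdeg; push_cast at hdeg; linear_combination -hdeg
      have h3 : m₀ = 2 := by exact_mod_cast h2
      have h4 : ∃ p, r p ≠ 0 := by
        by_contra hcon
        push Not at hcon
        rw [h3] at hsum'
        simp [hcon] at hsum'
      obtain ⟨p, hp⟩ := h4
      obtain ⟨φ, hφ, hR⟩ := gl2_exists_add_of_r hχ (α := p.1) (β := p.2) (by rw [hr]; exact_mod_cast hp)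
      have h5 : φ 1 = 0 := by
        have := congrFun hR 1
        rw [RGL_one, Pi.add_apply, h1] at this
        linear_combination -this
      have h6 := isCharacter_eq_zero_of_degree hφ h5
      have h7 := congrFun hR g
      rw [indFun_borelGL_elliptic _ _ hell', h6] at h7
      simpa using h7.symm

end Cfsg.Agent.S2309
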