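import Cfsg.Statements.S2310
import Cfsg.Agent.Lib.Helper44.GL2Types

set_option autoImplicit false
open Cfsg

namespace Cfsg.Agent.S2310

/-- Over a finite field F with q ≥ 3 elements, let u be the upper unitriangular matrix of GL₂ with off-diagonal entry 1. An irreducible complex character χ of GL₂ takes at u the value 1 if χ has degree 1 or q + 1, the value −1 if χ has degree q − 1, and the value 0 if χ has degree q. -/
theorem result {F : Type*} [Field F] [Fintype F] (hq : 3 ≤ Fintype.card F) (χ : Matrix.GeneralLinearGroup (Fin 2) F → ℂ) (hχ : Cfsg.IsIrrCharacter (Matrix.GeneralLinearGroup (Fin 2) F) χ)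
    (u : Matrix.GeneralLinearGroup (Fin 2) F) (hu : (u : Matrix (Fin 2) (Fin 2) F) = !![1, 1; 0, 1]) :
    (χ 1 = 1 → χ u = 1) ∧ (χ 1 = (Fintype.card F : ℂ) + 1 → χ u = 1) ∧
    (χ 1 = (Fintype.card F : ℂ) - 1 → χ u = -1) ∧ (χ 1 = (Fintype.card F : ℂ) → χ u = 0) := by
  classical
  obtain ⟨m₀, m₁, hm, -, hdeg, hval, hlin⟩ := Cfsg.Agent.Lib.Helper44.gl2_types hχ
  have hu' : u = Cfsg.Agent.Lib.Helper44.triGL 1 1 1 := by
    apply Units.ext
    rw [hu]
    simp
  have hv := hval 1 one_ne_zero
  rw [← hu'] at hv
  have hq' : (3 : ℝ) ≤ (Fintype.card F : ℝ) := by exact_mod_cast hq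
  have key : ∀ k : ℕ, (Fintype.card F : ℂ) = k → Fintype.card F = k := by
    intro k hk
    exact_mod_cast hk
  interval_cases m₁
  · have h1 := hlin rfl
    have hm0 : (m₀ : ℂ) = 1 := by rw [h1] at hdeg; simpa using hdeg.symm
    refine ⟨fun _ => ?_, fun h => ?_, fun h => ?_, fun h => ?_⟩
    · rw [hv, hm0]; simp
    · exfalso
      rw [h1] at h
      have := key 0 (by linear_combination -h)
      omega
    · exfalso
      rw [h1] at h
      have := key 2 (by push_cast; linear_combination -h)
      omega
    · exfalso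
      rw [h1] at h
      have := key 1 (by push_cast; linear_combination -h)
      omega
  · refine ⟨fun h => ?_, fun h => ?_, fun h => ?_, fun h => ?_⟩
    · exfalso
      rw [h] at hdeg
      have h2 : ((m₀ + Fintype.card F : ℕ) : ℂ) = ((2 : ℕ) : ℂ) := by
        push_cast; linear_combination -hdeg
      have h3 : m₀ + Fintype.card F = 2 := by exact_mod_cast h2
      omega
    · rw [hv]; push_cast; rw [h] at hdeg; linear_combination -hdeg
    · rw [hv]; push_cast; rw [h] at hdeg; linear_combination -hdeg
    · rw [hv]; push_cast; rw [h] at hdeg; linear_combination -hdeg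

end Cfsg.Agent.S2310
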