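import Cfsg.Statements.S2318
import Cfsg.Agent.Lib.Helper23.SDCMain
import Cfsg.Agent.Lib.Helper23.SDCDZ
import Cfsg.Agent.Lib.Helper78.DFZ.BR2
import Cfsg.Agent.Lib.Helper44.StOrder
import Cfsg.Agent.S2311
import Cfsg.Agent.S2327

set_option autoImplicit false
open Cfsg

namespace Cfsg.Agent.S2318

/-- In a Chevalley group of type G₂, B₂, D₄, F₄, E₆, E₇ or E₈ over a finite field of characteristic p (for types G₂ and B₂ the field is assumed to have at least 3 elements, so that the group is perfect), the Steinberg character is the only irreducible complex character whose degree is divisible by the full power of p dividing the group order (the only irreducible character of p-defect zero). -/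
theorem result {F : Type*} [Field F] [Fintype F] (p : ℕ) [Fact p.Prime] [CharP F p] (D : Cfsg.Lie.ChevalleyDatum) (hD : D ∈ [Cfsg.Lie.chevG2, Cfsg.Lie.chevB2, Cfsg.Lie.chevD4, Cfsg.Lie.chevF4, Cfsg.Lie.chevE6, Cfsg.Lie.chevE7, Cfsg.Lie.chevE8]) (hq : (D = Cfsg.Lie.chevG2 ∨ D = Cfsg.Lie.chevB2) → 3 ≤ Fintype.card F)
    (χ : ↥(D.group F) → ℂ) (hχ : Cfsg.IsIrrCharacter ↥(D.group F) χ)
    (hdeg : ∃ d : ℕ, χ 1 = (d : ℂ) ∧ p ^ (Nat.card ↥(D.group F)).factorization p ∣ d) :
    χ = D.steinbergCharacter F := by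
  classical
  have hp : p.Prime := Fact.out
  have b := Cfsg.Agent.Lib.Helper23.bundle_of_mem F hD
  haveI : Fintype ↥(D.group F) := Fintype.ofFinite _
  obtain ⟨M, hM⟩ := Cfsg.Agent.Lib.Helper78.exists_isPModular hp
  -- the two hypotheses on the datum
  have hU : IsPGroup p (Cfsg.Agent.Lib.Helper23.SDC.sdChev hD b).U := by
    obtain ⟨Q, hQ⟩ := Cfsg.Agent.Lib.Helper44.pos_sylow F p hD
    have e : (Cfsg.Agent.Lib.Helper23.SDC.sdChev hD b).U = (Q : Subgroup ↥(D.group F)) := hQ.symm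
    rw [e]
    exact Q.2
  have hT : (Nat.card (Cfsg.Agent.Lib.Helper23.SDC.sdChev hD b).T).Coprime p := by
    have h1 : (Cfsg.Agent.Lib.Helper23.SDC.sdChev hD b).T ≤ (D.diagonalSubgroup F).subgroupOf (D.group F) :=
      fun t ht => Subgroup.mem_subgroupOf.2 (Cfsg.Agent.Lib.Helper23.SDC.TT_diag hD b t ht)
    have h2 := Subgroup.card_dvd_of_le h1
    rw [Nat.card_congr (Subgroup.subgroupOfEquivOfLe b.hA.diag_le_group).toEquiv] at h2
    exact ((Nat.Prime.coprime_iff_not_dvd hp).2 fun h =>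
      Cfsg.Agent.Lib.Helper44.card_diag_not_dvd F p hD (h.trans h2)).symm
  -- the two characters
  obtain ⟨d, hd1, hd2⟩ := hdeg
  have c1 : Cfsg.charDegree χ = d := by
    unfold Cfsg.charDegree
    rw [hd1, Complex.natCast_re, Nat.floor_natCast]
  have c2 : Cfsg.charDegree (D.steinbergCharacter F) = Fintype.card F ^ (D.nroots / 2) := by
    unfold Cfsg.charDegree
    rw [Cfsg.Agent.S2327.result D hD, ← Nat.cast_pow, Complex.natCast_re, Nat.floor_natCast]
  have hSt : p ^ (Nat.card ↥(D.group F)).factorization p ∣ Fintype.card F ^ (D.nroots / 2) := by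
    obtain ⟨m, hm, hpm⟩ := Cfsg.Agent.Lib.Helper44.card_group_eq F p hD
    have h1 : p ^ (Nat.card ↥(D.group F)).factorization p ∣ Fintype.card F ^ (D.nroots / 2) * m := by
      rw [← hm]; exact Nat.ordProj_dvd _ _
    exact (Nat.Coprime.pow_left _ ((Nat.Prime.coprime_iff_not_dvd hp).2 hpm)).dvd_of_dvd_mul_right h1
  let χ₁ : Cfsg.IrrCharacter ↥(D.group F) := ⟨χ, hχ⟩
  let χ₂ : Cfsg.IrrCharacter ↥(D.group F) := ⟨D.steinbergCharacter F, Cfsg.Agent.S2311.result D hD⟩
  obtain ⟨a1, a2⟩ := Cfsg.Agent.Lib.Helper23.SDC.dz_of_dvd p M hM χ₁ (by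
    show _ ∣ Cfsg.charDegree χ
    rw [c1]; exact hd2)
  obtain ⟨b1, b2⟩ := Cfsg.Agent.Lib.Helper23.SDC.dz_of_dvd p M hM χ₂ (by
    show _ ∣ Cfsg.charDegree (D.steinbergCharacter F)
    rw [c2]; exact hSt)
  have key := Cfsg.Agent.Lib.Helper78.DFZ.unique_defect_zero (Cfsg.Agent.Lib.Helper23.SDC.sdChev hD b) hU hT hM
    {χ₁} {χ₂} a1 b1 a2 b2
  have e : χ₁ = χ₂ := Set.singleton_injective key
  exact congrArg Subtype.val e

end Cfsg.Agent.S2318
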