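import Cfsg.Statements.S2320
import Cfsg.Agent.Lib.Helper44.GL2PS

set_option autoImplicit false
open Cfsg

namespace Cfsg.Agent.S2320

open Cfsg.Agent.Lib.Helper44 in
/-- Over a finite field F with q elements, every irreducible complex character of GL₂ of degree q takes a value of absolute value 1 at every diagonal matrix with two different diagonal entries and at every element with no eigenvector in F². -/
theorem result {F : Type*} [Field F] [Fintype F] (χ : Matrix.GeneralLinearGroup (Fin 2) F → ℂ) (hχ : Cfsg.IsIrrCharacter (Matrix.GeneralLinearGroup (Fin 2) F) χ) (hdeg : χ 1 = (Fintype.card F : ℂ)) (g : Matrix.GeneralLinearGroup (Fin 2) F) :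
    ((g : Matrix (Fin 2) (Fin 2) F) 0 1 = 0 → (g : Matrix (Fin 2) (Fin 2) F) 1 0 = 0 → (g : Matrix (Fin 2) (Fin 2) F) 0 0 ≠ (g : Matrix (Fin 2) (Fin 2) F) 1 1 → ‖χ g‖ = 1) ∧
    ((∀ (c : F) (v : Fin 2 → F), v ≠ 0 → (g : Matrix (Fin 2) (Fin 2) F).mulVec v ≠ c • v) → ‖χ g‖ = 1) := by
  classical
  obtain ⟨m₀, m₁, hm, hm0, hdeg', -, hlin⟩ := gl2_types hχ
  have hch := Cfsg.Agent.Lib.Helper82.isIrr_isChar hχ
  obtain ⟨r, hr, hsum, hreg⟩ := gl2_exists_r hch
  rw [hm0] at hsum
  have hsum' : m₀ = ∑ p, r p := by exact_mod_cast hsum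
  have key : ∀ k : ℕ, (Fintype.card F : ℂ) = k → Fintype.card F = k := by
    intro k hk
    exact_mod_cast hk
  have hq : 1 < Fintype.card F := Fintype.one_lt_card
  have hm1 : m₁ = 1 := by
    interval_cases m₁
    · exfalso
      have h2 := hlin rfl
      rw [h2] at hdeg
      have h3 := key 1 (by push_cast; linear_combination -hdeg)
      omega
    · rfl
  subst hm1
  have h2 : (m₀ : ℂ) = 1 := by rw [hdeg] at hdeg'; push_cast at hdeg'; linear_combination -hdeg'
  have h3 : m₀ = 1 := by exact_mod_cast h2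
  rw [h3] at hsum'
  obtain ⟨p, hp1, hp0⟩ := exists_unique_of_sum_eq_one r hsum'.symm
  constructor
  · intro h01 h10 hne
    obtain ⟨a, d, ha, hd, hg⟩ := gl2_eq_triGL h10
    rw [h01] at hg
    have had : a ≠ d := by
      intro e
      apply hne
      rw [← ha, ← hd, e]
    rw [hg, hreg a d had, Finset.sum_eq_single p]
    · rw [hp1]
      simp [mulChar_norm_unit]
    · intro b _ hb
      rw [hp0 b hb]
      simp
    · intro h; exact absurd (Finset.mem_univ _) h
  · intro hell
    have hell' : Elliptic (g : Matrix (Fin 2) (Fin 2) F) := hell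
    obtain ⟨φ, hφ, hR⟩ := gl2_exists_add_of_r hχ (α := p.1) (β := p.2) (by rw [hr, hp1]; simp)
    have h5 : φ 1 = 1 := by
      have := congrFun hR 1
      rw [RGL_one, Pi.add_apply, hdeg] at this
      linear_combination -this
    have h7 := congrFun hR g
    rw [indFun_borelGL_elliptic _ _ hell', Pi.add_apply] at h7
    have h8 : χ g = - φ g := by linear_combination -h7
    rw [h8, norm_neg]
    have h9 := Cfsg.Agent.Lib.Helper82.isChar_linear_mul_conj hφ h5 g
    rw [Complex.mul_conj, Complex.normSq_eq_norm_sq] at h9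
    have h10 : ‖φ g‖ ^ 2 = 1 := by exact_mod_cast h9
    have h11 : 0 ≤ ‖φ g‖ := norm_nonneg _
    nlinarith

end Cfsg.Agent.S2320
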