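import Cfsg.Statements.S2322
import Cfsg.Agent.Lib.Helper44.SL2Half

set_option autoImplicit false
open Cfsg

namespace Cfsg.Agent.S2322

open Cfsg.Agent.Lib.Helper44 Matrix in
/-- The two characters of degree `(q+1)/2` vanish at elliptic elements. -/
theorem half_elliptic {F : Type*} [Field F] [Fintype F] [DecidableEq F] (hodd : Odd (Fintype.card F))
    {ψ : AddChar F ℂ} (hψ : ψ.IsPrimitive) {ε : F} (hε : ¬ IsSquare ε)
    {χ : SpecialLinearGroup (Fin 2) F → ℂ} (hχ : IsIrrCharacter _ χ) (h0 : mS ψ uSLc χ 0 = 1)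
    (h12 : (mS ψ uSLc χ 1 = 1 ∧ mS ψ uSLc χ ε = 0) ∨ (mS ψ uSLc χ 1 = 0 ∧ mS ψ uSLc χ ε = 1))
    {g : SpecialLinearGroup (Fin 2) F} (hell : Elliptic (g : Matrix (Fin 2) (Fin 2) F)) : χ g = 0 := by
  have hF := ringChar_ne_two_of_odd hodd
  have hε0 : ε ≠ 0 := by rintro rfl; exact hε IsSquare.zero
  obtain ⟨χ₁, χ₂, h₁, h₂, hR, ⟨a0, a1, a2⟩, ⟨b0, b1, b2⟩, -, -⟩ := sl2_half_PS hodd hψ hε
    ((quadraticChar F).ringHomComp (Int.castRingHom ℂ)) ((quadraticChar_isQuadratic F).comp _).sq_eq_one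
    ((MulChar.ringHomComp_ne_one_iff (Int.cast_injective)).mpr (quadraticChar_ne_one hF))
  have key := sl2_twist_eq hodd hψ (ε := Units.mk0 ε hε0) hε h₁ h₂ (by rw [a0, b0]) (by rw [a1]; exact b2.symm)
      (by rw [b1]; exact a2) (by rw [a1]; intro e; rw [Units.val_mk0, a2] at e; norm_num at e)
  have hconj : IsConj g (twist (Units.mk0 ε hε0) g) :=
    sl2_isConj_of_gl2_conj_elliptic hodd (toGL_twist (Units.mk0 ε hε0) g) hell
  have hcl := Cfsg.Agent.Lib.Helper20.isClassFunction_of_isCharacter (Cfsg.Agent.Lib.Helper82.isIrr_isChar h₂)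
  have e1 : χ₁ g = χ₂ g := by
    rw [key, Cfsg.Agent.Lib.Helper20.isClassFunction_isConj hcl hconj]
  have e2 := congrFun hR g
  rw [indFun_borelSL_elliptic _ hell, Pi.add_apply, e1] at e2
  have e3 : χ₂ g = 0 := by linear_combination (-1 / 2 : ℂ) * e2
  rcases h12 with ⟨c1, c2⟩ | ⟨c1, c2⟩
  · rw [sl2_odd_eq_of_type hodd hψ hε hχ h₁ (by rw [h0, a0]) (by rw [c1, a1]) (by rw [c2, a2])
      (by rw [c1, c2]; norm_num), e1, e3]
  · rw [sl2_odd_eq_of_type hodd hψ hε hχ h₂ (by rw [h0, b0]) (by rw [c1, b1]) (by rw [c2, b2])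
      (by rw [c1, c2]; norm_num), e3]

open Cfsg.Agent.Lib.Helper44 in
/-- Over a finite field F with q elements, q odd: every irreducible complex character of SL₂ of degree q − 1 or (q − 1)/2 vanishes at every diagonal matrix whose diagonal entry a has a² ≠ 1, and every irreducible complex character of degree q + 1 or (q + 1)/2 vanishes at every element with no eigenvector in F². -/
theorem result {F : Type*} [Field F] [Fintype F] (hodd : Odd (Fintype.card F)) (χ : Matrix.SpecialLinearGroup (Fin 2) F → ℂ) (hχ : Cfsg.IsIrrCharacter (Matrix.SpecialLinearGroup (Fin 2) F) χ) (g : Matrix.SpecialLinearGroup (Fin 2) F) :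
    ((χ 1 = (Fintype.card F : ℂ) - 1 ∨ χ 1 = (((Fintype.card F - 1) / 2 : ℕ) : ℂ)) →
      (g : Matrix (Fin 2) (Fin 2) F) 0 1 = 0 → (g : Matrix (Fin 2) (Fin 2) F) 1 0 = 0 → (g : Matrix (Fin 2) (Fin 2) F) 0 0 ^ 2 ≠ 1 → χ g = 0) ∧
    ((χ 1 = (Fintype.card F : ℂ) + 1 ∨ χ 1 = (((Fintype.card F + 1) / 2 : ℕ) : ℂ)) →
      (∀ (c : F) (v : Fin 2 → F), v ≠ 0 → (g : Matrix (Fin 2) (Fin 2) F).mulVec v ≠ c • v) → χ g = 0) := by
  classical
  obtain ⟨ψ, hψ⟩ := exists_primitive_addChar F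
  have hF := ringChar_ne_two_of_odd hodd
  obtain ⟨ε, hε⟩ := FiniteField.exists_nonsquare hF
  obtain ⟨m₀, a, b, d0, d1, d2, htype, hdeg, hval, -, hPS, g1, g2, g3, g4, g5, g6, g7⟩ := sl2_odd_data hodd hψ hε
  obtain ⟨-, c2, -, c4, -, -, -, -⟩ := odd_counts (Fintype.card F) hodd m₀ a b htype g1 g2 g3 g4 g5 g6 g7
  have hq : 1 < Fintype.card F := Fintype.one_lt_card
  have hodd' := hodd
  obtain ⟨k, hk⟩ := hodd'
  have hch := Cfsg.Agent.Lib.Helper82.isIrr_isChar hχ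
  have hc1 : (Fintype.card F : ℂ) + 1 = ((Fintype.card F + 1 : ℕ) : ℂ) := by push_cast; ring
  have hc2 : (Fintype.card F : ℂ) - 1 = ((Fintype.card F - 1 : ℕ) : ℂ) := by
    rw [Nat.cast_sub (by omega)]; simp
  rw [hc1, hc2]
  have D := hdeg ⟨χ, hχ⟩
  change χ 1 = _ at D
  rw [D]
  constructor
  · intro hd h01 h10 hne
    obtain ⟨t, ht, hg⟩ := sl2_eq_triSL h10
    rw [h01] at hg
    have had : t ≠ t⁻¹ := by
      intro e
      apply hne
      rw [← ht, sq]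
      have : t * t = 1 := by
        nth_rewrite 2 [e]
        simp
      have h2 := congrArg Units.val this
      simpa using h2
    have hq5 : 5 ≤ Fintype.card F := by
      by_contra hlt
      have h3 : Fintype.card F = 3 := by omega
      apply hne
      have h4 : t ^ Fintype.card Fˣ = 1 := pow_card_eq_one
      rw [Fintype.card_units, h3] at h4
      have h5 := congrArg Units.val h4
      rw [← ht]
      simpa using h5
    have hm : m₀ ⟨χ, hχ⟩ = 0 := by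
      have hd' : m₀ ⟨χ, hχ⟩ + (Fintype.card F - 1) / 2 * (a ⟨χ, hχ⟩ + b ⟨χ, hχ⟩) = Fintype.card F - 1 ∨
          m₀ ⟨χ, hχ⟩ + (Fintype.card F - 1) / 2 * (a ⟨χ, hχ⟩ + b ⟨χ, hχ⟩) = (Fintype.card F - 1) / 2 := by
        rcases hd with hd | hd
        · left; exact_mod_cast hd
        · right; exact_mod_cast hd
      rcases htype ⟨χ, hχ⟩ with ⟨h0, h1, h2⟩ | ⟨h0, h1, h2⟩ | ⟨h0, h1, h2⟩ | ⟨h0, h1, h2⟩ | ⟨h0, h1, h2⟩ | ⟨h0, h1, h2⟩ |
        ⟨h0, h1, h2⟩ | ⟨h0, h1, h2⟩ <;> rw [h0, h1, h2] at hd' <;> first | exact h0 | (exfalso; omega)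
    obtain ⟨r, -, hsum, hreg⟩ := sl2_exists_r ψ hch
    have e0 := d0 ⟨χ, hχ⟩
    change mS ψ uSLc χ 0 = _ at e0
    rw [e0, hm] at hsum
    have hsum' : ∑ α, r α = 0 := by exact_mod_cast hsum.symm
    have h4 : ∀ p, r p = 0 := fun p => (Finset.sum_eq_zero_iff.mp hsum') p (Finset.mem_univ _)
    rw [hg, hreg t had]
    simp [h4]
  · intro hd hell
    have hell' : Elliptic (g : Matrix (Fin 2) (Fin 2) F) := hell
    have hd' : m₀ ⟨χ, hχ⟩ + (Fintype.card F - 1) / 2 * (a ⟨χ, hχ⟩ + b ⟨χ, hχ⟩) = Fintype.card F + 1 ∨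
        m₀ ⟨χ, hχ⟩ + (Fintype.card F - 1) / 2 * (a ⟨χ, hχ⟩ + b ⟨χ, hχ⟩) = (Fintype.card F + 1) / 2 := by
      rcases hd with hd | hd
      · left; exact_mod_cast hd
      · right; exact_mod_cast hd
    have e0 := d0 ⟨χ, hχ⟩
    have e1 := d1 ⟨χ, hχ⟩
    have e2 := d2 ⟨χ, hχ⟩
    change mS ψ uSLc χ 0 = _ at e0
    change mS ψ uSLc χ 1 = _ at e1
    change mS ψ uSLc χ ε = _ at e2
    rcases htype ⟨χ, hχ⟩ with ⟨h0, h1, h2⟩ | ⟨h0, h1, h2⟩ | ⟨h0, h1, h2⟩ | ⟨h0, h1, h2⟩ | ⟨h0, h1, h2⟩ | ⟨h0, h1, h2⟩ |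
        ⟨h0, h1, h2⟩ | ⟨h0, h1, h2⟩
    · exfalso; rw [h0, h1, h2] at hd'; omega
    · exfalso; rw [h0, h1, h2] at hd'; omega
    · exfalso; rw [h0, h1, h2] at hd'; omega
    · -- the exceptional case `q = 3`
      rw [h0, h1, h2] at hd'
      have hq3 : Fintype.card F = 3 := by omega
      have hY : ∃ Y : IrrSL F, m₀ Y = 0 ∧ a Y = 1 ∧ b Y = 0 := by
        by_contra hcon
        push Not at hcon
        unfold cntT at c2
        rw [Finset.sum_eq_zero] at c2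
        · omega
        · intro x _
          rw [if_neg]
          rintro ⟨k0, k1, k2⟩
          exact hcon x k0 k1 k2
      obtain ⟨Y, y0, y1, y2⟩ := hY
      have hY1 : (Y : Matrix.SpecialLinearGroup (Fin 2) F → ℂ) 1 = 1 := by
        rw [hdeg Y, y0, y1, y2, hq3]; norm_num
      have hYch := Cfsg.Agent.Lib.Helper82.isIrr_isChar Y.2
      have hZ := Cfsg.Agent.Lib.Helper82.isIrr_linear_mul hYch hY1 hχ
      have hZg : ((Y : Matrix.SpecialLinearGroup (Fin 2) F → ℂ) * χ) g = 0 := by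
        have DZ := hdeg ⟨_, hZ⟩
        change ((Y : Matrix.SpecialLinearGroup (Fin 2) F → ℂ) * χ) 1 = _ at DZ
        rw [Pi.mul_apply, hY1, D, h0, h1, h2, hq3] at DZ
        have DZ' : 1 * (0 + (3 - 1) / 2 * (1 + 1)) = m₀ ⟨_, hZ⟩ + (3 - 1) / 2 * (a ⟨_, hZ⟩ + b ⟨_, hZ⟩) := by
          exact_mod_cast DZ
        have z0 := d0 ⟨_, hZ⟩
        have z1 := d1 ⟨_, hZ⟩
        have z2 := d2 ⟨_, hZ⟩
        change mS ψ uSLc ((Y : Matrix.SpecialLinearGroup (Fin 2) F → ℂ) * χ) 0 = _ at z0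
        change mS ψ uSLc ((Y : Matrix.SpecialLinearGroup (Fin 2) F → ℂ) * χ) 1 = _ at z1
        change mS ψ uSLc ((Y : Matrix.SpecialLinearGroup (Fin 2) F → ℂ) * χ) ε = _ at z2
        rcases htype ⟨_, hZ⟩ with ⟨k0, k1, k2⟩ | ⟨k0, k1, k2⟩ | ⟨k0, k1, k2⟩ | ⟨k0, k1, k2⟩ | ⟨k0, k1, k2⟩ | ⟨k0, k1, k2⟩ |
          ⟨k0, k1, k2⟩ | ⟨k0, k1, k2⟩
        · exfalso; rw [k0, k1, k2] at DZ'; omega
        · exfalso; rw [k0, k1, k2] at DZ'; omega
        · exfalso; rw [k0, k1, k2] at DZ'; omega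
        · exfalso
          rw [hq3] at c4
          have heq : (⟨_, hZ⟩ : IrrSL F) = ⟨χ, hχ⟩ := eq_of_cntT_eq_one c4 ⟨k0, k1, k2⟩ ⟨h0, h1, h2⟩
          have heq' : (Y : Matrix.SpecialLinearGroup (Fin 2) F → ℂ) * χ = χ := congrArg Subtype.val heq
          have hu := congrFun heq' (uSL 1)
          rw [Pi.mul_apply] at hu
          have v1 := hval ⟨χ, hχ⟩
          have v2 := hval Y
          change 2 * χ (uSL 1) = _ at v1
          rw [h0, h1, h2] at v1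
          rw [y0, y1, y2] at v2
          push_cast at v1 v2
          have v3 : χ (uSL 1) = -1 := by linear_combination (1 / 2 : ℂ) * v1
          rw [v3] at hu
          have v4 : (Y : Matrix.SpecialLinearGroup (Fin 2) F → ℂ) (uSL 1) = 1 := by linear_combination -hu
          rw [v4] at v2
          have v5 : GS ψ = 3 := by linear_combination -v2
          have v6 := GS_sq hF hψ
          rw [v5, hq3] at v6
          norm_num at v6
        · exact half_elliptic hodd hψ hε hZ (by rw [z0, k0]; simp) (Or.inl ⟨by rw [z1, k1]; simp, by rw [z2, k2]; simp⟩) hell'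
        · exact half_elliptic hodd hψ hε hZ (by rw [z0, k0]; simp) (Or.inr ⟨by rw [z1, k1]; simp, by rw [z2, k2]; simp⟩) hell'
        · exfalso; rw [k0, k1, k2] at DZ'; omega
        · exfalso; rw [k0, k1, k2] at DZ'; omega
      rw [Pi.mul_apply] at hZg
      exact (mul_eq_zero.mp hZg).resolve_left (Cfsg.Agent.Lib.Helper82.isChar_linear_ne_zero hYch hY1 g)
    · exact half_elliptic hodd hψ hε hχ (by rw [e0, h0]; simp) (Or.inl ⟨by rw [e1, h1]; simp, by rw [e2, h2]; simp⟩) hell'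
    · exact half_elliptic hodd hψ hε hχ (by rw [e0, h0]; simp) (Or.inr ⟨by rw [e1, h1]; simp, by rw [e2, h2]; simp⟩) hell'
    · exfalso; rw [h0, h1, h2] at hd'; omega
    · obtain ⟨α, hα⟩ := hPS ⟨χ, hχ⟩ h0
      change χ = _ at hα
      rw [hα, indFun_borelSL_elliptic _ hell']

end Cfsg.Agent.S2322
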