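import Cfsg.Statements.S2323
import Cfsg.Agent.Lib.Helper44.SL2OddCount

set_option autoImplicit false
open Cfsg

namespace Cfsg.Agent.S2323

open Cfsg.Agent.Lib.Helper44 in
/-- Over a finite field F with q ≥ 4 elements, let u be the upper unitriangular matrix of SL₂ with off-diagonal entry 1. An irreducible complex character of SL₂ takes at u the value 1 if its degree is q + 1 and the value −1 if its degree is q − 1. -/
theorem result {F : Type*} [Field F] [Fintype F] (hq : 4 ≤ Fintype.card F) (χ : Matrix.SpecialLinearGroup (Fin 2) F → ℂ) (hχ : Cfsg.IsIrrCharacter (Matrix.SpecialLinearGroup (Fin 2) F) χ)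
    (u : Matrix.SpecialLinearGroup (Fin 2) F) (hu : (u : Matrix (Fin 2) (Fin 2) F) = !![1, 1; 0, 1]) :
    (χ 1 = (Fintype.card F : ℂ) + 1 → χ u = 1) ∧ (χ 1 = (Fintype.card F : ℂ) - 1 → χ u = -1) := by
  classical
  obtain ⟨ψ, hψ⟩ := exists_primitive_addChar F
  have hu' : u = uSL 1 := by
    apply Subtype.ext
    rw [hu]
    rfl
  subst hu'
  have hc1 : (Fintype.card F : ℂ) + 1 = ((Fintype.card F + 1 : ℕ) : ℂ) := by push_cast; ring
  have hc2 : (Fintype.card F : ℂ) - 1 = ((Fintype.card F - 1 : ℕ) : ℂ) := by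
    rw [Nat.cast_sub (by omega)]; simp
  rw [hc1, hc2]
  rcases Nat.even_or_odd (Fintype.card F) with heven | hodd
  · have hchar : ringChar F = 2 := FiniteField.even_card_iff_char_two.mpr (Nat.even_iff.mp heven)
    have : CharP F 2 := ringChar.of_eq hchar
    obtain ⟨m₀, m₁, -, -, hm1, hm0, hdeg, hval, -, -, -, -, -, -⟩ := sl2_even_data hψ
    have h3 := hdeg ⟨χ, hχ⟩
    have h4 := hval ⟨χ, hχ⟩ 1 one_ne_zero
    have h5 := hm1 ⟨χ, hχ⟩
    have h6 := hm0 ⟨χ, hχ⟩
    change χ 1 = _ at h3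
    change χ (uSL 1) = _ at h4
    generalize m₀ ⟨χ, hχ⟩ = x at *
    generalize m₁ ⟨χ, hχ⟩ = y at *
    rw [h3, h4]
    constructor
    · intro h
      have h7 : x + (Fintype.card F - 1) * y = Fintype.card F + 1 := by exact_mod_cast h
      interval_cases y
      · omega
      · have : x = 2 := by omega
        subst this
        norm_num
    · intro h
      have h7 : x + (Fintype.card F - 1) * y = Fintype.card F - 1 := by exact_mod_cast h
      interval_cases y
      · omega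
      · have : x = 0 := by omega
        subst this
        norm_num
  · obtain ⟨ε, hε⟩ := FiniteField.exists_nonsquare (ringChar_ne_two_of_odd hodd)
    obtain ⟨m₀, a, b, -, -, -, htype, hdeg, hval, -, -, -, -, -, -, -, -, -⟩ := sl2_odd_data hodd hψ hε
    have h3 := hdeg ⟨χ, hχ⟩
    have h4 := hval ⟨χ, hχ⟩
    have h5 := htype ⟨χ, hχ⟩
    change χ 1 = _ at h3
    change 2 * χ (uSL 1) = _ at h4
    generalize m₀ ⟨χ, hχ⟩ = x at *
    generalize a ⟨χ, hχ⟩ = y at *
    generalize b ⟨χ, hχ⟩ = z at *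
    obtain ⟨k, hk⟩ := hodd
    rw [h3]
    constructor
    · intro h
      have h7 : x + (Fintype.card F - 1) / 2 * (y + z) = Fintype.card F + 1 := by exact_mod_cast h
      rcases h5 with ⟨h0, h1, h2⟩ | ⟨h0, h1, h2⟩ | ⟨h0, h1, h2⟩ | ⟨h0, h1, h2⟩ | ⟨h0, h1, h2⟩ | ⟨h0, h1, h2⟩ |
        ⟨h0, h1, h2⟩ | ⟨h0, h1, h2⟩ <;> subst h0 h1 h2
      all_goals first | (exfalso; omega) | skip
      push_cast at h4
      linear_combination (1 / 2 : ℂ) * h4
    · intro h
      have h7 : x + (Fintype.card F - 1) / 2 * (y + z) = Fintype.card F - 1 := by exact_mod_cast h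
      rcases h5 with ⟨h0, h1, h2⟩ | ⟨h0, h1, h2⟩ | ⟨h0, h1, h2⟩ | ⟨h0, h1, h2⟩ | ⟨h0, h1, h2⟩ | ⟨h0, h1, h2⟩ |
        ⟨h0, h1, h2⟩ | ⟨h0, h1, h2⟩ <;> subst h0 h1 h2
      all_goals first | (exfalso; omega) | skip
      push_cast at h4
      linear_combination (1 / 2 : ℂ) * h4

end Cfsg.Agent.S2323
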