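import Cfsg.Statements.S2324
import Cfsg.Agent.Lib.Helper44.SL2OddCount

set_option autoImplicit false
open Cfsg

namespace Cfsg.Agent.S2324

open Cfsg.Agent.Lib.Helper44 in
/-- Over a finite field F with q elements, q odd and q ≥ 5, let u be the upper unitriangular matrix of SL₂ with off-diagonal entry 1 and let δ = (−1)^((q−1)/2). Every irreducible complex character χ of SL₂ of degree (q + 1)/2 satisfies (2χ(u) − 1)² = δq, and every irreducible complex character χ of degree (q − 1)/2 satisfies (2χ(u) + 1)² = δq; that is, χ(u) = (1 ± √(δq))/2 in the first case and χ(u) = (−1 ± √(δq))/2 in the second. Moreover two different irreducible characters of degree (q + 1)/2 take the two different values (their values at u add up to 1), and likewise for degree (q − 1)/2 (values adding up to −1). -/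
theorem result {F : Type*} [Field F] [Fintype F] (hodd : Odd (Fintype.card F)) (hq : 5 ≤ Fintype.card F)
    (u : Matrix.SpecialLinearGroup (Fin 2) F) (hu : (u : Matrix (Fin 2) (Fin 2) F) = !![1, 1; 0, 1]) :
    (∀ χ : Matrix.SpecialLinearGroup (Fin 2) F → ℂ, Cfsg.IsIrrCharacter (Matrix.SpecialLinearGroup (Fin 2) F) χ → χ 1 = (((Fintype.card F + 1) / 2 : ℕ) : ℂ) → (2 * χ u - 1) ^ 2 = (-1 : ℂ) ^ ((Fintype.card F - 1) / 2) * (Fintype.card F : ℂ)) ∧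
    (∀ χ : Matrix.SpecialLinearGroup (Fin 2) F → ℂ, Cfsg.IsIrrCharacter (Matrix.SpecialLinearGroup (Fin 2) F) χ → χ 1 = (((Fintype.card F - 1) / 2 : ℕ) : ℂ) → (2 * χ u + 1) ^ 2 = (-1 : ℂ) ^ ((Fintype.card F - 1) / 2) * (Fintype.card F : ℂ)) ∧
    (∀ χ₁ χ₂ : Matrix.SpecialLinearGroup (Fin 2) F → ℂ, Cfsg.IsIrrCharacter (Matrix.SpecialLinearGroup (Fin 2) F) χ₁ → Cfsg.IsIrrCharacter (Matrix.SpecialLinearGroup (Fin 2) F) χ₂ → χ₁ ≠ χ₂ →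
      χ₁ 1 = (((Fintype.card F + 1) / 2 : ℕ) : ℂ) → χ₂ 1 = (((Fintype.card F + 1) / 2 : ℕ) : ℂ) → χ₁ u + χ₂ u = 1) ∧
    (∀ χ₁ χ₂ : Matrix.SpecialLinearGroup (Fin 2) F → ℂ, Cfsg.IsIrrCharacter (Matrix.SpecialLinearGroup (Fin 2) F) χ₁ → Cfsg.IsIrrCharacter (Matrix.SpecialLinearGroup (Fin 2) F) χ₂ → χ₁ ≠ χ₂ →
      χ₁ 1 = (((Fintype.card F - 1) / 2 : ℕ) : ℂ) → χ₂ 1 = (((Fintype.card F - 1) / 2 : ℕ) : ℂ) → χ₁ u + χ₂ u = -1) := by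
  classical
  obtain ⟨ψ, hψ⟩ := exists_primitive_addChar F
  have hu' : u = uSL 1 := by
    apply Subtype.ext
    rw [hu]
    rfl
  subst hu'
  have hF := ringChar_ne_two_of_odd hodd
  obtain ⟨ε, hε⟩ := FiniteField.exists_nonsquare hF
  obtain ⟨m₀, a, b, -, -, -, htype, hdeg, hval, -, -, g1, g2, g3, g4, g5, g6, g7⟩ := sl2_odd_data hodd hψ hε
  obtain ⟨-, c2, c3, -, c5, c6, -, -⟩ := odd_counts (Fintype.card F) hodd m₀ a b htype g1 g2 g3 g4 g5 g6 g7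
  rw [← GS_sq hF hψ]
  obtain ⟨k, hk⟩ := hodd
  -- classification by degree
  have key1 : ∀ χ : IrrSL F, (χ : Matrix.SpecialLinearGroup (Fin 2) F → ℂ) 1 = (((Fintype.card F + 1) / 2 : ℕ) : ℂ) →
      (m₀ χ = 1 ∧ a χ = 1 ∧ b χ = 0) ∨ (m₀ χ = 1 ∧ a χ = 0 ∧ b χ = 1) := by
    intro χ h
    rw [hdeg χ] at h
    have h7 : m₀ χ + (Fintype.card F - 1) / 2 * (a χ + b χ) = (Fintype.card F + 1) / 2 := by exact_mod_cast h
    rcases htype χ with ⟨h0, h1, h2⟩ | ⟨h0, h1, h2⟩ | ⟨h0, h1, h2⟩ | ⟨h0, h1, h2⟩ | ⟨h0, h1, h2⟩ | ⟨h0, h1, h2⟩ |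
        ⟨h0, h1, h2⟩ | ⟨h0, h1, h2⟩ <;> rw [h0, h1, h2] at h7 ⊢
    all_goals first | (exfalso; omega) | simp
  have key2 : ∀ χ : IrrSL F, (χ : Matrix.SpecialLinearGroup (Fin 2) F → ℂ) 1 = (((Fintype.card F - 1) / 2 : ℕ) : ℂ) →
      (m₀ χ = 0 ∧ a χ = 1 ∧ b χ = 0) ∨ (m₀ χ = 0 ∧ a χ = 0 ∧ b χ = 1) := by
    intro χ h
    rw [hdeg χ] at h
    have h7 : m₀ χ + (Fintype.card F - 1) / 2 * (a χ + b χ) = (Fintype.card F - 1) / 2 := by exact_mod_cast h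
    rcases htype χ with ⟨h0, h1, h2⟩ | ⟨h0, h1, h2⟩ | ⟨h0, h1, h2⟩ | ⟨h0, h1, h2⟩ | ⟨h0, h1, h2⟩ | ⟨h0, h1, h2⟩ |
        ⟨h0, h1, h2⟩ | ⟨h0, h1, h2⟩ <;> rw [h0, h1, h2] at h7 ⊢
    all_goals first | (exfalso; omega) | simp
  refine ⟨?_, ?_, ?_, ?_⟩
  · intro χ hχ hd
    have h4 := hval ⟨χ, hχ⟩
    change 2 * χ (uSL 1) = _ at h4
    rcases key1 ⟨χ, hχ⟩ hd with ⟨h0, h1, h2⟩ | ⟨h0, h1, h2⟩ <;> rw [h0, h1, h2] at h4 <;> push_cast at h4 <;>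
      rw [h4] <;> ring
  · intro χ hχ hd
    have h4 := hval ⟨χ, hχ⟩
    change 2 * χ (uSL 1) = _ at h4
    rcases key2 ⟨χ, hχ⟩ hd with ⟨h0, h1, h2⟩ | ⟨h0, h1, h2⟩ <;> rw [h0, h1, h2] at h4 <;> push_cast at h4 <;>
      rw [h4] <;> ring
  · intro χ₁ χ₂ hχ₁ hχ₂ hne hd₁ hd₂
    have h4 := hval ⟨χ₁, hχ₁⟩
    have h5 := hval ⟨χ₂, hχ₂⟩
    change 2 * χ₁ (uSL 1) = _ at h4
    change 2 * χ₂ (uSL 1) = _ at h5
    have hne' : (⟨χ₁, hχ₁⟩ : IrrSL F) ≠ ⟨χ₂, hχ₂⟩ := fun e => hne (congrArg Subtype.val e)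
    rcases key1 ⟨χ₁, hχ₁⟩ hd₁ with t1 | t1 <;> rcases key1 ⟨χ₂, hχ₂⟩ hd₂ with t2 | t2
    · exact absurd (eq_of_cntT_eq_one c5 t1 t2) hne'
    · rw [t1.1, t1.2.1, t1.2.2] at h4
      rw [t2.1, t2.2.1, t2.2.2] at h5
      push_cast at h4 h5
      linear_combination (1 / 2 : ℂ) * h4 + (1 / 2 : ℂ) * h5
    · rw [t1.1, t1.2.1, t1.2.2] at h4
      rw [t2.1, t2.2.1, t2.2.2] at h5
      push_cast at h4 h5
      linear_combination (1 / 2 : ℂ) * h4 + (1 / 2 : ℂ) * h5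
    · exact absurd (eq_of_cntT_eq_one c6 t1 t2) hne'
  · intro χ₁ χ₂ hχ₁ hχ₂ hne hd₁ hd₂
    have h4 := hval ⟨χ₁, hχ₁⟩
    have h5 := hval ⟨χ₂, hχ₂⟩
    change 2 * χ₁ (uSL 1) = _ at h4
    change 2 * χ₂ (uSL 1) = _ at h5
    have hne' : (⟨χ₁, hχ₁⟩ : IrrSL F) ≠ ⟨χ₂, hχ₂⟩ := fun e => hne (congrArg Subtype.val e)
    rcases key2 ⟨χ₁, hχ₁⟩ hd₁ with t1 | t1 <;> rcases key2 ⟨χ₂, hχ₂⟩ hd₂ with t2 | t2
    · exact absurd (eq_of_cntT_eq_one c2 t1 t2) hne'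
    · rw [t1.1, t1.2.1, t1.2.2] at h4
      rw [t2.1, t2.2.1, t2.2.2] at h5
      push_cast at h4 h5
      linear_combination (1 / 2 : ℂ) * h4 + (1 / 2 : ℂ) * h5
    · rw [t1.1, t1.2.1, t1.2.2] at h4
      rw [t2.1, t2.2.1, t2.2.2] at h5
      push_cast at h4 h5
      linear_combination (1 / 2 : ℂ) * h4 + (1 / 2 : ℂ) * h5
    · exact absurd (eq_of_cntT_eq_one c3 t1 t2) hne'

end Cfsg.Agent.S2324
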