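import Cfsg.Statements.S2329
import Cfsg.Agent.Lib.Helper44.TwoByTwo
-- import your own Cfsg.Agent.* helpers here

set_option autoImplicit false
open Cfsg

namespace Cfsg.Agent.S2329

open Cfsg.Agent.Lib.Helper44 in
theorem aux {F : Type*} [Field F] (p : ℕ) [Fact p.Prime] [CharP F p] (g : Matrix.GeneralLinearGroup (Fin 2) F)
    (hg : orderOf g = p) : (g : Matrix (Fin 2) (Fin 2) F).trace = 2 ∧ (g : Matrix (Fin 2) (Fin 2) F).det = 1 ∧
      NonScalar (g : Matrix (Fin 2) (Fin 2) F) := by
  have h1 : g ^ p = 1 := hg ▸ pow_orderOf_eq_one g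
  have h2 : (g : Matrix (Fin 2) (Fin 2) F) ^ p = 1 := by
    rw [← Units.val_pow_eq_pow_val, h1]; rfl
  obtain ⟨ht, hd⟩ := unip_of_pow_eq_one p h2
  refine ⟨ht, hd, nonScalar_of_unip_ne_one ht hd ?_⟩
  intro h3
  have : g = 1 := Units.ext h3
  rw [this, orderOf_one] at hg
  exact (Fact.out : p.Prime).one_lt.ne hg

/-- Over a finite field of characteristic p, any two elements of order p of GL₂ are conjugate: there is a single conjugacy class of non-identity unipotent elements. -/
theorem result {F : Type*} [Field F] [Fintype F] (p : ℕ) [Fact p.Prime] [CharP F p] (g h : Matrix.GeneralLinearGroup (Fin 2) F)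
    (hg : orderOf g = p) (hh : orderOf h = p) : IsConj g h := by
  obtain ⟨t1, d1, n1⟩ := aux p g hg
  obtain ⟨t2, d2, n2⟩ := aux p h hh
  exact Cfsg.Agent.Lib.Helper44.gl2_isConj_of_trace_det n1 n2 (t1.trans t2.symm) (d1.trans d2.symm)

end Cfsg.Agent.S2329
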