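import Cfsg.Statements.S2363
-- import your own Cfsg.Agent.* helpers here
import Cfsg.Agent.Lib.Helper45.OrdFam
import Cfsg.Agent.Lib.Helper8.SzLie
import Cfsg.Agent.S0243
import Cfsg.Agent.S0245
import Cfsg.Agent.S0246
import Cfsg.Agent.S0280
import Cfsg.Agent.S0292
import Cfsg.Agent.S0293
import Cfsg.Agent.S0294
import Cfsg.Agent.S0324
import Cfsg.Agent.S1059
import Cfsg.Agent.S1062
import Cfsg.Agent.S1063
import Cfsg.Agent.S1064
import Cfsg.Agent.S1065
import Cfsg.Agent.S1066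
import Cfsg.Agent.S1067
import Cfsg.Agent.S1068
import Cfsg.Agent.S1069

set_option autoImplicit false
open Cfsg

namespace Cfsg.Agent.S2363

open Cfsg.Agent.Lib.Helper45.OrdBound

/-- a finite field of characteristic `p` has `p ^ f` elements, `f ≠ 0` -/
lemma qp_of_field (p : ℕ) (F : Type) [Field F] [Fintype F] [CharP F p] :
    ∃ f, QP p (Fintype.card F) f := by
  obtain ⟨n, hp, hn⟩ := FiniteField.card F p
  exact ⟨n, hp, hn, n.pos.ne'⟩

/-- if the field has `q ^ e` elements then `q` is a proper power of `p` as well -/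
lemma qp_of_pow (p : ℕ) (F : Type) [Field F] [Fintype F] [CharP F p] {q e : ℕ} (he : e ≠ 0)
    (hq : Fintype.card F = q ^ e) : ∃ f, QP p q f := by
  obtain ⟨n, hp, hn⟩ := FiniteField.card F p
  have hd : q ∣ p ^ (n : ℕ) := by rw [← hn, hq]; exact dvd_pow_self q he
  obtain ⟨j, -, rfl⟩ := (Nat.dvd_prime_pow hp).1 hd
  refine ⟨j, hp, rfl, ?_⟩
  rintro rfl
  rw [pow_zero, one_pow] at hq
  have := Fintype.one_lt_card (α := F)
  omega

lemma bd_g2 {p q f c : ℕ} (h : QP p q f) (he : c = q ^ 6 * (q ^ 2 - 1) * (q ^ 6 - 1)) : Bd p c := by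
  refine bd_of h (d := 1) (N := 6) (not_dvd_one h)
    ((fac_sub h (j := 2) (by norm_num)).mul h (fac_sub h (j := 6) (by norm_num))) ?_
    (by norm_num) (by norm_num)
  rw [he]; ring

lemma bd_f4 {p q f c : ℕ} (h : QP p q f)
    (he : c = q ^ 24 * (q ^ 2 - 1) * (q ^ 6 - 1) * (q ^ 8 - 1) * (q ^ 12 - 1)) : Bd p c := by
  refine bd_of h (d := 1) (N := 24) (not_dvd_one h)
    ((((fac_sub h (j := 2) (by norm_num)).mul h (fac_sub h (j := 6) (by norm_num))).mul h
      (fac_sub h (j := 8) (by norm_num))).mul h (fac_sub h (j := 12) (by norm_num))) ?_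
    (by norm_num) (by norm_num)
  rw [he]; ring

lemma bd_e6 {p q f c : ℕ} (h : QP p q f)
    (he : Nat.gcd 3 (q - 1) * c = q ^ 36 * (q ^ 2 - 1) * (q ^ 5 - 1) * (q ^ 6 - 1) * (q ^ 8 - 1) *
      (q ^ 9 - 1) * (q ^ 12 - 1)) : Bd p c := by
  refine bd_of h (N := 36) (not_dvd_gcd_sub' h 3)
    ((((((fac_sub h (j := 2) (by norm_num)).mul h (fac_sub h (j := 5) (by norm_num))).mul h
      (fac_sub h (j := 6) (by norm_num))).mul h (fac_sub h (j := 8) (by norm_num))).mul h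
      (fac_sub h (j := 9) (by norm_num))).mul h (fac_sub h (j := 12) (by norm_num))) ?_
    (by norm_num) (by norm_num)
  rw [he]; ring

lemma bd_e7 {p q f c : ℕ} (h : QP p q f)
    (he : Nat.gcd 2 (q - 1) * c = q ^ 63 * (q ^ 2 - 1) * (q ^ 6 - 1) * (q ^ 8 - 1) * (q ^ 10 - 1) *
      (q ^ 12 - 1) * (q ^ 14 - 1) * (q ^ 18 - 1)) : Bd p c := by
  refine bd_of h (N := 63) (not_dvd_gcd_sub' h 2)
    (((((((fac_sub h (j := 2) (by norm_num)).mul h (fac_sub h (j := 6) (by norm_num))).mul h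
      (fac_sub h (j := 8) (by norm_num))).mul h (fac_sub h (j := 10) (by norm_num))).mul h
      (fac_sub h (j := 12) (by norm_num))).mul h (fac_sub h (j := 14) (by norm_num))).mul h
      (fac_sub h (j := 18) (by norm_num))) ?_
    (by norm_num) (by norm_num)
  rw [he]; ring

lemma bd_e8 {p q f c : ℕ} (h : QP p q f)
    (he : c = q ^ 120 * (q ^ 2 - 1) * (q ^ 8 - 1) * (q ^ 12 - 1) * (q ^ 14 - 1) * (q ^ 18 - 1) *
      (q ^ 20 - 1) * (q ^ 24 - 1) * (q ^ 30 - 1)) : Bd p c := by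
  refine bd_of h (d := 1) (N := 120) (not_dvd_one h)
    ((((((((fac_sub h (j := 2) (by norm_num)).mul h (fac_sub h (j := 8) (by norm_num))).mul h
      (fac_sub h (j := 12) (by norm_num))).mul h (fac_sub h (j := 14) (by norm_num))).mul h
      (fac_sub h (j := 18) (by norm_num))).mul h (fac_sub h (j := 20) (by norm_num))).mul h
      (fac_sub h (j := 24) (by norm_num))).mul h (fac_sub h (j := 30) (by norm_num))) ?_
    (by norm_num) (by norm_num)
  rw [he]; ring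

lemma bd_2e6 {p q f c : ℕ} (h : QP p q f)
    (he : Nat.gcd 3 (q + 1) * c = q ^ 36 * (q ^ 2 - 1) * (q ^ 5 + 1) * (q ^ 6 - 1) * (q ^ 8 - 1) *
      (q ^ 9 + 1) * (q ^ 12 - 1)) : Bd p c := by
  refine bd_of h (N := 36) (not_dvd_gcd_add' h 3)
    ((((((fac_sub h (j := 2) (by norm_num)).mul h (fac_add h (j := 5) (by norm_num))).mul h
      (fac_sub h (j := 6) (by norm_num))).mul h (fac_sub h (j := 8) (by norm_num))).mul h
      (fac_add h (j := 9) (by norm_num))).mul h (fac_sub h (j := 12) (by norm_num))) ?_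
    (by norm_num) (by norm_num)
  rw [he]; ring

lemma fac_d4 {p q f : ℕ} (h : QP p q f) : Fac p q (q ^ 8 + q ^ 4 + 1) 9 := by
  refine ⟨not_dvd_add_one h (dvd_add (dvd_trans h.dvd (dvd_pow_self q (by norm_num)))
    (dvd_trans h.dvd (dvd_pow_self q (by norm_num)))), ?_⟩
  have h2 := h.two_le
  have h4 : 2 ≤ q ^ 4 := le_trans h2 (Nat.le_self_pow (by norm_num) q)
  have h8 : q ^ 8 = q ^ 4 * q ^ 4 := by ring
  have h9 : q ^ 9 = q * q ^ 8 := by ring
  have h10 : 2 * q ^ 8 ≤ q * q ^ 8 := Nat.mul_le_mul_right _ h2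
  have h11 : 2 * q ^ 4 ≤ q ^ 4 * q ^ 4 := Nat.mul_le_mul_right _ h4
  omega

lemma bd_3d4 {p q f c : ℕ} (h : QP p q f)
    (he : c = q ^ 12 * (q ^ 2 - 1) * (q ^ 6 - 1) * (q ^ 8 + q ^ 4 + 1)) : Bd p c := by
  refine bd_of h (d := 1) (N := 12) (not_dvd_one h)
    (((fac_sub h (j := 2) (by norm_num)).mul h (fac_sub h (j := 6) (by norm_num))).mul h
      (fac_d4 h)) ?_ (by norm_num) (by norm_num)
  rw [he]; ring

lemma bd_sz {p q f c : ℕ} (h : QP p q f) (he : c = q ^ 2 * (q ^ 2 + 1) * (q - 1)) : Bd p c := by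
  have hF : Fac p q ((q ^ 1 - 1) * (q ^ (1 + 1) + 1)) (1 + (1 + 1)) := fac_pair h one_ne_zero
  rw [pow_one] at hF
  refine bd_of h (d := 1) (N := 2) (not_dvd_one h) hF ?_ (by norm_num) (by norm_num)
  rw [he]; ring

lemma fac_sub_one {p q f : ℕ} (h : QP p q f) : Fac p q (q - 1) 1 := by
  have := fac_sub h (j := 1) one_ne_zero
  rwa [pow_one] at this

lemma bd_2f4 {p q f c : ℕ} (h : QP p q f)
    (he : c = q ^ 12 * (q - 1) * (q ^ 3 + 1) * (q ^ 4 - 1) * (q ^ 6 + 1)) : Bd p c := by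
  refine bd_of h (d := 1) (N := 12) (not_dvd_one h)
    ((((fac_sub_one h).mul h (fac_add h (j := 3) (by norm_num))).mul h
      (fac_sub h (j := 4) (by norm_num))).mul h (fac_add h (j := 6) (by norm_num))) ?_
    (by norm_num) (by norm_num)
  rw [he]; ring

lemma bd_2g2 {p q f c : ℕ} (h : QP p q f) (he : c = q ^ 3 * (q - 1) * (q ^ 3 + 1)) : Bd p c := by
  refine bd_of h (d := 1) (N := 3) (not_dvd_one h)
    ((fac_sub_one h).mul h (fac_add h (j := 3) (by norm_num))) ?_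
    (by norm_num) (by norm_num)
  rw [he]; ring


/-- Let G be a finite simple group of Lie type in characteristic p and let p^k be the exact power of p dividing the order of G. Then the order of G is less than p^(3k); and unless G is isomorphic to PSL(2, F) for the field F with p^k elements, the cube of the order of G is less than p^(8k) (that is, the order is below p^(8k/3)). -/
theorem result {G : Type*} [Group G] [Finite G] (p : ℕ) (hp : p.Prime) (hG : Cfsg.IsLieTypeChar p G) :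
    Nat.card G < p ^ (3 * (Nat.card G).factorization p) ∧
      ((¬ ∃ (F : Type) (_ : Field F) (_ : Fintype F), Fintype.card F = p ^ (Nat.card G).factorization p ∧
          Nonempty (G ≃* Matrix.ProjectiveSpecialLinearGroup (Fin 2) F)) →
        Nat.card G ^ 3 < p ^ (8 * (Nat.card G).factorization p)) := by
  suffices hmain : Bd p (Nat.card G) ∨ (Nat.card G < p ^ (3 * (Nat.card G).factorization p) ∧
      ∃ (F : Type) (_ : Field F) (_ : Fintype F), Fintype.card F = p ^ (Nat.card G).factorization p ∧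
          Nonempty (G ≃* Matrix.ProjectiveSpecialLinearGroup (Fin 2) F)) by
    rcases hmain with h | ⟨h1, h2⟩
    · exact ⟨h.1, fun _ => h.2⟩
    · exact ⟨h1, fun hn => absurd h2 hn⟩
  rcases hG with hG | hG | hG | hG | hG | hG | hG | hG | hG | hG | hG
  · -- PSL
    obtain ⟨F, _, _, _, n, hn, -, ⟨e⟩⟩ := hG
    obtain ⟨f, hq⟩ := qp_of_field p F
    rw [Nat.card_congr e.toEquiv]
    have ho := Cfsg.Agent.S0243.result (F := F) rfl n hn
    rcases Nat.lt_or_ge 2 n with h3 | h3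
    · exact Or.inl (psl_ge3 hq h3 ho)
    · obtain rfl : n = 2 := le_antisymm h3 hn
      obtain ⟨h1, h2⟩ := psl_two hq ho
      refine Or.inr ⟨h2, F, inferInstance, inferInstance, ?_, ⟨e⟩⟩
      rw [h1]; exact hq.hq
  · -- PSp
    obtain ⟨F, _, _, _, m, hm, -, ⟨e⟩⟩ := hG
    obtain ⟨f, hq⟩ := qp_of_field p F
    rw [Nat.card_congr e.toEquiv]
    left
    have h1 := Cfsg.Agent.S0245.result (F := F) rfl m
    have h2 := Cfsg.Agent.S0246.result (F := F) rfl m (by omega)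
    have h3 := Subgroup.card_eq_card_quotient_mul_card_subgroup
      (Subgroup.center (Matrix.symplecticGroup (Fin m) F))
    refine sp_type hq hm (not_dvd_gcd_sub' hq 2) ?_
    rw [← h1, h3, h2, mul_comm]
  · -- PSU
    obtain ⟨F, _, _, _, n, q, hF, hn, -, ⟨e⟩⟩ := hG
    obtain ⟨f, hq⟩ := qp_of_pow p F two_ne_zero hF
    rw [Nat.card_congr e.toEquiv]
    exact Or.inl (psu_type hq hn (Cfsg.Agent.S0280.result hF n (by omega)))
  · -- odd orthogonal
    obtain ⟨F, _, _, _, m, hm, hodd, ⟨e⟩⟩ := hG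
    obtain ⟨f, hq⟩ := qp_of_field p F
    rw [Nat.card_congr e.toEquiv]
    left
    refine sp_type hq (by omega) ?_ (Cfsg.Agent.S0292.result (F := F) rfl hodd m hm)
    intro hd
    have hp2 : p = 2 := (Nat.prime_dvd_prime_iff_eq hq.hp Nat.prime_two).1 hd
    have : 2 ∣ Fintype.card F := hp2 ▸ hq.dvd
    exact (Nat.not_even_iff_odd.2 hodd) (even_iff_two_dvd.2 this)
  · -- plus
    obtain ⟨F, _, _, _, m, hm, ⟨e⟩⟩ := hG
    obtain ⟨f, hq⟩ := qp_of_field p F
    rw [Nat.card_congr e.toEquiv]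
    exact Or.inl (plus_type hq hm (Cfsg.Agent.S0293.result (F := F) rfl m hm))
  · -- minus
    obtain ⟨F, _, _, _, m, a, b, hm, hab, ⟨e⟩⟩ := hG
    obtain ⟨f, hq⟩ := qp_of_field p F
    rw [Nat.card_congr e.toEquiv]
    exact Or.inl (minus_type hq hm (Cfsg.Agent.S0294.result (F := F) rfl m hm a b hab))
  · -- exceptional
    obtain ⟨F, _, _, _, hG⟩ := hG
    obtain ⟨f, hq⟩ := qp_of_field p F
    left
    rcases hG with ⟨-, ⟨e⟩⟩ | ⟨⟨e⟩⟩ | ⟨⟨e⟩⟩ | ⟨⟨e⟩⟩ | ⟨⟨e⟩⟩
    · rw [Nat.card_congr e.toEquiv]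
      exact bd_g2 hq (Cfsg.Agent.S1059.result (F := F) rfl)
    · rw [Nat.card_congr e.toEquiv]
      exact bd_f4 hq (Cfsg.Agent.S1062.result (F := F) rfl)
    · rw [Nat.card_congr e.toEquiv]
      exact bd_e6 hq (Cfsg.Agent.S1063.result (F := F) rfl)
    · rw [Nat.card_congr e.toEquiv]
      exact bd_e7 hq (Cfsg.Agent.S1064.result (F := F) rfl)
    · rw [Nat.card_congr e.toEquiv]
      exact bd_e8 hq (Cfsg.Agent.S1065.result (F := F) rfl)
  · -- twisted E6, D4
    obtain ⟨K, _, _, _, q, hpp, hG⟩ := hG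
    left
    rcases hG with ⟨hK, ⟨e⟩⟩ | ⟨hK, ⟨e⟩⟩
    · obtain ⟨f, hq⟩ := qp_of_pow p K two_ne_zero hK
      rw [Nat.card_congr e.toEquiv]
      exact bd_2e6 hq (Cfsg.Agent.S1066.result hpp hK)
    · obtain ⟨f, hq⟩ := qp_of_pow p K three_ne_zero hK
      rw [Nat.card_congr e.toEquiv]
      exact bd_3d4 hq (Cfsg.Agent.S1067.result hpp hK)
  · -- Suzuki
    obtain ⟨rfl, F, _, _, m, hm, hF, ⟨e⟩⟩ := hG
    left
    have hq : QP 2 (2 ^ (2 * m + 1)) (2 * m + 1) := ⟨Nat.prime_two, rfl, by omega⟩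
    haveI : CharP F 2 := Cfsg.Agent.Lib.Helper8.charP_two_of_card hF
    rw [Nat.card_congr e.toEquiv,
      ← Nat.card_congr (Cfsg.Agent.Lib.Helper8.lieSzEquiv hF hm).toEquiv]
    exact bd_sz hq (Cfsg.Agent.S0324.result hm hF)
  · -- 2F4
    obtain ⟨rfl, K, _, _, m, hm, hK, ⟨e⟩⟩ := hG
    left
    have hq : QP 2 (2 ^ (2 * m + 1)) (2 * m + 1) := ⟨Nat.prime_two, rfl, by omega⟩
    rw [Nat.card_congr e.toEquiv]
    exact bd_2f4 hq (Cfsg.Agent.S1068.result hK)
  · -- 2G2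
    obtain ⟨rfl, K, _, _, m, hm, hK, ⟨e⟩⟩ := hG
    left
    have hq : QP 3 (3 ^ (2 * m + 1)) (2 * m + 1) := ⟨Nat.prime_three, rfl, by omega⟩
    rw [Nat.card_congr e.toEquiv]
    exact bd_2g2 hq (Cfsg.Agent.S1069.result hK)

end Cfsg.Agent.S2363
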