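import Cfsg.Statements.S2364
import Cfsg.Agent.Lib.Helper65.UnipCent2

set_option autoImplicit false
open Cfsg

namespace Cfsg.Agent.S2364

open Cfsg.Agent.Lib.Helper65.UnipCent

/-- Let F be a finite field of characteristic p, n ≥ 4, and let a, b be commuting elements of PSL(n, F) with a of order p. Then every prime divisor of the order of b divides the order of SL(n − 2, F). -/
theorem result {F : Type*} [Field F] [Fintype F] (p : ℕ) [Fact p.Prime] [CharP F p] (n : ℕ) (hn : 4 ≤ n)
    (a b : Matrix.ProjectiveSpecialLinearGroup (Fin n) F) (ha : orderOf a = p) (hab : Commute a b) :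
    (orderOf b).primeFactors ⊆ (Nat.card (Matrix.SpecialLinearGroup (Fin (n - 2)) F)).primeFactors := by
  intro r hr
  rw [Nat.mem_primeFactors] at hr ⊢
  obtain ⟨hr, hrb, hb0⟩ := hr
  refine ⟨hr, ?_, Nat.card_pos.ne'⟩
  by_cases hrp : r = p
  · subst hrp
    refine Dvd.dvd.trans ?_ (card_dvd_card_SL (F := F) (n - 2) (by omega))
    obtain ⟨k, _, hk⟩ := FiniteField.card F r
    rw [hk]; exact dvd_pow_self r k.ne_zero
  · obtain ⟨j, hj1, hj2, hj⟩ := exists_dvd_PSL p hr hrp (by omega) a (b ^ (orderOf b / r)) ha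
      (orderOf_pow_orderOf_div hb0 hrb) (hab.pow_right _)
    exact dvd_card_SL_of_dvd (n - 2) j r (by omega) hj1 hj2 hj

end Cfsg.Agent.S2364
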