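import Cfsg.Statements.S2365
import Cfsg.Agent.Lib.Helper62.PGU1
import Cfsg.Agent.Lib.Helper62.PGU2
import Cfsg.Agent.Lib.Helper62.PGU3
import Cfsg.Agent.Lib.Helper62.PGU4
import Cfsg.Agent.Lib.Helper65.UnipCent2
import Cfsg.Agent.S0279

set_option autoImplicit false
open Cfsg

namespace Cfsg.Agent.S2365

open Cfsg.Agent.Lib.Helper62.PG Cfsg.Agent.Lib.Helper65.UnipCent Cfsg.Agent.Lib.Helper50.Herm Module

/-- the endomorphism attached to an element of `SU` -/
noncomputable def op {F : Type*} [Field F] {m q : ℕ} (A : ↥(Cfsg.SU m F q)) : End F (Fin m → F) :=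
  Matrix.toLinAlgEquiv' ((A : Matrix.SpecialLinearGroup (Fin m) F) : Matrix (Fin m) (Fin m) F)

theorem op_mul {F : Type*} [Field F] {m q : ℕ} (A B : ↥(Cfsg.SU m F q)) :
    op (A * B) = op A * op B := by
  simp [op]

theorem op_one {F : Type*} [Field F] {m q : ℕ} : op (1 : ↥(Cfsg.SU m F q)) = 1 := by
  simp [op]

theorem op_pow {F : Type*} [Field F] {m q : ℕ} (A : ↥(Cfsg.SU m F q)) (j : ℕ) :
    op (A ^ j) = op A ^ j := by
  induction j with
  | zero => simp [op_one]
  | succ j ih => rw [pow_succ, pow_succ, op_mul, ih]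

theorem op_injective {F : Type*} [Field F] {m q : ℕ} :
    Function.Injective (op : ↥(Cfsg.SU m F q) → End F (Fin m → F)) := by
  intro A B h
  apply Subtype.ext
  apply Subtype.ext
  exact Matrix.toLinAlgEquiv'.injective h

theorem op_herm {F : Type*} [Field F] {m q : ℕ} (A : ↥(Cfsg.SU m F q)) (x y : Fin m → F) :
    Cfsg.hermForm m F q (op A x) (op A y) = Cfsg.hermForm m F q x y :=
  A.2 x y

theorem herm_nondeg {F : Type*} [Field F] {m q : ℕ} (hq : q ≠ 0) (x : Fin m → F)
    (h : ∀ y, Cfsg.hermForm m F q x y = 0) : x = 0 := by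
  classical
  funext i
  have := h (Pi.single i 1)
  simp only [Cfsg.hermForm] at this
  rw [Finset.sum_eq_single i] at this
  · simpa using this
  · intro j _ hj
    simp [Pi.single_eq_of_ne hj, hq]
  · intro hi
    exact absurd (Finset.mem_univ i) hi

/-- the main case -/
theorem main_case {F : Type*} [Field F] [Fintype F] (p : ℕ) [Fact p.Prime] [CharP F p] (m q : ℕ)
    (hm : 4 ≤ m) (hF : Fintype.card F = q ^ 2) (a b : Cfsg.PSU m F q) (ha : orderOf a = p)
    (s : ℕ) (hs : s.Prime) (hb : orderOf b = s) (hab : Commute a b) (hsp : s ≠ p)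
    (hs1 : ¬ s ∣ q + 1) : ∃ i, 2 ≤ i ∧ i ≤ m - 2 ∧ s ∣ bSeq q (i - 1) := by
  have : Fact s.Prime := ⟨hs⟩
  have hp : p.Prime := Fact.out
  have hq2 := Cfsg.Agent.Lib.Helper50.two_le_q hF
  have hpq : p ∣ q := by
    obtain ⟨k, _, hk⟩ := FiniteField.card F p
    have h2 : p ∣ q ^ 2 := by rw [← hF, hk]; exact dvd_pow_self p k.ne_zero
    exact hp.dvd_of_dvd_pow h2
  have hsq : ¬ s ∣ q := by
    intro h
    have h1 : s ∣ Fintype.card F := by rw [hF]; exact Dvd.dvd.pow h (by norm_num)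
    exact not_dvd_card_of_ne p hs hsp h1
  have hz := Cfsg.Agent.S0279.result hF m (by omega)
  have hp1 : ¬ p ∣ q + 1 := by
    intro h
    have h4 : p ∣ 1 := (Nat.dvd_add_right hpq).1 h
    exact hp.one_lt.ne' (Nat.dvd_one.1 h4)
  have hcp : Nat.Coprime p (Nat.card (Subgroup.center ↥(Cfsg.SU m F q))) :=
    (Nat.Prime.coprime_iff_not_dvd hp).2 fun h => hp1 (by
      rw [hz] at h; exact h.trans (Nat.gcd_dvd_right _ _))
  have hcs : Nat.Coprime s (Nat.card (Subgroup.center ↥(Cfsg.SU m F q))) :=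
    (Nat.Prime.coprime_iff_not_dvd hs).2 fun h => hs1 (by
      rw [hz] at h; exact h.trans (Nat.gcd_dvd_right _ _))
  obtain ⟨A, hA, hAa⟩ := exists_lift (G := ↥(Cfsg.SU m F q)) a p
    (by rw [← ha]; exact pow_orderOf_eq_one a)
  obtain ⟨B, hB, hBb⟩ := exists_lift (G := ↥(Cfsg.SU m F q)) b s
    (by rw [← hb]; exact pow_orderOf_eq_one b)
  have hA1 : A ≠ 1 := by
    rintro rfl
    have h2 : a ^ Nat.card (Subgroup.center ↥(Cfsg.SU m F q)) = 1 := hAa.symm
    have h3 := orderOf_dvd_of_pow_eq_one h2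
    rw [ha] at h3
    exact hp.one_lt.ne' (Nat.Coprime.eq_one_of_dvd hcp h3)
  have hB1 : B ≠ 1 := by
    rintro rfl
    have h2 : b ^ Nat.card (Subgroup.center ↥(Cfsg.SU m F q)) = 1 := hBb.symm
    have h3 := orderOf_dvd_of_pow_eq_one h2
    rw [hb] at h3
    exact hs.one_lt.ne' (Nat.Coprime.eq_one_of_dvd hcs h3)
  have hAB : A * B = B * A := by
    apply commute_of_commute_mk hcp A B hA
    rw [hAa, hBb]
    exact hab.pow_pow _ _
  have hne : Nonempty (Fin m) := ⟨⟨0, by omega⟩⟩
  have : CharP (End F (Fin m → F)) p :=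
    charP_of_injective_algebraMap (FaithfulSMul.algebraMap_injective F (End F (Fin m → F))) p
  have hαp : op A ^ p = 1 := by rw [← op_pow, hA, op_one]
  have hβs : op B ^ s = 1 := by rw [← op_pow, hB, op_one]
  have hαn : IsNilpotent (op A - 1) := by
    refine ⟨p, ?_⟩
    rw [sub_pow_char_of_commute p (Commute.one_right (op A)), hαp, one_pow, sub_self]
  have hα1 : op A ≠ 1 := fun h => hA1 (op_injective (by rw [h, op_one]))
  have hβ1 : op B ≠ 1 := fun h => hB1 (op_injective (by rw [h, op_one]))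
  have hc : Commute (op A) (op B) := by
    change op A * op B = op B * op A
    rw [← op_mul, ← op_mul, hAB]
  have hH := isHerm_std hF m
  have hnd : ∀ x, (∀ y, Cfsg.hermForm m F q x y = 0) → x = 0 := herm_nondeg (by omega)
  have : Finite (Fin m → F) := inferInstance
  exact u_adj hF (Cfsg.hermForm m F q) hH hnd hsq hs1 (by simp) hm (op A) (op B) (op_herm A)
    (op_herm B) hαn hα1 hβs hβ1 hc
    (fun ψ h1 h2 h3 ρ h4 h5 => u_main hF (Cfsg.hermForm m F q) hH hnd hsq (op B) ψ (op_herm B) hβs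
      h1 h2 h3 ρ h4 h5 (fun h hh R hR ρ hρ => aCard_top_eq hF hh R hR ρ hρ))

/-- Let q be a power of the prime p, F the field with q² elements, m ≥ 4, and let a, b be commuting elements of PSU(m, q) with a of order p. Then every prime divisor of the order of b divides the order of SU(m − 2, q). -/
theorem result {F : Type*} [Field F] [Fintype F] (p : ℕ) [Fact p.Prime] [CharP F p] (m q : ℕ) (hm : 4 ≤ m) (hF : Fintype.card F = q ^ 2)
    (a b : Cfsg.PSU m F q) (ha : orderOf a = p) (hab : Commute a b) :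
    (orderOf b).primeFactors ⊆ (Nat.card ↥(Cfsg.SU (m - 2) F q)).primeFactors := by
  intro s hs
  have hp : p.Prime := Fact.out
  have hq2 := Cfsg.Agent.Lib.Helper50.two_le_q hF
  have hsP : s.Prime := Nat.prime_of_mem_primeFactors hs
  have hsd : s ∣ orderOf b := Nat.dvd_of_mem_primeFactors hs
  have hb0 : orderOf b ≠ 0 := by
    intro h
    rw [h] at hs
    simp at hs
  have hcard0 : Nat.card ↥(Cfsg.SU (m - 2) F q) ≠ 0 := Nat.card_pos.ne'
  rw [Nat.mem_primeFactors]
  refine ⟨hsP, ?_, hcard0⟩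
  by_cases hsp : s = p
  · subst hsp
    have hpq : s ∣ q := by
      obtain ⟨k, _, hk⟩ := FiniteField.card F s
      have h2 : s ∣ q ^ 2 := by rw [← hF, hk]; exact dvd_pow_self s k.ne_zero
      exact hp.dvd_of_dvd_pow h2
    exact hpq.trans (q_dvd_card_SU hF (m - 2) (by omega))
  by_cases hs1 : s ∣ q + 1
  · apply dvd_card_SU hF (m - 2) 2 s le_rfl (by omega)
    have : bSeq q (2 - 1) = (q - 1) * (q + 1) := by
      simp only [bSeq]
      norm_num
      obtain ⟨t, rfl⟩ : ∃ t, q = t + 1 := ⟨q - 1, by omega⟩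
      simp only [Nat.add_sub_cancel]
      have : (t + 1) ^ 2 = t * (t + 1 + 1) + 1 := by ring
      omega
    rw [this]
    exact Dvd.dvd.mul_left hs1 _
  · obtain ⟨e, he⟩ := hsd
    have he0 : e ≠ 0 := by
      rintro rfl
      rw [mul_zero] at he
      exact hb0 he
    have hb' : orderOf (b ^ e) = s := by
      rw [orderOf_pow_of_dvd he0 (by rw [he]; exact Dvd.intro_left _ rfl), he]
      exact Nat.mul_div_cancel _ (Nat.pos_of_ne_zero he0)
    obtain ⟨i, hi2, him, hi⟩ := main_case p m q hm hF a (b ^ e) ha s hsP hb' (hab.pow_right e) hsp hs1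
    exact dvd_card_SU hF (m - 2) i s hi2 him hi

end Cfsg.Agent.S2365
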