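import Cfsg.Statements.S2366
import Cfsg.Agent.Lib.Helper48.U3Spec

set_option autoImplicit false
open Cfsg

namespace Cfsg.Agent.S2366

/-- The set of element orders of PSU(3, q) for an odd prime power q = p^n: writing d = gcd(3, q + 1), a positive integer is the order of some element exactly when it divides one of q + 1, p(q + 1)/d, (q² − 1)/d, (q² − q + 1)/d. -/
theorem result {F : Type*} [Field F] [Fintype F] (p : ℕ) [Fact p.Prime] [CharP F p] (hp : p ≠ 2) (q : ℕ) (hF : Fintype.card F = q ^ 2) :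
    Set.range (orderOf : Cfsg.PSU 3 F q → ℕ) =
      {s : ℕ | s ∣ q + 1} ∪ {s : ℕ | s ∣ p * (q + 1) / Nat.gcd 3 (q + 1)} ∪
        {s : ℕ | s ∣ (q ^ 2 - 1) / Nat.gcd 3 (q + 1)} ∪ {s : ℕ | s ∣ (q ^ 2 - q + 1) / Nat.gcd 3 (q + 1)} := by
  classical
  have : Finite (Cfsg.PSU 3 F q) := inferInstance
  ext s
  simp only [Set.mem_range, Set.mem_union, Set.mem_setOf_eq]
  constructor
  · rintro ⟨y, rfl⟩
    rcases Cfsg.Agent.Lib.Helper48.psu3_upper p hp hF y with h | h | h | h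
    · exact Or.inl (Or.inl (Or.inl h))
    · exact Or.inl (Or.inl (Or.inr h))
    · exact Or.inl (Or.inr h)
    · exact Or.inr h
  · rintro (((h | h) | h) | h)
    · obtain ⟨y, hy⟩ := Cfsg.Agent.Lib.Helper48.exists_psu3_one hF
      exact Cfsg.Agent.Lib.Helper48.exists_orderOf_eq_of_dvd y (h.trans hy)
    · obtain ⟨y, hy⟩ := Cfsg.Agent.Lib.Helper48.exists_psu3_two p hF
      exact Cfsg.Agent.Lib.Helper48.exists_orderOf_eq_of_dvd y (h.trans hy)
    · obtain ⟨y, hy⟩ := Cfsg.Agent.Lib.Helper48.exists_psu3_three hF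
      exact Cfsg.Agent.Lib.Helper48.exists_orderOf_eq_of_dvd y (h.trans hy)
    · obtain ⟨y, hy⟩ := Cfsg.Agent.Lib.Helper48.exists_psu3_four hF
      exact Cfsg.Agent.Lib.Helper48.exists_orderOf_eq_of_dvd y (h.trans hy)

end Cfsg.Agent.S2366
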