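import Cfsg.Statements.S2367
import Mathlib
-- import your own Cfsg.Agent.* helpers here

set_option autoImplicit false
open Cfsg

namespace Cfsg.Agent.S2367


open Nat in
theorem val_fact_rec (p n : ℕ) [Fact p.Prime] :
    padicValNat p n ! = n / p + padicValNat p (n / p)! := by
  rw [← padicValNat_mul_div_factorial n, padicValNat_factorial_mul, add_comm]

theorem cube_lt_four_pow (p : ℕ) : p ^ 3 < 4 ^ p := by
  induction p with
  | zero => norm_num
  | succ k ih =>
    rcases Nat.lt_or_ge k 2 with h | h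
    · interval_cases k <;> norm_num
    · rw [pow_succ 4 k]
      nlinarith [ih, sq_nonneg k, mul_pos (show 0 < k by omega) (show 0 < k by omega)]

open Nat in
theorem alt_case (n p N : ℕ) (hp : p.Prime) (hodd : p ≠ 2) (hN : 2 * N = n !)
    (h3 : N.factorization p = 3) : p ^ 3 < 2 ^ N.factorization 2 := by
  haveI : Fact p.Prime := ⟨hp⟩
  haveI : Fact (Nat.Prime 2) := ⟨Nat.prime_two⟩
  have hN0 : N ≠ 0 := by
    rintro rfl
    simp at h3
  have hfp : padicValNat p n ! = 3 := by
    rw [← hN, ← Nat.factorization_def _ hp, Nat.factorization_mul two_ne_zero hN0]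
    simp [Nat.prime_two.factorization, h3, Finsupp.single_apply, hodd.symm]
  have hf2 : padicValNat 2 n ! = N.factorization 2 + 1 := by
    rw [← hN, ← Nat.factorization_def _ Nat.prime_two, Nat.factorization_mul two_ne_zero hN0]
    simp [Nat.prime_two.factorization, add_comm]
  have hp3 : 3 ≤ p := by
    have := hp.two_le
    omega
  rw [val_fact_rec] at hfp
  have hzero : ∀ a, a < p → padicValNat p a ! = 0 := by
    intro a ha
    apply padicValNat.eq_zero_of_not_dvd
    rw [hp.dvd_factorial]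
    omega
  have ha : n / p = 3 := by
    by_contra hne
    have hlt : n / p < 3 := by omega
    have := hzero (n / p) (by omega)
    omega
  rw [ha] at hfp
  have hp3' : p ≠ 3 := by
    rintro rfl
    have h6 : padicValNat 3 3 ! = 1 := by
      rw [val_fact_rec]
      norm_num
    omega
  have hp4 : p ≠ 4 := by
    rintro rfl
    exact absurd hp (by norm_num)
  have hp5 : 5 ≤ p := by omega
  have hn3 : 3 * p ≤ n := by
    have := Nat.div_mul_le_self n p
    rw [ha] at this
    exact this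
  have hv2 : n / 2 + n / 2 / 2 + n / 2 / 2 / 2 ≤ padicValNat 2 n ! := by
    rw [val_fact_rec 2 n, val_fact_rec 2 (n / 2), val_fact_rec 2 (n / 2 / 2)]
    omega
  have hexp : 2 * p ≤ N.factorization 2 := by omega
  calc p ^ 3 < 4 ^ p := cube_lt_four_pow p
    _ = 2 ^ (2 * p) := by rw [pow_mul]; norm_num
    _ ≤ 2 ^ N.factorization 2 := Nat.pow_le_pow_right (by norm_num) hexp

def ev (L : List (ℕ × ℕ)) : ℕ := (L.map fun x => x.1 ^ x.2).prod

def ex (L : List (ℕ × ℕ)) (q : ℕ) : ℕ := ((L.filter fun x => x.1 = q).map Prod.snd).sum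

theorem ev_ne_zero (L : List (ℕ × ℕ)) (hL : ∀ x ∈ L, x.1.Prime) : ev L ≠ 0 := by
  induction L with
  | nil => simp [ev]
  | cons a L ih =>
    have h1 := ih (fun x hx => hL x (List.mem_cons_of_mem _ hx))
    have h2 : a.1.Prime := hL a List.mem_cons_self
    simp only [ev, List.map_cons, List.prod_cons] at h1 ⊢
    exact mul_ne_zero (pow_ne_zero _ h2.ne_zero) h1

theorem fact_ev (L : List (ℕ × ℕ)) (hL : ∀ x ∈ L, x.1.Prime) (q : ℕ) :
    (ev L).factorization q = ex L q := by
  induction L with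
  | nil => simp [ev, ex]
  | cons a L ih =>
    have h0 := ev_ne_zero L (fun x hx => hL x (List.mem_cons_of_mem _ hx))
    have h1 := ih (fun x hx => hL x (List.mem_cons_of_mem _ hx))
    have h2 : a.1.Prime := hL a List.mem_cons_self
    have h3 : ev (a :: L) = a.1 ^ a.2 * ev L := by simp [ev]
    rw [h3, Nat.factorization_mul (pow_ne_zero _ h2.ne_zero) h0, Finsupp.add_apply, h1,
      h2.factorization_pow, Finsupp.single_apply]
    by_cases h : a.1 = q
    · simp [ex, List.filter_cons, h]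
    · simp [ex, List.filter_cons, h]

theorem spor_case (N : ℕ) (L : List (ℕ × ℕ)) (hN : N = ev L) (hL : ∀ x ∈ L, x.1.Prime)
    (hchk : ∀ x ∈ L, x.1 ≠ 2 → ex L x.1 = 3 → x.1 ^ 3 < 2 ^ ex L 2)
    (p : ℕ) (hodd : p ≠ 2) (h3 : N.factorization p = 3) : p ^ 3 < 2 ^ N.factorization 2 := by
  subst hN
  rw [fact_ev L hL] at h3 ⊢
  have : ∃ x ∈ L, x.1 = p := by
    by_contra hcon
    push Not at hcon
    have : L.filter (fun x => x.1 = p) = [] := by
      rw [List.filter_eq_nil_iff]
      intro x hx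
      simpa using hcon x hx
    simp [ex, this] at h3
  obtain ⟨x, hx, rfl⟩ := this
  exact hchk x hx hodd h3

/-- Let G be an alternating group of degree at least 5 or a simple group with the order of one of the 26 sporadic groups, and let p be an odd prime such that p³ is the exact power of p dividing the order of G. Then p³ is less than the 2-part of the order of G. -/
theorem result {G : Type*} [Group G] [Finite G] (hG : Cfsg.IsAlternating G ∨ Cfsg.IsSporadic G)
    (p : ℕ) (hp : p.Prime) (hodd : p ≠ 2) (h3 : (Nat.card G).factorization p = 3) :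
    p ^ 3 < 2 ^ (Nat.card G).factorization 2 := by
  rcases hG with ⟨n, hn, ⟨e⟩⟩ | hG
  · haveI : Nontrivial (Fin n) := Fin.nontrivial_iff_two_le.2 (by omega)
    have h1 : 2 * Nat.card G = n.factorial := by
      rw [Nat.card_congr e.toEquiv, two_mul_nat_card_alternatingGroup, Nat.card_perm]
      simp
    exact alt_case n p _ hp hodd h1 h3
  · unfold Cfsg.IsSporadic at hG
    rcases hG with ⟨-, h⟩ | ⟨-, h⟩ | ⟨-, h⟩ | ⟨-, h⟩ | ⟨-, h⟩ | ⟨-, h⟩ | ⟨-, h⟩ | ⟨-, h⟩ | ⟨-, h⟩ | ⟨-, h⟩ | ⟨-, h⟩ | ⟨-, h⟩ | ⟨-, h⟩ | ⟨-, h⟩ | ⟨-, h⟩ | ⟨-, h⟩ | ⟨-, h⟩ | ⟨-, h⟩ | ⟨-, h⟩ | ⟨-, h⟩ | ⟨-, h⟩ | ⟨-, h⟩ | ⟨-, h⟩ | ⟨-, h⟩ | ⟨-, h⟩ | ⟨-, h⟩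
    · rw [h] at h3 ⊢
      exact spor_case _ [(2, 4), (3, 2), (5, 1), (11, 1)] (by norm_num [ev]) (by decide) (by decide) p hodd h3
    · rw [h] at h3 ⊢
      exact spor_case _ [(2, 6), (3, 3), (5, 1), (11, 1)] (by norm_num [ev]) (by decide) (by decide) p hodd h3
    · rw [h] at h3 ⊢
      exact spor_case _ [(2, 7), (3, 2), (5, 1), (7, 1), (11, 1)] (by norm_num [ev]) (by decide) (by decide) p hodd h3
    · rw [h] at h3 ⊢
      exact spor_case _ [(2, 7), (3, 2), (5, 1), (7, 1), (11, 1), (23, 1)] (by norm_num [ev]) (by decide) (by decide) p hodd h3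
    · rw [h] at h3 ⊢
      exact spor_case _ [(2, 10), (3, 3), (5, 1), (7, 1), (11, 1), (23, 1)] (by norm_num [ev]) (by decide) (by decide) p hodd h3
    · rw [h] at h3 ⊢
      exact spor_case _ [(2, 3), (3, 1), (5, 1), (7, 1), (11, 1), (19, 1)] (by norm_num [ev]) (by decide) (by decide) p hodd h3
    · rw [h] at h3 ⊢
      exact spor_case _ [(2, 7), (3, 3), (5, 2), (7, 1)] (by norm_num [ev]) (by decide) (by decide) p hodd h3
    · rw [h] at h3 ⊢
      exact spor_case _ [(2, 7), (3, 5), (5, 1), (17, 1), (19, 1)] (by norm_num [ev]) (by decide) (by decide) p hodd h3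
    · rw [h] at h3 ⊢
      exact spor_case _ [(2, 21), (3, 3), (5, 1), (7, 1), (11, 3), (23, 1), (29, 1), (31, 1), (37, 1), (43, 1)] (by norm_num [ev]) (by decide) (by decide) p hodd h3
    · rw [h] at h3 ⊢
      exact spor_case _ [(2, 21), (3, 9), (5, 4), (7, 2), (11, 1), (13, 1), (23, 1)] (by norm_num [ev]) (by decide) (by decide) p hodd h3
    · rw [h] at h3 ⊢
      exact spor_case _ [(2, 18), (3, 6), (5, 3), (7, 1), (11, 1), (23, 1)] (by norm_num [ev]) (by decide) (by decide) p hodd h3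
    · rw [h] at h3 ⊢
      exact spor_case _ [(2, 10), (3, 7), (5, 3), (7, 1), (11, 1), (23, 1)] (by norm_num [ev]) (by decide) (by decide) p hodd h3
    · rw [h] at h3 ⊢
      exact spor_case _ [(2, 17), (3, 9), (5, 2), (7, 1), (11, 1), (13, 1)] (by norm_num [ev]) (by decide) (by decide) p hodd h3
    · rw [h] at h3 ⊢
      exact spor_case _ [(2, 18), (3, 13), (5, 2), (7, 1), (11, 1), (13, 1), (17, 1), (23, 1)] (by norm_num [ev]) (by decide) (by decide) p hodd h3
    · rw [h] at h3 ⊢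
      exact spor_case _ [(2, 21), (3, 16), (5, 2), (7, 3), (11, 1), (13, 1), (17, 1), (23, 1), (29, 1)] (by norm_num [ev]) (by decide) (by decide) p hodd h3
    · rw [h] at h3 ⊢
      exact spor_case _ [(2, 9), (3, 2), (5, 3), (7, 1), (11, 1)] (by norm_num [ev]) (by decide) (by decide) p hodd h3
    · rw [h] at h3 ⊢
      exact spor_case _ [(2, 7), (3, 6), (5, 3), (7, 1), (11, 1)] (by norm_num [ev]) (by decide) (by decide) p hodd h3
    · rw [h] at h3 ⊢
      exact spor_case _ [(2, 10), (3, 3), (5, 2), (7, 3), (17, 1)] (by norm_num [ev]) (by decide) (by decide) p hodd h3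
    · rw [h] at h3 ⊢
      exact spor_case _ [(2, 14), (3, 3), (5, 3), (7, 1), (13, 1), (29, 1)] (by norm_num [ev]) (by decide) (by decide) p hodd h3
    · rw [h] at h3 ⊢
      exact spor_case _ [(2, 13), (3, 7), (5, 2), (7, 1), (11, 1), (13, 1)] (by norm_num [ev]) (by decide) (by decide) p hodd h3
    · rw [h] at h3 ⊢
      exact spor_case _ [(2, 9), (3, 4), (5, 1), (7, 3), (11, 1), (19, 1), (31, 1)] (by norm_num [ev]) (by decide) (by decide) p hodd h3
    · rw [h] at h3 ⊢
      exact spor_case _ [(2, 14), (3, 6), (5, 6), (7, 1), (11, 1), (19, 1)] (by norm_num [ev]) (by decide) (by decide) p hodd h3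
    · rw [h] at h3 ⊢
      exact spor_case _ [(2, 8), (3, 7), (5, 6), (7, 1), (11, 1), (31, 1), (37, 1), (67, 1)] (by norm_num [ev]) (by decide) (by decide) p hodd h3
    · rw [h] at h3 ⊢
      exact spor_case _ [(2, 15), (3, 10), (5, 3), (7, 2), (13, 1), (19, 1), (31, 1)] (by norm_num [ev]) (by decide) (by decide) p hodd h3
    · rw [h] at h3 ⊢
      exact spor_case _ [(2, 41), (3, 13), (5, 6), (7, 2), (11, 1), (13, 1), (17, 1), (19, 1), (23, 1), (31, 1), (47, 1)] (by norm_num [ev]) (by decide) (by decide) p hodd h3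
    · rw [h] at h3 ⊢
      exact spor_case _ [(2, 46), (3, 20), (5, 9), (7, 6), (11, 2), (13, 3), (17, 1), (19, 1), (23, 1), (29, 1), (31, 1), (41, 1), (47, 1), (59, 1), (71, 1)] (by norm_num [ev]) (by decide) (by decide) p hodd h3

end Cfsg.Agent.S2367
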