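import Cfsg.Statements.S2368
import Mathlib
-- import your own Cfsg.Agent.* helpers here

set_option autoImplicit false
open Cfsg

namespace Cfsg.Agent.S2368

/-- nilpotent square matrices over a field vanish at the power of the dimension -/
theorem nilp_pow_card {F : Type*} [Field F] {m : ℕ} (N : Matrix (Fin m) (Fin m) F)
    (hN : IsNilpotent N) : N ^ m = 0 := by
  have h1 : IsNilpotent (N.charpoly - Polynomial.X ^ (Fintype.card (Fin m))) :=
    Matrix.isNilpotent_charpoly_sub_pow_of_isNilpotent hN
  have h2 : N.charpoly = Polynomial.X ^ m := by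
    have := h1.eq_zero
    simpa [sub_eq_zero] using this
  have h3 := Matrix.aeval_self_charpoly N
  rw [h2] at h3
  simpa using h3

/-- the shift matrix -/
def shift (F : Type*) [Field F] (m : ℕ) : Matrix (Fin m) (Fin m) F :=
  Matrix.of fun i j => if (j : ℕ) = i + 1 then 1 else 0

theorem shift_pow (F : Type*) [Field F] (m e : ℕ) :
    (shift F m) ^ e = Matrix.of fun (i j : Fin m) => if (j : ℕ) = i + e then (1 : F) else 0 := by
  induction e with
  | zero =>
    ext i j
    simp [Matrix.one_apply, Fin.ext_iff, eq_comm]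
  | succ e ih =>
    ext i j
    rw [pow_succ, ih, Matrix.mul_apply]
    simp only [shift, Matrix.of_apply]
    by_cases h : (j : ℕ) = i + (e + 1)
    · rw [if_pos h]
      have hlt : (i : ℕ) + e < m := by have := j.2; omega
      rw [Finset.sum_eq_single (⟨i + e, hlt⟩ : Fin m)]
      · simp [h]; omega
      · intro b _ hb
        have : (b : ℕ) ≠ i + e := fun hh => hb (Fin.ext hh)
        simp [this]
      · intro hh; exact absurd (Finset.mem_univ _) hh
    · rw [if_neg h]
      apply Finset.sum_eq_zero
      intro b _
      by_cases hb : (b : ℕ) = i + e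
      · have : (j : ℕ) ≠ b + 1 := by omega
        simp [this]
      · simp [hb]

/-- Let F be a finite field of characteristic p and m ≥ 1. Every element of GL(m, F) of p-power order has order less than p·m, and GL(m, F) has an element of p-power order at least m; so the largest order of a p-element of GL(m, F) is the least power of p that is at least m. -/
theorem result {F : Type*} [Field F] [Fintype F] (p : ℕ) [Fact p.Prime] [CharP F p] (m : ℕ) (hm : 1 ≤ m) :
    (∀ g : Matrix.GeneralLinearGroup (Fin m) F, (∃ j : ℕ, orderOf g = p ^ j) → orderOf g < p * m) ∧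
      ∃ g : Matrix.GeneralLinearGroup (Fin m) F, (∃ j : ℕ, orderOf g = p ^ j) ∧ m ≤ orderOf g := by
  have hp : p.Prime := Fact.out
  have : Nonempty (Fin m) := ⟨⟨0, hm⟩⟩
  have : CharP (Matrix (Fin m) (Fin m) F) p := inferInstance
  constructor
  · rintro g ⟨j, hj⟩
    rw [hj]
    cases j with
    | zero =>
      have := hp.two_le
      simp only [pow_zero]
      nlinarith
    | succ k =>
      by_contra hcon
      push Not at hcon
      have hmk : m ≤ p ^ k := by
        rw [pow_succ, mul_comm (p ^ k) p] at hcon
        exact Nat.le_of_mul_le_mul_left hcon hp.pos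
      set A : Matrix (Fin m) (Fin m) F := (g : Matrix (Fin m) (Fin m) F) with hA
      have hgpow : g ^ (p ^ (k + 1)) = 1 := by rw [← hj]; exact pow_orderOf_eq_one g
      have hApow : A ^ (p ^ (k + 1)) = 1 := by
        have := congrArg (fun u : Matrix.GeneralLinearGroup (Fin m) F => (u : Matrix (Fin m) (Fin m) F)) hgpow
        simpa using this
      have hnil : IsNilpotent (A - 1) := by
        refine ⟨p ^ (k + 1), ?_⟩
        rw [sub_pow_char_pow_of_commute _ _ (Commute.one_right A), hApow]
        simp
      have h0 : (A - 1) ^ m = 0 := nilp_pow_card _ hnil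
      have h1 : (A - 1) ^ (p ^ k) = 0 := pow_eq_zero_of_le hmk h0
      rw [sub_pow_char_pow_of_commute _ _ (Commute.one_right A)] at h1
      have h2 : A ^ (p ^ k) = 1 := by simpa [sub_eq_zero] using h1
      have h3 : g ^ (p ^ k) = 1 := by
        apply Units.ext
        simpa using h2
      have h4 : orderOf g ∣ p ^ k := orderOf_dvd_of_pow_eq_one h3
      rw [hj] at h4
      have h5 := Nat.le_of_dvd (pow_pos hp.pos k) h4
      have h6 : p ^ k < p ^ (k + 1) := Nat.pow_lt_pow_right hp.one_lt (Nat.lt_succ_self k)
      omega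
  · set N := shift F m with hN
    have hNm : N ^ m = 0 := by
      rw [hN, shift_pow]
      ext i j
      have := j.2
      have : (j : ℕ) ≠ i + m := by omega
      simp [this]
    have hnil : IsNilpotent N := ⟨m, hNm⟩
    have hunit : IsUnit (1 + N) := hnil.isUnit_one_add
    obtain ⟨g, hg⟩ := hunit
    have hpow : ∀ k : ℕ, ((g ^ (p ^ k) : Matrix.GeneralLinearGroup (Fin m) F) : Matrix (Fin m) (Fin m) F) = 1 + N ^ (p ^ k) := by
      intro k
      rw [Units.val_pow_eq_pow_val, hg, add_pow_char_pow_of_commute _ _ (Commute.one_left N)]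
      simp
    have hbig : m ≤ p ^ m := (Nat.lt_pow_self hp.one_lt).le
    have h1 : g ^ (p ^ m) = 1 := by
      apply Units.ext
      rw [hpow, pow_eq_zero_of_le hbig hNm]
      simp
    have h2 : orderOf g ∣ p ^ m := orderOf_dvd_of_pow_eq_one h1
    obtain ⟨j, _, hj⟩ := (Nat.dvd_prime_pow hp).1 h2
    refine ⟨g, ⟨j, hj⟩, ?_⟩
    rw [hj]
    by_contra hcon
    push Not at hcon
    have h3 : g ^ (p ^ j) = 1 := by rw [← hj]; exact pow_orderOf_eq_one g
    have h4 := hpow j
    rw [h3] at h4
    have h5 : N ^ (p ^ j) = 0 := by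
      have : (1 : Matrix (Fin m) (Fin m) F) = 1 + N ^ (p ^ j) := by simpa using h4
      simpa using this.symm
    rw [hN, shift_pow] at h5
    have h6 := congrFun (congrFun h5 ⟨0, hm⟩) ⟨p ^ j, hcon⟩
    simp at h6

end Cfsg.Agent.S2368
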