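import Cfsg.Statements.S2370
import Cfsg.Agent.Lib.Helper45.F4Tab
-- import your own Cfsg.Agent.* helpers here

set_option autoImplicit false
open Cfsg

namespace Cfsg.Agent.S2370


open Cfsg.Lie Cfsg.Agent.Lib.Helper45.F4

section

variable {K : Type*} [Field K]

theorem xMat_entry (r : ℕ) (hr : r < chevF4.nroots) (t : K) (row col : Idx) :
    chevF4.xMat K ⟨r, hr⟩ t row col =
      ((xEntN r (code row) (code col)).map fun p => ((p.2 : ℤ) : K) * t ^ p.1).sum := by
  rcases col with i | s
  · have hi : i.val < 4 := i.2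
    rcases row with i' | u
    · have hi' : i'.val < 4 := i'.2
      simp only [ChevalleyDatum.xMat, Matrix.of_apply, xEntN, code, hi, hi', if_true]
      by_cases h : i' = i
      · subst h; simp
      · have : i'.val ≠ i.val := fun hh => h (Fin.ext hh)
        simp [h, this]
    · have h4 : ¬ (4 + u.val < 4) := by omega
      simp only [ChevalleyDatum.xMat, Matrix.of_apply, xEntN, code, hi, if_true, h4, if_false]
      by_cases h : u = ⟨r, hr⟩
      · subst h; simp
      · have : u.val ≠ r := fun hh => h (Fin.ext hh)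
        simp [h, this]
  · have h4 : ¬ (4 + s.val < 4) := by omega
    have e4 : 4 + s.val - 4 = s.val := by omega
    simp only [ChevalleyDatum.xMat, Matrix.of_apply, xEntN, code, h4, if_false, e4]
    by_cases hsr : s = ⟨r, hr⟩
    · have hsr' : s.val = r := by rw [hsr]
      rw [if_pos hsr, if_pos hsr']
      rcases row with i' | u
      · have hi' : i'.val < 4 := i'.2
        have : i'.val ≠ 4 + s.val := by omega
        simp [this]
      · by_cases h : u = ⟨r, hr⟩
        · have : r = s.val := hsr'.symm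
          simp [h, this]
        · have : u.val ≠ s.val := fun hh => h (by rw [← hsr]; exact Fin.ext hh)
          simp [h, this]
    · have hsr' : s.val ≠ r := fun hh => hsr (Fin.ext hh)
      rw [if_neg hsr, if_neg hsr']
      by_cases hneg : s.val = chevF4.negIdx.getD r 0
      · rw [if_pos hneg, if_pos hneg]
        rcases row with i' | u
        · have hi' : i'.val < 4 := i'.2
          simp [hi']
        · have h4' : ¬ (4 + u.val < 4) := by omega
          by_cases hus : u = s
          · subst hus; simp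
          · have h1 : u.val ≠ s.val := fun hh => hus (Fin.ext hh)
            by_cases hur : u = ⟨r, hr⟩
            · subst hur; simp [hus, Ne.symm hsr']
            · have h2 : u.val ≠ r := fun hh => hur (Fin.ext hh)
              simp [hus, h1, hur, h2]
      · rw [if_neg hneg, if_neg hneg]
        rcases row with i' | u
        · have hi' : i'.val < 4 := i'.2
          simp [hi']
        · have h4' : ¬ (4 + u.val < 4) := by omega
          by_cases hus : u = s
          · subst hus; simp
          · have h1 : u.val ≠ s.val := fun hh => hus (Fin.ext hh)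
            simp [hus, h1]

theorem mem_R12_lt {r : ℕ} (hr : r ∈ R12) : r < chevF4.nroots := by
  have : ∀ r ∈ R12, r < chevF4.nroots := by decide
  exact this r hr

theorem X_rep [CharP K 2] (r : ℕ) (hr : r ∈ R12) (t : K) (n : ℕ) :
    (chevF4.xMat K ⟨r, mem_R12_lt hr⟩ t).mulVec (ev t [(n, 0)]) = ev t (Xtab r n) := by
  by_cases hn : n < 52
  · obtain ⟨col, rfl⟩ := exists_code n hn
    rw [ev_single, pow_zero, one_smul]
    ext row
    rw [Matrix.mulVec_single_one, Matrix.col_apply, xMat_entry, sum_char_two, ev_filter]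
    have h := C1
    rw [List.all_eq_true] at h
    have h1 := h r hr
    rw [List.all_eq_true] at h1
    have h2 := h1 (code row) (List.mem_range.2 (code_lt row))
    rw [List.all_eq_true] at h2
    have h3 := of_decide_eq_true (h2 (code col) (List.mem_range.2 (code_lt col)))
    have e1 : ∀ l : List (ℕ × ℤ), (l.map fun p => t ^ p.1) = (l.map Prod.fst).map fun e => t ^ e := by
      intro l; simp [List.map_map, Function.comp_def]
    have e2 : ∀ l : List (ℕ × ℕ), (l.map fun p => t ^ p.2) = (l.map Prod.snd).map fun e => t ^ e := by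
      intro l; simp [List.map_map, Function.comp_def]
    rw [e1, e2, h3]
  · have hn' : 52 ≤ n := by omega
    rw [ev_oob t n 0 hn', Matrix.mulVec_zero]
    simp [Xtab, hn]

/-- the constant vectors of the bracket table -/
noncomputable def bv (K : Type*) [Field K] (n n' : ℕ) : Idx → K :=
  ev (1 : K) ((adT n n').map fun ρ => (ρ, 0))

/-- the bracket (modulo two) -/
noncomputable def B (K : Type*) [Field K] : (Idx → K) →ₗ[K] (Idx → K) →ₗ[K] (Idx → K) :=
  LinearMap.mk₂ K (fun y x => ∑ i, ∑ c, (y i * x c) • bv K (code i) (code c))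
    (by intro y y' x; simp [add_mul, add_smul, Finset.sum_add_distrib])
    (by intro a y x; simp [Finset.smul_sum, smul_smul, mul_assoc])
    (by intro y x x'; simp [mul_add, add_smul, Finset.sum_add_distrib])
    (by intro a y x; simp [Finset.smul_sum, smul_smul, mul_left_comm])

theorem B_apply (y x : Idx → K) : B K y x = ∑ i, ∑ c, (y i * x c) • bv K (code i) (code c) := rfl

theorem B_single (i c : Idx) : B K (Pi.single i 1) (Pi.single c 1) = bv K (code i) (code c) := by
  rw [B_apply, Finset.sum_eq_single i, Finset.sum_eq_single c]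
  · simp
  · intro b _ hb
    simp [Pi.single_apply, hb]
  · intro h; exact absurd (Finset.mem_univ _) h
  · intro b _ hb
    simp [hb]
  · intro h; exact absurd (Finset.mem_univ _) h

theorem ev_zero_exp (t : K) (l : List ℕ) :
    ev t (l.map fun ρ => (ρ, 0)) = ev (1 : K) (l.map fun ρ => (ρ, 0)) := by
  ext ρ
  simp [ev, List.map_map, Function.comp_def]

theorem B_ev_one (t : K) (n e n' e' : ℕ) :
    B K (ev t [(n, e)]) (ev t [(n', e')]) = ev t ((adT n n').map fun ρ => (ρ, e + e')) := by
  by_cases hn : n < 52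
  · by_cases hn' : n' < 52
    · obtain ⟨i, rfl⟩ := exists_code n hn
      obtain ⟨c, rfl⟩ := exists_code n' hn'
      rw [ev_single, ev_single]
      simp only [map_smul, LinearMap.smul_apply]
      rw [B_single, bv, ← ev_zero_exp t, smul_smul, ← pow_add, ← ev_shift]
      simp [List.map_map, Function.comp_def, add_comm]
    · rw [ev_oob t n' e' (by omega), map_zero]
      simp [adT, hn']
  · rw [ev_oob t n e (by omega), map_zero, LinearMap.zero_apply]
    simp [adT, hn]

theorem B_ev_left (t : K) (p : ℕ × ℕ) (l₂ : SV) :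
    B K (ev t [p]) (ev t l₂) = ev t (l₂.flatMap fun q => (adT p.1 q.1).map fun ρ => (ρ, p.2 + q.2)) := by
  induction l₂ with
  | nil => simp
  | cons q l₂ ih₂ =>
    rw [ev_cons t q l₂, map_add, ih₂, List.flatMap_cons, ev_append]
    congr 1
    exact B_ev_one t p.1 p.2 q.1 q.2

theorem B_ev (t : K) (l₁ l₂ : SV) : B K (ev t l₁) (ev t l₂) = ev t (brk l₁ l₂) := by
  induction l₁ with
  | nil => simp [brk]
  | cons p l₁ ih =>
    rw [ev_cons, map_add, LinearMap.add_apply, ih]
    have : brk (p :: l₁) l₂ = (l₂.flatMap fun q => (adT p.1 q.1).map fun ρ => (ρ, p.2 + q.2)) ++ brk l₁ l₂ := by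
      simp [brk]
    rw [this, ev_append, B_ev_left]

theorem good_of_basis (M : Matrix Idx Idx K)
    (h : ∀ i c, M.mulVec (B K (Pi.single i 1) (Pi.single c 1)) =
      B K (M.mulVec (Pi.single i 1)) (M.mulVec (Pi.single c 1))) (y x : Idx → K) :
    M.mulVec (B K y x) = B K (M.mulVec y) (M.mulVec x) := by
  have key : (B K).compr₂ M.mulVecLin = (B K).compl₁₂ M.mulVecLin M.mulVecLin := by
    refine LinearMap.ext_basis (Pi.basisFun K Idx) (Pi.basisFun K Idx) ?_
    intro i c
    simpa using h i c
  have := congrArg (fun φ => φ y x) key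
  simpa using this

theorem single_eq_ev (t : K) (c : Idx) : (Pi.single c 1 : Idx → K) = ev t [(code c, 0)] := by
  rw [ev_single, pow_zero, one_smul]

theorem X_bracket [CharP K 2] (r : ℕ) (hr : r ∈ R12) (t : K) (y x : Idx → K) :
    (chevF4.xMat K ⟨r, mem_R12_lt hr⟩ t).mulVec (B K y x) =
      B K ((chevF4.xMat K ⟨r, mem_R12_lt hr⟩ t).mulVec y) ((chevF4.xMat K ⟨r, mem_R12_lt hr⟩ t).mulVec x) := by
  apply good_of_basis
  intro i c
  rw [B_single, bv, ← ev_zero_exp t, mulVec_ev t _ (Xtab r) (X_rep r hr t),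
    single_eq_ev t i, single_eq_ev t c, X_rep r hr t, X_rep r hr t, B_ev]
  apply ev_eq_of_cancel
  have h := C2
  rw [List.all_eq_true] at h
  have h1 := h r hr
  rw [List.all_eq_true] at h1
  have h2 := h1 (code i) (List.mem_range.2 (code_lt i))
  rw [List.all_eq_true] at h2
  exact of_decide_eq_true (h2 (code c) (List.mem_range.2 (code_lt c)))

theorem X_sq [CharP K 2] (r : ℕ) (hr : r ∈ R12) (t : K) :
    chevF4.xMat K ⟨r, mem_R12_lt hr⟩ t * chevF4.xMat K ⟨r, mem_R12_lt hr⟩ t = 1 := by
  apply Matrix.ext_of_mulVec_single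
  intro c
  rw [← Matrix.mulVec_mulVec, Matrix.one_mulVec, single_eq_ev t c, X_rep r hr t,
    mulVec_ev t _ (Xtab r) (X_rep r hr t)]
  apply ev_eq_of_cancel
  have h := C3
  rw [List.all_eq_true] at h
  have h1 := h r hr
  rw [List.all_eq_true] at h1
  exact of_decide_eq_true (h1 (code c) (List.mem_range.2 (code_lt c)))

/-- the ideal spanned by the short root vectors -/
def Isub (K : Type*) [Field K] : Submodule K (Idx → K) where
  carrier := {v | ∀ ρ, code ρ ∉ SS → v ρ = 0}
  add_mem' := by
    intro a b ha hb ρ hρ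
    simp [ha ρ hρ, hb ρ hρ]
  zero_mem' := by
    intro ρ _
    rfl
  smul_mem' := by
    intro c a ha ρ hρ
    simp [ha ρ hρ]

theorem mem_Isub (v : Idx → K) : v ∈ Isub K ↔ ∀ ρ, code ρ ∉ SS → v ρ = 0 := Iff.rfl

theorem ev_mem_I (t : K) (l : SV) (h : ∀ p ∈ l, p.1 ∈ SS) : ev t l ∈ Isub K := by
  intro ρ hρ
  unfold ev
  apply List.sum_eq_zero
  intro x hx
  obtain ⟨p, hp, rfl⟩ := List.mem_map.1 hx
  have : p.1 ≠ code ρ := fun hh => hρ (hh ▸ h p hp)
  simp [this]

theorem vec_eq_sum (v : Idx → K) : v = ∑ c, v c • (Pi.single c 1 : Idx → K) := by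
  ext ρ
  simp [Finset.sum_apply, Pi.single_apply]

theorem X_mem_I [CharP K 2] (r : ℕ) (hr : r ∈ R12) (t : K) (v : Idx → K) (hv : v ∈ Isub K) :
    (chevF4.xMat K ⟨r, mem_R12_lt hr⟩ t).mulVec v ∈ Isub K := by
  rw [vec_eq_sum v, ← Matrix.mulVecLin_apply, map_sum]
  apply Submodule.sum_mem
  intro c _
  rw [map_smul]
  by_cases hc : code c ∈ SS
  · apply Submodule.smul_mem
    rw [Matrix.mulVecLin_apply, single_eq_ev t c, X_rep r hr t]
    apply ev_mem_I
    have h := C4
    rw [List.all_eq_true] at h
    have h1 := h r hr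
    rw [List.all_eq_true] at h1
    have h2 := h1 (code c) hc
    rw [List.all_eq_true] at h2
    intro p hp
    exact of_decide_eq_true (h2 p hp)
  · rw [hv c hc, zero_smul]
    exact Submodule.zero_mem _

theorem bv_mem_I (n n' : ℕ) (hn : n ∈ SS) : bv K n n' ∈ Isub K := by
  by_cases hn' : n' < 52
  · apply ev_mem_I
    have h := C5
    rw [List.all_eq_true] at h
    have h1 := h n hn
    rw [List.all_eq_true] at h1
    have h2 := h1 n' (List.mem_range.2 hn')
    rw [List.all_eq_true] at h2
    intro p hp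
    obtain ⟨q, hq, rfl⟩ := List.mem_map.1 hp
    exact of_decide_eq_true (h2 q hq)
  · have : adT n n' = [] := by simp [adT, hn']
    simp [bv, this]

theorem B_mem_I (y x : Idx → K) (hy : y ∈ Isub K) : B K y x ∈ Isub K := by
  rw [B_apply]
  apply Submodule.sum_mem
  intro i _
  apply Submodule.sum_mem
  intro c _
  by_cases hi : code i ∈ SS
  · exact Submodule.smul_mem _ _ (bv_mem_I _ _ hi)
  · rw [hy i hi, zero_mul, zero_smul]
    exact Submodule.zero_mem _

theorem bv_apply (n n' : ℕ) (ρ : Idx) :
    bv K n n' ρ = (((adT n n').filter fun x => x = code ρ).length : K) := by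
  unfold bv
  induction adT n n' with
  | nil => simp
  | cons a l ih =>
    rw [List.map_cons, ev_cons, Pi.add_apply, ih]
    by_cases h : a = code ρ
    · simp [ev, h, add_comm]
    · simp [ev, h]

theorem single_mem_I (i : Idx) (hi : code i ∈ SS) : (Pi.single i 1 : Idx → K) ∈ Isub K := by
  intro ρ hρ
  have : ρ ≠ i := fun h => hρ (h ▸ hi)
  simp [this]

theorem cert_lt : ∀ c₀ ∈ SS, (certOf c₀).1 < 52 ∧ (certOf c₀).2 < 52 := by decide

theorem nondeg (w : Idx → K) (hw : w ∈ Isub K) (h : ∀ y ∈ Isub K, B K y w = 0) : w = 0 := by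
  ext ρ₀
  by_cases hρ : code ρ₀ ∈ SS
  · have h6 := C6
    rw [List.all_eq_true] at h6
    have h7 := h6 (code ρ₀) hρ
    rw [Bool.and_eq_true, List.all_eq_true] at h7
    obtain ⟨h8, h9⟩ := h7
    have h8' := of_decide_eq_true h8
    obtain ⟨hl1, hl2⟩ := cert_lt (code ρ₀) hρ
    obtain ⟨i, hi⟩ := exists_code _ hl1
    obtain ⟨ρ₁, hρ₁⟩ := exists_code _ hl2
    have h10 := h (Pi.single i 1) (single_mem_I i (hi ▸ h8'))
    have h11 := congrFun h10 ρ₁
    rw [B_apply, Finset.sum_eq_single i] at h11
    · rw [Finset.sum_apply, Finset.sum_eq_single ρ₀] at h11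
      · have h12 := of_decide_eq_true (h9 (code ρ₀) hρ)
        rw [← hi, ← hρ₁] at h12
        simp only [Pi.single_eq_same, one_mul, Pi.smul_apply, bv_apply, smul_eq_mul, Pi.zero_apply] at h11
        rw [h12] at h11
        simpa using h11
      · intro c _ hc
        by_cases hcS : code c ∈ SS
        · have h12 := of_decide_eq_true (h9 (code c) hcS)
          rw [← hi, ← hρ₁] at h12
          have hne : code c ≠ code ρ₀ := fun hh => hc (code_inj hh)
          simp only [Pi.smul_apply, bv_apply, smul_eq_mul]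
          rw [h12]
          simp [hne]
        · simp [hw c hcS]
      · intro hh; exact absurd (Finset.mem_univ _) hh
    · intro b _ hb
      simp [hb]
    · intro hh; exact absurd (Finset.mem_univ _) hh
  · exact hw ρ₀ hρ

theorem card_S : Fintype.card {ρ : Idx // code ρ ∈ SS} ≤ 32 := by decide +kernel

theorem card_T : Fintype.card {ρ : Idx // code ρ ∉ SS} ≤ 32 := by decide +kernel

theorem finrank_I_le : Module.finrank K (Isub K) ≤ 32 := by
  let resS : Isub K →ₗ[K] ({ρ : Idx // code ρ ∈ SS} → K) :=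
    (LinearMap.funLeft K K Subtype.val).comp (Isub K).subtype
  have hinj : Function.Injective resS := by
    rw [← LinearMap.ker_eq_bot, LinearMap.ker_eq_bot']
    intro v hv
    apply Subtype.ext
    ext ρ
    by_cases hρ : code ρ ∈ SS
    · exact congrFun hv ⟨ρ, hρ⟩
    · exact v.2 ρ hρ
  have := LinearMap.finrank_le_finrank_of_injective hinj
  rw [Module.finrank_fintype_fun_eq_card] at this
  exact this.trans card_S

theorem finrank_quot_le : Module.finrank K ((Idx → K) ⧸ Isub K) ≤ 32 := by
  let resT : (Idx → K) →ₗ[K] ({ρ : Idx // code ρ ∉ SS} → K) := LinearMap.funLeft K K Subtype.val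
  have h1 : Isub K ≤ LinearMap.ker resT := by
    intro v hv
    rw [LinearMap.mem_ker]
    ext ρ
    exact hv ρ.1 ρ.2
  have h2 : LinearMap.ker resT ≤ Isub K := by
    intro v hv ρ hρ
    rw [LinearMap.mem_ker] at hv
    exact congrFun hv ⟨ρ, hρ⟩
  have hinj : Function.Injective ((Isub K).liftQ resT h1) := by
    rw [← LinearMap.ker_eq_bot]
    exact Submodule.ker_liftQ_eq_bot _ _ _ h2
  have := LinearMap.finrank_le_finrank_of_injective hinj
  rw [Module.finrank_fintype_fun_eq_card] at this
  exact this.trans card_T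

/-- matrices preserving the bracket and the ideal -/
structure Good (M : Matrix Idx Idx K) : Prop where
  br : ∀ y x, M.mulVec (B K y x) = B K (M.mulVec y) (M.mulVec x)
  mem : ∀ v, v ∈ Isub K ↔ M.mulVec v ∈ Isub K

theorem Good.one : Good (1 : Matrix Idx Idx K) := ⟨by simp, by simp⟩

theorem Good.mul {M N : Matrix Idx Idx K} (hM : Good M) (hN : Good N) : Good (M * N) := by
  constructor
  · intro y x
    simp only [← Matrix.mulVec_mulVec]
    rw [hN.br, hM.br]
  · intro v
    simp only [← Matrix.mulVec_mulVec]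
    rw [hN.mem, hM.mem]

theorem Good.inv {g : GL Idx K} (hg : Good (g : Matrix Idx Idx K)) :
    Good ((g⁻¹ : GL Idx K) : Matrix Idx Idx K) := by
  have h1 : ∀ v : Idx → K, (g : Matrix Idx Idx K).mulVec (((g⁻¹ : GL Idx K) : Matrix Idx Idx K).mulVec v) = v := by
    intro v
    rw [Matrix.mulVec_mulVec, ← Units.val_mul, mul_inv_cancel, Units.val_one, Matrix.one_mulVec]
  have h2 : ∀ v : Idx → K, ((g⁻¹ : GL Idx K) : Matrix Idx Idx K).mulVec ((g : Matrix Idx Idx K).mulVec v) = v := by
    intro v
    rw [Matrix.mulVec_mulVec, ← Units.val_mul, inv_mul_cancel, Units.val_one, Matrix.one_mulVec]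
  constructor
  · intro y x
    have := hg.br (((g⁻¹ : GL Idx K) : Matrix Idx Idx K).mulVec y) (((g⁻¹ : GL Idx K) : Matrix Idx Idx K).mulVec x)
    rw [h1, h1] at this
    rw [← this, h2]
  · intro v
    have := hg.mem (((g⁻¹ : GL Idx K) : Matrix Idx Idx K).mulVec v)
    rw [h1] at this
    exact this.symm

theorem good_X [CharP K 2] (r : ℕ) (hr : r ∈ R12) (t : K) : Good (chevF4.x K r t) := by
  have hx : chevF4.x K r t = chevF4.xMat K ⟨r, mem_R12_lt hr⟩ t := by
    simp [ChevalleyDatum.x, mem_R12_lt hr]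
  rw [hx]
  constructor
  · exact X_bracket r hr t
  · intro v
    constructor
    · exact X_mem_I r hr t v
    · intro h
      have := X_mem_I r hr t _ h
      rwa [Matrix.mulVec_mulVec, X_sq r hr t, Matrix.one_mulVec] at this

theorem good_word [CharP K 2] (w : List (ℕ × K)) (h : ∀ p ∈ w, p.1 ∈ R12) : Good (chevF4.wordMat K w) := by
  induction w with
  | nil => simpa [ChevalleyDatum.wordMat] using Good.one
  | cons p w ih =>
    have : chevF4.wordMat K (p :: w) = chevF4.x K p.1 p.2 * chevF4.wordMat K w := by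
      simp [ChevalleyDatum.wordMat]
    rw [this]
    exact (good_X p.1 (h p List.mem_cons_self) p.2).mul (ih fun q hq => h q (List.mem_cons_of_mem _ hq))

theorem good_of_mem [CharP K 2] (e : ℕ) (g : GL Idx K) (hg : g ∈ twistedF4 K e) :
    Good (g : Matrix Idx Idx K) := by
  unfold twistedF4 ChevalleyDatum.genSubgroup at hg
  induction hg using Subgroup.closure_induction with
  | mem g hg =>
    obtain ⟨w, hw, hgw⟩ := hg
    rw [hgw]
    apply good_word
    rcases hw with ⟨t, rfl | rfl⟩ | ⟨t, u, rfl | rfl⟩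
    · intro p hp
      simp only [f4PairWord, List.mem_cons, List.not_mem_nil, or_false] at hp
      rcases hp with rfl | rfl <;> simp only <;> decide
    · intro p hp
      simp only [f4PairWord, List.mem_cons, List.not_mem_nil, or_false] at hp
      rcases hp with rfl | rfl <;> simp only <;> decide
    · intro p hp
      simp only [b2ClassWord, List.mem_cons, List.not_mem_nil, or_false] at hp
      rcases hp with rfl | rfl | rfl | rfl <;> simp only <;> decide
    · intro p hp
      simp only [b2ClassWord, List.mem_cons, List.not_mem_nil, or_false] at hp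
      rcases hp with rfl | rfl | rfl | rfl <;> simp only <;> decide
  | one => simpa using Good.one
  | mul a b _ _ ha hb => simpa using ha.mul hb
  | inv a _ ha => exact ha.inv

theorem pow32 [CharP K 2] (g : Matrix Idx Idx K) (hgood : ∀ k : ℕ, Good (g ^ k)) (j : ℕ)
    (hj : g ^ (2 ^ j) = 1) : g ^ 32 = 1 := by
  have : Fact (Nat.Prime 2) := ⟨Nat.prime_two⟩
  have hne : Nonempty Idx := ⟨Sum.inl ⟨0, by decide⟩⟩
  have hchar : CharP (Matrix Idx Idx K) 2 := inferInstance
  set N : Matrix Idx Idx K := g - 1 with hN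
  have hNnil : N ^ (2 ^ j) = 0 := by
    rw [hN, sub_pow_char_pow_of_commute _ _ (Commute.one_right g), hj]
    simp
  have hg32 : g ^ 32 = 1 + N ^ 32 := by
    have h1 : g = 1 + N := by rw [hN]; abel
    have h2 : (32 : ℕ) = 2 ^ 5 := by norm_num
    conv_lhs => rw [h1, h2, add_pow_char_pow_of_commute _ _ (Commute.one_left N)]
    simp
  set f : Module.End K (Idx → K) := Matrix.toLinAlgEquiv' N with hf
  have hfpow : ∀ (k : ℕ) (v : Idx → K), (f ^ k) v = (N ^ k).mulVec v := by
    intro k v
    rw [hf, ← map_pow, Matrix.toLinAlgEquiv'_apply]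
  have hfnil : IsNilpotent f := ⟨2 ^ j, by rw [hf, ← map_pow, hNnil, map_zero]⟩
  have hg1 : Good g := by simpa using hgood 1
  have hW : ∀ v ∈ Isub K, f v ∈ Isub K := by
    intro v hv
    have : f v = g.mulVec v - v := by
      rw [hf, Matrix.toLinAlgEquiv'_apply, hN, Matrix.sub_mulVec, Matrix.one_mulVec]
    rw [this]
    exact Submodule.sub_mem _ ((hg1.mem v).1 hv) hv
  obtain ⟨hA, hB⟩ := nil_bound f hfnil (Isub K) hW 32 finrank_I_le finrank_quot_le
  have hz := hgood 32
  have hzv : ∀ v, (g ^ 32).mulVec v = v + (N ^ 32).mulVec v := by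
    intro v
    rw [hg32, Matrix.add_mulVec, Matrix.one_mulVec]
  have hzI : ∀ y ∈ Isub K, (g ^ 32).mulVec y = y := by
    intro y hy
    rw [hzv, ← hfpow, hA y hy, add_zero]
  have hN32 : N ^ 32 = 0 := by
    apply Matrix.ext_of_mulVec_single
    intro c
    rw [Matrix.zero_mulVec]
    set v : Idx → K := Pi.single c 1
    apply nondeg
    · rw [← hfpow]; exact hB v
    · intro y hy
      have h1 := hz.br y v
      rw [hzI y hy, hzI _ (B_mem_I y v hy), hzv v, map_add] at h1
      exact (left_eq_add.1 h1)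
  rw [hg32, hN32, add_zero]

end

/-- Let q = 2^(2m+1) with m ≥ 1. Every element of 2-power order of the large Ree group ²F₄(q) has order at most 32. -/
theorem result {K : Type*} [Field K] [Fintype K] (m : ℕ) (hm : 1 ≤ m) (hK : Fintype.card K = 2 ^ (2 * m + 1))
    (x : ↥(Cfsg.Lie.twistedF4 K (2 ^ m))) (hx : ∃ j : ℕ, orderOf x = 2 ^ j) : orderOf x ≤ 32 := by
  have : Fact (Nat.Prime 2) := ⟨Nat.prime_two⟩
  have hchar : CharP K 2 := charP_of_card_eq_prime_pow hK
  obtain ⟨j, hj⟩ := hx
  have hgood : ∀ k : ℕ, Good ((((x : GL chevF4.Idx K) : Matrix chevF4.Idx chevF4.Idx K)) ^ k) := by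
    intro k
    have := good_of_mem (2 ^ m) ((x ^ k : ↥(Cfsg.Lie.twistedF4 K (2 ^ m))) : GL chevF4.Idx K) (x ^ k).2
    simpa using this
  have hpow : (((x : GL chevF4.Idx K) : Matrix chevF4.Idx chevF4.Idx K)) ^ (2 ^ j) = 1 := by
    have h1 : x ^ (2 ^ j) = 1 := by rw [← hj]; exact pow_orderOf_eq_one x
    have h2 := congrArg (fun y : ↥(Cfsg.Lie.twistedF4 K (2 ^ m)) =>
      ((y : GL chevF4.Idx K) : Matrix chevF4.Idx chevF4.Idx K)) h1
    simpa using h2
  have h32 := pow32 _ hgood j hpow
  have hx32 : x ^ 32 = 1 := by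
    apply Subtype.ext
    apply Units.ext
    simpa using h32
  exact Nat.le_of_dvd (by norm_num) (orderOf_dvd_of_pow_eq_one hx32)

end Cfsg.Agent.S2370
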