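import Cfsg.Statements.S2379
import Cfsg.Agent.Lib.Helper48.SylSL

set_option autoImplicit false
open Cfsg

namespace Cfsg.Agent.S2379

/-- Sylow subgroups of `SL_n(q)` for large primes. Let `F` be a field with `q` elements and `r` a prime with `r > n` and `r ∤ q` (so `r` does not divide the order `n!` of the Weyl group). Let `d` be the multiplicative order of `q` modulo `r`, `a` the number of integers `i` with `2 ≤ i ≤ n` divisible by `d` (the degrees of the Weyl group are `2, …, n`), and `m` the `r`-part of the value at `q` of the `d`-th cyclotomic polynomial. Then every Sylow `r`-subgroup of `SL_n(q)` is a direct product of `a` cyclic groups of order `m`. -/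
theorem result {F : Type*} [Field F] [Fintype F] {q : ℕ} (hq : Fintype.card F = q) (n : ℕ)
    (r : ℕ) [Fact r.Prime] (hrn : n < r) (hrq : ¬ r ∣ q) (P : Sylow r (Matrix.SpecialLinearGroup (Fin n) F)) :
    Nonempty (↥(P : Subgroup (Matrix.SpecialLinearGroup (Fin n) F)) ≃*
      (Fin ((Finset.Icc 2 n).filter (fun i => orderOf (q : ZMod r) ∣ i)).card →
        Multiplicative (ZMod (r ^ padicValNat r ((Polynomial.cyclotomic (orderOf (q : ZMod r)) ℤ).eval (q : ℤ)).natAbs)))) := by
  classical
  have hr : r.Prime := Fact.out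
  obtain rfl : q = Nat.card F := by rw [Nat.card_eq_fintype_card, hq]
  have hq2 : 2 ≤ Nat.card F := Cfsg.Agent.Lib.Helper48.two_le_card_field (F := F)
  rw [Cfsg.Agent.Lib.Helper48.factorization_cyclotomic hq2 hrq]
  have hd0 : 0 < orderOf (Nat.card F : ZMod r) :=
    Cfsg.Agent.Lib.Helper48.orderOf_pos_of_not_dvd hrq
  rcases Nat.eq_zero_or_pos n with rfl | hn
  · have h0 : ((Finset.Icc 2 0).filter (fun i => orderOf (Nat.card F : ZMod r) ∣ i)).card = 0 := by
      simp
    rw [h0]
    refine Cfsg.Agent.Lib.Helper48.sylow_mulEquiv_of_injective r 1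
      (fun a b _ => Subsingleton.elim a b) ?_ P
    have h1 : Nat.card (Matrix.SpecialLinearGroup (Fin 0) F) = 1 := Nat.card_unique
    rw [h1, Cfsg.Agent.Lib.Helper48.card_homocyclic]
    simp
  have : Nonempty (Fin n) := ⟨⟨0, hn⟩⟩
  have hGL := Cfsg.Agent.Lib.Helper6.card_GL_eq_mul_card_SL (F := F) (ι := Fin n)
  rw [hq] at hGL
  have hv := Cfsg.Agent.Lib.Helper48.card_GL_factorization (F := F) n r hrq
    (lt_of_le_of_lt (Nat.div_le_self _ _) hrn)
  rw [hGL, Nat.factorization_mul (by omega) Nat.card_pos.ne', Finsupp.add_apply] at hv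
  by_cases hd1 : orderOf (Nat.card F : ZMod r) = 1
  · rw [hd1] at hv ⊢
    rw [Cfsg.Agent.Lib.Helper48.card_filter_Icc_two_one]
    obtain ⟨k, rfl⟩ : ∃ k, n = k + 1 := ⟨n - 1, by omega⟩
    rw [Nat.add_sub_cancel]
    obtain ⟨x, hx⟩ := Cfsg.Agent.Lib.Helper48.exists_units_orderOf_eq F
    rw [pow_one] at hv ⊢
    have hc : orderOf (x ^ (orderOf x / r ^ (Nat.card F - 1).factorization r)) =
        r ^ (Nat.card F - 1).factorization r :=
      orderOf_pow_orderOf_div (orderOf_pos x).ne' (hx ▸ Nat.ordProj_dvd _ _)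
    obtain ⟨ι, hι⟩ := Cfsg.Agent.Lib.Helper48.exists_injective_zmod_hom _ _ hc
    refine Cfsg.Agent.Lib.Helper48.sylow_mulEquiv_of_injective r
      ((Cfsg.Agent.Lib.Helper48.diagSL (F := F) k).comp (ι.compLeft (Fin k))) ?_ ?_ P
    · intro u v huv
      have h1 := Cfsg.Agent.Lib.Helper48.diagSL_injective k huv
      funext i
      exact hι (congrFun h1 i)
    · rw [Cfsg.Agent.Lib.Helper48.card_homocyclic, ← pow_mul]
      congr 1
      rw [Nat.div_one, add_mul, one_mul] at hv
      rw [mul_comm]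
      omega
  · have hd2 : 2 ≤ orderOf (Nat.card F : ZMod r) := by omega
    rw [Cfsg.Agent.Lib.Helper48.card_filter_Icc_two n _ hd2]
    have hrq1 : ¬ r ∣ Nat.card F - 1 := by
      intro h
      have := (Cfsg.Agent.Lib.Helper48.dvd_pow_sub_one_iff_orderOf (r := r) (q := Nat.card F)
        (by omega) 1).1 (by rwa [pow_one])
      exact hd1 (Nat.dvd_one.1 this)
    rw [Nat.factorization_eq_zero_of_not_dvd hrq1, zero_add] at hv
    obtain ⟨θ, hθ⟩ := Cfsg.Agent.Lib.Helper48.exists_injective_homocyclic_GL (F := F) n r hrq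
    have hdet : ∀ x, ((θ x : GL (Fin n) F) : Matrix (Fin n) (Fin n) F).det = 1 := by
      apply Cfsg.Agent.Lib.Helper48.det_eq_one_of_coprime θ
      rw [Cfsg.Agent.Lib.Helper48.card_homocyclic]
      exact Nat.Coprime.pow_left _ (Nat.Coprime.pow_left _
        ((Nat.Prime.coprime_iff_not_dvd hr).2 hrq1))
    refine Cfsg.Agent.Lib.Helper48.sylow_mulEquiv_of_injective r
      (Cfsg.Agent.Lib.Helper48.liftSL θ hdet)
      (Cfsg.Agent.Lib.Helper48.liftSL_injective θ hdet hθ) ?_ P
    rw [Cfsg.Agent.Lib.Helper48.card_homocyclic, hv, ← pow_mul, mul_comm]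

end Cfsg.Agent.S2379
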