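import Cfsg.Statements.S2384
import Cfsg.Agent.Lib.Helper50.SemiDet

set_option autoImplicit false
open Cfsg
open Cfsg.Agent.Lib.Helper50.SemiConj

namespace Cfsg.Agent.S2384

/-- In `SL_n(q)`, `q` a power of the prime `p`, the number of conjugacy classes of elements of order prime to `p` (the semisimple classes) is `q^(n-1)`. -/
theorem result {F : Type*} [Field F] [Fintype F] {q : ℕ} (hq : Fintype.card F = q) (p : ℕ) [Fact p.Prime] [CharP F p] (n : ℕ) (hn : 1 ≤ n) :
    Nat.card {c : ConjClasses (Matrix.SpecialLinearGroup (Fin n) F) //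
      ∃ g : Matrix.SpecialLinearGroup (Fin n) F, ConjClasses.mk g = c ∧ (orderOf g).Coprime p} = q ^ (n - 1) := by
  classical
  obtain ⟨k, rfl⟩ : ∃ k, n = k + 1 := ⟨n - 1, by omega⟩
  let cp : ConjClasses (Matrix.SpecialLinearGroup (Fin (k + 1)) F) → Polynomial F :=
    Quotient.lift (fun g : Matrix.SpecialLinearGroup (Fin (k + 1)) F =>
      (g : Matrix (Fin (k + 1)) (Fin (k + 1)) F).charpoly) (by
      intro a b hab
      obtain ⟨c, hc⟩ := isConj_iff.1 hab
      show (a : Matrix (Fin (k + 1)) (Fin (k + 1)) F).charpoly = (b : Matrix (Fin (k + 1)) (Fin (k + 1)) F).charpoly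
      rw [← hc, Matrix.SpecialLinearGroup.coe_mul, Matrix.SpecialLinearGroup.coe_mul, Matrix.charpoly_mul_comm,
        ← mul_assoc, ← Matrix.SpecialLinearGroup.coe_mul, inv_mul_cancel, Matrix.SpecialLinearGroup.coe_one,
        one_mul])
  have hcp : ∀ g : Matrix.SpecialLinearGroup (Fin (k + 1)) F,
      cp (ConjClasses.mk g) = (g : Matrix (Fin (k + 1)) (Fin (k + 1)) F).charpoly := fun g => rfl
  have hsq : ((-1 : F) ^ (k + 1)) * (-1) ^ (k + 1) = 1 := by
    rw [← mul_pow]; simp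
  have hprop : ∀ g : Matrix.SpecialLinearGroup (Fin (k + 1)) F,
      (g : Matrix (Fin (k + 1)) (Fin (k + 1)) F).charpoly.Monic ∧
      (g : Matrix (Fin (k + 1)) (Fin (k + 1)) F).charpoly.natDegree = k + 1 ∧
      (g : Matrix (Fin (k + 1)) (Fin (k + 1)) F).charpoly.coeff 0 = (-1) ^ (k + 1) := by
    intro g
    refine ⟨Matrix.charpoly_monic _, by simp, ?_⟩
    have h1 := Matrix.det_eq_sign_charpoly_coeff (g : Matrix (Fin (k + 1)) (Fin (k + 1)) F)
    rw [g.2, Fintype.card_fin] at h1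
    calc (g : Matrix (Fin (k + 1)) (Fin (k + 1)) F).charpoly.coeff 0
        = ((-1 : F) ^ (k + 1) * (-1) ^ (k + 1)) * (g : Matrix (Fin (k + 1)) (Fin (k + 1)) F).charpoly.coeff 0 := by
          rw [hsq, one_mul]
      _ = (-1 : F) ^ (k + 1) * ((-1) ^ (k + 1) * (g : Matrix (Fin (k + 1)) (Fin (k + 1)) F).charpoly.coeff 0) := by
          ring
      _ = (-1) ^ (k + 1) := by rw [← h1, mul_one]
  have hbij : Nat.card {c : ConjClasses (Matrix.SpecialLinearGroup (Fin (k + 1)) F) //
      ∃ g : Matrix.SpecialLinearGroup (Fin (k + 1)) F, ConjClasses.mk g = c ∧ (orderOf g).Coprime p} =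
      Nat.card {f : Polynomial F // f.Monic ∧ f.natDegree = k + 1 ∧ f.coeff 0 = (-1) ^ (k + 1)} := by
    apply Nat.card_congr
    refine Equiv.ofBijective (fun c => ⟨cp c.1, ?_⟩) ⟨?_, ?_⟩
    · obtain ⟨g, hg, -⟩ := c.2
      rw [← hg, hcp]
      exact hprop g
    · rintro ⟨c, g, rfl, hg⟩ ⟨c', g', rfl, hg'⟩ h
      have h' : (g : Matrix (Fin (k + 1)) (Fin (k + 1)) F).charpoly =
        (g' : Matrix (Fin (k + 1)) (Fin (k + 1)) F).charpoly := congrArg Subtype.val h
      apply Subtype.ext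
      exact ConjClasses.mk_eq_mk_iff_isConj.2 (conj_SL p (k + 1) g g' hg hg' h')
    · rintro ⟨f, hf1, hf2, hf3⟩
      obtain ⟨g, hg, hgf⟩ := exists_GL_coprime p f hf1 hf2
        (by rw [hf3]; exact pow_ne_zero _ (neg_ne_zero.2 one_ne_zero))
      have hdet : (g : Matrix (Fin (k + 1)) (Fin (k + 1)) F).det = 1 := by
        rw [Matrix.det_eq_sign_charpoly_coeff, hgf, hf3, Fintype.card_fin, hsq]
      let s : Matrix.SpecialLinearGroup (Fin (k + 1)) F := ⟨(g : Matrix (Fin (k + 1)) (Fin (k + 1)) F), hdet⟩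
      have hs : Matrix.SpecialLinearGroup.toGL s = g := Units.ext rfl
      have hinj : Function.Injective (Matrix.SpecialLinearGroup.toGL (n := Fin (k + 1)) (R := F)) := by
        intro a b hab
        apply Subtype.ext
        exact congrArg Units.val hab
      have ho : orderOf s = orderOf g := by
        rw [← hs, orderOf_injective _ hinj]
      exact ⟨⟨ConjClasses.mk s, s, rfl, ho ▸ hg⟩, Subtype.ext hgf⟩
  rw [hbij, card_monic k (fun a => a = (-1) ^ (k + 1)), hq, Nat.add_sub_cancel]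
  simp

end Cfsg.Agent.S2384
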