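import Cfsg.Statements.S2387
import Cfsg.Agent.Lib.Helper50.SemiClass

set_option autoImplicit false
open Cfsg
open Cfsg.Agent.Lib.Helper50.SemiConj

namespace Cfsg.Agent.S2387

/-- In `GL_n(q)` with `n ≥ 1`, `q` a power of the prime `p`, the number of conjugacy classes of elements of order prime to `p` (diagonalisable over the algebraic closure; determined by the characteristic polynomial) is `(q - 1) q^(n-1)`. -/
theorem result {F : Type*} [Field F] [Fintype F] {q : ℕ} (hq : Fintype.card F = q) (p : ℕ) [Fact p.Prime] [CharP F p] (n : ℕ) (hn : 1 ≤ n) :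
    Nat.card {c : ConjClasses (GL (Fin n) F) // ∃ g : GL (Fin n) F, ConjClasses.mk g = c ∧ (orderOf g).Coprime p} = (q - 1) * q ^ (n - 1) := by
  classical
  obtain ⟨k, rfl⟩ : ∃ k, n = k + 1 := ⟨n - 1, by omega⟩
  let cp : ConjClasses (GL (Fin (k + 1)) F) → Polynomial F :=
    Quotient.lift (fun g : GL (Fin (k + 1)) F => (g : Matrix (Fin (k + 1)) (Fin (k + 1)) F).charpoly) (by
      intro a b hab
      obtain ⟨c, hc⟩ := isConj_iff.1 hab
      show (a : Matrix (Fin (k + 1)) (Fin (k + 1)) F).charpoly = (b : Matrix (Fin (k + 1)) (Fin (k + 1)) F).charpoly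
      rw [← hc, Units.val_mul, Units.val_mul, Matrix.charpoly_mul_comm, ← mul_assoc, Units.inv_mul, one_mul])
  have hcp : ∀ g : GL (Fin (k + 1)) F, cp (ConjClasses.mk g) = (g : Matrix (Fin (k + 1)) (Fin (k + 1)) F).charpoly :=
    fun g => rfl
  have hprop : ∀ g : GL (Fin (k + 1)) F, (g : Matrix (Fin (k + 1)) (Fin (k + 1)) F).charpoly.Monic ∧
      (g : Matrix (Fin (k + 1)) (Fin (k + 1)) F).charpoly.natDegree = k + 1 ∧
      (g : Matrix (Fin (k + 1)) (Fin (k + 1)) F).charpoly.coeff 0 ≠ 0 := by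
    intro g
    refine ⟨Matrix.charpoly_monic _, by simp, ?_⟩
    intro h0
    have h1 := Matrix.det_eq_sign_charpoly_coeff (g : Matrix (Fin (k + 1)) (Fin (k + 1)) F)
    rw [h0, mul_zero] at h1
    have h2 : IsUnit (g : Matrix (Fin (k + 1)) (Fin (k + 1)) F).det :=
      (Matrix.isUnit_iff_isUnit_det _).1 g.isUnit
    rw [h1] at h2
    exact not_isUnit_zero h2
  have hbij : Nat.card {c : ConjClasses (GL (Fin (k + 1)) F) //
      ∃ g : GL (Fin (k + 1)) F, ConjClasses.mk g = c ∧ (orderOf g).Coprime p} =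
      Nat.card {f : Polynomial F // f.Monic ∧ f.natDegree = k + 1 ∧ f.coeff 0 ≠ 0} := by
    apply Nat.card_congr
    refine Equiv.ofBijective (fun c => ⟨cp c.1, ?_⟩) ⟨?_, ?_⟩
    · obtain ⟨g, hg, -⟩ := c.2
      rw [← hg, hcp]
      exact hprop g
    · rintro ⟨c, g, rfl, hg⟩ ⟨c', g', rfl, hg'⟩ h
      have h' : (g : Matrix (Fin (k + 1)) (Fin (k + 1)) F).charpoly =
        (g' : Matrix (Fin (k + 1)) (Fin (k + 1)) F).charpoly := congrArg Subtype.val h
      obtain ⟨x, hx⟩ := conj_GL p g g' hg hg' h'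
      apply Subtype.ext
      exact ConjClasses.mk_eq_mk_iff_isConj.2 (isConj_iff.2 ⟨x, hx⟩)
    · rintro ⟨f, hf1, hf2, hf3⟩
      obtain ⟨g, hg, hgf⟩ := exists_GL_coprime p f hf1 hf2 hf3
      exact ⟨⟨ConjClasses.mk g, g, rfl, hg⟩, Subtype.ext hgf⟩
  rw [hbij, card_monic k (fun a => a ≠ 0), hq, Nat.add_sub_cancel]
  congr 1
  rw [← Nat.card_congr (unitsEquivNeZero (G₀ := F)), Nat.card_eq_fintype_card, Fintype.card_units, hq]

end Cfsg.Agent.S2387
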