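import Cfsg.Statements.S2389
import Cfsg.Agent.Lib.Helper50.SpConj
import Cfsg.Agent.Lib.Helper50.SemiClass

set_option autoImplicit false
open Cfsg

namespace Cfsg.Agent.S2389

/-- In the symplectic group `Sp_{2n}(q)`, `q` a power of the prime `p`, two elements of order prime to `p` with the same characteristic polynomial are conjugate in `Sp_{2n}(q)`. -/
theorem result {F : Type*} [Field F] [Fintype F] (p : ℕ) [Fact p.Prime] [CharP F p] (n : ℕ)
    (g h : ↥(Matrix.symplecticGroup (Fin n) F)) (hg : (orderOf g).Coprime p) (hh : (orderOf h).Coprime p)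
    (hc : (g : Matrix (Fin n ⊕ Fin n) (Fin n ⊕ Fin n) F).charpoly = (h : Matrix (Fin n ⊕ Fin n) (Fin n ⊕ Fin n) F).charpoly) :
    IsConj g h := by
  have hp1 : p ≠ 1 := (Fact.out : p.Prime).ne_one
  obtain ⟨x, hx⟩ := Cfsg.Agent.Lib.Helper50.SemiConj.exists_conj_of_pow
    (g : Matrix (Fin n ⊕ Fin n) (Fin n ⊕ Fin n) F) (h : Matrix (Fin n ⊕ Fin n) (Fin n ⊕ Fin n) F)
    (orderOf g) (orderOf h)
    (Cfsg.Agent.Lib.Helper50.SemiConj.cast_ne_zero_of_coprime p hg hp1)
    (Cfsg.Agent.Lib.Helper50.SemiConj.cast_ne_zero_of_coprime p hh hp1)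
    (by rw [← SubmonoidClass.coe_pow, pow_orderOf_eq_one]; rfl)
    (by rw [← SubmonoidClass.coe_pow, pow_orderOf_eq_one]; rfl) hc
  exact Cfsg.Agent.Lib.Helper50.SpConj.conj_Sp g h (orderOf g)
    (Cfsg.Agent.Lib.Helper50.SemiConj.cast_ne_zero_of_coprime p hg hp1) (pow_orderOf_eq_one g) x hx

end Cfsg.Agent.S2389
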