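import Cfsg.Statements.S2391
import Mathlib
-- import your own Cfsg.Agent.* helpers here

set_option autoImplicit false
open Cfsg

namespace Cfsg.Agent.S2391

theorem exists_fixed {F : Type*} [Field F] (p : ℕ) [Fact p.Prime] [CharP F p]
    {G V : Type*} [Group G] [AddCommGroup V] [Module F V] [Finite V]
    (hG : IsPGroup p G) (ρ : G →* Module.End F V) (W : Submodule F V)
    (hW : ∀ g, W ≤ W.comap (ρ g)) (hne : W ≠ ⊤) : ∃ v, v ∉ W ∧ ∀ g, ρ g v - v ∈ W := by
  let act : MulAction G (V ⧸ W) :=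
    { smul := fun g x => W.mapQ W (ρ g) (hW g) x
      one_smul := by
        intro x
        obtain ⟨v, rfl⟩ := Submodule.mkQ_surjective W x
        change W.mapQ W (ρ 1) (hW 1) (W.mkQ v) = W.mkQ v
        simp
      mul_smul := by
        intro g h x
        obtain ⟨v, rfl⟩ := Submodule.mkQ_surjective W x
        change W.mapQ W (ρ (g * h)) (hW (g * h)) (W.mkQ v) =
          W.mapQ W (ρ g) (hW g) (W.mapQ W (ρ h) (hW h) (W.mkQ v))
        simp }
  have hsmul : ∀ (g : G) (v : V), g • (W.mkQ v) = W.mkQ (ρ g v) := by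
    intro g v
    change W.mapQ W (ρ g) (hW g) (W.mkQ v) = W.mkQ (ρ g v)
    simp
  have hnt : Nontrivial (V ⧸ W) := Submodule.Quotient.nontrivial_iff.2 hne
  have hfinq : Finite (V ⧸ W) := Finite.of_surjective W.mkQ (Submodule.mkQ_surjective W)
  have hdvd : p ∣ Nat.card (V ⧸ W) := by
    obtain ⟨x, hx⟩ := exists_ne (0 : V ⧸ W)
    have h1 : p • x = 0 := by
      have : ((p : F)) • x = 0 := by rw [CharP.cast_eq_zero F p, zero_smul]
      rwa [Nat.cast_smul_eq_nsmul] at this
    have h2 : addOrderOf x = p := addOrderOf_eq_prime h1 hx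
    rw [← h2]
    exact addOrderOf_dvd_natCard x
  have h0 : (0 : V ⧸ W) ∈ MulAction.fixedPoints G (V ⧸ W) := by
    intro g
    have := hsmul g 0
    simpa using this
  obtain ⟨b, hb, hb0⟩ := hG.exists_fixed_point_of_prime_dvd_card_of_fixed_point (V ⧸ W) hdvd h0
  obtain ⟨v, rfl⟩ := Submodule.mkQ_surjective W b
  refine ⟨v, ?_, ?_⟩
  · intro hv
    apply hb0
    exact ((Submodule.Quotient.mk_eq_zero W).2 hv).symm
  · intro g
    have := hb g
    rw [hsmul] at this
    simpa [Submodule.Quotient.eq] using this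

/-- the ascending fixed-point series -/
def ser {F : Type*} [Field F] {G V : Type*} [Group G] [AddCommGroup V] [Module F V]
    (ρ : G →* Module.End F V) : ℕ → Submodule F V
  | 0 => ⊥
  | (i + 1) => ⨅ g : G, (ser ρ i).comap (ρ g - 1)

theorem mem_ser_succ {F : Type*} [Field F] {G V : Type*} [Group G] [AddCommGroup V] [Module F V]
    (ρ : G →* Module.End F V) (i : ℕ) (v : V) :
    v ∈ ser ρ (i + 1) ↔ ∀ g, ρ g v - v ∈ ser ρ i := by
  simp [ser, Submodule.mem_iInf]

theorem ser_mono {F : Type*} [Field F] {G V : Type*} [Group G] [AddCommGroup V] [Module F V]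
    (ρ : G →* Module.End F V) (i : ℕ) : ser ρ i ≤ ser ρ (i + 1) := by
  induction i with
  | zero => simp [ser]
  | succ i ih =>
    intro v hv
    rw [mem_ser_succ] at hv ⊢
    exact fun g => ih (hv g)

theorem ser_inv {F : Type*} [Field F] {G V : Type*} [Group G] [AddCommGroup V] [Module F V]
    (ρ : G →* Module.End F V) (i : ℕ) (g : G) : ser ρ i ≤ (ser ρ i).comap (ρ g) := by
  intro v hv
  have h1 : v ∈ ser ρ (i + 1) := ser_mono ρ i hv
  rw [mem_ser_succ] at h1
  have := (ser ρ i).add_mem (h1 g) hv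
  simpa using this

theorem ser_lt {F : Type*} [Field F] (p : ℕ) [Fact p.Prime] [CharP F p]
    {G V : Type*} [Group G] [AddCommGroup V] [Module F V] [Finite V]
    (hG : IsPGroup p G) (ρ : G →* Module.End F V) (i : ℕ) (hne : ser ρ i ≠ ⊤) :
    ser ρ i < ser ρ (i + 1) := by
  obtain ⟨v, hv, hv'⟩ := exists_fixed p hG ρ (ser ρ i) (ser_inv ρ i) hne
  refine lt_of_le_of_ne (ser_mono ρ i) ?_
  intro h
  apply hv
  rw [h, mem_ser_succ]
  exact hv'

theorem ser_top {F : Type*} [Field F] (p : ℕ) [Fact p.Prime] [CharP F p]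
    {G V : Type*} [Group G] [AddCommGroup V] [Module F V] [Finite V]
    (hG : IsPGroup p G) (ρ : G →* Module.End F V) : ∃ i, ser ρ i = ⊤ := by
  by_contra hcon
  push Not at hcon
  have : StrictMono (ser ρ) := strictMono_nat_of_lt_succ fun i => ser_lt p hG ρ i (hcon i)
  have hfin : Module.Finite F V := Module.Finite.of_finite
  exact not_strictMono_of_wellFoundedGT _ this

/-- The Borel–Tits property of `SL_n(q)` in flag form: for a field `F` of characteristic `p` with finitely many elements and a non-trivial `p`-subgroup `U` of `SL_n(F)`, there is a flag `0 = V₀ < V₁ < ⋯ < V_{k+1} = F^n` with at least one proper non-zero member such that every element of the normaliser of `U` maps each `V_i` onto itself and every element of `U` acts trivially on each quotient `V_{i+1}/V_i` (so the normaliser lies in the parabolic subgroup of the flag and `U` in its unipotent radical). -/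
theorem result {F : Type*} [Field F] [Fintype F] (p : ℕ) [Fact p.Prime] [CharP F p] (n : ℕ)
    (U : Subgroup (Matrix.SpecialLinearGroup (Fin n) F)) (hU : IsPGroup p ↥U) (hne : U ≠ ⊥) :
    ∃ (k : ℕ) (V : Fin (k + 2) → Submodule F (Fin n → F)), 1 ≤ k ∧ StrictMono V ∧ V 0 = ⊥ ∧ V (Fin.last (k + 1)) = ⊤ ∧
      (∀ g ∈ Subgroup.normalizer (U : Set (Matrix.SpecialLinearGroup (Fin n) F)), ∀ i, (V i).map (Matrix.mulVecLin (g : Matrix (Fin n) (Fin n) F)) = V i) ∧
      (∀ u ∈ U, ∀ i : Fin (k + 1), ∀ v ∈ V i.succ, (u : Matrix (Fin n) (Fin n) F).mulVec v - v ∈ V (Fin.castSucc i)) := by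
  classical
  let ρ : U →* Module.End F (Fin n → F) :=
    { toFun := fun u => Matrix.mulVecLin ((u : Matrix.SpecialLinearGroup (Fin n) F) : Matrix (Fin n) (Fin n) F)
      map_one' := by ext; simp
      map_mul' := by
        intro a b
        ext v
        simp [Matrix.mulVecLin_mul] }
  have hρ : ∀ (u : U) (v : Fin n → F), ρ u v =
      ((u : Matrix.SpecialLinearGroup (Fin n) F) : Matrix (Fin n) (Fin n) F).mulVec v := fun u v => rfl
  have hex := ser_top p hU ρ
  obtain ⟨K, hK, hmin⟩ : ∃ K, ser ρ K = ⊤ ∧ ∀ i < K, ser ρ i ≠ ⊤ :=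
    ⟨Nat.find hex, Nat.find_spec hex, fun i hi => Nat.find_min hex hi⟩
  have h1 : ser ρ 1 ≠ ⊤ := by
    intro h
    apply hne
    rw [Subgroup.eq_bot_iff_forall]
    intro u hu
    apply Subtype.ext
    apply Matrix.ext_of_mulVec_single
    intro j
    have hv : (Pi.single j 1 : Fin n → F) ∈ ser ρ (0 + 1) := by rw [zero_add, h]; trivial
    rw [mem_ser_succ] at hv
    have := hv ⟨u, hu⟩
    simp only [ser, Submodule.mem_bot, sub_eq_zero] at this
    rw [hρ] at this
    rw [this]
    change _ = (1 : Matrix (Fin n) (Fin n) F).mulVec _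
    rw [Matrix.one_mulVec]
  have hK2 : 2 ≤ K := by
    by_contra hcon
    have : K = 0 ∨ K = 1 := by omega
    rcases this with rfl | rfl
    · exact h1 (top_le_iff.1 (hK ▸ ser_mono ρ 0))
    · exact h1 hK
  obtain ⟨k, rfl⟩ : ∃ k, K = k + 1 := ⟨K - 1, by omega⟩
  have hnorm : ∀ (i : ℕ), ∀ g ∈ Subgroup.normalizer (U : Set (Matrix.SpecialLinearGroup (Fin n) F)),
      ∀ v ∈ ser ρ i, (g : Matrix (Fin n) (Fin n) F).mulVec v ∈ ser ρ i := by
    intro i
    induction i with
    | zero =>
      intro g _ v hv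
      simp only [ser, Submodule.mem_bot] at hv ⊢
      simp [hv]
    | succ i ih =>
      intro g hg v hv
      rw [mem_ser_succ] at hv ⊢
      intro u
      have hu' : g⁻¹ * (u : Matrix.SpecialLinearGroup (Fin n) F) * g ∈ U :=
        (Subgroup.mem_normalizer_iff''.1 hg _).1 u.2
      have h2 := ih g hg _ (hv ⟨_, hu'⟩)
      rw [hρ] at h2 ⊢
      rw [Matrix.mulVec_sub, Matrix.mulVec_mulVec, ← Matrix.SpecialLinearGroup.coe_mul] at h2
      rw [Matrix.mulVec_mulVec, ← Matrix.SpecialLinearGroup.coe_mul]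
      have h3 : g * (g⁻¹ * (u : Matrix.SpecialLinearGroup (Fin n) F) * g) = u * g := by group
      simpa [h3] using h2
  refine ⟨k, fun i => ser ρ i, by omega, ?_, rfl, by simpa using hK, ?_, ?_⟩
  · rw [Fin.strictMono_iff_lt_succ]
    intro i
    have : (i : ℕ) < k + 1 := i.2
    simpa using ser_lt p hU ρ i (hmin i this)
  · intro g hg i
    apply le_antisymm
    · rintro _ ⟨v, hv, rfl⟩
      exact hnorm i g hg v hv
    · intro v hv
      refine ⟨(g⁻¹ : Matrix.SpecialLinearGroup (Fin n) F).1.mulVec v, hnorm i g⁻¹ (inv_mem hg) v hv, ?_⟩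
      rw [Matrix.mulVecLin_apply, Matrix.mulVec_mulVec, ← Matrix.SpecialLinearGroup.coe_mul]
      simp
  · intro u hu i v hv
    have hv' : v ∈ ser ρ ((i : ℕ) + 1) := by simpa using hv
    rw [mem_ser_succ] at hv'
    have h4 := hv' ⟨u, hu⟩
    rw [hρ] at h4
    simpa using h4

end Cfsg.Agent.S2391
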