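import Cfsg.Statements.S2395
-- import your own Cfsg.Agent.* helpers here

set_option autoImplicit false
open Cfsg

namespace Cfsg.Agent.S2395


open Cfsg.Lie

section general

variable {K : Type*} [Field K] (D : ChevalleyDatum)

/-- the free group mapped to the abelianization of the presented group -/
noncomputable def phi : FreeGroup (Fin D.nroots × K) →* Abelianization (D.SteinbergCover K) :=
  Abelianization.of.comp (PresentedGroup.mk (D.steinbergRelsAB K))

/-- image of a generator -/
noncomputable def f (r : ℕ) (t : K) : Abelianization (D.SteinbergCover K) := phi D (D.stX r t)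

theorem phi_rel (g : FreeGroup (Fin D.nroots × K)) (hg : g ∈ D.steinbergRelsAB K) : phi D g = 1 := by
  simp only [phi, MonoidHom.comp_apply]
  rw [PresentedGroup.one_of_mem hg, map_one]

theorem f_add (r : ℕ) (t₁ t₂ : K) : f D r t₁ * f D r t₂ = f D r (t₁ + t₂) := by
  by_cases hr : r < D.nroots
  · have h := phi_rel D (D.stX r t₁ * D.stX r t₂ * (D.stX r (t₁ + t₂))⁻¹)
      (Or.inl ⟨r, t₁, t₂, hr, rfl⟩)
    rw [map_mul, map_mul, map_inv, mul_inv_eq_one] at h
    exact h
  · simp [f, ChevalleyDatum.stX, hr]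

theorem f_word (w : List (ℕ × K)) : phi D (D.stWord w) = (w.map fun p => f D p.1 p.2).prod := by
  simp only [ChevalleyDatum.stWord, map_list_prod, List.map_map]
  rfl

theorem f_comm (r s : ℕ) (hr : r < D.nroots) (hs : s < D.nroots) (h1 : s ≠ r) (h2 : s ≠ D.neg r)
    (t u : K) : ((D.commWord K r s t u).map fun p => f D p.1 p.2).prod = 1 := by
  have h := phi_rel D _ (Or.inr ⟨r, s, t, u, hr, hs, h1, h2, rfl⟩)
  rw [map_mul, map_mul, map_mul, map_mul, map_inv, map_inv, map_inv, f_word] at h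
  have h3 : (phi D (D.stX s u))⁻¹ * (phi D (D.stX r t))⁻¹ * phi D (D.stX s u) * phi D (D.stX r t) = 1 := by
    rw [mul_comm (phi D (D.stX s u))⁻¹, mul_assoc (phi D (D.stX r t))⁻¹, inv_mul_cancel, mul_one,
      inv_mul_cancel]
  rw [h3, one_mul, inv_eq_one] at h
  exact h

/-- the root subgroup dies in the abelianization -/
def Triv (K : Type*) [Field K] (D : ChevalleyDatum) (k : ℕ) : Prop := ∀ v : K, f D k v = 1

theorem step1 (r s k : ℕ) (C : ℤ) (hr : r < D.nroots) (hs : s < D.nroots) (h1 : s ≠ r)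
    (h2 : s ≠ D.neg r) (hC : C = 1 ∨ C = -1) (hT : D.commTerms r s = [(k, C, 1, 1)]) : Triv K D k := by
  intro v
  have h := f_comm D r s hr hs h1 h2 (-(C : K) * v) 1
  simp only [ChevalleyDatum.commWord, hT, List.map_cons, List.map_nil, List.prod_cons, List.prod_nil,
    mul_one, pow_one, one_pow] at h
  have hCC : (C : K) * (C : K) = 1 := by
    rcases hC with rfl | rfl <;> simp
  have : (C : K) * -(-(C : K) * v) = v := by linear_combination v * hCC
  rwa [this] at h

theorem two_term {A : Type*} [CommGroup A] (g₁ g₂ : K → A)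
    (a₁ : ∀ a b, g₁ a * g₁ b = g₁ (a + b)) (a₂ : ∀ a b, g₂ a * g₂ b = g₂ (a + b))
    (c₁ c₂ : K) (hc₁ : c₁ ≠ 0) (hc₂ : c₂ ≠ 0) (x : K) (hx0 : x ≠ 0) (hx1 : x ≠ 1)
    (H : ∀ a u, g₁ (c₁ * a * u) * g₂ (c₂ * a * u ^ 2) = 1) :
    (∀ v, g₁ v = 1) ∧ (∀ v, g₂ v = 1) := by
  have z₂ : g₂ 0 = 1 := by
    have := a₂ 0 0
    rw [add_zero] at this
    exact mul_eq_left.1 this
  have n₂ : ∀ a, g₂ (-a) = (g₂ a)⁻¹ := by
    intro a
    have := a₂ (-a) a
    rw [neg_add_cancel, z₂] at this
    exact eq_inv_of_mul_eq_one_left this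
  have E1 : ∀ a, g₁ (c₁ * a) * g₂ (c₂ * a) = 1 := by
    intro a
    have := H a 1
    simpa using this
  have T2 : ∀ v, g₂ v = 1 := by
    intro v
    have hx1' : x - 1 ≠ 0 := sub_ne_zero.2 hx1
    set a := v / (c₂ * x * (x - 1)) with ha
    have e1 := E1 (a * x)
    have e2 := H a x
    rw [← mul_assoc] at e1
    have e3 : g₂ (c₂ * a * x ^ 2) = g₂ (c₂ * (a * x)) := by
      have : g₁ (c₁ * a * x) * g₂ (c₂ * a * x ^ 2) = g₁ (c₁ * a * x) * g₂ (c₂ * (a * x)) := by
        rw [e1, e2]
      exact mul_left_cancel this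
    have e4 : g₂ (c₂ * a * x ^ 2 + -(c₂ * (a * x))) = 1 := by
      rw [← a₂, n₂, e3, mul_inv_cancel]
    have e5 : c₂ * a * x ^ 2 + -(c₂ * (a * x)) = v := by
      rw [ha]; field_simp; ring
    rwa [e5] at e4
  refine ⟨?_, T2⟩
  intro v
  have := E1 (v / c₁)
  rw [T2, mul_one] at this
  have e : c₁ * (v / c₁) = v := by field_simp
  rwa [e] at this

theorem step2 (hK : ∃ x : K, x ≠ 0 ∧ x ≠ 1) (r s k₁ k₂ : ℕ) (C₁ C₂ : ℤ) (i₂ j₂ : ℕ)
    (rest : List (ℕ × ℤ × ℕ × ℕ))
    (hr : r < D.nroots) (hs : s < D.nroots) (h1 : s ≠ r)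
    (h2 : s ≠ D.neg r) (hC₁ : C₁ = 1 ∨ C₁ = -1) (hC₂ : C₂ = 1 ∨ C₂ = -1)
    (hij : (i₂ = 1 ∧ j₂ = 2) ∨ (i₂ = 2 ∧ j₂ = 1))
    (hT : D.commTerms r s = (k₁, C₁, 1, 1) :: (k₂, C₂, i₂, j₂) :: rest)
    (hrest : ∀ c ∈ rest, Triv K D c.1) : Triv K D k₁ ∧ Triv K D k₂ := by
  obtain ⟨x, hx0, hx1⟩ := hK
  have hc₁ : (C₁ : K) ≠ 0 := by rcases hC₁ with rfl | rfl <;> simp
  have hc₂ : (C₂ : K) ≠ 0 := by rcases hC₂ with rfl | rfl <;> simp
  have key : ∀ t u : K, f D k₁ ((C₁ : K) * (-t) ^ 1 * u ^ 1) * f D k₂ ((C₂ : K) * (-t) ^ i₂ * u ^ j₂) = 1 := by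
    intro t u
    have h := f_comm D r s hr hs h1 h2 t u
    simp only [ChevalleyDatum.commWord, hT, List.map_cons, List.prod_cons, List.map_map] at h
    rw [List.prod_eq_one, mul_one] at h
    · exact h
    · intro y hy
      obtain ⟨c, hc, rfl⟩ := List.mem_map.1 hy
      exact hrest c hc _
  rcases hij with ⟨rfl, rfl⟩ | ⟨rfl, rfl⟩
  · refine two_term (f D k₁) (f D k₂) (f_add D k₁) (f_add D k₂) C₁ C₂ hc₁ hc₂ x hx0 hx1 ?_
    intro a u
    have := key (-a) u
    simpa using this
  · refine two_term (f D k₁) (f D k₂) (f_add D k₁) (f_add D k₂) C₁ C₂ hc₁ hc₂ x hx0 hx1 ?_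
    intro a u
    have := key (-u) a
    simp only [neg_neg, pow_one] at this
    have e1 : (C₁ : K) * a * u = (C₁ : K) * u * a := by ring
    have e2 : (C₂ : K) * a * u ^ 2 = (C₂ : K) * u ^ 2 * a := by ring
    rw [e1, e2]
    exact this

theorem perfect_of_triv (h : ∀ k < D.nroots, Triv K D k) : commutator (D.SteinbergCover K) = ⊤ := by
  have hphi : phi (K := K) D = 1 := by
    apply FreeGroup.ext_hom
    rintro ⟨⟨r, hr⟩, t⟩
    have := h r hr t
    simpa [f, ChevalleyDatum.stX, hr] using this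
  rw [eq_top_iff]
  intro g _
  rw [← Abelianization.ker_of, MonoidHom.mem_ker]
  obtain ⟨y, rfl⟩ := PresentedGroup.mk_surjective _ g
  have := congrArg (fun ψ => ψ y) hphi
  simpa [phi] using this

/-- boolean certificate check for a root that is a plain commutator -/
def good (D : ChevalleyDatum) (k : ℕ) (rs : ℕ × ℕ) : Bool :=
  decide (rs.1 < D.nroots) && decide (rs.2 < D.nroots) && decide (rs.2 ≠ rs.1) &&
    decide (rs.2 ≠ D.neg rs.1) &&
    (decide (D.commTerms rs.1 rs.2 = [(k, 1, 1, 1)]) || decide (D.commTerms rs.1 rs.2 = [(k, -1, 1, 1)]))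

theorem triv_of_good (k : ℕ) (rs : ℕ × ℕ) (h : good D k rs = true) : Triv K D k := by
  simp only [good, Bool.and_eq_true, Bool.or_eq_true, decide_eq_true_eq] at h
  obtain ⟨⟨⟨⟨hr, hs⟩, h1⟩, h2⟩, h3⟩ := h
  rcases h3 with h3 | h3
  · exact step1 D rs.1 rs.2 k 1 hr hs h1 h2 (Or.inl rfl) h3
  · exact step1 D rs.1 rs.2 k (-1) hr hs h1 h2 (Or.inr rfl) h3

theorem perfect_of_cert (wit : Array (ℕ × ℕ))
    (h : ∀ k < D.nroots, good D k (wit.getD k (0, 0)) = true) :
    commutator (D.SteinbergCover K) = ⊤ :=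
  perfect_of_triv D fun k hk => triv_of_good D k _ (h k hk)

end general

def witD4 : Array (ℕ × ℕ) := #[(1, 9), (0, 14), (0, 15), (0, 16), (0, 17), (1, 17), (0, 19), (0, 20), (0, 21), (0, 22), (1, 20), (1, 21), (2, 22), (3, 22), (1, 23), (2, 23), (3, 23), (4, 23), (6, 22), (6, 23), (7, 23), (8, 23), (9, 23), (14, 22)]

theorem certD4 : ∀ k < chevD4.nroots, good chevD4 k (witD4.getD k (0, 0)) = true := by
  decide +kernel

def witF4 : Array (ℕ × ℕ) := #[(1, 23), (0, 24), (0, 26), (7, 14), (0, 31), (0, 32), (1, 32), (3, 33), (3, 34), (3, 35), (3, 36), (3, 37), (3, 38), (3, 39), (3, 40), (0, 42), (0, 43), (1, 43), (7, 37), (7, 38), (7, 39), (0, 45), (1, 45), (0, 46), (1, 47), (2, 46), (2, 47), (8, 40), (9, 40), (10, 40), (4, 46), (4, 47), (5, 47), (7, 44), (8, 44), (9, 44), (10, 44), (11, 44), (12, 44), (13, 44), (14, 44), (15, 46), (15, 47), (16, 47), (33, 40), (21, 47), (23, 47), (24, 46)]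

theorem certF4 : ∀ k < chevF4.nroots, good chevF4 k (witF4.getD k (0, 0)) = true := by
  decide +kernel

def witE6 : Array (ℕ × ℕ) := #[(1, 25), (0, 46), (0, 47), (0, 48), (0, 49), (0, 50), (0, 51), (0, 52), (0, 53), (0, 54), (0, 55), (1, 53), (1, 54), (1, 55), (2, 55), (5, 55), (0, 61), (0, 62), (0, 63), (0, 64), (0, 65), (0, 66), (0, 67), (0, 68), (0, 69), (0, 70), (1, 64), (1, 65), (1, 66), (2, 66), (1, 67), (1, 68), (1, 69), (2, 67), (2, 68), (3, 67), (4, 68), (3, 69), (4, 69), (2, 70), (3, 70), (4, 70), (5, 69), (5, 70), (6, 70), (7, 70), (1, 71), (2, 71), (3, 71), (4, 71), (5, 71), (6, 71), (7, 71), (8, 71), (9, 71), (10, 71), (16, 66), (16, 69), (16, 70), (17, 70), (18, 70), (16, 71), (17, 71), (18, 71), (19, 71), (20, 71), (21, 71), (22, 71), (23, 71), (24, 71), (25, 71), (46, 70)]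

theorem certE6 : ∀ k < chevE6.nroots, good chevE6 k (witE6.getD k (0, 0)) = true := by
  decide +kernel

def witE7 : Array (ℕ × ℕ) := #[(1, 32), (0, 93), (0, 94), (0, 95), (0, 96), (0, 97), (0, 98), (0, 99), (0, 100), (0, 101), (0, 102), (0, 103), (0, 104), (0, 105), (0, 106), (0, 107), (0, 108), (0, 109), (0, 110), (0, 111), (0, 112), (0, 113), (0, 114), (0, 115), (0, 116), (0, 117), (0, 118), (0, 119), (0, 120), (0, 121), (0, 122), (0, 123), (0, 124), (1, 109), (1, 110), (1, 111), (1, 112), (1, 113), (1, 114), (1, 115), (1, 116), (1, 117), (1, 118), (2, 115), (2, 116), (2, 117), (2, 118), (3, 118), (1, 119), (1, 120), (1, 121), (1, 122), (1, 123), (2, 119), (2, 120), (2, 121), (2, 122), (3, 119), (3, 120), (3, 121), (4, 119), (4, 120), (5, 119), (6, 120), (5, 121), (6, 121), (4, 122), (5, 122), (6, 122), (3, 123), (4, 123), (5, 123), (6, 123), (2, 124), (3, 124), (4, 124), (5, 124), (6, 124), (7, 122), (7, 123), (8, 123), (9, 123), (10, 123), (7, 124), (8, 124), (9, 124),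 (10, 124), (11, 124), (12, 124), (13, 124), (14, 124), (15, 124), (16, 124), (1, 125), (2, 125), (3, 125), (4, 125), (5, 125), (6, 125), (7, 125), (8, 125), (9, 125), (10, 125), (11, 125), (12, 125), (13, 125), (14, 125), (15, 125), (16, 125), (17, 125), (18, 125), (19, 125), (20, 125), (21, 125), (22, 125), (23, 125), (24, 125), (25, 125), (26, 125), (27, 125), (28, 125), (29, 125), (30, 125), (31, 125), (32, 125), (93, 124)]

theorem certE7 : ∀ k < chevE7.nroots, good chevE7 k (witE7.getD k (0, 0)) = true := by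
  decide +kernel

def witE8 : Array (ℕ × ℕ) := #[(1, 119), (0, 120), (0, 122), (0, 125), (0, 129), (0, 134), (0, 140), (0, 146), (0, 151), (0, 155), (0, 158), (0, 160), (0, 161), (1, 161), (0, 168), (0, 173), (0, 177), (0, 180), (0, 182), (0, 183), (1, 183), (0, 187), (0, 190), (0, 192), (0, 193), (1, 193), (0, 196), (0, 198), (0, 199), (1, 199), (0, 201), (0, 202), (1, 202), (0, 203), (1, 203), (2, 203), (0, 206), (0, 208), (0, 209), (1, 209), (0, 211), (0, 212), (1, 212), (0, 213), (1, 213), (2, 213), (0, 215), (0, 216), (1, 216), (0, 217), (1, 217), (2, 217), (0, 218), (1, 218), (2, 218), (3, 218), (0, 220), (0, 221), (1, 221), (0, 222), (1, 222), (2, 222), (0, 223), (1, 223), (2, 223), (3, 223), (0, 224), (1, 224), (2, 224), (3, 224), (4, 224), (0, 225), (1, 225), (2, 225), (3, 225), (4, 225), (5, 225), (6, 225), (0, 227), (0, 228), (1, 228), (0, 229), (1, 229), (2, 229), (0, 230), (1, 230), (2, 230), (3, 230), (0, 231), (1, 231), (2, 231), (3, 231), (4, 231), (0, 232),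 (1, 232), (2, 232), (3, 232), (4, 232), (5, 232), (0, 233), (1, 233), (2, 233), (3, 233), (4, 233), (5, 233), (0, 234), (1, 234), (2, 234), (3, 234), (4, 234), (0, 235), (1, 235), (2, 235), (3, 235), (0, 236), (1, 236), (2, 236), (0, 237), (1, 237), (0, 238), (1, 239), (2, 238), (2, 239), (3, 237), (3, 238), (3, 239), (4, 236), (4, 237), (4, 238), (4, 239), (5, 235), (5, 236), (5, 237), (5, 238), (5, 239), (6, 234), (6, 235), (6, 236), (6, 237), (6, 238), (6, 239), (7, 234), (7, 235), (7, 236), (7, 237), (7, 238), (7, 239), (8, 235), (8, 236), (8, 237), (8, 238), (8, 239), (9, 236), (9, 237), (9, 238), (9, 239), (10, 237), (10, 238), (10, 239), (11, 238), (11, 239), (12, 239), (14, 233), (14, 234), (14, 235), (14, 236), (14, 237), (14, 238), (14, 239), (15, 235), (15, 236), (15, 237), (15, 238), (15, 239), (16, 236), (16, 237), (16, 238), (16, 239), (17, 237), (17, 238), (17, 239), (18, 238), (18, 239), (19, 239), (21, 236), (21, 237), (21, 238), (21, 239), (22, 237), (22, 238),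 (22, 239), (23, 238), (23, 239), (24, 239), (26, 237), (26, 238), (26, 239), (27, 238), (27, 239), (28, 239), (30, 238), (30, 239), (31, 239), (33, 239), (36, 237), (36, 238), (36, 239), (37, 238), (37, 239), (38, 239), (40, 238), (40, 239), (41, 239), (43, 239), (46, 238), (46, 239), (47, 239), (49, 239), (52, 239), (56, 238), (56, 239), (57, 239), (59, 239), (62, 239), (66, 239), (71, 239), (78, 238), (78, 239), (79, 239), (81, 239), (84, 239), (88, 239), (93, 239), (99, 239), (105, 239), (110, 239), (114, 239), (117, 239), (119, 239), (120, 238)]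

theorem certE8 : ∀ k < chevE8.nroots, good chevE8 k (witE8.getD k (0, 0)) = true := by
  decide +kernel

/-- The group presented by Steinberg's generators x̄_r(t) subject only to (R1) (additivity) and (R2) (the commutator formula) is perfect, for each of the types G₂, B₂, D₄, F₄, E₆, E₇, E₈ over any field (for types B₂ and G₂ the field must have more than two elements — the cases where the Chevalley group is not simple are set aside). -/
theorem result {K : Type*} [Field K] (D : Cfsg.Lie.ChevalleyDatum) (hD : D ∈ [Cfsg.Lie.chevG2, Cfsg.Lie.chevB2, Cfsg.Lie.chevD4, Cfsg.Lie.chevF4, Cfsg.Lie.chevE6, Cfsg.Lie.chevE7, Cfsg.Lie.chevE8]) (hK : D ∈ [Cfsg.Lie.chevB2, Cfsg.Lie.chevG2] → ∃ x : K, x ≠ 0 ∧ x ≠ 1) :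
    commutator (D.SteinbergCover K) = ⊤ := by
  simp only [List.mem_cons, List.not_mem_nil, or_false] at hD
  rcases hD with rfl | rfl | rfl | rfl | rfl | rfl | rfl
  · have hx := hK (by simp)
    have t0 : Triv K chevG2 0 := triv_of_good chevG2 0 (1, 5) (by decide)
    have t1 : Triv K chevG2 1 := triv_of_good chevG2 1 (0, 6) (by decide)
    have t5 : Triv K chevG2 5 := triv_of_good chevG2 5 (0, 10) (by decide)
    have t6 : Triv K chevG2 6 := triv_of_good chevG2 6 (1, 11) (by decide)
    have t10 : Triv K chevG2 10 := triv_of_good chevG2 10 (5, 11) (by decide)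
    have t11 : Triv K chevG2 11 := triv_of_good chevG2 11 (6, 10) (by decide)
    have a1 := step2 chevG2 hx 0 8 2 4 1 1 1 2 [(6, -1, 1, 3), (1, -2, 2, 3)] (by decide) (by decide)
      (by decide) (by decide) (by decide) (by decide) (by decide) (by decide)
      (by simp only [List.mem_cons, List.not_mem_nil, or_false]; rintro c (rfl | rfl); exacts [t6, t1])
    have a2 := step2 chevG2 hx 0 9 3 7 (-1) (-1) 1 2 [(10, -1, 1, 3), (5, 2, 2, 3)] (by decide) (by decide)
      (by decide) (by decide) (by decide) (by decide) (by decide) (by decide)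
      (by simp only [List.mem_cons, List.not_mem_nil, or_false]; rintro c (rfl | rfl); exacts [t10, t5])
    have a3 := step2 chevG2 hx 1 9 4 8 (-1) 1 1 2 [(11, 1, 1, 3), (6, -2, 2, 3)] (by decide) (by decide)
      (by decide) (by decide) (by decide) (by decide) (by decide) (by decide)
      (by simp only [List.mem_cons, List.not_mem_nil, or_false]; rintro c (rfl | rfl); exacts [t11, t6])
    have a4 := step2 chevG2 hx 5 8 7 9 1 (-1) 1 2 [(11, 1, 1, 3), (10, 2, 2, 3)] (by decide) (by decide)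
      (by decide) (by decide) (by decide) (by decide) (by decide) (by decide)
      (by simp only [List.mem_cons, List.not_mem_nil, or_false]; rintro c (rfl | rfl); exacts [t11, t10])
    apply perfect_of_triv
    intro k hk
    have hk' : k < 12 := hk
    interval_cases k
    exacts [t0, t1, a1.1, a2.1, a1.2, t5, t6, a2.2, a3.2, a4.2, t10, t11]
  · have hx := hK (by simp)
    have a1 := step2 chevB2 hx 0 5 1 3 1 (-1) 1 2 [] (by decide) (by decide)
      (by decide) (by decide) (by decide) (by decide) (by decide) (by decide) (by simp)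
    have a2 := step2 chevB2 hx 0 6 2 4 (-1) 1 1 2 [] (by decide) (by decide)
      (by decide) (by decide) (by decide) (by decide) (by decide) (by decide) (by simp)
    have a3 := step2 chevB2 hx 1 4 2 0 1 1 2 1 [] (by decide) (by decide)
      (by decide) (by decide) (by decide) (by decide) (by decide) (by decide) (by simp)
    have a4 := step2 chevB2 hx 3 6 5 7 1 1 1 2 [] (by decide) (by decide)
      (by decide) (by decide) (by decide) (by decide) (by decide) (by decide) (by simp)
    have a5 := step2 chevB2 hx 2 7 6 4 1 (-1) 2 1 [] (by decide) (by decide)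
      (by decide) (by decide) (by decide) (by decide) (by decide) (by decide) (by simp)
    apply perfect_of_triv
    intro k hk
    have hk' : k < 8 := hk
    interval_cases k
    exacts [a3.2, a1.1, a2.1, a1.2, a2.2, a4.1, a5.1, a4.2]
  · exact perfect_of_cert chevD4 witD4 certD4
  · exact perfect_of_cert chevF4 witF4 certF4
  · exact perfect_of_cert chevE6 witE6 certE6
  · exact perfect_of_cert chevE7 witE7 certE7
  · exact perfect_of_cert chevE8 witE8 certE8

end Cfsg.Agent.S2395
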