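import Cfsg.Statements.S2399
import Cfsg.Agent.Lib.Helper23.StU8
import Cfsg.Agent.Lib.Helper23.StP2

set_option autoImplicit false
open scoped MatrixGroups
open Cfsg

namespace Cfsg.Agent.S2399

/-- Projective representations in the natural characteristic lift: for each of the types G₂, B₂, D₄, F₄, E₆, E₇, E₈ over any field `K` (for types B₂ and G₂ the field must have more than two elements — the cases where the Chevalley group is not simple are set aside), every homomorphism from the Chevalley group to `PGL_n(L) = GL_n(L)/Z`, `L` a field of the same characteristic as `K`, lifts uniquely to a homomorphism from the group Δ presented by (R1), (R2) to `GL_n(L)`, compatibly with the projection Δ → Chevalley group sending x̄_r(t) to x_r(t). -/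
theorem result {K : Type*} [Field K] (D : Cfsg.Lie.ChevalleyDatum) (hD : D ∈ [Cfsg.Lie.chevG2, Cfsg.Lie.chevB2, Cfsg.Lie.chevD4, Cfsg.Lie.chevF4, Cfsg.Lie.chevE6, Cfsg.Lie.chevE7, Cfsg.Lie.chevE8]) (hK : D ∈ [Cfsg.Lie.chevB2, Cfsg.Lie.chevG2] → ∃ x : K, x ≠ 0 ∧ x ≠ 1)
    (θ : D.SteinbergCover K →* ↥(D.group K))
    (hθ : ∀ (r : ℕ) (t : K), r < D.nroots → ((θ (D.scGen K r t) : GL D.Idx K) : Matrix D.Idx D.Idx K) = D.x K r t)
    {L : Type*} [Field L] (hL : ringChar L = ringChar K) {n : ℕ}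
    (φ : ↥(D.group K) →* GL (Fin n) L ⧸ Subgroup.center (GL (Fin n) L)) :
    ∃! ψ : D.SteinbergCover K →* GL (Fin n) L, (QuotientGroup.mk' (Subgroup.center (GL (Fin n) L))).comp ψ = φ.comp θ := by
  have hA := Cfsg.Agent.Lib.Helper23.addFact_of_mem K hD
  have U := Cfsg.Agent.Lib.Helper23.StP.utabs_of_mem hD
  let S := Cfsg.Agent.Lib.Helper23.StP.sysCover hD hA
  have hθS : θ = S.θ := by
    apply PresentedGroup.ext
    rintro ⟨⟨r, hr⟩, t⟩
    rw [Cfsg.Agent.Lib.Helper23.StP.of_eq_X hD hA hr]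
    apply Subtype.ext
    apply Units.ext
    rw [S.θ_X r t]
    exact hθ r t hr
  by_cases hK5 : ∃ s : Finset K, 4 < s.card
  · exact Cfsg.Agent.Lib.Helper23.StP.cover_universal hD U hK5 (QuotientGroup.mk' _)
      (QuotientGroup.mk'_surjective _) (by rw [QuotientGroup.ker_mk']) (φ.comp θ)
  · have hfin : Finite K := by
      by_contra h
      rw [not_finite_iff_infinite] at h
      obtain ⟨s, hs⟩ := Infinite.exists_subset_card_eq K 5
      exact hK5 ⟨s, by omega⟩
    haveI : CharP K (ringChar K) := ringChar.charP K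
    haveI : Fact (ringChar K).Prime := ⟨CharP.char_is_prime K (ringChar K)⟩
    haveI : CharP L (ringChar K) := hL ▸ ringChar.charP L
    have hK' : D = Cfsg.Lie.chevG2 ∨ D = Cfsg.Lie.chevB2 → ∃ x : K, x ≠ 0 ∧ x ≠ 1 := by
      intro h
      apply hK
      rcases h with h | h <;> simp [h]
    obtain ⟨ψ, hψ⟩ := Cfsg.Agent.Lib.Helper23.StP.proj_lift (p := ringChar K) hD hA U.pos hK' φ
    have hψ' : (QuotientGroup.mk' (Subgroup.center (GL (Fin n) L))).comp ψ = φ.comp θ := by
      apply MonoidHom.ext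
      intro x
      rw [MonoidHom.comp_apply, hψ, hθS]
      rfl
    refine ⟨ψ, hψ', ?_⟩
    intro ψ₂ h₂
    apply PresentedGroup.ext
    rintro ⟨⟨r, hr⟩, t⟩
    rw [Cfsg.Agent.Lib.Helper23.StP.of_eq_X hD hA hr]
    have hXp : ∀ k : ℕ, S.X r t ^ k = S.X r ((k : K) * t) := by
      intro k
      induction k with
      | zero => simp [S.X_zero]
      | succ k ih => rw [pow_succ, ih, ← S.add]; congr 1; push_cast; ring
    have hXp1 : S.X r t ^ ringChar K = 1 := by
      rw [hXp, CharP.cast_eq_zero, zero_mul, S.X_zero]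
    have hz : (ψ (S.X r t))⁻¹ * ψ₂ (S.X r t) ∈ Subgroup.center (GL (Fin n) L) := by
      rw [← QuotientGroup.ker_mk' (Subgroup.center (GL (Fin n) L)), MonoidHom.mem_ker, map_mul, map_inv,
        inv_mul_eq_one]
      have e1 := DFunLike.congr_fun hψ' (S.X r t)
      have e2 := DFunLike.congr_fun h₂ (S.X r t)
      rw [MonoidHom.comp_apply] at e1 e2
      rw [e1, e2]
    have hc : Commute (ψ (S.X r t)) ((ψ (S.X r t))⁻¹ * ψ₂ (S.X r t)) :=
      Subgroup.mem_center_iff.1 hz _
    have e3 : ψ₂ (S.X r t) = ψ (S.X r t) * ((ψ (S.X r t))⁻¹ * ψ₂ (S.X r t)) := by group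
    have e4 := hc.mul_pow (ringChar K)
    rw [← e3, ← map_pow, ← map_pow, hXp1, map_one, map_one, one_mul] at e4
    have e5 := Cfsg.Agent.Lib.Helper23.StP.center_pow_p_eq_one (p := ringChar K) hz e4.symm
    rw [e3, e5, mul_one]

end Cfsg.Agent.S2399
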