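import Cfsg.Statements.S2402
import Cfsg.Agent.Lib.Helper45.SLGen
-- import your own Cfsg.Agent.* helpers here

set_option autoImplicit false
open Cfsg

namespace Cfsg.Agent.S2402

/-- Explicit two-element generation of `PSL_{n+1}(K)` for a finite field `K` with more than three elements: let `k` generate the multiplicative group of `K`, `h = diag(k, k⁻¹, 1, …, 1)`, `x = 1 + E₁₂` (the elementary transvection) and `w` the monomial matrix with entries `1` in positions `(i, i+1)` and `(−1)^n` in position `(n+1, 1)`. Then `h` and `x·w` generate `SL_{n+1}(K)` modulo its centre: the subgroup they generate together with the centre is everything. -/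
theorem result {K : Type*} [Field K] [Fintype K] (hK : 3 < Fintype.card K) (n : ℕ) (hn : 1 ≤ n)
    (k : Kˣ) (hk : ∀ u : Kˣ, u ∈ Subgroup.zpowers k)
    (h x w : Matrix.SpecialLinearGroup (Fin (n + 1)) K)
    (hh : (h : Matrix (Fin (n + 1)) (Fin (n + 1)) K) =
      Matrix.diagonal (fun i => if i.val = 0 then (k : K) else if i.val = 1 then ((k⁻¹ : Kˣ) : K) else 1))
    (hx : (x : Matrix (Fin (n + 1)) (Fin (n + 1)) K) = Matrix.transvection (0 : Fin (n + 1)) (1 : Fin (n + 1)) 1)
    (hw : (w : Matrix (Fin (n + 1)) (Fin (n + 1)) K) =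
      Matrix.of (fun i j => if j.val = i.val + 1 then 1 else if i.val = n ∧ j.val = 0 then (-1) ^ n else 0)) :
    Subgroup.closure ({h, x * w} : Set (Matrix.SpecialLinearGroup (Fin (n + 1)) K)) ⊔
      Subgroup.center (Matrix.SpecialLinearGroup (Fin (n + 1)) K) = ⊤ := by
  classical
  obtain ⟨m, rfl⟩ : ∃ m, n = m + 1 := ⟨n - 1, by omega⟩
  have h01 : (0 : Fin (m + 1 + 1)) ≠ 1 := by simp
  -- order facts on k
  have hord : orderOf k = Fintype.card K - 1 := by
    rw [orderOf_eq_card_of_forall_mem_zpowers hk, Nat.card_eq_fintype_card, Fintype.card_units]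
  have hk2 : (k : K) ^ 2 ≠ 1 := by
    intro h2
    have : k ^ 2 = 1 := Units.ext (by simpa using h2)
    have := Nat.le_of_dvd (by norm_num) (orderOf_dvd_of_pow_eq_one this)
    omega
  have hk1 : (k : K) ≠ 1 := by
    intro h1
    apply hk2
    rw [h1]; simp
  have hk0 : (k : K) ≠ 0 := k.ne_zero
  set G1 := Subgroup.closure ({h, x * w} : Set (Matrix.SpecialLinearGroup (Fin (m + 1 + 1)) K)) with hG1
  have hhG : h ∈ G1 := Subgroup.subset_closure (by simp)
  have hgG : x * w ∈ G1 := Subgroup.subset_closure (by simp)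
  set η : Fin (m + 1 + 1) → K :=
    fun i => if i.val = 0 then (k : K) else if i.val = 1 then ((k⁻¹ : Kˣ) : K) else 1 with hη
  have hη0 : ∀ i, η i ≠ 0 := by
    intro i
    simp only [hη]
    split_ifs <;> simp
  have hhv : ∀ (v : Fin (m + 1 + 1) → K) (y : Fin (m + 1 + 1)),
      ((h : Matrix (Fin (m + 1 + 1)) (Fin (m + 1 + 1)) K).mulVec v) y = η y * v y := by
    intro v y
    rw [hh, Matrix.mulVec_diagonal]
  have hwv := Cfsg.Agent.Lib.Helper45.cyc_mulVec (m + 1) (w : Matrix (Fin (m + 1 + 1)) (Fin (m + 1 + 1)) K) hw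
  set d := w * h * w⁻¹ with hd
  have hdv : ∀ (v : Fin (m + 1 + 1) → K) (y : Fin (m + 1 + 1)),
      ((d : Matrix (Fin (m + 1 + 1)) (Fin (m + 1 + 1)) K).mulVec v) y = η (y + 1) * v y := by
    intro v y
    have hv : v = (w : Matrix (Fin (m + 1 + 1)) (Fin (m + 1 + 1)) K).mulVec
        (((w⁻¹ : Matrix.SpecialLinearGroup (Fin (m + 1 + 1)) K) : Matrix (Fin (m + 1 + 1)) (Fin (m + 1 + 1)) K).mulVec v) := by
      rw [Matrix.mulVec_mulVec, ← Matrix.SpecialLinearGroup.coe_mul, mul_inv_cancel,
        Matrix.SpecialLinearGroup.coe_one, Matrix.one_mulVec]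
    have h1 : (d : Matrix (Fin (m + 1 + 1)) (Fin (m + 1 + 1)) K).mulVec v =
        (w : Matrix (Fin (m + 1 + 1)) (Fin (m + 1 + 1)) K).mulVec
          ((h : Matrix (Fin (m + 1 + 1)) (Fin (m + 1 + 1)) K).mulVec
            (((w⁻¹ : Matrix.SpecialLinearGroup (Fin (m + 1 + 1)) K) : Matrix (Fin (m + 1 + 1)) (Fin (m + 1 + 1)) K).mulVec v)) := by
      rw [hd, Matrix.SpecialLinearGroup.coe_mul, Matrix.SpecialLinearGroup.coe_mul,
        Matrix.mulVec_mulVec, Matrix.mulVec_mulVec, Matrix.mul_assoc]
    rw [h1, hwv, hhv]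
    conv_rhs => rw [hv, hwv]
    ring
  have hdT : ∀ c c' : K, η (0 + 1) * c = c' * η (1 + 1) →
      d * Matrix.SpecialLinearGroup.transvection h01 c = Matrix.SpecialLinearGroup.transvection h01 c' * d :=
    fun c c' hc => Cfsg.Agent.Lib.Helper45.conj_T d (fun y => η (y + 1)) id Function.injective_id hdv h01 c' c hc
  have hhT : ∀ c c' : K, η 0 * c = c' * η 1 →
      h * Matrix.SpecialLinearGroup.transvection h01 c = Matrix.SpecialLinearGroup.transvection h01 c' * h :=
    fun c c' hc => Cfsg.Agent.Lib.Helper45.conj_T h η id Function.injective_id hhv h01 c' c hc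
  have hcomm : h * d = d * h := by
    apply Cfsg.Agent.Lib.Helper45.sl_ext_mulVec
    intro v
    simp only [Matrix.SpecialLinearGroup.coe_mul, ← Matrix.mulVec_mulVec]
    ext y
    rw [hhv, hdv, hdv, hhv]
    ring
  have hxT : x = Matrix.SpecialLinearGroup.transvection h01 1 := Subtype.ext hx
  have hηz : η 0 = k := by simp [hη]
  have hηo : η 1 = (k : K)⁻¹ := by simp [hη]
  have hδ0 : η (0 + 1) = (k : K)⁻¹ := by rw [zero_add, hηo]
  have hδ1 : η (1 + 1) = k ∨ η (1 + 1) = 1 := by
    rcases Nat.eq_zero_or_pos m with rfl | hm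
    · left
      have : (1 + 1 : Fin (0 + 1 + 1)) = 0 := by decide
      rw [this, hηz]
    · right
      have h2 : ((1 + 1 : Fin (m + 1 + 1)) : ℕ) = 2 := by
        rw [Fin.val_add]
        simp
        omega
      simp only [hη]
      rw [if_neg (by rw [h2]; norm_num), if_neg (by rw [h2]; norm_num)]
  set δ1 := η (1 + 1) with hδ1def
  have hδ1ne : δ1 ≠ 0 := hη0 _
  set a : K := 1 - (k : K)⁻¹ / δ1 with ha
  have ha0 : a ≠ 0 := by
    intro h0
    have h1 : (k : K)⁻¹ = δ1 := by
      have : (k : K)⁻¹ / δ1 = 1 := by linear_combination -h0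
      rwa [div_eq_one_iff_eq hδ1ne] at this
    rcases hδ1 with h2 | h2
    · apply hk2
      rw [h2] at h1
      field_simp at h1
      exact h1.symm
    · apply hk1
      rw [h2] at h1
      simpa using h1
  set y := (x * w) * h * (x * w)⁻¹ with hy
  have hyG : y ∈ G1 := G1.mul_mem (G1.mul_mem hgG hhG) (G1.inv_mem hgG)
  have hy' : y = Matrix.SpecialLinearGroup.transvection h01 a * d := by
    have e1 : y = x * d * x⁻¹ := by rw [hy, hd]; group
    rw [e1, hxT, Matrix.SpecialLinearGroup.transvection_inv, mul_assoc,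
      hdT (-1) (-((k : K)⁻¹ / δ1)) (by rw [hδ0]; field_simp), ← mul_assoc,
      ← Matrix.SpecialLinearGroup.transvection_add, ha, sub_eq_add_neg]
  have hc0 : Matrix.SpecialLinearGroup.transvection h01 ((k : K) ^ 2 * a - a) ∈ G1 := by
    have e1 : h * y * h⁻¹ * y⁻¹ = Matrix.SpecialLinearGroup.transvection h01 ((k : K) ^ 2 * a - a) := by
      have e2 := hhT a ((k : K) ^ 2 * a) (by rw [hηz, hηo]; field_simp)
      have hc : Commute h d := hcomm
      have e3 : d * h⁻¹ * d⁻¹ = h⁻¹ := by
        rw [← hc.inv_left.eq, mul_inv_cancel_right]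
      calc h * y * h⁻¹ * y⁻¹
          = (h * Matrix.SpecialLinearGroup.transvection h01 a) * (d * h⁻¹ * d⁻¹) *
              (Matrix.SpecialLinearGroup.transvection h01 a)⁻¹ := by rw [hy']; group
        _ = Matrix.SpecialLinearGroup.transvection h01 ((k : K) ^ 2 * a) *
              (Matrix.SpecialLinearGroup.transvection h01 a)⁻¹ := by rw [e2, e3]; group
        _ = _ := by
          rw [Matrix.SpecialLinearGroup.transvection_inv, ← Matrix.SpecialLinearGroup.transvection_add,
            sub_eq_add_neg]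
    rw [← e1]
    exact G1.mul_mem (G1.mul_mem (G1.mul_mem hhG hyG) (G1.inv_mem hhG)) (G1.inv_mem hyG)
  set c0 : K := (k : K) ^ 2 * a - a with hc0def
  have hc0ne : c0 ≠ 0 := by
    have : c0 = ((k : K) ^ 2 - 1) * a := by rw [hc0def]; ring
    rw [this]
    exact mul_ne_zero (sub_ne_zero.2 hk2) ha0
  have hup : ∀ c : K, Matrix.SpecialLinearGroup.transvection h01 c ∈ G1 →
      Matrix.SpecialLinearGroup.transvection h01 ((k : K) ^ 2 * c) ∈ G1 := by
    intro c hc
    have e2 := hhT c ((k : K) ^ 2 * c) (by rw [hηz, hηo]; field_simp)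
    have : Matrix.SpecialLinearGroup.transvection h01 ((k : K) ^ 2 * c) =
        h * Matrix.SpecialLinearGroup.transvection h01 c * h⁻¹ := by rw [e2]; group
    rw [this]
    exact G1.mul_mem (G1.mul_mem hhG hc) (G1.inv_mem hhG)
  have hdown : ∀ c : K, Matrix.SpecialLinearGroup.transvection h01 c ∈ G1 →
      Matrix.SpecialLinearGroup.transvection h01 (((k : K) ^ 2)⁻¹ * c) ∈ G1 := by
    intro c hc
    have e2 := hhT (((k : K) ^ 2)⁻¹ * c) c (by rw [hηz, hηo]; field_simp)
    have : Matrix.SpecialLinearGroup.transvection h01 (((k : K) ^ 2)⁻¹ * c) =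
        h⁻¹ * Matrix.SpecialLinearGroup.transvection h01 c * h := by
      rw [mul_assoc, ← e2]; group
    rw [this]
    exact G1.mul_mem (G1.mul_mem (G1.inv_mem hhG) hc) hhG
  have hz : ∀ (z : ℤ) (c : K), Matrix.SpecialLinearGroup.transvection h01 c ∈ G1 →
      Matrix.SpecialLinearGroup.transvection h01 ((((k ^ z : Kˣ) : K)) ^ 2 * c) ∈ G1 := by
    intro z
    induction z using Int.induction_on with
    | zero => intro c hc; simpa using hc
    | succ i ih =>
      intro c hc
      have := hup _ (ih c hc)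
      have e : (((k ^ ((i : ℤ) + 1) : Kˣ) : K)) ^ 2 * c = (k : K) ^ 2 * ((((k ^ (i : ℤ) : Kˣ) : K)) ^ 2 * c) := by
        rw [zpow_add_one, Units.val_mul]; ring
      rw [e]; exact this
    | pred i ih =>
      intro c hc
      have := hdown _ (ih c hc)
      have e : (((k ^ (-(i : ℤ) - 1) : Kˣ) : K)) ^ 2 * c =
          ((k : K) ^ 2)⁻¹ * ((((k ^ (-(i : ℤ)) : Kˣ) : K)) ^ 2 * c) := by
        rw [zpow_sub_one, Units.val_mul, Units.val_inv_eq_inv_val]; field_simp
      rw [e]; exact this
  have hsq : ∀ (s c : K), Matrix.SpecialLinearGroup.transvection h01 c ∈ G1 →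
      Matrix.SpecialLinearGroup.transvection h01 (s ^ 2 * c) ∈ G1 := by
    intro s c hc
    by_cases hs : s = 0
    · rw [hs]
      simp only [ne_eq, OfNat.ofNat_ne_zero, not_false_eq_true, zero_pow, zero_mul,
        Matrix.SpecialLinearGroup.transvection_coeff_zero]
      exact G1.one_mem
    · obtain ⟨z, hz'⟩ := Subgroup.mem_zpowers_iff.1 (hk (Units.mk0 s hs))
      have := hz z c hc
      rw [hz'] at this
      simpa using this
  have hdiff : ∀ b : K, ∃ s t : K, b = s ^ 2 - t ^ 2 := by
    intro b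
    by_cases h2 : (2 : K) = 0
    · have hchar : ringChar K = 2 := by
        have : ringChar K ∣ 2 := by
          rw [← ringChar.spec]
          exact_mod_cast h2
        rcases (Nat.dvd_prime Nat.prime_two).1 this with h | h
        · exact absurd h (CharP.ringChar_ne_one)
        · exact h
      obtain ⟨s, hs⟩ := FiniteField.isSquare_of_char_two hchar b
      exact ⟨s, 0, by rw [hs]; ring⟩
    · exact ⟨(b + 1) / 2, (b - 1) / 2, by field_simp; ring⟩
  have hX : ∀ c : K, Matrix.SpecialLinearGroup.transvection h01 c ∈ G1 := by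
    intro c
    obtain ⟨s, t, hst⟩ := hdiff (c / c0)
    have e : c = s ^ 2 * c0 + -(t ^ 2 * c0) := by
      have : c = (c / c0) * c0 := by field_simp
      rw [hst] at this
      linear_combination this
    rw [e, Matrix.SpecialLinearGroup.transvection_add, ← Matrix.SpecialLinearGroup.transvection_inv]
    exact G1.mul_mem (hsq s c0 hc0) (G1.inv_mem (hsq t c0 hc0))
  have hxG : x ∈ G1 := by rw [hxT]; exact hX 1
  have hwG : w ∈ G1 := by
    have : w = x⁻¹ * (x * w) := by group
    rw [this]
    exact G1.mul_mem (G1.inv_mem hxG) hgG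
  have htop : G1 = ⊤ := Cfsg.Agent.Lib.Helper45.eq_top_of_cyc (m + 1) h01 G1 w hw hwG hX
  rw [htop]
  simp

end Cfsg.Agent.S2402
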