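import Cfsg.Statements.S2403
import Cfsg.Agent.Lib.Helper45.SLGen
-- import your own Cfsg.Agent.* helpers here

set_option autoImplicit false
open Cfsg

namespace Cfsg.Agent.S2403

/-- Explicit two-element generation of `PSL_{n+1}(K)` over the fields with two or three elements: with `x = 1 + E₁₂` and `w` the monomial matrix with entries `1` in positions `(i, i+1)` and `(−1)^n` in position `(n+1, 1)`, the elements `x` and `w` generate `SL_{n+1}(K)` modulo its centre. -/
theorem result {K : Type*} [Field K] [Fintype K] (hK : Fintype.card K ≤ 3) (n : ℕ) (hn : 1 ≤ n)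
    (x w : Matrix.SpecialLinearGroup (Fin (n + 1)) K)
    (hx : (x : Matrix (Fin (n + 1)) (Fin (n + 1)) K) = Matrix.transvection (0 : Fin (n + 1)) (1 : Fin (n + 1)) 1)
    (hw : (w : Matrix (Fin (n + 1)) (Fin (n + 1)) K) =
      Matrix.of (fun i j => if j.val = i.val + 1 then 1 else if i.val = n ∧ j.val = 0 then (-1) ^ n else 0)) :
    Subgroup.closure ({x, w} : Set (Matrix.SpecialLinearGroup (Fin (n + 1)) K)) ⊔
      Subgroup.center (Matrix.SpecialLinearGroup (Fin (n + 1)) K) = ⊤ := by
  have h01 : (0 : Fin (n + 1)) ≠ 1 := by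
    obtain ⟨m, rfl⟩ : ∃ m, n = m + 1 := ⟨n - 1, by omega⟩
    simp [Fin.ext_iff]
  have hel : ∀ c : K, c = 0 ∨ c = 1 ∨ c = -1 := by
    intro c
    by_cases hc : c = 0
    · exact Or.inl hc
    · right
      have h1 := FiniteField.pow_card_sub_one_eq_one c hc
      have h2 : 1 < Fintype.card K := Fintype.one_lt_card
      have h3 : Fintype.card K = 2 ∨ Fintype.card K = 3 := by omega
      rcases h3 with h3 | h3
      · rw [h3] at h1
        left
        simpa using h1
      · rw [h3] at h1
        have h4 : (c - 1) * (c + 1) = 0 := by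
          have : c ^ 2 = 1 := by simpa using h1
          linear_combination this
        rcases mul_eq_zero.1 h4 with h5 | h5
        · left; exact sub_eq_zero.1 h5
        · right; exact eq_neg_of_add_eq_zero_left h5
  have hxT : x = Matrix.SpecialLinearGroup.transvection h01 1 := Subtype.ext hx
  have hxH : x ∈ Subgroup.closure ({x, w} : Set (Matrix.SpecialLinearGroup (Fin (n + 1)) K)) :=
    Subgroup.subset_closure (by simp)
  have hwH : w ∈ Subgroup.closure ({x, w} : Set (Matrix.SpecialLinearGroup (Fin (n + 1)) K)) :=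
    Subgroup.subset_closure (by simp)
  have htop : Subgroup.closure ({x, w} : Set (Matrix.SpecialLinearGroup (Fin (n + 1)) K)) = ⊤ := by
    refine Cfsg.Agent.Lib.Helper45.eq_top_of_cyc n h01 _ w hw hwH ?_
    intro c
    rcases hel c with rfl | rfl | rfl
    · rw [Matrix.SpecialLinearGroup.transvection_coeff_zero]
      exact Subgroup.one_mem _
    · rw [← hxT]; exact hxH
    · rw [← Matrix.SpecialLinearGroup.transvection_inv, ← hxT]
      exact Subgroup.inv_mem _ hxH
  rw [htop]
  simp

end Cfsg.Agent.S2403
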