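import Cfsg.Statements.S2416
import Cfsg.Agent.Lib.Helper45.ChevGenN

set_option autoImplicit false
open scoped MatrixGroups
open Cfsg

namespace Cfsg.Agent.S2416

open Cfsg.Lie Cfsg.Agent.Lib.Helper23 Cfsg.Agent.Lib.Helper45

theorem edge {D : ChevalleyDatum} {F : Type*} [Field F] (hA : AddFact D F) (hR : RootFacts D)
    (H : Subgroup (GL D.Idx F))
    (hC : ∀ i < D.rank, ∀ s < D.nroots, ∃ η : ℤ, (η = 1 ∨ η = -1) ∧ ∀ t : F,
      D.nMat F (D.simple i) 1 * D.x F s t =
        D.x F (D.reflectRoot i s) ((η : F) * t) * D.nMat F (D.simple i) 1)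
    (hH : D.monomialSubgroup F ≤ H) (a b : ℕ) (ha : a < D.rank) (hb : b < D.rank)
    (h1 : wact D [a, b] (D.simple a) = D.simple b) (h2 : wact D [b, a] (D.simple b) = D.simple a) :
    InS hA H (D.simple a) ↔ InS hA H (D.simple b) := by
  constructor
  · intro h
    rw [← h1]
    exact inS_wact hA hR H hC hH (by simp [ha, hb]) (hR.simple_lt ha) h
  · intro h
    rw [← h2]
    exact inS_wact hA hR H hC hH (by simp [ha, hb]) (hR.simple_lt hb) h

theorem three_ne_zero_of {K : Type*} [Field K] (h : ringChar K ≠ 3) : ((3 : ℤ) : K) ≠ 0 := by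
  intro h0
  have h1 : ((3 : ℕ) : K) = 0 := by exact_mod_cast h0
  rw [ringChar.spec] at h1
  rcases (Nat.dvd_prime Nat.prime_three).1 h1 with h2 | h2
  · exact CharP.ringChar_ne_one h2
  · exact h h2

theorem two_ne_zero_of {K : Type*} [Field K] (h : ringChar K ≠ 2) : ((2 : ℤ) : K) ≠ 0 := by
  intro h0
  have h1 : ((2 : ℕ) : K) = 0 := by exact_mod_cast h0
  rw [ringChar.spec] at h1
  rcases (Nat.dvd_prime Nat.prime_two).1 h1 with h2 | h2
  · exact CharP.ringChar_ne_one h2
  · exact h h2

theorem connD4 (P : ℕ → Prop) (g0 : P 0 ↔ P 1) (g1 : P 1 ↔ P 2) (g2 : P 1 ↔ P 3) (i : ℕ) (hi : i < 4) (h : P i) :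
    ∀ j < 4, P j := by
  have e1 : P 1 ↔ P 1 := Iff.rfl
  have e0 : P 0 ↔ P 1 := g0.trans e1
  have e2 : P 2 ↔ P 1 := g1.symm.trans e1
  have e3 : P 3 ↔ P 1 := g2.symm.trans e1
  have h1 : P 1 := by
    interval_cases i
    · exact e0.1 h
    · exact e1.1 h
    · exact e2.1 h
    · exact e3.1 h
  intro j hj
  interval_cases j
  · exact e0.2 h1
  · exact e1.2 h1
  · exact e2.2 h1
  · exact e3.2 h1

theorem connE6 (P : ℕ → Prop) (g0 : P 0 ↔ P 2) (g1 : P 2 ↔ P 3) (g2 : P 1 ↔ P 3) (g3 : P 3 ↔ P 4) (g4 : P 4 ↔ P 5) (i : ℕ) (hi : i < 6) (h : P i) :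
    ∀ j < 6, P j := by
  have e1 : P 1 ↔ P 1 := Iff.rfl
  have e3 : P 3 ↔ P 1 := g2.symm.trans e1
  have e4 : P 4 ↔ P 1 := g3.symm.trans e3
  have e5 : P 5 ↔ P 1 := g4.symm.trans e4
  have e2 : P 2 ↔ P 1 := g1.trans e3
  have e0 : P 0 ↔ P 1 := g0.trans e2
  have h1 : P 1 := by
    interval_cases i
    · exact e0.1 h
    · exact e1.1 h
    · exact e2.1 h
    · exact e3.1 h
    · exact e4.1 h
    · exact e5.1 h
  intro j hj
  interval_cases j
  · exact e0.2 h1
  · exact e1.2 h1
  · exact e2.2 h1
  · exact e3.2 h1
  · exact e4.2 h1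
  · exact e5.2 h1

theorem connE7 (P : ℕ → Prop) (g0 : P 0 ↔ P 2) (g1 : P 2 ↔ P 3) (g2 : P 1 ↔ P 3) (g3 : P 3 ↔ P 4) (g4 : P 4 ↔ P 5) (g5 : P 5 ↔ P 6) (i : ℕ) (hi : i < 7) (h : P i) :
    ∀ j < 7, P j := by
  have e1 : P 1 ↔ P 1 := Iff.rfl
  have e3 : P 3 ↔ P 1 := g2.symm.trans e1
  have e4 : P 4 ↔ P 1 := g3.symm.trans e3
  have e5 : P 5 ↔ P 1 := g4.symm.trans e4
  have e6 : P 6 ↔ P 1 := g5.symm.trans e5
  have e2 : P 2 ↔ P 1 := g1.trans e3
  have e0 : P 0 ↔ P 1 := g0.trans e2
  have h1 : P 1 := by
    interval_cases i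
    · exact e0.1 h
    · exact e1.1 h
    · exact e2.1 h
    · exact e3.1 h
    · exact e4.1 h
    · exact e5.1 h
    · exact e6.1 h
  intro j hj
  interval_cases j
  · exact e0.2 h1
  · exact e1.2 h1
  · exact e2.2 h1
  · exact e3.2 h1
  · exact e4.2 h1
  · exact e5.2 h1
  · exact e6.2 h1

theorem connE8 (P : ℕ → Prop) (g0 : P 0 ↔ P 2) (g1 : P 2 ↔ P 3) (g2 : P 1 ↔ P 3) (g3 : P 3 ↔ P 4) (g4 : P 4 ↔ P 5) (g5 : P 5 ↔ P 6) (g6 : P 6 ↔ P 7) (i : ℕ) (hi : i < 8) (h : P i) :
    ∀ j < 8, P j := by
  have e1 : P 1 ↔ P 1 := Iff.rfl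
  have e3 : P 3 ↔ P 1 := g2.symm.trans e1
  have e4 : P 4 ↔ P 1 := g3.symm.trans e3
  have e5 : P 5 ↔ P 1 := g4.symm.trans e4
  have e6 : P 6 ↔ P 1 := g5.symm.trans e5
  have e7 : P 7 ↔ P 1 := g6.symm.trans e6
  have e2 : P 2 ↔ P 1 := g1.trans e3
  have e0 : P 0 ↔ P 1 := g0.trans e2
  have h1 : P 1 := by
    interval_cases i
    · exact e0.1 h
    · exact e1.1 h
    · exact e2.1 h
    · exact e3.1 h
    · exact e4.1 h
    · exact e5.1 h
    · exact e6.1 h
    · exact e7.1 h
  intro j hj
  interval_cases j
  · exact e0.2 h1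
  · exact e1.2 h1
  · exact e2.2 h1
  · exact e3.2 h1
  · exact e4.2 h1
  · exact e5.2 h1
  · exact e6.2 h1
  · exact e7.2 h1

/-- A Chevalley group of type G₂, B₂, D₄, F₄, E₆, E₇ or E₈ over a finite field lies in (indeed equals) the subgroup generated by its monomial subgroup `N` and a single fundamental root subgroup `X_p`, where `p` is a short fundamental root if there are two root lengths (any fundamental root otherwise), provided the characteristic is not 2 for types B₂, F₄ and not 3 for type G₂ (and the field has more than two elements for B₂, G₂). -/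
theorem result {K : Type*} [Field K] [Finite K] (D : Cfsg.Lie.ChevalleyDatum) (hD : D ∈ [Cfsg.Lie.chevG2, Cfsg.Lie.chevB2, Cfsg.Lie.chevD4, Cfsg.Lie.chevF4, Cfsg.Lie.chevE6, Cfsg.Lie.chevE7, Cfsg.Lie.chevE8])
    (hK : D ∈ [Cfsg.Lie.chevB2, Cfsg.Lie.chevG2] → ∃ x : K, x ≠ 0 ∧ x ≠ 1)
    (h2 : D ∈ [Cfsg.Lie.chevB2, Cfsg.Lie.chevF4] → ringChar K ≠ 2) (h3 : D = Cfsg.Lie.chevG2 → ringChar K ≠ 3)
    (i : ℕ) (hi : i < D.rank) (hshort : D.isLong (D.simple i) = false) :
    D.group K ≤ D.monomialSubgroup K ⊔ D.rootSubgroup K (D.simple i) := by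
  have hA := addFact_of_mem K hD
  have hR := rootFacts_of_mem hD
  have hC : ∀ i < D.rank, ∀ s < D.nroots, ∃ η : ℤ, (η = 1 ∨ η = -1) ∧ ∀ t : K,
      D.nMat K (D.simple i) 1 * D.x K s t =
        D.x K (D.reflectRoot i s) ((η : K) * t) * D.nMat K (D.simple i) 1 :=
    fun i hi s hs => Cfsg.Agent.S1031.result D hD i s hi hs
  have hcm := fun r s hr hs h1 h2 (t u : K) => Cfsg.Agent.S1025.result D hD r s hr hs h1 h2 t u
  set H := D.monomialSubgroup K ⊔ D.rootSubgroup K (D.simple i) with hHdef
  have hH : D.monomialSubgroup K ≤ H := le_sup_left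
  have hi0 : InS hA H (D.simple i) := inS_of_rootSubgroup hA H le_sup_right
  apply group_le_of_simple hA hR H hC hH
  clear_value H
  simp only [List.mem_cons, List.not_mem_nil, or_false] at hD
  rcases hD with rfl | rfl | rfl | rfl | rfl | rfl | rfl
  · -- G2
    have hi' : i < 2 := hi
    have h30 := three_ne_zero_of (h3 rfl)
    have hl : chevG2.isLong (chevG2.simple 1) = true := by decide +kernel
    have e0 : i = 0 := by
      interval_cases i
      · rfl
      · rw [hl] at hshort; exact absurd hshort (by simp)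
    subst e0
    have hr : InS hA H 8 := by
      have := inS_wact hA hR H hC hH (w := [1]) (by intro i hi; simp at hi; subst hi; decide +kernel) (hR.simple_lt hi) hi0
      have e : wact chevG2 [1] (chevG2.simple 0) = 8 := by decide +kernel
      rwa [e] at this
    have hs : InS hA H 4 := by
      have := inS_wact hA hR H hC hH (w := [0]) (by intro i hi; simp at hi; subst hi; decide +kernel) (hR.simple_lt hi) hi0
      have e : wact chevG2 [0] (chevG2.simple 0) = 4 := by decide +kernel
      rwa [e] at this
    have hk : InS hA H 6 := inS_of_comm hA H h30 hr hs (by decide +kernel)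
      (hcm 8 4 (by decide +kernel) (by decide +kernel) (by decide +kernel) (by decide +kernel))
    intro j hj
    have hj' : j < 2 := hj
    interval_cases j
    · exact hi0
    · have e : chevG2.simple 1 = 6 := by decide +kernel
      rw [e]; exact hk
  · -- B2
    have hi' : i < 2 := hi
    have h20 := two_ne_zero_of (h2 (by simp))
    have hl : chevB2.isLong (chevB2.simple 1) = true := by decide +kernel
    have e0 : i = 0 := by
      interval_cases i
      · rfl
      · rw [hl] at hshort; exact absurd hshort (by simp)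
    subst e0
    have hr : InS hA H 6 := by
      have := inS_wact hA hR H hC hH (w := [1]) (by intro i hi; simp at hi; subst hi; decide +kernel) (hR.simple_lt hi) hi0
      have e : wact chevB2 [1] (chevB2.simple 0) = 6 := by decide +kernel
      rwa [e] at this
    have hs : InS hA H 2 := by
      have := inS_wact hA hR H hC hH (w := [0]) (by intro i hi; simp at hi; subst hi; decide +kernel) (hR.simple_lt hi) hi0
      have e : wact chevB2 [0] (chevB2.simple 0) = 2 := by decide +kernel
      rwa [e] at this
    have hk : InS hA H 4 := inS_of_comm hA H h20 hr hs (by decide +kernel)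
      (hcm 6 2 (by decide +kernel) (by decide +kernel) (by decide +kernel) (by decide +kernel))
    intro j hj
    have hj' : j < 2 := hj
    interval_cases j
    · exact hi0
    · have e : chevB2.simple 1 = 4 := by decide +kernel
      rw [e]; exact hk
  · -- D4
    have hi' : i < 4 := hi
    have g0 := edge hA hR H hC hH 0 1 (by decide +kernel) (by decide +kernel) (by decide +kernel) (by decide +kernel)
    have g1 := edge hA hR H hC hH 1 2 (by decide +kernel) (by decide +kernel) (by decide +kernel) (by decide +kernel)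
    have g2 := edge hA hR H hC hH 1 3 (by decide +kernel) (by decide +kernel) (by decide +kernel) (by decide +kernel)
    exact connD4 (fun j => InS hA H (chevD4.simple j)) g0 g1 g2 i hi' hi0
  · -- F4
    have hi' : i < 4 := hi
    have h20 := two_ne_zero_of (h2 (by simp))
    have hl2 : chevF4.isLong (chevF4.simple 2) = true := by decide +kernel
    have hl3 : chevF4.isLong (chevF4.simple 3) = true := by decide +kernel
    have g0 := edge hA hR H hC hH 0 1 (by decide +kernel) (by decide +kernel) (by decide +kernel) (by decide +kernel)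
    have g1 := edge hA hR H hC hH 2 3 (by decide +kernel) (by decide +kernel) (by decide +kernel) (by decide +kernel)
    have h00 : InS hA H (chevF4.simple 0) := by
      interval_cases i
      · exact hi0
      · exact g0.2 hi0
      · rw [hl2] at hshort; exact absurd hshort (by simp)
      · rw [hl3] at hshort; exact absurd hshort (by simp)
    have hr : InS hA H 35 := by
      have := inS_wact hA hR H hC hH (w := [2, 1]) (by intro i hi; simp at hi; rcases hi with rfl | rfl <;> decide +kernel) (hR.simple_lt (i := 0) (by decide +kernel)) h00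
      have e : wact chevF4 [2, 1] (chevF4.simple 0) = 35 := by decide +kernel
      rwa [e] at this
    have hs : InS hA H 13 := by
      have := inS_wact hA hR H hC hH (w := [1, 0]) (by intro i hi; simp at hi; rcases hi with rfl | rfl <;> decide +kernel) (hR.simple_lt (i := 0) (by decide +kernel)) h00
      have e : wact chevF4 [1, 0] (chevF4.simple 0) = 13 := by decide +kernel
      rwa [e] at this
    have hk : InS hA H 25 := inS_of_comm hA H h20 hr hs (by decide +kernel)
      (hcm 35 13 (by decide +kernel) (by decide +kernel) (by decide +kernel) (by decide +kernel))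
    have e : chevF4.simple 2 = 25 := by decide +kernel
    rw [← e] at hk
    intro j hj
    have hj' : j < 4 := hj
    interval_cases j
    · exact h00
    · exact g0.1 h00
    · exact hk
    · exact g1.1 hk
  · -- E6
    have hi' : i < 6 := hi
    have g0 := edge hA hR H hC hH 0 2 (by decide +kernel) (by decide +kernel) (by decide +kernel) (by decide +kernel)
    have g1 := edge hA hR H hC hH 2 3 (by decide +kernel) (by decide +kernel) (by decide +kernel) (by decide +kernel)
    have g2 := edge hA hR H hC hH 1 3 (by decide +kernel) (by decide +kernel) (by decide +kernel) (by decide +kernel)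
    have g3 := edge hA hR H hC hH 3 4 (by decide +kernel) (by decide +kernel) (by decide +kernel) (by decide +kernel)
    have g4 := edge hA hR H hC hH 4 5 (by decide +kernel) (by decide +kernel) (by decide +kernel) (by decide +kernel)
    exact connE6 (fun j => InS hA H (chevE6.simple j)) g0 g1 g2 g3 g4 i hi' hi0
  · -- E7
    have hi' : i < 7 := hi
    have g0 := edge hA hR H hC hH 0 2 (by decide +kernel) (by decide +kernel) (by decide +kernel) (by decide +kernel)
    have g1 := edge hA hR H hC hH 2 3 (by decide +kernel) (by decide +kernel) (by decide +kernel) (by decide +kernel)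
    have g2 := edge hA hR H hC hH 1 3 (by decide +kernel) (by decide +kernel) (by decide +kernel) (by decide +kernel)
    have g3 := edge hA hR H hC hH 3 4 (by decide +kernel) (by decide +kernel) (by decide +kernel) (by decide +kernel)
    have g4 := edge hA hR H hC hH 4 5 (by decide +kernel) (by decide +kernel) (by decide +kernel) (by decide +kernel)
    have g5 := edge hA hR H hC hH 5 6 (by decide +kernel) (by decide +kernel) (by decide +kernel) (by decide +kernel)
    exact connE7 (fun j => InS hA H (chevE7.simple j)) g0 g1 g2 g3 g4 g5 i hi' hi0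
  · -- E8
    have hi' : i < 8 := hi
    have g0 := edge hA hR H hC hH 0 2 (by decide +kernel) (by decide +kernel) (by decide +kernel) (by decide +kernel)
    have g1 := edge hA hR H hC hH 2 3 (by decide +kernel) (by decide +kernel) (by decide +kernel) (by decide +kernel)
    have g2 := edge hA hR H hC hH 1 3 (by decide +kernel) (by decide +kernel) (by decide +kernel) (by decide +kernel)
    have g3 := edge hA hR H hC hH 3 4 (by decide +kernel) (by decide +kernel) (by decide +kernel) (by decide +kernel)
    have g4 := edge hA hR H hC hH 4 5 (by decide +kernel) (by decide +kernel) (by decide +kernel) (by decide +kernel)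
    have g5 := edge hA hR H hC hH 5 6 (by decide +kernel) (by decide +kernel) (by decide +kernel) (by decide +kernel)
    have g6 := edge hA hR H hC hH 6 7 (by decide +kernel) (by decide +kernel) (by decide +kernel) (by decide +kernel)
    exact connE8 (fun j => InS hA H (chevE8.simple j)) g0 g1 g2 g3 g4 g5 g6 i hi' hi0

end Cfsg.Agent.S2416
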