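import Cfsg.Statements.S2417
import Cfsg.Agent.Lib.Helper45.ChevGenN

set_option autoImplicit false
open scoped MatrixGroups
open Cfsg

namespace Cfsg.Agent.S2417

open Cfsg.Lie Cfsg.Agent.Lib.Helper23 Cfsg.Agent.Lib.Helper45

theorem edge {D : ChevalleyDatum} {F : Type*} [Field F] (hA : AddFact D F) (hR : RootFacts D)
    (H : Subgroup (GL D.Idx F))
    (hC : ∀ i < D.rank, ∀ s < D.nroots, ∃ η : ℤ, (η = 1 ∨ η = -1) ∧ ∀ t : F,
      D.nMat F (D.simple i) 1 * D.x F s t =
        D.x F (D.reflectRoot i s) ((η : F) * t) * D.nMat F (D.simple i) 1)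
    (hH : D.monomialSubgroup F ≤ H) (a b : ℕ) (ha : a < D.rank) (hb : b < D.rank)
    (h1 : wact D [a, b] (D.simple a) = D.simple b) (h2 : wact D [b, a] (D.simple b) = D.simple a) :
    InS hA H (D.simple a) ↔ InS hA H (D.simple b) := by
  constructor
  · intro h
    rw [← h1]
    exact inS_wact hA hR H hC hH (by simp [ha, hb]) (hR.simple_lt ha) h
  · intro h
    rw [← h2]
    exact inS_wact hA hR H hC hH (by simp [ha, hb]) (hR.simple_lt hb) h

theorem main {K : Type*} [Field K] (D : ChevalleyDatum) (hD : D ∈ [chevB2, chevF4, chevG2])
    (i j : ℕ) (hi : i < D.rank) (hj : j < D.rank) (hshort : D.isLong (D.simple i) = false)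
    (hlong : D.isLong (D.simple j) = true) :
    D.group K ≤ D.monomialSubgroup K ⊔ D.rootSubgroup K (D.simple i) ⊔ D.rootSubgroup K (D.simple j) := by
  have hD' : D ∈ [chevG2, chevB2, chevD4, chevF4, chevE6, chevE7, chevE8] := by
    simp only [List.mem_cons, List.not_mem_nil, or_false] at hD ⊢
    tauto
  have hA := addFact_of_mem K hD'
  have hR := rootFacts_of_mem hD'
  have hC : ∀ i < D.rank, ∀ s < D.nroots, ∃ η : ℤ, (η = 1 ∨ η = -1) ∧ ∀ t : K,
      D.nMat K (D.simple i) 1 * D.x K s t =
        D.x K (D.reflectRoot i s) ((η : K) * t) * D.nMat K (D.simple i) 1 :=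
    fun i hi s hs => Cfsg.Agent.S1031.result D hD' i s hi hs
  set H := D.monomialSubgroup K ⊔ D.rootSubgroup K (D.simple i) ⊔ D.rootSubgroup K (D.simple j) with hHdef
  have hH : D.monomialSubgroup K ≤ H := le_sup_left.trans le_sup_left
  have hi0 : InS hA H (D.simple i) := inS_of_rootSubgroup hA H (le_sup_right.trans le_sup_left)
  have hj0 : InS hA H (D.simple j) := inS_of_rootSubgroup hA H le_sup_right
  apply group_le_of_simple hA hR H hC hH
  clear_value H
  clear hD'
  simp only [List.mem_cons, List.not_mem_nil, or_false] at hD
  rcases hD with rfl | rfl | rfl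
  · have hi' : i < 2 := hi
    have hj' : j < 2 := hj
    have hl0 : chevB2.isLong (chevB2.simple 0) = false := by decide +kernel
    have hl1 : chevB2.isLong (chevB2.simple 1) = true := by decide +kernel
    have e0 : i = 0 := by
      interval_cases i
      · rfl
      · rw [hl1] at hshort; exact absurd hshort (by simp)
    have e1 : j = 1 := by
      interval_cases j
      · rw [hl0] at hlong; exact absurd hlong (by simp)
      · rfl
    subst e0 e1
    intro k hk
    have hk' : k < 2 := hk
    interval_cases k
    · exact hi0
    · exact hj0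
  · have hi' : i < 4 := hi
    have hj' : j < 4 := hj
    have hl0 : chevF4.isLong (chevF4.simple 0) = false := by decide +kernel
    have hl1 : chevF4.isLong (chevF4.simple 1) = false := by decide +kernel
    have hl2 : chevF4.isLong (chevF4.simple 2) = true := by decide +kernel
    have hl3 : chevF4.isLong (chevF4.simple 3) = true := by decide +kernel
    have g0 := edge hA hR H hC hH 0 1 (by decide +kernel) (by decide +kernel) (by decide +kernel) (by decide +kernel)
    have g1 := edge hA hR H hC hH 2 3 (by decide +kernel) (by decide +kernel) (by decide +kernel) (by decide +kernel)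
    have h00 : InS hA H (chevF4.simple 0) := by
      interval_cases i
      · exact hi0
      · exact g0.2 hi0
      · rw [hl2] at hshort; exact absurd hshort (by simp)
      · rw [hl3] at hshort; exact absurd hshort (by simp)
    have h22 : InS hA H (chevF4.simple 2) := by
      interval_cases j
      · rw [hl0] at hlong; exact absurd hlong (by simp)
      · rw [hl1] at hlong; exact absurd hlong (by simp)
      · exact hj0
      · exact g1.2 hj0
    intro k hk
    have hk' : k < 4 := hk
    interval_cases k
    · exact h00
    · exact g0.1 h00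
    · exact h22
    · exact g1.1 h22
  · have hi' : i < 2 := hi
    have hj' : j < 2 := hj
    have hl0 : chevG2.isLong (chevG2.simple 0) = false := by decide +kernel
    have hl1 : chevG2.isLong (chevG2.simple 1) = true := by decide +kernel
    have e0 : i = 0 := by
      interval_cases i
      · rfl
      · rw [hl1] at hshort; exact absurd hshort (by simp)
    have e1 : j = 1 := by
      interval_cases j
      · rw [hl0] at hlong; exact absurd hlong (by simp)
      · rfl
    subst e0 e1
    intro k hk
    have hk' : k < 2 := hk
    interval_cases k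
    · exact hi0
    · exact hj0

/-- In the characteristics with an exceptional graph symmetry — type B₂ or F₄ in characteristic 2 (field of more than two elements for B₂) and type G₂ in characteristic 3 — the Chevalley group lies in the subgroup generated by its monomial subgroup `N` and the two fundamental root subgroups `X_a`, `X_b` of a short root `a` and a long root `b` joined in the Dynkin diagram. -/
theorem result {K : Type*} [Field K] [Finite K] (e : Cfsg.Lie.ChevalleyDatum × ℕ)
    (he : e ∈ [(Cfsg.Lie.chevB2, 2), (Cfsg.Lie.chevF4, 2), (Cfsg.Lie.chevG2, 3)]) [CharP K e.2]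
    (hK : e.1 = Cfsg.Lie.chevB2 → ∃ x : K, x ≠ 0 ∧ x ≠ 1)
    (i j : ℕ) (hi : i < e.1.rank) (hj : j < e.1.rank) (hshort : e.1.isLong (e.1.simple i) = false)
    (hlong : e.1.isLong (e.1.simple j) = true) (hbond : e.1.bonds i j ≠ 0) :
    e.1.group K ≤ e.1.monomialSubgroup K ⊔ e.1.rootSubgroup K (e.1.simple i) ⊔ e.1.rootSubgroup K (e.1.simple j) := by
  refine main e.1 ?_ i j hi hj hshort hlong
  simp only [List.mem_cons, List.not_mem_nil, or_false] at he ⊢
  rcases he with rfl | rfl | rfl <;> simp

end Cfsg.Agent.S2417
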