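import Cfsg.Statements.S2418
import Cfsg.Agent.Lib.Helper45.CoxB2
import Cfsg.Agent.Lib.Helper45.CoxG2
import Cfsg.Agent.Lib.Helper45.CoxD4
import Cfsg.Agent.Lib.Helper45.CoxF4
import Cfsg.Agent.Lib.Helper45.CoxE6
import Cfsg.Agent.Lib.Helper45.CoxE7
import Cfsg.Agent.Lib.Helper45.CoxE8

set_option autoImplicit false
open Cfsg

namespace Cfsg.Agent.S2418

/-- For the Coxeter groups of types B₂, G₂, D₄, F₄, E₇, E₈ the centre has order 2 (the element acting as −1 on the root system) and is generated by a power of the Coxeter element `s₁ s₂ ⋯ s_l`; the Coxeter group of type E₆ has trivial centre. -/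
theorem result (c : (Σ n : ℕ, CoxeterMatrix (Fin n)) × ℕ)
    (hc : c ∈ [(⟨2, CoxeterMatrix.B 2⟩, 2), (⟨2, CoxeterMatrix.G₂⟩, 2), (⟨4, Cfsg.Lie.coxeterD4⟩, 2), (⟨4, CoxeterMatrix.F₄⟩, 2),
      (⟨6, CoxeterMatrix.E₆⟩, 1), (⟨7, CoxeterMatrix.E₇⟩, 2), (⟨8, CoxeterMatrix.E₈⟩, 2)]) :
    Nat.card (Subgroup.center c.1.2.Group) = c.2 ∧
      Subgroup.center c.1.2.Group ≤ Subgroup.zpowers ((List.finRange c.1.1).map c.1.2.simple).prod := by
  simp only [List.mem_cons, List.not_mem_nil, or_false] at hc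
  rcases hc with rfl | rfl | rfl | rfl | rfl | rfl | rfl
  · exact Cfsg.Agent.Lib.Helper45.B2X.center_of_neg Cfsg.Agent.Lib.Helper45.B2_rs
      Cfsg.Agent.Lib.Helper45.B2_m Cfsg.Agent.Lib.Helper45.B2_conn Cfsg.Agent.Lib.Helper45.B2_neg
  · exact Cfsg.Agent.Lib.Helper45.G2X.center_of_neg Cfsg.Agent.Lib.Helper45.G2_rs
      Cfsg.Agent.Lib.Helper45.G2_m Cfsg.Agent.Lib.Helper45.G2_conn Cfsg.Agent.Lib.Helper45.G2_neg
  · exact Cfsg.Agent.Lib.Helper45.D4X.center_of_neg Cfsg.Agent.Lib.Helper45.D4_rs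
      Cfsg.Agent.Lib.Helper45.D4_m Cfsg.Agent.Lib.Helper45.D4_conn Cfsg.Agent.Lib.Helper45.D4_neg
  · exact Cfsg.Agent.Lib.Helper45.F4X.center_of_neg Cfsg.Agent.Lib.Helper45.F4_rs
      Cfsg.Agent.Lib.Helper45.F4_m Cfsg.Agent.Lib.Helper45.F4_conn Cfsg.Agent.Lib.Helper45.F4_neg
  · have h := Cfsg.Agent.Lib.Helper45.E6X.center_of_noNeg Cfsg.Agent.Lib.Helper45.E6_rs
      Cfsg.Agent.Lib.Helper45.E6_m Cfsg.Agent.Lib.Helper45.E6_conn Cfsg.Agent.Lib.Helper45.E6_noNeg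
    constructor
    · show Nat.card (Subgroup.center (CoxeterMatrix.E₆).Group) = 1
      rw [h]; simp
    · show Subgroup.center (CoxeterMatrix.E₆).Group ≤ _
      rw [h]; exact bot_le
  · exact Cfsg.Agent.Lib.Helper45.E7X.center_of_neg Cfsg.Agent.Lib.Helper45.E7_rs
      Cfsg.Agent.Lib.Helper45.E7_m Cfsg.Agent.Lib.Helper45.E7_conn Cfsg.Agent.Lib.Helper45.E7_neg
  · exact Cfsg.Agent.Lib.Helper45.E8X.center_of_neg Cfsg.Agent.Lib.Helper45.E8_rs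
      Cfsg.Agent.Lib.Helper45.E8_m Cfsg.Agent.Lib.Helper45.E8_conn Cfsg.Agent.Lib.Helper45.E8_neg

end Cfsg.Agent.S2418
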