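import Cfsg.Statements.S2419
-- import your own Cfsg.Agent.* helpers here

set_option autoImplicit false
open Cfsg

namespace Cfsg.Agent.S2419

section abstract
variable {G : Type*} [Group G]

theorem chain_step {P a b Q : G} (hbr : a * b * a = b * a * b)
    (hP : Commute P b) (hQ : Commute Q a) :
    (P * a * b * Q) * a * (P * a * b * Q)⁻¹ = b := by
  rw [mul_inv_eq_iff_eq_mul]
  calc P * a * b * Q * a = P * a * b * (Q * a) := by simp only [mul_assoc]
    _ = P * a * b * (a * Q) := by rw [hQ.eq]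
    _ = P * (a * b * a) * Q := by simp only [mul_assoc]
    _ = P * (b * a * b) * Q := by rw [hbr]
    _ = (P * b) * a * b * Q := by simp only [mul_assoc]
    _ = (b * P) * a * b * Q := by rw [hP.eq]
    _ = b * (P * a * b * Q) := by simp only [mul_assoc]

theorem mem_of_conj {H : Subgroup G} {c a b : G} (hc : c ∈ H) (ha : a ∈ H)
    (h : c * a * c⁻¹ = b) : b ∈ H :=
  h ▸ H.mul_mem (H.mul_mem hc ha) (H.inv_mem hc)

theorem core {H : Subgroup G} {s0 s1 s2 s3 : G}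
    (h00 : s0 * s0 = 1) (h11 : s1 * s1 = 1) (h22 : s2 * s2 = 1) (h33 : s3 * s3 = 1)
    (c10 : Commute s1 s0) (c12 : Commute s1 s2) (c03 : Commute s0 s3)
    (b02 : (s0 * s2) ^ 3 = 1) (b23 : s2 * s3 * s2 = s3 * s2 * s3)
    (h3 : s3 ∈ H) (hd : s0 * s1 * s2 ∈ H) : s0 ∈ H ∧ s1 ∈ H ∧ s2 ∈ H := by
  have hd' : s0 * s1 * s2 = s1 * (s0 * s2) := by
    rw [← c10.eq]; simp only [mul_assoc]
  have hcomm : Commute s1 (s0 * s2) := c10.mul_right c12
  have h1 : s1 ∈ H := by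
    have : (s0 * s1 * s2) ^ 3 = s1 := by
      rw [hd', hcomm.mul_pow, b02, mul_one, pow_succ, pow_two, h11, one_mul]
    exact this ▸ H.pow_mem hd 3
  have he : s0 * s2 ∈ H := by
    have : s1 * (s0 * s1 * s2) = s0 * s2 := by
      rw [hd', ← mul_assoc, h11, one_mul]
    exact this ▸ H.mul_mem h1 hd
  have h2 : s2 ∈ H := by
    have e1 : (s0 * s2)⁻¹ = s2 * s0 := by
      rw [inv_eq_iff_mul_eq_one]
      calc s0 * s2 * (s2 * s0) = s0 * (s2 * s2) * s0 := by simp only [mul_assoc]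
        _ = 1 := by rw [h22, mul_one, h00]
    have e2 : s3 * ((s0 * s2)⁻¹ * s3 * (s0 * s2)) * s3 = s2 := by
      rw [e1]
      calc s3 * (s2 * s0 * s3 * (s0 * s2)) * s3
          = s3 * (s2 * (s0 * s3) * s0 * s2) * s3 := by simp only [mul_assoc]
        _ = s3 * (s2 * (s3 * s0) * s0 * s2) * s3 := by rw [c03.eq]
        _ = s3 * (s2 * s3 * (s0 * s0) * s2) * s3 := by simp only [mul_assoc]
        _ = s3 * (s2 * s3 * s2) * s3 := by rw [h00, mul_one]
        _ = s3 * (s3 * s2 * s3) * s3 := by rw [b23]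
        _ = (s3 * s3) * s2 * (s3 * s3) := by simp only [mul_assoc]
        _ = s2 := by rw [h33, one_mul, mul_one]
    exact e2 ▸ H.mul_mem (H.mul_mem h3 (H.mul_mem (H.mul_mem (H.inv_mem he) h3) he)) h3
  have h0 : s0 ∈ H := by
    have : s0 * s2 * s2 = s0 := by rw [mul_assoc, h22, mul_one]
    exact this ▸ H.mul_mem he h2
  exact ⟨h0, h1, h2⟩

end abstract

section cox
variable {B : Type*} (M : CoxeterMatrix B)

theorem sq (i : B) : M.simple i * M.simple i = 1 :=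
  M.toCoxeterSystem.simple_mul_simple_self i

theorem rel (i j : B) : (M.simple i * M.simple j) ^ M.M i j = 1 :=
  M.toCoxeterSystem.simple_mul_simple_pow i j

theorem inv_simple (i : B) : (M.simple i)⁻¹ = M.simple i :=
  inv_eq_of_mul_eq_one_right (sq M i)

theorem comm2 {i j : B} (h : M.M i j = 2) : Commute (M.simple i) (M.simple j) := by
  have h1 := rel M i j
  rw [h, pow_two] at h1
  have h2 : (M.simple i * M.simple j)⁻¹ = M.simple i * M.simple j :=
    inv_eq_of_mul_eq_one_right h1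
  rw [mul_inv_rev, inv_simple, inv_simple] at h2
  exact h2.symm

theorem braid3 {i j : B} (h : M.M i j = 3) :
    M.simple i * M.simple j * M.simple i = M.simple j * M.simple i * M.simple j := by
  have h1 := rel M i j
  rw [h] at h1
  have h2 : (M.simple i * M.simple j * M.simple i) * (M.simple j * M.simple i * M.simple j) = 1 := by
    rw [← h1]; simp only [pow_succ, pow_zero, one_mul, mul_assoc]
  have h3 := eq_inv_of_mul_eq_one_left h2
  rw [h3, mul_inv_rev, mul_inv_rev, inv_simple, inv_simple, mul_assoc]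

theorem sq_assoc (i : B) (x : M.Group) : M.simple i * (M.simple i * x) = x := by
  rw [← mul_assoc, sq, one_mul]

theorem top_of_simple_mem {H : Subgroup M.Group} (h : ∀ i, M.simple i ∈ H) : H = ⊤ := by
  rw [eq_top_iff, ← M.toCoxeterSystem.subgroup_closure_range_simple, Subgroup.closure_le]
  rintro _ ⟨i, rfl⟩
  exact h i

theorem closure_top {c : M.Group} {T : Finset M.Group}
    (h : ∀ H : Subgroup M.Group, c ∈ H → (∀ t ∈ T, t ∈ H) → ∀ i, M.simple i ∈ H) :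
    Subgroup.closure (({c} : Set M.Group) ∪ ↑T) = ⊤ :=
  top_of_simple_mem M (h _ (Subgroup.subset_closure (by simp))
    (fun t ht => Subgroup.subset_closure (by simp [ht])))

end cox

theorem caseB2 : ∃ T : Finset (CoxeterMatrix.B 2).Group, T.card = 1 ∧
    (∀ t ∈ T, ∃ (g : (CoxeterMatrix.B 2).Group) (i : Fin 2),
      t = g * (CoxeterMatrix.B 2).simple i * g⁻¹) ∧
    Subgroup.closure (({((List.finRange 2).map (CoxeterMatrix.B 2).simple).prod} :
      Set (CoxeterMatrix.B 2).Group) ∪ ↑T) = ⊤ := by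
  refine ⟨{(CoxeterMatrix.B 2).simple 0}, by simp, ?_, ?_⟩
  · intro t ht
    rw [Finset.mem_singleton] at ht
    exact ⟨1, 0, by simp [ht]⟩
  · apply closure_top
    intro H hc hT
    have h0 : (CoxeterMatrix.B 2).simple 0 ∈ H := hT _ (by simp)
    have e : ((List.finRange 2).map (CoxeterMatrix.B 2).simple).prod =
        (CoxeterMatrix.B 2).simple 0 * (CoxeterMatrix.B 2).simple 1 := by
      simp [List.finRange_succ]
    rw [e] at hc
    have h1 : (CoxeterMatrix.B 2).simple 1 ∈ H := by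
      have := H.mul_mem h0 hc
      rwa [← mul_assoc, sq, one_mul] at this
    intro i
    fin_cases i
    · exact h0
    · exact h1

theorem caseG2 : ∃ T : Finset (CoxeterMatrix.G₂).Group, T.card = 1 ∧
    (∀ t ∈ T, ∃ (g : (CoxeterMatrix.G₂).Group) (i : Fin 2),
      t = g * (CoxeterMatrix.G₂).simple i * g⁻¹) ∧
    Subgroup.closure (({((List.finRange 2).map (CoxeterMatrix.G₂).simple).prod} :
      Set (CoxeterMatrix.G₂).Group) ∪ ↑T) = ⊤ := by
  refine ⟨{(CoxeterMatrix.G₂).simple 0}, by simp, ?_, ?_⟩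
  · intro t ht
    rw [Finset.mem_singleton] at ht
    exact ⟨1, 0, by simp [ht]⟩
  · apply closure_top
    intro H hc hT
    have h0 : (CoxeterMatrix.G₂).simple 0 ∈ H := hT _ (by simp)
    have e : ((List.finRange 2).map (CoxeterMatrix.G₂).simple).prod =
        (CoxeterMatrix.G₂).simple 0 * (CoxeterMatrix.G₂).simple 1 := by
      simp [List.finRange_succ]
    rw [e] at hc
    have h1 : (CoxeterMatrix.G₂).simple 1 ∈ H := by
      have := H.mul_mem h0 hc
      rwa [← mul_assoc, sq, one_mul] at this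
    intro i
    fin_cases i
    · exact h0
    · exact h1

theorem caseE6 : ∃ T : Finset (CoxeterMatrix.E₆).Group, T.card = 1 ∧
    (∀ t ∈ T, ∃ (g : (CoxeterMatrix.E₆).Group) (i : Fin 6),
      t = g * (CoxeterMatrix.E₆).simple i * g⁻¹) ∧
    Subgroup.closure (({((List.finRange 6).map (CoxeterMatrix.E₆).simple).prod} :
      Set (CoxeterMatrix.E₆).Group) ∪ ↑T) = ⊤ := by
  refine ⟨{CoxeterMatrix.E₆.simple 3}, by simp, ?_, ?_⟩
  · intro t ht
    rw [Finset.mem_singleton] at ht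
    exact ⟨1, 3, by simp [ht]⟩
  · apply closure_top
    intro H hc hT
    have h3 : CoxeterMatrix.E₆.simple 3 ∈ H := hT _ (by simp)
    have e : ((List.finRange 6).map (CoxeterMatrix.E₆).simple).prod =
        CoxeterMatrix.E₆.simple 0 * CoxeterMatrix.E₆.simple 1 * CoxeterMatrix.E₆.simple 2 * CoxeterMatrix.E₆.simple 3 * CoxeterMatrix.E₆.simple 4 * CoxeterMatrix.E₆.simple 5 := by
      simp [List.finRange_succ, mul_assoc]
    rw [e] at hc
    have h4 : CoxeterMatrix.E₆.simple 4 ∈ H := by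
      have e1 : CoxeterMatrix.E₆.simple 0 * CoxeterMatrix.E₆.simple 1 * CoxeterMatrix.E₆.simple 2 * CoxeterMatrix.E₆.simple 3 * CoxeterMatrix.E₆.simple 4 * CoxeterMatrix.E₆.simple 5 = CoxeterMatrix.E₆.simple 0 * CoxeterMatrix.E₆.simple 1 * CoxeterMatrix.E₆.simple 2 * CoxeterMatrix.E₆.simple 3 * CoxeterMatrix.E₆.simple 4 * (CoxeterMatrix.E₆.simple 5) := by
        simp only [mul_assoc, mul_one]
      refine mem_of_conj hc h3 ?_
      rw [e1]
      exact chain_step (braid3 CoxeterMatrix.E₆ rfl) (((comm2 CoxeterMatrix.E₆ (i := 0) (j := 4) rfl).mul_left (comm2 CoxeterMatrix.E₆ (i := 1) (j := 4) rfl)).mul_left (comm2 CoxeterMatrix.E₆ (i := 2) (j := 4) rfl)) (comm2 CoxeterMatrix.E₆ (i := 5) (j := 3) rfl)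
    have h5 : CoxeterMatrix.E₆.simple 5 ∈ H := by
      have e1 : CoxeterMatrix.E₆.simple 0 * CoxeterMatrix.E₆.simple 1 * CoxeterMatrix.E₆.simple 2 * CoxeterMatrix.E₆.simple 3 * CoxeterMatrix.E₆.simple 4 * CoxeterMatrix.E₆.simple 5 = CoxeterMatrix.E₆.simple 0 * CoxeterMatrix.E₆.simple 1 * CoxeterMatrix.E₆.simple 2 * CoxeterMatrix.E₆.simple 3 * CoxeterMatrix.E₆.simple 4 * CoxeterMatrix.E₆.simple 5 * 1 := by
        simp only [mul_assoc, mul_one]
      refine mem_of_conj hc h4 ?_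
      rw [e1]
      exact chain_step (braid3 CoxeterMatrix.E₆ rfl) ((((comm2 CoxeterMatrix.E₆ (i := 0) (j := 5) rfl).mul_left (comm2 CoxeterMatrix.E₆ (i := 1) (j := 5) rfl)).mul_left (comm2 CoxeterMatrix.E₆ (i := 2) (j := 5) rfl)).mul_left (comm2 CoxeterMatrix.E₆ (i := 3) (j := 5) rfl)) (Commute.one_left _)
    have hd : CoxeterMatrix.E₆.simple 0 * CoxeterMatrix.E₆.simple 1 * CoxeterMatrix.E₆.simple 2 ∈ H := by
      have e2 : CoxeterMatrix.E₆.simple 0 * CoxeterMatrix.E₆.simple 1 * CoxeterMatrix.E₆.simple 2 * CoxeterMatrix.E₆.simple 3 * CoxeterMatrix.E₆.simple 4 * CoxeterMatrix.E₆.simple 5 * CoxeterMatrix.E₆.simple 5 * CoxeterMatrix.E₆.simple 4 * CoxeterMatrix.E₆.simple 3 = CoxeterMatrix.E₆.simple 0 * CoxeterMatrix.E₆.simple 1 * CoxeterMatrix.E₆.simple 2 := by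
        simp only [mul_assoc, sq, mul_one, sq_assoc]
      exact e2 ▸ (H.mul_mem (H.mul_mem (H.mul_mem hc h5) h4) h3)
    obtain ⟨h0, h1, h2⟩ := core (sq CoxeterMatrix.E₆ 0) (sq CoxeterMatrix.E₆ 1) (sq CoxeterMatrix.E₆ 2) (sq CoxeterMatrix.E₆ 3)
      (comm2 CoxeterMatrix.E₆ (i := 1) (j := 0) rfl) (comm2 CoxeterMatrix.E₆ (i := 1) (j := 2) rfl)
      (comm2 CoxeterMatrix.E₆ (i := 0) (j := 3) rfl) (rel CoxeterMatrix.E₆ 0 2) (braid3 CoxeterMatrix.E₆ (i := 2) (j := 3) rfl) h3 hd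
    intro i
    fin_cases i
    · exact h0
    · exact h1
    · exact h2
    · exact h3
    · exact h4
    · exact h5

theorem caseE7 : ∃ T : Finset (CoxeterMatrix.E₇).Group, T.card = 1 ∧
    (∀ t ∈ T, ∃ (g : (CoxeterMatrix.E₇).Group) (i : Fin 7),
      t = g * (CoxeterMatrix.E₇).simple i * g⁻¹) ∧
    Subgroup.closure (({((List.finRange 7).map (CoxeterMatrix.E₇).simple).prod} :
      Set (CoxeterMatrix.E₇).Group) ∪ ↑T) = ⊤ := by
  refine ⟨{CoxeterMatrix.E₇.simple 3}, by simp, ?_, ?_⟩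
  · intro t ht
    rw [Finset.mem_singleton] at ht
    exact ⟨1, 3, by simp [ht]⟩
  · apply closure_top
    intro H hc hT
    have h3 : CoxeterMatrix.E₇.simple 3 ∈ H := hT _ (by simp)
    have e : ((List.finRange 7).map (CoxeterMatrix.E₇).simple).prod =
        CoxeterMatrix.E₇.simple 0 * CoxeterMatrix.E₇.simple 1 * CoxeterMatrix.E₇.simple 2 * CoxeterMatrix.E₇.simple 3 * CoxeterMatrix.E₇.simple 4 * CoxeterMatrix.E₇.simple 5 * CoxeterMatrix.E₇.simple 6 := by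
      simp [List.finRange_succ, mul_assoc]
    rw [e] at hc
    have h4 : CoxeterMatrix.E₇.simple 4 ∈ H := by
      have e1 : CoxeterMatrix.E₇.simple 0 * CoxeterMatrix.E₇.simple 1 * CoxeterMatrix.E₇.simple 2 * CoxeterMatrix.E₇.simple 3 * CoxeterMatrix.E₇.simple 4 * CoxeterMatrix.E₇.simple 5 * CoxeterMatrix.E₇.simple 6 = CoxeterMatrix.E₇.simple 0 * CoxeterMatrix.E₇.simple 1 * CoxeterMatrix.E₇.simple 2 * CoxeterMatrix.E₇.simple 3 * CoxeterMatrix.E₇.simple 4 * (CoxeterMatrix.E₇.simple 5 * CoxeterMatrix.E₇.simple 6) := by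
        simp only [mul_assoc, mul_one]
      refine mem_of_conj hc h3 ?_
      rw [e1]
      exact chain_step (braid3 CoxeterMatrix.E₇ rfl) (((comm2 CoxeterMatrix.E₇ (i := 0) (j := 4) rfl).mul_left (comm2 CoxeterMatrix.E₇ (i := 1) (j := 4) rfl)).mul_left (comm2 CoxeterMatrix.E₇ (i := 2) (j := 4) rfl)) ((comm2 CoxeterMatrix.E₇ (i := 5) (j := 3) rfl).mul_left (comm2 CoxeterMatrix.E₇ (i := 6) (j := 3) rfl))
    have h5 : CoxeterMatrix.E₇.simple 5 ∈ H := by
      have e1 : CoxeterMatrix.E₇.simple 0 * CoxeterMatrix.E₇.simple 1 * CoxeterMatrix.E₇.simple 2 * CoxeterMatrix.E₇.simple 3 * CoxeterMatrix.E₇.simple 4 * CoxeterMatrix.E₇.simple 5 * CoxeterMatrix.E₇.simple 6 = CoxeterMatrix.E₇.simple 0 * CoxeterMatrix.E₇.simple 1 * CoxeterMatrix.E₇.simple 2 * CoxeterMatrix.E₇.simple 3 * CoxeterMatrix.E₇.simple 4 * CoxeterMatrix.E₇.simple 5 * (CoxeterMatrix.E₇.simple 6) := by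
        simp only [mul_assoc, mul_one]
      refine mem_of_conj hc h4 ?_
      rw [e1]
      exact chain_step (braid3 CoxeterMatrix.E₇ rfl) ((((comm2 CoxeterMatrix.E₇ (i := 0) (j := 5) rfl).mul_left (comm2 CoxeterMatrix.E₇ (i := 1) (j := 5) rfl)).mul_left (comm2 CoxeterMatrix.E₇ (i := 2) (j := 5) rfl)).mul_left (comm2 CoxeterMatrix.E₇ (i := 3) (j := 5) rfl)) (comm2 CoxeterMatrix.E₇ (i := 6) (j := 4) rfl)
    have h6 : CoxeterMatrix.E₇.simple 6 ∈ H := by
      have e1 : CoxeterMatrix.E₇.simple 0 * CoxeterMatrix.E₇.simple 1 * CoxeterMatrix.E₇.simple 2 * CoxeterMatrix.E₇.simple 3 * CoxeterMatrix.E₇.simple 4 * CoxeterMatrix.E₇.simple 5 * CoxeterMatrix.E₇.simple 6 = CoxeterMatrix.E₇.simple 0 * CoxeterMatrix.E₇.simple 1 * CoxeterMatrix.E₇.simple 2 * CoxeterMatrix.E₇.simple 3 * CoxeterMatrix.E₇.simple 4 * CoxeterMatrix.E₇.simple 5 * CoxeterMatrix.E₇.simple 6 * 1 := by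
        simp only [mul_assoc, mul_one]
      refine mem_of_conj hc h5 ?_
      rw [e1]
      exact chain_step (braid3 CoxeterMatrix.E₇ rfl) (((((comm2 CoxeterMatrix.E₇ (i := 0) (j := 6) rfl).mul_left (comm2 CoxeterMatrix.E₇ (i := 1) (j := 6) rfl)).mul_left (comm2 CoxeterMatrix.E₇ (i := 2) (j := 6) rfl)).mul_left (comm2 CoxeterMatrix.E₇ (i := 3) (j := 6) rfl)).mul_left (comm2 CoxeterMatrix.E₇ (i := 4) (j := 6) rfl)) (Commute.one_left _)
    have hd : CoxeterMatrix.E₇.simple 0 * CoxeterMatrix.E₇.simple 1 * CoxeterMatrix.E₇.simple 2 ∈ H := by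
      have e2 : CoxeterMatrix.E₇.simple 0 * CoxeterMatrix.E₇.simple 1 * CoxeterMatrix.E₇.simple 2 * CoxeterMatrix.E₇.simple 3 * CoxeterMatrix.E₇.simple 4 * CoxeterMatrix.E₇.simple 5 * CoxeterMatrix.E₇.simple 6 * CoxeterMatrix.E₇.simple 6 * CoxeterMatrix.E₇.simple 5 * CoxeterMatrix.E₇.simple 4 * CoxeterMatrix.E₇.simple 3 = CoxeterMatrix.E₇.simple 0 * CoxeterMatrix.E₇.simple 1 * CoxeterMatrix.E₇.simple 2 := by
        simp only [mul_assoc, sq, mul_one, sq_assoc]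
      exact e2 ▸ (H.mul_mem (H.mul_mem (H.mul_mem (H.mul_mem hc h6) h5) h4) h3)
    obtain ⟨h0, h1, h2⟩ := core (sq CoxeterMatrix.E₇ 0) (sq CoxeterMatrix.E₇ 1) (sq CoxeterMatrix.E₇ 2) (sq CoxeterMatrix.E₇ 3)
      (comm2 CoxeterMatrix.E₇ (i := 1) (j := 0) rfl) (comm2 CoxeterMatrix.E₇ (i := 1) (j := 2) rfl)
      (comm2 CoxeterMatrix.E₇ (i := 0) (j := 3) rfl) (rel CoxeterMatrix.E₇ 0 2) (braid3 CoxeterMatrix.E₇ (i := 2) (j := 3) rfl) h3 hd
    intro i
    fin_cases i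
    · exact h0
    · exact h1
    · exact h2
    · exact h3
    · exact h4
    · exact h5
    · exact h6

theorem caseE8 : ∃ T : Finset (CoxeterMatrix.E₈).Group, T.card = 1 ∧
    (∀ t ∈ T, ∃ (g : (CoxeterMatrix.E₈).Group) (i : Fin 8),
      t = g * (CoxeterMatrix.E₈).simple i * g⁻¹) ∧
    Subgroup.closure (({((List.finRange 8).map (CoxeterMatrix.E₈).simple).prod} :
      Set (CoxeterMatrix.E₈).Group) ∪ ↑T) = ⊤ := by
  refine ⟨{CoxeterMatrix.E₈.simple 3}, by simp, ?_, ?_⟩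
  · intro t ht
    rw [Finset.mem_singleton] at ht
    exact ⟨1, 3, by simp [ht]⟩
  · apply closure_top
    intro H hc hT
    have h3 : CoxeterMatrix.E₈.simple 3 ∈ H := hT _ (by simp)
    have e : ((List.finRange 8).map (CoxeterMatrix.E₈).simple).prod =
        CoxeterMatrix.E₈.simple 0 * CoxeterMatrix.E₈.simple 1 * CoxeterMatrix.E₈.simple 2 * CoxeterMatrix.E₈.simple 3 * CoxeterMatrix.E₈.simple 4 * CoxeterMatrix.E₈.simple 5 * CoxeterMatrix.E₈.simple 6 * CoxeterMatrix.E₈.simple 7 := by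
      simp [List.finRange_succ, mul_assoc]
    rw [e] at hc
    have h4 : CoxeterMatrix.E₈.simple 4 ∈ H := by
      have e1 : CoxeterMatrix.E₈.simple 0 * CoxeterMatrix.E₈.simple 1 * CoxeterMatrix.E₈.simple 2 * CoxeterMatrix.E₈.simple 3 * CoxeterMatrix.E₈.simple 4 * CoxeterMatrix.E₈.simple 5 * CoxeterMatrix.E₈.simple 6 * CoxeterMatrix.E₈.simple 7 = CoxeterMatrix.E₈.simple 0 * CoxeterMatrix.E₈.simple 1 * CoxeterMatrix.E₈.simple 2 * CoxeterMatrix.E₈.simple 3 * CoxeterMatrix.E₈.simple 4 * (CoxeterMatrix.E₈.simple 5 * CoxeterMatrix.E₈.simple 6 * CoxeterMatrix.E₈.simple 7) := by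
        simp only [mul_assoc, mul_one]
      refine mem_of_conj hc h3 ?_
      rw [e1]
      exact chain_step (braid3 CoxeterMatrix.E₈ rfl) (((comm2 CoxeterMatrix.E₈ (i := 0) (j := 4) rfl).mul_left (comm2 CoxeterMatrix.E₈ (i := 1) (j := 4) rfl)).mul_left (comm2 CoxeterMatrix.E₈ (i := 2) (j := 4) rfl)) (((comm2 CoxeterMatrix.E₈ (i := 5) (j := 3) rfl).mul_left (comm2 CoxeterMatrix.E₈ (i := 6) (j := 3) rfl)).mul_left (comm2 CoxeterMatrix.E₈ (i := 7) (j := 3) rfl))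
    have h5 : CoxeterMatrix.E₈.simple 5 ∈ H := by
      have e1 : CoxeterMatrix.E₈.simple 0 * CoxeterMatrix.E₈.simple 1 * CoxeterMatrix.E₈.simple 2 * CoxeterMatrix.E₈.simple 3 * CoxeterMatrix.E₈.simple 4 * CoxeterMatrix.E₈.simple 5 * CoxeterMatrix.E₈.simple 6 * CoxeterMatrix.E₈.simple 7 = CoxeterMatrix.E₈.simple 0 * CoxeterMatrix.E₈.simple 1 * CoxeterMatrix.E₈.simple 2 * CoxeterMatrix.E₈.simple 3 * CoxeterMatrix.E₈.simple 4 * CoxeterMatrix.E₈.simple 5 * (CoxeterMatrix.E₈.simple 6 * CoxeterMatrix.E₈.simple 7) := by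
        simp only [mul_assoc, mul_one]
      refine mem_of_conj hc h4 ?_
      rw [e1]
      exact chain_step (braid3 CoxeterMatrix.E₈ rfl) ((((comm2 CoxeterMatrix.E₈ (i := 0) (j := 5) rfl).mul_left (comm2 CoxeterMatrix.E₈ (i := 1) (j := 5) rfl)).mul_left (comm2 CoxeterMatrix.E₈ (i := 2) (j := 5) rfl)).mul_left (comm2 CoxeterMatrix.E₈ (i := 3) (j := 5) rfl)) ((comm2 CoxeterMatrix.E₈ (i := 6) (j := 4) rfl).mul_left (comm2 CoxeterMatrix.E₈ (i := 7) (j := 4) rfl))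
    have h6 : CoxeterMatrix.E₈.simple 6 ∈ H := by
      have e1 : CoxeterMatrix.E₈.simple 0 * CoxeterMatrix.E₈.simple 1 * CoxeterMatrix.E₈.simple 2 * CoxeterMatrix.E₈.simple 3 * CoxeterMatrix.E₈.simple 4 * CoxeterMatrix.E₈.simple 5 * CoxeterMatrix.E₈.simple 6 * CoxeterMatrix.E₈.simple 7 = CoxeterMatrix.E₈.simple 0 * CoxeterMatrix.E₈.simple 1 * CoxeterMatrix.E₈.simple 2 * CoxeterMatrix.E₈.simple 3 * CoxeterMatrix.E₈.simple 4 * CoxeterMatrix.E₈.simple 5 * CoxeterMatrix.E₈.simple 6 * (CoxeterMatrix.E₈.simple 7) := by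
        simp only [mul_assoc, mul_one]
      refine mem_of_conj hc h5 ?_
      rw [e1]
      exact chain_step (braid3 CoxeterMatrix.E₈ rfl) (((((comm2 CoxeterMatrix.E₈ (i := 0) (j := 6) rfl).mul_left (comm2 CoxeterMatrix.E₈ (i := 1) (j := 6) rfl)).mul_left (comm2 CoxeterMatrix.E₈ (i := 2) (j := 6) rfl)).mul_left (comm2 CoxeterMatrix.E₈ (i := 3) (j := 6) rfl)).mul_left (comm2 CoxeterMatrix.E₈ (i := 4) (j := 6) rfl)) (comm2 CoxeterMatrix.E₈ (i := 7) (j := 5) rfl)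
    have h7 : CoxeterMatrix.E₈.simple 7 ∈ H := by
      have e1 : CoxeterMatrix.E₈.simple 0 * CoxeterMatrix.E₈.simple 1 * CoxeterMatrix.E₈.simple 2 * CoxeterMatrix.E₈.simple 3 * CoxeterMatrix.E₈.simple 4 * CoxeterMatrix.E₈.simple 5 * CoxeterMatrix.E₈.simple 6 * CoxeterMatrix.E₈.simple 7 = CoxeterMatrix.E₈.simple 0 * CoxeterMatrix.E₈.simple 1 * CoxeterMatrix.E₈.simple 2 * CoxeterMatrix.E₈.simple 3 * CoxeterMatrix.E₈.simple 4 * CoxeterMatrix.E₈.simple 5 * CoxeterMatrix.E₈.simple 6 * CoxeterMatrix.E₈.simple 7 * 1 := by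
        simp only [mul_assoc, mul_one]
      refine mem_of_conj hc h6 ?_
      rw [e1]
      exact chain_step (braid3 CoxeterMatrix.E₈ rfl) ((((((comm2 CoxeterMatrix.E₈ (i := 0) (j := 7) rfl).mul_left (comm2 CoxeterMatrix.E₈ (i := 1) (j := 7) rfl)).mul_left (comm2 CoxeterMatrix.E₈ (i := 2) (j := 7) rfl)).mul_left (comm2 CoxeterMatrix.E₈ (i := 3) (j := 7) rfl)).mul_left (comm2 CoxeterMatrix.E₈ (i := 4) (j := 7) rfl)).mul_left (comm2 CoxeterMatrix.E₈ (i := 5) (j := 7) rfl)) (Commute.one_left _)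
    have hd : CoxeterMatrix.E₈.simple 0 * CoxeterMatrix.E₈.simple 1 * CoxeterMatrix.E₈.simple 2 ∈ H := by
      have e2 : CoxeterMatrix.E₈.simple 0 * CoxeterMatrix.E₈.simple 1 * CoxeterMatrix.E₈.simple 2 * CoxeterMatrix.E₈.simple 3 * CoxeterMatrix.E₈.simple 4 * CoxeterMatrix.E₈.simple 5 * CoxeterMatrix.E₈.simple 6 * CoxeterMatrix.E₈.simple 7 * CoxeterMatrix.E₈.simple 7 * CoxeterMatrix.E₈.simple 6 * CoxeterMatrix.E₈.simple 5 * CoxeterMatrix.E₈.simple 4 * CoxeterMatrix.E₈.simple 3 = CoxeterMatrix.E₈.simple 0 * CoxeterMatrix.E₈.simple 1 * CoxeterMatrix.E₈.simple 2 := by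
        simp only [mul_assoc, sq, mul_one, sq_assoc]
      exact e2 ▸ (H.mul_mem (H.mul_mem (H.mul_mem (H.mul_mem (H.mul_mem hc h7) h6) h5) h4) h3)
    obtain ⟨h0, h1, h2⟩ := core (sq CoxeterMatrix.E₈ 0) (sq CoxeterMatrix.E₈ 1) (sq CoxeterMatrix.E₈ 2) (sq CoxeterMatrix.E₈ 3)
      (comm2 CoxeterMatrix.E₈ (i := 1) (j := 0) rfl) (comm2 CoxeterMatrix.E₈ (i := 1) (j := 2) rfl)
      (comm2 CoxeterMatrix.E₈ (i := 0) (j := 3) rfl) (rel CoxeterMatrix.E₈ 0 2) (braid3 CoxeterMatrix.E₈ (i := 2) (j := 3) rfl) h3 hd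
    intro i
    fin_cases i
    · exact h0
    · exact h1
    · exact h2
    · exact h3
    · exact h4
    · exact h5
    · exact h6
    · exact h7


theorem neD4 : Cfsg.Lie.coxeterD4.simple 0 ≠ Cfsg.Lie.coxeterD4.simple 2 := by
  intro h
  have hf : Cfsg.Lie.coxeterD4.IsLiftable
      (![Equiv.swap 0 1, Equiv.swap 1 2, Equiv.swap 2 3, Equiv.swap 2 3] :
        Fin 4 → Equiv.Perm (Fin 4)) := by
    intro i j
    fin_cases i <;> fin_cases j <;> decide
  have h2 := congrArg (Cfsg.Lie.coxeterD4.toCoxeterSystem.lift ⟨_, hf⟩) h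
  rw [← CoxeterMatrix.toCoxeterSystem_simple, CoxeterSystem.lift_apply_simple,
    CoxeterSystem.lift_apply_simple] at h2
  revert h2
  decide

theorem neF4 : CoxeterMatrix.F₄.simple 0 ≠ CoxeterMatrix.F₄.simple 2 := by
  intro h
  have hf : CoxeterMatrix.F₄.IsLiftable
      (![1, 1, Equiv.swap 0 1, Equiv.swap 0 1] :
        Fin 4 → Equiv.Perm (Fin 2)) := by
    intro i j
    fin_cases i <;> fin_cases j <;> decide
  have h2 := congrArg (CoxeterMatrix.F₄.toCoxeterSystem.lift ⟨_, hf⟩) h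
  rw [← CoxeterMatrix.toCoxeterSystem_simple, CoxeterSystem.lift_apply_simple,
    CoxeterSystem.lift_apply_simple] at h2
  revert h2
  decide

theorem caseD4 : ∃ T : Finset (Cfsg.Lie.coxeterD4).Group, T.card = 2 ∧
    (∀ t ∈ T, ∃ (g : (Cfsg.Lie.coxeterD4).Group) (i : Fin 4),
      t = g * (Cfsg.Lie.coxeterD4).simple i * g⁻¹) ∧
    Subgroup.closure (({((List.finRange 4).map (Cfsg.Lie.coxeterD4).simple).prod} :
      Set (Cfsg.Lie.coxeterD4).Group) ∪ ↑T) = ⊤ := by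
  classical
  refine ⟨{Cfsg.Lie.coxeterD4.simple 0, Cfsg.Lie.coxeterD4.simple 2}, Finset.card_pair neD4, ?_, ?_⟩
  · intro t ht
    rw [Finset.mem_insert, Finset.mem_singleton] at ht
    rcases ht with ht | ht
    · exact ⟨1, 0, by simp [ht]⟩
    · exact ⟨1, 2, by simp [ht]⟩
  · apply closure_top
    intro H hc hT
    have h0 : Cfsg.Lie.coxeterD4.simple 0 ∈ H := hT _ (by simp)
    have h2 : Cfsg.Lie.coxeterD4.simple 2 ∈ H := hT _ (by simp)
    have e : ((List.finRange 4).map (Cfsg.Lie.coxeterD4).simple).prod =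
        Cfsg.Lie.coxeterD4.simple 0 * Cfsg.Lie.coxeterD4.simple 1 * Cfsg.Lie.coxeterD4.simple 2 * Cfsg.Lie.coxeterD4.simple 3 := by
      simp [List.finRange_succ, mul_assoc]
    rw [e] at hc
    have h1 : Cfsg.Lie.coxeterD4.simple 1 ∈ H := by
      have e1 : Cfsg.Lie.coxeterD4.simple 0 * Cfsg.Lie.coxeterD4.simple 1 * Cfsg.Lie.coxeterD4.simple 2 * Cfsg.Lie.coxeterD4.simple 3 = 1 * Cfsg.Lie.coxeterD4.simple 0 * Cfsg.Lie.coxeterD4.simple 1 * (Cfsg.Lie.coxeterD4.simple 2 * Cfsg.Lie.coxeterD4.simple 3) := by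
        simp only [mul_assoc, one_mul]
      refine mem_of_conj hc h0 ?_
      rw [e1]
      exact chain_step (braid3 Cfsg.Lie.coxeterD4 rfl) (Commute.one_left _)
        ((comm2 Cfsg.Lie.coxeterD4 (i := 2) (j := 0) rfl).mul_left (comm2 Cfsg.Lie.coxeterD4 (i := 3) (j := 0) rfl))
    have h3 : Cfsg.Lie.coxeterD4.simple 3 ∈ H := by
      have e2 : Cfsg.Lie.coxeterD4.simple 2 * (Cfsg.Lie.coxeterD4.simple 1 * (Cfsg.Lie.coxeterD4.simple 0 * (Cfsg.Lie.coxeterD4.simple 0 * Cfsg.Lie.coxeterD4.simple 1 * Cfsg.Lie.coxeterD4.simple 2 * Cfsg.Lie.coxeterD4.simple 3))) = Cfsg.Lie.coxeterD4.simple 3 := by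
        simp only [mul_assoc, sq_assoc]
      exact e2 ▸ H.mul_mem h2 (H.mul_mem h1 (H.mul_mem h0 hc))
    intro i
    fin_cases i
    · exact h0
    · exact h1
    · exact h2
    · exact h3

theorem caseF4 : ∃ T : Finset (CoxeterMatrix.F₄).Group, T.card = 2 ∧
    (∀ t ∈ T, ∃ (g : (CoxeterMatrix.F₄).Group) (i : Fin 4),
      t = g * (CoxeterMatrix.F₄).simple i * g⁻¹) ∧
    Subgroup.closure (({((List.finRange 4).map (CoxeterMatrix.F₄).simple).prod} :
      Set (CoxeterMatrix.F₄).Group) ∪ ↑T) = ⊤ := by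
  classical
  refine ⟨{CoxeterMatrix.F₄.simple 0, CoxeterMatrix.F₄.simple 2}, Finset.card_pair neF4, ?_, ?_⟩
  · intro t ht
    rw [Finset.mem_insert, Finset.mem_singleton] at ht
    rcases ht with ht | ht
    · exact ⟨1, 0, by simp [ht]⟩
    · exact ⟨1, 2, by simp [ht]⟩
  · apply closure_top
    intro H hc hT
    have h0 : CoxeterMatrix.F₄.simple 0 ∈ H := hT _ (by simp)
    have h2 : CoxeterMatrix.F₄.simple 2 ∈ H := hT _ (by simp)
    have e : ((List.finRange 4).map (CoxeterMatrix.F₄).simple).prod =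
        CoxeterMatrix.F₄.simple 0 * CoxeterMatrix.F₄.simple 1 * CoxeterMatrix.F₄.simple 2 * CoxeterMatrix.F₄.simple 3 := by
      simp [List.finRange_succ, mul_assoc]
    rw [e] at hc
    have h1 : CoxeterMatrix.F₄.simple 1 ∈ H := by
      have e1 : CoxeterMatrix.F₄.simple 0 * CoxeterMatrix.F₄.simple 1 * CoxeterMatrix.F₄.simple 2 * CoxeterMatrix.F₄.simple 3 = 1 * CoxeterMatrix.F₄.simple 0 * CoxeterMatrix.F₄.simple 1 * (CoxeterMatrix.F₄.simple 2 * CoxeterMatrix.F₄.simple 3) := by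
        simp only [mul_assoc, one_mul]
      refine mem_of_conj hc h0 ?_
      rw [e1]
      exact chain_step (braid3 CoxeterMatrix.F₄ rfl) (Commute.one_left _)
        ((comm2 CoxeterMatrix.F₄ (i := 2) (j := 0) rfl).mul_left (comm2 CoxeterMatrix.F₄ (i := 3) (j := 0) rfl))
    have h3 : CoxeterMatrix.F₄.simple 3 ∈ H := by
      have e1 : CoxeterMatrix.F₄.simple 0 * CoxeterMatrix.F₄.simple 1 * CoxeterMatrix.F₄.simple 2 * CoxeterMatrix.F₄.simple 3 = CoxeterMatrix.F₄.simple 0 * CoxeterMatrix.F₄.simple 1 * CoxeterMatrix.F₄.simple 2 * CoxeterMatrix.F₄.simple 3 * 1 := by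
        simp only [mul_one]
      refine mem_of_conj hc h2 ?_
      rw [e1]
      exact chain_step (braid3 CoxeterMatrix.F₄ rfl)
        ((comm2 CoxeterMatrix.F₄ (i := 0) (j := 3) rfl).mul_left (comm2 CoxeterMatrix.F₄ (i := 1) (j := 3) rfl))
        (Commute.one_left _)
    intro i
    fin_cases i
    · exact h0
    · exact h1
    · exact h2
    · exact h3

/-- The Coxeter groups of types B₂, G₂, E₆, E₇, E₈ are generated by the Coxeter element `s₁ s₂ ⋯ s_l` together with one suitable reflection (a conjugate of a simple reflection); for types D₄ and F₄ the Coxeter element together with two suitable reflections suffices. -/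
theorem result (c : (Σ n : ℕ, CoxeterMatrix (Fin n)) × ℕ)
    (hc : c ∈ [(⟨2, CoxeterMatrix.B 2⟩, 1), (⟨2, CoxeterMatrix.G₂⟩, 1), (⟨4, Cfsg.Lie.coxeterD4⟩, 2), (⟨4, CoxeterMatrix.F₄⟩, 2),
      (⟨6, CoxeterMatrix.E₆⟩, 1), (⟨7, CoxeterMatrix.E₇⟩, 1), (⟨8, CoxeterMatrix.E₈⟩, 1)]) :
    ∃ T : Finset c.1.2.Group, T.card = c.2 ∧ (∀ t ∈ T, ∃ (g : c.1.2.Group) (i : Fin c.1.1), t = g * c.1.2.simple i * g⁻¹) ∧
      Subgroup.closure (({((List.finRange c.1.1).map c.1.2.simple).prod} : Set c.1.2.Group) ∪ ↑T) = ⊤ := by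
  simp only [List.mem_cons, List.not_mem_nil, or_false] at hc
  rcases hc with rfl | rfl | rfl | rfl | rfl | rfl | rfl
  · exact caseB2
  · exact caseG2
  · exact caseD4
  · exact caseF4
  · exact caseE6
  · exact caseE7
  · exact caseE8

end Cfsg.Agent.S2419
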