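import Cfsg.Statements.S2427
import Cfsg.Agent.S1303
import Cfsg.Agent.S0257

set_option autoImplicit false
open Cfsg

namespace Cfsg.Agent.S2427

open Cfsg.Agent.S1303 (SL23 z3 w3 Q8 z_in small)

set_option maxRecDepth 100000 in
theorem card24 : Fintype.card SL23 = 24 := by
  decide +kernel

set_option maxRecDepth 100000 in
theorem cen : ∀ c : SL23, (∀ g : SL23, g * c = c * g) → c = 1 ∨ c = z3 := by
  decide +kernel

set_option maxRecDepth 100000 in
theorem z_cen : ∀ g : SL23, g * z3 = z3 * g := by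
  decide +kernel

set_option maxRecDepth 100000 in
theorem comm_q : ∀ a b : SL23, (a * b * a⁻¹ * b⁻¹) ^ 4 = 1 := by
  decide +kernel

set_option maxRecDepth 100000 in
theorem q_comm : ∀ q : SL23, q ^ 4 = 1 → ∃ a b : SL23, a * b * a⁻¹ * b⁻¹ = q := by
  decide +kernel

set_option maxRecDepth 100000 in
theorem f3_q : ∀ q : QuaternionGroup 2, (Cfsg.Agent.S0257.f3 q) ^ 4 = 1 := by
  decide +kernel

set_option maxRecDepth 100000 in
theorem q_f3 : ∀ q : SL23, q ^ 4 = 1 → ∃ u : QuaternionGroup 2, Cfsg.Agent.S0257.f3 u = q := by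
  decide +kernel

set_option maxRecDepth 100000 in
theorem q_conj : ∀ x : SL23, x ^ 4 = 1 → x ≠ 1 → x ≠ z3 → ∀ q : SL23, q ^ 4 = 1 →
    q = 1 ∨ q = z3 ∨ ∃ a : SL23, q = a * x * a⁻¹ := by
  decide +kernel

set_option maxRecDepth 100000 in
theorem out_cosets : ∀ x : SL23, x ^ 4 ≠ 1 → ∀ g : SL23,
    g ^ 4 = 1 ∨ (x⁻¹ * g) ^ 4 = 1 ∨ (x⁻¹ * x⁻¹ * g) ^ 4 = 1 := by
  decide +kernel

set_option maxRecDepth 100000 in
theorem out_comm : ∀ x : SL23, x ^ 4 ≠ 1 → ∃ a : SL23,
    (x⁻¹ * (a * x * a⁻¹)) ^ 4 = 1 ∧ x⁻¹ * (a * x * a⁻¹) ≠ 1 ∧ x⁻¹ * (a * x * a⁻¹) ≠ z3 := by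
  decide +kernel

theorem comm_eq : commutator SL23 = Q8 := by
  apply le_antisymm
  · rw [commutator_def, Subgroup.commutator_le]
    intro a _ b _
    exact comm_q a b
  · intro q hq
    obtain ⟨a, b, rfl⟩ := q_comm q hq
    rw [commutator_def]
    exact Subgroup.commutator_mem_commutator (Subgroup.mem_top a) (Subgroup.mem_top b)

theorem range_eq : Cfsg.Agent.S0257.f3Hom.range = Q8 := by
  ext q
  constructor
  · rintro ⟨u, rfl⟩
    exact f3_q u
  · intro hq
    obtain ⟨u, hu⟩ := q_f3 q hq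
    exact ⟨u, hu⟩

noncomputable def eQ : Q8 ≃* QuaternionGroup 2 :=
  ((MonoidHom.ofInjective (f := Cfsg.Agent.S0257.f3Hom)
    (fun p q h => Cfsg.Agent.S0257.f3_inj p q h)).trans (MulEquiv.subgroupCongr range_eq)).symm

theorem card_Q8 : Nat.card Q8 = 8 := by
  rw [Nat.card_congr eQ.toEquiv, Nat.card_eq_fintype_card, QuaternionGroup.card]

theorem center_eq : Subgroup.center SL23 = Subgroup.zpowers z3 := by
  apply le_antisymm
  · intro c hc
    rw [Subgroup.mem_center_iff] at hc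
    rcases cen c hc with h | h
    · rw [h]; exact Subgroup.one_mem _
    · rw [h]; exact Subgroup.mem_zpowers _
  · rw [Subgroup.zpowers_le, Subgroup.mem_center_iff]
    exact z_cen

theorem Q8_le_of {N : Subgroup SL23} (hN : N.Normal) {x : SL23} (hx : x ∈ N) (h4 : x ^ 4 = 1)
    (h1 : x ≠ 1) (hz : x ≠ z3) : Q8 ≤ N := by
  have hzN : z3 ∈ N := by
    rcases z_in x h1 with h | h | h | ⟨a, h⟩
    · exact h ▸ hx
    · exact h ▸ N.pow_mem hx 2
    · exact h ▸ N.pow_mem hx 3
    · exact h ▸ N.pow_mem (N.mul_mem (N.inv_mem hx) (hN.conj_mem x hx a)) 2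
  intro q hq
  rcases q_conj x h4 h1 hz q hq with h | h | ⟨a, h⟩
  · rw [h]; exact N.one_mem
  · rw [h]; exact hzN
  · rw [h]; exact hN.conj_mem x hx a

theorem result :
    Nat.card (Matrix.SpecialLinearGroup (Fin 2) (ZMod 3)) = 24 ∧
    Nat.card (Subgroup.center (Matrix.SpecialLinearGroup (Fin 2) (ZMod 3))) = 2 ∧
    Nat.card (commutator (Matrix.SpecialLinearGroup (Fin 2) (ZMod 3))) = 8 ∧
    Nonempty (commutator (Matrix.SpecialLinearGroup (Fin 2) (ZMod 3)) ≃* QuaternionGroup 2) ∧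
    (∀ P : Sylow 3 (Matrix.SpecialLinearGroup (Fin 2) (ZMod 3)),
      Subgroup.IsComplement' (commutator (Matrix.SpecialLinearGroup (Fin 2) (ZMod 3)))
        (P : Subgroup (Matrix.SpecialLinearGroup (Fin 2) (ZMod 3)))) ∧
    ∀ N : Subgroup (Matrix.SpecialLinearGroup (Fin 2) (ZMod 3)), N.Normal →
      N = ⊥ ∨ N = ⊤ ∨ N = Subgroup.center (Matrix.SpecialLinearGroup (Fin 2) (ZMod 3)) ∨
        N = commutator (Matrix.SpecialLinearGroup (Fin 2) (ZMod 3)) := by
  have h24 : Nat.card SL23 = 24 := by rw [Nat.card_eq_fintype_card]; exact card24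
  have hfact : Fact (Nat.Prime 3) := ⟨Nat.prime_three⟩
  refine ⟨h24, ?_, ?_, ?_, ?_, ?_⟩
  · have : Fact (Nat.Prime 2) := ⟨Nat.prime_two⟩
    show Nat.card (Subgroup.center SL23) = 2
    rw [center_eq, Nat.card_zpowers]
    exact orderOf_eq_prime small.2.1 small.1
  · show Nat.card (commutator SL23) = 8
    rw [comm_eq]; exact card_Q8
  · exact ⟨(MulEquiv.subgroupCongr comm_eq).trans eQ⟩
  · intro P
    show Subgroup.IsComplement' (commutator SL23) (P : Subgroup SL23)
    rw [comm_eq]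
    have hP3 : Nat.card (P : Subgroup SL23) = 3 := by
      obtain ⟨k, hk⟩ := (IsPGroup.iff_card.1 P.isPGroup')
      have h1 := (P : Subgroup SL23).card_mul_index
      have h2 := P.not_dvd_index
      rw [h24] at h1
      have hk3 : k < 3 := by
        by_contra hcon
        have : 3 ^ 3 ≤ 3 ^ k := Nat.pow_le_pow_right (by norm_num) (by omega)
        have h3 : Nat.card (P : Subgroup SL23) ∣ 24 := ⟨_, h1.symm⟩
        have := Nat.le_of_dvd (by norm_num) h3
        omega
      rw [hk] at h1 ⊢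
      interval_cases k
      · exfalso; apply h2; rw [show (P : Subgroup SL23).index = 24 by omega]; norm_num
      · norm_num
      · exfalso; omega
    apply Subgroup.isComplement'_of_coprime
    · rw [card_Q8, hP3, h24]
    · rw [card_Q8, hP3]; norm_num
  · intro N hN
    show N = ⊥ ∨ N = ⊤ ∨ N = Subgroup.center SL23 ∨ N = commutator SL23
    rw [comm_eq, center_eq]
    by_cases hb : N = ⊥
    · exact Or.inl hb
    right
    obtain ⟨y, hy, hy1⟩ := (Subgroup.ne_bot_iff_exists_ne_one.1 hb |> fun ⟨y, h⟩ =>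
      (⟨(y : SL23), y.2, fun h' => h (Subtype.ext h')⟩ : ∃ y : SL23, y ∈ N ∧ y ≠ 1))
    have hzN : z3 ∈ N := by
      rcases z_in y hy1 with h | h | h | ⟨a, h⟩
      · exact h ▸ hy
      · exact h ▸ N.pow_mem hy 2
      · exact h ▸ N.pow_mem hy 3
      · exact h ▸ N.pow_mem (N.mul_mem (N.inv_mem hy) (hN.conj_mem y hy a)) 2
    by_cases hout : ∃ x ∈ N, x ^ 4 ≠ 1
    · left
      obtain ⟨x, hx, hx4⟩ := hout
      obtain ⟨a, ha4, ha1, haz⟩ := out_comm x hx4
      have hQ : Q8 ≤ N := Q8_le_of hN (N.mul_mem (N.inv_mem hx) (hN.conj_mem x hx a)) ha4 ha1 haz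
      rw [eq_top_iff]
      intro g _
      rcases out_cosets x hx4 g with h | h | h
      · exact hQ h
      · have := N.mul_mem hx (hQ h)
        simpa using this
      · have := N.mul_mem hx (N.mul_mem hx (hQ h))
        simpa [mul_assoc] using this
    · push_neg at hout
      right
      by_cases hbig : ∃ x ∈ N, x ≠ 1 ∧ x ≠ z3
      · right
        obtain ⟨x, hx, hx1, hxz⟩ := hbig
        exact le_antisymm (fun g hg => hout g hg) (Q8_le_of hN hx (hout x hx) hx1 hxz)
      · left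
        push_neg at hbig
        apply le_antisymm
        · intro g hg
          by_cases hg1 : g = 1
          · rw [hg1]; exact Subgroup.one_mem _
          · rw [hbig g hg hg1]; exact Subgroup.mem_zpowers _
        · rw [Subgroup.zpowers_le]; exact hzN

end Cfsg.Agent.S2427
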