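import Cfsg.Statements.S2428
import Cfsg.Agent.Lib.Helper46.SL2Torus

set_option autoImplicit false
open Cfsg
open Cfsg.Agent.Lib.Helper46

namespace Cfsg.Agent.S2428

/-- Let F be a finite field with q elements, q odd, and let d be a diagonal element of SL₂ over F whose diagonal entry a has a² ≠ 1 (such d exist exactly when q > 3). Then the centraliser of d is precisely the diagonal subgroup T; the normaliser of T has order 2(q − 1) and exactly (q + 5)/2 conjugacy classes; and every element of that normaliser outside T has square equal to −1. -/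
theorem result {F : Type*} [Field F] [Fintype F] (hodd : Odd (Fintype.card F))
    (d : Matrix.SpecialLinearGroup (Fin 2) F) (hd01 : (d : Matrix (Fin 2) (Fin 2) F) 0 1 = 0) (hd10 : (d : Matrix (Fin 2) (Fin 2) F) 1 0 = 0) (hda : (d : Matrix (Fin 2) (Fin 2) F) 0 0 ^ 2 ≠ 1) :
    (∀ g : Matrix.SpecialLinearGroup (Fin 2) F, g ∈ Subgroup.centralizer ({d} : Set (Matrix.SpecialLinearGroup (Fin 2) F)) ↔ ((g : Matrix (Fin 2) (Fin 2) F) 0 1 = 0 ∧ (g : Matrix (Fin 2) (Fin 2) F) 1 0 = 0)) ∧
    Nat.card (Subgroup.normalizer ((Subgroup.centralizer ({d} : Set (Matrix.SpecialLinearGroup (Fin 2) F))) : Set (Matrix.SpecialLinearGroup (Fin 2) F))) = 2 * (Fintype.card F - 1) ∧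
    Nat.card (ConjClasses (Subgroup.normalizer ((Subgroup.centralizer ({d} : Set (Matrix.SpecialLinearGroup (Fin 2) F))) : Set (Matrix.SpecialLinearGroup (Fin 2) F)))) = (Fintype.card F + 5) / 2 ∧
    ∀ g : Matrix.SpecialLinearGroup (Fin 2) F, g ∈ Subgroup.normalizer ((Subgroup.centralizer ({d} : Set (Matrix.SpecialLinearGroup (Fin 2) F))) : Set (Matrix.SpecialLinearGroup (Fin 2) F)) →
      g ∉ Subgroup.centralizer ({d} : Set (Matrix.SpecialLinearGroup (Fin 2) F)) → ((g * g) : Matrix (Fin 2) (Fin 2) F) = -1 := by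
  have hodd' : Fintype.card F % 2 = 1 := Nat.odd_iff.1 hodd
  obtain ⟨v, hv, hdv⟩ := diag_eq_dd d hd01 hd10
  have hv2 : v ^ 2 ≠ 1 := by
    intro h
    apply hda
    rw [← hv, ← Units.val_pow_eq_pow_val, h, Units.val_one]
  obtain ⟨X₀, hs, hC, hmem, hcard⟩ := split_torus (F := F) ⟨v, hv2⟩
  obtain ⟨-, r2, r3, r4, r5⟩ := cyclic_torus hodd' X₀ hs hC
  have hdT : d ∈ Subgroup.zpowers X₀ := (hmem d).2 ⟨hd01, hd10⟩
  have hdc : d ∉ Subgroup.center (Matrix.SpecialLinearGroup (Fin 2) F) := by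
    rw [hdv, dd_mem_center_iff]; exact hv2
  have hcen : Subgroup.centralizer ({d} : Set (Matrix.SpecialLinearGroup (Fin 2) F))
      = Subgroup.zpowers X₀ := r2 d hdT hdc
  rw [hcen]
  have hq : 2 ≤ Fintype.card F := Fintype.one_lt_card
  refine ⟨hmem, ?_, ?_, ?_⟩
  · rw [r3, hcard]
  · rw [hcard] at r4
    omega
  · intro g hg hgT
    have := r5 g hg hgT
    have h2 := congrArg (fun Z : Matrix.SpecialLinearGroup (Fin 2) F =>
      (Z : Matrix (Fin 2) (Fin 2) F)) this
    simp only [Matrix.SpecialLinearGroup.coe_mul] at h2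
    rw [h2]
    ext i j
    fin_cases i <;> fin_cases j <;> simp [negOne, mk2]

end Cfsg.Agent.S2428
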