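import Cfsg.Statements.S2429
import Cfsg.Agent.Lib.Helper46.SL2Nonsplit

set_option autoImplicit false
open Cfsg
open Cfsg.Agent.Lib.Helper46

namespace Cfsg.Agent.S2429

/-- Let F be a finite field with q elements, q odd. Then SL₂ over F contains a cyclic subgroup T′ of order q + 1 (a non-split torus) with the following properties: T′ is its own centraliser, and indeed the centraliser of each element of T′ other than 1 and −1 is exactly T′; every element of SL₂ having no eigenvector in F² is conjugate to an element of T′; the normaliser of T′ has order 2(q + 1) and exactly (q + 7)/2 conjugacy classes; and every element of that normaliser outside T′ has square −1. -/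
theorem result {F : Type*} [Field F] [Fintype F] (hodd : Odd (Fintype.card F)) :
    ∃ T' : Subgroup (Matrix.SpecialLinearGroup (Fin 2) F), IsCyclic T' ∧ Nat.card T' = Fintype.card F + 1 ∧
      Subgroup.centralizer ((T' : Set (Matrix.SpecialLinearGroup (Fin 2) F))) = T' ∧
      (∀ g : Matrix.SpecialLinearGroup (Fin 2) F, g ∈ T' → (g : Matrix (Fin 2) (Fin 2) F) ≠ 1 → (g : Matrix (Fin 2) (Fin 2) F) ≠ -1 → Subgroup.centralizer ({g} : Set (Matrix.SpecialLinearGroup (Fin 2) F)) = T') ∧
      (∀ g : Matrix.SpecialLinearGroup (Fin 2) F, (∀ (c : F) (v : Fin 2 → F), v ≠ 0 → (g : Matrix (Fin 2) (Fin 2) F).mulVec v ≠ c • v) → ∃ h : Matrix.SpecialLinearGroup (Fin 2) F, h * g * h⁻¹ ∈ T') ∧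
      Nat.card (Subgroup.normalizer (T' : Set (Matrix.SpecialLinearGroup (Fin 2) F))) = 2 * (Fintype.card F + 1) ∧
      Nat.card (ConjClasses (Subgroup.normalizer (T' : Set (Matrix.SpecialLinearGroup (Fin 2) F)))) = (Fintype.card F + 7) / 2 ∧
      ∀ g : Matrix.SpecialLinearGroup (Fin 2) F, g ∈ Subgroup.normalizer (T' : Set (Matrix.SpecialLinearGroup (Fin 2) F)) → g ∉ T' → ((g * g) : Matrix (Fin 2) (Fin 2) F) = -1 := by
  have hodd' : Fintype.card F % 2 = 1 := Nat.odd_iff.1 hodd
  obtain ⟨X₀, hs, hC, hcard, hconj⟩ := nonsplit_torus (F := F) hodd'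
  obtain ⟨r1, r2, r3, r4, r5⟩ := cyclic_torus hodd' X₀ hs hC
  have hq : 2 ≤ Fintype.card F := Fintype.one_lt_card
  refine ⟨Subgroup.zpowers X₀, inferInstance, hcard, r1, ?_, ?_, ?_, ?_, ?_⟩
  · intro g hg h1 hm1
    apply r2 g hg
    intro hc
    rcases eq_one_or_negOne_of_mem_center g hc with h | h
    · apply h1; rw [h]; rfl
    · apply hm1; rw [h]
      ext i j
      fin_cases i <;> fin_cases j <;> simp [negOne, mk2]
  · intro g hg
    exact hconj g (nonsplit_of_no_eigenvector g hg)
  · rw [r3, hcard]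
  · rw [hcard] at r4
    omega
  · intro g hg hgT
    have := r5 g hg hgT
    have h2 := congrArg (fun Z : Matrix.SpecialLinearGroup (Fin 2) F =>
      (Z : Matrix (Fin 2) (Fin 2) F)) this
    simp only [Matrix.SpecialLinearGroup.coe_mul] at h2
    rw [h2]
    ext i j
    fin_cases i <;> fin_cases j <;> simp [negOne, mk2]

end Cfsg.Agent.S2429
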