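import Cfsg.Statements.S2431
import Cfsg.Agent.Lib.Helper46.SL2Q8
import Cfsg.Agent.Lib.Helper44.Borel
import Cfsg.Agent.S0261

set_option autoImplicit false
open Cfsg
open Cfsg.Agent.Lib Cfsg.Agent.Lib.Helper46

namespace Cfsg.Agent.S2431

/-- Let F be a finite field with q elements, q odd, and S a Sylow 2-subgroup of SL₂ over F. The centraliser of S is the centre of SL₂ (of order 2); S is its own normaliser when q ≡ ±1 mod 8, and has index 3 in its normaliser when q ≡ ±3 mod 8. -/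
theorem result {F : Type*} [Field F] [Fintype F] (hodd : Odd (Fintype.card F)) (S : Sylow 2 (Matrix.SpecialLinearGroup (Fin 2) F)) :
    Subgroup.centralizer ((S : Subgroup (Matrix.SpecialLinearGroup (Fin 2) F)) : Set (Matrix.SpecialLinearGroup (Fin 2) F)) = Subgroup.center (Matrix.SpecialLinearGroup (Fin 2) F) ∧
    ((Fintype.card F % 8 = 1 ∨ Fintype.card F % 8 = 7) →
      Subgroup.normalizer ((S : Subgroup (Matrix.SpecialLinearGroup (Fin 2) F)) : Set (Matrix.SpecialLinearGroup (Fin 2) F)) = (S : Subgroup (Matrix.SpecialLinearGroup (Fin 2) F))) ∧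
    ((Fintype.card F % 8 = 3 ∨ Fintype.card F % 8 = 5) →
      Nat.card (Subgroup.normalizer ((S : Subgroup (Matrix.SpecialLinearGroup (Fin 2) F)) : Set (Matrix.SpecialLinearGroup (Fin 2) F))) = 3 * Nat.card S) := by
  classical
  have hodd' : Fintype.card F % 2 = 1 := Nat.odd_iff.1 hodd
  have hfin := finite_SL2 (F := F)
  obtain ⟨k, hk, ⟨e⟩⟩ := Cfsg.Agent.S0261.result hodd S
  have hne0 : NeZero (2 ^ k) := ⟨by positivity⟩
  obtain ⟨A, W, hAS, hWS, hgen, hWA, hoA, hoW, hcard⟩ :=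
    quat_package (S : Subgroup (Matrix.SpecialLinearGroup (Fin 2) F)) (2 ^ k) e
  obtain ⟨k', rfl⟩ : ∃ k', k = k' + 1 := ⟨k - 1, by omega⟩
  have h4 : 4 ∣ orderOf A := by
    rw [hoA, pow_succ]; exact ⟨2 ^ k', by ring⟩
  have hidx := (S : Subgroup (Matrix.SpecialLinearGroup (Fin 2) F)).card_mul_index
  rw [hcard, Helper44.card_SL2] at hidx
  have hnd : ¬ 2 ∣ (S : Subgroup (Matrix.SpecialLinearGroup (Fin 2) F)).index := S.not_dvd_index
  generalize (S : Subgroup (Matrix.SpecialLinearGroup (Fin 2) F)).index = m at hidx hnd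
  generalize Fintype.card F = q at hidx hodd' ⊢
  refine ⟨sylow2_centralizer (Nat.odd_iff.1 hodd) S A W hAS hWS hWA (not_center_of_four_dvd A h4), ?_, ?_⟩
  · intro hq8
    apply sylow2_normalizer_big (Nat.odd_iff.1 hodd) S A W hAS hWS hgen hWA h4 _ hoW
    intro h
    rw [hoA] at h
    have hk0 : 2 ^ (k' + 1) = 2 := by omega
    rw [hk0] at hidx
    apply hnd
    have h16 : 16 ∣ (q + 1) * ((q - 1) * q) := by
      rcases hq8 with h8 | h8
      · obtain ⟨t, rfl⟩ : ∃ t, q = 8 * t + 1 := ⟨q / 8, by omega⟩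
        rw [Nat.add_sub_cancel]
        exact ⟨(4 * t + 1) * t * (8 * t + 1), by ring⟩
      · obtain ⟨t, rfl⟩ : ∃ t, q = 8 * t + 7 := ⟨q / 8, by omega⟩
        have : 8 * t + 7 - 1 = 8 * t + 6 := by omega
        rw [this]
        exact ⟨(t + 1) * (4 * t + 3) * (8 * t + 7), by ring⟩
    rw [← hidx] at h16
    omega
  · intro hq8
    apply sylow2_normalizer_small (Nat.odd_iff.1 hodd) S A W hAS hWS hgen hWA _ hoW
    rw [hoA]
    by_contra hcon
    obtain ⟨k'', rfl⟩ : ∃ k'', k' = k'' + 1 := by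
      refine ⟨k' - 1, ?_⟩
      rcases Nat.eq_zero_or_pos k' with h0 | h0
      · subst h0; simp at hcon
      · omega
    have h16 : 16 ∣ (q + 1) * ((q - 1) * q) := by
      rw [← hidx]
      exact ⟨2 ^ k'' * m, by ring⟩
    have hp2 := Nat.prime_two
    rcases hq8 with h8 | h8
    · obtain ⟨t, rfl⟩ : ∃ t, q = 8 * t + 3 := ⟨q / 8, by omega⟩
      have : 8 * t + 3 - 1 = 8 * t + 2 := by omega
      rw [this] at h16
      have e1 : (8 * t + 3 + 1) * ((8 * t + 2) * (8 * t + 3)) =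
          8 * ((2 * t + 1) * ((4 * t + 1) * (8 * t + 3))) := by ring
      rw [e1] at h16
      have h2d : 2 ∣ (2 * t + 1) * ((4 * t + 1) * (8 * t + 3)) := by omega
      rcases hp2.dvd_mul.1 h2d with h | h
      · omega
      · rcases hp2.dvd_mul.1 h with h | h <;> omega
    · obtain ⟨t, rfl⟩ : ∃ t, q = 8 * t + 5 := ⟨q / 8, by omega⟩
      have : 8 * t + 5 - 1 = 8 * t + 4 := by omega
      rw [this] at h16
      have e1 : (8 * t + 5 + 1) * ((8 * t + 4) * (8 * t + 5)) =
          8 * ((4 * t + 3) * ((2 * t + 1) * (8 * t + 5))) := by ring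
      rw [e1] at h16
      have h2d : 2 ∣ (4 * t + 3) * ((2 * t + 1) * (8 * t + 5)) := by omega
      rcases hp2.dvd_mul.1 h2d with h | h
      · omega
      · rcases hp2.dvd_mul.1 h with h | h <;> omega

end Cfsg.Agent.S2431
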