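import Cfsg.Statements.S2433
import Cfsg.Agent.Lib.Helper46.SL2Borel

set_option autoImplicit false
open Cfsg

namespace Cfsg.Agent.S2433

/-- Let F be a finite field with q elements, q odd, α a multiplicative character of F, and R(α) the function on SL₂ induced from the linear character b ↦ α(b₁₁) of the upper triangular subgroup. Then R(α) takes the value α(a) + α(a⁻¹) at a diagonal element with entries a, a⁻¹, a² ≠ 1; the value 0 at every element with no eigenvector in F²; the value α(ε) at an upper triangular element with both diagonal entries ε and non-zero upper right entry; and the value (q + 1)α(ε) at the scalar element ε (ε = ±1). -/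
theorem result {F : Type*} [Field F] [Fintype F] [DecidableEq F] (hodd : Odd (Fintype.card F)) (α : MulChar F ℂ) (g : Matrix.SpecialLinearGroup (Fin 2) F) :
    ((g : Matrix (Fin 2) (Fin 2) F) 0 1 = 0 → (g : Matrix (Fin 2) (Fin 2) F) 1 0 = 0 → (g : Matrix (Fin 2) (Fin 2) F) 0 0 ^ 2 ≠ 1 →
      (Cfsg.indFun ((Cfsg.upperTriangularGL 2 F).comap Matrix.SpecialLinearGroup.toGL) (fun b => α (((b : Matrix.SpecialLinearGroup (Fin 2) F) : Matrix (Fin 2) (Fin 2) F) 0 0))) g = α ((g : Matrix (Fin 2) (Fin 2) F) 0 0) + α ((g : Matrix (Fin 2) (Fin 2) F) 1 1)) ∧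
    ((∀ (c : F) (v : Fin 2 → F), v ≠ 0 → (g : Matrix (Fin 2) (Fin 2) F).mulVec v ≠ c • v) → (Cfsg.indFun ((Cfsg.upperTriangularGL 2 F).comap Matrix.SpecialLinearGroup.toGL) (fun b => α (((b : Matrix.SpecialLinearGroup (Fin 2) F) : Matrix (Fin 2) (Fin 2) F) 0 0))) g = 0) ∧
    ((g : Matrix (Fin 2) (Fin 2) F) 1 0 = 0 → (g : Matrix (Fin 2) (Fin 2) F) 0 0 = (g : Matrix (Fin 2) (Fin 2) F) 1 1 → (g : Matrix (Fin 2) (Fin 2) F) 0 1 ≠ 0 →
      (Cfsg.indFun ((Cfsg.upperTriangularGL 2 F).comap Matrix.SpecialLinearGroup.toGL) (fun b => α (((b : Matrix.SpecialLinearGroup (Fin 2) F) : Matrix (Fin 2) (Fin 2) F) 0 0))) g = α ((g : Matrix (Fin 2) (Fin 2) F) 0 0)) ∧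
    ((g : Matrix (Fin 2) (Fin 2) F) 0 1 = 0 → (g : Matrix (Fin 2) (Fin 2) F) 1 0 = 0 → (g : Matrix (Fin 2) (Fin 2) F) 0 0 = (g : Matrix (Fin 2) (Fin 2) F) 1 1 →
      (Cfsg.indFun ((Cfsg.upperTriangularGL 2 F).comap Matrix.SpecialLinearGroup.toGL) (fun b => α (((b : Matrix.SpecialLinearGroup (Fin 2) F) : Matrix (Fin 2) (Fin 2) F) 0 0))) g = ((Fintype.card F : ℂ) + 1) * α ((g : Matrix (Fin 2) (Fin 2) F) 0 0)) := by
  classical
  have hR : (Cfsg.indFun ((Cfsg.upperTriangularGL 2 F).comap Matrix.SpecialLinearGroup.toGL) (fun b => α (((b : Matrix.SpecialLinearGroup (Fin 2) F) : Matrix (Fin 2) (Fin 2) F) 0 0))) g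
      = Cfsg.Agent.Lib.Helper46.RR α g := rfl
  rw [hR, Cfsg.Agent.Lib.Helper46.RR_apply]
  have hd := Cfsg.Agent.Lib.Helper46.det2 g
  refine ⟨?_, ?_, ?_, ?_⟩
  · intro h01 h10 hsq
    rw [h01, h10] at hd ⊢
    have hne : (g : Matrix (Fin 2) (Fin 2) F) 1 1 - (g : Matrix (Fin 2) (Fin 2) F) 0 0 ≠ 0 := by
      intro h
      apply hsq
      have : (g : Matrix (Fin 2) (Fin 2) F) 1 1 = (g : Matrix (Fin 2) (Fin 2) F) 0 0 := by
        linear_combination h
      rw [this] at hd
      linear_combination hd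
    rw [if_pos rfl]
    congr 1
    rw [Finset.sum_eq_single (0 : F)]
    · simp
    · intro c _ hc
      rw [if_neg]
      intro h
      have : ((g : Matrix (Fin 2) (Fin 2) F) 1 1 - (g : Matrix (Fin 2) (Fin 2) F) 0 0) * c = 0 := by
        linear_combination h
      rcases mul_eq_zero.1 this with h | h
      · exact hne h
      · exact hc h
    · intro h; exact absurd (Finset.mem_univ _) h
  · intro hno
    rw [if_neg, add_zero]
    · apply Finset.sum_eq_zero
      intro c _
      rw [if_neg]
      intro h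
      apply hno ((g : Matrix (Fin 2) (Fin 2) F) 0 0 + (g : Matrix (Fin 2) (Fin 2) F) 0 1 * c) ![1, c]
      · intro h0
        have := congrFun h0 0
        simp at this
      · funext i
        fin_cases i
        · simp [Matrix.mulVec, dotProduct, Fin.sum_univ_two]
        · simp [Matrix.mulVec, dotProduct, Fin.sum_univ_two]
          linear_combination h
    · intro h
      apply hno ((g : Matrix (Fin 2) (Fin 2) F) 1 1) ![0, 1]
      · intro h0
        have := congrFun h0 1
        simp at this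
      · funext i
        fin_cases i
        · simp [Matrix.mulVec, dotProduct, Fin.sum_univ_two, h]
        · simp [Matrix.mulVec, dotProduct, Fin.sum_univ_two]
  · intro h10 heq h01
    rw [if_neg h01, add_zero, Finset.sum_eq_single (0 : F)]
    · simp [h10]
    · intro c _ hc
      rw [if_neg]
      intro h
      rw [h10, heq] at h
      have : (g : Matrix (Fin 2) (Fin 2) F) 0 1 * c ^ 2 = 0 := by linear_combination -h
      rcases mul_eq_zero.1 this with h | h
      · exact h01 h
      · exact hc (pow_eq_zero_iff two_ne_zero |>.1 h)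
    · intro h; exact absurd (Finset.mem_univ _) h
  · intro h01 h10 heq
    rw [if_pos h01, h01, h10, heq]
    simp only [sub_self, zero_mul, add_zero, if_true, Finset.sum_const, Finset.card_univ, nsmul_eq_mul]
    ring

end Cfsg.Agent.S2433
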