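import Cfsg.Statements.S2434
import Cfsg.Agent.Lib.Helper46.SL2CharCusp

set_option autoImplicit false
open Cfsg
open Cfsg.Agent.Lib Cfsg.Agent.Lib.Helper46

namespace Cfsg.Agent.S2434

/-- Let F be a finite field with q elements, q odd, and C a cyclic subgroup of order q + 1 of SL₂ over F (a non-split torus; it contains the centre). For every homomorphism θ from C to the non-zero complex numbers with θ² ≠ 1 there is an irreducible complex character χ of degree q − 1 such that χ(c) = −θ(c) − θ(c)⁻¹ for every non-central c in C, χ(zg) = θ(z)χ(g) for central z in C, χ vanishes at diagonal elements with entry a, a² ≠ 1, and χ takes the value −1 at every upper unitriangular element other than 1. Conversely every irreducible character of degree q − 1 has, for some such θ, the values −θ(c) − θ(c)⁻¹ at the non-central elements c of C (for q ≥ 5 these are exactly the cuspidal characters of degree q − 1). -/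
theorem result {F : Type*} [Field F] [Fintype F] (hodd : Odd (Fintype.card F))
    (C : Subgroup (Matrix.SpecialLinearGroup (Fin 2) F)) (hC : IsCyclic C) (hcard : Nat.card C = Fintype.card F + 1) :
    (∀ θ : C →* ℂˣ, (∃ c : C, θ c ^ 2 ≠ 1) →
      ∃ χ : Matrix.SpecialLinearGroup (Fin 2) F → ℂ, Cfsg.IsIrrCharacter (Matrix.SpecialLinearGroup (Fin 2) F) χ ∧ χ 1 = (Fintype.card F : ℂ) - 1 ∧
        (∀ c : C, (c : Matrix.SpecialLinearGroup (Fin 2) F) ∉ Subgroup.center (Matrix.SpecialLinearGroup (Fin 2) F) → χ c = -((θ c).val + (θ c)⁻¹.val)) ∧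
        (∀ c : C, (c : Matrix.SpecialLinearGroup (Fin 2) F) ∈ Subgroup.center (Matrix.SpecialLinearGroup (Fin 2) F) → ∀ g : Matrix.SpecialLinearGroup (Fin 2) F, χ ((c : Matrix.SpecialLinearGroup (Fin 2) F) * g) = (θ c).val * χ g) ∧
        (∀ g : Matrix.SpecialLinearGroup (Fin 2) F, (g : Matrix (Fin 2) (Fin 2) F) 0 1 = 0 → (g : Matrix (Fin 2) (Fin 2) F) 1 0 = 0 → (g : Matrix (Fin 2) (Fin 2) F) 0 0 ^ 2 ≠ 1 → χ g = 0) ∧
        (∀ g : Matrix.SpecialLinearGroup (Fin 2) F, (g : Matrix (Fin 2) (Fin 2) F) 1 0 = 0 → (g : Matrix (Fin 2) (Fin 2) F) 0 0 = 1 → (g : Matrix (Fin 2) (Fin 2) F) 1 1 = 1 → (g : Matrix (Fin 2) (Fin 2) F) 0 1 ≠ 0 → χ g = -1)) ∧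
    (∀ χ : Matrix.SpecialLinearGroup (Fin 2) F → ℂ, Cfsg.IsIrrCharacter (Matrix.SpecialLinearGroup (Fin 2) F) χ → χ 1 = (Fintype.card F : ℂ) - 1 →
      ∃ θ : C →* ℂˣ, (∃ c : C, θ c ^ 2 ≠ 1) ∧
        ∀ c : C, (c : Matrix.SpecialLinearGroup (Fin 2) F) ∉ Subgroup.center (Matrix.SpecialLinearGroup (Fin 2) F) → χ c = -((θ c).val + (θ c)⁻¹.val)) := by
  classical
  have hodd' : Fintype.card F % 2 = 1 := Nat.odd_iff.1 hodd
  have h2 := two_ne_zero_of_odd (F := F) hodd'
  have hfinG := finite_SL2 (F := F)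
  obtain ⟨⟨c₀, hc₀⟩, hgen⟩ := hC.exists_generator
  have hCeq : C = Subgroup.zpowers c₀ := by
    apply le_antisymm
    · intro x hx
      obtain ⟨k, hk⟩ := Subgroup.mem_zpowers_iff.1 (hgen ⟨x, hx⟩)
      rw [Subgroup.mem_zpowers_iff]
      refine ⟨k, ?_⟩
      have := congrArg Subtype.val hk
      simpa using this
    · exact Subgroup.zpowers_le.2 hc₀
  clear hgen hc₀ hC
  subst hCeq
  have ho : orderOf c₀ = Fintype.card F + 1 := by rw [← Nat.card_zpowers, hcard]
  have h : NS c₀ := NS.of_orderOf hodd' c₀ ho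
  constructor
  · intro θ hθ
    have hθ' := hom_inv_ne_of_sq hθ
    obtain ⟨α, hα⟩ := exists_compat h hodd' θ
    refine ⟨PI c₀ α θ, PI_irr h hodd' hα hθ', PI_one_apply h hodd' hα, ?_, ?_, ?_, ?_⟩
    · intro c hc
      rw [PI_torus h hodd' hα, if_neg hc, map_inv]
      ring
    · intro c hc g
      exact PI_central_mul h hα c hc g
    · intro g h01 h10 hsq
      obtain ⟨a, x, hg, ha, hx, -⟩ := eq_triSL g h10
      have hne : a ≠ a⁻¹ := units_ne_inv_of_sq_ne a (by rw [ha]; exact hsq)
      rw [hg, PI_triSL h hodd' hα, if_neg hne]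
    · intro g h10 h00 h11 h01
      obtain ⟨a, x, hg, ha, hx, -⟩ := eq_triSL g h10
      have ha1 : a = 1 := Units.ext (by rw [ha, h00]; rfl)
      subst ha1
      rw [hg, PI_triSL h hodd' hα, if_pos (by simp), if_neg (by rw [hx]; exact h01)]
      simp
  · intro χ hχ hdeg
    obtain ⟨θ₀, hθ₀⟩ := exists_theta0 h hodd'
    obtain ⟨n, hn, hcases⟩ := master_nat hodd' h hθ₀ χ hχ
    rw [hn] at hdeg
    have hd' : n + 1 = Fintype.card F := by
      have : ((n + 1 : ℕ) : ℂ) = ((Fintype.card F : ℕ) : ℂ) := by push_cast; linear_combination hdeg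
      exact_mod_cast this
    have hq : 2 ≤ Fintype.card F := Fintype.one_lt_card
    rcases hcases with ⟨h0, -, V⟩ | ⟨h0, -, V⟩ | ⟨h0, α₁, -, -, V⟩ | ⟨h0, θ₁, α₁, hθ₁, -, -, V⟩ |
      ⟨h0, V⟩ | ⟨h0, V⟩
    · exfalso; omega
    · exfalso; omega
    · exfalso; omega
    · refine ⟨θ₁, exists_sq_of_hom_inv_ne hθ₁, ?_⟩
      intro c hc
      rw [V.nonsplit c hc, MonoidHom.inv_apply]
    · have hq3 : Fintype.card F = 3 := by omega
      obtain ⟨θ, hθ⟩ := exists_hom_ne_one h.comm' (zz_ne_one h hodd')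
      have hθz : θ (zz h) = -1 := by
        have h5 : θ (zz h) * θ (zz h) = 1 := by rw [← map_mul, zz_mul_self, map_one]
        rcases units_sq_eq_one h5 with h6 | h6
        · exact absurd h6 hθ
        · exact h6
      have hneg : (-1 : ℂˣ) ≠ 1 := by
        intro hh
        have := congrArg (fun u : ℂˣ => (u : ℂ)) hh
        norm_num at this
      refine ⟨θ, ⟨gen c₀, ?_⟩, ?_⟩
      · have := gen_pow_half h hodd'
        rw [hq3] at this
        norm_num at this
        rw [← map_pow, this, hθz]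
        exact hneg
      · intro c hc
        rw [V.nonsplit c hc]
        have hc4 : (c : Matrix.SpecialLinearGroup (Fin 2) F) ^ 4 = 1 := by
          have := h.pow_eq_one c c.2
          rwa [hq3] at this
        have hcc : c * c = zz h := by
          apply Subtype.ext
          have h7 : ((c : Matrix.SpecialLinearGroup (Fin 2) F) * c) * ((c : Matrix.SpecialLinearGroup (Fin 2) F) * c) = 1 := by
            rw [← hc4, pow_succ, pow_succ, pow_succ, pow_one]
            simp only [mul_assoc]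
          rcases eq_one_or_negOne_of_mem_center _ (mem_center_of_sq_eq_one h2 _ h7) with h8 | h8
          · exact absurd (mem_center_of_sq_eq_one h2 _ h8) hc
          · exact h8
        have h9 : θ c * θ c = -1 := by rw [← map_mul, hcc, hθz]
        have h10 : (θ c)⁻¹ = - θ c := by
          rw [inv_eq_iff_mul_eq_one, mul_neg, h9, neg_neg]
        rw [h10]
        simp
    · exfalso; omega

end Cfsg.Agent.S2434
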