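import Cfsg.Statements.S2435
import Cfsg.Agent.Lib.Helper46.SL2CharVals

set_option autoImplicit false
open Cfsg
open Cfsg.Agent.Lib Cfsg.Agent.Lib.Helper46

namespace Cfsg.Agent.S2435

/-- Let F be a finite field with q elements, q odd and q ≥ 5, and χ an irreducible complex character of SL₂ over F. If χ has degree (q + 1)/2, then at a diagonal element with entry a, a² ≠ 1, χ takes the value 1 when a is a square in F and −1 otherwise. If χ has degree (q − 1)/2, then at an element g with no eigenvector in F² (so g has order dividing q + 1), χ takes the value −1 when g raised to the power (q + 1)/2 is the identity and the value 1 otherwise. -/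
theorem result {F : Type*} [Field F] [Fintype F] (hodd : Odd (Fintype.card F)) (hq : 5 ≤ Fintype.card F)
    (χ : Matrix.SpecialLinearGroup (Fin 2) F → ℂ) (hχ : Cfsg.IsIrrCharacter (Matrix.SpecialLinearGroup (Fin 2) F) χ) (g : Matrix.SpecialLinearGroup (Fin 2) F) :
    (χ 1 = (((Fintype.card F + 1) / 2 : ℕ) : ℂ) → (g : Matrix (Fin 2) (Fin 2) F) 0 1 = 0 → (g : Matrix (Fin 2) (Fin 2) F) 1 0 = 0 → (g : Matrix (Fin 2) (Fin 2) F) 0 0 ^ 2 ≠ 1 →
      (IsSquare ((g : Matrix (Fin 2) (Fin 2) F) 0 0) → χ g = 1) ∧ (¬ IsSquare ((g : Matrix (Fin 2) (Fin 2) F) 0 0) → χ g = -1)) ∧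
    (χ 1 = (((Fintype.card F - 1) / 2 : ℕ) : ℂ) → (∀ (c : F) (v : Fin 2 → F), v ≠ 0 → (g : Matrix (Fin 2) (Fin 2) F).mulVec v ≠ c • v) →
      (((g ^ ((Fintype.card F + 1) / 2)) : Matrix (Fin 2) (Fin 2) F) = 1 → χ g = -1) ∧ (((g ^ ((Fintype.card F + 1) / 2)) : Matrix (Fin 2) (Fin 2) F) ≠ 1 → χ g = 1)) := by
  classical
  have hodd' : Fintype.card F % 2 = 1 := Nat.odd_iff.1 hodd
  obtain ⟨X₀, h⟩ := exists_NS (F := F) hodd'
  obtain ⟨θ₀, hθ₀⟩ := exists_theta0 h hodd'
  obtain ⟨n, hn, hcases⟩ := master_nat hodd' h hθ₀ χ hχ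
  have hcf : IsClassFunction (Matrix.SpecialLinearGroup (Fin 2) F) χ :=
    Helper20.isClassFunction_of_isCharacter (Helper20.isCharacter_of_isIrrCharacter hχ)
  rw [hn]
  constructor
  · intro hd h01 h10 hsq
    have hd' : n = (Fintype.card F + 1) / 2 := by exact_mod_cast hd
    have V : Vals h χ (fun a => alpha0 F a) (fun _ => 0) := by
      rcases hcases with ⟨h0, -, V⟩ | ⟨h0, -, V⟩ | ⟨h0, α₁, -, -, V⟩ | ⟨h0, θ₁, α₁, -, -, -, V⟩ |
        ⟨h0, V⟩ | ⟨h0, V⟩ <;> first | exact V | (exfalso; omega)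
    obtain ⟨a, x, hg, ha, hx, -⟩ := eq_triSL g h10
    have hne : a ≠ a⁻¹ := units_ne_inv_of_sq_ne a (by rw [ha]; exact hsq)
    have hval := V.diag hcf a hne x
    rw [← hg, ha] at hval
    rw [hval]
    constructor
    · intro hs
      exact alpha0_of_isSquare (by rw [← ha]; exact a.ne_zero) hs
    · intro hs
      exact alpha0_of_not_isSquare hs
  · intro hd hno
    have hd' : n = (Fintype.card F - 1) / 2 := by exact_mod_cast hd
    have V : Vals h χ (fun _ => 0) (fun t => ((θ₀ t : ℂˣ) : ℂ)) := by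
      rcases hcases with ⟨h0, -, V⟩ | ⟨h0, -, V⟩ | ⟨h0, α₁, -, -, V⟩ | ⟨h0, θ₁, α₁, -, -, -, V⟩ |
        ⟨h0, V⟩ | ⟨h0, V⟩ <;> first | exact V | (exfalso; omega)
    obtain ⟨t, y, hy, hval⟩ := V.elliptic hcf g (nonsplit_of_no_eigenvector g hno)
    rw [hval]
    have hpow : (g : Matrix (Fin 2) (Fin 2) F) ^ ((Fintype.card F + 1) / 2) = 1 ↔
        t ^ ((Fintype.card F + 1) / 2) = 1 := by
      have hcoe : ((g ^ ((Fintype.card F + 1) / 2) : Matrix.SpecialLinearGroup (Fin 2) F) :
          Matrix (Fin 2) (Fin 2) F) = (g : Matrix (Fin 2) (Fin 2) F) ^ ((Fintype.card F + 1) / 2) :=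
        Matrix.SpecialLinearGroup.coe_pow _ _
      rw [← hcoe]
      have e1 : ((g ^ ((Fintype.card F + 1) / 2) : Matrix.SpecialLinearGroup (Fin 2) F) :
          Matrix (Fin 2) (Fin 2) F) = 1 ↔ g ^ ((Fintype.card F + 1) / 2) = 1 := by
        constructor
        · intro hh
          apply Subtype.ext
          rw [hh]; rfl
        · intro hh
          rw [hh]; rfl
      rw [e1]
      have e2 : t ^ ((Fintype.card F + 1) / 2) = 1 ↔
          (t : Matrix.SpecialLinearGroup (Fin 2) F) ^ ((Fintype.card F + 1) / 2) = 1 := by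
        constructor
        · intro hh
          have := congrArg Subtype.val hh
          simpa using this
        · intro hh
          apply Subtype.ext
          simpa using hh
      rw [e2, ← hy, conj_pow']
      constructor
      · intro hh
        rw [hh]; group
      · intro hh
        have : g ^ ((Fintype.card F + 1) / 2) =
            y⁻¹ * (y * g ^ ((Fintype.card F + 1) / 2) * y⁻¹) * y := by group
        rw [this, hh]; group
    rw [ne_eq, hpow]
    rcases theta0_cases h hodd' hθ₀ t with ⟨h1, h2⟩ | ⟨h1, h2⟩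
    · constructor
      · intro _
        rw [h2]; simp
      · intro hh
        exact absurd h1 hh
    · constructor
      · intro hh
        exact absurd hh h1
      · intro _
        rw [h2]; simp

end Cfsg.Agent.S2435
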