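import Cfsg.Statements.S2438
import Cfsg.Agent.Lib.Helper46.SL2CharMaster

set_option autoImplicit false
open Cfsg

namespace Cfsg.Agent.S2438

open Cfsg.Agent.Lib Cfsg.Agent.Lib.Helper46 in
theorem sum_unip {F : Type*} [Field F] [Fintype F] [DecidableEq F]
    (f : Matrix.SpecialLinearGroup (Fin 2) F → ℂ) :
    (∑ g : Matrix.SpecialLinearGroup (Fin 2) F, if (g : Matrix (Fin 2) (Fin 2) F) 1 0 = 0 ∧ (g : Matrix (Fin 2) (Fin 2) F) 0 0 = 1 ∧ (g : Matrix (Fin 2) (Fin 2) F) 1 1 = 1 then f g else 0)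
      = ∑ x : F, f (Helper44.triSL 1 x) := by
  symm
  apply Fintype.sum_of_injective (fun x : F => Helper44.triSL 1 x)
  · intro x y hxy
    have := congrArg (fun Z : Matrix.SpecialLinearGroup (Fin 2) F => (Z : Matrix (Fin 2) (Fin 2) F) 0 1) hxy
    simpa using this
  · intro g hg
    rw [if_neg]
    rintro ⟨h10, h00, h11⟩
    apply hg
    refine ⟨(g : Matrix (Fin 2) (Fin 2) F) 0 1, ?_⟩
    apply ext2 <;> simp [h10, h00, h11]
  · intro x
    rw [if_pos]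
    simp

/-- Let F be a finite field with q elements, q odd, q ≥ 5, U the upper unitriangular subgroup of SL₂ over F, and χ an irreducible complex character. The sum of the values of χ over U equals 2q, q, 0, q, 0 according as the degree of χ is q + 1, q, q − 1, (q + 1)/2, (q − 1)/2; so among these five degrees the sum vanishes exactly for the degrees q − 1 and (q − 1)/2, i.e. the irreducible characters of those two degrees are the ones whose restriction to U does not contain the trivial character (the cuspidal characters), while those of degree q + 1, q and (q + 1)/2 are not cuspidal. -/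
theorem result {F : Type*} [Field F] [Fintype F] [DecidableEq F] (hodd : Odd (Fintype.card F)) (hq : 5 ≤ Fintype.card F)
    (χ : Matrix.SpecialLinearGroup (Fin 2) F → ℂ) (hχ : Cfsg.IsIrrCharacter (Matrix.SpecialLinearGroup (Fin 2) F) χ) :
    (χ 1 = (Fintype.card F : ℂ) + 1 →
      (∑ g : Matrix.SpecialLinearGroup (Fin 2) F, if (g : Matrix (Fin 2) (Fin 2) F) 1 0 = 0 ∧ (g : Matrix (Fin 2) (Fin 2) F) 0 0 = 1 ∧ (g : Matrix (Fin 2) (Fin 2) F) 1 1 = 1 then χ g else 0) = 2 * (Fintype.card F : ℂ)) ∧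
    (χ 1 = (Fintype.card F : ℂ) →
      (∑ g : Matrix.SpecialLinearGroup (Fin 2) F, if (g : Matrix (Fin 2) (Fin 2) F) 1 0 = 0 ∧ (g : Matrix (Fin 2) (Fin 2) F) 0 0 = 1 ∧ (g : Matrix (Fin 2) (Fin 2) F) 1 1 = 1 then χ g else 0) = (Fintype.card F : ℂ)) ∧
    (χ 1 = (Fintype.card F : ℂ) - 1 →
      (∑ g : Matrix.SpecialLinearGroup (Fin 2) F, if (g : Matrix (Fin 2) (Fin 2) F) 1 0 = 0 ∧ (g : Matrix (Fin 2) (Fin 2) F) 0 0 = 1 ∧ (g : Matrix (Fin 2) (Fin 2) F) 1 1 = 1 then χ g else 0) = 0) ∧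
    (χ 1 = (((Fintype.card F + 1) / 2 : ℕ) : ℂ) →
      (∑ g : Matrix.SpecialLinearGroup (Fin 2) F, if (g : Matrix (Fin 2) (Fin 2) F) 1 0 = 0 ∧ (g : Matrix (Fin 2) (Fin 2) F) 0 0 = 1 ∧ (g : Matrix (Fin 2) (Fin 2) F) 1 1 = 1 then χ g else 0) = (Fintype.card F : ℂ)) ∧
    (χ 1 = (((Fintype.card F - 1) / 2 : ℕ) : ℂ) →
      (∑ g : Matrix.SpecialLinearGroup (Fin 2) F, if (g : Matrix (Fin 2) (Fin 2) F) 1 0 = 0 ∧ (g : Matrix (Fin 2) (Fin 2) F) 0 0 = 1 ∧ (g : Matrix (Fin 2) (Fin 2) F) 1 1 = 1 then χ g else 0) = 0) := by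
  have hodd' : Fintype.card F % 2 = 1 := Nat.odd_iff.1 hodd
  obtain ⟨X₀, h⟩ := Cfsg.Agent.Lib.Helper46.exists_NS (F := F) hodd'
  obtain ⟨θ₀, hθ₀⟩ := Cfsg.Agent.Lib.Helper46.exists_theta0 h hodd'
  obtain ⟨n, hn, hcases⟩ := Cfsg.Agent.Lib.Helper46.master_nat hodd' h hθ₀ χ hχ
  rw [sum_unip, hn]
  have hS : (n = 1 ∧ ∑ x : F, χ (Cfsg.Agent.Lib.Helper44.triSL 1 x) = (Fintype.card F : ℂ)) ∨
      (n = Fintype.card F ∧ ∑ x : F, χ (Cfsg.Agent.Lib.Helper44.triSL 1 x) = (Fintype.card F : ℂ)) ∨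
      (n = Fintype.card F + 1 ∧ ∑ x : F, χ (Cfsg.Agent.Lib.Helper44.triSL 1 x) = 2 * (Fintype.card F : ℂ)) ∨
      (n + 1 = Fintype.card F ∧ ∑ x : F, χ (Cfsg.Agent.Lib.Helper44.triSL 1 x) = 0) ∨
      (2 * n = Fintype.card F + 1 ∧ ∑ x : F, χ (Cfsg.Agent.Lib.Helper44.triSL 1 x) = (Fintype.card F : ℂ)) ∨
      (2 * n + 1 = Fintype.card F ∧ ∑ x : F, χ (Cfsg.Agent.Lib.Helper44.triSL 1 x) = 0) := by
    rcases hcases with ⟨h0, -, V⟩ | ⟨h0, -, V⟩ | ⟨h0, α₁, -, -, V⟩ | ⟨h0, θ₁, α₁, -, -, -, V⟩ |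
      ⟨h0, V⟩ | ⟨h0, V⟩
    · left; exact ⟨h0, by rw [V.split]; simp⟩
    · right; left; exact ⟨h0, by rw [V.split]; simp⟩
    · right; right; left; exact ⟨h0, by rw [V.split]; simp; ring⟩
    · right; right; right; left; exact ⟨h0, by rw [V.split]; simp⟩
    · right; right; right; right; left; exact ⟨h0, by rw [V.split]; simp⟩
    · right; right; right; right; right; exact ⟨h0, by rw [V.split]; simp⟩
  refine ⟨?_, ?_, ?_, ?_, ?_⟩
  · intro hd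
    have hd' : n = Fintype.card F + 1 := by exact_mod_cast hd
    rcases hS with ⟨h0, hs⟩ | ⟨h0, hs⟩ | ⟨h0, hs⟩ | ⟨h0, hs⟩ | ⟨h0, hs⟩ | ⟨h0, hs⟩ <;>
      first | exact hs | (exfalso; omega)
  · intro hd
    have hd' : n = Fintype.card F := by exact_mod_cast hd
    rcases hS with ⟨h0, hs⟩ | ⟨h0, hs⟩ | ⟨h0, hs⟩ | ⟨h0, hs⟩ | ⟨h0, hs⟩ | ⟨h0, hs⟩ <;>
      first | exact hs | (exfalso; omega)
  · intro hd
    have hd' : n + 1 = Fintype.card F := by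
      have : ((n + 1 : ℕ) : ℂ) = ((Fintype.card F : ℕ) : ℂ) := by push_cast; linear_combination hd
      exact_mod_cast this
    rcases hS with ⟨h0, hs⟩ | ⟨h0, hs⟩ | ⟨h0, hs⟩ | ⟨h0, hs⟩ | ⟨h0, hs⟩ | ⟨h0, hs⟩ <;>
      first | exact hs | (exfalso; omega)
  · intro hd
    have hd' : n = (Fintype.card F + 1) / 2 := by exact_mod_cast hd
    rcases hS with ⟨h0, hs⟩ | ⟨h0, hs⟩ | ⟨h0, hs⟩ | ⟨h0, hs⟩ | ⟨h0, hs⟩ | ⟨h0, hs⟩ <;>
      first | exact hs | (exfalso; omega)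
  · intro hd
    have hd' : n = (Fintype.card F - 1) / 2 := by exact_mod_cast hd
    rcases hS with ⟨h0, hs⟩ | ⟨h0, hs⟩ | ⟨h0, hs⟩ | ⟨h0, hs⟩ | ⟨h0, hs⟩ | ⟨h0, hs⟩ <;>
      first | exact hs | (exfalso; omega)

end Cfsg.Agent.S2438
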