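import Cfsg.Statements.S2439
import Cfsg.Agent.Lib.Helper78.DFZ.SL2Blk

set_option autoImplicit false
open Cfsg

namespace Cfsg.Agent.S2439

open Cfsg.Agent.Lib.Helper78.DFZ Cfsg.Agent.Lib.Helper81 in
/-- Let F be a finite field with q elements of odd characteristic p, and M a maximal ideal of the algebraic integers containing p. Then SL₂ over F has exactly three p-blocks relative to M: the irreducible character of degree q (the Steinberg character) alone; the other irreducible characters taking the same value at −1 as at 1 (the principal block); and the irreducible characters χ with χ(−1) = −χ(1). Every Sylow p-subgroup is a defect group of each of the last two blocks. -/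
theorem result {F : Type*} [Field F] [Fintype F] (p : ℕ) [Fact p.Prime] [CharP F p] (hp : p ≠ 2)
    (M : Ideal Cfsg.AlgInt) (hM : Cfsg.IsPModular p M) :
    (∀ B : Set (Cfsg.IrrCharacter (Matrix.SpecialLinearGroup (Fin 2) F)), Cfsg.IsPBlock M B ↔
      (B = {χ : Cfsg.IrrCharacter (Matrix.SpecialLinearGroup (Fin 2) F) | (χ : Matrix.SpecialLinearGroup (Fin 2) F → ℂ) 1 = (Fintype.card F : ℂ)} ∨
       B = {χ : Cfsg.IrrCharacter (Matrix.SpecialLinearGroup (Fin 2) F) | (χ : Matrix.SpecialLinearGroup (Fin 2) F → ℂ) (-1) = (χ : Matrix.SpecialLinearGroup (Fin 2) F → ℂ) 1 ∧ (χ : Matrix.SpecialLinearGroup (Fin 2) F → ℂ) 1 ≠ (Fintype.card F : ℂ)} ∨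
       B = {χ : Cfsg.IrrCharacter (Matrix.SpecialLinearGroup (Fin 2) F) | (χ : Matrix.SpecialLinearGroup (Fin 2) F → ℂ) (-1) = -(χ : Matrix.SpecialLinearGroup (Fin 2) F → ℂ) 1})) ∧
    Nat.card {B : Set (Cfsg.IrrCharacter (Matrix.SpecialLinearGroup (Fin 2) F)) // Cfsg.IsPBlock M B} = 3 ∧
    ∀ P : Sylow p (Matrix.SpecialLinearGroup (Fin 2) F),
      Cfsg.IsDefectGroup p M {χ : Cfsg.IrrCharacter (Matrix.SpecialLinearGroup (Fin 2) F) | (χ : Matrix.SpecialLinearGroup (Fin 2) F → ℂ) (-1) = (χ : Matrix.SpecialLinearGroup (Fin 2) F → ℂ) 1 ∧ (χ : Matrix.SpecialLinearGroup (Fin 2) F → ℂ) 1 ≠ (Fintype.card F : ℂ)} (P : Subgroup (Matrix.SpecialLinearGroup (Fin 2) F)) ∧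
      Cfsg.IsDefectGroup p M {χ : Cfsg.IrrCharacter (Matrix.SpecialLinearGroup (Fin 2) F) | (χ : Matrix.SpecialLinearGroup (Fin 2) F → ℂ) (-1) = -(χ : Matrix.SpecialLinearGroup (Fin 2) F → ℂ) 1} (P : Subgroup (Matrix.SpecialLinearGroup (Fin 2) F)) := by
  classical
  have hpp : p.Prime := Fact.out
  set G := Matrix.SpecialLinearGroup (Fin 2) F with hG
  -- the central involution
  have hz : (-1 : G) ∈ Subgroup.center G := by
    rw [Subgroup.mem_center_iff]
    intro g
    rw [mul_neg_one, neg_one_mul]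
  have hzz : (-1 : G) * (-1) = 1 := by rw [neg_mul_neg, one_mul]
  have hz1 : (-1 : G) ≠ 1 := by
    intro h
    have h0 : ((-1 : Matrix.SpecialLinearGroup (Fin 2) F)).1 0 0 =
        ((1 : Matrix.SpecialLinearGroup (Fin 2) F)).1 0 0 :=
      congrArg (fun g : Matrix.SpecialLinearGroup (Fin 2) F => g.1 0 0) h
    have h1 : (-1 : F) = 1 := by simpa using h0
    have h2 : (2 : F) = 0 := by linear_combination -h1
    have h3 : ((2 : ℕ) : F) = 0 := by exact_mod_cast h2
    rw [CharP.cast_eq_zero_iff F p] at h3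
    exact hp ((Nat.prime_dvd_prime_iff_eq hpp Nat.prime_two).1 h3)
  -- `q = |G|_p`
  have hq : p ^ (Nat.card G).factorization p = Fintype.card F := by
    have h1 := (Cfsg.Agent.Lib.Helper89.UT.sylU (K := F) (n := 2) p (by norm_num)).card_eq_multiplicity
    have h2 : Nat.card (Cfsg.Agent.Lib.Helper89.UT.U 2 F) = p ^ (Nat.card G).factorization p := h1
    rw [← h2, Cfsg.Agent.Lib.Helper89.UT.card_U, Fin.prod_univ_two]
    simp
  have hq1 : Fintype.card F ≠ 1 := Fintype.one_lt_card.ne'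
  -- the Steinberg character
  obtain ⟨χ0, h01, h0z⟩ := ex_char (F := F) 2 le_rfl p
  have h0q : (χ0 : G → ℂ) 1 = (Fintype.card F : ℂ) := by rw [h01, hq]
  obtain ⟨hb0, hB0, hd0⟩ := ex_defect_zero_of_degree p M hM χ0 h01
  have huniq : ∀ χ : IrrCharacter G, (χ : G → ℂ) 1 = (Fintype.card F : ℂ) → χ = χ0 := by
    intro χ hχ
    obtain ⟨_, hB, hd⟩ := ex_defect_zero_of_degree p M hM χ (by rw [hχ, hq])
    have := sl_unique_zero (F := F) (p := p) (by norm_num) hM _ _ hB hB0 hd hd0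
    exact Set.singleton_eq_singleton_iff.1 this
  have hS0 : {χ : IrrCharacter G | (χ : G → ℂ) 1 = (Fintype.card F : ℂ)} = {χ0} := by
    ext χ
    exact ⟨fun h => huniq χ h, fun h => by rw [Set.mem_singleton_iff.1 h]; exact h0q⟩
  -- trivial character and a faithful one
  let χ1 : IrrCharacter G := ⟨fun _ => 1, Cfsg.Agent.Lib.Helper4.isIrrCharacter_one⟩
  obtain ⟨χ2, h2⟩ : ∃ χ2 : IrrCharacter G, (χ2 : G → ℂ) (-1) = -(χ2 : G → ℂ) 1 := by
    by_contra hcon
    push Not at hcon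
    apply hz1
    have : IsConj (-1 : G) 1 := (Cfsg.Agent.S0136.result (-1 : G) 1).2 (fun χ =>
      (s2_pm χ.2 (-1) hz hzz).resolve_right (hcon χ))
    exact isConj_one_left.1 this
  have hne : ∀ χ : IrrCharacter G, (χ : G → ℂ) 1 ≠ 0 := fun χ =>
    Cfsg.Agent.Lib.Helper79.IsIrrCharacter.one_ne_zero χ.2
  have hpm : ∀ χ : IrrCharacter G, (χ : G → ℂ) (-1) = (χ : G → ℂ) 1 →
      (χ : G → ℂ) (-1) = -(χ : G → ℂ) 1 → False := by
    intro χ a b
    apply hne χ
    rw [a] at b
    linear_combination (1/2 : ℂ) * b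
  -- the three blocks
  set B1 := blockOf M (χ1 : G → ℂ) with hB1
  set B2 := blockOf M (χ2 : G → ℂ) with hB2
  have b1 : IsPBlock M B1 := ⟨χ1, rfl⟩
  have b2 : IsPBlock M B2 := ⟨χ2, rfl⟩
  have m1 : χ1 ∈ B1 := mem_blockOf_self hM χ1
  have m2 : χ2 ∈ B2 := mem_blockOf_self hM χ2
  have s1 : ∀ ψ ∈ B1, (ψ : G → ℂ) (-1) = (ψ : G → ℂ) 1 := fun ψ hψ =>
    s2_sep hM hp χ1.2 ψ.2 (-1) hz hzz hψ rfl
  have s2 : ∀ ψ ∈ B2, (ψ : G → ℂ) (-1) = -(ψ : G → ℂ) 1 := fun ψ hψ =>
    s2_sep' hM hp χ2.2 ψ.2 (-1) hz hzz hψ h2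
  have n01 : ({χ0} : Set (IrrCharacter G)) ≠ B1 := by
    intro h
    rw [← h] at m1
    have h3 : χ1 = χ0 := m1
    have h4 : (χ1 : G → ℂ) 1 = (Fintype.card F : ℂ) := by rw [h3]; exact h0q
    have h5 : (1 : ℂ) = (Fintype.card F : ℂ) := h4
    exact hq1 (by exact_mod_cast h5.symm)
  have n02 : ({χ0} : Set (IrrCharacter G)) ≠ B2 := by
    intro h
    rw [← h] at m2
    have h3 : χ2 = χ0 := m2
    exact hpm χ2 (by rw [h3]; exact h0z _ hz) h2
  have n12 : B1 ≠ B2 := by
    intro h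
    rw [← h] at m2
    exact hpm χ2 (s1 χ2 m2) h2
  have hcard : Nat.card {B : Set (IrrCharacter G) // IsPBlock M B} = 3 := by
    rw [sl_card_blocks (F := F) (p := p) le_rfl hM, sl2_center_card (F := F) (p := p) hp]
  have hall : ∀ B : Set (IrrCharacter G), IsPBlock M B → B = {χ0} ∨ B = B1 ∨ B = B2 := by
    intro B hB
    have : Finite {B : Set (IrrCharacter G) // IsPBlock M B} :=
      Nat.finite_of_card_ne_zero (by rw [hcard]; norm_num)
    have := Fintype.ofFinite {B : Set (IrrCharacter G) // IsPBlock M B}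
    let t0 : {B : Set (IrrCharacter G) // IsPBlock M B} := ⟨_, hB0⟩
    let t1 : {B : Set (IrrCharacter G) // IsPBlock M B} := ⟨_, b1⟩
    let t2 : {B : Set (IrrCharacter G) // IsPBlock M B} := ⟨_, b2⟩
    have hc3 : ({t0, t1, t2} : Finset _).card = 3 := by
      rw [Finset.card_eq_three]
      exact ⟨t0, t1, t2, fun h => n01 (congrArg Subtype.val h), fun h => n02 (congrArg Subtype.val h),
        fun h => n12 (congrArg Subtype.val h), rfl⟩
    have huniv : ({t0, t1, t2} : Finset _) = Finset.univ := by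
      apply Finset.eq_univ_of_card
      rw [hc3, ← Nat.card_eq_fintype_card, hcard]
    have hmem : (⟨B, hB⟩ : {B : Set (IrrCharacter G) // IsPBlock M B}) ∈ ({t0, t1, t2} : Finset _) := by
      rw [huniv]; exact Finset.mem_univ _
    simp only [Finset.mem_insert, Finset.mem_singleton] at hmem
    rcases hmem with h | h | h
    · exact Or.inl (congrArg Subtype.val h)
    · exact Or.inr (Or.inl (congrArg Subtype.val h))
    · exact Or.inr (Or.inr (congrArg Subtype.val h))
  have hS1 : {χ : IrrCharacter G | (χ : G → ℂ) (-1) = (χ : G → ℂ) 1 ∧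
      (χ : G → ℂ) 1 ≠ (Fintype.card F : ℂ)} = B1 := by
    ext ψ
    constructor
    · rintro ⟨ha, hb⟩
      have hm := mem_blockOf_self hM ψ
      rcases hall _ ⟨ψ, rfl⟩ with h | h | h
      · rw [h] at hm
        exact absurd (by rw [Set.mem_singleton_iff.1 hm]; exact h0q) hb
      · rwa [h] at hm
      · rw [h] at hm
        exact (hpm ψ ha (s2 ψ hm)).elim
    · intro hψ
      refine ⟨s1 ψ hψ, fun hdeg => ?_⟩
      have h3 := huniq ψ hdeg
      rw [h3] at hψ
      have h4 := blockOf_eq_of_mem hM hψ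
      rw [hb0] at h4
      exact n01 h4
  have hS2 : {χ : IrrCharacter G | (χ : G → ℂ) (-1) = -(χ : G → ℂ) 1} = B2 := by
    ext ψ
    constructor
    · intro ha
      have hm := mem_blockOf_self hM ψ
      rcases hall _ ⟨ψ, rfl⟩ with h | h | h
      · rw [h] at hm
        exact (hpm ψ (by rw [Set.mem_singleton_iff.1 hm]; exact h0z _ hz) ha).elim
      · rw [h] at hm
        exact (hpm ψ (s1 ψ hm) ha).elim
      · rwa [h] at hm
    · intro hψ
      exact s2 ψ hψ
  rw [hS0, hS1, hS2]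
  refine ⟨fun B => ⟨hall B, ?_⟩, hcard, fun P => ?_⟩
  · rintro (h | h | h)
    · rw [h]; exact hB0
    · rw [h]; exact b1
    · rw [h]; exact b2
  · have f1 : blockDefect p B1 = (Nat.card G).factorization p :=
      (dichotomy hM B1 b1).resolve_left (fun h =>
        n01 (sl_unique_zero (F := F) (p := p) (by norm_num) hM _ _ hB0 b1 hd0 h))
    have f2 : blockDefect p B2 = (Nat.card G).factorization p :=
      (dichotomy hM B2 b2).resolve_left (fun h =>
        n02 (sl_unique_zero (F := F) (p := p) (by norm_num) hM _ _ hB0 b2 hd0 h))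
    exact ⟨(Cfsg.Agent.Lib.Helper21.isDefectGroup_sylow_of_full hM B1 b1 f1).1 P,
      (Cfsg.Agent.Lib.Helper21.isDefectGroup_sylow_of_full hM B2 b2 f2).1 P⟩

end Cfsg.Agent.S2439
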