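import Cfsg.Statements.S2532
-- import your own Cfsg.Agent.* helpers here
import Mathlib

set_option autoImplicit false
open Cfsg

namespace Cfsg.Agent.S2532

open MulAction

/-- `Perm B` acting on the second factor of `A × B`. -/
def prodHom (A B : Type*) : Equiv.Perm B →* Equiv.Perm (A × B) where
  toFun σ := Equiv.prodCongr (Equiv.refl A) σ
  map_one' := by ext p <;> rfl
  map_mul' σ τ := by ext p <;> rfl

theorem prodHom_apply (A B : Type*) (σ : Equiv.Perm B) (p : A × B) :
    prodHom A B σ p = (p.1, σ p.2) := rfl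

theorem prodHom_injective (A B : Type*) [Nonempty A] : Function.Injective (prodHom A B) := by
  intro σ τ h
  obtain ⟨a⟩ := ‹Nonempty A›
  ext b
  have := congrArg (fun f : Equiv.Perm (A × B) => (f (a, b)).2) h
  simpa [prodHom_apply] using this

section lemA

variable {H X : Type*} [Group H] [MulAction H X] {r : ℕ} (K₀ : Subgroup H) (x : Fin r → X)
  (hstab : ∀ i, stabilizer H (x i) = K₀)

/-- the map `(hK₀, i) ↦ h • x i`. -/
def iotaFun : (H ⧸ K₀) × Fin r → X :=
  fun p => Quotient.liftOn' p.1 (fun h => h • x p.2) (by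
    intro a b hab
    rw [QuotientGroup.leftRel_apply, ← hstab p.2, mem_stabilizer_iff, mul_smul] at hab
    change a • x p.2 = b • x p.2
    have h1 : a • x p.2 = a • (a⁻¹ • b • x p.2) := by rw [hab]
    rw [h1, smul_smul, mul_inv_cancel, one_smul])

theorem iotaFun_mk (h : H) (i : Fin r) :
    iotaFun K₀ x hstab ((h : H ⧸ K₀), i) = h • x i := rfl

theorem iotaFun_smul (h : H) (p : (H ⧸ K₀) × Fin r) :
    h • iotaFun K₀ x hstab p = iotaFun K₀ x hstab (h • p.1, p.2) := by
  obtain ⟨c, i⟩ := p
  induction c using QuotientGroup.induction_on with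
  | H a =>
    change h • iotaFun K₀ x hstab ((a : H ⧸ K₀), i) = iotaFun K₀ x hstab (((h * a : H) : H ⧸ K₀), i)
    rw [iotaFun_mk, iotaFun_mk, mul_smul]

theorem iotaFun_injective (horb : ∀ i j, x j ∈ orbit H (x i) → i = j) :
    Function.Injective (iotaFun K₀ x hstab) := by
  rintro ⟨c, i⟩ ⟨d, j⟩ h
  induction c using QuotientGroup.induction_on with
  | H a =>
    induction d using QuotientGroup.induction_on with
    | H b =>
      rw [iotaFun_mk, iotaFun_mk] at h
      have hij : i = j := by
        apply horb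
        refine ⟨b⁻¹ * a, ?_⟩
        change (b⁻¹ * a) • x i = x j
        rw [mul_smul, h, smul_smul, inv_mul_cancel, one_smul]
      subst hij
      have : (a : H ⧸ K₀) = b := by
        rw [QuotientGroup.eq, ← hstab i, mem_stabilizer_iff, mul_smul, ← h, smul_smul,
          inv_mul_cancel, one_smul]
      rw [this]

include hstab in
theorem lemA (horb : ∀ i j, x j ∈ orbit H (x i) → i = j) :
    ∃ Φ : Equiv.Perm (Fin r) →* Equiv.Perm X, Function.Injective Φ ∧
      ∀ (σ : Equiv.Perm (Fin r)) (h : H) (y : X), Φ σ (h • y) = h • Φ σ y := by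
  let ι : (H ⧸ K₀) × Fin r ↪ X := ⟨iotaFun K₀ x hstab, iotaFun_injective K₀ x hstab horb⟩
  refine ⟨(Equiv.Perm.viaEmbeddingHom ι).comp (prodHom (H ⧸ K₀) (Fin r)),
    (Equiv.Perm.viaEmbeddingHom_injective ι).comp (prodHom_injective _ _), ?_⟩
  intro σ h y
  rw [MonoidHom.comp_apply, Equiv.Perm.viaEmbeddingHom_apply]
  by_cases hy : y ∈ Set.range ι
  · obtain ⟨p, rfl⟩ := hy
    have h1 : h • ι p = ι (h • p.1, p.2) := iotaFun_smul K₀ x hstab h p
    rw [h1, Equiv.Perm.viaEmbedding_apply, Equiv.Perm.viaEmbedding_apply, prodHom_apply,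
      prodHom_apply]
    exact (iotaFun_smul K₀ x hstab h (p.1, σ p.2)).symm
  · have hy' : h • y ∉ Set.range ι := by
      rintro ⟨p, hp⟩
      apply hy
      refine ⟨(h⁻¹ • p.1, p.2), ?_⟩
      have h1 : h⁻¹ • ι p = ι (h⁻¹ • p.1, p.2) := iotaFun_smul K₀ x hstab h⁻¹ p
      rw [← h1, hp, smul_smul, inv_mul_cancel, one_smul]
    rw [Equiv.Perm.viaEmbedding_apply_of_notMem _ _ _ hy,
      Equiv.Perm.viaEmbedding_apply_of_notMem _ _ _ hy']

end lemA

theorem lemB {H X : Type*} [Group H] [Finite H] [MulAction H X] [Fintype X] (r : ℕ)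
    (hcard : 2 ^ Nat.card H * (Nat.card H * r) ≤ Fintype.card X) :
    ∃ (K₀ : Subgroup H) (x : Fin r → X), (∀ i, stabilizer H (x i) = K₀) ∧
      ∀ i j, x j ∈ orbit H (x i) → i = j := by
  classical
  have : Fintype H := Fintype.ofFinite H
  have : Fintype (Subgroup H) := Fintype.ofFinite _
  have hn : 0 < Nat.card H := Nat.card_pos
  have hsub : Fintype.card (Subgroup H) ≤ 2 ^ Nat.card H := by
    have h1 : Fintype.card (Subgroup H) ≤ Fintype.card (Set H) :=
      Fintype.card_le_of_injective (fun K : Subgroup H => (K : Set H)) SetLike.coe_injective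
    rw [Fintype.card_set, ← Nat.card_eq_fintype_card (α := H)] at h1
    exact h1
  obtain ⟨K₀, hK₀⟩ := Fintype.exists_le_card_fiber_of_mul_le_card
    (fun y : X => stabilizer H y) (n := Nat.card H * r)
    ((Nat.mul_le_mul_right _ hsub).trans hcard)
  set S : Finset X := Finset.univ.filter (fun y : X => stabilizer H y = K₀) with hS
  let q : X → orbitRel.Quotient H X := fun y => Quotient.mk'' y
  have hfib : ∀ a ∈ S.image q, (S.filter (fun y => q y = a)).card ≤ Nat.card H := by
    intro a ha
    obtain ⟨y₀, -, rfl⟩ := Finset.mem_image.mp ha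
    have hsubset : S.filter (fun y => q y = q y₀) ⊆ Finset.univ.image (fun h : H => h • y₀) := by
      intro y hy
      have hy2 : q y = q y₀ := (Finset.mem_filter.mp hy).2
      have hy3 : y ∈ orbit H y₀ := by
        have := Quotient.exact hy2
        exact this
      obtain ⟨h, hh⟩ := hy3
      exact Finset.mem_image.mpr ⟨h, Finset.mem_univ _, hh⟩
    calc (S.filter (fun y => q y = q y₀)).card ≤ (Finset.univ.image (fun h : H => h • y₀)).card :=
          Finset.card_le_card hsubset
      _ ≤ (Finset.univ : Finset H).card := Finset.card_image_le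
      _ = Nat.card H := by rw [Finset.card_univ, Nat.card_eq_fintype_card]
  have h2 := Finset.card_le_mul_card_image S (Nat.card H) hfib
  have hr : r ≤ (S.image q).card := by
    have := hK₀.trans h2
    exact Nat.le_of_mul_le_mul_left this hn
  obtain ⟨t, ht, htcard⟩ := Finset.exists_subset_card_eq hr
  let e : Fin r ≃ t := (Finset.equivFinOfCardEq htcard).symm
  have hex : ∀ i : Fin r, ∃ y ∈ S, q y = (e i : orbitRel.Quotient H X) := by
    intro i
    exact Finset.mem_image.mp (ht (e i).2)
  choose x hxS hxq using hex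
  refine ⟨K₀, x, fun i => (Finset.mem_filter.mp (hxS i)).2, ?_⟩
  intro i j hij
  have h3 : q (x j) = q (x i) := Quotient.sound hij
  rw [hxq, hxq] at h3
  exact (e.injective (Subtype.ext h3)).symm

/-- There is a function `f` of two natural-number arguments such that, whenever `m ≥ f(n, r)`, every subgroup of order `n` of the alternating group of degree `m` centralizes some subgroup of that alternating group isomorphic to the alternating group of degree `r`. -/
theorem result :
    ∃ f : ℕ → ℕ → ℕ, ∀ (m r : ℕ) (H : Subgroup ↥(alternatingGroup (Fin m))), f (Nat.card H) r ≤ m →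
      ∃ K : Subgroup ↥(alternatingGroup (Fin m)), Nonempty (↥K ≃* ↥(alternatingGroup (Fin r))) ∧
        K ≤ Subgroup.centralizer (H : Set ↥(alternatingGroup (Fin m))) := by
  classical
  refine ⟨fun n r => 2 ^ n * (n * r), ?_⟩
  intro m r H hm
  have hcard : 2 ^ Nat.card H * (Nat.card H * r) ≤ Fintype.card (Fin m) := by
    simpa using hm
  obtain ⟨K₀, x, hstab, horb⟩ := lemB (H := H) (X := Fin m) r hcard
  obtain ⟨Φ, hΦinj, hΦ⟩ := lemA K₀ x hstab horb
  have hsign : ∀ σ ∈ alternatingGroup (Fin r), Φ σ ∈ alternatingGroup (Fin m) := by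
    have hle : alternatingGroup (Fin r) ≤ (Equiv.Perm.sign.comp Φ).ker := by
      rw [← Equiv.Perm.closure_three_cycles_eq_alternating, Subgroup.closure_le]
      intro σ hσ
      have h3 : σ ^ 3 = 1 := by
        have := hσ.orderOf
        rw [← this]; exact pow_orderOf_eq_one σ
      have h4 : (Equiv.Perm.sign.comp Φ) σ ^ 3 = 1 := by rw [← map_pow, h3, map_one]
      have h5 : (Equiv.Perm.sign.comp Φ) σ ^ 2 = 1 := by
        rcases Int.units_eq_one_or ((Equiv.Perm.sign.comp Φ) σ) with h | h <;> rw [h] <;> rfl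
      change (Equiv.Perm.sign.comp Φ) σ = 1
      calc (Equiv.Perm.sign.comp Φ) σ = (Equiv.Perm.sign.comp Φ) σ ^ 3 * ((Equiv.Perm.sign.comp Φ) σ ^ 2)⁻¹ := by
            group
        _ = 1 := by rw [h4, h5]; simp
    intro σ hσ
    exact hle hσ
  let Ψ : alternatingGroup (Fin r) →* alternatingGroup (Fin m) :=
    (Φ.comp (alternatingGroup (Fin r)).subtype).codRestrict (alternatingGroup (Fin m))
      (fun σ => hsign σ.1 σ.2)
  have hΨinj : Function.Injective Ψ := by
    intro σ τ h
    have h1 : Φ σ.1 = Φ τ.1 := congrArg Subtype.val h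
    exact Subtype.ext (hΦinj h1)
  refine ⟨Ψ.range, ⟨(MonoidHom.ofInjective hΨinj).symm⟩, ?_⟩
  rintro _ ⟨σ, rfl⟩
  rw [Subgroup.mem_centralizer_iff]
  intro h hh
  apply Subtype.ext
  ext y
  have := hΦ σ.1 (⟨h, hh⟩ : H) y
  change ((h : Equiv.Perm (Fin m)) (Φ σ.1 y) : ℕ) = (Φ σ.1 ((h : Equiv.Perm (Fin m)) y) : ℕ)
  exact congrArg Fin.val this.symm

end Cfsg.Agent.S2532
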