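import Cfsg.Statements.S2533
import Cfsg.Agent.Lib.Helper65.GenDih

set_option autoImplicit false
open Cfsg

namespace Cfsg.Agent.S2533

open Cfsg.Agent.Lib.Helper65

/-- For every odd prime `p` there is a finite group `H` of order `2p³` which, for infinitely many `n`, embeds in the projective special linear group `PSL(n, p)` as a subgroup with trivial centralizer. -/
theorem result
    (p : ℕ) [Fact p.Prime] (hp : p ≠ 2) :
    ∃ (H : Type) (_ : Group H) (_ : Finite H), Nat.card H = 2 * p ^ 3 ∧
      ∀ N : ℕ, ∃ n, N ≤ n ∧ ∃ φ : H →* Matrix.ProjectiveSpecialLinearGroup (Fin n) (ZMod p),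
        Function.Injective φ ∧ Subgroup.centralizer (φ.range : Set (Matrix.ProjectiveSpecialLinearGroup (Fin n) (ZMod p))) = ⊥ := by
  have hfin : Finite (GenDih.HH p) := by
    apply Nat.finite_of_card_ne_zero
    rw [GenDih.card_HH]
    have := (Fact.out : p.Prime).pos
    positivity
  exact ⟨GenDih.HH p, inferInstance, hfin, GenDih.card_HH p, GenDih.main p hp⟩

end Cfsg.Agent.S2533
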