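import Cfsg.Statements.S2540
-- import your own Cfsg.Agent.* helpers here
import Mathlib
import Cfsg.Agent.Lib.Helper47.SLn

set_option autoImplicit false
open Cfsg

namespace Cfsg.Agent.S2540

open Matrix Cfsg.Agent.Lib.Helper47

theorem field_cond {F : Type*} [Field F] [Fintype F] (hF : 4 ≤ Fintype.card F) :
    ∃ a : F, a ≠ 0 ∧ a ^ 2 ≠ 1 := by
  classical
  obtain ⟨x, hx⟩ : IsCyclic Fˣ := by infer_instance
  refine ⟨x, Units.ne_zero x, fun h ↦ ?_⟩
  have h1 : orderOf x = Fintype.card F - 1 := by
    rw [orderOf_eq_card_of_forall_mem_zpowers hx, Nat.card_eq_fintype_card, Fintype.card_units]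
  have h2 : orderOf x ≤ 2 := orderOf_le_of_pow_eq_one zero_lt_two (Units.ext <| by simpa using h)
  omega

/-- if `g (1+E) g⁻¹ = r (1+E)` with `E` an elementary nilpotent then `r = 1`. -/
theorem scalar_eq_one {n : Type*} [Fintype n] [DecidableEq n] {F : Type*} [Field F]
    (gm gi : Matrix n n F) (h1 : gm * gi = 1) (h2 : gi * gm = 1) {i j : n} (hij : i ≠ j) (c r : F)
    (h : gm * (1 + Matrix.single i j c) * gi = r • (1 + Matrix.single i j c)) : r = 1 := by
  set E := Matrix.single i j c with hE
  have hEE : E * E = 0 := Matrix.single_mul_single_of_ne _ _ _ _ hij.symm _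
  have e1 : gm * E * gi = (r - 1) • (1 : Matrix n n F) + r • E := by
    have : gm * (1 + E) * gi = 1 + gm * E * gi := by
      rw [mul_add, add_mul, mul_one, h1]
    rw [this] at h
    have h3 : gm * E * gi = r • (1 + E) - 1 := by rw [← h]; abel
    rw [h3, smul_add, sub_smul, one_smul]; abel
  have e2 : (gm * E * gi) * (gm * E * gi) = 0 := by
    calc (gm * E * gi) * (gm * E * gi) = gm * E * (gi * gm) * E * gi := by
          simp only [mul_assoc]
      _ = 0 := by rw [h2, mul_one, mul_assoc gm E E, hEE]; simp
  rw [e1] at e2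
  have e3 : ((r - 1) • (1 : Matrix n n F) + r • E) * ((r - 1) • (1 : Matrix n n F) + r • E)
      = ((r - 1) * (r - 1)) • (1 : Matrix n n F) + (2 * r * (r - 1)) • E := by
    simp only [add_mul, mul_add, smul_mul_assoc, mul_smul_comm, one_mul, mul_one, hEE, smul_zero,
      add_zero, smul_smul]
    module
  rw [e3] at e2
  have e4 := congrFun (congrFun e2 i) i
  simp [hE, Matrix.single_apply, hij.symm] at e4
  exact sub_eq_zero.mp e4

/-- Let F be a finite field and n ≥ 1, excluding the case n = 2 with #F ≤ 3. A subgroup of GL_n(F) that is normalized by every element of SL_n(F) either consists of scalar matrices or contains SL_n(F). -/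
theorem result {F : Type*} [Field F] [Fintype F] (n : ℕ) (hn : 1 ≤ n) (hex : ¬ (n = 2 ∧ Fintype.card F ≤ 3)) (G : Subgroup (Matrix.GeneralLinearGroup (Fin n) F)) (hG : ∀ s : Matrix.SpecialLinearGroup (Fin n) F, ∀ g ∈ G, (Matrix.SpecialLinearGroup.toGL s) * g * (Matrix.SpecialLinearGroup.toGL s)⁻¹ ∈ G) : (∀ g ∈ G, ∃ c : F, (g : Matrix (Fin n) (Fin n) F) = c • (1 : Matrix (Fin n) (Fin n) F)) ∨ (Matrix.SpecialLinearGroup.toGL : Matrix.SpecialLinearGroup (Fin n) F →* _).range ≤ G := by
  classical
  rcases Nat.lt_or_ge n 2 with h2 | h2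
  · obtain rfl : n = 1 := by omega
    left
    intro g _
    refine ⟨(g : Matrix (Fin 1) (Fin 1) F) 0 0, ?_⟩
    ext i j
    have hi : i = 0 := Subsingleton.elim _ _
    have hj : j = 0 := Subsingleton.elim _ _
    subst hi; subst hj
    simp
  · have hnt : Nontrivial (Fin n) := Fin.nontrivial_iff_two_le.mpr h2
    have hperf : commutator (Matrix.SpecialLinearGroup (Fin n) F) = ⊤ := by
      rcases Nat.lt_or_ge n 3 with h3 | h3
      · obtain rfl : n = 2 := by omega
        obtain ⟨a, ha, hasq⟩ := field_cond (F := F) (by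
          by_contra hcon
          exact hex ⟨rfl, by omega⟩)
        exact Matrix.SL2.commutator_eq_top ha hasq
      · exact commutator_SL_eq_top (by simpa using h3)
    let N : Subgroup (Matrix.SpecialLinearGroup (Fin n) F) := G.comap Matrix.SpecialLinearGroup.toGL
    have hN : N.Normal := by
      refine ⟨fun m hm s => ?_⟩
      change Matrix.SpecialLinearGroup.toGL (s * m * s⁻¹) ∈ G
      rw [map_mul, map_mul, map_inv]
      exact hG s _ hm
    rcases normal_le_center_or_commutator_le N with hc | hc
    · left
      intro g hg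
      have hscal : (g : Matrix (Fin n) (Fin n) F) ∈ Set.range (Matrix.scalar (Fin n)) := by
        apply Matrix.mem_range_scalar_of_commute_transvectionStruct
        intro t
        set s : Matrix.SpecialLinearGroup (Fin n) F := t.toSpecialLinearGroup with hs
        set S : GL (Fin n) F := Matrix.SpecialLinearGroup.toGL s with hS
        have hk : g * (S * g⁻¹ * S⁻¹) ∈ G := G.mul_mem hg (hG s _ (G.inv_mem hg))
        have hdet : ((g * (S * g⁻¹ * S⁻¹) : GL (Fin n) F) : Matrix (Fin n) (Fin n) F).det = 1 := by
          have h1 : Matrix.GeneralLinearGroup.det (g * (S * g⁻¹ * S⁻¹)) = 1 := by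
            simp only [map_mul, map_inv]
            rw [mul_comm (Matrix.GeneralLinearGroup.det S), mul_assoc, mul_inv_cancel, mul_one,
              mul_inv_cancel]
          have := congrArg Units.val h1
          rwa [Matrix.GeneralLinearGroup.val_det_apply, Units.val_one] at this
        let k' : Matrix.SpecialLinearGroup (Fin n) F := ⟨_, hdet⟩
        have hk' : k' ∈ N := by
          change Matrix.SpecialLinearGroup.toGL k' ∈ G
          have : Matrix.SpecialLinearGroup.toGL k' = g * (S * g⁻¹ * S⁻¹) := by
            ext; rfl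
          rw [this]; exact hk
        obtain ⟨r, -, hr⟩ := Matrix.SpecialLinearGroup.mem_center_iff.mp (hc hk')
        have hr' : ((g * (S * g⁻¹ * S⁻¹) : GL (Fin n) F) : Matrix (Fin n) (Fin n) F)
            = r • (1 : Matrix (Fin n) (Fin n) F) := by
          have : (k' : Matrix (Fin n) (Fin n) F) = Matrix.scalar (Fin n) r := hr.symm
          rw [Matrix.scalar_apply, ← Matrix.smul_one_eq_diagonal] at this
          exact this
        have hSm : (S : Matrix (Fin n) (Fin n) F) = 1 + Matrix.single t.i t.j t.c := rfl
        have hgg : (g : Matrix (Fin n) (Fin n) F) * ((g⁻¹ : GL (Fin n) F) : Matrix (Fin n) (Fin n) F) = 1 := by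
          rw [← Units.val_mul, mul_inv_cancel]; rfl
        have hgg' : ((g⁻¹ : GL (Fin n) F) : Matrix (Fin n) (Fin n) F) * (g : Matrix (Fin n) (Fin n) F) = 1 := by
          rw [← Units.val_mul, inv_mul_cancel]; rfl
        have hSS : ((S⁻¹ : GL (Fin n) F) : Matrix (Fin n) (Fin n) F) * (S : Matrix (Fin n) (Fin n) F) = 1 := by
          rw [← Units.val_mul, inv_mul_cancel]; rfl
        have hconj : (g : Matrix (Fin n) (Fin n) F) * (S : Matrix (Fin n) (Fin n) F) *
            ((g⁻¹ : GL (Fin n) F) : Matrix (Fin n) (Fin n) F) = r • (S : Matrix (Fin n) (Fin n) F) := by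
          have h1 := congrArg (fun M => M * (S : Matrix (Fin n) (Fin n) F)) hr'
          simp only [Units.val_mul, smul_mul_assoc, one_mul] at h1
          rw [← h1]
          simp only [mul_assoc, hSS, mul_one]
        have hr1 : r = 1 := by
          rw [hSm] at hconj
          exact scalar_eq_one _ _ hgg hgg' t.hij t.c r hconj
        rw [hr1, one_smul] at hconj
        have hcomm : (g : Matrix (Fin n) (Fin n) F) * (S : Matrix (Fin n) (Fin n) F) =
            (S : Matrix (Fin n) (Fin n) F) * (g : Matrix (Fin n) (Fin n) F) := by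
          have h1 := congrArg (fun M => M * (g : Matrix (Fin n) (Fin n) F)) hconj
          simp only [mul_assoc, hgg', mul_one] at h1
          exact h1
        exact hcomm.symm
      obtain ⟨c, hc'⟩ := hscal
      refine ⟨c, ?_⟩
      rw [← hc', Matrix.scalar_apply, Matrix.smul_one_eq_diagonal]
    · right
      rintro _ ⟨s, rfl⟩
      have : s ∈ N := hc (hperf ▸ Subgroup.mem_top s)
      exact this

end Cfsg.Agent.S2540
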