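import Cfsg.Statements.S2541
-- import your own Cfsg.Agent.* helpers here
import Mathlib

set_option autoImplicit false
open Cfsg

namespace Cfsg.Agent.S2541

theorem no_order_eight (σ : Equiv.Perm (Fin 6)) : orderOf σ ≠ 8 := by
  intro h
  have h4 : σ.cycleType.lcm ∣ 4 := by
    apply Multiset.lcm_dvd.mpr
    intro c hc
    have h1 : c ∣ 8 := h ▸ Equiv.Perm.dvd_of_mem_cycleType hc
    have h2 : c ≤ 6 := by
      have := Equiv.Perm.le_card_support_of_mem_cycleType hc
      have h3 : σ.support.card ≤ Fintype.card (Fin 6) := Finset.card_le_univ _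
      simp at h3
      omega
    interval_cases c <;> omega
  rw [Equiv.Perm.lcm_cycleType, h] at h4
  omega

noncomputable def dHom (F : Type*) [Field F] : Fˣ →* GL (Fin 2) F :=
  (Units.map (Matrix.diagonalRingHom (Fin 2) F).toMonoidHom).comp
    ((MulEquiv.piUnits (M := fun _ : Fin 2 => F)).symm.toMonoidHom.comp
      (MonoidHom.mulSingle (fun _ : Fin 2 => Fˣ) 0))

theorem dHom_apply (F : Type*) [Field F] (u : Fˣ) :
    ((dHom F u : GL (Fin 2) F) : Matrix (Fin 2) (Fin 2) F) = Matrix.diagonal ![(u : F), 1] := by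
  ext i j
  fin_cases i <;> fin_cases j <;> simp [dHom, Matrix.diagonal, Pi.mulSingle, Function.update]

/-- Let F be a field with 9 elements. The symmetric group S_6 is not isomorphic to PGL_2(F) (although both have index-2 subgroups isomorphic to A_6). -/
theorem result {F : Type*} [Field F] [Fintype F] (hF : Fintype.card F = 9) : ¬ Nonempty (Equiv.Perm (Fin 6) ≃* Matrix.ProjGenLinGroup (Fin 2) F) := by
  classical
  rintro ⟨e⟩
  have hcard : Nat.card Fˣ = 8 := by
    rw [Nat.card_eq_fintype_card, Fintype.card_units, hF]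
  obtain ⟨ζ, hζ⟩ := IsCyclic.exists_generator (α := Fˣ)
  have hord : orderOf ζ = 8 := by
    rw [orderOf_eq_card_of_forall_mem_zpowers hζ, hcard]
  have hinj : Function.Injective ((Matrix.ProjGenLinGroup.mk).comp (dHom F)) := by
    rw [injective_iff_map_eq_one]
    intro u hu
    rw [MonoidHom.comp_apply, Matrix.ProjGenLinGroup.mk_eq_one,
      Matrix.GeneralLinearGroup.center_eq_range_scalar] at hu
    obtain ⟨c, hc⟩ := hu
    have hc' := congrArg (fun M : GL (Fin 2) F => (M : Matrix (Fin 2) (Fin 2) F)) hc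
    simp only [dHom_apply, Matrix.GeneralLinearGroup.coe_scalar] at hc'
    have h00 := congrFun (congrFun hc' 0) 0
    have h11 := congrFun (congrFun hc' 1) 1
    simp at h00 h11
    ext
    rw [← h00, h11]
  have h8 : orderOf (e.symm ((Matrix.ProjGenLinGroup.mk).comp (dHom F) ζ)) = 8 := by
    rw [MulEquiv.orderOf_eq, orderOf_injective _ hinj, hord]
  exact no_order_eight _ h8

end Cfsg.Agent.S2541
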