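import Cfsg.Statements.S2545
import Cfsg.Agent.Lib.Helper50.STBMain
import Cfsg.Agent.Lib.Helper50.STBSp

set_option autoImplicit false
open Cfsg
open Cfsg.Agent.Lib.Helper50.STB

namespace Cfsg.Agent.S2545

/-- Let F be a finite field of characteristic p and consider the projective symplectic group PSp_{2m}(F) with m ≥ 1. This group has an irreducible complex character χ whose degree equals the order of a Sylow p-subgroup (namely q^(m²) when #F = q) and whose restriction to any Sylow p-subgroup P is the regular character of P: χ vanishes on the non-identity elements of P. (This is the Steinberg character.) -/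
theorem result {F : Type*} [Field F] [Fintype F] (p : ℕ) [Fact p.Prime] [CharP F p] (m : ℕ) (hm : 1 ≤ m) : ∃ χ : Cfsg.PSp m F → ℂ, Cfsg.IsIrrCharacter (Cfsg.PSp m F) χ ∧ ∀ P : Sylow p (Cfsg.PSp m F), χ 1 = Nat.card P ∧ ∀ x : Cfsg.PSp m F, x ∈ P → x ≠ 1 → χ x = 0 := by
  obtain ⟨Φ, hΦ⟩ := sp_ft m F
  have hc := sp_count m F
  have hfr : Module.finrank F (Fin m ⊕ Fin m → F) = 2 * m := by
    simp; ring
  obtain ⟨χ, hχ, D, h1, hD⟩ := main (polSp m F) m (Nat.card F)
    (fun X hX => by
      have := hX.two_mul_finrank_le hc.nondeg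
      omega) hc Φ (rhoSp m F) (sp_pres m F) hΦ
    (Subgroup.center (Matrix.symplecticGroup (Fin m) F)) (fun z hz => sp_center m hm F z hz)
  obtain ⟨r, hr1, hr2⟩ := sp_order m hm F p
  have hq : 0 < Nat.card F := Nat.card_pos
  have hD' : D = Nat.card F ^ (m ^ 2) := by
    apply Nat.eq_of_mul_eq_mul_right (pow_pos hq (m * (m + 1)))
    rw [hD, hfr, ← pow_add, ← pow_add]
    congr 1; ring
  obtain ⟨a, -, ha⟩ := exists_pow_of_card F p
  exact ⟨χ, hχ, final_of_degree p (Nat.card F ^ (m ^ 2)) r ⟨a * m ^ 2, by rw [ha, pow_mul]⟩ hr1 hr2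
    χ hχ (by rw [h1, hD'])⟩

end Cfsg.Agent.S2545
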