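import Cfsg.Statements.S2546
import Cfsg.Agent.Lib.Helper50.STBMain
import Cfsg.Agent.Lib.Helper50.STBSU
import Cfsg.Agent.Lib.Helper72.STBSU2

set_option autoImplicit false
open Cfsg
open Cfsg.Agent.Lib.Helper50.STB

namespace Cfsg.Agent.S2546

/-- Let F be a finite field of characteristic p and consider the projective special unitary group PSU_n(q), n ≥ 2, realised over the field F with q² elements. This group has an irreducible complex character χ whose degree equals the order of a Sylow p-subgroup (namely q^(n(n−1)/2)) and whose restriction to any Sylow p-subgroup P is the regular character of P: χ vanishes on the non-identity elements of P. (This is the Steinberg character.) -/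
theorem result {F : Type*} [Field F] [Fintype F] (p : ℕ) [Fact p.Prime] [CharP F p] (n q : ℕ) (hn : 2 ≤ n) (hF : Fintype.card F = q ^ 2) : ∃ χ : Cfsg.PSU n F q → ℂ, Cfsg.IsIrrCharacter (Cfsg.PSU n F q) χ ∧ ∀ P : Sylow p (Cfsg.PSU n F q), χ 1 = Nat.card P ∧ ∀ x : Cfsg.PSU n F q, x ∈ P → x ≠ 1 → χ x = 0 := by
  obtain ⟨Φ, hΦ⟩ := Cfsg.Agent.Lib.Helper72.STB.su_ft n hn F q hF
  have hc := su_count n F q hF
  have hfr : Module.finrank F (Fin n → F) = n := by simp
  obtain ⟨χ, hχ, D, h1, hD⟩ := main (polSU n F q hF) (n / 2) q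
    (fun X hX => by
      have := hX.two_mul_finrank_le hc.nondeg
      omega) hc Φ (rhoSU n F q) (su_pres n F q hF) hΦ
    (Subgroup.center ↥(Cfsg.SU n F q)) (fun z hz => su_center n F q hF z hz)
  obtain ⟨r, hr1, hr2⟩ := su_order n hn F q hF p
  have hq : 0 < q := by
    rcases Nat.eq_zero_or_pos q with rfl | h
    · have := Fintype.card_pos (α := F); omega
    · exact h
  have hcard : Nat.card F = q ^ 2 := by rw [Nat.card_eq_fintype_card, hF]
  have hD' : D = q ^ (n * (n - 1) / 2) := by
    apply Nat.eq_of_mul_eq_mul_right (pow_pos (pow_pos hq 2) (n / 2 * (n / 2 + 1)))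
    rw [← hcard, hD, hfr, hcard, ← pow_mul, ← pow_mul, ← pow_add, ← pow_add]
    congr 1
    obtain ⟨k, rfl | rfl⟩ := Nat.even_or_odd' n
    · have e1 : 2 * k / 2 = k := by omega
      have e2 : 2 * k * (2 * k - 1) / 2 = k * (2 * k - 1) := by
        rw [mul_assoc, Nat.mul_div_cancel_left _ (by norm_num)]
      rw [e1, e2]
      obtain ⟨j, rfl⟩ : ∃ j, k = j + 1 := ⟨k - 1, by omega⟩
      have : 2 * (j + 1) - 1 = 2 * j + 1 := by omega
      rw [this]; ring
    · have e1 : (2 * k + 1) / 2 = k := by omega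
      have e2 : (2 * k + 1) * (2 * k + 1 - 1) / 2 = (2 * k + 1) * k := by
        have : 2 * k + 1 - 1 = 2 * k := by omega
        rw [this, show (2 * k + 1) * (2 * k) = 2 * ((2 * k + 1) * k) by ring,
          Nat.mul_div_cancel_left _ (by norm_num)]
      rw [e1, e2]; ring
  obtain ⟨a, ha⟩ : ∃ a, q = p ^ a := by
    obtain ⟨b, -, hb⟩ := exists_pow_of_card F p
    rw [hcard] at hb
    have hp := (Fact.out : p.Prime)
    have : q ∣ p ^ b := by rw [← hb]; exact dvd_pow_self q (by norm_num)
    obtain ⟨a, -, ha⟩ := (Nat.dvd_prime_pow hp).1 this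
    exact ⟨a, ha⟩
  exact ⟨χ, hχ, final_of_degree p (q ^ (n * (n - 1) / 2)) r
    ⟨a * (n * (n - 1) / 2), by rw [ha, pow_mul]⟩ hr1 hr2 χ hχ (by rw [h1, hD'])⟩

end Cfsg.Agent.S2546
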