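import Cfsg.Statements.S2547
import Cfsg.Agent.Lib.Helper50.STBOrth4

set_option autoImplicit false
open Cfsg
open Cfsg.Agent.Lib.Helper50.STB Cfsg.Agent.Lib.Helper49

namespace Cfsg.Agent.S2547

/-- Let F be a finite field of characteristic p and consider the group PΩ_{2m+1}(F) of the quadratic form x₀² + Σ x_i y_i, where m ≥ 1 and #F is odd. This group has an irreducible complex character χ whose degree equals the order of a Sylow p-subgroup (namely q^(m²) when #F = q) and whose restriction to any Sylow p-subgroup P is the regular character of P: χ vanishes on the non-identity elements of P. (This is the Steinberg character.) -/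
theorem result {F : Type*} [Field F] [Fintype F] (p : ℕ) [Fact p.Prime] [CharP F p] (hodd : Odd (Fintype.card F)) (m : ℕ) (hm : 1 ≤ m) : ∃ χ : Cfsg.POmega F (Cfsg.quadFormOdd m F) → ℂ, Cfsg.IsIrrCharacter (Cfsg.POmega F (Cfsg.quadFormOdd m F)) χ ∧ ∀ P : Sylow p (Cfsg.POmega F (Cfsg.quadFormOdd m F)), χ 1 = Nat.card P ∧ ∀ x : Cfsg.POmega F (Cfsg.quadFormOdd m F), x ∈ P → x ≠ 1 → χ x = 0 := by
  have hp : p.Prime := Fact.out
  have h2 : (2 : F) ≠ 0 := by
    intro h2
    have : CharP F 2 := CharTwo.of_one_ne_zero_of_two_eq_zero one_ne_zero h2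
    have h3 : ringChar F = 2 := ringChar.eq F 2
    have h4 := FiniteField.even_card_iff_char_two.1 h3
    rw [Nat.odd_iff] at hodd
    omega
  have hO := Cfsg.Agent.S0286.result (F := F) rfl hodd m
  rw [← oddQF_coe m F] at hO ⊢
  have hQ := oddQF_nondegenerate m F h2
  have hcard2 : Fintype.card F ≠ 2 := by
    intro h
    rw [h] at hodd
    exact absurd hodd (by decide)
  have hgen := exists_reflProd_eq_finite (oddQF m F) hQ (Or.inl hcard2)
  obtain ⟨hy1, hy2, hy3⟩ := odd_y m F
  have hfr : Module.finrank F (Unit ⊕ (Fin m ⊕ Fin m) → F) = 2 * m + 1 := by simp; ring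
  have hcardeq := Cfsg.Agent.Lib.Helper18.OmegaCenter.card_isometryGroup_eq (oddQF m F)
  obtain ⟨a, ha0, ha⟩ := exists_pow_of_card F p
  rw [Nat.card_eq_fintype_card] at ha
  have hpq : p ∣ Fintype.card F := by rw [ha]; exact dvd_pow_self p ha0.ne'
  have hq0 : 0 < Fintype.card F := Fintype.card_pos
  apply steinberg_orth (oddQF m F) p hQ hgen m ?_ (frameOdd m F) _ hy1 hy2 hy3 ?_ (m ^ 2)
    (2 * ∏ i ∈ Finset.range m, (Fintype.card F ^ (2 * (i + 1)) - 1)) ?_ ?_ ?_
  · intro X hX
    have := hX.two_mul_finrank_le (polQ_count _ hQ).nondeg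
    omega
  · intro u _ _
    exact exists_nonsing_perp _ hQ (by omega) u
  · simp; ring
  · intro h
    rcases (Nat.Prime.dvd_mul hp).1 h with h | h
    · have hp2 : p = 2 := (Nat.prime_dvd_prime_iff_eq hp Nat.prime_two).1 h
      rw [hp2] at hpq
      rw [Nat.odd_iff] at hodd
      omega
    · obtain ⟨i, -, hi⟩ := (Prime.dvd_finsetProd_iff hp.prime _).1 h
      exact not_dvd_pow_sub_one p _ hp hpq hq0 _ (by omega) hi
  · refine ⟨Nat.card (Subgroup.center ↥(Cfsg.Omega F ⇑(oddQF m F))) *
      (Cfsg.Omega F ⇑(oddQF m F)).index, ?_⟩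
    rw [← mul_assoc (Nat.card (Cfsg.POmega F ⇑(oddQF m F))), ← hcardeq, hO]
    ring

end Cfsg.Agent.S2547
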