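import Cfsg.Statements.S2566
import Cfsg.Agent.S0287

set_option autoImplicit false
open Cfsg

namespace Cfsg.Agent.S2566

/-- positions of a `2 × 2` matrix -/
def idx : Fin 2 ⊕ Fin 2 → Fin 2 × Fin 2
  | .inl 0 => (0, 0)
  | .inr 0 => (1, 1)
  | .inl 1 => (0, 1)
  | .inr 1 => (1, 0)

def M2 (σ : Equiv.Perm (Fin 3)) : Matrix (Fin 2) (Fin 2) (ZMod 2) :=
  fun r i => (if σ i.castSucc = r.castSucc then 1 else 0) + (if σ 2 = r.castSucc then 1 else 0)

def L4 (σ : Equiv.Perm (Fin 3)) : Matrix (Fin 2 ⊕ Fin 2) (Fin 2 ⊕ Fin 2) (ZMod 2) :=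
  fun p p' => if (idx p).2 = (idx p').2 then M2 σ (idx p).1 (idx p').1 else 0

def sw : Matrix (Fin 2 ⊕ Fin 2) (Fin 2 ⊕ Fin 2) (ZMod 2) :=
  fun p p' => if idx p = (idx p').swap then 1 else 0

theorem L4_one : L4 1 = 1 := by decide +kernel

theorem L4_mul : ∀ σ τ, L4 (σ * τ) = L4 σ * L4 τ := by decide +kernel

theorem L4_Q : ∀ σ v, Cfsg.quadFormPlus 2 (ZMod 2) (Matrix.mulVec (L4 σ) v) = Cfsg.quadFormPlus 2 (ZMod 2) v := by
  decide +kernel

theorem sw_sw : sw * sw = 1 := by decide +kernel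

theorem sw_Q : ∀ v, Cfsg.quadFormPlus 2 (ZMod 2) (Matrix.mulVec sw v) = Cfsg.quadFormPlus 2 (ZMod 2) v := by
  decide +kernel

theorem L4_comm : ∀ σ τ, L4 σ * (sw * L4 τ * sw) = (sw * L4 τ * sw) * L4 σ := by decide +kernel

theorem L4_disj : ∀ σ τ, L4 σ = sw * L4 τ * sw → σ = 1 := by decide +kernel

theorem L4_inj : ∀ σ, L4 σ = 1 → σ = 1 := by decide +kernel


def Lhom : Equiv.Perm (Fin 3) →* Matrix (Fin 2 ⊕ Fin 2) (Fin 2 ⊕ Fin 2) (ZMod 2) where
  toFun := L4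
  map_one' := L4_one
  map_mul' := L4_mul

def phi : Equiv.Perm (Fin 3) →* ↥(Cfsg.isometryGroup (ZMod 2) (Cfsg.quadFormPlus 2 (ZMod 2))) :=
  (Lhom.toHomUnits).codRestrict _ (fun σ u _ => L4_Q σ u)

def gsw : ↥(Cfsg.isometryGroup (ZMod 2) (Cfsg.quadFormPlus 2 (ZMod 2))) :=
  ⟨⟨sw, sw, sw_sw, sw_sw⟩, fun u _ => sw_Q u⟩

def psi : Equiv.Perm (Fin 3) →* ↥(Cfsg.isometryGroup (ZMod 2) (Cfsg.quadFormPlus 2 (ZMod 2))) :=
  (MulAut.conj gsw).toMonoidHom.comp phi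

theorem phi_coe (σ : Equiv.Perm (Fin 3)) :
    (((phi σ : ↥(Cfsg.isometryGroup (ZMod 2) (Cfsg.quadFormPlus 2 (ZMod 2)))) :
      Matrix.GeneralLinearGroup (Fin 2 ⊕ Fin 2) (ZMod 2)) :
      Matrix (Fin 2 ⊕ Fin 2) (Fin 2 ⊕ Fin 2) (ZMod 2)) = L4 σ := rfl

theorem psi_coe (σ : Equiv.Perm (Fin 3)) :
    (((psi σ : ↥(Cfsg.isometryGroup (ZMod 2) (Cfsg.quadFormPlus 2 (ZMod 2)))) :
      Matrix.GeneralLinearGroup (Fin 2 ⊕ Fin 2) (ZMod 2)) :
      Matrix (Fin 2 ⊕ Fin 2) (Fin 2 ⊕ Fin 2) (ZMod 2)) = sw * L4 σ * sw := rfl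

theorem ext_coe {a b : ↥(Cfsg.isometryGroup (ZMod 2) (Cfsg.quadFormPlus 2 (ZMod 2)))}
    (h : ((a : Matrix.GeneralLinearGroup (Fin 2 ⊕ Fin 2) (ZMod 2)) :
      Matrix (Fin 2 ⊕ Fin 2) (Fin 2 ⊕ Fin 2) (ZMod 2)) = ((b : Matrix.GeneralLinearGroup (Fin 2 ⊕ Fin 2) (ZMod 2)) :
      Matrix (Fin 2 ⊕ Fin 2) (Fin 2 ⊕ Fin 2) (ZMod 2))) : a = b :=
  Subtype.ext (Units.ext h)

theorem phi_injective : Function.Injective phi := by
  rw [injective_iff_map_eq_one]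
  intro σ h
  apply L4_inj
  rw [← phi_coe, h]
  rfl

theorem psi_injective : Function.Injective psi :=
  (MulAut.conj gsw).injective.comp phi_injective

theorem comm_phi_psi (σ τ : Equiv.Perm (Fin 3)) : Commute (phi σ) (psi τ) := by
  apply ext_coe
  exact L4_comm σ τ

theorem disj_phi_psi : Disjoint phi.range psi.range := by
  rw [Subgroup.disjoint_def]
  rintro x ⟨σ, rfl⟩ ⟨τ, hτ⟩
  have h1 : L4 σ = sw * L4 τ * sw := by rw [← phi_coe, ← psi_coe, hτ]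
  rw [L4_disj σ τ h1, map_one]


/-- The full orthogonal group of the plus-type form x₁y₁ + x₂y₂ in dimension 4 over the field of two elements has order 72 and is isomorphic to the wreath product of the symmetric group of degree 3 by a group of order 2: it has a normal subgroup isomorphic to the direct product of two symmetric groups of degree 3, of index 2, whose two direct factors are interchanged by conjugation by some element. -/
theorem result :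
    Nat.card ↥(Cfsg.isometryGroup (ZMod 2) (Cfsg.quadFormPlus 2 (ZMod 2))) = 72 ∧
    ∃ (A B : Subgroup ↥(Cfsg.isometryGroup (ZMod 2) (Cfsg.quadFormPlus 2 (ZMod 2)))),
      Nonempty (↥A ≃* Equiv.Perm (Fin 3)) ∧ Nonempty (↥B ≃* Equiv.Perm (Fin 3)) ∧ A ⊓ B = ⊥ ∧ (∀ a ∈ A, ∀ b ∈ B, a * b = b * a) ∧
      (A ⊔ B).index = 2 ∧ ∃ g : ↥(Cfsg.isometryGroup (ZMod 2) (Cfsg.quadFormPlus 2 (ZMod 2))), A.map (MulAut.conj g).toMonoidHom = B := by
  have hcard : Nat.card ↥(Cfsg.isometryGroup (ZMod 2) (Cfsg.quadFormPlus 2 (ZMod 2))) = 72 := by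
    rw [Cfsg.Agent.S0287.result (F := ZMod 2) (q := 2) (ZMod.card 2) 2 (by norm_num)]
    decide
  refine ⟨hcard, phi.range, psi.range, ⟨(MonoidHom.ofInjective phi_injective).symm⟩,
    ⟨(MonoidHom.ofInjective psi_injective).symm⟩, disj_phi_psi.eq_bot, ?_, ?_, gsw, ?_⟩
  · rintro _ ⟨σ, rfl⟩ _ ⟨τ, rfl⟩
    exact comm_phi_psi σ τ
  · have h1 := Subgroup.card_mul_index (phi.range ⊔ psi.range)
    rw [hcard, ← MonoidHom.noncommCoprod_range phi psi comm_phi_psi] at h1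
    have hinj : Function.Injective (MonoidHom.noncommCoprod phi psi comm_phi_psi) :=
      (MonoidHom.noncommCoprod_injective phi psi comm_phi_psi).2
        ⟨phi_injective, psi_injective, disj_phi_psi⟩
    have h2 : Nat.card (MonoidHom.noncommCoprod phi psi comm_phi_psi).range = 36 := by
      rw [← Nat.card_congr (MonoidHom.ofInjective hinj).toEquiv, Nat.card_prod,
        Nat.card_eq_fintype_card, Fintype.card_perm, Fintype.card_fin]
      rfl
    rw [h2] at h1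
    rw [← MonoidHom.noncommCoprod_range phi psi comm_phi_psi]
    omega
  · rw [MonoidHom.map_range]
    rfl

end Cfsg.Agent.S2566
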