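import Cfsg.Statements.S2548
import Cfsg.Agent.Lib.Helper50.STBPlus4
import Cfsg.Agent.Lib.Helper72.STBW
import Cfsg.Agent.Lib.Helper6.IsomTransport
import Cfsg.Agent.S2566

set_option autoImplicit false
open Cfsg
open Cfsg.Agent.Lib.Helper50.STB Cfsg.Agent.Lib.Helper49

namespace Cfsg.Agent.S2548

/-- Let F be a finite field of characteristic p and consider the group PΩ⁺_{2m}(F) of the hyperbolic quadratic form Σ x_i y_i with m ≥ 1, where Ω denotes the commutator subgroup of the full isometry group. This group has an irreducible complex character χ whose degree equals the order of a Sylow p-subgroup (equal to q^(m(m−1)) when #F = q, except in the degenerate case m = 2, q = 2, where this commutator subgroup has order 18 and its Sylow 2-subgroups have order 2) and whose restriction to any Sylow p-subgroup P is the regular character of P: χ vanishes on the non-identity elements of P. (This is the Steinberg character.) -/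
theorem result {F : Type*} [Field F] [Fintype F] (p : ℕ) [Fact p.Prime] [CharP F p] (m : ℕ) (hm : 1 ≤ m) : ∃ χ : Cfsg.POmega F (Cfsg.quadFormPlus m F) → ℂ, Cfsg.IsIrrCharacter (Cfsg.POmega F (Cfsg.quadFormPlus m F)) χ ∧ ∀ P : Sylow p (Cfsg.POmega F (Cfsg.quadFormPlus m F)), χ 1 = Nat.card P ∧ ∀ x : Cfsg.POmega F (Cfsg.quadFormPlus m F), x ∈ P → x ≠ 1 → χ x = 0 := by
  have hp : p.Prime := Fact.out
  by_cases hex : Fintype.card F ≠ 2 ∨ m ≠ 2
  · rw [← plusQF_coe m F]
    exact steinberg_plus_std p m hm hex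
  · push Not at hex
    obtain ⟨hF, rfl⟩ := hex
    -- the exceptional case `O₄⁺(2)`
    have hp2 : p = 2 := by
      obtain ⟨a, ha0, ha⟩ := exists_pow_of_card F p
      rw [Nat.card_eq_fintype_card, hF] at ha
      have : p ∣ 2 := by rw [ha]; exact dvd_pow_self p ha0.ne'
      exact (Nat.prime_dvd_prime_iff_eq hp Nat.prime_two).1 this
    subst hp2
    have e : ZMod 2 ≃+* F := ZMod.ringEquivOfPrime F Nat.prime_two hF
    have hO : Nat.card ↥(Cfsg.isometryGroup F (Cfsg.quadFormPlus 2 F)) = 72 := by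
      rw [Cfsg.Agent.S0287.result (F := F) (q := 2) hF 2 (by norm_num)]
      decide
    let ρ : ↥(Cfsg.isometryGroup (ZMod 2) (Cfsg.quadFormPlus 2 (ZMod 2))) →*
        Matrix (Fin 2 ⊕ Fin 2) (Fin 2 ⊕ Fin 2) (ZMod 2) :=
      (Units.coeHom _).comp (Subgroup.subtype _)
    have hρinj : Function.Injective ρ := fun a b h => Cfsg.Agent.S2566.ext_coe h
    let T := Cfsg.Agent.Lib.Helper6.homIsometry e (Cfsg.quadFormPlus 2 (ZMod 2))
      (Cfsg.quadFormPlus 2 F) (by intro w; simp [Cfsg.quadFormPlus]) ρ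
      (fun h v => (Cfsg.Agent.Lib.Helper6.mem_isometryGroup_iff _ _).1 h.2 v)
    have hT : Function.Injective T := Cfsg.Agent.Lib.Helper6.homIsometry_injective _ _ _ _ _ _ hρinj
    have hgg : Cfsg.Agent.S2566.gsw * Cfsg.Agent.S2566.gsw = 1 :=
      Cfsg.Agent.S2566.ext_coe Cfsg.Agent.S2566.sw_sw
    have hpsi : ∀ τ, T Cfsg.Agent.S2566.gsw * (T.comp Cfsg.Agent.S2566.phi) τ *
        (T Cfsg.Agent.S2566.gsw)⁻¹ = T (Cfsg.Agent.S2566.psi τ) := by
      intro τ
      rw [MonoidHom.comp_apply, ← map_inv, ← map_mul, ← map_mul]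
      rfl
    obtain ⟨χ, hχ, h1, hcard⟩ := Cfsg.Agent.Lib.Helper72.STB.wreath_char hO
      (T.comp Cfsg.Agent.S2566.phi) (hT.comp Cfsg.Agent.S2566.phi_injective)
      (T Cfsg.Agent.S2566.gsw) (by rw [← map_mul, hgg, map_one])
      (by
        intro σ τ
        rw [hpsi]
        exact (Cfsg.Agent.S2566.comm_phi_psi σ τ).map T)
      (by
        intro σ τ h
        rw [hpsi] at h
        have h2 : Cfsg.Agent.S2566.phi σ = Cfsg.Agent.S2566.psi τ := hT h
        have h3 := Subgroup.disjoint_def.1 Cfsg.Agent.S2566.disj_phi_psi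
          (x := Cfsg.Agent.S2566.phi σ) ⟨σ, rfl⟩ ⟨τ, h2.symm⟩
        apply Cfsg.Agent.S2566.phi_injective
        rw [h3, map_one])
    refine ⟨χ, hχ, ?_⟩
    exact final_of_degree_dvd 2 2 9 ⟨1, by simp⟩ (by simpa using hcard) (by decide) χ hχ
      (by rw [h1]; norm_num)

end Cfsg.Agent.S2548
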