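import Cfsg.Statements.S2549
import Cfsg.Agent.Lib.Helper50.STBOrth5

set_option autoImplicit false
open Cfsg
open Cfsg.Agent.Lib.Helper50.STB Cfsg.Agent.Lib.Helper49

namespace Cfsg.Agent.S2549

/-- Let F be a finite field of characteristic p and consider the group PΩ⁻_{2m+2}(F) of the quadratic form Σ_{i<m} x_i y_i + (z₁² + a z₁ z₂ + b z₂²) with anisotropic binary part, m ≥ 0. This group has an irreducible complex character χ whose degree equals the order of a Sylow p-subgroup (namely q^(m(m+1)) when #F = q) and whose restriction to any Sylow p-subgroup P is the regular character of P: χ vanishes on the non-identity elements of P. (This is the Steinberg character.) -/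
theorem result {F : Type*} [Field F] [Fintype F] (p : ℕ) [Fact p.Prime] [CharP F p] (m : ℕ) (a b : F) (hab : ∀ z₁ z₂ : F, z₁ ^ 2 + a * z₁ * z₂ + b * z₂ ^ 2 = 0 → z₁ = 0 ∧ z₂ = 0) : ∃ χ : Cfsg.POmega F (Cfsg.quadFormMinus m F a b) → ℂ, Cfsg.IsIrrCharacter (Cfsg.POmega F (Cfsg.quadFormMinus m F a b)) χ ∧ ∀ P : Sylow p (Cfsg.POmega F (Cfsg.quadFormMinus m F a b)), χ 1 = Nat.card P ∧ ∀ x : Cfsg.POmega F (Cfsg.quadFormMinus m F a b), x ∈ P → x ≠ 1 → χ x = 0 := by
  have hp : p.Prime := Fact.out
  have hO := Cfsg.Agent.S0288.result (F := F) rfl (m + 1) (by omega) a b hab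
  rw [Nat.add_sub_cancel] at hO
  rw [← minusQF_coe m F a b] at hO ⊢
  have hQ := minusQF_nondegenerate m F a b (minus_disc_ne_zero a b hab)
  have hgen := minus_gen m a b hab
  obtain ⟨hy1, hy2, hy3⟩ := minus_y m F a b
  have hfr : Module.finrank F ((Fin m ⊕ Fin m) ⊕ Fin 2 → F) = 2 * m + 2 := by simp; ring
  have hcardeq := Cfsg.Agent.Lib.Helper18.OmegaCenter.card_isometryGroup_eq (minusQF m F a b)
  obtain ⟨e, he0, he⟩ := exists_pow_of_card F p
  rw [Nat.card_eq_fintype_card] at he
  have hpq : p ∣ Fintype.card F := by rw [he]; exact dvd_pow_self p he0.ne'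
  have hq0 : 0 < Fintype.card F := Fintype.card_pos
  have hb := minus_bound m a b hab
  have hplus : ¬ p ∣ Fintype.card F ^ (m + 1) + 1 := by
    intro h
    have h1 : p ∣ Fintype.card F ^ (m + 1) := dvd_pow hpq (by omega)
    have h3 : p ∣ 1 := (Nat.dvd_add_right h1).1 h
    exact hp.one_lt.ne' (Nat.dvd_one.1 h3)
  have hprod : ¬ p ∣ ∏ i ∈ Finset.range m, (Fintype.card F ^ (2 * (i + 1)) - 1) := by
    intro h
    obtain ⟨i, -, hi⟩ := (Prime.dvd_finsetProd_iff hp.prime _).1 h
    exact not_dvd_pow_sub_one p _ hp hpq hq0 _ (by omega) hi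
  have hcen : ∀ u, minusQF m F a b u = 0 → u ≠ 0 →
      ∃ w, QuadraticMap.polar (minusQF m F a b) u w = 0 ∧ minusQF m F a b w ≠ 0 := by
    intro u hu hu0
    rcases Nat.eq_zero_or_pos m with rfl | hm
    · exfalso
      have hts : (polQ (minusQF 0 F a b)).TS (Submodule.span F {u}) := by
        apply TS_span
        · intro x hx
          rw [Set.mem_singleton_iff.1 hx]; exact hu
        · intro x hx y hy
          rw [Set.mem_singleton_iff.1 hx, Set.mem_singleton_iff.1 hy]
          exact (polQ (minusQF 0 F a b)).sing_self hu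
      have := hb _ hts
      rw [finrank_span_singleton hu0] at this
      omega
    · exact exists_nonsing_perp _ hQ (by omega) u
  have hN : m * (m + 1) + m * (m + 1) = Fintype.card ((Fin m ⊕ Fin m) ⊕ Fin 2) * m := by
    simp; ring
  by_cases h2 : (2 : F) = 0
  · -- characteristic two
    have : Nonempty ((Fin m ⊕ Fin m) ⊕ Fin 2) := ⟨Sum.inr 0⟩
    have hidx := index_Omega_char_two_gen (minusQF m F a b) h2 hQ hgen
    apply steinberg_orth (minusQF m F a b) p hQ hgen m hb (frameMinus m F a b) _ hy1 hy2 hy3 hcen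
      (m * (m + 1))
      ((Fintype.card F ^ (m + 1) + 1) * ∏ i ∈ Finset.range m, (Fintype.card F ^ (2 * (i + 1)) - 1))
      hN ?_ ?_
    · intro h
      rcases (Nat.Prime.dvd_mul hp).1 h with h | h
      · exact hplus h
      · exact hprod h
    · refine ⟨Nat.card (Subgroup.center ↥(Cfsg.Omega F ⇑(minusQF m F a b))), ?_⟩
      rw [hidx, hO] at hcardeq
      have : 2 * (Fintype.card F ^ (m * (m + 1)) * ((Fintype.card F ^ (m + 1) + 1) *
          ∏ i ∈ Finset.range m, (Fintype.card F ^ (2 * (i + 1)) - 1))) =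
          2 * (Nat.card (Cfsg.POmega F ⇑(minusQF m F a b)) *
            Nat.card (Subgroup.center ↥(Cfsg.Omega F ⇑(minusQF m F a b)))) := by
        rw [mul_comm 2 (Nat.card (Cfsg.POmega F ⇑(minusQF m F a b)) * _), ← hcardeq]
        rw [mul_comm (m + 1) m]
        ring
      exact Nat.eq_of_mul_eq_mul_left (by norm_num) this
  · apply steinberg_orth (minusQF m F a b) p hQ hgen m hb (frameMinus m F a b) _ hy1 hy2 hy3 hcen
      (m * (m + 1))
      (2 * ((Fintype.card F ^ (m + 1) + 1) *
        ∏ i ∈ Finset.range m, (Fintype.card F ^ (2 * (i + 1)) - 1)))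
      hN ?_ ?_
    · intro h
      rcases (Nat.Prime.dvd_mul hp).1 h with h | h
      · have hp2 : p = 2 := (Nat.prime_dvd_prime_iff_eq hp Nat.prime_two).1 h
        apply h2
        have := CharP.cast_eq_zero F p
        rw [hp2] at this
        exact_mod_cast this
      · rcases (Nat.Prime.dvd_mul hp).1 h with h | h
        · exact hplus h
        · exact hprod h
    · refine ⟨Nat.card (Subgroup.center ↥(Cfsg.Omega F ⇑(minusQF m F a b))) *
        (Cfsg.Omega F ⇑(minusQF m F a b)).index, ?_⟩
      rw [← mul_assoc (Nat.card (Cfsg.POmega F ⇑(minusQF m F a b))), ← hcardeq, hO,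
        mul_comm (m + 1) m]
      ring

end Cfsg.Agent.S2549
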