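import Cfsg.Statements.S2579
import Cfsg.Agent.Lib.Helper48.Transv

set_option autoImplicit false
open Cfsg

namespace Cfsg.Agent.S2579

/-- In SL_n(F) with n ≥ 3, over a finite field F, any two transvections (matrices t with t − 1 of rank one and square zero) are conjugate by an element of SL_n(F). -/
theorem result {F : Type*} [Field F] [Finite F] {n : ℕ} (hn : 3 ≤ n) (s t : Matrix.SpecialLinearGroup (Fin n) F) (hs : Cfsg.IsTransvection (s : Matrix (Fin n) (Fin n) F)) (ht : Cfsg.IsTransvection (t : Matrix (Fin n) (Fin n) F)) : IsConj s t := by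
  classical
  obtain ⟨hs1, hs2⟩ := hs
  obtain ⟨ht1, ht2⟩ := ht
  have hs1' : Module.finrank F (LinearMap.range
      (Matrix.toLin' ((s : Matrix (Fin n) (Fin n) F) - 1))) = 1 := by
    rw [Matrix.toLin'_apply']; exact hs1
  have ht1' : Module.finrank F (LinearMap.range
      (Matrix.toLin' ((t : Matrix (Fin n) (Fin n) F) - 1))) = 1 := by
    rw [Matrix.toLin'_apply']; exact ht1
  have hs2' : (Matrix.toLin' ((s : Matrix (Fin n) (Fin n) F) - 1) : Module.End F (Fin n → F)) *
      Matrix.toLin' ((s : Matrix (Fin n) (Fin n) F) - 1) = 0 := by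
    rw [Module.End.mul_eq_comp, ← Matrix.toLin'_mul, hs2, map_zero]
  have ht2' : (Matrix.toLin' ((t : Matrix (Fin n) (Fin n) F) - 1) : Module.End F (Fin n → F)) *
      Matrix.toLin' ((t : Matrix (Fin n) (Fin n) F) - 1) = 0 := by
    rw [Module.End.mul_eq_comp, ← Matrix.toLin'_mul, ht2, map_zero]
  have h3 : 3 ≤ Module.finrank F (Fin n → F) := by rw [Module.finrank_fin_fun]; exact hn
  obtain ⟨h, hdet, hconj⟩ := Cfsg.Agent.Lib.Helper48.exists_det_one_conj (K := F)
    (V := Fin n → F) _ _ hs1' hs2' ht1' ht2' h3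
  have hH : (LinearMap.toMatrix' h).det = 1 := by rw [LinearMap.det_toMatrix', hdet]
  have hc : LinearMap.toMatrix' h * ((s : Matrix (Fin n) (Fin n) F) - 1) =
      ((t : Matrix (Fin n) (Fin n) F) - 1) * LinearMap.toMatrix' h := by
    have := congrArg LinearMap.toMatrix' hconj
    rw [Module.End.mul_eq_comp, Module.End.mul_eq_comp, LinearMap.toMatrix'_comp,
      LinearMap.toMatrix'_comp, LinearMap.toMatrix'_toLin', LinearMap.toMatrix'_toLin'] at this
    exact this
  rw [isConj_iff]
  let c : Matrix.SpecialLinearGroup (Fin n) F := ⟨LinearMap.toMatrix' h, hH⟩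
  have hcc : (c : Matrix (Fin n) (Fin n) F) = LinearMap.toMatrix' h := rfl
  refine ⟨c, ?_⟩
  rw [mul_inv_eq_iff_eq_mul]
  apply Subtype.ext
  simp only [Matrix.SpecialLinearGroup.coe_mul, hcc]
  rw [Matrix.mul_sub, Matrix.sub_mul, Matrix.mul_one, Matrix.one_mul] at hc
  exact sub_left_injective hc

end Cfsg.Agent.S2579
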