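import Cfsg.Statements.S2550
import Cfsg.Agent.S2579
import Cfsg.Agent.S0243

set_option autoImplicit false
set_option linter.unusedSectionVars false
open Cfsg

namespace Cfsg.Agent.S2550

/-- all involutions conjugate -/
def InvConj (G : Type*) [Group G] : Prop :=
  ∀ a b : G, orderOf a = 2 → orderOf b = 2 → IsConj a b

theorem InvConj.of_equiv {G H : Type*} [Group G] [Group H] (e : G ≃* H) (h : InvConj H) :
    InvConj G := by
  intro a b ha hb
  have h1 := h (e a) (e b) (by rw [MulEquiv.orderOf_eq, ha]) (by rw [MulEquiv.orderOf_eq, hb])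
  have h2 := e.symm.toMonoidHom.map_isConj h1
  simpa using h2

section K4

variable {K : Type*} [Field K] [Fintype K]

theorem two_eq_zero_of_card (hK : Fintype.card K = 4) : (2 : K) = 0 := by
  obtain ⟨p, hp⟩ := CharP.exists K
  obtain ⟨n, hpp, hn⟩ := FiniteField.card K p
  rw [hK] at hn
  have h1 : p ∣ 2 ^ 2 := by
    have : (4 : ℕ) = 2 ^ 2 := by norm_num
    rw [← this, hn]
    exact dvd_pow_self p n.ne_zero
  have h2 : p = 2 := (Nat.prime_dvd_prime_iff_eq hpp Nat.prime_two).1 (hpp.dvd_of_dvd_pow h1)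
  subst h2
  exact_mod_cast CharP.cast_eq_zero K 2

theorem pow_three_eq_one (hK : Fintype.card K = 4) (c : K) (hc : c ≠ 0) : c ^ 3 = 1 := by
  have := FiniteField.pow_card_sub_one_eq_one c hc
  rwa [hK] at this

/-- a nonzero square zero matrix of size three has rank one -/
theorem rank_eq_one_of_sq_zero (N : Matrix (Fin 3) (Fin 3) K) (h0 : N ≠ 0) (hsq : N * N = 0) :
    N.rank = 1 := by
  have h1 : LinearMap.range N.mulVecLin ≤ LinearMap.ker N.mulVecLin := by
    rintro _ ⟨x, rfl⟩
    rw [LinearMap.mem_ker, Matrix.mulVecLin_apply, Matrix.mulVecLin_apply, Matrix.mulVec_mulVec,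
      hsq, Matrix.zero_mulVec]
  have h2 := Submodule.finrank_mono h1
  have h3 := LinearMap.finrank_range_add_finrank_ker N.mulVecLin
  rw [Module.finrank_pi, Fintype.card_fin] at h3
  have h4 : N.rank = Module.finrank K (LinearMap.range N.mulVecLin) := rfl
  have h5 : N.rank ≠ 0 := by
    intro h
    rw [h4, Submodule.finrank_eq_zero, LinearMap.range_eq_bot] at h
    apply h0
    rw [← Matrix.toLin'_apply'] at h
    exact (LinearEquiv.map_eq_zero_iff _).1 h
  omega

theorem invConj_PSL3 (hK : Fintype.card K = 4) :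
    InvConj (Matrix.ProjectiveSpecialLinearGroup (Fin 3) K) := by
  have h2 := two_eq_zero_of_card hK
  -- every involution lifts to a transvection
  have key : ∀ a : Matrix.ProjectiveSpecialLinearGroup (Fin 3) K, orderOf a = 2 →
      ∃ a' : Matrix.SpecialLinearGroup (Fin 3) K, (QuotientGroup.mk a' : Matrix.ProjectiveSpecialLinearGroup (Fin 3) K) = a ∧
        Cfsg.IsTransvection (a' : Matrix (Fin 3) (Fin 3) K) := by
    intro a ha
    obtain ⟨a₀, rfl⟩ := QuotientGroup.mk_surjective a
    have hsq : a₀ * a₀ ∈ Subgroup.center (Matrix.SpecialLinearGroup (Fin 3) K) := by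
      rw [← QuotientGroup.eq_one_iff, QuotientGroup.mk_mul, ← pow_two, ← ha, pow_orderOf_eq_one]
    obtain ⟨μ, hμ, hμa⟩ := Matrix.SpecialLinearGroup.mem_center_iff.1 hsq
    rw [Fintype.card_fin] at hμ
    have hz : ∃ z : Matrix.SpecialLinearGroup (Fin 3) K,
        z ∈ Subgroup.center (Matrix.SpecialLinearGroup (Fin 3) K) ∧
        (z : Matrix (Fin 3) (Fin 3) K) = Matrix.scalar (Fin 3) μ := by
      have hdet : (Matrix.scalar (Fin 3) μ).det = 1 := by
        rw [Matrix.scalar_apply, Matrix.det_diagonal, Finset.prod_const, Finset.card_univ,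
          Fintype.card_fin, hμ]
      refine ⟨⟨Matrix.scalar (Fin 3) μ, hdet⟩, ?_, rfl⟩
      exact Matrix.SpecialLinearGroup.mem_center_iff.2
        ⟨μ, by rw [Fintype.card_fin]; exact hμ, rfl⟩
    obtain ⟨z, hzc, hz⟩ := hz
    have hmk : (QuotientGroup.mk (z * a₀) : Matrix.ProjectiveSpecialLinearGroup (Fin 3) K) =
        QuotientGroup.mk a₀ := by
      rw [QuotientGroup.mk_mul, (QuotientGroup.eq_one_iff z).2 hzc, one_mul]
    refine ⟨z * a₀, hmk, ?_⟩
    have hsq1 : ((z * a₀ : Matrix.SpecialLinearGroup (Fin 3) K) : Matrix (Fin 3) (Fin 3) K) *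
        ((z * a₀ : Matrix.SpecialLinearGroup (Fin 3) K) : Matrix (Fin 3) (Fin 3) K) = 1 := by
      have e1 : (a₀ : Matrix (Fin 3) (Fin 3) K) * (a₀ : Matrix (Fin 3) (Fin 3) K) =
          Matrix.scalar (Fin 3) μ := by
        rw [hμa]; rfl
      rw [Matrix.SpecialLinearGroup.coe_mul, hz]
      have e2 : Matrix.scalar (Fin 3) μ * (a₀ : Matrix (Fin 3) (Fin 3) K) *
          (Matrix.scalar (Fin 3) μ * (a₀ : Matrix (Fin 3) (Fin 3) K)) =
          Matrix.scalar (Fin 3) μ * Matrix.scalar (Fin 3) μ *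
            ((a₀ : Matrix (Fin 3) (Fin 3) K) * (a₀ : Matrix (Fin 3) (Fin 3) K)) := by
        have hc : Commute (Matrix.scalar (Fin 3) μ) (a₀ : Matrix (Fin 3) (Fin 3) K) :=
          Matrix.scalar_commute μ (fun r => mul_comm _ _) _
        rw [mul_assoc, ← mul_assoc (a₀ : Matrix (Fin 3) (Fin 3) K), ← hc.eq]
        simp only [mul_assoc]
      rw [e2, e1, ← map_mul, ← map_mul, ← pow_two, ← pow_succ, hμ, map_one]
    have hne : ((z * a₀ : Matrix.SpecialLinearGroup (Fin 3) K) : Matrix (Fin 3) (Fin 3) K) - 1 ≠ 0 := by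
      intro h0
      have h1 : (z * a₀ : Matrix.SpecialLinearGroup (Fin 3) K) = 1 := by
        apply Subtype.ext
        exact sub_eq_zero.1 h0
      rw [h1, QuotientGroup.mk_one] at hmk
      rw [← hmk, orderOf_one] at ha
      norm_num at ha
    generalize ((z * a₀ : Matrix.SpecialLinearGroup (Fin 3) K) : Matrix (Fin 3) (Fin 3) K) = T
      at hsq1 hne
    have hsq0 : (T - 1) * (T - 1) = 0 := by
      have : (T - 1) * (T - 1) = T * T - (2 : K) • T + 1 := by
        rw [two_smul]; noncomm_ring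
      rw [this, hsq1, h2, zero_smul, sub_zero]
      have h3 : (1 : Matrix (Fin 3) (Fin 3) K) + 1 = (2 : K) • 1 := by rw [two_smul]
      rw [h3, h2, zero_smul]
    exact ⟨rank_eq_one_of_sq_zero _ hne hsq0, hsq0⟩
  intro a b ha hb
  obtain ⟨a', rfl, hta⟩ := key a ha
  obtain ⟨b', rfl, htb⟩ := key b hb
  exact (QuotientGroup.mk' (Subgroup.center (Matrix.SpecialLinearGroup (Fin 3) K))).map_isConj
    (Cfsg.Agent.S2579.result (le_refl 3) a' b' hta htb)

end K4

section F2

variable {F : Type*} [Field F] [Fintype F]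

theorem eq_one_of_ne_zero (hF : Fintype.card F = 2) (r : F) (hr : r ≠ 0) : r = 1 := by
  have := FiniteField.pow_card_sub_one_eq_one r hr
  rw [hF] at this
  simpa using this

theorem two_eq_zero_of_card_two (hF : Fintype.card F = 2) : (2 : F) = 0 := by
  by_contra h
  have h1 := eq_one_of_ne_zero hF 2 h
  have h2 : (1 : F) = 0 := by linear_combination h1
  exact one_ne_zero h2

theorem center_trivial (hF : Fintype.card F = 2) (z : Matrix.SpecialLinearGroup (Fin 4) F)
    (hz : z ∈ Subgroup.center (Matrix.SpecialLinearGroup (Fin 4) F)) : z = 1 := by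
  obtain ⟨r, hr, hrz⟩ := Matrix.SpecialLinearGroup.mem_center_iff.1 hz
  have hr0 : r ≠ 0 := by
    rintro rfl
    rw [Fintype.card_fin] at hr
    norm_num at hr
  rw [eq_one_of_ne_zero hF r hr0, map_one] at hrz
  exact Subtype.ext hrz.symm

/-- the two nilpotent matrices -/
def N1 (F : Type*) [Field F] : Matrix (Fin 4) (Fin 4) F := Matrix.single 0 1 1
def N2 (F : Type*) [Field F] : Matrix (Fin 4) (Fin 4) F := Matrix.single 2 3 1

theorem N1_N1 : N1 F * N1 F = 0 := by
  unfold N1
  exact Matrix.single_mul_single_of_ne _ _ _ _ (by decide) _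
theorem N2_N2 : N2 F * N2 F = 0 := by
  unfold N2
  exact Matrix.single_mul_single_of_ne _ _ _ _ (by decide) _
theorem N1_N2 : N1 F * N2 F = 0 := by
  unfold N1 N2
  exact Matrix.single_mul_single_of_ne _ _ _ _ (by decide) _
theorem N2_N1 : N2 F * N1 F = 0 := by
  unfold N1 N2
  exact Matrix.single_mul_single_of_ne _ _ _ _ (by decide) _

theorem det_one_add_N1 : (1 + N1 F).det = 1 := Matrix.det_transvection_of_ne 0 1 (by decide) 1
theorem det_one_add_N2 : (1 + N2 F).det = 1 := Matrix.det_transvection_of_ne 2 3 (by decide) 1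

theorem rank_N1 : (N1 F).rank ≤ 1 := by
  rw [N1, Matrix.single_eq_single_vecMulVec_single]
  exact Matrix.rank_vecMulVec_le _ _

theorem rank_N12 : 2 ≤ (N1 F + N2 F).rank := by
  let P : Matrix (Fin 2) (Fin 4) F := Matrix.of ![![1, 0, 0, 0], ![0, 0, 1, 0]]
  let Q : Matrix (Fin 4) (Fin 2) F := Matrix.of ![![0, 0], ![1, 0], ![0, 0], ![0, 1]]
  have h1 : P * (N1 F + N2 F) * Q = 1 := by
    ext i j
    fin_cases i <;> fin_cases j <;>
      simp [P, Q, N1, N2, Matrix.mul_apply, Fin.sum_univ_four, Matrix.single_apply,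
        Matrix.vecMul, dotProduct]
  have h2 : (P * (N1 F + N2 F) * Q).rank ≤ (N1 F + N2 F).rank :=
    (Matrix.rank_mul_le_left _ _).trans (Matrix.rank_mul_le_right _ _)
  rw [h1, Matrix.rank_one, Fintype.card_fin] at h2
  exact h2

theorem not_invConj_PSL4 (hF : Fintype.card F = 2) :
    ¬ InvConj (Matrix.ProjectiveSpecialLinearGroup (Fin 4) F) := by
  intro hP
  have h2 := two_eq_zero_of_card_two hF
  let a : Matrix.SpecialLinearGroup (Fin 4) F := ⟨1 + N1 F, det_one_add_N1⟩
  let b : Matrix.SpecialLinearGroup (Fin 4) F := ⟨(1 + N1 F) * (1 + N2 F), by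
    rw [Matrix.det_mul, det_one_add_N1, det_one_add_N2, one_mul]⟩
  have hb : (b : Matrix (Fin 4) (Fin 4) F) = 1 + (N1 F + N2 F) := by
    change (1 + N1 F) * (1 + N2 F) = _
    rw [add_mul, mul_add, mul_add, N1_N2]
    simp only [one_mul, mul_one, add_zero]
    abel
  have hsq : ∀ N : Matrix (Fin 4) (Fin 4) F, N * N = 0 → (1 + N) * (1 + N) = 1 := by
    intro N hN
    have : (1 + N) * (1 + N) = 1 + (2 : F) • N + N * N := by
      rw [two_smul]; noncomm_ring
    rw [this, hN, h2, zero_smul, add_zero, add_zero]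
  have ha2 : a * a = 1 := Subtype.ext (hsq _ N1_N1)
  have hb2 : b * b = 1 := by
    apply Subtype.ext
    rw [Matrix.SpecialLinearGroup.coe_mul, hb]
    apply hsq
    rw [add_mul, mul_add, mul_add, N1_N1, N1_N2, N2_N1, N2_N2]
    simp
  have hord : ∀ x : Matrix.SpecialLinearGroup (Fin 4) F, x * x = 1 → x ≠ 1 →
      orderOf (QuotientGroup.mk x : Matrix.ProjectiveSpecialLinearGroup (Fin 4) F) = 2 := by
    intro x hx hx1
    apply orderOf_eq_prime
    · rw [pow_two, ← QuotientGroup.mk_mul, hx, QuotientGroup.mk_one]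
    · intro h
      exact hx1 (center_trivial hF x ((QuotientGroup.eq_one_iff x).1 h))
  have hr2 := rank_N12 (F := F)
  have hr1 := rank_N1 (F := F)
  have ha1 : a ≠ 1 := by
    intro h
    have h3 : (1 : Matrix (Fin 4) (Fin 4) F) + N1 F = 1 := congrArg Subtype.val h
    have h4 : N1 F 0 1 = 0 := by
      have : N1 F = 0 := by simpa using h3
      rw [this]; rfl
    simp [N1] at h4
  have hb1 : b ≠ 1 := by
    intro h
    have h3 : (b : Matrix (Fin 4) (Fin 4) F) = 1 := congrArg Subtype.val h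
    rw [hb] at h3
    have h4 : N1 F + N2 F = 0 := by simpa using h3
    rw [h4, Matrix.rank_zero] at hr2
    omega
  have hconj := hP _ _ (hord a ha2 ha1) (hord b hb2 hb1)
  rw [isConj_iff] at hconj
  obtain ⟨c, hc⟩ := hconj
  obtain ⟨c, rfl⟩ := QuotientGroup.mk_surjective c
  rw [← QuotientGroup.mk_inv, ← QuotientGroup.mk_mul, ← QuotientGroup.mk_mul,
    QuotientGroup.eq] at hc
  have hc' := center_trivial hF _ hc
  have hc2 : c * a * c⁻¹ = b := by
    rw [inv_mul_eq_one] at hc'
    exact hc'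
  have hc3 : c * a = b * c := by
    rw [← hc2]; group
  have hc4 : (c : Matrix (Fin 4) (Fin 4) F) * N1 F = (N1 F + N2 F) * (c : Matrix (Fin 4) (Fin 4) F) := by
    have := congrArg (fun x : Matrix.SpecialLinearGroup (Fin 4) F => (x : Matrix (Fin 4) (Fin 4) F)) hc3
    simp only [Matrix.SpecialLinearGroup.coe_mul, hb] at this
    have ha' : (a : Matrix (Fin 4) (Fin 4) F) = 1 + N1 F := rfl
    rw [ha', mul_add, add_mul, mul_one, one_mul] at this
    exact add_left_cancel this
  have hu : IsUnit (c : Matrix (Fin 4) (Fin 4) F).det := by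
    rw [c.2]; exact isUnit_one
  have e1 : ((c : Matrix (Fin 4) (Fin 4) F) * N1 F).rank = (N1 F).rank :=
    Matrix.rank_mul_eq_right_of_isUnit_det _ _ hu
  have e2 : ((N1 F + N2 F) * (c : Matrix (Fin 4) (Fin 4) F)).rank = (N1 F + N2 F).rank :=
    Matrix.rank_mul_eq_left_of_isUnit_det _ _ hu
  rw [hc4, e2] at e1
  omega

end F2


/-- Let F be a field with 2 elements and K a field with 4 elements. PSL_4(F) and PSL_3(K) have the same order (20160) but are not isomorphic. -/
theorem result {F K : Type*} [Field F] [Fintype F] [Field K] [Fintype K] (hF : Fintype.card F = 2) (hK : Fintype.card K = 4) : Nat.card (Matrix.ProjectiveSpecialLinearGroup (Fin 4) F) = Nat.card (Matrix.ProjectiveSpecialLinearGroup (Fin 3) K) ∧ ¬ Nonempty (Matrix.ProjectiveSpecialLinearGroup (Fin 4) F ≃* Matrix.ProjectiveSpecialLinearGroup (Fin 3) K) := by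
  constructor
  · have h1 := Cfsg.Agent.S0243.result hF 4 (by norm_num)
    have h2 := Cfsg.Agent.S0243.result hK 3 (by norm_num)
    simp only [Fin.prod_univ_four, Fin.prod_univ_three] at h1 h2
    norm_num at h1 h2
    omega
  · rintro ⟨e⟩
    exact not_invConj_PSL4 hF ((invConj_PSL3 hK).of_equiv e)

end Cfsg.Agent.S2550
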