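import Cfsg.Statements.S2551
import Cfsg.Agent.Lib.Helper94.GL4A7

set_option autoImplicit false
open Cfsg

namespace Cfsg.Agent.S2551

open Cfsg.Agent.Lib.Helper94

open Cfsg.Agent.Lib.Helper94.GL4

theorem card_A7 : Nat.card (alternatingGroup (Fin 7)) = 2520 := by
  have h := two_mul_card_alternatingGroup (α := Fin 7)
  rw [Nat.card_eq_fintype_card]
  have h2 : (Fintype.card (Fin 7)).factorial = 5040 := by simp [Nat.factorial]
  rw [Fintype.card_perm, h2] at h
  omega

/-- Let F be the field with 2 elements. GL_4(F) (≅ A_8) has a subgroup isomorphic to the alternating group A_7, and every such subgroup acts 2-transitively on the 15 non-zero vectors of F⁴: any ordered pair of distinct non-zero vectors is carried to any other by some element of the subgroup. -/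
theorem result {F : Type*} [Field F] [Fintype F] (hF : Fintype.card F = 2) : (∃ H : Subgroup (Matrix.GeneralLinearGroup (Fin 4) F), Nonempty (H ≃* alternatingGroup (Fin 7))) ∧ ∀ H : Subgroup (Matrix.GeneralLinearGroup (Fin 4) F), Nonempty (H ≃* alternatingGroup (Fin 7)) → ∀ v w v' w' : Fin 4 → F, v ≠ 0 → w ≠ 0 → v ≠ w → v' ≠ 0 → w' ≠ 0 → v' ≠ w' → ∃ g ∈ H, (g : Matrix (Fin 4) (Fin 4) F).mulVec v = v' ∧ (g : Matrix (Fin 4) (Fin 4) F).mulVec w = w' := by
  let e : ZMod 2 ≃+* F := ZMod.ringEquivOfPrime F Nat.prime_two hF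
  let E : GL (Fin 4) (ZMod 2) ≃* GL (Fin 4) F := Units.mapEquiv (e.mapMatrix (m := Fin 4)).toMulEquiv
  have hE : ∀ g : GL (Fin 4) (ZMod 2), (E g).1 = g.1.map e := fun g => rfl
  constructor
  · obtain ⟨f⟩ := iso_A7
    exact ⟨(Kc d7_11.S).map E.toMonoidHom, ⟨(E.subgroupMap (Kc d7_11.S)).symm.trans f⟩⟩
  · rintro H ⟨f⟩ v w v' w' hv hw hvw hv' hw' hvw'
    have hcard : Nat.card (H.map E.symm.toMonoidHom) = 2520 := by
      rw [← card_A7]
      exact Nat.card_congr ((E.symm.subgroupMap H).symm.trans f).toEquiv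
    have hz : ∀ a : Fin 4 → F, a ≠ 0 → (e.symm ∘ a) ≠ 0 := by
      intro a ha h0
      apply ha
      ext i
      have := congrFun h0 i
      simpa using this
    have hne : ∀ a b : Fin 4 → F, a ≠ b → (e.symm ∘ a) ≠ (e.symm ∘ b) := by
      intro a b hab h0
      apply hab
      ext i
      have := congrFun h0 i
      simpa using this
    obtain ⟨g, ⟨h, hh, rfl⟩, e1, e2⟩ := twoTrans_of_card _ hcard (e.symm ∘ v) (e.symm ∘ w) (e.symm ∘ v') (e.symm ∘ w')
      (hz v hv) (hz w hw) (hne _ _ hvw) (hz v' hv') (hz w' hw') (hne _ _ hvw')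
    have hh2 : h.1 = (E.symm h).1.map e := by rw [← hE, MulEquiv.apply_symm_apply]
    have key : ∀ a b : Fin 4 → F, (E.symm h).1.mulVec (e.symm ∘ a) = e.symm ∘ b → h.1.mulVec a = b := by
      intro a b hab
      ext i
      have h1 := RingHom.map_mulVec e.toRingHom (E.symm h).1 (e.symm ∘ a) i
      rw [hab] at h1
      have h2 : (e.toRingHom : ZMod 2 → F) ∘ (e.symm ∘ a) = a := by
        ext j; simp
      rw [h2] at h1
      rw [hh2]
      simpa using h1.symm
    exact ⟨h, hh, key _ _ e1, key _ _ e2⟩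

end Cfsg.Agent.S2551
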