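import Cfsg.Statements.S2552
-- import your own Cfsg.Agent.* helpers here

set_option autoImplicit false
open Cfsg

namespace Cfsg.Agent.S2552

open Module

variable {K V : Type*} [Field K] [AddCommGroup V] [Module K V] [FiniteDimensional K V]

theorem exists_equiv_map_eq (U₁ U₂ : Submodule K V) (h : finrank K U₁ = finrank K U₂) :
    ∃ e : V ≃ₗ[K] V, U₁.map (e : V →ₗ[K] V) = U₂ := by
  obtain ⟨W₁, hW₁⟩ := Submodule.exists_isCompl U₁
  obtain ⟨W₂, hW₂⟩ := Submodule.exists_isCompl U₂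
  have h1 := Submodule.finrank_add_eq_of_isCompl hW₁
  have h2 := Submodule.finrank_add_eq_of_isCompl hW₂
  have hW : finrank K W₁ = finrank K W₂ := by omega
  let e₁ : U₁ ≃ₗ[K] U₂ := LinearEquiv.ofFinrankEq _ _ h
  let e₂ : W₁ ≃ₗ[K] W₂ := LinearEquiv.ofFinrankEq _ _ hW
  let e : V ≃ₗ[K] V := (Submodule.prodEquivOfIsCompl U₁ W₁ hW₁).symm ≪≫ₗ
    (e₁.prodCongr e₂) ≪≫ₗ (Submodule.prodEquivOfIsCompl U₂ W₂ hW₂)
  refine ⟨e, ?_⟩
  have hle : U₁.map (e : V →ₗ[K] V) ≤ U₂ := by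
    rintro _ ⟨x, hx, rfl⟩
    have h3 : (Submodule.prodEquivOfIsCompl U₁ W₁ hW₁).symm x = (⟨x, hx⟩, 0) :=
      Submodule.prodEquivOfIsCompl_symm_apply_left U₁ W₁ hW₁ ⟨x, hx⟩
    simp only [LinearEquiv.coe_coe, e, LinearEquiv.trans_apply, h3, LinearEquiv.prodCongr_apply,
      map_zero, Submodule.coe_prodEquivOfIsCompl', Submodule.coe_zero, add_zero]
    exact (e₁ ⟨x, hx⟩).2
  apply Submodule.eq_of_le_of_finrank_eq hle
  rw [LinearEquiv.finrank_map_eq, h]

theorem exists_det_one_map_eq [Nontrivial V] (U₁ U₂ : Submodule K V)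
    (h : finrank K U₁ = finrank K U₂) :
    ∃ g : V →ₗ[K] V, LinearMap.det g = 1 ∧ U₁.map g = U₂ := by
  obtain ⟨e, he⟩ := exists_equiv_map_eq U₁ U₂ h
  obtain ⟨v, hv0, hv⟩ : ∃ v : V, v ≠ 0 ∧ (U₁ = ⊥ ∨ v ∈ U₁) := by
    by_cases hb : U₁ = ⊥
    · obtain ⟨v, hv⟩ := exists_ne (0 : V)
      exact ⟨v, hv, Or.inl hb⟩
    · obtain ⟨v, hv, hv0⟩ := Submodule.exists_mem_ne_zero_of_ne_bot hb
      exact ⟨v, hv0, Or.inr hv⟩
  obtain ⟨ψ, hψ⟩ : ∃ ψ : Dual K V, ψ v = 1 := by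
    obtain ⟨ψ, hψ⟩ : ∃ ψ : Dual K V, ψ v ≠ 0 := by
      by_contra hcon
      push Not at hcon
      exact hv0 ((Module.forall_dual_apply_eq_zero_iff K v).1 hcon)
    exact ⟨(ψ v)⁻¹ • ψ, by simp [hψ]⟩
  have hd0 : LinearMap.det (e : V →ₗ[K] V) ≠ 0 := (LinearEquiv.isUnit_det' e).ne_zero
  set a : K := (LinearMap.det (e : V →ₗ[K] V))⁻¹ with ha
  let c : V →ₗ[K] V := LinearMap.transvection ((a - 1) • ψ) v
  have hc : LinearMap.det c = a := by
    rw [LinearMap.transvection.det]; simp [hψ]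
  have hcU : U₁.map c = U₁ := by
    have hle : U₁.map c ≤ U₁ := by
      rintro _ ⟨x, hx, rfl⟩
      rcases hv with hb | hv
      · rw [hb] at hx ⊢
        rw [(Submodule.mem_bot K).1 hx, map_zero]
        exact Submodule.zero_mem _
      · rw [LinearMap.transvection.apply]
        exact U₁.add_mem hx (U₁.smul_mem _ hv)
    apply Submodule.eq_of_le_of_finrank_eq hle
    have hcu : IsUnit (LinearMap.det c) := by
      rw [hc]; exact (inv_ne_zero hd0).isUnit
    have hinj : Function.Injective c :=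
      ((Module.End.isUnit_iff c).1 ((LinearMap.isUnit_iff_isUnit_det c).2 hcu)).1
    exact (Submodule.equivMapOfInjective c hinj U₁).finrank_eq.symm
  refine ⟨(e : V →ₗ[K] V) ∘ₗ c, ?_, ?_⟩
  · rw [LinearMap.det_comp, hc, ha, mul_inv_cancel₀ hd0]
  · rw [Submodule.map_comp, hcU, he]

/-- Let F be a finite field and n ≥ 1. For every k, the special linear group SL_n(F) acts transitively on the set of k-dimensional subspaces of F^n: any two subspaces of the same dimension are carried onto each other by some matrix of determinant 1. -/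
theorem result {F : Type*} [Field F] [Fintype F] (n : ℕ) (hn : 1 ≤ n) (U₁ U₂ : Submodule F (Fin n → F)) (h : Module.finrank F U₁ = Module.finrank F U₂) : ∃ g : Matrix.SpecialLinearGroup (Fin n) F, U₁.map ((Matrix.SpecialLinearGroup.toLin' g : (Fin n → F) ≃ₗ[F] (Fin n → F)) : (Fin n → F) →ₗ[F] (Fin n → F)) = U₂ := by
  classical
  have hne : Nonempty (Fin n) := ⟨⟨0, by omega⟩⟩
  obtain ⟨g, hg, hmap⟩ := exists_det_one_map_eq U₁ U₂ h
  have hdet : (LinearMap.toMatrix' g).det = 1 := by rw [LinearMap.det_toMatrix', hg]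
  let G : Matrix.SpecialLinearGroup (Fin n) F := ⟨LinearMap.toMatrix' g, hdet⟩
  refine ⟨G, ?_⟩
  rw [Matrix.SpecialLinearGroup.toLin'_to_linearMap]
  have : Matrix.toLin' (G : Matrix (Fin n) (Fin n) F) = g := Matrix.toLin'_toMatrix' g
  rw [this, hmap]

end Cfsg.Agent.S2552
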