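import Cfsg.Statements.S2563
import Cfsg.Agent.Lib.Helper48.EvenRep
import Cfsg.Agent.Lib.Helper48.QuadF2Class
import Cfsg.Agent.Lib.Helper48.IsomTransport

set_option autoImplicit false
open Cfsg

namespace Cfsg.Agent.S2563

open Cfsg.Agent.Lib.Helper48 in
theorem even_card (k : ℕ) : Even (Fintype.card (Fin (4 * k + 2))) := by
  rw [Fintype.card_fin]
  exact ⟨2 * k + 1, by ring⟩

open Cfsg.Agent.Lib.Helper48 in
/-- the faithful representation of the symmetric group of degree `4k+4` -/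
noncomputable def rho (k : ℕ) :
    Equiv.Perm (Fin (4 * k + 4)) →* Module.End (ZMod 2) (Fin (4 * k + 2) → ZMod 2) :=
  (evenRep (even_card k)).comp
    (Equiv.permCongrHom (Fintype.equivOfCardEq (by simp) :
      Fin (4 * k + 4) ≃ Fin (4 * k + 2) ⊕ Fin 2)).toMonoidHom

open Cfsg.Agent.Lib.Helper48 in
theorem rho_injective (k : ℕ) (hk : 1 ≤ k) : Function.Injective (rho k) :=
  (evenRep_injective (even_card k) (by rw [Fintype.card_fin]; omega)).comp
    (MulEquiv.injective _)

open Cfsg.Agent.Lib.Helper48 in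
theorem evenQ_rho (k : ℕ) (σ : Equiv.Perm (Fin (4 * k + 4))) (y : Fin (4 * k + 2) → ZMod 2) :
    evenQ (rho k σ y) = evenQ y :=
  evenQ_rep (even_card k) (by rw [Fintype.card_fin]; exact ⟨k + 1, by ring⟩) _ y

theorem card_Y (k : ℕ) : Fintype.card (Fin (4 * k + 2) → ZMod 2) = 2 ^ (2 * (2 * k + 1)) := by
  rw [Fintype.card_fun, ZMod.card, Fintype.card_fin]
  congr 1
  ring


/-- For k ≥ 1 the symmetric group of degree 4k + 4 embeds in a full orthogonal group in dimension 4k + 2 over the field of two elements: in the isometry group of the plus-type form Σ xᵢyᵢ when k is odd, and in that of the minus-type form Σ xᵢyᵢ + (z₁² + z₁z₂ + z₂²) when k is even (through its action on even partitions of a (4k+4)-set, with the form 'half the size of a part, modulo 2'). -/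
theorem result (k : ℕ) (hk : 1 ≤ k) :
    (Odd k → ∃ φ : Equiv.Perm (Fin (4 * k + 4)) →* ↥(Cfsg.isometryGroup (ZMod 2) (Cfsg.quadFormPlus (2 * k + 1) (ZMod 2))), Function.Injective φ) ∧
    (Even k → ∃ φ : Equiv.Perm (Fin (4 * k + 4)) →* ↥(Cfsg.isometryGroup (ZMod 2) (Cfsg.quadFormMinus (2 * k) (ZMod 2) 1 1)), Function.Injective φ) := by
  constructor
  · intro hodd
    have hpos : 0 < Cfsg.Agent.Lib.Helper48.charSum
        (Cfsg.Agent.Lib.Helper48.evenQ : (Fin (4 * k + 2) → ZMod 2) → ZMod 2) := by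
      rw [Cfsg.Agent.Lib.Helper48.charSum_evenQ]
      have : ((-4 : ℤ)) ^ k < 0 := hodd.pow_neg (by norm_num)
      nlinarith
    obtain ⟨g, hg⟩ := Cfsg.Agent.Lib.Helper48.exists_equiv_plus Cfsg.Agent.Lib.Helper48.evenQ
      Cfsg.Agent.Lib.Helper48.evenB Cfsg.Agent.Lib.Helper48.evenQ_add
      (Cfsg.Agent.Lib.Helper48.evenB_nondeg (even_card k)) (2 * k + 1) (card_Y k) hpos
    exact Cfsg.Agent.Lib.Helper48.exists_hom_isometryGroup (rho k) (rho_injective k hk)
      Cfsg.Agent.Lib.Helper48.evenQ (evenQ_rho k) _ g hg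
  · intro heven
    have hneg : Cfsg.Agent.Lib.Helper48.charSum
        (Cfsg.Agent.Lib.Helper48.evenQ : (Fin (4 * k + 2) → ZMod 2) → ZMod 2) < 0 := by
      rw [Cfsg.Agent.Lib.Helper48.charSum_evenQ]
      have : 0 < ((-4 : ℤ)) ^ k := heven.pow_pos (by norm_num)
      nlinarith
    obtain ⟨g, hg⟩ := Cfsg.Agent.Lib.Helper48.exists_equiv_minus Cfsg.Agent.Lib.Helper48.evenQ
      Cfsg.Agent.Lib.Helper48.evenB Cfsg.Agent.Lib.Helper48.evenQ_add
      (Cfsg.Agent.Lib.Helper48.evenB_nondeg (even_card k)) (2 * k) (card_Y k) hneg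
    exact Cfsg.Agent.Lib.Helper48.exists_hom_isometryGroup (rho k) (rho_injective k hk)
      Cfsg.Agent.Lib.Helper48.evenQ (evenQ_rho k) _ g hg

end Cfsg.Agent.S2563
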