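import Cfsg.Statements.S2565
import Cfsg.Agent.S2563
import Cfsg.Agent.S0287

set_option autoImplicit false
open Cfsg

namespace Cfsg.Agent.S2565

/-- The commutator subgroup of the full orthogonal group of the plus-type form Σ xᵢyᵢ in dimension 6 over the field of two elements (the group Ω⁺₆(2), of index 2) is isomorphic to the alternating group of degree 8. -/
theorem result :
    (Cfsg.Omega (ZMod 2) (Cfsg.quadFormPlus 3 (ZMod 2))).index = 2 ∧
    Nonempty (↥(Cfsg.Omega (ZMod 2) (Cfsg.quadFormPlus 3 (ZMod 2))) ≃* alternatingGroup (Fin 8)) := by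
  obtain ⟨φ, hφ⟩ : ∃ φ : Equiv.Perm (Fin 8) →*
      ↥(Cfsg.isometryGroup (ZMod 2) (Cfsg.quadFormPlus 3 (ZMod 2))), Function.Injective φ :=
    (Cfsg.Agent.S2563.result 1 le_rfl).1 (by decide)
  have hcard : Nat.card ↥(Cfsg.isometryGroup (ZMod 2) (Cfsg.quadFormPlus 3 (ZMod 2))) = 40320 := by
    rw [Cfsg.Agent.S0287.result (F := ZMod 2) (q := 2) (ZMod.card 2) 3 (by norm_num)]
    decide
  have hcard' : Nat.card (Equiv.Perm (Fin 8)) = 40320 := by
    rw [Nat.card_eq_fintype_card, Fintype.card_perm, Fintype.card_fin]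
    rfl
  have hfin : Finite ↥(Cfsg.isometryGroup (ZMod 2) (Cfsg.quadFormPlus 3 (ZMod 2))) :=
    Nat.finite_of_card_ne_zero (by rw [hcard]; norm_num)
  have hbij : Function.Bijective φ :=
    (Nat.bijective_iff_injective_and_card φ).2 ⟨hφ, by rw [hcard, hcard']⟩
  let e : Equiv.Perm (Fin 8) ≃* ↥(Cfsg.isometryGroup (ZMod 2) (Cfsg.quadFormPlus 3 (ZMod 2))) :=
    MulEquiv.ofBijective φ hbij
  have hmap : (alternatingGroup (Fin 8)).map (e : Equiv.Perm (Fin 8) →* _) =
      Cfsg.Omega (ZMod 2) (Cfsg.quadFormPlus 3 (ZMod 2)) := by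
    rw [← alternatingGroup.commutator_perm_eq (α := Fin 8) (by simp)]
    unfold Cfsg.Omega
    have hr : (e : Equiv.Perm (Fin 8) →*
        ↥(Cfsg.isometryGroup (ZMod 2) (Cfsg.quadFormPlus 3 (ZMod 2)))).range = ⊤ :=
      (MonoidHom.range_eq_top (f := (e : Equiv.Perm (Fin 8) →*
        ↥(Cfsg.isometryGroup (ZMod 2) (Cfsg.quadFormPlus 3 (ZMod 2)))))).2 e.surjective
    rw [commutator_def, commutator_def, Subgroup.map_commutator, ← MonoidHom.range_eq_map, hr]
  constructor
  · rw [← hmap, Subgroup.index_map_equiv, alternatingGroup.index_eq_two]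
  · exact ⟨((e.subgroupMap (alternatingGroup (Fin 8))).trans (MulEquiv.subgroupCongr hmap)).symm⟩

end Cfsg.Agent.S2565
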