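import Cfsg.Statements.S2567
-- import your own Cfsg.Agent.* helpers here

set_option autoImplicit false
open Cfsg

namespace Cfsg.Agent.S2567

theorem unique_lift {G : Type*} [Group G] (Z : Subgroup G) [Z.Normal] (hZ : Z ≤ Subgroup.center G)
    [Finite Z] (r : ℕ) (hr : r.Prime) (hcop : ¬ r ∣ Nat.card Z) (x : G ⧸ Z) (hx : orderOf x = r) :
    ∃! g : G, (QuotientGroup.mk g : G ⧸ Z) = x ∧ orderOf g = r := by
  obtain ⟨g₀, rfl⟩ := QuotientGroup.mk_surjective x
  have hcop' : (Nat.card Z).Coprime r := ((Nat.Prime.coprime_iff_not_dvd hr).2 hcop).symm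
  have h1 : g₀ ^ r ∈ Z := by
    rw [← QuotientGroup.eq_one_iff, QuotientGroup.mk_pow, ← hx, pow_orderOf_eq_one]
  obtain ⟨w, hw⟩ := (powCoprime hcop').surjective (⟨g₀ ^ r, h1⟩⁻¹ : Z)
  have hw' : (w : G) ^ r = (g₀ ^ r)⁻¹ := by
    have := congrArg Subtype.val hw
    simpa using this
  have hcomm : ∀ z : G, z ∈ Z → ∀ g : G, Commute g z := fun z hz g =>
    (Subgroup.mem_center_iff.1 (hZ hz) g)
  have key : ∀ z : G, z ∈ Z → z ^ r = 1 → z = 1 := by
    intro z hz hzr
    have h2 : orderOf z ∣ r := orderOf_dvd_of_pow_eq_one hzr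
    have h3 : orderOf z ∣ Nat.card Z := by
      have := orderOf_dvd_natCard (⟨z, hz⟩ : Z)
      rwa [Subgroup.orderOf_mk] at this
    have h4 : orderOf z = 1 := Nat.eq_one_of_dvd_coprimes hcop' h3 h2
    exact orderOf_eq_one_iff.1 h4
  refine ⟨g₀ * w, ⟨?_, ?_⟩, ?_⟩
  · rw [QuotientGroup.mk_mul, (QuotientGroup.eq_one_iff (w : G)).2 w.2, mul_one]
  · have h5 : (g₀ * w) ^ r = 1 := by
      rw [(hcomm w w.2 g₀).mul_pow, hw', mul_inv_cancel]
    rcases (Nat.dvd_prime hr).1 (orderOf_dvd_of_pow_eq_one h5) with h | h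
    · exfalso
      have h6 : g₀ * w = 1 := orderOf_eq_one_iff.1 h
      have h7 : (QuotientGroup.mk g₀ : G ⧸ Z) = 1 := by
        rw [QuotientGroup.eq_one_iff]
        have : g₀ = (w : G)⁻¹ := eq_inv_of_mul_eq_one_left h6
        rw [this]; exact Z.inv_mem w.2
      rw [h7, orderOf_one] at hx
      exact hr.one_lt.ne hx
    · exact h
  · rintro g' ⟨hg1, hg2⟩
    have h8 : (g₀ * w)⁻¹ * g' ∈ Z := by
      rw [← QuotientGroup.eq_one_iff, QuotientGroup.mk_mul, QuotientGroup.mk_inv,
        QuotientGroup.mk_mul, (QuotientGroup.eq_one_iff (w : G)).2 w.2, mul_one, hg1,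
        inv_mul_cancel]
    have h5 : (g₀ * w) ^ r = 1 := by
      rw [(hcomm w w.2 g₀).mul_pow, hw', mul_inv_cancel]
    have h9 : ((g₀ * w)⁻¹ * g') ^ r = 1 := by
      have hc : Commute (g₀ * w)⁻¹ g' := by
        have := hcomm _ h8 (g₀ * w)
        have h10 : Commute (g₀ * w) g' := by
          have h11 : g' = (g₀ * w) * ((g₀ * w)⁻¹ * g') := by group
          rw [h11]
          exact (Commute.refl _).mul_right this
        exact h10.inv_left
      rw [hc.mul_pow, inv_pow, h5, ← hg2, pow_orderOf_eq_one]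
      simp
    have := key _ h8 h9
    exact (inv_mul_eq_one.1 this).symm

/-- Lifting elements of prime order from PGL to GL: let F be a finite field with q elements, r a prime not dividing q − 1, and x an element of order r in GL_n(F) modulo its centre (the scalar matrices). Then x has exactly one preimage in GL_n(F) of order r. -/
theorem result {F : Type*} [Field F] [Fintype F] {q n r : ℕ} (hF : Fintype.card F = q) (hr : r.Prime) (hdiv : ¬ r ∣ q - 1) (x : GL (Fin n) F ⧸ Subgroup.center (GL (Fin n) F)) (hx : orderOf x = r) : ∃! g : GL (Fin n) F, (QuotientGroup.mk g : GL (Fin n) F ⧸ Subgroup.center (GL (Fin n) F)) = x ∧ orderOf g = r := by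
  classical
  have hfin : Finite (Subgroup.center (GL (Fin n) F)) := inferInstance
  apply unique_lift _ le_rfl r hr _ x hx
  intro hd
  apply hdiv
  have h1 : Nat.card (Subgroup.center (GL (Fin n) F)) ∣ Nat.card Fˣ := by
    rw [Matrix.GeneralLinearGroup.center_eq_range_scalar]
    exact Subgroup.card_range_dvd _
  have h2 : Nat.card Fˣ = q - 1 := by
    rw [Nat.card_eq_fintype_card, Fintype.card_units, hF]
  rw [← h2]
  exact hd.trans h1

end Cfsg.Agent.S2567
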