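import Cfsg.Statements.S2568
import Cfsg.Agent.Lib.Helper65.GR.FAC
import Cfsg.Agent.Lib.Helper65.GR.CMB
import Cfsg.Agent.Lib.Helper65.GR.CNT
import Cfsg.Agent.Lib.Helper65.GR.NE

set_option autoImplicit false
open Cfsg
open Cfsg.Agent.Lib.Helper65.GR

namespace Cfsg.Agent.S2568

/-- Number of conjugacy classes of elements of a given prime order r, coprime to the characteristic, in GL_n(q): if i is the multiplicative order of q modulo r and t = (r − 1)/i, the classes correspond to the non-zero t-tuples of natural numbers (a_1, …, a_t) with i(a_1 + ⋯ + a_t) ≤ n (a_j is the multiplicity of the j-th Frobenius orbit of nontrivial r-th roots of unity among the eigenvalues), so there are exactly C(⌊n/i⌋ + t, t) − 1 of them. -/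
theorem result {F : Type*} [Field F] [Fintype F] {p q : ℕ} [Fact p.Prime] [CharP F p] (hF : Fintype.card F = q) (n r i t : ℕ) (hr : r.Prime) (hrp : r ≠ p) (hi : i = orderOf (q : ZMod r)) (ht : t * i = r - 1) : Nat.card {C : ConjClasses (GL (Fin n) F) // ∃ g : GL (Fin n) F, ConjClasses.mk g = C ∧ orderOf g = r} = Nat.choose (n / i + t) t - 1 := by
  subst hF
  have hp : p.Prime := Fact.out
  have hrF : (r : F) ≠ 0 := by
    intro h
    rw [CharP.cast_eq_zero_iff F p r] at h
    exact hrp ((Nat.prime_dvd_prime_iff_eq hp hr).mp h).symm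
  have hi1 : 1 ≤ i := by
    rcases Nat.eq_zero_or_pos i with h | h
    · rw [h, mul_zero] at ht
      have := hr.two_le
      omega
    · exact h
  have hdeg : ∀ P ∈ irr F r, P.natDegree = i := fun P hP => by
    rw [hi]; exact irr_natDegree p r hr hrp P hP
  have hcop : r.Coprime p := (Nat.coprime_primes hr hp).mpr hrp
  have hcard : Fintype.card (irr F r) = t := by
    rw [Fintype.card_coe]; exact card_irr p r i t hr hrp hi ht
  rw [← card_labels n i t hi1 hcard]
  choose φ hφ1 hφ2 using fun l : {a : irr F r → ℕ // a ≠ 0 ∧ i * ∑ P, a P ≤ n} =>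
    exists_order p r n i hr hrp hi1 hdeg l.1 l.2.1 l.2.2
  refine card_classes_label (fun g => orderOf g = r) φ hφ1 ?_ ?_
  · intro l l' h
    obtain ⟨c, hc⟩ := isConj_iff.mp h
    apply Subtype.ext
    apply cp_injective r n i hr hrF
    rw [← hφ2, ← hφ2, ← hc]
    simp only [Units.val_mul]
    rw [Matrix.charpoly_mul_comm, ← mul_assoc]
    simp
  · intro x hx
    obtain ⟨a, ha, hxa⟩ := charpoly_eq_cp r n i hr hrF hdeg (x : Matrix (Fin n) (Fin n) F)
      (by rw [← Units.val_pow_eq_pow_val, ← hx, pow_orderOf_eq_one, Units.val_one])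
    have ha0 : a ≠ 0 := by
      rintro rfl
      exact charpoly_ne_cp_zero p r n i hr hrp x hx hxa
    refine ⟨⟨a, ha0, ha⟩, ?_⟩
    obtain ⟨c, hc⟩ := Cfsg.Agent.Lib.Helper50.SemiConj.conj_GL p x (φ ⟨a, ha0, ha⟩)
      (by rw [hx]; exact hcop) (by rw [hφ1]; exact hcop) (by rw [hxa, hφ2])
    exact isConj_iff.mpr ⟨c, hc⟩

end Cfsg.Agent.S2568
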