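import Cfsg.Statements.S2569
import Cfsg.Agent.Lib.Helper48.SemisimpleDet
import Cfsg.Agent.Lib.Helper48.RegNilp

set_option autoImplicit false
open Cfsg

namespace Cfsg.Agent.S2569

/-- In GL_n over a finite field of characteristic p, the conjugacy class of a semisimple element (an element of order prime to p) under the special linear group is its whole GL-conjugacy class: for every such x and every invertible g there is h of determinant one with h x h⁻¹ = g x g⁻¹. -/
theorem result {F : Type*} [Field F] [Fintype F] {p : ℕ} [Fact p.Prime] [CharP F p] {n : ℕ} (x g : GL (Fin n) F) (hx : (orderOf x).Coprime p) : ∃ h : GL (Fin n) F, (h : Matrix (Fin n) (Fin n) F).det = 1 ∧ h * x * h⁻¹ = g * x * g⁻¹ := by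
  classical
  rcases Nat.eq_zero_or_pos n with h0 | hpos
  · subst h0
    exact ⟨g, Matrix.det_isEmpty, rfl⟩
  have hne : Nonempty (Fin n) := ⟨⟨0, hpos⟩⟩
  have hk : ((orderOf x : ℕ) : F) ≠ 0 := by
    intro h0
    have hd : p ∣ orderOf x := (CharP.cast_eq_zero_iff F p _).1 h0
    have h1 : p ∣ Nat.gcd (orderOf x) p := Nat.dvd_gcd hd dvd_rfl
    rw [hx] at h1
    exact (Fact.out : p.Prime).one_lt.ne' (Nat.dvd_one.1 h1)
  have hφ : (Matrix.mulVecLin (x : Matrix (Fin n) (Fin n) F) : Module.End F (Fin n → F)) ^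
      orderOf x = 1 := by
    rw [← Cfsg.Agent.Lib.Helper48.mulVecLin_pow, ← Units.val_pow_eq_pow_val, pow_orderOf_eq_one]
    simp [Module.End.one_eq_id]
  have hg0 : (g : Matrix (Fin n) (Fin n) F).det ≠ 0 :=
    ((Matrix.isUnit_iff_isUnit_det _).1 g.isUnit).ne_zero
  obtain ⟨c, hc, hdet⟩ := Cfsg.Agent.Lib.Helper48.exists_commute_det_eq (K := F)
    (V := Fin n → F) _ (orderOf x) hk hφ ((g : Matrix (Fin n) (Fin n) F).det)⁻¹
  have hC : (LinearMap.toMatrix' c).det = ((g : Matrix (Fin n) (Fin n) F).det)⁻¹ := by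
    rw [LinearMap.det_toMatrix', hdet]
  have hC0 : (LinearMap.toMatrix' c).det ≠ 0 := by rw [hC]; exact inv_ne_zero hg0
  let cu : GL (Fin n) F := Matrix.GeneralLinearGroup.mkOfDetNeZero (LinearMap.toMatrix' c) hC0
  have hcu : (cu : Matrix (Fin n) (Fin n) F) = LinearMap.toMatrix' c := rfl
  have hcomm : cu * x = x * cu := by
    apply Units.ext
    rw [Units.val_mul, Units.val_mul, hcu]
    have := congrArg LinearMap.toMatrix' hc.eq
    rw [Module.End.mul_eq_comp, Module.End.mul_eq_comp, LinearMap.toMatrix'_comp,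
      LinearMap.toMatrix'_comp, ← Matrix.toLin'_apply', LinearMap.toMatrix'_toLin'] at this
    exact this
  refine ⟨g * cu, ?_, ?_⟩
  · rw [Units.val_mul, Matrix.det_mul, hcu, hC, mul_inv_cancel₀ hg0]
  · rw [mul_inv_rev, mul_assoc g cu x, hcomm]
    group

end Cfsg.Agent.S2569
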