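import Cfsg.Statements.S2574
import Cfsg.Agent.Lib.Helper48.RegNilpForm
import Cfsg.Agent.Lib.Helper48.SympForm

set_option autoImplicit false
open Cfsg

namespace Cfsg.Agent.S2574

/-- A regular unipotent element of the symplectic group has totally isotropic small invariant subspaces: over a finite field, if u ∈ Sp_2m(F) satisfies (u − 1)^(2m) = 0 and rank(u − 1) = 2m − 1, and W is a u-invariant subspace with 2 dim W ≤ 2m, then the alternating form vanishes identically on W. -/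
theorem result {F : Type*} [Field F] [Finite F] {m : ℕ} (u : Matrix.symplecticGroup (Fin m) F) (hnil : ((u : Matrix (Fin m ⊕ Fin m) (Fin m ⊕ Fin m) F) - 1) ^ (2 * m) = 0) (hreg : ((u : Matrix (Fin m ⊕ Fin m) (Fin m ⊕ Fin m) F) - 1).rank = 2 * m - 1) (W : Submodule F (Fin m ⊕ Fin m → F)) (hW : ∀ v ∈ W, (u : Matrix (Fin m ⊕ Fin m) (Fin m ⊕ Fin m) F).mulVec v ∈ W) (hdim : 2 * Module.finrank F W ≤ 2 * m) : ∀ v ∈ W, ∀ w ∈ W, Cfsg.sympForm m F v w = 0 := by
  have hcard : Module.finrank F (Fin m ⊕ Fin m → F) = 2 * m := by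
    rw [Module.finrank_pi]; simp; ring
  have hsub : (Matrix.mulVecLin (u : Matrix (Fin m ⊕ Fin m) (Fin m ⊕ Fin m) F) - 1 :
      Module.End F (Fin m ⊕ Fin m → F)) =
      Matrix.mulVecLin ((u : Matrix (Fin m ⊕ Fin m) (Fin m ⊕ Fin m) F) - 1) := by
    apply LinearMap.ext
    intro x
    rw [LinearMap.sub_apply, Module.End.one_apply, Matrix.mulVecLin_apply, Matrix.mulVecLin_apply,
      Matrix.sub_mulVec, Matrix.one_mulVec]
  have key := Cfsg.Agent.Lib.Helper48.bilin_eq_zero_of_invariant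
    (Cfsg.Agent.Lib.Helper48.sympBilin m F)
    (Matrix.mulVecLin (u : Matrix (Fin m ⊕ Fin m) (Fin m ⊕ Fin m) F))
    (Cfsg.Agent.Lib.Helper48.sympBilin_mulVecLin _ u.2)
    (by
      rw [hsub, Cfsg.Agent.Lib.Helper48.finrank_ker_mulVecLin, hreg]
      simp; omega)
    (by
      rw [hsub, hcard, ← Cfsg.Agent.Lib.Helper48.mulVecLin_pow, hnil]; simp)
    W hW (by rw [hcard]; exact hdim)
  intro v hv w hw
  rw [← Cfsg.Agent.Lib.Helper48.sympBilin_apply]
  exact key v hv w hw

end Cfsg.Agent.S2574
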