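import Cfsg.Statements.S2576
import Cfsg.Agent.Lib.Helper48.TwoPart

set_option autoImplicit false
open Cfsg

namespace Cfsg.Agent.S2576

/-- Which involutions of PGL_2m(q) coming from a scalar of the quadratic extension field lie in PSL_2m(q), q odd: let μ generate the Sylow 2-subgroup of the multiplicative group of the field with q elements (μ has order the 2-part of q − 1) and let t be the block-diagonal matrix with m diagonal blocks [[0, 1], [μ, 0]] (so t² is the scalar μ and t is an involution modulo scalars). Then some non-zero scalar multiple of t has determinant one if and only if q ≡ 3 (mod 4) or the 2-part of q − 1 is less than the 2-part of 2m. -/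
theorem result {F : Type*} [Field F] [Fintype F] {q : ℕ} (hF : Fintype.card F = q) (hq : Odd q) {m : ℕ} (hm : 1 ≤ m) (μ : F) (hμ : orderOf μ = 2 ^ padicValNat 2 (q - 1)) : (∃ c : F, c ≠ 0 ∧ (c • Matrix.blockDiagonal (fun _ : Fin m => !![(0 : F), 1; μ, 0])).det = 1) ↔ (q % 4 = 3 ∨ padicValNat 2 (q - 1) < padicValNat 2 (2 * m)) := by
  subst hF
  have hdet : ∀ c : F, (c • Matrix.blockDiagonal (fun _ : Fin m => !![(0 : F), 1; μ, 0])).det
      = c ^ (2 * m) * (-μ) ^ m := by
    intro c
    rw [Matrix.det_smul, Matrix.det_blockDiagonal, Fintype.card_prod, Fintype.card_fin,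
      Fintype.card_fin]
    simp [Matrix.det_fin_two_of]
  simp only [hdet]
  have hN0 : Fintype.card F - 1 ≠ 0 := by
    have : 1 < Fintype.card F := Fintype.one_lt_card
    omega
  obtain ⟨m', hm', hmd⟩ := Cfsg.Agent.Lib.Helper48.val2_decomp m (by omega)
  obtain ⟨N', hN', hNd⟩ := Cfsg.Agent.Lib.Helper48.val2_decomp _ hN0
  have h2m : padicValNat 2 (2 * m) = padicValNat 2 m + 1 := by
    rw [padicValNat.mul two_ne_zero (by omega), padicValNat.self (by norm_num), add_comm]
  rw [h2m]
  set a := padicValNat 2 m with ha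
  set b := padicValNat 2 (Fintype.card F - 1) with hb
  have hb1 : 1 ≤ b := by
    by_contra hcon
    have hb0 : b = 0 := by omega
    rw [hb0, pow_zero, one_mul] at hNd
    obtain ⟨x, hx⟩ := hq
    obtain ⟨y, hy⟩ := hN'
    omega
  constructor
  · rintro ⟨c, hc0, hc⟩
    by_contra hcon
    push Not at hcon
    obtain ⟨h4, hab⟩ := hcon
    have hb2 : 2 ≤ b := by
      by_contra hcon2
      have hb1' : b = 1 := by omega
      rw [hb1', pow_one] at hNd
      obtain ⟨y, hy⟩ := hN'
      omega
    set e := 2 ^ (b - (a + 1)) * N' with he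
    have h1 : 2 * m * e = (Fintype.card F - 1) * m' := by
      rw [hNd, he]
      conv_lhs => rw [hmd]
      have : (2 : ℕ) ^ b = 2 ^ (b - (a + 1)) * 2 ^ (a + 1) := by rw [← pow_add]; congr 1; omega
      rw [this]; ring
    have h2 : m * e = 2 ^ (b - 1) * (m' * N') := by
      rw [he]
      conv_lhs => rw [hmd]
      have : (2 : ℕ) ^ (b - 1) = 2 ^ (b - (a + 1)) * 2 ^ a := by rw [← pow_add]; congr 1; omega
      rw [this]; ring
    have h3 := congrArg (fun x => x ^ e) hc
    simp only [one_pow, mul_pow] at h3
    rw [← pow_mul, ← pow_mul, h1, pow_mul, FiniteField.pow_card_sub_one_eq_one c hc0, one_pow,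
      one_mul, neg_pow] at h3
    have heven : Even (m * e) := by
      rw [h2]
      apply Even.mul_right
      exact (Nat.even_pow).2 ⟨even_two, by omega⟩
    rw [heven.neg_one_pow, one_mul] at h3
    have h5 := orderOf_dvd_of_pow_eq_one h3
    rw [hμ, h2] at h5
    have h6 : (2 : ℕ) ^ b = 2 ^ (b - 1) * 2 := by rw [← pow_succ]; congr 1; omega
    rw [h6] at h5
    have h7 : 2 ∣ m' * N' := Nat.dvd_of_mul_dvd_mul_left (by positivity) h5
    exact (Nat.not_even_iff_odd.2 (hm'.mul hN')) (even_iff_two_dvd.2 h7)
  · intro h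
    refine ⟨1, one_ne_zero, ?_⟩
    rw [one_pow, one_mul]
    rcases h with h4 | hab
    · have hb1' : b = 1 := by
        by_contra hcon
        have hb2 : 2 ≤ b := by omega
        have : (2 : ℕ) ^ b = 4 * 2 ^ (b - 2) := by
          have : (4 : ℕ) = 2 ^ 2 := by norm_num
          rw [this, ← pow_add]; congr 1; omega
        rw [this] at hNd
        have h8 : 4 ∣ Fintype.card F - 1 := ⟨2 ^ (b - 2) * N', by rw [hNd]; ring⟩
        omega
      rw [hb1', pow_one] at hμ
      have hμ2 : μ ^ 2 = 1 := by rw [← hμ]; exact pow_orderOf_eq_one μ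
      have hμ1 : μ ≠ 1 := by
        intro h1
        rw [h1, orderOf_one] at hμ
        omega
      have : (μ - 1) * (μ + 1) = 0 := by linear_combination hμ2
      rcases mul_eq_zero.1 this with h | h
      · exact absurd (sub_eq_zero.1 h) hμ1
      · have : -μ = 1 := by linear_combination (-1 : F) * h
        rw [this, one_pow]
    · have hba : b ≤ a := by omega
      have heven : Even m := by
        rw [hmd]
        apply Even.mul_right
        exact (Nat.even_pow).2 ⟨even_two, by omega⟩
      rw [neg_pow, heven.neg_one_pow, one_mul]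
      apply orderOf_dvd_iff_pow_eq_one.1
      rw [hμ, hmd]
      exact Dvd.dvd.mul_right (pow_dvd_pow 2 hba) _

end Cfsg.Agent.S2576
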