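import Cfsg.Statements.S2577
import Cfsg.Agent.Lib.Helper65.PI.Grp

set_option autoImplicit false
open Cfsg

namespace Cfsg.Agent.S2577

/-- Number of conjugacy classes of involutions in PGL_n(q) for q odd and n ≥ 2: there are ⌊n/2⌋ classes represented by diagonal matrices with i entries −1 (1 ≤ i ≤ n/2) and, when n is even, one more class represented by a block-diagonal matrix of 2 × 2 blocks [[0, 1], [μ, 0]] with μ a non-square (a matrix squaring to a scalar but having no eigenvalue in the field); in all ⌊n/2⌋ + 1 classes if n is even and ⌊n/2⌋ if n is odd. -/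
theorem result {F : Type*} [Field F] [Fintype F] {q : ℕ} (hF : Fintype.card F = q) (hq : Odd q) {n : ℕ} (hn : 2 ≤ n) : Nat.card {C : ConjClasses (GL (Fin n) F ⧸ Subgroup.center (GL (Fin n) F)) // ∃ g : GL (Fin n) F ⧸ Subgroup.center (GL (Fin n) F), ConjClasses.mk g = C ∧ orderOf g = 2} = n / 2 + (if Even n then 1 else 0) := by
  have h2 : (2 : F) ≠ 0 := by
    have hc : ringChar F ≠ 2 := by
      intro h
      have := FiniteField.even_card_of_char_two h
      rw [hF] at this
      exact (Nat.not_even_iff_odd.mpr hq) (Nat.even_iff.mpr this)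
    exact Ring.two_ne_zero hc
  rw [← Cfsg.Agent.Lib.Helper65.PI.card_S n hn]
  exact Cfsg.Agent.Lib.Helper65.PI.card_classes (fun g => orderOf g = 2)
    (Cfsg.Agent.Lib.Helper65.PI.pinv n) _ (Cfsg.Agent.Lib.Helper65.PI.pinv_conj n)
    (Cfsg.Agent.Lib.Helper65.PI.isConj_of_pinv_eq h2 n hn)
    (Cfsg.Agent.Lib.Helper65.PI.pinv_mem h2 n hn) (Cfsg.Agent.Lib.Helper65.PI.exists_pinv h2 n hn)

end Cfsg.Agent.S2577
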