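import Cfsg.Statements.S2588
import Cfsg.Agent.Lib.Helper50.GUConj2

set_option autoImplicit false
open Cfsg
open Cfsg.Agent.Lib.Helper50.GUConj

namespace Cfsg.Agent.S2588

/-- An invertible matrix A over the field with q² elements is conjugate in GL_n(q²) to an element of the general unitary group GU_n(q) (isometries of the Hermitian form Σ u_i v_i^q) if and only if A is similar to the inverse transpose of its entrywise q-th power (A ~ A^(−qT), the image of A under the map sending a matrix to the inverse transpose of its entrywise q-th power — inverse transpose composed with the field automorphism — whose fixed points form GU_n(q)). -/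
theorem result {K : Type*} [Field K] [Fintype K] {q n : ℕ} (hK : Fintype.card K = q ^ 2) (A : GL (Fin n) K) : (∃ B : ↥(Cfsg.GU n K q), IsConj A (B : GL (Fin n) K)) ↔ IsConj (A : Matrix (Fin n) (Fin n) K) (((A : Matrix (Fin n) (Fin n) K).map (fun x : K => x ^ q)).transpose)⁻¹ := by
  have hdA : IsUnit (dag hK (A : Matrix (Fin n) (Fin n) K)) := by
    have : (A : Matrix (Fin n) (Fin n) K) * ((A⁻¹ : GL (Fin n) K) : Matrix (Fin n) (Fin n) K) = 1 := A.mul_inv
    have h3 := congrArg (dag hK) this
    rw [dag_mul, dag_one] at h3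
    exact IsUnit.of_mul_eq_one _ (mul_eq_one_comm.1 h3)
  have hdet : IsUnit (dag hK (A : Matrix (Fin n) (Fin n) K)).det := (Matrix.isUnit_iff_isUnit_det _).1 hdA
  rw [← dag_eq hK]
  constructor
  · rintro ⟨B, hB⟩
    obtain ⟨c, hc⟩ := isConj_iff.1 hB
    have hBm := (mem_GU_iff_dag hK (B : GL (Fin n) K)).1 B.2
    rw [← hc] at hBm
    set Am : Matrix (Fin n) (Fin n) K := (A : Matrix (Fin n) (Fin n) K) with hAm
    set cm : Matrix (Fin n) (Fin n) K := (c : Matrix (Fin n) (Fin n) K) with hcm
    set ci : Matrix (Fin n) (Fin n) K := ((c⁻¹ : GL (Fin n) K) : Matrix (Fin n) (Fin n) K) with hci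
    have c1 : cm * ci = 1 := c.mul_inv
    have c2 : ci * cm = 1 := c.inv_mul
    rw [Units.val_mul, Units.val_mul, ← hAm, ← hcm, ← hci, dag_mul, dag_mul] at hBm
    have hdc : IsUnit (dag hK cm) := by
      have h3 := congrArg (dag hK) c1
      rw [dag_mul, dag_one] at h3
      exact IsUnit.of_mul_eq_one _ (mul_eq_one_comm.1 h3)
    have key : dag hK Am * (dag hK cm * cm) * Am = dag hK cm * cm := by
      calc dag hK Am * (dag hK cm * cm) * Am
          = (dag hK cm * dag hK ci) * dag hK Am * (dag hK cm * cm) * Am * (ci * cm) := by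
            rw [← dag_mul, c2, dag_one, one_mul, mul_one]
        _ = dag hK cm * (dag hK ci * (dag hK Am * dag hK cm) * (cm * Am * ci)) * cm := by
            simp only [mul_assoc]
        _ = dag hK cm * cm := by rw [hBm, mul_one]
    obtain ⟨w, hw⟩ := hdc.mul c.isUnit
    refine ⟨w, ?_⟩
    show (w : Matrix (Fin n) (Fin n) K) * Am = (dag hK Am)⁻¹ * (w : Matrix (Fin n) (Fin n) K)
    rw [hw]
    conv_rhs => rw [← key]
    rw [mul_assoc (dag hK Am), Matrix.nonsing_inv_mul_cancel_left _ _ hdet]
  · rintro ⟨c, hc⟩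
    have hc' : (c : Matrix (Fin n) (Fin n) K) * (A : Matrix (Fin n) (Fin n) K) =
      (dag hK (A : Matrix (Fin n) (Fin n) K))⁻¹ * (c : Matrix (Fin n) (Fin n) K) := hc
    obtain ⟨z, hz⟩ := exists_conj_mem_GU hK A c (by
      rw [mul_assoc, hc', Matrix.mul_nonsing_inv_cancel_left _ _ hdet])
    exact ⟨⟨_, hz⟩, isConj_iff.2 ⟨z, rfl⟩⟩

end Cfsg.Agent.S2588
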