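import Cfsg.Statements.S2589
import Cfsg.Agent.Lib.Helper50.SpConj
import Cfsg.Agent.Lib.Helper50.SemiClass

set_option autoImplicit false
open Cfsg

namespace Cfsg.Agent.S2589

/-- Two semisimple elements of the finite symplectic group Sp_2m(F) (elements of order prime to the characteristic) are conjugate in Sp_2m(F) if and only if they are conjugate in GL_2m(F). -/
theorem result {F : Type*} [Field F] [Fintype F] {p : ℕ} [Fact p.Prime] [CharP F p] {m : ℕ} (A B : Matrix.symplecticGroup (Fin m) F) (hA : (orderOf A).Coprime p) : IsConj A B ↔ IsConj (A : Matrix (Fin m ⊕ Fin m) (Fin m ⊕ Fin m) F) (B : Matrix (Fin m ⊕ Fin m) (Fin m ⊕ Fin m) F) := by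
  constructor
  · intro h
    exact (Matrix.symplecticGroup (Fin m) F).subtype.map_isConj h
  · rintro ⟨g, hg⟩
    exact Cfsg.Agent.Lib.Helper50.SpConj.conj_Sp A B (orderOf A)
      (Cfsg.Agent.Lib.Helper50.SemiConj.cast_ne_zero_of_coprime p hA (Fact.out : p.Prime).ne_one)
      (pow_orderOf_eq_one A) g hg

end Cfsg.Agent.S2589
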