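import Cfsg.Statements.S2593
import Cfsg.Agent.Lib.Helper48.SympInvolExist

set_option autoImplicit false
open Cfsg

namespace Cfsg.Agent.S2593

/-- Number of conjugacy classes of involutions in the symplectic group Sp_2m(F) over a finite field of characteristic two (m ≥ 1): for each s with 1 ≤ s ≤ m there is one class with rank(t − 1) = s if s is odd and two if s is even (according as v ↦ f(v, tv), f the symplectic form, vanishes identically or not), so m + ⌊m/2⌋ classes in all. -/
theorem result {F : Type*} [Field F] [Fintype F] [CharP F 2] {m : ℕ} (hm : 1 ≤ m) : Nat.card {C : ConjClasses ↥(Matrix.symplecticGroup (Fin m) F) // ∃ g : Matrix.symplecticGroup (Fin m) F, ConjClasses.mk g = C ∧ orderOf g = 2} = m + m / 2 := by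
  classical
  have hK : ∀ c : F, IsSquare c := FiniteField.isSquare_of_char_two (ringChar.eq F 2)
  have h1 : ∀ i : Fin m, ∃ a : Matrix.symplecticGroup (Fin m) F, orderOf a = 2 ∧
      ¬ Cfsg.Agent.Lib.Helper48.IsAltInvol a ∧
      ((a : Matrix (Fin m ⊕ Fin m) (Fin m ⊕ Fin m) F) - 1).rank = (i : ℕ) + 1 := fun i =>
    Cfsg.Agent.Lib.Helper48.exists_invol_nonalt ((i : ℕ) + 1) (by omega) (by have := i.2; omega)
  have h2 : ∀ j : Fin (m / 2), ∃ a : Matrix.symplecticGroup (Fin m) F, orderOf a = 2 ∧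
      Cfsg.Agent.Lib.Helper48.IsAltInvol a ∧
      ((a : Matrix (Fin m ⊕ Fin m) (Fin m ⊕ Fin m) F) - 1).rank = 2 * ((j : ℕ) + 1) := fun j =>
    Cfsg.Agent.Lib.Helper48.exists_invol_alt ((j : ℕ) + 1) (by omega) (by have := j.2; omega)
  choose r1 hr1o hr1a hr1r using h1
  choose r2 hr2o hr2a hr2r using h2
  let Φ : Fin m ⊕ Fin (m / 2) → {C : ConjClasses ↥(Matrix.symplecticGroup (Fin m) F) //
      ∃ g : Matrix.symplecticGroup (Fin m) F, ConjClasses.mk g = C ∧ orderOf g = 2} :=
    Sum.elim (fun i => ⟨ConjClasses.mk (r1 i), r1 i, rfl, hr1o i⟩)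
      (fun j => ⟨ConjClasses.mk (r2 j), r2 j, rfl, hr2o j⟩)
  have hbij : Function.Bijective Φ := by
    constructor
    · rintro (i | j) (i' | j') h
      · have hc : IsConj (r1 i) (r1 i') :=
          ConjClasses.mk_eq_mk_iff_isConj.1 (congrArg Subtype.val h)
        have := Cfsg.Agent.Lib.Helper48.rank_eq_of_isConj hc
        rw [hr1r, hr1r] at this
        congr 1
        apply Fin.ext
        omega
      · have hc : IsConj (r1 i) (r2 j') :=
          ConjClasses.mk_eq_mk_iff_isConj.1 (congrArg Subtype.val h)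
        exact absurd ((Cfsg.Agent.Lib.Helper48.isAltInvol_iff_of_isConj hc).2 (hr2a j')) (hr1a i)
      · have hc : IsConj (r2 j) (r1 i') :=
          ConjClasses.mk_eq_mk_iff_isConj.1 (congrArg Subtype.val h)
        exact absurd ((Cfsg.Agent.Lib.Helper48.isAltInvol_iff_of_isConj hc).1 (hr2a j)) (hr1a i')
      · have hc : IsConj (r2 j) (r2 j') :=
          ConjClasses.mk_eq_mk_iff_isConj.1 (congrArg Subtype.val h)
        have := Cfsg.Agent.Lib.Helper48.rank_eq_of_isConj hc
        rw [hr2r, hr2r] at this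
        congr 1
        apply Fin.ext
        omega
    · rintro ⟨_, g, rfl, hg⟩
      obtain ⟨hg1, hg2⟩ := Cfsg.Agent.Lib.Helper48.rank_invol_le hg
      by_cases hA : Cfsg.Agent.Lib.Helper48.IsAltInvol g
      · obtain ⟨s, hs⟩ := Cfsg.Agent.Lib.Helper48.even_rank_of_isAltInvol hg hA
        refine ⟨Sum.inr ⟨s - 1, by omega⟩, ?_⟩
        apply Subtype.ext
        apply ConjClasses.mk_eq_mk_iff_isConj.2
        rw [Cfsg.Agent.Lib.Helper48.isConj_invol_iff hK _ _ (hr2o _) hg]
        refine ⟨?_, ⟨fun _ => hA, fun _ => hr2a _⟩⟩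
        rw [hr2r]
        simp only
        omega
      · refine ⟨Sum.inl ⟨((g : Matrix (Fin m ⊕ Fin m) (Fin m ⊕ Fin m) F) - 1).rank - 1,
          by omega⟩, ?_⟩
        apply Subtype.ext
        apply ConjClasses.mk_eq_mk_iff_isConj.2
        rw [Cfsg.Agent.Lib.Helper48.isConj_invol_iff hK _ _ (hr1o _) hg]
        refine ⟨?_, ⟨fun h => absurd h (hr1a _), fun h => absurd h hA⟩⟩
        rw [hr1r]
        simp only
        omega
  rw [← Nat.card_congr (Equiv.ofBijective Φ hbij), Nat.card_eq_fintype_card, Fintype.card_sum,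
    Fintype.card_fin, Fintype.card_fin]

end Cfsg.Agent.S2593
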