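import Cfsg.Statements.S2594
import Cfsg.Agent.S0245
import Cfsg.Agent.Lib.Helper17.Symp
import Cfsg.Agent.Lib.Helper48.TransvCent

set_option autoImplicit false
open Cfsg

namespace Cfsg.Agent.S2594

open Matrix Cfsg.Agent.Lib.Helper17 in
/-- a rank one matrix is `x ↦ (φ ⬝ᵥ x) • u` -/
theorem exists_rank_one {n F : Type*} [Fintype n] [DecidableEq n] [Field F] (M : Matrix n n F)
    (hr : M.rank = 1) :
    ∃ (u φ : n → F), u ≠ 0 ∧ φ ≠ 0 ∧ ∀ x, M *ᵥ x = (φ ⬝ᵥ x) • u := by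
  have hr' : Module.finrank F (LinearMap.range M.mulVecLin) = 1 := hr
  obtain ⟨⟨u, hur⟩, hu0, hu⟩ := finrank_eq_one_iff'.1 hr'
  have hu0' : u ≠ 0 := fun h => hu0 (Subtype.ext h)
  obtain ⟨i, hi⟩ : ∃ i, u i ≠ 0 := by
    by_contra hcon
    push Not at hcon
    exact hu0' (funext hcon)
  have hM : ∀ x, M *ᵥ x = ((fun j => (u i)⁻¹ * M i j) ⬝ᵥ x) • u := by
    intro x
    obtain ⟨c, hc⟩ := hu ⟨M *ᵥ x, ⟨x, rfl⟩⟩
    have hc' : c • u = M *ᵥ x := congrArg Subtype.val hc
    have h1 : c * u i = (M *ᵥ x) i := by rw [← hc']; rfl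
    have h2 : ((fun j => (u i)⁻¹ * M i j) ⬝ᵥ x) = (u i)⁻¹ * (M *ᵥ x) i := by
      simp only [dotProduct, mulVec, Finset.mul_sum, mul_assoc]
    rw [h2, ← h1, ← hc']
    congr 1
    field_simp
  refine ⟨u, _, hu0', ?_, hM⟩
  intro h0
  obtain ⟨x, hx⟩ := hur
  apply hu0'
  have hx' : M *ᵥ x = u := hx
  rw [← hx', hM, h0]
  simp

open Matrix Cfsg.Agent.Lib.Helper17 in
/-- normal form of a symplectic transvection in characteristic two -/
theorem exists_normal_form {F : Type*} [Field F] [Fintype F] [CharP F 2] {m : ℕ}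
    (t : Matrix.symplecticGroup (Fin m) F)
    (ht : ((t : Matrix (Fin m ⊕ Fin m) (Fin m ⊕ Fin m) F) - 1).rank = 1) :
    ∃ v : Fin m ⊕ Fin m → F, v ≠ 0 ∧ ∀ x, (t : Matrix (Fin m ⊕ Fin m) (Fin m ⊕ Fin m) F) *ᵥ x =
      x + Cfsg.sympForm m F x v • v := by
  obtain ⟨u, φ, hu, hφ, hM⟩ := exists_rank_one _ ht
  have ht' : ∀ x, (t : Matrix (Fin m ⊕ Fin m) (Fin m ⊕ Fin m) F) *ᵥ x = x + (φ ⬝ᵥ x) • u := by
    intro x
    rw [← hM, Matrix.sub_mulVec, Matrix.one_mulVec]
    abel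
  have hsym : ∀ x y, (φ ⬝ᵥ x) * Cfsg.sympForm m F u y = (φ ⬝ᵥ y) * Cfsg.sympForm m F u x := by
    intro x y
    have h := sp_sympForm m t x y
    rw [ht', ht'] at h
    simp only [sympForm_add_left, sympForm_add_right, sympForm_smul_left, sympForm_smul_right,
      sympForm_self] at h
    rw [sympForm_swap m x u] at h
    linear_combination h
  obtain ⟨y0, hy0⟩ : ∃ y, Cfsg.sympForm m F u y ≠ 0 := by
    by_contra hcon
    push Not at hcon
    exact hu (sympForm_left_eq_zero m hcon)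
  have hφx : ∀ x, φ ⬝ᵥ x = ((φ ⬝ᵥ y0) / Cfsg.sympForm m F u y0) * Cfsg.sympForm m F u x := by
    intro x
    have := hsym x y0
    field_simp
    exact this
  obtain ⟨d, hd⟩ := FiniteField.isSquare_of_char_two (F := F) (ringChar.eq F 2)
    ((φ ⬝ᵥ y0) / Cfsg.sympForm m F u y0)
  have hd0 : d ≠ 0 := by
    rintro rfl
    apply hφ
    funext i
    have := hφx (Pi.single i 1)
    rw [hd] at this
    simpa using this
  refine ⟨d • u, smul_ne_zero hd0 hu, ?_⟩
  intro x
  rw [ht', hφx, hd, sympForm_smul_right, smul_smul, sympForm_swap m u x]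
  have h2 : (-1 : F) = 1 := by
    have : (2 : F) = 0 := CharP.cast_eq_zero F 2
    linear_combination -this
  congr 2
  linear_combination (d * d * Cfsg.sympForm m F x u) * h2

open Matrix Cfsg.Agent.Lib.Helper17 in
theorem smul_def' {F : Type*} [Field F] {m : ℕ} (g : Matrix.symplecticGroup (Fin m) F)
    (x : Fin m ⊕ Fin m → F) :
    g • x = (g : Matrix (Fin m ⊕ Fin m) (Fin m ⊕ Fin m) F) *ᵥ x := rfl

open Matrix Cfsg.Agent.Lib.Helper17 in
theorem centralizer_eq_stabilizer {F : Type*} [Field F] [CharP F 2] {m : ℕ}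
    (t : Matrix.symplecticGroup (Fin m) F) (v : Fin m ⊕ Fin m → F) (hv : v ≠ 0)
    (ht : ∀ x, (t : Matrix (Fin m ⊕ Fin m) (Fin m ⊕ Fin m) F) *ᵥ x =
      x + Cfsg.sympForm m F x v • v) :
    Subgroup.centralizer ({t} : Set ↥(Matrix.symplecticGroup (Fin m) F)) =
      MulAction.stabilizer (Matrix.symplecticGroup (Fin m) F) v := by
  ext g
  rw [Subgroup.mem_centralizer_singleton_iff, MulAction.mem_stabilizer_iff, smul_def']
  constructor
  · intro h
    have h1 : ∀ x, Cfsg.sympForm m F x v • ((g : Matrix (Fin m ⊕ Fin m) (Fin m ⊕ Fin m) F) *ᵥ v) =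
        Cfsg.sympForm m F ((g : Matrix (Fin m ⊕ Fin m) (Fin m ⊕ Fin m) F) *ᵥ x) v • v := by
      intro x
      have h2 := congrArg (fun A : Matrix.symplecticGroup (Fin m) F =>
        (A : Matrix (Fin m ⊕ Fin m) (Fin m ⊕ Fin m) F) *ᵥ x) h
      simp only [sp_coe_mul_mulVec, ht, Matrix.mulVec_add, Matrix.mulVec_smul] at h2
      exact add_left_cancel h2
    obtain ⟨x0, hx0⟩ : ∃ y, Cfsg.sympForm m F y v ≠ 0 := by
      by_contra hcon
      push Not at hcon
      apply hv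
      apply sympForm_left_eq_zero m
      intro y
      rw [sympForm_swap, hcon, neg_zero]
    set l : F := (Cfsg.sympForm m F x0 v)⁻¹ *
      Cfsg.sympForm m F ((g : Matrix (Fin m ⊕ Fin m) (Fin m ⊕ Fin m) F) *ᵥ x0) v with hl
    have hgv : (g : Matrix (Fin m ⊕ Fin m) (Fin m ⊕ Fin m) F) *ᵥ v = l • v := by
      rw [hl, mul_smul, ← h1 x0, smul_smul, inv_mul_cancel₀ hx0, one_smul]
    have h3 : Cfsg.sympForm m F ((g : Matrix (Fin m ⊕ Fin m) (Fin m ⊕ Fin m) F) *ᵥ x0) v =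
        l * Cfsg.sympForm m F x0 v := by
      rw [hl]; field_simp
    have h4 : Cfsg.sympForm m F x0 v = l * (l * Cfsg.sympForm m F x0 v) := by
      rw [← h3, ← sympForm_smul_right, ← hgv, sp_sympForm]
    have h5 : l * l = 1 := by
      apply mul_right_cancel₀ hx0
      rw [one_mul, mul_assoc, ← h4]
    have h6 : (l - 1) * (l - 1) = 0 := by
      have : (2 : F) = 0 := CharP.cast_eq_zero F 2
      linear_combination h5 - (l - 1) * this
    have h7 : l = 1 := by
      rcases mul_eq_zero.1 h6 with h | h <;> exact sub_eq_zero.1 h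
    rw [hgv, h7, one_smul]
  · intro h
    apply Subtype.ext
    rw [Matrix.ext_iff_mulVec]
    intro x
    rw [sp_coe_mul_mulVec, sp_coe_mul_mulVec, ht, ht, Matrix.mulVec_add, Matrix.mulVec_smul, h]
    congr 2
    conv_rhs => rw [← h]
    rw [sp_sympForm]

open Matrix Cfsg.Agent.Lib.Helper17 in
theorem orbit_eq {F : Type*} [Field F] {m : ℕ} (v : Fin m ⊕ Fin m → F) (hv : v ≠ 0) :
    MulAction.orbit (Matrix.symplecticGroup (Fin m) F) v = {x | x ≠ 0} := by
  ext x
  constructor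
  · rintro ⟨g, rfl⟩ h0
    apply hv
    have h0' : (g : Matrix (Fin m ⊕ Fin m) (Fin m ⊕ Fin m) F) *ᵥ v = 0 := h0
    have := sp_inv_mulVec m g v
    rw [h0', Matrix.mulVec_zero] at this
    exact this.symm
  · intro hx
    obtain ⟨A, -, hA⟩ := exists_closure_transv_vec m (W := ⊤)
      (fun u _ hu => by
        by_contra hcon
        push Not at hcon
        exact hu (sympForm_left_eq_zero m (fun y => hcon y Submodule.mem_top)))
      (Submodule.mem_top (x := v)) (Submodule.mem_top (x := x)) hv hx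
    exact ⟨A, hA⟩


/-- Over a finite field with q elements, q even, an element t of Sp_2m(F) with rank(t − 1) = 1 (a symplectic transvection) has centraliser in Sp_2m(F) of order q^(2m−1) · |Sp_(2m−2)(q)| = q^(2m−1) · q^((m−1)²) · Π_(i=1)^(m−1) (q^(2i) − 1). -/
theorem result {F : Type*} [Field F] [Fintype F] [CharP F 2] {q : ℕ} (hF : Fintype.card F = q) {m : ℕ} (hm : 1 ≤ m) (t : Matrix.symplecticGroup (Fin m) F) (ht : ((t : Matrix (Fin m ⊕ Fin m) (Fin m ⊕ Fin m) F) - 1).rank = 1) : Nat.card ↥(Subgroup.centralizer ({t} : Set ↥(Matrix.symplecticGroup (Fin m) F))) = q ^ (2 * m - 1) * (q ^ ((m - 1) ^ 2) * ∏ i : Fin (m - 1), (q ^ (2 * ((i : ℕ) + 1)) - 1)) := by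
  obtain ⟨v, hv, htv⟩ := exists_normal_form t ht
  rw [centralizer_eq_stabilizer t v hv htv]
  have h1 := Subgroup.card_mul_index (MulAction.stabilizer (Matrix.symplecticGroup (Fin m) F) v)
  rw [MulAction.index_stabilizer, orbit_eq v hv, Cfsg.Agent.S0245.result hF m] at h1
  have h2 : ({x : Fin m ⊕ Fin m → F | x ≠ 0} : Set _).ncard = q ^ (2 * m) - 1 := by
    rw [← Nat.card_coe_set_eq]
    have := Cfsg.Agent.Lib.Helper48.card_ne_zero (Fin m ⊕ Fin m → F)
    rw [Set.coe_ofPred, this, Nat.card_eq_fintype_card, Fintype.card_fun, hF, Fintype.card_sum,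
      Fintype.card_fin, two_mul]
  rw [h2] at h1
  obtain ⟨k, rfl⟩ : ∃ k, m = k + 1 := ⟨m - 1, by omega⟩
  have hq : 2 ≤ q := by rw [← hF]; exact Fintype.one_lt_card
  have hpos : 0 < q ^ (2 * (k + 1)) - 1 := by
    have : 1 < q ^ (2 * (k + 1)) := Nat.one_lt_pow (by omega) (by omega)
    omega
  rw [Finset.prod_range_succ, ← mul_assoc] at h1
  have h3 := Nat.eq_of_mul_eq_mul_right hpos h1
  rw [h3, Fin.prod_univ_eq_prod_range (fun i => q ^ (2 * (i + 1)) - 1), ← mul_assoc, ← pow_add]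
  congr 2
  simp only [Nat.add_sub_cancel]
  have : 2 * (k + 1) - 1 = 2 * k + 1 := by omega
  rw [this]
  ring

end Cfsg.Agent.S2594
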