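import Cfsg.Statements.S2595
import Cfsg.Agent.Lib.Helper48.OrthInvolStd

set_option autoImplicit false
open Cfsg

namespace Cfsg.Agent.S2595

/-- Number of conjugacy classes of involutions in the full orthogonal group O⁺_2m(F) of the hyperbolic quadratic form Σ x_i y_i over a finite field of characteristic two (m ≥ 1): one class for each odd s ≤ m and two for each even s with 2 ≤ s ≤ m, where s = rank(t − 1); in all m + ⌊m/2⌋. -/
theorem result {F : Type*} [Field F] [Fintype F] [CharP F 2] {m : ℕ} (hm : 1 ≤ m) : Nat.card {C : ConjClasses ↥(Cfsg.isometryGroup F (Cfsg.quadFormPlus m F)) // ∃ g : ↥(Cfsg.isometryGroup F (Cfsg.quadFormPlus m F)), ConjClasses.mk g = C ∧ orderOf g = 2} = m + m / 2 := by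
  have hle : ∀ t : Cfsg.Agent.Lib.Helper49.OG (Cfsg.Agent.Lib.Helper49.plusQF m F), t * t = 1 →
      Module.finrank F (LinearMap.range
        (Cfsg.Agent.Lib.Helper49.dOG (Cfsg.Agent.Lib.Helper49.plusQF m F) t)) ≤ m := by
    intro t ht
    have := Cfsg.Agent.Lib.Helper48.two_mul_rank_le_of_sq_zero _
      (Cfsg.Agent.Lib.Helper48.dOG_sq ht)
    rw [Module.finrank_pi, Fintype.card_sum, Fintype.card_fin] at this
    omega
  have key := Cfsg.Agent.Lib.Helper48.card_invol_classes (Cfsg.Agent.Lib.Helper49.plusQF m F)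
    (Cfsg.Agent.Lib.Helper49.plusQF_nondegenerate m F) m (m / 2)
    (fun i => Cfsg.Agent.Lib.Helper48.exists_plus_nonalt ((i : ℕ) + 1) (by omega)
      (by have := i.2; omega))
    (fun j => Cfsg.Agent.Lib.Helper48.exists_plus_alt ((j : ℕ) + 1) (by have := j.2; omega))
    hle (fun t ht _ => by have := hle t ht; omega)
  rw [Cfsg.Agent.Lib.Helper49.plusQF_coe] at key
  exact key

end Cfsg.Agent.S2595
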