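import Cfsg.Statements.S2596
import Cfsg.Agent.Lib.Helper48.OrthInvolStd

set_option autoImplicit false
open Cfsg

namespace Cfsg.Agent.S2596

/-- Number of conjugacy classes of involutions in the full orthogonal group O⁻_2m(F) of an elliptic quadratic form (Σ_(i<m−1) x_i y_i plus an anisotropic binary form) over a finite field of characteristic two (m ≥ 1): one class for each odd s ≤ m, two for each even s with 2 ≤ s < m and one for s = m when m is even, where s = rank(t − 1); in all m + ⌊(m − 1)/2⌋. -/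
theorem result {F : Type*} [Field F] [Fintype F] [CharP F 2] {m : ℕ} (hm : 1 ≤ m) (a b : F) (hab : ∀ z₁ z₂ : F, z₁ ^ 2 + a * z₁ * z₂ + b * z₂ ^ 2 = 0 → z₁ = 0 ∧ z₂ = 0) : Nat.card {C : ConjClasses ↥(Cfsg.isometryGroup F (Cfsg.quadFormMinus (m - 1) F a b)) // ∃ g : ↥(Cfsg.isometryGroup F (Cfsg.quadFormMinus (m - 1) F a b)), ConjClasses.mk g = C ∧ orderOf g = 2} = m + (m - 1) / 2 := by
  have hdisc := Cfsg.Agent.Lib.Helper49.minus_disc_ne_zero a b hab
  have hQ := Cfsg.Agent.Lib.Helper49.minusQF_nondegenerate (m - 1) F a b hdisc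
  have ha : a ≠ 0 := by
    rintro rfl
    apply hdisc
    have h2 : (2 : F) = 0 := CharP.cast_eq_zero F 2
    linear_combination 2 * b * h2
  have hdim : Module.finrank F ((Fin (m - 1) ⊕ Fin (m - 1)) ⊕ Fin 2 → F) = 2 * m := by
    rw [Module.finrank_pi]
    simp only [Fintype.card_sum, Fintype.card_fin]
    omega
  have hle : ∀ t : Cfsg.Agent.Lib.Helper49.OG (Cfsg.Agent.Lib.Helper49.minusQF (m - 1) F a b),
      t * t = 1 → Module.finrank F (LinearMap.range
        (Cfsg.Agent.Lib.Helper49.dOG (Cfsg.Agent.Lib.Helper49.minusQF (m - 1) F a b) t)) ≤ m := by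
    intro t ht
    have := Cfsg.Agent.Lib.Helper48.two_mul_rank_le_of_sq_zero _
      (Cfsg.Agent.Lib.Helper48.dOG_sq ht)
    rw [hdim] at this
    omega
  have key := Cfsg.Agent.Lib.Helper48.card_invol_classes
    (Cfsg.Agent.Lib.Helper49.minusQF (m - 1) F a b) hQ m ((m - 1) / 2)
    (fun i => Cfsg.Agent.Lib.Helper48.exists_minus_nonalt a b ha (i : ℕ) (by have := i.2; omega))
    (fun j => Cfsg.Agent.Lib.Helper48.exists_minus_alt a b ((j : ℕ) + 1) (by have := j.2; omega))
    hle (fun t ht halt => by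
      have h1 := hle t ht
      have h2 : Module.finrank F (LinearMap.range
        (Cfsg.Agent.Lib.Helper49.dOG (Cfsg.Agent.Lib.Helper49.minusQF (m - 1) F a b) t)) ≠ m := by
        intro h3
        apply Cfsg.Agent.Lib.Helper49.not_isLagr_minusQF a b hab hQ (LinearMap.range
          (Cfsg.Agent.Lib.Helper49.dOG (Cfsg.Agent.Lib.Helper49.minusQF (m - 1) F a b) t))
        apply Cfsg.Agent.Lib.Helper49.isLagr_of_finrank hQ
        · rintro _ ⟨v, rfl⟩
          rw [Cfsg.Agent.Lib.Helper48.Q_dOG]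
          exact halt v
        · rw [h3, hdim]
      omega)
  rw [Cfsg.Agent.Lib.Helper49.minusQF_coe] at key
  exact key

end Cfsg.Agent.S2596
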