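import Cfsg.Statements.S2597
import Cfsg.Agent.Lib.Helper48.OmegaInvolCount

set_option autoImplicit false
open Cfsg

namespace Cfsg.Agent.S2597

/-- Number of conjugacy classes of involutions in Ω⁺_2m(F) (the commutator subgroup of the orthogonal group of Σ x_i y_i) over a finite field F of characteristic two, m ≥ 1, excluding the case m = 2 over the field of two elements: the involutions of Ω are those with s = rank(t − 1) even, giving two O-classes for each even s with 2 ≤ s ≤ m, each of which is a single Ω-class except that for m even the class with s = m and v ↦ f(v, tv) identically zero splits in two; in all 2⌊m/2⌋ + 1 classes if m is even and 2⌊m/2⌋ if m is odd. -/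
theorem result {F : Type*} [Field F] [Fintype F] [CharP F 2] {m : ℕ} (hm : 1 ≤ m) (h : Fintype.card F ≠ 2 ∨ m ≠ 2) : Nat.card {C : ConjClasses ↥(Cfsg.Omega F (Cfsg.quadFormPlus m F)) // ∃ g : ↥(Cfsg.Omega F (Cfsg.quadFormPlus m F)), ConjClasses.mk g = C ∧ orderOf g = 2} = 2 * (m / 2) + (if Even m then 1 else 0) := by
  have hQ := Cfsg.Agent.Lib.Helper49.plusQF_nondegenerate m F
  have hdim : Module.finrank F (Fin m ⊕ Fin m → F) = 2 * m := by
    rw [Module.finrank_pi]
    simp only [Fintype.card_sum, Fintype.card_fin]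
    omega
  have hgen : Cfsg.Agent.Lib.Helper48.ReflGen (Cfsg.Agent.Lib.Helper49.plusQF m F) := by
    apply Cfsg.Agent.Lib.Helper48.reflGen_of_ne hQ
    rw [hdim]
    rcases h with h | h
    · exact Or.inl h
    · right; omega
  have hle : ∀ t : Cfsg.Agent.Lib.Helper49.OG (Cfsg.Agent.Lib.Helper49.plusQF m F),
      t * t = 1 → Module.finrank F (LinearMap.range
        (Cfsg.Agent.Lib.Helper49.dOG (Cfsg.Agent.Lib.Helper49.plusQF m F) t)) ≤ m := by
    intro t ht
    have := Cfsg.Agent.Lib.Helper48.two_mul_rank_le_of_sq_zero _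
      (Cfsg.Agent.Lib.Helper48.dOG_sq ht)
    rw [hdim] at this
    omega
  haveI : Nonempty (Fin m ⊕ Fin m) := ⟨Sum.inl ⟨0, hm⟩⟩
  have key := Cfsg.Agent.Lib.Helper48.card_Omega_invol_classes
    (Cfsg.Agent.Lib.Helper49.plusQF m F) hQ hgen (m / 2) (m / 2) (if Even m then 1 else 0)
    (fun i => Cfsg.Agent.Lib.Helper48.exists_plus_nonalt (2 * ((i : ℕ) + 1)) (by omega)
      (by have := i.2; omega))
    (fun j => Cfsg.Agent.Lib.Helper48.exists_plus_alt ((j : ℕ) + 1) (by have := j.2; omega))
    (fun t ht => by have := hle t ht; omega)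
    (fun t ht _ => by have := hle t ht; omega)
    (by split_ifs <;> omega)
    (fun he t ht hev hL => by
      have hodd : ¬ Even m := by
        intro hm'
        rw [if_pos hm'] at he
        omega
      have h3 := hL.2
      rw [hdim] at h3
      have h4 : Module.finrank F (LinearMap.range
        (Cfsg.Agent.Lib.Helper49.dOG (Cfsg.Agent.Lib.Helper49.plusQF m F) t)) = m := by omega
      rw [h4] at hev
      exact hodd hev)
    (fun he => by
      have hev : Even m := by
        by_contra hm'
        rw [if_neg hm'] at he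
        omega
      obtain ⟨k, hk⟩ := hev
      obtain ⟨t, ht, h1, h3⟩ := Cfsg.Agent.Lib.Helper48.exists_plus_alt (F := F) (m := m) k
        (by omega)
      exact ⟨t, ht, by rw [h3]; exact even_two_mul _, h1, by rw [h3, hdim]; omega⟩)
  rw [Cfsg.Agent.Lib.Helper49.plusQF_coe] at key
  rw [key]
  omega

end Cfsg.Agent.S2597
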