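import Cfsg.Statements.S2598
import Cfsg.Agent.Lib.Helper48.OmegaInvolCount

set_option autoImplicit false
open Cfsg

namespace Cfsg.Agent.S2598

/-- Number of conjugacy classes of involutions in Ω⁻_2m(F) (the commutator subgroup of the orthogonal group of an elliptic quadratic form, Σ_(i<m−1) x_i y_i plus an anisotropic binary form) over a finite field F of characteristic two, m ≥ 1: the involutions of Ω are those with s = rank(t − 1) even, one O-class for each even s with 2 ≤ s ≤ m on which v ↦ f(v, tv) is not identically zero and one for each even s with 2 ≤ s < m on which it is zero (f the polar form; in characteristic 2, f(v, tv) = Q(v + tv)), none of which splits in Ω; in all ⌊m/2⌋ + ⌊(m − 1)/2⌋. -/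
theorem result {F : Type*} [Field F] [Fintype F] [CharP F 2] {m : ℕ} (hm : 1 ≤ m) (a b : F) (hab : ∀ z₁ z₂ : F, z₁ ^ 2 + a * z₁ * z₂ + b * z₂ ^ 2 = 0 → z₁ = 0 ∧ z₂ = 0) : Nat.card {C : ConjClasses ↥(Cfsg.Omega F (Cfsg.quadFormMinus (m - 1) F a b)) // ∃ g : ↥(Cfsg.Omega F (Cfsg.quadFormMinus (m - 1) F a b)), ConjClasses.mk g = C ∧ orderOf g = 2} = m / 2 + (m - 1) / 2 := by
  have h2 : (2 : F) = 0 := CharP.cast_eq_zero F 2
  have hdisc := Cfsg.Agent.Lib.Helper49.minus_disc_ne_zero a b hab
  have hQ := Cfsg.Agent.Lib.Helper49.minusQF_nondegenerate (m - 1) F a b hdisc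
  have ha : a ≠ 0 := by
    rintro rfl
    apply hdisc
    linear_combination 2 * b * h2
  have hdim : Module.finrank F ((Fin (m - 1) ⊕ Fin (m - 1)) ⊕ Fin 2 → F) = 2 * m := by
    rw [Module.finrank_pi]
    simp only [Fintype.card_sum, Fintype.card_fin]
    omega
  have hno := Cfsg.Agent.Lib.Helper49.not_isLagr_minusQF a b hab hQ
  have hgen : Cfsg.Agent.Lib.Helper48.ReflGen (Cfsg.Agent.Lib.Helper49.minusQF (m - 1) F a b) :=
    Cfsg.Agent.Lib.Helper48.reflGen_of_noLagr h2 hQ hno
  have hle : ∀ t : Cfsg.Agent.Lib.Helper49.OG (Cfsg.Agent.Lib.Helper49.minusQF (m - 1) F a b),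
      t * t = 1 → Module.finrank F (LinearMap.range
        (Cfsg.Agent.Lib.Helper49.dOG (Cfsg.Agent.Lib.Helper49.minusQF (m - 1) F a b) t)) ≤ m := by
    intro t ht
    have := Cfsg.Agent.Lib.Helper48.two_mul_rank_le_of_sq_zero _
      (Cfsg.Agent.Lib.Helper48.dOG_sq ht)
    rw [hdim] at this
    omega
  have key := Cfsg.Agent.Lib.Helper48.card_Omega_invol_classes
    (Cfsg.Agent.Lib.Helper49.minusQF (m - 1) F a b) hQ hgen (m / 2) ((m - 1) / 2) 0
    (fun i => by
      have := Cfsg.Agent.Lib.Helper48.exists_minus_nonalt (m := m - 1) a b ha (2 * (i : ℕ) + 1)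
        (by have := i.2; omega)
      exact this)
    (fun j => Cfsg.Agent.Lib.Helper48.exists_minus_alt a b ((j : ℕ) + 1) (by have := j.2; omega))
    (fun t ht => by have := hle t ht; omega)
    (fun t ht halt => by
      have h1 := hle t ht
      have h3 : Module.finrank F (LinearMap.range
        (Cfsg.Agent.Lib.Helper49.dOG (Cfsg.Agent.Lib.Helper49.minusQF (m - 1) F a b) t)) ≠ m := by
        intro h3
        exact hno _ (Cfsg.Agent.Lib.Helper48.LagT.isLagr hQ ⟨halt, by rw [h3, hdim]⟩)
      omega)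
    (by omega)
    (fun _ t _ _ hL => hno _ (Cfsg.Agent.Lib.Helper48.LagT.isLagr hQ hL))
    (fun he => absurd he (by omega))
  rw [Cfsg.Agent.Lib.Helper49.minusQF_coe] at key
  exact key

end Cfsg.Agent.S2598
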