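import Cfsg.Statements.S2599
-- import your own Cfsg.Agent.* helpers here

set_option autoImplicit false
open Cfsg

namespace Cfsg.Agent.S2599

/-- An irreducible invariant subspace of a semisimple isometry is non-degenerate or totally singular: let Q be a quadratic form on F^n (F finite of characteristic p) with non-degenerate polar form f, x an isometry of Q of order prime to p, and U a non-zero x-invariant subspace containing no x-invariant subspace other than 0 and U. Then U meets its f-orthogonal trivially, or Q vanishes on U, or p = 2, U is a line spanned by a non-singular vector and x fixes U pointwise. -/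
theorem result {F : Type*} [Field F] [Fintype F] {p : ℕ} [Fact p.Prime] [CharP F p] {n : ℕ} (Q : QuadraticForm F (Fin n → F)) (hQ : (QuadraticMap.polarBilin Q).Nondegenerate) (x : ↥(Cfsg.isometryGroup F ⇑Q)) (hx : (orderOf x).Coprime p) (U : Submodule F (Fin n → F)) (hU0 : U ≠ ⊥) (hUx : ∀ u ∈ U, ((x : Matrix.GeneralLinearGroup (Fin n) F) : Matrix (Fin n) (Fin n) F).mulVec u ∈ U) (hirr : ∀ W : Submodule F (Fin n → F), W ≤ U → (∀ w ∈ W, ((x : Matrix.GeneralLinearGroup (Fin n) F) : Matrix (Fin n) (Fin n) F).mulVec w ∈ W) → W = ⊥ ∨ W = U) : U ⊓ LinearMap.BilinForm.orthogonal (QuadraticMap.polarBilin Q) U = ⊥ ∨ (∀ u ∈ U, Q u = 0) ∨ (p = 2 ∧ Module.finrank F U = 1 ∧ (∃ u ∈ U, Q u ≠ 0) ∧ ∀ u ∈ U, ((x : Matrix.GeneralLinearGroup (Fin n) F) : Matrix (Fin n) (Fin n) F).mulVec u = u) := by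
  classical
  set X : Matrix (Fin n) (Fin n) F := ((x : Matrix.GeneralLinearGroup (Fin n) F) : Matrix (Fin n) (Fin n) F)
    with hX
  have hQX : ∀ v, Q (X.mulVec v) = Q v := fun v => x.2 v v
  have hpol : ∀ a b, QuadraticMap.polar Q (X.mulVec a) (X.mulVec b) = QuadraticMap.polar Q a b := by
    intro a b
    simp only [QuadraticMap.polar, ← Matrix.mulVec_add, hQX]
  have hinj : Function.Injective X.mulVec := by
    intro a b hab
    have h1 := congrArg (((x⁻¹ : ↥(Cfsg.isometryGroup F ⇑Q)) : Matrix.GeneralLinearGroup (Fin n) F) :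
      Matrix (Fin n) (Fin n) F).mulVec hab
    have h2 : (((x⁻¹ : ↥(Cfsg.isometryGroup F ⇑Q)) : Matrix.GeneralLinearGroup (Fin n) F) :
      Matrix (Fin n) (Fin n) F) * X = 1 := by
      rw [hX, Subgroup.coe_inv, ← Units.val_mul, inv_mul_cancel, Units.val_one]
    rwa [Matrix.mulVec_mulVec, Matrix.mulVec_mulVec, h2, Matrix.one_mulVec, Matrix.one_mulVec] at h1
  have hsurj : ∀ u ∈ U, ∃ u' ∈ U, X.mulVec u' = u := by
    let R : U →ₗ[F] U := (Matrix.mulVecLin X).restrict (fun u hu => hUx u hu)
    have hRinj : Function.Injective R := by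
      intro a b hab
      apply Subtype.ext
      apply hinj
      exact congrArg Subtype.val hab
    have hRs := LinearMap.injective_iff_surjective.1 hRinj
    intro u hu
    obtain ⟨u', hu'⟩ := hRs ⟨u, hu⟩
    exact ⟨u'.1, u'.2, congrArg Subtype.val hu'⟩
  have hW := hirr (U ⊓ LinearMap.BilinForm.orthogonal (QuadraticMap.polarBilin Q) U) inf_le_left (by
    rintro w ⟨hwU, hwO⟩
    refine ⟨hUx w hwU, ?_⟩
    rw [SetLike.mem_coe, LinearMap.BilinForm.mem_orthogonal_iff] at hwO ⊢
    intro u hu
    obtain ⟨u', hu', rfl⟩ := hsurj u hu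
    have := hwO u' hu'
    change QuadraticMap.polar Q (X.mulVec u') (X.mulVec w) = 0
    rw [hpol]
    exact this)
  rcases hW with hW | hW
  · exact Or.inl hW
  right
  have hiso : ∀ u ∈ U, ∀ v ∈ U, QuadraticMap.polar Q u v = 0 := by
    intro u hu v hv
    have h1 : v ∈ U ⊓ LinearMap.BilinForm.orthogonal (QuadraticMap.polarBilin Q) U := by rw [hW]; exact hv
    have h2 := h1.2
    rw [SetLike.mem_coe, LinearMap.BilinForm.mem_orthogonal_iff] at h2
    exact h2 u hu
  have hadd : ∀ u ∈ U, ∀ v ∈ U, Q (u + v) = Q u + Q v := by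
    intro u hu v hv
    have := hiso u hu v hv
    simp only [QuadraticMap.polar] at this
    linear_combination this
  let U₀ : Submodule F (Fin n → F) :=
    { carrier := {u | u ∈ U ∧ Q u = 0}
      add_mem' := by
        rintro a b ⟨ha, ha0⟩ ⟨hb, hb0⟩
        exact ⟨U.add_mem ha hb, by rw [hadd a ha b hb, ha0, hb0, add_zero]⟩
      zero_mem' := ⟨U.zero_mem, by simp⟩
      smul_mem' := by
        rintro c a ⟨ha, ha0⟩
        exact ⟨U.smul_mem c ha, by rw [QuadraticMap.map_smul, ha0, smul_zero]⟩ }
  have hU₀ := hirr U₀ (fun u hu => hu.1) (fun w hw => ⟨hUx w hw.1, by rw [hQX]; exact hw.2⟩)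
  rcases hU₀ with hU₀ | hU₀
  · right
    have hne : ∀ u ∈ U, Q u = 0 → u = 0 := by
      intro u hu h0
      have : u ∈ U₀ := ⟨hu, h0⟩
      rw [hU₀] at this
      exact this
    obtain ⟨u, hu, hu0⟩ := Submodule.exists_mem_ne_zero_of_ne_bot hU0
    have hQu : Q u ≠ 0 := fun h => hu0 (hne u hu h)
    have h2 : (2 : F) = 0 := by
      have h1 := hiso u hu u hu
      rw [QuadraticMap.polar_self, nsmul_eq_mul] at h1
      have := (mul_eq_zero.1 h1).resolve_right hQu
      exact_mod_cast this
    have hp2 : p = 2 := by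
      have h3 : ((2 : ℕ) : F) = 0 := by exact_mod_cast h2
      have h4 := (CharP.cast_eq_zero_iff F p 2).1 h3
      exact (Nat.prime_dvd_prime_iff_eq Fact.out Nat.prime_two).1 h4
    subst hp2
    have hspan : ∀ v ∈ U, ∃ c : F, v = c • u := by
      intro v hv
      obtain ⟨c, hc⟩ : ∃ c : F, c ^ 2 = Q v / Q u := by
        obtain ⟨c, hc⟩ := (bijective_frobenius F 2).2 (Q v / Q u)
        exact ⟨c, hc⟩
      refine ⟨c, ?_⟩
      have h5 : Q (v + c • u) = 0 := by
        rw [hadd v hv _ (U.smul_mem c hu), QuadraticMap.map_smul, smul_eq_mul, ← pow_two, hc]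
        field_simp
        linear_combination (Q v) * h2
      have h6 := hne _ (U.add_mem hv (U.smul_mem c hu)) h5
      have h7 : c • u + c • u = 0 := by
        rw [← two_smul F, h2, zero_smul]
      calc v = v + (c • u + c • u) := by rw [h7, add_zero]
        _ = (v + c • u) + c • u := by abel
        _ = c • u := by rw [h6, zero_add]
    refine ⟨rfl, ?_, ⟨u, hu, hQu⟩, ?_⟩
    · have : U = Submodule.span F {u} := by
        apply le_antisymm
        · intro v hv
          obtain ⟨c, rfl⟩ := hspan v hv
          exact Submodule.smul_mem _ _ (Submodule.mem_span_singleton_self u)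
        · rw [Submodule.span_singleton_le_iff_mem]; exact hu
      rw [this, finrank_span_singleton hu0]
    · have hfix : X.mulVec u = u := by
        obtain ⟨l, hl⟩ := hspan _ (hUx u hu)
        have h8 := hQX u
        rw [hl, QuadraticMap.map_smul, smul_eq_mul] at h8
        have h9 : l * l = 1 := by
          have : (l * l - 1) * Q u = 0 := by linear_combination h8
          have := (mul_eq_zero.1 this).resolve_right hQu
          linear_combination this
        have h10 : (l + 1) * (l + 1) = 0 := by linear_combination h9 + (l + 1) * h2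
        have h11 : l + 1 = 0 := mul_self_eq_zero.1 h10
        have h12 : l = 1 := by linear_combination h11 - h2
        rw [hl, h12, one_smul]
      intro v hv
      obtain ⟨c, rfl⟩ := hspan v hv
      rw [Matrix.mulVec_smul, hfix]
  · left
    intro u hu
    have : u ∈ U₀ := by rw [hU₀]; exact hu
    exact this.2

end Cfsg.Agent.S2599
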