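import Cfsg.Statements.S2610
import Cfsg.Agent.Lib.Helper49.SpinorMat
import Cfsg.Agent.Lib.Helper49.ReflList
import Cfsg.Agent.Lib.Helper49.Gram

set_option autoImplicit false
open Cfsg Cfsg.Agent.Lib.Helper49

namespace Cfsg.Agent.S2610

/-- For a quadratic form Q on F^n with non-degenerate polar form, F finite of odd order and n ≥ 2 even, the isometry −1 lies in Ω (the commutator subgroup of the orthogonal group) if and only if the discriminant of Q (the determinant of the Gram matrix of its polar form) is a square. -/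
theorem result {F : Type*} [Field F] [Fintype F] (h2 : (2 : F) ≠ 0) {n : ℕ} (hn : 2 ≤ n) (he : Even n) (Q : QuadraticForm F (Fin n → F)) (hQ : (QuadraticMap.polarBilin Q).Nondegenerate) : (∃ g : ↥(Cfsg.isometryGroup F ⇑Q), g ∈ Cfsg.Omega F ⇑Q ∧ ((g : Matrix.GeneralLinearGroup (Fin n) F) : Matrix (Fin n) (Fin n) F) = -1) ↔ IsSquare (Matrix.of (fun i j : Fin n => QuadraticMap.polar ⇑Q (Pi.single i 1) (Pi.single j 1))).det := by
  classical
  obtain ⟨b, hb, hb0⟩ := exists_orthogonal_basis_Q Q h2 hQ
  have hfr : Module.finrank F (Fin n → F) = n := by simp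
  generalize Module.finrank F (Fin n → F) = n' at b hb hb0 hfr
  subst hfr
  have hM : (-1 : Matrix (Fin n') (Fin n') F) =
      ((List.ofFn b).map (fun v => Cfsg.reflectionMatrix ⇑Q v)).prod := by
    apply Matrix.mulVec_injective
    funext x
    rw [reflectionMatrix_prod_mulVec, reflProd_ofFn_orthogonal_basis Q b hb hb0, Matrix.neg_mulVec,
      Matrix.one_mulVec]
  rw [exists_mem_Omega_iff h2 Q hQ (-1) (List.ofFn b) (by
    intro v hv
    obtain ⟨i, rfl⟩ := (List.mem_ofFn' _ _).1 hv
    exact hb0 i) hM]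
  have h1 := isSquare_gram_det_iff Q b (Pi.basisFun F (Fin n'))
  simp only [Pi.basisFun_apply] at h1
  rw [h1]
  have h3 : Matrix.of (fun i j : Fin n' => QuadraticMap.polar ⇑Q (b i) (b j)) =
      Matrix.diagonal (fun i => 2 * Q (b i)) := by
    ext i j
    by_cases hij : i = j
    · subst hij
      simp [QuadraticMap.polar_self]
    · simp [hij, hb i j hij]
  rw [h3, Matrix.det_diagonal, Finset.prod_mul_distrib, Finset.prod_const, Finset.card_univ,
    Fintype.card_fin, List.length_ofFn, List.map_ofFn, List.prod_ofFn]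
  obtain ⟨k, hk⟩ := he
  have h4 : (2 : F) ^ n' = (2 ^ k) ^ 2 := by rw [hk, ← pow_mul]; congr 1; ring
  rw [h4, isSquare_sq_mul_iff (pow_ne_zero _ h2)]
  simp only [Function.comp_def]
  exact ⟨fun h => h.2, fun h => ⟨⟨k, hk⟩, h⟩⟩

end Cfsg.Agent.S2610
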