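import Cfsg.Statements.S2612
import Cfsg.Agent.Lib.Helper49.PlusDickson

set_option autoImplicit false
open Cfsg Cfsg.Agent.Lib.Helper49

namespace Cfsg.Agent.S2612

theorem swap_aux {F : Type*} [Field F] (m : ℕ) :
    ∃ vs : List (Fin m ⊕ Fin m → F), (∀ v ∈ vs, plusQF m F v = -1) ∧ vs.length = m ∧
      ∀ (v : Fin m ⊕ Fin m → F) (j : Fin m),
        (reflProd (plusQF m F) vs).1 v (Sum.inl j) = v (Sum.inr j) ∧
        (reflProd (plusQF m F) vs).1 v (Sum.inr j) = v (Sum.inl j) := by
  classical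
  let u : Fin m → (Fin m ⊕ Fin m → F) := fun i => Pi.single (Sum.inl i) 1 - Pi.single (Sum.inr i) 1
  have hQ : ∀ i, plusQF m F (u i) = -1 := by
    intro i
    rw [plusQF_coe]
    simp only [Cfsg.quadFormPlus, u, Pi.sub_apply]
    rw [Finset.sum_eq_single i]
    · simp
    · intro b _ hb
      simp [hb]
    · simp
  have hpol : ∀ i v, QuadraticMap.polar (plusQF m F) (u i) v = v (Sum.inr i) - v (Sum.inl i) := by
    intro i v
    rw [plusQF_coe, polar_quadFormPlus]
    simp only [u, Pi.sub_apply]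
    rw [Finset.sum_eq_single i]
    · simp; ring
    · intro b _ hb
      simp [hb]
    · simp
  refine ⟨List.ofFn u, ?_, by simp, ?_⟩
  · intro v hv
    obtain ⟨i, rfl⟩ := (List.mem_ofFn' _ _).1 hv
    exact hQ i
  · intro v j
    have hp : (List.ofFn u).Pairwise (fun a b => QuadraticMap.polar (plusQF m F) a b = 0) := by
      rw [List.pairwise_ofFn]
      intro i k hik
      rw [hpol]
      simp [u, (ne_of_lt hik).symm]
    rw [reflProd_apply_of_pairwise _ _ hp, List.map_ofFn, List.sum_ofFn]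
    simp only [Function.comp_def, hQ, hpol, Pi.sub_apply, Finset.sum_apply, Pi.smul_apply, u,
      smul_eq_mul]
    constructor
    · rw [Finset.sum_eq_single j]
      · simp
      · intro b _ hb
        simp [hb]
      · simp
    · rw [Finset.sum_eq_single j]
      · simp
      · intro b _ hb
        simp [hb]
      · simp

/-- For the hyperbolic quadratic form Σ x_i y_i on F^(2m) (F finite, m ≥ 1, excluding m = 2 over the field of two elements), Ω⁺_2m(F) (the commutator subgroup of the orthogonal group) contains an element interchanging the two complementary maximal totally singular subspaces {y = 0} and {x = 0} if and only if m is even (dimension divisible by 4). -/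
theorem result {F : Type*} [Field F] [Fintype F] {m : ℕ} (hm : 1 ≤ m) (h : Fintype.card F ≠ 2 ∨ m ≠ 2) : (∃ g : ↥(Cfsg.isometryGroup F (Cfsg.quadFormPlus m F)), g ∈ Cfsg.Omega F (Cfsg.quadFormPlus m F) ∧ (∀ v : Fin m ⊕ Fin m → F, (∀ i, v (Sum.inr i) = 0) → ∀ i, (((g : Matrix.GeneralLinearGroup (Fin m ⊕ Fin m) F) : Matrix (Fin m ⊕ Fin m) (Fin m ⊕ Fin m) F).mulVec v) (Sum.inl i) = 0) ∧ (∀ v : Fin m ⊕ Fin m → F, (∀ i, v (Sum.inl i) = 0) → ∀ i, (((g : Matrix.GeneralLinearGroup (Fin m ⊕ Fin m) F) : Matrix (Fin m ⊕ Fin m) (Fin m ⊕ Fin m) F).mulVec v) (Sum.inr i) = 0)) ↔ Even m := by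
  have key : (∃ g : ↥(Cfsg.isometryGroup F ⇑(plusQF m F)), g ∈ Cfsg.Omega F ⇑(plusQF m F) ∧ (∀ v : Fin m ⊕ Fin m → F, (∀ i, v (Sum.inr i) = 0) → ∀ i, (((g : Matrix.GeneralLinearGroup (Fin m ⊕ Fin m) F) : Matrix (Fin m ⊕ Fin m) (Fin m ⊕ Fin m) F).mulVec v) (Sum.inl i) = 0) ∧ (∀ v : Fin m ⊕ Fin m → F, (∀ i, v (Sum.inl i) = 0) → ∀ i, (((g : Matrix.GeneralLinearGroup (Fin m ⊕ Fin m) F) : Matrix (Fin m ⊕ Fin m) (Fin m ⊕ Fin m) F).mulVec v) (Sum.inr i) = 0)) ↔ Even m := by
    constructor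
    · rintro ⟨g, hg, h1, _⟩
      have h3 := even_of_mem_commutator _ ((mem_Omega_iff _ g).1 hg)
      have h4 : stdLagr m F ⊓ (stdLagr m F).map ((isoEquiv (plusQF m F) g).1 :
          (Fin m ⊕ Fin m → F) →ₗ[F] (Fin m ⊕ Fin m → F)) = ⊥ := by
        rw [eq_bot_iff]
        rintro z ⟨hz, v, hv, rfl⟩
        rw [SetLike.mem_coe, mem_stdLagr] at hz hv
        rw [Submodule.mem_bot]
        funext k
        rcases k with k | k
        · exact h1 v hv k
        · exact hz k
      rw [h4, finrank_bot] at h3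
      simpa using h3
    · rintro ⟨k, hk⟩
      obtain ⟨vs, hvs, hlen, hact⟩ := swap_aux (F := F) m
      refine ⟨(isoEquiv (plusQF m F)).symm (reflProd (plusQF m F) vs), ?_, ?_, ?_⟩
      · rw [mem_Omega_iff, MulEquiv.apply_symm_apply]
        exact reflProd_mem_commutator_of_const (plusQF m F) (plusQF_nondegenerate m F) (-1)
          (by simp) k vs hvs (by rw [hlen, hk]; ring)
      · intro v hv i
        rw [isoEquiv_symm_mulVec, (hact v i).1, hv i]
      · intro v hv i
        rw [isoEquiv_symm_mulVec, (hact v i).2, hv i]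
  rw [plusQF_coe] at key
  exact key

end Cfsg.Agent.S2612
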