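import Cfsg.Statements.S2614
import Cfsg.Agent.Lib.Helper49.HypPairs

set_option autoImplicit false
open Cfsg Cfsg.Agent.Lib.Helper49

namespace Cfsg.Agent.S2614

/-- For the form x_0² + Σ x_j y_j on F^(2m+1), F finite with q elements, q odd, and 1 ≤ i ≤ m: the involution of determinant one negating the first i hyperbolic pairs (and fixing x_0 and the other pairs) lies in Ω_(2m+1)(q) (commutator subgroup of the orthogonal group) if and only if q^i ≡ 1 (mod 4); its (−1)-eigenspace is a hyperbolic 2i-space. -/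
theorem result {F : Type*} [Field F] [Fintype F] {q : ℕ} (hF : Fintype.card F = q) (hq : Odd q) {m : ℕ} (i : ℕ) (hi : 1 ≤ i) (him : i ≤ m) : (∃ g : ↥(Cfsg.isometryGroup F (Cfsg.quadFormOdd m F)), g ∈ Cfsg.Omega F (Cfsg.quadFormOdd m F) ∧ ((g : Matrix.GeneralLinearGroup (Unit ⊕ (Fin m ⊕ Fin m)) F) : Matrix (Unit ⊕ (Fin m ⊕ Fin m)) (Unit ⊕ (Fin m ⊕ Fin m)) F) = Matrix.diagonal (fun k : Unit ⊕ (Fin m ⊕ Fin m) => if (Sum.elim (fun _ : Unit => i) (Sum.elim (fun j : Fin m => (j : ℕ)) (fun j : Fin m => (j : ℕ))) k) < i then (-1 : F) else 1)) ↔ q ^ i % 4 = 1 := by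
  have h2 : (2 : F) ≠ 0 := two_ne_zero_of_odd_card hF hq
  have key := hyp_pairs_involution hF hq (oddQF m F) (oddQF_nondegenerate m F h2) i
    (fun j => Sum.inr (Sum.inl (Fin.castLE him j))) (fun j => Sum.inr (Sum.inr (Fin.castLE him j)))
    (by intro j; rw [oddQF_coe]; simp [Cfsg.quadFormOdd])
    (by intro j; rw [oddQF_coe]; simp [Cfsg.quadFormOdd])
    (by
      intro j k
      rw [oddQF_coe, polar_quadFormOdd]
      rcases k with k | k | k <;> simp [Pi.single_apply, eq_comm])
    (by
      intro j k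
      rw [oddQF_coe, polar_quadFormOdd]
      rcases k with k | k | k <;> simp [Pi.single_apply, eq_comm])
    (fun a b h => Fin.castLE_injective him (Sum.inl_injective (Sum.inr_injective h)))
    (fun a b h => Fin.castLE_injective him (Sum.inr_injective (Sum.inr_injective h)))
    (by intro j k; simp)
    (fun k : Unit ⊕ (Fin m ⊕ Fin m) => if (Sum.elim (fun _ : Unit => i) (Sum.elim (fun j : Fin m => (j : ℕ)) (fun j : Fin m => (j : ℕ))) k) < i then (-1 : F) else 1)
    (by
      intro k
      congr 1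
      rcases k with k | k | k
      · simp
      · simp only [Sum.elim_inr, Sum.elim_inl, Sum.inr.injEq, Sum.inl.injEq, reduceCtorEq, or_false,
          eq_iff_iff]
        constructor
        · intro h
          exact ⟨⟨k.1, h⟩, Fin.ext rfl⟩
        · rintro ⟨j, rfl⟩
          exact j.2
      · simp only [Sum.elim_inr, Sum.inr.injEq, reduceCtorEq, false_or, eq_iff_iff]
        constructor
        · intro h
          exact ⟨⟨k.1, h⟩, Fin.ext rfl⟩
        · rintro ⟨j, rfl⟩
          exact j.2)
  rw [oddQF_coe] at key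
  exact key

end Cfsg.Agent.S2614
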