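import Cfsg.Statements.S2615
import Cfsg.Agent.Lib.Helper49.HypPairs

set_option autoImplicit false
open Cfsg Cfsg.Agent.Lib.Helper49

namespace Cfsg.Agent.S2615

/-- For an elliptic form Σ_(j<m−1) x_j y_j + (z₁² + a z₁z₂ + b z₂²) (anisotropic binary part) on F^(2m), F finite with q elements, q odd, and 1 ≤ i ≤ m − 1: the involution negating the first i hyperbolic pairs and fixing the rest lies in Ω⁻_2m(q) (commutator subgroup of the orthogonal group) if and only if q^i ≡ 1 (mod 4). -/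
theorem result {F : Type*} [Field F] [Fintype F] {q : ℕ} (hF : Fintype.card F = q) (hq : Odd q) {m : ℕ} (a b : F) (hab : ∀ z₁ z₂ : F, z₁ ^ 2 + a * z₁ * z₂ + b * z₂ ^ 2 = 0 → z₁ = 0 ∧ z₂ = 0) (i : ℕ) (hi : 1 ≤ i) (him : i + 1 ≤ m) : (∃ g : ↥(Cfsg.isometryGroup F (Cfsg.quadFormMinus (m - 1) F a b)), g ∈ Cfsg.Omega F (Cfsg.quadFormMinus (m - 1) F a b) ∧ ((g : Matrix.GeneralLinearGroup ((Fin (m - 1) ⊕ Fin (m - 1)) ⊕ Fin 2) F) : Matrix ((Fin (m - 1) ⊕ Fin (m - 1)) ⊕ Fin 2) ((Fin (m - 1) ⊕ Fin (m - 1)) ⊕ Fin 2) F) = Matrix.diagonal (fun k : (Fin (m - 1) ⊕ Fin (m - 1)) ⊕ Fin 2 => if (Sum.elim (Sum.elim (fun j : Fin (m - 1) => (j : ℕ)) (fun j : Fin (m - 1) => (j : ℕ))) (fun _ : Fin 2 => i) k) < i then (-1 : F) else 1)) ↔ q ^ i % 4 = 1 := by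
  have h2 : (2 : F) ≠ 0 := two_ne_zero_of_odd_card hF hq
  have him' : i ≤ m - 1 := by omega
  have hdisc : 4 * b - a ^ 2 ≠ 0 := by
    intro h0
    have := hab (-a / 2) 1 (by
      field_simp
      linear_combination h0)
    exact one_ne_zero this.2
  have key := hyp_pairs_involution hF hq (minusQF (m - 1) F a b)
    (minusQF_nondegenerate (m - 1) F a b hdisc) i
    (fun j => Sum.inl (Sum.inl (Fin.castLE him' j))) (fun j => Sum.inl (Sum.inr (Fin.castLE him' j)))
    (by intro j; rw [minusQF_coe]; simp [Cfsg.quadFormMinus])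
    (by intro j; rw [minusQF_coe]; simp [Cfsg.quadFormMinus])
    (by
      intro j k
      rw [minusQF_coe, polar_quadFormMinus]
      rcases k with (k | k) | k <;> simp [Pi.single_apply, eq_comm])
    (by
      intro j k
      rw [minusQF_coe, polar_quadFormMinus]
      rcases k with (k | k) | k <;> simp [Pi.single_apply, eq_comm])
    (fun a b h => Fin.castLE_injective him' (Sum.inl_injective (Sum.inl_injective h)))
    (fun a b h => Fin.castLE_injective him' (Sum.inr_injective (Sum.inl_injective h)))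
    (by intro j k; simp)
    (fun k : (Fin (m - 1) ⊕ Fin (m - 1)) ⊕ Fin 2 => if (Sum.elim (Sum.elim (fun j : Fin (m - 1) => (j : ℕ)) (fun j : Fin (m - 1) => (j : ℕ))) (fun _ : Fin 2 => i) k) < i then (-1 : F) else 1)
    (by
      intro k
      congr 1
      rcases k with (k | k) | k
      · simp only [Sum.elim_inl, Sum.inl.injEq, reduceCtorEq, or_false, eq_iff_iff]
        constructor
        · intro h
          exact ⟨⟨k.1, h⟩, Fin.ext rfl⟩
        · rintro ⟨j, rfl⟩
          exact j.2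
      · simp only [Sum.elim_inl, Sum.elim_inr, Sum.inl.injEq, Sum.inr.injEq, reduceCtorEq, false_or,
          eq_iff_iff]
        constructor
        · intro h
          exact ⟨⟨k.1, h⟩, Fin.ext rfl⟩
        · rintro ⟨j, rfl⟩
          exact j.2
      · simp)
  rw [minusQF_coe] at key
  exact key

end Cfsg.Agent.S2615
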