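import Cfsg.Statements.S2616
import Cfsg.Agent.Lib.Helper50.QuadClass

set_option autoImplicit false
open Cfsg
open QuadraticMap Cfsg.Agent.Lib.Helper50 Cfsg.Agent.Lib.Helper50.Quad

namespace Cfsg.Agent.S2616

/-- Standard bases of a non-degenerate quadratic space of even dimension 2m over a finite field: either there is a hyperbolic basis e_i, f_i (Q(e_i) = Q(f_i) = 0, B(e_i, f_j) = δ_ij, the e's pairwise orthogonal and the f's pairwise orthogonal, B the polar form), or there is an elliptic basis: hyperbolic pairs e_i, f_i for i < m − 1 together with x, y orthogonal to them with Q(x) = 1, B(x, y) = 1, Q(y) = ζ where t² + t + ζ has no root in the field. -/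
theorem result {F V : Type*} [Field F] [Finite F] [AddCommGroup V] [Module F V] [FiniteDimensional F V] {m : ℕ} (hm : 1 ≤ m) (hV : Module.finrank F V = 2 * m) (Q : QuadraticForm F V) (hQ : (QuadraticMap.polarBilin Q).Nondegenerate) : (∃ b : Module.Basis (Fin m ⊕ Fin m) F V, (∀ i, Q (b (Sum.inl i)) = 0 ∧ Q (b (Sum.inr i)) = 0) ∧ (∀ i j, QuadraticMap.polar ⇑Q (b (Sum.inl i)) (b (Sum.inr j)) = if i = j then 1 else 0) ∧ (∀ i j, QuadraticMap.polar ⇑Q (b (Sum.inl i)) (b (Sum.inl j)) = 0 ∧ QuadraticMap.polar ⇑Q (b (Sum.inr i)) (b (Sum.inr j)) = 0)) ∨ (∃ (b : Module.Basis ((Fin (m - 1) ⊕ Fin (m - 1)) ⊕ Fin 2) F V) (ζ : F), (∀ t : F, t ^ 2 + t + ζ ≠ 0) ∧ (∀ i, Q (b (Sum.inl (Sum.inl i))) = 0 ∧ Q (b (Sum.inl (Sum.inr i))) = 0) ∧ (∀ i j, QuadraticMap.polar ⇑Q (b (Sum.inl (Sum.inl i))) (b (Sum.inl (Sum.inr j))) = if i = j then 1 else 0) ∧ (∀ i j, QuadraticMap.polar ⇑Q (b (Sum.inl (Sum.inl i))) (b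 (Sum.inl (Sum.inl j))) = 0 ∧ QuadraticMap.polar ⇑Q (b (Sum.inl (Sum.inr i))) (b (Sum.inl (Sum.inr j))) = 0) ∧ (∀ i (k : Fin 2), QuadraticMap.polar ⇑Q (b (Sum.inl (Sum.inl i))) (b (Sum.inr k)) = 0 ∧ QuadraticMap.polar ⇑Q (b (Sum.inl (Sum.inr i))) (b (Sum.inr k)) = 0) ∧ Q (b (Sum.inr 0)) = 1 ∧ QuadraticMap.polar ⇑Q (b (Sum.inr 0)) (b (Sum.inr 1)) = 1 ∧ Q (b (Sum.inr 1)) = ζ) := by
  have := Fintype.ofFinite F
  obtain ⟨d, rfl⟩ : ∃ d, m = d + 1 := ⟨m - 1, by omega⟩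
  have hc : Nat.card (⊤ : Submodule F V) = Fintype.card F ^ (2 * (d + 1)) := by rw [card_top_eq, hV]
  rcases exists_frame_even d ⊤ (nondeg_top hQ) hc with ⟨x, hx⟩ | ⟨ζ, x, hζ, hx⟩
  · left
    have hli := linInd_of_full _ _ _ x hx (fun c _ k => k.elim)
    have hli' : LinearIndependent F (Sum.elim x.1.1 x.1.2) := hli.comp Sum.inl Sum.inl_injective
    let b := basisOfLinearIndependentOfCardEqFinrank hli' (by rw [hV]; simp; ring)
    have hb : ∀ s, b s = Sum.elim x.1.1 x.1.2 s := fun s => by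
      simp only [b, coe_basisOfLinearIndependentOfCardEqFinrank]
    obtain ⟨-, ⟨hq1, hq2⟩, ⟨h3, h4, h5⟩, -, -⟩ := hx
    refine ⟨b, fun i => ⟨?_, ?_⟩, fun i j => ?_, fun i j => ⟨?_, ?_⟩⟩
    · rw [hb]; exact hq1 i
    · rw [hb]; exact hq2 i
    · rw [hb, hb]; exact h5 i j
    · rw [hb, hb]; exact h3 i j
    · rw [hb, hb]; exact h4 i j
  · right
    have hli := linInd_of_full _ _ _ x hx (tail_elliptic ζ hζ x.2 hx.2.2.2.2)
    let b := basisOfLinearIndependentOfCardEqFinrank hli (by rw [hV]; simp; ring)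
    have hb : ∀ s, b s = Sum.elim (Sum.elim x.1.1 x.1.2) x.2 s := fun s => by
      simp only [b, coe_basisOfLinearIndependentOfCardEqFinrank]
    obtain ⟨-, ⟨hq1, hq2⟩, ⟨h3, h4, h5⟩, ⟨h6, h7⟩, h8, h9, h10⟩ := hx
    refine ⟨b, ζ, hζ, fun i => ⟨?_, ?_⟩, fun i j => ?_, fun i j => ⟨?_, ?_⟩, fun i k => ⟨?_, ?_⟩, ?_, ?_, ?_⟩
    · rw [hb]; exact hq1 i
    · rw [hb]; exact hq2 i
    · rw [hb, hb]; exact h5 i j
    · rw [hb, hb]; exact h3 i j
    · rw [hb, hb]; exact h4 i j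
    · rw [hb, hb]; exact h6 i k
    · rw [hb, hb]; exact h7 i k
    · rw [hb]; exact h8
    · rw [hb, hb]; exact h9
    · rw [hb]; exact h10

end Cfsg.Agent.S2616
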