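import Cfsg.Statements.S2617
import Cfsg.Agent.S0288

set_option autoImplicit false
open Cfsg
open Cfsg.Agent.Lib.Helper50 Cfsg.Agent.Lib.Helper50.Quad

namespace Cfsg.Agent.S2617

theorem aniso_of_noroot {F : Type*} [Field F] (ζ : F) (hζ : ∀ t : F, t ^ 2 + t + ζ ≠ 0) :
    ∀ z₁ z₂ : F, z₁ ^ 2 + 1 * z₁ * z₂ + ζ * z₂ ^ 2 = 0 → z₁ = 0 ∧ z₂ = 0 := by
  intro z₁ z₂ h
  have h2 : z₂ = 0 := by
    by_contra hne
    apply hζ (z₁ / z₂)
    field_simp
    linear_combination h
  subst h2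
  refine ⟨?_, rfl⟩
  have : z₁ ^ 2 = 0 := by linear_combination h
  exact pow_eq_zero_iff two_ne_zero |>.1 this

theorem card_plus_zero {F : Type*} [Field F] [Fintype F] (m : ℕ) :
    Nat.card {v : Fin m ⊕ Fin m → F // Cfsg.quadFormPlus m F v = 0} =
      alpha (Fintype.card F) 1 (fun c : F => Nat.card {s : Unit // (0 : F) = c}) m 0 := by
  have h1 := card_level (fun _ : Unit => (0 : F)) m 0
  rw [Nat.card_unique (α := Unit)] at h1
  rw [← h1]
  apply Nat.card_congr
  let E : (Fin m ⊕ Fin m → F) ≃ (Fin m → F × F) × Unit :=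
    { toFun := fun w => (fun i => (w (.inl i), w (.inr i)), ())
      invFun := fun p => Sum.elim (fun i => (p.1 i).1) (fun i => (p.1 i).2)
      left_inv := fun w => by
        ext (i | i) <;> rfl
      right_inv := fun p => rfl }
  apply E.subtypeEquiv
  intro w
  simp only [Cfsg.quadFormPlus, add_zero]
  rfl

theorem card_minus_zero {F : Type*} [Field F] [Fintype F] (k : ℕ) (a b : F) :
    Nat.card {v : (Fin k ⊕ Fin k) ⊕ Fin 2 → F // Cfsg.quadFormMinus k F a b v = 0} =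
      alpha (Fintype.card F) (Fintype.card F ^ 2) (fun c : F => Nat.card {s : Fin 2 → F // S0288.T a b s = c}) k 0 := by
  have h1 := aC_Qgen k (S0288.T a b) 0
  rw [Fintype.card_fin] at h1
  rw [← h1, aC]
  apply Nat.card_congr
  apply Equiv.subtypeEquivRight
  intro v
  rw [Qgen_apply, S0288.T_apply]
  exact ⟨fun h => ⟨Submodule.mem_top, h⟩, fun h => h.2⟩

/-- The two standard quadratic forms of even dimension 2m over a finite field are not isometric: there is no linear isomorphism carrying the elliptic form Σ_(i<m−1) x_i y_i + z₁² + z₁z₂ + ζ z₂² (t² + t + ζ without roots) to the hyperbolic form Σ_(i<m) x_i y_i (they have different Witt index). -/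
theorem result {F : Type*} [Field F] [Finite F] {m : ℕ} (hm : 1 ≤ m) (ζ : F) (hζ : ∀ t : F, t ^ 2 + t + ζ ≠ 0) (g : (Fin m ⊕ Fin m → F) ≃ₗ[F] ((Fin (m - 1) ⊕ Fin (m - 1)) ⊕ Fin 2 → F)) : ¬ (∀ v : Fin m ⊕ Fin m → F, Cfsg.quadFormMinus (m - 1) F 1 ζ (g v) = Cfsg.quadFormPlus m F v) := by
  intro h
  have := Fintype.ofFinite F
  have hq : 1 < Fintype.card F := Fintype.one_lt_card
  obtain ⟨k, rfl⟩ : ∃ k, m = k + 1 := ⟨m - 1, by omega⟩
  have e : Nat.card {v : Fin (k + 1) ⊕ Fin (k + 1) → F // Cfsg.quadFormPlus (k + 1) F v = 0} =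
      Nat.card {v : (Fin (k + 1 - 1) ⊕ Fin (k + 1 - 1)) ⊕ Fin 2 → F // Cfsg.quadFormMinus (k + 1 - 1) F 1 ζ v = 0} :=
    Nat.card_congr (g.toEquiv.subtypeEquiv (fun v => by
      change _ ↔ Cfsg.quadFormMinus (k + 1 - 1) F 1 ζ (g v) = 0
      rw [h]))
  rw [card_plus_zero, card_minus_zero] at e
  simp only [Nat.add_sub_cancel] at e
  have h1 := alpha_plus_aux (Fintype.card F) hq.le (fun c : F => Nat.card {s : Unit // (0 : F) = c})
    (by simp) k
  have h2 := alpha_minus_aux (Fintype.card F) hq.le (fun c : F => Nat.card {s : Fin 2 → F // S0288.T 1 ζ s = c})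
    (S0288.card_T_zero 1 ζ (aniso_of_noroot ζ hζ)) k
  rw [e] at h1
  have h3 : Fintype.card F ^ k < Fintype.card F ^ (k + 1) := Nat.pow_lt_pow_right hq (by omega)
  omega

end Cfsg.Agent.S2617
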