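import Cfsg.Statements.S2618
import Cfsg.Agent.Lib.Helper50.QuadClass

set_option autoImplicit false
open Cfsg
open QuadraticMap Cfsg.Agent.Lib.Helper50 Cfsg.Agent.Lib.Helper50.Quad

namespace Cfsg.Agent.S2618

/-- Standard (parabolic) basis of a non-degenerate quadratic space of odd dimension 2m + 1 over a finite field (the non-degeneracy of the polar form forces the characteristic to be odd): there is a basis e_i, f_i (i < m), x with Q(e_i) = Q(f_i) = 0, B(e_i, f_j) = δ_ij (B the polar form), the e's pairwise orthogonal and the f's pairwise orthogonal, x orthogonal to all of them and Q(x) ≠ 0. -/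
theorem result {F V : Type*} [Field F] [Finite F] [AddCommGroup V] [Module F V] [FiniteDimensional F V] {m : ℕ} (hV : Module.finrank F V = 2 * m + 1) (Q : QuadraticForm F V) (hQ : (QuadraticMap.polarBilin Q).Nondegenerate) : ∃ b : Module.Basis (Unit ⊕ (Fin m ⊕ Fin m)) F V, Q (b (Sum.inl ())) ≠ 0 ∧ (∀ i, QuadraticMap.polar ⇑Q (b (Sum.inl ())) (b (Sum.inr (Sum.inl i))) = 0 ∧ QuadraticMap.polar ⇑Q (b (Sum.inl ())) (b (Sum.inr (Sum.inr i))) = 0) ∧ (∀ i, Q (b (Sum.inr (Sum.inl i))) = 0 ∧ Q (b (Sum.inr (Sum.inr i))) = 0) ∧ (∀ i j, QuadraticMap.polar ⇑Q (b (Sum.inr (Sum.inl i))) (b (Sum.inr (Sum.inr j))) = if i = j then 1 else 0) ∧ (∀ i j, QuadraticMap.polar ⇑Q (b (Sum.inr (Sum.inl i))) (b (Sum.inr (Sum.inl j))) = 0 ∧ QuadraticMap.polar ⇑Q (b (Sum.inr (Sum.inr i))) (b (Sum.inr (Sum.inr j))) = 0) := by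
  have := Fintype.ofFinite F
  have hc : Nat.card (⊤ : Submodule F V) = Fintype.card F ^ (2 * m + 1) := by rw [card_top_eq, hV]
  obtain ⟨x, hx⟩ := exists_frame_odd m ⊤ (nondeg_top hQ) hc
  have hli := linInd_of_full _ _ _ x hx (fun c h k => by
    have h1 := h ()
    simp only [Finset.univ_unique, Finset.sum_singleton] at h1
    exact (mul_eq_zero.1 h1).resolve_right hx.2.2.2.2)
  have hli' : LinearIndependent F (Sum.elim x.2 (Sum.elim x.1.1 x.1.2)) := by
    have := hli.comp (Equiv.sumComm Unit (Fin m ⊕ Fin m)) (Equiv.injective _)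
    convert this using 1
    ext s
    rcases s with u | s <;> rfl
  let b := basisOfLinearIndependentOfCardEqFinrank hli' (by rw [hV]; simp; ring)
  have hb : ∀ s, b s = Sum.elim x.2 (Sum.elim x.1.1 x.1.2) s := fun s => by
    simp only [b, coe_basisOfLinearIndependentOfCardEqFinrank]
  obtain ⟨-, ⟨hq1, hq2⟩, ⟨h3, h4, h5⟩, ⟨h6, h7⟩, h8⟩ := hx
  refine ⟨b, ?_, fun i => ⟨?_, ?_⟩, fun i => ⟨?_, ?_⟩, fun i j => ?_, fun i j => ⟨?_, ?_⟩⟩
  · rw [hb]
    intro h0
    apply h8
    rw [polar_self]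
    simp only [Sum.elim_inl] at h0
    rw [h0, smul_zero]
  · rw [hb, hb, polar_comm]; exact h6 i ()
  · rw [hb, hb, polar_comm]; exact h7 i ()
  · rw [hb]; exact hq1 i
  · rw [hb]; exact hq2 i
  · rw [hb, hb]; exact h5 i j
  · rw [hb, hb]; exact h3 i j
  · rw [hb, hb]; exact h4 i j

end Cfsg.Agent.S2618
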