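import Cfsg.Statements.S2619
import Cfsg.Agent.Lib.Helper50.QuadStd

set_option autoImplicit false
open Cfsg
open QuadraticMap Cfsg.Agent.Lib.Helper50 Cfsg.Agent.Lib.Helper50.Quad

namespace Cfsg.Agent.S2619

/-- Over a finite field of characteristic two, given an alternating bilinear form B on a finite-dimensional space, a basis (v_i) and scalars (λ_i), there is exactly one quadratic form whose polar form is B and whose value at each v_i is λ_i. -/
theorem result {F V ι : Type*} [Field F] [Finite F] [CharP F 2] [AddCommGroup V] [Module F V] [Fintype ι] (b : Module.Basis ι F V) (B : LinearMap.BilinForm F V) (hB : B.IsAlt) (c : ι → F) : ∃! Q : QuadraticForm F V, QuadraticMap.polarBilin Q = B ∧ ∀ i, Q (b i) = c i := by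
  classical
  let e : ι ≃ Fin (Fintype.card ι) := Fintype.equivFin ι
  let M : Matrix ι ι F := Matrix.of fun i j => if e i < e j then B (b i) (b j) else if i = j then c i else 0
  let A : LinearMap.BilinForm F V := Matrix.toBilin b M
  have hA : ∀ i j, A (b i) (b j) = M i j := by
    intro i j
    rw [← LinearMap.BilinForm.toMatrix_apply b A, LinearMap.BilinForm.toMatrix_toBilin]
  refine ⟨LinearMap.BilinMap.toQuadraticMap A, ⟨?_, ?_⟩, ?_⟩
  · rw [LinearMap.BilinMap.polarBilin_toQuadraticMap]
    apply LinearMap.BilinForm.ext_basis b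
    intro i j
    rw [LinearMap.add_apply, LinearMap.add_apply, LinearMap.flip_apply, hA, hA]
    simp only [M, Matrix.of_apply]
    rcases lt_trichotomy (e i) (e j) with h | h | h
    · have h1 : ¬ e j < e i := not_lt.2 h.le
      have h2 : j ≠ i := fun h3 => by rw [h3] at h; exact lt_irrefl _ h
      rw [if_pos h, if_neg h1, if_neg h2, add_zero]
    · have h1 : i = j := e.injective h
      subst h1
      rw [if_neg (lt_irrefl _), if_pos rfl, hB]
      linear_combination (c i) * (CharTwo.two_eq_zero (R := F))
    · have h1 : ¬ e i < e j := not_lt.2 h.le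
      have h2 : i ≠ j := fun h3 => by rw [h3] at h; exact lt_irrefl _ h
      rw [if_pos h, if_neg h1, if_neg h2, zero_add, ← hB.neg_eq, CharTwo.neg_eq]
  · intro i
    rw [LinearMap.BilinMap.toQuadraticMap_apply, hA]
    simp [M]
  · rintro Q' ⟨hQ1, hQ2⟩
    have hpol : ∀ (Q'' : QuadraticForm F V), QuadraticMap.polarBilin Q'' = B → ∀ u v, polar Q'' u v = B u v := by
      intro Q'' h u v
      rw [← h]; rfl
    have hAB : QuadraticMap.polarBilin (LinearMap.BilinMap.toQuadraticMap A) = B := by
      rw [LinearMap.BilinMap.polarBilin_toQuadraticMap]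
      apply LinearMap.BilinForm.ext_basis b
      intro i j
      rw [LinearMap.add_apply, LinearMap.add_apply, LinearMap.flip_apply, hA, hA]
      simp only [M, Matrix.of_apply]
      rcases lt_trichotomy (e i) (e j) with h | h | h
      · have h1 : ¬ e j < e i := not_lt.2 h.le
        have h2 : j ≠ i := fun h3 => by rw [h3] at h; exact lt_irrefl _ h
        rw [if_pos h, if_neg h1, if_neg h2, add_zero]
      · have h1 : i = j := e.injective h
        subst h1
        rw [if_neg (lt_irrefl _), if_pos rfl, hB]
        linear_combination (c i) * (CharTwo.two_eq_zero (R := F))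
      · have h1 : ¬ e i < e j := not_lt.2 h.le
        have h2 : i ≠ j := fun h3 => by rw [h3] at h; exact lt_irrefl _ h
        rw [if_pos h, if_neg h1, if_neg h2, zero_add, ← hB.neg_eq, CharTwo.neg_eq]
    ext v
    rw [← b.sum_repr v]
    apply map_sum_eq
    · intro s
      rw [hQ2, LinearMap.BilinMap.toQuadraticMap_apply, hA]
      simp [M]
    · intro s t
      rw [hpol Q' hQ1, hpol _ hAB]

end Cfsg.Agent.S2619
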