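import Cfsg.Statements.S2622
import Cfsg.Agent.Lib.Helper50.HermCount
import Cfsg.Agent.Lib.Helper50.QuadClass

set_option autoImplicit false
open Cfsg
open Cfsg.Agent.Lib.Helper50 Cfsg.Agent.Lib.Helper50.Herm

namespace Cfsg.Agent.S2622

section
variable {F V : Type*} [Field F] [Fintype F] [CharP F 2] [AddCommGroup V] [Module F V]
  (B : LinearMap.BilinForm F V)

omit [CharP F 2] in
theorem isHerm_of_symm (hS : ∀ u v, B u v = B v u) : IsHerm (Fintype.card F) (fun u v => B u v) where
  add_left u u' v := by simp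
  smul_left c u v := by simp
  add_right u v v' := by simp
  smul_right c u v := by simp [FiniteField.pow_card]
  symm u v := by rw [FiniteField.pow_card]; exact hS v u

/-- non-degeneracy on a subspace -/
def ND (W : Submodule F V) : Prop := ∀ w ∈ W, w ≠ 0 → ∃ u ∈ W, B w u ≠ 0

variable {B}

omit [CharP F 2] in
theorem nd_perp (hS : ∀ u v, B u v = B v u) (W : Submodule F V) (hW : ND B W) (v : V) (hv : v ∈ W)
    (hvv : B v v = 1) : ND B (perp (isHerm_of_symm B hS) W v) := by
  intro w hw hw0
  obtain ⟨u, hu, hwu⟩ := hW w hw.1 hw0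
  have hwv : B w v = 0 := hw.2
  refine ⟨u - B u v • v, ⟨W.sub_mem hu (W.smul_mem _ hv), ?_⟩, ?_⟩
  · change B (u - B u v • v) v = 0
    simp [hvv]
  · simp [hwv, hwu]

omit [CharP F 2] in
theorem card_perp (hS : ∀ u v, B u v = B v u) (W : Submodule F V) (v : V) (hv : v ∈ W)
    (hvv : B v v = 1) (n : ℕ) (hc : Nat.card W = Fintype.card F ^ (n + 1)) :
    Nat.card (perp (isHerm_of_symm B hS) W v) = Fintype.card F ^ n := by
  have h3 := Nat.card_congr (splitEquiv (isHerm_of_symm B hS) W v hv hvv)
  rw [Nat.card_prod, hc, Nat.card_eq_fintype_card, pow_succ'] at h3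
  exact (Nat.eq_of_mul_eq_mul_left Fintype.card_pos h3).symm

theorem exists_unit (W : Submodule F V) (h : ∃ v ∈ W, B v v ≠ 0) : ∃ v ∈ W, B v v = 1 := by
  obtain ⟨v₀, hv₀, hne⟩ := h
  obtain ⟨s, hs⟩ := FiniteField.isSquare_of_char_two (ringChar.eq F 2) (B v₀ v₀)
  have hs0 : s ≠ 0 := by
    rintro rfl
    simp at hs
    exact hne hs
  refine ⟨s⁻¹ • v₀, W.smul_mem _ hv₀, ?_⟩
  simp only [map_smul, LinearMap.smul_apply, smul_eq_mul, hs]
  field_simp

theorem exists_orthonormal (hS : ∀ u v, B u v = B v u) (n : ℕ) : ∀ W : Submodule F V, ND B W →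
    (1 ≤ n → ∃ v ∈ W, B v v ≠ 0) → Nat.card W = Fintype.card F ^ n →
    ∃ x : Fin n → V, IsFr (fun u v => B u v) n W x := by
  have hq : 1 < Fintype.card F := Fintype.one_lt_card
  have hq0 : Fintype.card F ≠ 0 := by omega
  induction n with
  | zero =>
    intro W _ _ _
    exact ⟨Fin.elim0, fun i => i.elim0, fun i => i.elim0⟩
  | succ n ih =>
    intro W hW hna hc
    obtain ⟨v, hv, hvv⟩ := exists_unit W (hna (by omega))
    -- a good unit vector
    obtain ⟨v', hv', hvv', hgood⟩ : ∃ v' ∈ W, B v' v' = 1 ∧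
        (1 ≤ n → ∃ u ∈ perp (isHerm_of_symm B hS) W v', B u u ≠ 0) := by
      by_cases hcase : 1 ≤ n → ∃ u ∈ perp (isHerm_of_symm B hS) W v, B u u ≠ 0
      · exact ⟨v, hv, hvv, hcase⟩
      · push Not at hcase
        obtain ⟨hn, halt⟩ := hcase
        have hc' := card_perp hS W v hv hvv n hc
        have hnd := nd_perp hS W hW v hv hvv
        obtain ⟨e, he, he0⟩ := Quad.exists_ne_zero (perp (isHerm_of_symm B hS) W v) (by
          rw [hc']
          exact Nat.one_lt_pow (by omega) hq)
        obtain ⟨f₀, hf₀, hef₀⟩ := hnd e he he0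
        have hf : (B e f₀)⁻¹ • f₀ ∈ perp (isHerm_of_symm B hS) W v := Submodule.smul_mem _ _ hf₀
        set f := (B e f₀)⁻¹ • f₀ with hfdef
        have hef : B e f = 1 := by
          rw [hfdef]
          simp [hef₀]
        have hev : B e v = 0 := he.2
        have hfv : B f v = 0 := hf.2
        have hee : B e e = 0 := halt e he
        have hff : B f f = 0 := halt f hf
        have two : (1 : F) + 1 = 0 := by
          have := CharTwo.two_eq_zero (R := F)
          linear_combination this
        refine ⟨v + e, W.add_mem hv he.1, ?_, fun _ => ⟨v + f, ⟨W.add_mem hv hf.1, ?_⟩, ?_⟩⟩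
        · simp only [map_add, LinearMap.add_apply, hvv, hee, hev, hS v e]
          ring
        · change B (v + f) (v + e) = 0
          simp only [map_add, LinearMap.add_apply, hvv, hev, hfv, hS v e, hS f e, hef]
          linear_combination two
        · simp only [map_add, LinearMap.add_apply, hvv, hff, hfv, hS v f]
          simp
    obtain ⟨x, hx⟩ := ih _ (nd_perp hS W hW v' hv' hvv') hgood (card_perp hS W v' hv' hvv' n hc)
    exact ⟨Fin.cons v' x, (isFr_cons (isHerm_of_symm B hS) hq0 n W v' x).2 ⟨⟨hv', hvv'⟩, hx⟩⟩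

end

/-- Over a finite field of characteristic two, a non-degenerate symmetric bilinear form that is not alternating (some vector v has B(v, v) ≠ 0) admits an orthonormal basis. -/
theorem result {F V : Type*} [Field F] [Finite F] [CharP F 2] [AddCommGroup V] [Module F V] [FiniteDimensional F V] {n : ℕ} (hV : Module.finrank F V = n) (B : LinearMap.BilinForm F V) (hS : B.IsSymm) (hB : B.Nondegenerate) (hna : ∃ v : V, B v v ≠ 0) : ∃ b : Module.Basis (Fin n) F V, ∀ i j, B (b i) (b j) = if i = j then 1 else 0 := by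
  classical
  have := Fintype.ofFinite F
  have hS' : ∀ u v, B u v = B v u := fun u v => hS.eq u v
  have hnd : ND B ⊤ := by
    intro w _ hw
    by_contra hcon
    push Not at hcon
    exact hw (hB.1 w (fun y => hcon y Submodule.mem_top))
  obtain ⟨v, hv⟩ := hna
  obtain ⟨x, -, hx⟩ := exists_orthonormal hS' n ⊤ hnd (fun _ => ⟨v, Submodule.mem_top, hv⟩)
    (by rw [Quad.card_top_eq, hV])
  have hli : LinearIndependent F x := by
    rw [Fintype.linearIndependent_iff]
    intro g hg j
    have h1 : B (∑ i, g i • x i) (x j) = 0 := by rw [hg]; simp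
    rw [map_sum, LinearMap.sum_apply] at h1
    simp only [map_smul, LinearMap.smul_apply, smul_eq_mul, hx, mul_ite, mul_one, mul_zero, Finset.sum_ite_eq',
      Finset.mem_univ, if_true] at h1
    exact h1
  rcases Nat.eq_zero_or_pos n with rfl | hn
  · have : Subsingleton V := Module.finrank_zero_iff.1 hV
    exact ⟨Module.Basis.empty V, fun i => i.elim0⟩
  · have : Nonempty (Fin n) := ⟨⟨0, hn⟩⟩
    refine ⟨basisOfLinearIndependentOfCardEqFinrank hli (by rw [hV]; simp), fun i j => ?_⟩
    rw [coe_basisOfLinearIndependentOfCardEqFinrank]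
    exact hx i j

end Cfsg.Agent.S2622
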