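import Cfsg.Statements.S2623
import Cfsg.Agent.Lib.Helper50.QuadDisc

set_option autoImplicit false
open Cfsg
open QuadraticMap Cfsg.Agent.Lib.Helper50 Cfsg.Agent.Lib.Helper50.Quad

namespace Cfsg.Agent.S2623

variable {F : Type*} [Field F]

/-- the unary form `c x²` -/
noncomputable def T1 (c : F) : QuadraticForm F (Unit → F) :=
  c • QuadraticMap.linMulLin (LinearMap.proj ()) (LinearMap.proj ())

theorem T1_apply (c : F) (s : Unit → F) : T1 c s = c * (s () * s ()) := rfl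

theorem T1_single (c : F) (k : Unit) : T1 c (Pi.single k 1) = c := by
  rw [T1_apply]; simp

theorem T1_nondeg (c : F) (hc : 2 * c ≠ 0) : Nondeg (T1 c) ⊤ := by
  intro w _ hw
  refine ⟨w, Submodule.mem_top, ?_⟩
  rw [polar_self, T1_apply]
  have h1 : w () ≠ 0 := fun h => hw (by ext u; exact h)
  have h2 : (2 : ℕ) • (c * (w () * w ())) = (2 * c) * (w () * w ()) := by
    rw [nsmul_eq_mul]; push_cast; ring
  rw [h2]
  exact mul_ne_zero hc (mul_ne_zero h1 h1)

theorem Tl_T1 {V : Type*} [AddCommGroup V] [Module F V] (Q : QuadraticForm F V) (c : F) (t : Unit → V)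
    (h : Q (t ()) = c) : Tl Q (T1 c) t :=
  ⟨fun _ => by rw [T1_single]; exact h, fun _ _ => by
    change polar Q (t ()) (t ()) = polar (T1 c) (Pi.single () 1) (Pi.single () 1)
    rw [polar_self, polar_self, T1_single, h]⟩

theorem det_gram_T1 (c : F) : (gram (T1 c)).det = 2 * c := by
  rw [Matrix.det_unique]
  simp only [gram, Matrix.of_apply]
  rw [polar_self, T1_single, nsmul_eq_mul]
  push_cast
  ring

theorem det_gram_T2 (α β γ : F) : (gram (T2 α β γ)).det = 4 * α * γ - β ^ 2 := by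
  rw [Matrix.det_fin_two]
  simp only [gram, Matrix.of_apply, T2_polar]
  simp
  ring

theorem det_gram_T0 : (gram (T0 F)).det = 1 := Matrix.det_isEmpty

/-- Over a finite field of odd order, two quadratic forms on F^n with non-degenerate polar forms are isometric (related by an invertible linear change of variables) if and only if their discriminants (determinants of the Gram matrices of their polar forms) lie in the same square class. -/
theorem result {F : Type*} [Field F] [Fintype F] (h2 : (2 : F) ≠ 0) {n : ℕ} (Q₁ Q₂ : QuadraticForm F (Fin n → F)) (h₁ : (QuadraticMap.polarBilin Q₁).Nondegenerate) (h₂ : (QuadraticMap.polarBilin Q₂).Nondegenerate) : (∃ g : (Fin n → F) ≃ₗ[F] (Fin n → F), ∀ v, Q₂ (g v) = Q₁ v) ↔ IsSquare ((Matrix.of (fun i j : Fin n => QuadraticMap.polar ⇑Q₁ (Pi.single i 1) (Pi.single j 1))).det * (Matrix.of (fun i j : Fin n => QuadraticMap.polar ⇑Q₂ (Pi.single i 1) (Pi.single j 1))).det) := by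
  change _ ↔ IsSquare ((gram Q₁).det * (gram Q₂).det)
  constructor
  · rintro ⟨g, hg⟩
    rw [det_gram_comp Q₁ Q₂ g.toLinearMap hg (Equiv.refl _)]
    exact ⟨((LinearMap.toMatrix' g.toLinearMap).submatrix (Equiv.refl _) id).det * (gram Q₂).det, by ring⟩
  · intro hsq
    have hN₁ := nondeg_top h₁
    have hN₂ := nondeg_top h₂
    rcases Nat.even_or_odd' n with ⟨k, rfl | rfl⟩
    · rcases Nat.eq_zero_or_pos k with rfl | hk
      · refine ⟨LinearEquiv.refl _ _, fun v => ?_⟩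
        have : v = 0 := by
          ext i; exact absurd i.2 (by simp)
        rw [this]; simp
      · obtain ⟨d, rfl⟩ : ∃ d, k = d + 1 := ⟨k - 1, by omega⟩
        have hfin : Module.finrank F (Fin (2 * (d + 1)) → F) = 2 * (d + 1) := Module.finrank_fin_fun F
        obtain ⟨ζ, hζ⟩ := exists_noroot (F := F)
        have hab := aniso_of_noroot' ζ hζ
        have hbad : ¬ IsSquare (1 - 4 * ζ) := by
          rintro ⟨s, hs⟩
          apply hζ ((s - 1) / 2)
          field_simp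
          linear_combination -hs
        rcases classify_even 1 ζ hab d hfin hN₁ with ⟨g, hg⟩ | ⟨g, hg⟩ <;>
        rcases classify_even 1 ζ hab d hfin hN₂ with ⟨g', hg'⟩ | ⟨g', hg'⟩
        · exact ⟨g.trans g'.symm, fun v => by rw [← hg', ← hg]; simp⟩
        · exfalso
          obtain ⟨p, hp, e⟩ := disc_eq Q₁ h₁ _ _ g hg
          obtain ⟨p', hp', e'⟩ := disc_eq Q₂ h₂ _ _ g' hg'
          rw [e, e', det_gram_T0, det_gram_T2] at hsq
          apply hbad
          apply isSquare_of_sq_mul (p * p' * (-1) ^ d) _ (mul_ne_zero (mul_ne_zero hp hp') (by simp))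
          convert hsq using 1
          ring
        · exfalso
          obtain ⟨p, hp, e⟩ := disc_eq Q₁ h₁ _ _ g hg
          obtain ⟨p', hp', e'⟩ := disc_eq Q₂ h₂ _ _ g' hg'
          rw [e, e', det_gram_T0, det_gram_T2] at hsq
          apply hbad
          apply isSquare_of_sq_mul (p * p' * (-1) ^ d) _ (mul_ne_zero (mul_ne_zero hp hp') (by simp))
          convert hsq using 1
          ring
        · exact ⟨g.trans g'.symm, fun v => by rw [← hg', ← hg]; simp⟩
    · have hfin : Module.finrank F (Fin (2 * k + 1) → F) = 2 * k + 1 := Module.finrank_fin_fun F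
      have hc : Nat.card (⊤ : Submodule F (Fin (2 * k + 1) → F)) = Fintype.card F ^ (2 * k + 1) := by
        rw [card_top_eq, hfin]
      obtain ⟨x₁, hx₁⟩ := exists_frame_odd k ⊤ hN₁ hc
      obtain ⟨x₂, hx₂⟩ := exists_frame_odd k ⊤ hN₂ hc
      have hc₁ : 2 * Q₁ (x₁.2 ()) ≠ 0 := by
        have : polar Q₁ (x₁.2 ()) (x₁.2 ()) ≠ 0 := hx₁.2.2.2.2
        rw [polar_self, nsmul_eq_mul] at this
        exact_mod_cast this
      have hc₂ : 2 * Q₂ (x₂.2 ()) ≠ 0 := by
        have : polar Q₂ (x₂.2 ()) (x₂.2 ()) ≠ 0 := hx₂.2.2.2.2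
        rw [polar_self, nsmul_eq_mul] at this
        exact_mod_cast this
      set c₁ := Q₁ (x₁.2 ()) with hc₁def
      set c₂ := Q₂ (x₂.2 ()) with hc₂def
      have hx₁' : IsFull Q₁ (Tl Q₁ (T1 c₁)) k ⊤ x₁ :=
        ⟨hx₁.1, hx₁.2.1, hx₁.2.2.1, hx₁.2.2.2.1, Tl_T1 Q₁ c₁ x₁.2 rfl⟩
      have hx₂' : IsFull Q₂ (Tl Q₂ (T1 c₂)) k ⊤ x₂ :=
        ⟨hx₂.1, hx₂.2.1, hx₂.2.2.1, hx₂.2.2.2.1, Tl_T1 Q₂ c₂ x₂.2 rfl⟩
      obtain ⟨g₁, hg₁⟩ := iso_of_full (T1 c₁) (T1_nondeg c₁ hc₁) k ⊤ x₁ hx₁' (by rw [hfin]; simp)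
      obtain ⟨g₂, hg₂⟩ := iso_of_full (T1 c₂) (T1_nondeg c₂ hc₂) k ⊤ x₂ hx₂' (by rw [hfin]; simp)
      obtain ⟨p, hp, e⟩ := disc_eq Q₁ h₁ _ _ g₁ hg₁
      obtain ⟨p', hp', e'⟩ := disc_eq Q₂ h₂ _ _ g₂ hg₂
      rw [e, e', det_gram_T1, det_gram_T1] at hsq
      have hsq' : IsSquare (c₁ * c₂) := by
        apply isSquare_of_sq_mul (p * p' * (-1) ^ k * 2) _
          (mul_ne_zero (mul_ne_zero (mul_ne_zero hp hp') (by simp)) h2)
        convert hsq using 1
        ring
      obtain ⟨s, hs⟩ := hsq'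
      have hc₂0 : c₂ ≠ 0 := fun h => hc₂ (by rw [h, mul_zero])
      have hx₂'' : IsFull Q₂ (Tl Q₂ (T1 c₁)) k ⊤ (x₂.1, fun _ => (s / c₂) • x₂.2 ()) := by
        refine ⟨⟨hx₂.1.1, hx₂.1.2.1, fun _ => Submodule.mem_top⟩, hx₂.2.1, hx₂.2.2.1,
          ⟨fun i _ => ?_, fun i _ => ?_⟩, Tl_T1 Q₂ c₁ _ ?_⟩
        · simp only
          rw [polar_smul_right, hx₂.2.2.2.1.1 i (), smul_zero]
        · simp only
          rw [polar_smul_right, hx₂.2.2.2.1.2 i (), smul_zero]
        · simp only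
          rw [QuadraticMap.map_smul, ← hc₂def, smul_eq_mul]
          field_simp
          linear_combination -hs
      obtain ⟨g₂', hg₂'⟩ := iso_of_full (T1 c₁) (T1_nondeg c₁ hc₁) k ⊤ _ hx₂'' (by rw [hfin]; simp)
      exact ⟨g₁.trans g₂'.symm, fun v => by rw [← hg₂', ← hg₁]; simp⟩

end Cfsg.Agent.S2623
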