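import Cfsg.Statements.S2624
import Cfsg.Agent.Lib.Helper50.QuadIso

set_option autoImplicit false
open Cfsg
open QuadraticMap Cfsg.Agent.Lib.Helper50 Cfsg.Agent.Lib.Helper50.Quad

namespace Cfsg.Agent.S2624

/-- For a quadratic form Q on F^n with non-degenerate polar form, F finite and n ≥ 2 even, every non-zero scalar c is the multiplier of some similarity: there is an invertible linear map g with Q(g v) = c·Q(v) for all v. -/
theorem result {F : Type*} [Field F] [Fintype F] {n : ℕ} (hn : 2 ≤ n) (he : Even n) (Q : QuadraticForm F (Fin n → F)) (hQ : (QuadraticMap.polarBilin Q).Nondegenerate) (c : F) (hc : c ≠ 0) : ∃ g : (Fin n → F) ≃ₗ[F] (Fin n → F), ∀ v, Q (g v) = c * Q v := by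
  obtain ⟨k, hk⟩ := he
  obtain ⟨d, rfl⟩ : ∃ d, k = d + 1 := ⟨k - 1, by omega⟩
  have hfin : Module.finrank F (Fin n → F) = 2 * (d + 1) := by rw [Module.finrank_fin_fun, hk]; ring
  have hQ' := nondeg_top hQ
  have hpol : ∀ u v, polar (c • Q) u v = c * polar Q u v := by
    intro u v
    simp only [polar, _root_.smul_apply, smul_eq_mul]
    ring
  have hcQ : Nondeg (c • Q) ⊤ := by
    intro w hw hw0
    obtain ⟨w', hw', h⟩ := hQ' w hw hw0
    exact ⟨w', hw', by rw [hpol]; exact mul_ne_zero hc h⟩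
  obtain ⟨g, hg⟩ := iso_of_card_sing (Q := c • Q) (Q' := Q) d hfin hfin hcQ hQ'
    (Nat.card_congr (Equiv.subtypeEquivRight (fun v => by
      simp only [_root_.smul_apply, smul_eq_mul, mul_eq_zero, hc, false_or])))
  exact ⟨g, fun v => by rw [hg]; rfl⟩

end Cfsg.Agent.S2624
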