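import Cfsg.Statements.S2625
import Cfsg.Agent.Lib.Helper49.Gram

set_option autoImplicit false
open Cfsg

namespace Cfsg.Agent.S2625

/-- For a quadratic form Q on F^n with non-degenerate polar form, F finite and n odd (so |F| is odd), the multiplier of any similarity is a square: if g is an invertible linear map with Q(g v) = c·Q(v) for all v then c is a square. -/
theorem result {F : Type*} [Field F] [Fintype F] {n : ℕ} (hn : Odd n) (Q : QuadraticForm F (Fin n → F)) (hQ : (QuadraticMap.polarBilin Q).Nondegenerate) (g : (Fin n → F) ≃ₗ[F] (Fin n → F)) (c : F) (hg : ∀ v, Q (g v) = c * Q v) : IsSquare c := by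
  classical
  by_cases hc : c = 0
  · exact ⟨0, by simp [hc]⟩
  have hpol : ∀ u v, QuadraticMap.polar ⇑Q (g u) (g v) = c * QuadraticMap.polar ⇑Q u v := by
    intro u v
    simp only [QuadraticMap.polar, ← map_add, hg]
    ring
  obtain ⟨d, hd, h⟩ := Cfsg.Agent.Lib.Helper49.gram_det_basis_change (QuadraticMap.polarBilin Q)
    (Pi.basisFun F (Fin n)) ((Pi.basisFun F (Fin n)).map g)
  have h1 : LinearMap.BilinForm.toMatrix ((Pi.basisFun F (Fin n)).map g) (QuadraticMap.polarBilin Q)
      = c • LinearMap.BilinForm.toMatrix (Pi.basisFun F (Fin n)) (QuadraticMap.polarBilin Q) := by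
    ext i j
    simp [LinearMap.BilinForm.toMatrix_apply, hpol]
  rw [h1, Matrix.det_smul, Fintype.card_fin] at h
  have hdet : (LinearMap.BilinForm.toMatrix (Pi.basisFun F (Fin n))
      (QuadraticMap.polarBilin Q)).det ≠ 0 :=
    (LinearMap.BilinForm.nondegenerate_iff_det_ne_zero _).1 hQ
  have h2 : c ^ n = d ^ 2 := mul_right_cancel₀ hdet h
  obtain ⟨k, rfl⟩ := hn
  refine ⟨d / c ^ k, ?_⟩
  have hck : c ^ k ≠ 0 := pow_ne_zero _ hc
  field_simp
  rw [← h2]
  ring

end Cfsg.Agent.S2625
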