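import Cfsg.Statements.S2629
import Cfsg.Agent.Lib.Helper49.PlusParity

set_option autoImplicit false
open Cfsg Cfsg.Agent.Lib.Helper49

namespace Cfsg.Agent.S2629

/-- For the hyperbolic form Σ x_i y_i on F^(2m) over a finite field of odd order (m ≥ 1), an isometry g preserves the class of the maximal totally singular subspace U₀ = {y = 0} (that is, m − dim(U₀ ∩ gU₀) is even) if and only if det g = 1: the stabiliser of each of the two classes of maximal totally singular subspaces is SO. -/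
theorem result {F : Type*} [Field F] [Fintype F] (h2 : (2 : F) ≠ 0) {m : ℕ} (hm : 1 ≤ m) (g : ↥(Cfsg.isometryGroup F (Cfsg.quadFormPlus m F))) : Even (m - Module.finrank F ↥(LinearMap.ker (LinearMap.funLeft F F (Sum.inr : Fin m → Fin m ⊕ Fin m)) ⊓ (LinearMap.ker (LinearMap.funLeft F F (Sum.inr : Fin m → Fin m ⊕ Fin m))).map (Matrix.mulVecLin ((g : Matrix.GeneralLinearGroup (Fin m ⊕ Fin m) F) : Matrix (Fin m ⊕ Fin m) (Fin m ⊕ Fin m) F)))) ↔ ((g : Matrix.GeneralLinearGroup (Fin m ⊕ Fin m) F) : Matrix (Fin m ⊕ Fin m) (Fin m ⊕ Fin m) F).det = 1 := by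
  have key : ∀ g : ↥(Cfsg.isometryGroup F ⇑(plusQF m F)),
      Even (m - Module.finrank F ↥(stdLagr m F ⊓ (stdLagr m F).map (Matrix.mulVecLin
        ((g : Matrix.GeneralLinearGroup (Fin m ⊕ Fin m) F) :
          Matrix (Fin m ⊕ Fin m) (Fin m ⊕ Fin m) F)))) ↔
      ((g : Matrix.GeneralLinearGroup (Fin m ⊕ Fin m) F) :
          Matrix (Fin m ⊕ Fin m) (Fin m ⊕ Fin m) F).det = 1 := by
    intro g
    obtain ⟨vs, hvs, hg⟩ := exists_reflProd_eq (plusQF m F) h2 (plusQF_nondegenerate m F)
      (isoEquiv (plusQF m F) g)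
    rw [plus_parity g vs hvs hg, det_of_isoEquiv_eq_reflProd (plusQF m F) g vs hvs hg]
    have hne : (-1 : F) ≠ 1 := by
      intro h
      apply h2
      linear_combination -h
    exact (neg_one_pow_eq_one_iff_even hne).symm
  rw [plusQF_coe] at key
  exact key g

end Cfsg.Agent.S2629
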