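import Cfsg.Statements.S2631
import Cfsg.Agent.Lib.Helper49.PlusParity
import Cfsg.Agent.Lib.Helper49.WittUse

set_option autoImplicit false
open Cfsg Cfsg.Agent.Lib.Helper49

namespace Cfsg.Agent.S2631

/-- For the hyperbolic form Σ x_i y_i on F^(2m) over a finite field (m ≥ 1, excluding m = 2 over the field of two elements), Ω (the commutator subgroup of the orthogonal group) acts transitively on each of the two classes of maximal totally singular subspaces: if U and W are m-dimensional totally singular subspaces with m − dim(U ∩ W) even, some element of Ω carries U to W. -/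
theorem result {F : Type*} [Field F] [Fintype F] {m : ℕ} (hm : 1 ≤ m) (h : Fintype.card F ≠ 2 ∨ m ≠ 2) (U W : Submodule F (Fin m ⊕ Fin m → F)) (hU : Module.finrank F U = m) (hW : Module.finrank F W = m) (hU0 : ∀ u ∈ U, Cfsg.quadFormPlus m F u = 0) (hW0 : ∀ w ∈ W, Cfsg.quadFormPlus m F w = 0) (he : Even (m - Module.finrank F ↥(U ⊓ W))) : ∃ g : ↥(Cfsg.isometryGroup F (Cfsg.quadFormPlus m F)), g ∈ Cfsg.Omega F (Cfsg.quadFormPlus m F) ∧ U.map (Matrix.mulVecLin ((g : Matrix.GeneralLinearGroup (Fin m ⊕ Fin m) F) : Matrix (Fin m ⊕ Fin m) (Fin m ⊕ Fin m) F)) = W := by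
  have key : ∃ g : ↥(Cfsg.isometryGroup F ⇑(plusQF m F)), g ∈ Cfsg.Omega F ⇑(plusQF m F) ∧
      U.map (Matrix.mulVecLin ((g : Matrix.GeneralLinearGroup (Fin m ⊕ Fin m) F) :
        Matrix (Fin m ⊕ Fin m) (Fin m ⊕ Fin m) F)) = W := by
    have hUL := isLagr_plus hU hU0
    have hWL := isLagr_plus hW hW0
    have hle : Module.finrank F ↥(U ⊓ W) ≤ m := (Submodule.finrank_mono inf_le_left).trans hU.le
    obtain ⟨vs, hvs, hlen, hmap⟩ := hWL.exists_reflProd_map (m - Module.finrank F ↥(U ⊓ W)) U hUL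
      (by rw [inf_comm W U, hW]; omega)
    obtain ⟨k, hk⟩ := he
    refine ⟨(isoEquiv (plusQF m F)).symm (reflProd (plusQF m F) vs), ?_, ?_⟩
    · rw [mem_Omega_iff, MulEquiv.apply_symm_apply]
      exact reflProd_mem_commutator_of_const (plusQF m F) (plusQF_nondegenerate m F) (-1)
        (by simp) k vs hvs (by rw [hlen, hk]; ring)
    · rw [mulVecLin_eq_isoEquiv, MulEquiv.apply_symm_apply]
      exact hmap
  rw [plusQF_coe] at key
  exact key

end Cfsg.Agent.S2631
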