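import Cfsg.Statements.S2634
import Cfsg.Agent.Lib.Helper49.OmegaCrit

set_option autoImplicit false
open Cfsg Cfsg.Agent.Lib.Helper49

namespace Cfsg.Agent.S2634

/-- Over a finite field of characteristic two, Ω (the commutator subgroup of the orthogonal group of a quadratic form Q on F^n with non-degenerate polar form; excluding dimension 4 over the field of two elements) acts transitively on the non-singular 1-spaces: for u, v with Q(u) ≠ 0 and Q(v) ≠ 0 some element of Ω carries the line through u to the line through v. -/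
theorem result {F : Type*} [Field F] [Fintype F] [CharP F 2] {n : ℕ} (h : Fintype.card F ≠ 2 ∨ n ≠ 4) (Q : QuadraticForm F (Fin n → F)) (hQ : (QuadraticMap.polarBilin Q).Nondegenerate) (u v : Fin n → F) (hu : Q u ≠ 0) (hv : Q v ≠ 0) : ∃ g : ↥(Cfsg.isometryGroup F ⇑Q), g ∈ Cfsg.Omega F ⇑Q ∧ (F ∙ ((g : Matrix.GeneralLinearGroup (Fin n) F) : Matrix (Fin n) (Fin n) F).mulVec u) = F ∙ v := by
  have h2 : (2 : F) = 0 := CharTwo.two_eq_zero
  have h' : Fintype.card F ≠ 2 ∨ Fintype.card (Fin n) ≠ 4 := by simpa using h
  have h'' : Fintype.card F ≠ 2 ∨ Module.finrank F (Fin n → F) ≠ 4 := by simpa using h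
  obtain ⟨c, hc⟩ := isSquare_of_two_eq_zero h2 (Q u / Q v)
  have hc0 : c ≠ 0 := by
    rintro rfl
    rw [mul_zero, div_eq_zero_iff] at hc
    tauto
  have hQc : Q u = Q (c • v) := by
    rw [QuadraticMap.map_smul, ← hc, smul_eq_mul]
    field_simp
  obtain ⟨vs, hvs, hmap⟩ := exists_reflProd_map_char_two Q h2 hQ h'' u (c • v) hQc hu
  by_cases he : Even vs.length
  · refine ⟨(isoEquiv Q).symm (reflProd Q vs), ?_, ?_⟩
    · exact (mem_Omega_iff_even_char_two Q h2 hQ h' _ vs hvs (by simp)).2 he
    · rw [isoEquiv_symm_mulVec, hmap]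
      exact Submodule.span_singleton_smul_eq (IsUnit.mk0 c hc0) v
  · refine ⟨(isoEquiv Q).symm (reflProd Q (vs ++ [u])), ?_, ?_⟩
    · refine (mem_Omega_iff_even_char_two Q h2 hQ h' _ (vs ++ [u]) ?_ (by simp)).2 ?_
      · intro z hz
        rcases List.mem_append.1 hz with h | h
        · exact hvs z h
        · simp only [List.mem_cons, List.not_mem_nil, or_false] at h
          rw [h]; exact hu
      · simp only [List.length_append, List.length_cons, List.length_nil, zero_add]
        rw [Nat.even_add_one]
        exact he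
    · rw [isoEquiv_symm_mulVec]
      have : (reflProd Q (vs ++ [u])).1 u = (-c) • v := by
        simp only [reflProd_append, reflProd_cons, reflProd_nil, mul_one, Subgroup.coe_mul,
          LinearEquiv.mul_apply, refl_coe_apply]
        rw [reflLin_self Q u hu, map_neg, hmap, neg_smul]
      rw [this]
      exact Submodule.span_singleton_smul_eq (IsUnit.mk0 (-c) (neg_ne_zero.2 hc0)) v

end Cfsg.Agent.S2634
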