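import Cfsg.Statements.S2637
import Cfsg.Agent.Lib.Helper63.C3U.INST
import Cfsg.Agent.Lib.Helper63.C3U.TOP
import Cfsg.Agent.Lib.Helper63.C3U.JF
import Cfsg.Agent.Lib.Helper63.C3U.ARI

set_option autoImplicit false
open Cfsg

namespace Cfsg.Agent.S2637
open Cfsg.Agent.Lib.Helper63.C3U

theorem result {F : Type*} [Field F] [Fintype F] {q : ℕ} (hF : Fintype.card F = q) (hq : q % 3 = 2) {m : ℕ} (hm : 1 ≤ m) (x : Matrix.symplecticGroup (Fin m) F) (hx3 : x ^ 3 = 1) (hfpf : IsUnit ((x : Matrix (Fin m ⊕ Fin m) (Fin m ⊕ Fin m) F) - 1)) : (Nat.card ↥(Subgroup.centralizer ({x} : Set ↥(Matrix.symplecticGroup (Fin m) F))) : ℤ) = (q : ℤ) ^ (m * (m - 1) / 2) * ∏ i : Fin m, ((q : ℤ) ^ ((i : ℕ) + 1) - (-1) ^ ((i : ℕ) + 1)) := by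
  have hq1 : 1 ≤ q := by omega
  obtain ⟨hskew, hnd, hinv⟩ := j_facts x
  set X : Matrix (Fin m ⊕ Fin m) (Fin m ⊕ Fin m) F := (x : Matrix (Fin m ⊕ Fin m) (Fin m ⊕ Fin m) F) with hX
  have hX3 : X ^ 3 = 1 := by
    have := congrArg (fun y : Matrix.symplecticGroup (Fin m) F => (y : Matrix (Fin m ⊕ Fin m) (Fin m ⊕ Fin m) F)) hx3
    simpa using this
  have hpoly : X * X + X + 1 = 0 := by
    have h1 : (X - 1) * (X * X + X + 1) = 0 := by
      have : (X - 1) * (X * X + X + 1) = X ^ 3 - 1 := by noncomm_ring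
      rw [this, hX3, sub_self]
    exact (hfpf.mul_right_eq_zero).1 h1
  have hT : ∀ u, Matrix.toLin' X (Matrix.toLin' X u) + Matrix.toLin' X u + u = 0 := by
    intro u
    simp only [Matrix.toLin'_apply, Matrix.mulVec_mulVec]
    have := congrArg (fun M : Matrix (Fin m ⊕ Fin m) (Fin m ⊕ Fin m) F => M.mulVec u) hpoly
    simpa [Matrix.add_mulVec] using this
  have hV : Nat.card (Fin m ⊕ Fin m → F) = q ^ (2 * m) := by
    rw [Nat.card_eq_fintype_card, Fintype.card_fun, hF, Fintype.card_sum, Fintype.card_fin]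
    congr 1
    omega
  rw [top_card x, mid hF hq _ hskew hnd (Matrix.toLin' X) hT hinv m hV, arith q m hq1]

end Cfsg.Agent.S2637
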