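import Cfsg.Statements.S2639
import Cfsg.Agent.S0304
import Cfsg.Agent.Lib.Helper50.GUEmbed

set_option autoImplicit false
open Cfsg
open Matrix QuadraticMap Cfsg.Agent.Lib.Helper50 Cfsg.Agent.Lib.Helper50.Quad Cfsg.Agent.Lib.Helper50.GUE

namespace Cfsg.Agent.S2639

theorem stdB_eq_neg_σ {F : Type*} [Field F] (m : ℕ) (x y : Fin m ⊕ Fin m → F) :
    S0245.stdB m x y = - σ m x y := by
  rw [S0245.stdB_apply, σ]
  simp only [dotProduct, mulVec, J, Fintype.sum_sum_type, fromBlocks_apply₁₁, fromBlocks_apply₁₂,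
    fromBlocks_apply₂₁, fromBlocks_apply₂₂, Matrix.zero_apply, zero_mul, Finset.sum_const_zero, zero_add, add_zero,
    Matrix.neg_apply, one_apply, neg_mul, ite_mul, one_mul, Finset.sum_neg_distrib, Finset.sum_ite_eq,
    Finset.mem_univ, if_true, mul_neg]
  rw [← Finset.sum_neg_distrib, ← Finset.sum_neg_distrib, ← Finset.sum_add_distrib]
  exact Finset.sum_congr rfl (fun i _ => by ring)

/-- The unitary group embeds in the symplectic group of twice the dimension over the subfield: for a field K with q² elements and a field F with q elements (isomorphic to the subfield of K of order q), there is an injective homomorphism GU_m(q) → Sp_2m(F). -/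
theorem result {K F : Type*} [Field K] [Fintype K] [Field F] [Fintype F] {q : ℕ} (hK : Fintype.card K = q ^ 2) (hF : Fintype.card F = q) (m : ℕ) : ∃ φ : ↥(Cfsg.GU m K q) →* ↥(Matrix.symplecticGroup (Fin m) F), Function.Injective φ := by
  subst hF
  obtain ⟨_, h2⟩ := exists_algebra_of_card_pow (F := F) (K := K) 2 hK
  obtain ⟨ζ, hζ⟩ := exists_noroot (F := F)
  obtain ⟨θ, hθ, -, -⟩ := exists_root_conj (K := K) h2 1 ζ (aniso_of_noroot' ζ hζ)
  have hmem : ∀ g : ↥(Cfsg.GU m K (Fintype.card F)),
      Φ₀ h2 θ hθ m ((g : Matrix.GeneralLinearGroup (Fin m) K) : Matrix (Fin m) (Fin m) K) ∈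
        Matrix.symplecticGroup (Fin m) F := by
    intro g
    rw [S0304.mem_sp_iff]
    intro s t
    have e : ∀ c, (fun r => Φ₀ h2 θ hθ m ((g : Matrix.GeneralLinearGroup (Fin m) K) : Matrix (Fin m) (Fin m) K) r c) =
        Φ₀ h2 θ hθ m ((g : Matrix.GeneralLinearGroup (Fin m) K) : Matrix (Fin m) (Fin m) K) *ᵥ Pi.single c 1 := by
      intro c
      rw [mulVec_single_one]
      rfl
    rw [e, e, stdB_eq_neg_σ, stdB_eq_neg_σ, σ_pres h2 θ hθ m g.1 g.2]
  refine ⟨{ toFun := fun g => ⟨_, hmem g⟩
            map_one' := ?_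
            map_mul' := ?_ }, ?_⟩
  · apply Subtype.ext
    simp
  · intro g g'
    apply Subtype.ext
    simp
  · intro g g' h
    apply Subtype.ext
    apply Units.ext
    exact Φ₀_injective h2 θ hθ m (congrArg Subtype.val h)

end Cfsg.Agent.S2639
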