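import Cfsg.Statements.S2640
import Cfsg.Agent.Lib.Helper50.GUEmbed2
import Cfsg.Agent.Lib.Helper50.QuadReindex

set_option autoImplicit false
open Cfsg
open Matrix QuadraticMap Cfsg.Agent.Lib.Helper50 Cfsg.Agent.Lib.Helper50.Quad Cfsg.Agent.Lib.Helper50.GUE
open Cfsg.Agent.Lib.Helper50.Herm

namespace Cfsg.Agent.S2640

/-- For m even, the unitary group GU_m(q) (over the field with q² elements) embeds in the orthogonal group O⁺_2m(q) of the hyperbolic form Σ x_i y_i over the field with q elements (there is an injective homomorphism). -/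
theorem result {K F : Type*} [Field K] [Fintype K] [Field F] [Fintype F] {q : ℕ} (hK : Fintype.card K = q ^ 2) (hF : Fintype.card F = q) (m : ℕ) (hm : Even m) : ∃ φ : ↥(Cfsg.GU m K q) →* ↥(Cfsg.isometryGroup F (Cfsg.quadFormPlus m F)), Function.Injective φ := by
  subst hF
  rcases Nat.eq_zero_or_pos m with rfl | hpos
  · refine ⟨1, fun x y _ => ?_⟩
    apply Subtype.ext
    apply Units.ext
    exact Subsingleton.elim _ _
  obtain ⟨d, rfl⟩ : ∃ d, m = d + 1 := ⟨m - 1, by omega⟩
  have hfin : Module.finrank F ((Fin (d + 1) ⊕ Fin (d + 1)) ⊕ Empty → F) = 2 * (d + 1) := by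
    rw [Module.finrank_fintype_fun_eq_card]; simp; ring
  have hcard : Nat.card {v : (Fin (d + 1) ⊕ Fin (d + 1)) ⊕ Empty → F // Qgen (d + 1) (T0 F) v = 0} =
      zCard K (Fintype.card F) (d + 1) := by
    have h1 := card_sing_plus (F := F) d
    have h2 := (zCard_closed hK d).1 hm
    omega
  obtain ⟨φ, hφ⟩ := exists_embed hK (Qgen (d + 1) (T0 F)) d hfin (Qgen_nondeg _ _ T0_nondeg) hcard
  let R : Cfsg.isometryGroup F (Cfsg.quadFormPlus (d + 1) F) ≃* Cfsg.isometryGroup F (fun v => Qgen (d + 1) (T0 F) v) :=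
    isoReindex (Equiv.sumEmpty (Fin (d + 1) ⊕ Fin (d + 1)) Empty).symm (Cfsg.quadFormPlus (d + 1) F) _
    (fun v => by
      rw [Qgen_apply]
      simp only [_root_.zero_apply, add_zero]
      rfl)
  exact ⟨R.symm.toMonoidHom.comp φ, R.symm.injective.comp hφ⟩

end Cfsg.Agent.S2640
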