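import Cfsg.Statements.S2641
import Cfsg.Agent.Lib.Helper50.GUEmbed2
import Cfsg.Agent.Lib.Helper50.QuadReindex

set_option autoImplicit false
open Cfsg
open Matrix QuadraticMap Cfsg.Agent.Lib.Helper50 Cfsg.Agent.Lib.Helper50.Quad Cfsg.Agent.Lib.Helper50.GUE
open Cfsg.Agent.Lib.Helper50.Herm

namespace Cfsg.Agent.S2641

/-- For m odd, the unitary group GU_m(q) (over the field with q² elements) embeds in the orthogonal group O⁻_2m(q) of an elliptic form (Σ_(i<m−1) x_i y_i plus an anisotropic binary form) over the field with q elements (there is an injective homomorphism). -/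
theorem result {K F : Type*} [Field K] [Fintype K] [Field F] [Fintype F] {q : ℕ} (hK : Fintype.card K = q ^ 2) (hF : Fintype.card F = q) (m : ℕ) (hm : Odd m) (a b : F) (hab : ∀ z₁ z₂ : F, z₁ ^ 2 + a * z₁ * z₂ + b * z₂ ^ 2 = 0 → z₁ = 0 ∧ z₂ = 0) : ∃ φ : ↥(Cfsg.GU m K q) →* ↥(Cfsg.isometryGroup F (Cfsg.quadFormMinus (m - 1) F a b)), Function.Injective φ := by
  subst hF
  obtain ⟨d, rfl⟩ : ∃ d, m = d + 1 := ⟨m - 1, by
    have := hm.pos
    omega⟩
  rw [Nat.add_sub_cancel]
  have hfin : Module.finrank F ((Fin d ⊕ Fin d) ⊕ Fin 2 → F) = 2 * (d + 1) := by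
    rw [Module.finrank_fintype_fun_eq_card]; simp; ring
  have hcard : Nat.card {v : (Fin d ⊕ Fin d) ⊕ Fin 2 → F // Qgen d (T2 1 a b) v = 0} =
      zCard K (Fintype.card F) (d + 1) := by
    have h1 := card_sing_minus a b hab d
    have h2 := (zCard_closed hK d).2 hm
    omega
  obtain ⟨φ, hφ⟩ := exists_embed hK (Qgen d (T2 1 a b)) d hfin (Qgen_nondeg _ _ (T2_aniso_nondeg a b hab)) hcard
  have hfun : Cfsg.quadFormMinus d F a b = fun v => Qgen d (T2 1 a b) v := by
    funext v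
    rw [Qgen_apply, T2_apply, one_mul]
    rfl
  rw [hfun]
  exact ⟨φ, hφ⟩

end Cfsg.Agent.S2641
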