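import Cfsg.Statements.S2643
import Cfsg.Agent.Lib.Helper50.RUAll

set_option autoImplicit false
open Cfsg
open Cfsg.Agent.Lib.Helper50.Herm Cfsg.Agent.Lib.Helper50.RU Cfsg.Agent.Lib.Helper50.RUAll Cfsg.Agent.Lib.Helper48

namespace Cfsg.Agent.S2643

/-- Regular unipotent classes of SU_n(q), n ≥ 2: the elements u of the special unitary group (isometries of Σ u_i v_i^q of determinant one over the field with q² elements) with (u − 1)^n = 0 and rank(u − 1) = n − 1 form exactly gcd(n, q + 1) conjugacy classes of SU_n(q). -/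
theorem result {K : Type*} [Field K] [Fintype K] {q n : ℕ} (hK : Fintype.card K = q ^ 2) (hn : 2 ≤ n) : Nat.card {C : ConjClasses ↥(Cfsg.SU n K q) // ∃ u : ↥(Cfsg.SU n K q), ConjClasses.mk u = C ∧ (((u : GL (Fin n) K) : Matrix (Fin n) (Fin n) K) - 1) ^ n = 0 ∧ (((u : GL (Fin n) K) : Matrix (Fin n) (Fin n) K) - 1).rank = n - 1} = Nat.gcd n (q + 1) := by
  classical
  have hn1 : 1 ≤ n := by omega
  obtain ⟨u₀, hu₀⟩ := exists_reg hK hn1
  have key := card_classes_eq_index (S := ↥(Cfsg.SU n K q)) (G := ↥(Cfsg.GU n K q))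
    (A := ↥(detGU (K := K) (q := q) n).range)
    (suToGU n) (suToGU_injective n) (detGU n).rangeRestrict
    (by
      intro g
      rw [← detGU_eq_one_iff]
      constructor
      · intro h; exact congrArg Subtype.val h
      · intro h; exact Subtype.ext h)
    (MonoidHom.rangeRestrict_surjective _)
    (fun u => (((u : GL (Fin n) K) : Matrix (Fin n) (Fin n) K) - 1) ^ n = 0 ∧
      (((u : GL (Fin n) K) : Matrix (Fin n) (Fin n) K) - 1).rank = n - 1)
    u₀
    (fun u => reg_iff_conj hK hn1 u₀ u hu₀)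
    (powMonoidHom n : ↥(detGU (K := K) (q := q) n).range →* ↥(detGU (K := K) (q := q) n).range).range
    (by
      intro a
      constructor
      · rintro ⟨c, rfl⟩
        have hc : c.1 ^ (q + 1) = 1 := by
          obtain ⟨g, hg⟩ := c.2
          rw [← hg]
          exact Units.ext (GU_det_norm hK n g.1 g.2)
        refine ⟨⟨Matrix.GeneralLinearGroup.scalar (Fin n) c.1, scalar_mem hK c.1 hc⟩, ?_, ?_⟩
        · have : Matrix.GeneralLinearGroup.scalar (Fin n) c.1 ∈ Subgroup.center (GL (Fin n) K) := by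
            rw [Matrix.GeneralLinearGroup.center_eq_range_scalar]; exact ⟨c.1, rfl⟩
          exact Subtype.ext (Subgroup.mem_center_iff.1 this _).symm
        · apply Subtype.ext
          apply Units.ext
          show (Matrix.GeneralLinearGroup.scalar (Fin n) c.1 : Matrix (Fin n) (Fin n) K).det = ((c.1 ^ n : Kˣ) : K)
          simp
      · rintro ⟨g, hg, rfl⟩
        obtain ⟨c, hc⟩ := charpoly_of_commute hn1 (suToGU n u₀).1 g.1 hu₀ (congrArg Subtype.val hg.eq)
        obtain ⟨c', hc'1, hc'2⟩ := det_of_charpoly hK hn1 g.1 g.2 c hc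
        refine ⟨⟨c', mem_range_detGU hK hn1 c' hc'1⟩, ?_⟩
        apply Subtype.ext
        exact hc'2.symm)
  rw [key, IsCyclic.index_powMonoidHom_range, card_range_detGU hK n hn1, Nat.gcd_comm]

end Cfsg.Agent.S2643
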