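import Cfsg.Statements.S2645
import Cfsg.Agent.Lib.Helper50.CC.SPX
import Cfsg.Agent.Lib.Helper50.CC.MAIN
import Cfsg.Agent.Lib.Helper50.CC.TW5
import Cfsg.Agent.Lib.Helper50.CC.AR1
import Cfsg.Agent.Lib.Helper50.CC.ROOT
import Cfsg.Agent.Lib.Helper50.CC.PAR
import Cfsg.Agent.Lib.Helper50.CC.CNT1
import Cfsg.Agent.Lib.Helper50.CC.CNT2

set_option autoImplicit false
open Cfsg
open Cfsg.Agent.Lib.Helper50.CC Cfsg.Agent.Lib.Helper65.GR

namespace Cfsg.Agent.S2645

/-- Number of conjugacy classes of elements of odd prime order r, r different from the characteristic, in the symplectic group Sp_2m(q): let i be the multiplicative order of q modulo r and t = (r − 1)/i. If i is odd the eigenvalue orbits pair off (Λ ≠ Λ⁻¹) and the classes correspond to the non-zero (t/2)-tuples (a_j) with 2i Σ a_j ≤ 2m, giving C(⌊m/i⌋ + t/2, t/2) − 1 classes; if i is even (Λ = Λ⁻¹) they correspond to the non-zero t-tuples with i Σ a_j ≤ 2m, giving C(⌊2m/i⌋ + t, t) − 1 classes. -/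
theorem result {F : Type*} [Field F] [Fintype F] {p q : ℕ} [Fact p.Prime] [CharP F p] (hF : Fintype.card F = q) (m r i t : ℕ) (hr : r.Prime) (hr2 : r ≠ 2) (hrp : r ≠ p) (hi : i = orderOf (q : ZMod r)) (ht : t * i = r - 1) : Nat.card {C : ConjClasses ↥(Matrix.symplecticGroup (Fin m) F) // ∃ g : Matrix.symplecticGroup (Fin m) F, ConjClasses.mk g = C ∧ orderOf g = r} = if Odd i then Nat.choose (m / i + t / 2) (t / 2) - 1 else Nat.choose (2 * m / i + t) t - 1 := by
  subst hF
  have hp : p.Prime := Fact.out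
  have hrF : (r : F) ≠ 0 := by
    intro h
    rw [CharP.cast_eq_zero_iff F p r] at h
    exact hrp ((Nat.prime_dvd_prime_iff_eq hp hr).mp h).symm
  have hi1 : 1 ≤ i := by
    rcases Nat.eq_zero_or_pos i with h | h
    · rw [h, mul_zero] at ht
      have := hr.two_le
      omega
    · exact h
  have hdeg : ∀ P ∈ irr F r, P.natDegree = i := fun P hP => by
    rw [hi]; exact irr_natDegree p r hr hrp P hP
  have hcop : r.Coprime p := (Nat.coprime_primes hr hp).mpr hrp
  have hcard : Fintype.card (irr F r) = t := by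
    rw [Fintype.card_coe]; exact card_irr p r i t hr hrp hi ht
  have hσ : ∀ x : F, (RingHom.id F) ((RingHom.id F) x) = x := fun x => rfl
  have hn : Fintype.card (Fin m ⊕ Fin m) = 2 * m := by simp; ring
  set s := st (RingHom.id F) r with hs
  -- dichotomy for the involution
  have hdich : (Odd i → ∀ P, s P ≠ P) ∧ (¬ Odd i → ∀ P, s P = P) := by
    constructor
    · intro hodd P
      exact st_ne_self r hr hrF hr2 P (by rw [hdeg P.1 P.2]; exact hodd)
    · intro hev P
      rw [Nat.not_odd_iff_even] at hev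
      obtain ⟨e, he1, he2⟩ := exists_pow_neg_one p (F := F) r i hr hr2 hrp hi hev
      exact st_eq_self p (RingHom.id F) hσ r hr hrF e he1 he2 P
  have hpar : ∀ a : irr F r → ℕ, (∀ P, a (s P) = a P) → Even (i * ∑ P, a P) := by
    intro a ha
    by_cases hodd : Odd i
    · exact (even_sum_of_free s (st_st _ hσ r hr hrF) (hdich.1 hodd) a ha).mul_left i
    · rw [Nat.not_odd_iff_even] at hodd
      exact hodd.mul_right _
  have key := count_main (G := ↥(Matrix.symplecticGroup (Fin m) F))
    (fun g => (g : Matrix (Fin m ⊕ Fin m) (Fin m ⊕ Fin m) F).charpoly) r (2 * m) i hr hrF s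
    (by
      intro g h hgh
      obtain ⟨c, hc⟩ := isConj_iff.mp hgh
      rw [← hc]
      have h1 : ((c * g * c⁻¹ : ↥(Matrix.symplecticGroup (Fin m) F)) :
          Matrix (Fin m ⊕ Fin m) (Fin m ⊕ Fin m) F) = c.1 * g.1 * (c⁻¹).1 := rfl
      have h2 : (c⁻¹).1 * c.1 = 1 := congrArg Subtype.val (inv_mul_cancel c)
      rw [h1, Matrix.charpoly_mul_comm, ← mul_assoc, h2, one_mul])
    (by
      intro g hg
      have hgr : (g : Matrix (Fin m ⊕ Fin m) (Fin m ⊕ Fin m) F) ^ r = 1 := by
        rw [← SubmonoidClass.coe_pow, ← hg, pow_orderOf_eq_one]; rfl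
      obtain ⟨a, ha, hga⟩ := charpoly_eq_cp' r (2 * m) i hr hrF hdeg hn _ hgr
      refine ⟨a, ?_, ha, ?_, hga⟩
      · intro ha0
        have h1 : IsConj g 1 := Cfsg.Agent.Lib.Helper50.SpClass.conj_of_charpoly p g 1
          (by rw [hg]; exact hcop) (by simp) (by
            rw [hga, ha0]
            show _ = (1 : Matrix (Fin m ⊕ Fin m) (Fin m ⊕ Fin m) F).charpoly
            rw [Matrix.charpoly_one, hn]
            simp [cp])
        have h2 : g = 1 := by
          obtain ⟨c, hc⟩ := isConj_iff.mp h1.symm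
          rw [← hc]; simp
        rw [h2, orderOf_one] at hg
        exact hr.one_lt.ne hg
      · rw [hs, ← sym_iff_tw (RingHom.id F) hσ r (2 * m) i hr hrF a, ← hga]
        exact tw_of_reverse _ (Matrix.charpoly_monic _)
          (Cfsg.Agent.Lib.Helper50.SpClass.charpoly_reverse g))
    (by
      intro g h hg hh hc
      exact Cfsg.Agent.Lib.Helper50.SpClass.conj_of_charpoly p g h (by rw [hg]; exact hcop)
        (by rw [hh]; exact hcop) hc)
    (by
      intro a ha0 ha hsym
      have hev : Even (2 * m - i * ∑ P, a P) := by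
        have := hpar a hsym
        rw [Nat.even_sub ha]
        exact ⟨fun _ => this, fun _ => even_two_mul m⟩
      exact sp_exists_order p m r i hr hrp hi1 hdeg a ha0 ha hsym hev)
  rw [key]
  by_cases hodd : Odd i
  · rw [if_pos hodd, card_lab_free s (st_st _ hσ r hr hrF) (hdich.1 hodd) (2 * m) i t hi1 hcard]
    rw [Nat.mul_div_mul_left _ _ (by norm_num : 0 < 2)]
  · rw [if_neg hodd, card_lab_id s (hdich.2 hodd) (2 * m) i t hi1 hcard]

end Cfsg.Agent.S2645
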