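import Cfsg.Statements.S2664
import Cfsg.Agent.Lib.Helper22.BruhatAll
import Cfsg.Agent.Lib.Helper22.FieldFix2
import Cfsg.Agent.Lib.Helper22.HInjG2
import Cfsg.Agent.S1024

set_option autoImplicit false
open scoped MatrixGroups
open Cfsg

namespace Cfsg.Agent.S2664

/-- Centralizers of field automorphisms of prime order, type G₂. Let `F` be a finite field and `G` the Chevalley group of type G₂ over `F` (for this type the group generated by the root elements is the whole group of rational points, with trivial centre). Let `φ` be a field automorphism of `G` (it sends each root element `x_s(t)` to `x_s(σ t)` for a fixed automorphism `σ` of `F`) whose order is a prime `r`. Then `F` has `q₀ ^ r` elements for some prime power `q₀`, and the subgroup of elements fixed by `φ` is isomorphic to the Chevalley group of type G₂ over a field with `q₀` elements. -/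
theorem result {F : Type*} [Field F] [Fintype F]
    (φ : MulAut ↥(Cfsg.Lie.chevG2.group F)) (hφ : Cfsg.Lie.chevG2.IsFieldAut φ) (r : ℕ) (hr : r.Prime) (ho : orderOf φ = r) :
    ∃ (F₀ : Type) (_ : Field F₀) (_ : Fintype F₀), Fintype.card F = Fintype.card F₀ ^ r ∧
      Nonempty (↥((MulEquiv.toMonoidHom φ).eqLocus (MonoidHom.id ↥(Cfsg.Lie.chevG2.group F))) ≃* ↥(Cfsg.Lie.chevG2.group F₀)) := by
  have hD : Cfsg.Lie.chevG2 ∈ [Cfsg.Lie.chevG2, Cfsg.Lie.chevB2, Cfsg.Lie.chevD4, Cfsg.Lie.chevF4,
      Cfsg.Lie.chevE6, Cfsg.Lie.chevE7, Cfsg.Lie.chevE8] := by simp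
  have P := Lib.Helper22.bruhatPack_of_mem F hD
  refine Lib.Helper22.s2662_of P (fun K _ => Lib.Helper23.addFact_of_mem K hD) Lib.Helper22.hinjG2 0 ?_ φ hφ r ho
  intro t u h
  have h1 : P.hA.X 0 (t - u) = 1 := by
    rw [sub_eq_add_neg, P.hA.X_add, ← P.hA.X_inv, h, mul_inv_cancel]
  have h2 : Cfsg.Lie.chevG2.x F 0 (t - u) = 1 := by
    rw [← P.hA.coe_X, h1]; rfl
  exact sub_eq_zero.1 ((S1024.result _ hD 0 (by decide) _).1 h2)

end Cfsg.Agent.S2664
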