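import Cfsg.Statements.S2665
import Mathlib

set_option autoImplicit false
open scoped MatrixGroups
open Cfsg
open Polynomial

namespace Cfsg.Agent.S2665

theorem exists_root_aux {K : Type*} [Field K] [IsAlgClosed K] (q : ℕ) (hq : 2 ≤ q) (m : ℕ) (b : ℕ → K)
    (hb : ∃ j < m, b j ≠ 0) :
    ∃ y : K, y ≠ 0 ∧ ∑ j ∈ Finset.range m, b j * y ^ (q ^ (m - j)) = y := by
  obtain ⟨j0, hj0, hbj0⟩ := hb
  let Q : K[X] := ∑ j ∈ Finset.range m, C (b j) * X ^ (q ^ (m - j) - 1) - 1
  have hpos : ∀ j, j < m → 1 ≤ q ^ (m - j) - 1 := by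
    intro j hj
    have h1 : q ^ 1 ≤ q ^ (m - j) := Nat.pow_le_pow_right (by omega) (by omega)
    rw [pow_one] at h1
    omega
  have hdeg : Q.degree ≠ 0 := by
    intro h0
    have hc := Polynomial.eq_C_of_degree_eq_zero h0
    have h1 : Q.coeff (q ^ (m - j0) - 1) = 0 := by
      rw [hc, Polynomial.coeff_C, if_neg]
      have := hpos j0 hj0
      omega
    have h2 : Q.coeff (q ^ (m - j0) - 1) = b j0 := by
      simp only [Q, Polynomial.coeff_sub, Polynomial.finsetSum_coeff, Polynomial.coeff_C_mul_X_pow]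
      rw [Finset.sum_eq_single j0]
      · rw [if_pos rfl, Polynomial.coeff_one, if_neg, sub_zero]
        have := hpos j0 hj0
        omega
      · intro j hj hne
        rw [if_neg]
        intro heq
        apply hne
        have hj' : j < m := Finset.mem_range.1 hj
        have h3 := hpos j hj'
        have h4 := hpos j0 hj0
        have h5 : q ^ (m - j0) = q ^ (m - j) := by omega
        have h6 := Nat.pow_right_injective hq h5
        omega
      · intro h; exact absurd (Finset.mem_range.2 hj0) h
    exact hbj0 (h2.symm.trans h1)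
  obtain ⟨y, hy⟩ := IsAlgClosed.exists_root Q hdeg
  have hy' : ∑ j ∈ Finset.range m, b j * y ^ (q ^ (m - j) - 1) = 1 := by
    have : Q.eval y = 0 := hy
    simp only [Q, Polynomial.eval_sub, Polynomial.eval_finsetSum, Polynomial.eval_mul, Polynomial.eval_C,
      Polynomial.eval_pow, Polynomial.eval_X, Polynomial.eval_one] at this
    exact sub_eq_zero.1 this
  have hy0 : y ≠ 0 := by
    rintro rfl
    rw [Finset.sum_eq_zero] at hy'
    · exact zero_ne_one hy'
    · intro j hj
      have := hpos j (Finset.mem_range.1 hj)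
      rw [zero_pow (by omega), mul_zero]
  refine ⟨y, hy0, ?_⟩
  calc ∑ j ∈ Finset.range m, b j * y ^ (q ^ (m - j)) = (∑ j ∈ Finset.range m, b j * y ^ (q ^ (m - j) - 1)) * y := by
        rw [Finset.sum_mul]
        apply Finset.sum_congr rfl
        intro j hj
        have := hpos j (Finset.mem_range.1 hj)
        rw [mul_assoc, ← pow_succ]
        congr 2
        omega
    _ = y := by rw [hy', one_mul]

def zseq {K : Type*} [Field K] (q : ℕ) (c : ℕ → K) (y : K) : ℕ → K
  | 0 => 0
  | k + 1 => (zseq q c y k) ^ q + c k * y ^ q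

theorem zseq_formula {K : Type*} [Field K] (p : ℕ) [Fact p.Prime] [CharP K p] (f : ℕ) (c : ℕ → K) (y : K) (k : ℕ) :
    zseq (p ^ f) c y k = ∑ j ∈ Finset.range k, (c j) ^ ((p ^ f) ^ (k - 1 - j)) * y ^ ((p ^ f) ^ (k - j)) := by
  induction k with
  | zero => simp [zseq]
  | succ k ih =>
    rw [zseq, ih, sum_pow_char_pow, Finset.sum_range_succ]
    congr 1
    · apply Finset.sum_congr rfl
      intro j hj
      have hj' : j < k := Finset.mem_range.1 hj
      have e1 : k + 1 - 1 - j = (k - 1 - j) + 1 := by omega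
      have e2 : k + 1 - j = (k - j) + 1 := by omega
      rw [e1, e2, mul_pow, pow_succ ((p ^ f)) (k - 1 - j), pow_succ (p ^ f) (k - j), pow_mul, pow_mul]
    · simp

theorem exists_fixed {K : Type*} [Field K] [IsAlgClosed K] (p : ℕ) [Fact p.Prime] [CharP K p]
    (f : ℕ) (hf : 1 ≤ f) {E : Type*} [AddCommGroup E] [Module K E] [FiniteDimensional K E]
    (T : E →ₛₗ[iterateFrobenius K p f] E) (hT : Function.Injective T) (w : E) (hw : w ≠ 0) :
    ∃ v : E, v ≠ 0 ∧ T v = v := by
  classical
  have hq : 2 ≤ p ^ f := by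
    have hp : 2 ≤ p := (Fact.out : p.Prime).two_le
    calc 2 ≤ p := hp
      _ = p ^ 1 := (pow_one p).symm
      _ ≤ p ^ f := Nat.pow_le_pow_right (by omega) hf
  have hex : ∃ k : ℕ, ¬ LinearIndependent K (fun i : Fin k => T^[i] w) := by
    refine ⟨Module.finrank K E + 1, fun h => ?_⟩
    have := h.fintype_card_le_finrank
    simp at this
  have hk0 : Nat.find hex ≠ 0 := by
    intro h0
    have := Nat.find_spec hex
    rw [h0] at this
    exact this (linearIndependent_empty_type)
  obtain ⟨m, hm⟩ := Nat.exists_eq_succ_of_ne_zero hk0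
  have hind : LinearIndependent K (fun i : Fin m => T^[i] w) := by
    have := Nat.find_min hex (m := m) (by omega)
    exact not_not.1 this
  have hdep : ¬ LinearIndependent K (fun i : Fin (m + 1) => T^[i] w) := by
    have := Nat.find_spec hex
    rwa [hm] at this
  rw [linearIndependent_finSucc'] at hdep
  have hmem : T^[m] w ∈ Submodule.span K (Set.range (fun i : Fin m => T^[i] w)) := by
    by_contra hcon
    exact hdep ⟨hind, hcon⟩
  obtain ⟨c0, hc0⟩ := Submodule.mem_span_range_iff_exists_fun K |>.1 hmem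
  let c : ℕ → K := fun k => if h : k < m then c0 ⟨k, h⟩ else 0
  have hc : ∑ k ∈ Finset.range m, c k • T^[k] w = T^[m] w := by
    rw [Finset.sum_range, ← hc0]
    apply Finset.sum_congr rfl
    intro i _
    simp [c]
  have hwm : T^[m] w ≠ 0 := by
    intro h0
    apply hw
    apply hT.iterate m
    rw [h0]
    have hz0 : ∀ n : ℕ, T^[n] 0 = 0 := by
      intro n
      induction n with
      | zero => rfl
      | succ n ih => rw [Function.iterate_succ_apply', ih, map_zero]
    exact (hz0 m).symm
  have hcne : ∃ j < m, c j ≠ 0 := by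
    by_contra hcon
    push Not at hcon
    apply hwm
    rw [← hc]
    apply Finset.sum_eq_zero
    intro k hk
    rw [hcon k (Finset.mem_range.1 hk), zero_smul]
  obtain ⟨j0, hj0, hcj0⟩ := hcne
  obtain ⟨y, hy0, hy⟩ := exists_root_aux (p ^ f) hq m (fun j => (c j) ^ ((p ^ f) ^ (m - 1 - j)))
    ⟨j0, hj0, pow_ne_zero _ hcj0⟩
  rw [← zseq_formula] at hy
  set z := zseq (p ^ f) c y with hz
  refine ⟨∑ k ∈ Finset.range m, z (k + 1) • T^[k] w, ?_, ?_⟩
  · intro h0
    rw [Finset.sum_range] at h0
    have := Fintype.linearIndependent_iff.1 hind (fun i => z (i + 1)) h0 ⟨m - 1, by omega⟩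
    have h1 : m - 1 + 1 = m := by omega
    simp only [h1] at this
    exact hy0 (hy.symm.trans this)
  · have h1 : T (∑ k ∈ Finset.range m, z (k + 1) • T^[k] w)
        = ∑ k ∈ Finset.range m, (z (k + 1)) ^ (p ^ f) • T^[k + 1] w := by
      rw [map_sum]
      apply Finset.sum_congr rfl
      intro k _
      rw [LinearMap.map_smulₛₗ, iterateFrobenius_def, Function.iterate_succ_apply']
    have h2 : ∑ k ∈ Finset.range m, z (k + 1) • T^[k] w
        = ∑ k ∈ Finset.range m, (z k) ^ (p ^ f) • T^[k] w + y ^ (p ^ f) • T^[m] w := by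
      rw [← hc, Finset.smul_sum, ← Finset.sum_add_distrib]
      apply Finset.sum_congr rfl
      intro k _
      rw [smul_smul, ← add_smul]
      congr 1
      rw [hz, zseq]
      ring
    rw [h1, h2]
    have h3 := Finset.sum_range_succ (fun k => (z k) ^ (p ^ f) • T^[k] w) m
    have h4 := Finset.sum_range_succ' (fun k => (z k) ^ (p ^ f) • T^[k] w) m
    have h5 : z 0 = 0 := by rw [hz, zseq]
    rw [h3] at h4
    simp only [h5] at h4
    rw [zero_pow (by omega), zero_smul, add_zero, hy] at h4
    exact h4.symm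

theorem span_fixed {K : Type*} [Field K] [IsAlgClosed K] (p : ℕ) [Fact p.Prime] [CharP K p]
    (f : ℕ) (hf : 1 ≤ f) {E : Type*} [AddCommGroup E] [Module K E] [FiniteDimensional K E]
    (T : E →ₛₗ[iterateFrobenius K p f] E) (hT : Function.Injective T) :
    Submodule.span K {v : E | T v = v} = ⊤ := by
  classical
  have hq : 2 ≤ p ^ f := by
    have hp : 2 ≤ p := (Fact.out : p.Prime).two_le
    calc 2 ≤ p := hp
      _ = p ^ 1 := (pow_one p).symm
      _ ≤ p ^ f := Nat.pow_le_pow_right (by omega) hf
  set W := Submodule.span K {v : E | T v = v} with hW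
  by_contra hne
  have hstab : W ≤ W.comap T := by
    rw [hW, Submodule.span_le]
    intro v hv
    have hv' : T v = v := hv
    change T v ∈ Submodule.span K {v : E | T v = v}
    rw [hv']
    exact Submodule.subset_span hv
  -- every element of W is T of an element of W
  have hsurj : ∀ u ∈ W, ∃ u' ∈ W, T u' = u := by
    intro u hu
    induction hu using Submodule.closure_induction with
    | zero => exact ⟨0, W.zero_mem, map_zero T⟩
    | add x y _ _ hx hy =>
      obtain ⟨x', hx', rfl⟩ := hx
      obtain ⟨y', hy', rfl⟩ := hy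
      exact ⟨x' + y', W.add_mem hx' hy', map_add T x' y'⟩
    | smul_mem r x hx =>
      obtain ⟨d, hd⟩ := IsAlgClosed.exists_pow_nat_eq r (n := p ^ f) (by omega)
      refine ⟨d • x, W.smul_mem d (Submodule.subset_span hx), ?_⟩
      have hx' : T x = x := hx
      rw [LinearMap.map_smulₛₗ, iterateFrobenius_def, hd, hx']
  -- Artin-Schreier on W
  have hAS : ∀ u ∈ W, ∃ u' ∈ W, T u' - u' = u := by
    intro u hu
    induction hu using Submodule.closure_induction with
    | zero => exact ⟨0, W.zero_mem, by simp⟩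
    | add x y _ _ hx hy =>
      obtain ⟨x', hx', rfl⟩ := hx
      obtain ⟨y', hy', rfl⟩ := hy
      exact ⟨x' + y', W.add_mem hx' hy', by rw [map_add]; abel⟩
    | smul_mem r x hx =>
      have hdeg : (X ^ (p ^ f) - X - C r : K[X]).degree ≠ 0 := by
        intro h0
        have hc := Polynomial.eq_C_of_degree_eq_zero h0
        have h1 : (X ^ (p ^ f) - X - C r : K[X]).coeff (p ^ f) = 0 := by
          rw [hc, Polynomial.coeff_C, if_neg (by omega)]
        rw [Polynomial.coeff_sub, Polynomial.coeff_sub, Polynomial.coeff_X_pow_self, Polynomial.coeff_X,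
          Polynomial.coeff_C, if_neg (by omega), if_neg (by omega)] at h1
        simp at h1
      obtain ⟨d, hd⟩ := IsAlgClosed.exists_root (X ^ (p ^ f) - X - C r : K[X]) hdeg
      have hd' : d ^ (p ^ f) - d = r := by
        have : (X ^ (p ^ f) - X - C r : K[X]).eval d = 0 := hd
        simp only [eval_sub, eval_pow, eval_X, eval_C] at this
        exact sub_eq_zero.1 this
      refine ⟨d • x, W.smul_mem d (Submodule.subset_span hx), ?_⟩
      have hx' : T x = x := hx
      rw [LinearMap.map_smulₛₗ, iterateFrobenius_def, hx', ← sub_smul, hd']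
  let Tq : (E ⧸ W) →ₛₗ[iterateFrobenius K p f] (E ⧸ W) := W.mapQ W T hstab
  have hTq : Function.Injective Tq := by
    rw [injective_iff_map_eq_zero]
    intro a ha
    obtain ⟨v, rfl⟩ := Submodule.Quotient.mk_surjective W a
    have h1 : T v ∈ W := by
      rw [← Submodule.Quotient.mk_eq_zero]
      exact ha
    obtain ⟨u', hu', hu⟩ := hsurj _ h1
    rw [← hT hu]
    exact (Submodule.Quotient.mk_eq_zero W).2 hu'
  obtain ⟨v0, hv0⟩ : ∃ v0 : E, v0 ∉ W := by
    by_contra hcon
    push Not at hcon
    exact hne (eq_top_iff.2 (fun x _ => hcon x))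
  have hv0' : (Submodule.Quotient.mk v0 : E ⧸ W) ≠ 0 := by
    rw [Ne, Submodule.Quotient.mk_eq_zero]; exact hv0
  obtain ⟨a, ha0, ha⟩ := exists_fixed p f hf Tq hTq _ hv0'
  obtain ⟨v, rfl⟩ := Submodule.Quotient.mk_surjective W a
  have h1 : T v - v ∈ W := by
    rw [← Submodule.Quotient.mk_eq_zero, Submodule.Quotient.mk_sub, sub_eq_zero]
    exact ha
  obtain ⟨u, hu, hu2⟩ := hAS _ h1
  have h2 : T (v - u) = v - u := by
    rw [map_sub]
    have : T v - T u - (v - u) = (T v - v) - (T u - u) := by abel
    rw [← sub_eq_zero, this, hu2, sub_self]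
  have h3 : v - u ∈ W := Submodule.subset_span h2
  apply ha0
  rw [Submodule.Quotient.mk_eq_zero]
  have : v = (v - u) + u := by abel
  rw [this]
  exact W.add_mem h3 hu

theorem result {K : Type*} [Field K] [IsAlgClosed K] (p : ℕ) [Fact p.Prime] [CharP K p]
    (f : ℕ) (hf : 1 ≤ f) (n : ℕ) (g : GL (Fin n) K) :
    ∃ x : GL (Fin n) K, g = x * (Matrix.GeneralLinearGroup.map (iterateFrobenius K p f) x)⁻¹ := by
  classical
  let T : (Fin n → K) →ₛₗ[iterateFrobenius K p f] (Fin n → K) :=
    { toFun := fun v => (g : Matrix (Fin n) (Fin n) K).mulVec (fun i => iterateFrobenius K p f (v i))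
      map_add' := by
        intro v w
        rw [← Matrix.mulVec_add]
        congr 1
        ext i
        simp
      map_smul' := by
        intro c v
        rw [← Matrix.mulVec_smul]
        congr 1
        ext i
        simp }
  have hTdef : ∀ v, T v = (g : Matrix (Fin n) (Fin n) K).mulVec (fun i => iterateFrobenius K p f (v i)) :=
    fun v => rfl
  have hT : Function.Injective T := by
    intro v w hvw
    rw [hTdef, hTdef] at hvw
    have h1 := congrArg ((g⁻¹ : GL (Fin n) K) : Matrix (Fin n) (Fin n) K).mulVec hvw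
    rw [Matrix.mulVec_mulVec, Matrix.mulVec_mulVec, ← Units.val_mul, inv_mul_cancel, Units.val_one,
      Matrix.one_mulVec, Matrix.one_mulVec] at h1
    ext i
    exact (iterateFrobenius K p f).injective (congrFun h1 i)
  have hspan := span_fixed p f hf T hT
  let b := Module.Basis.ofSpan (le_of_eq hspan.symm)
  have := Module.Basis.fintypeIndexOfRankLtAleph0 b (Module.rank_lt_aleph0 K (Fin n → K))
  have hcard := (Module.finrank_eq_card_basis b).symm
  rw [Module.finrank_fin_fun] at hcard
  let e := Fintype.equivFinOfCardEq hcard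
  let b' := b.reindex e
  have hb' : ∀ j, T (b' j) = b' j := by
    intro j
    have : b' j ∈ {v | T v = v} := by
      apply Module.Basis.ofSpan_subset (le_of_eq hspan.symm)
      exact ⟨e.symm j, by simp [b', b]⟩
    exact this
  let x : GL (Fin n) K :=
    ⟨(Pi.basisFun K (Fin n)).toMatrix b', b'.toMatrix (Pi.basisFun K (Fin n)),
      Module.Basis.toMatrix_mul_toMatrix_flip _ _, Module.Basis.toMatrix_mul_toMatrix_flip _ _⟩
  refine ⟨x, ?_⟩
  rw [eq_mul_inv_iff_mul_eq]
  apply Units.ext
  ext i j
  have := congrFun (hb' j) i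
  rw [hTdef] at this
  simpa [x, Matrix.mul_apply, Matrix.mulVec, dotProduct, Module.Basis.toMatrix_apply] using this

end Cfsg.Agent.S2665
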