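import Cfsg.Statements.S2666

set_option autoImplicit false
open Cfsg

namespace Cfsg.Agent.S2666

theorem pow_fix {X : Type*} [Group X] (σ : MulAut X) (e : ℕ) (h : X) (hh : σ h = h) :
    (σ ^ e) h = h := by
  induction e with
  | zero => simp
  | succ n ih => rw [pow_succ, MulAut.mul_apply, hh, ih]

theorem telescope {X : Type*} [Group X] (σ : MulAut X) (a : X) (d : ℕ) :
    ((List.range d).map (fun i => (σ ^ i) (a * (σ a)⁻¹))).prod = a * ((σ ^ d) a)⁻¹ := by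
  induction d with
  | zero => simp
  | succ n ih =>
    rw [List.range_succ, List.map_append, List.prod_append, ih]
    simp only [List.map_cons, List.map_nil, List.prod_cons, List.prod_nil, mul_one, map_mul, map_inv]
    have : (σ ^ n) (σ a) = (σ ^ (n + 1)) a := by
      rw [pow_succ, MulAut.mul_apply]
    rw [this]
    group

theorem comm_pow {X : Type*} [Group X] (σ : MulAut X) (e : ℕ) (a : X) :
    σ ((σ ^ e) a) = (σ ^ e) (σ a) := by
  rw [← MulAut.mul_apply, ← MulAut.mul_apply, ← pow_succ, ← pow_succ']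

theorem x_fix {X : Type*} [Group X] (σ : MulAut X) (e : ℕ) (a : X)
    (hg : (σ ^ e) (a * (σ a)⁻¹) = a * (σ a)⁻¹) : σ (((σ ^ e) a)⁻¹ * a) = ((σ ^ e) a)⁻¹ * a := by
  simp only [map_mul, map_inv] at hg ⊢
  rw [comm_pow]
  have h2 : ((σ ^ e) (σ a))⁻¹ = ((σ ^ e) a)⁻¹ * (a * (σ a)⁻¹) := by
    rw [← hg]; group
  rw [h2]; group

theorem result {X : Type*} [Group X] (σ : MulAut X) (e : ℕ) (he : 1 ≤ e)
    (hL : ∀ g : X, ∃ a : X, g = a * (σ a)⁻¹) (hLe : ∀ g : X, ∃ a : X, g = a * ((σ ^ e) a)⁻¹) :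
    (∀ g ∈ (MulEquiv.toMonoidHom (σ ^ e)).eqLocus (MonoidHom.id X), ∀ a : X, g = a * (σ a)⁻¹ →
        ((σ ^ e) a)⁻¹ * a ∈ (MulEquiv.toMonoidHom σ).eqLocus (MonoidHom.id X) ∧
          a⁻¹ * ((List.range e).map (fun i => (σ ^ i) g)).prod * a = ((σ ^ e) a)⁻¹ * a) ∧
    (∀ g ∈ (MulEquiv.toMonoidHom (σ ^ e)).eqLocus (MonoidHom.id X), ∀ g' ∈ (MulEquiv.toMonoidHom (σ ^ e)).eqLocus (MonoidHom.id X), ∀ a b : X,
        g = a * (σ a)⁻¹ → g' = b * (σ b)⁻¹ →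
          ((∃ k ∈ (MulEquiv.toMonoidHom (σ ^ e)).eqLocus (MonoidHom.id X), g' = k * g * (σ k)⁻¹) ↔
            (∃ h ∈ (MulEquiv.toMonoidHom σ).eqLocus (MonoidHom.id X), ((σ ^ e) b)⁻¹ * b = h * (((σ ^ e) a)⁻¹ * a) * h⁻¹))) ∧
    (∀ x ∈ (MulEquiv.toMonoidHom σ).eqLocus (MonoidHom.id X), ∃ g ∈ (MulEquiv.toMonoidHom (σ ^ e)).eqLocus (MonoidHom.id X), ∃ a : X,
        g = a * (σ a)⁻¹ ∧ ((σ ^ e) a)⁻¹ * a = x) := by
  have mem1 : ∀ (τ : MulAut X) (y : X), y ∈ (MulEquiv.toMonoidHom τ).eqLocus (MonoidHom.id X) ↔ τ y = y := by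
    intro τ y
    rfl
  simp only [mem1]
  refine ⟨?_, ?_, ?_⟩
  · intro g hg a ha
    subst ha
    refine ⟨x_fix σ e a hg, ?_⟩
    rw [telescope]; group
  · intro g hg g' hg' a b ha hb
    constructor
    · rintro ⟨k, hk, hgk⟩
      refine ⟨b⁻¹ * k * a, ?_, ?_⟩
      · rw [ha, hb] at hgk
        simp only [map_mul, map_inv]
        have h2 : σ k = σ b * b⁻¹ * k * a * (σ a)⁻¹ := by
          calc σ k = ((b * (σ b)⁻¹)⁻¹ * (b * (σ b)⁻¹)) * σ k := by group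
            _ = ((b * (σ b)⁻¹)⁻¹ * (k * (a * (σ a)⁻¹) * (σ k)⁻¹)) * σ k := by rw [← hgk]
            _ = _ := by group
        rw [h2]; group
      · have hu : σ (b⁻¹ * k * a) = b⁻¹ * k * a := by
          rw [ha, hb] at hgk
          simp only [map_mul, map_inv]
          have h2 : σ k = σ b * b⁻¹ * k * a * (σ a)⁻¹ := by
            calc σ k = ((b * (σ b)⁻¹)⁻¹ * (b * (σ b)⁻¹)) * σ k := by group
              _ = ((b * (σ b)⁻¹)⁻¹ * (k * (a * (σ a)⁻¹) * (σ k)⁻¹)) * σ k := by rw [← hgk]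
              _ = _ := by group
          rw [h2]; group
        have hu2 := pow_fix σ e _ hu
        simp only [map_mul, map_inv] at hu2
        rw [hk] at hu2
        have h3 : ((σ ^ e) b)⁻¹ = b⁻¹ * k * a * ((σ ^ e) a)⁻¹ * k⁻¹ := by
          rw [← hu2]; group
        rw [h3]; group
    · rintro ⟨h, hh, hx⟩
      refine ⟨b * h * a⁻¹, ?_, ?_⟩
      · simp only [map_mul, map_inv]
        rw [pow_fix σ e h hh]
        have h3 : (σ ^ e) b = b * h * (((σ ^ e) a)⁻¹ * a)⁻¹ * h⁻¹ := by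
          calc (σ ^ e) b = b * (((σ ^ e) b)⁻¹ * b)⁻¹ := by group
            _ = _ := by rw [hx]; group
        rw [h3]; group
      · simp only [map_mul, map_inv]
        rw [hh, ha, hb]; group
  · intro x hx
    obtain ⟨c, hc⟩ := hLe x⁻¹
    have hxa : ((σ ^ e) c⁻¹)⁻¹ * c⁻¹ = x := by
      rw [map_inv, inv_inv]
      calc (σ ^ e) c * c⁻¹ = (c * ((σ ^ e) c)⁻¹)⁻¹ := by group
        _ = x := by rw [← hc, inv_inv]
    refine ⟨c⁻¹ * (σ c⁻¹)⁻¹, ?_, c⁻¹, rfl, hxa⟩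
    have h1 : (σ ^ e) c⁻¹ = c⁻¹ * x⁻¹ := by
      rw [← hxa]; group
    have h2 : (σ ^ e) (σ c⁻¹) = σ c⁻¹ * x⁻¹ := by
      rw [← comm_pow, h1, map_mul, map_inv σ x, hx]
    rw [map_mul, map_inv (σ ^ e) (σ c⁻¹), h2, h1]
    group

end Cfsg.Agent.S2666
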