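import Cfsg.Statements.S2667

set_option autoImplicit false
open Cfsg

namespace Cfsg.Agent.S2667

theorem pow_fix {X : Type*} [Group X] (σ : MulAut X) (e : ℕ) (h : X) (hh : σ h = h) :
    (σ ^ e) h = h := by
  induction e with
  | zero => simp
  | succ n ih => rw [pow_succ, MulAut.mul_apply, hh, ih]

theorem result {X : Type*} [Group X] (σ : MulAut X) (e : ℕ) (he : 1 ≤ e)
    (g : X) (hg : g ∈ (MulEquiv.toMonoidHom (σ ^ e)).eqLocus (MonoidHom.id X)) (a : X) (ha : g = a * (σ a)⁻¹) (k : X) :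
    (k ∈ (MulEquiv.toMonoidHom (σ ^ e)).eqLocus (MonoidHom.id X) ∧ k * g * (σ k)⁻¹ = g) ↔
      (a⁻¹ * k * a ∈ (MulEquiv.toMonoidHom σ).eqLocus (MonoidHom.id X) ∧
        (a⁻¹ * k * a) * (((σ ^ e) a)⁻¹ * a) = (((σ ^ e) a)⁻¹ * a) * (a⁻¹ * k * a)) := by
  have key : k * g * (σ k)⁻¹ = g ↔ σ (a⁻¹ * k * a) = a⁻¹ * k * a := by
    subst ha
    simp only [map_mul, map_inv]
    constructor
    · intro h
      have h2 : k * a = a * (σ a)⁻¹ * σ k * σ a := by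
        calc k * a = (k * (a * (σ a)⁻¹) * (σ k)⁻¹) * σ k * σ a := by group
          _ = _ := by rw [h]
      calc (σ a)⁻¹ * σ k * σ a = a⁻¹ * (a * (σ a)⁻¹ * σ k * σ a) := by group
        _ = _ := by rw [← h2]; group
    · intro h
      have h2 : σ k = σ a * (a⁻¹ * k * a) * (σ a)⁻¹ := by
        rw [← h]; group
      rw [h2]; group
  have mem1 : ∀ (τ : MulAut X) (y : X), y ∈ (MulEquiv.toMonoidHom τ).eqLocus (MonoidHom.id X) ↔ τ y = y := by
    intro τ y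
    rfl
  rw [mem1, mem1, key]
  constructor
  · rintro ⟨h1, h2⟩
    refine ⟨h2, ?_⟩
    have h3 := pow_fix σ e _ h2
    simp only [map_mul, map_inv] at h3
    rw [h1] at h3
    calc a⁻¹ * k * a * (((σ ^ e) a)⁻¹ * a) = (((σ ^ e) a)⁻¹ * k * (σ ^ e) a) * (((σ ^ e) a)⁻¹ * a) := by rw [h3]
      _ = _ := by group
  · rintro ⟨h1, h2⟩
    refine ⟨?_, h1⟩
    have h3 := pow_fix σ e _ h1
    simp only [map_mul, map_inv] at h3
    have h4 : (σ ^ e) k = (σ ^ e) a * (a⁻¹ * k * a) * ((σ ^ e) a)⁻¹ := by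
      rw [← h3]; group
    rw [h4]
    calc (σ ^ e) a * (a⁻¹ * k * a) * ((σ ^ e) a)⁻¹ = (σ ^ e) a * ((a⁻¹ * k * a) * (((σ ^ e) a)⁻¹ * a)) * a⁻¹ := by group
      _ = _ := by rw [h2]; group

end Cfsg.Agent.S2667
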