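import Cfsg.Statements.S2668

set_option autoImplicit false
open Cfsg

namespace Cfsg.Agent.S2668

theorem pow_fix {X : Type*} [Group X] (σ : MulAut X) (e : ℕ) (h : X) (hh : σ h = h) :
    (σ ^ e) h = h := by
  induction e with
  | zero => simp
  | succ n ih => rw [pow_succ, MulAut.mul_apply, hh, ih]

theorem telescope {X : Type*} [Group X] (σ : MulAut X) (a : X) (d : ℕ) :
    ((List.range d).map (fun i => (σ ^ i) (a * (σ a)⁻¹))).prod = a * ((σ ^ d) a)⁻¹ := by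
  induction d with
  | zero => simp
  | succ n ih =>
    rw [List.range_succ, List.map_append, List.prod_append, ih]
    simp only [List.map_cons, List.map_nil, List.prod_cons, List.prod_nil, mul_one, map_mul, map_inv]
    have : (σ ^ n) (σ a) = (σ ^ (n + 1)) a := by
      rw [pow_succ, MulAut.mul_apply]
    rw [this]
    group

theorem x_fix {X : Type*} [Group X] (σ : MulAut X) (e : ℕ) (a : X)
    (hg : (σ ^ e) (a * (σ a)⁻¹) = a * (σ a)⁻¹) : σ (((σ ^ e) a)⁻¹ * a) = ((σ ^ e) a)⁻¹ * a := by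
  simp only [map_mul, map_inv] at hg ⊢
  have hc : σ ((σ ^ e) a) = (σ ^ e) (σ a) := by
    rw [← MulAut.mul_apply, ← MulAut.mul_apply, ← pow_succ, ← pow_succ']
  rw [hc]
  have h2 : ((σ ^ e) (σ a))⁻¹ = ((σ ^ e) a)⁻¹ * (a * (σ a)⁻¹) := by
    rw [← hg]; group
  rw [h2]; group

theorem pow_x {X : Type*} [Group X] (τ : MulAut X) (a : X)
    (hx : τ ((τ a)⁻¹ * a) = (τ a)⁻¹ * a) (d : ℕ) :
    ((τ ^ d) a)⁻¹ * a = ((τ a)⁻¹ * a) ^ d := by
  induction d with
  | zero => simp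
  | succ n ih =>
    have h1 : τ a = a * ((τ a)⁻¹ * a)⁻¹ := by group
    have h2 : (τ ^ (n + 1)) a = (τ ^ n) a * ((τ a)⁻¹ * a)⁻¹ := by
      rw [pow_succ, MulAut.mul_apply]
      conv_lhs => rw [h1]
      rw [map_mul, map_inv, pow_fix τ n _ hx]
    rw [h2, pow_succ', ← ih]
    group

theorem result {X : Type*} [Group X] (σ : MulAut X) (e d : ℕ) (he : 1 ≤ e) (hd : 1 ≤ d)
    (g : X) (hg : g ∈ (MulEquiv.toMonoidHom (σ ^ e)).eqLocus (MonoidHom.id X)) (a : X) (ha : g = a * (σ a)⁻¹) :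
    ((List.range d).map (fun i => (σ ^ i) g)).prod = a * ((σ ^ d) a)⁻¹ ∧
      ((List.range d).map (fun i => (σ ^ i) g)).prod ∈ (MulEquiv.toMonoidHom ((σ ^ d) ^ e)).eqLocus (MonoidHom.id X) ∧
      (((σ ^ d) ^ e) a)⁻¹ * a = (((σ ^ e) a)⁻¹ * a) ^ d := by
  have hg' : (σ ^ e) g = g := hg
  have hde : (σ ^ d) ^ e = (σ ^ e) ^ d := by rw [← pow_mul, ← pow_mul, mul_comm]
  refine ⟨?_, ?_, ?_⟩
  · rw [ha]; exact telescope σ a d
  · apply Subgroup.list_prod_mem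
    intro y hy
    rw [List.mem_map] at hy
    obtain ⟨i, -, rfl⟩ := hy
    change ((σ ^ d) ^ e) ((σ ^ i) g) = (σ ^ i) g
    have hc : ((σ ^ d) ^ e) ((σ ^ i) g) = (σ ^ i) (((σ ^ d) ^ e) g) := by
      rw [← MulAut.mul_apply, ← MulAut.mul_apply, ← pow_mul, ← pow_add, ← pow_add, add_comm]
    rw [hc, hde, pow_fix (σ ^ e) d g hg']
  · rw [hde]
    apply pow_x
    apply pow_fix
    apply x_fix
    rw [← ha]; exact hg'

end Cfsg.Agent.S2668
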