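import Cfsg.Statements.S2669

set_option autoImplicit false
open Cfsg

namespace Cfsg.Agent.S2669

theorem pow_fix {X : Type*} [Group X] (σ : MulAut X) (e : ℕ) (h : X) (hh : σ h = h) :
    (σ ^ e) h = h := by
  induction e with
  | zero => simp
  | succ n ih => rw [pow_succ, MulAut.mul_apply, hh, ih]

theorem card_rel {α β T : Type*} (R : α → β → Prop)
    (hT : ∀ a, (∃ b, R a b) → Nonempty ({b // R a b} ≃ T)) :
    Nat.card {p : α × β // R p.1 p.2} = Nat.card {a // ∃ b, R a b} * Nat.card T := by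
  classical
  have e1 : {p : α × β // R p.1 p.2} ≃ Σ a : α, {b // R a b} :=
    Equiv.subtypeProdEquivSigmaSubtype R
  have e2 : (Σ a : {a // ∃ b, R a b}, {b // R a.1 b}) ≃ Σ a : α, {b // R a b} :=
    Equiv.sigmaSubtypeEquivOfSubset (fun a => {b // R a b}) (fun a => ∃ b, R a b)
      (fun a b => ⟨b.1, b.2⟩)
  have e3 : (Σ a : {a // ∃ b, R a b}, {b // R a.1 b}) ≃ Σ _a : {a // ∃ b, R a b}, T :=
    Equiv.sigmaCongrRight (fun a => (hT a.1 a.2).some)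
  have e4 : (Σ _a : {a // ∃ b, R a b}, T) ≃ {a // ∃ b, R a b} × T := Equiv.sigmaEquivProd _ _
  rw [Nat.card_congr (e1.trans (e2.symm.trans (e3.trans e4))), Nat.card_prod]

theorem card_rel' {α β T : Type*} (R : α → β → Prop)
    (hT : ∀ b, (∃ a, R a b) → Nonempty ({a // R a b} ≃ T)) :
    Nat.card {p : α × β // R p.1 p.2} = Nat.card {b // ∃ a, R a b} * Nat.card T := by
  rw [← card_rel (fun b a => R a b) hT]
  apply Nat.card_congr
  exact (Equiv.prodComm α β).subtypeEquiv (fun p => Iff.rfl)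

def cosetEquivR {X : Type*} [Group X] (Y H : Subgroup X) (c : X) (h₀ : H) (hc : c * h₀ ∈ Y) :
    {h : ↥H // c * h ∈ Y} ≃ ↥(Y ⊓ H) where
  toFun h := ⟨(h₀ : X)⁻¹ * h.1, by
    refine ⟨?_, H.mul_mem (H.inv_mem h₀.2) h.1.2⟩
    have : (h₀ : X)⁻¹ * h.1 = (c * h₀)⁻¹ * (c * h.1) := by group
    change (h₀ : X)⁻¹ * h.1 ∈ Y
    rw [this]
    exact Y.mul_mem (Y.inv_mem hc) h.2⟩
  invFun u := ⟨⟨(h₀ : X) * u.1, H.mul_mem h₀.2 u.2.2⟩, by
    change c * ((h₀ : X) * u.1) ∈ Y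
    rw [← mul_assoc]
    exact Y.mul_mem hc u.2.1⟩
  left_inv h := by
    apply Subtype.ext; apply Subtype.ext
    simp
  right_inv u := by
    apply Subtype.ext
    simp

def cosetEquivL {X : Type*} [Group X] (Y G : Subgroup X) (c : X) (k₀ : G) (hc : (k₀ : X)⁻¹ * c ∈ Y) :
    {k : ↥G // (k : X)⁻¹ * c ∈ Y} ≃ ↥(Y ⊓ G) where
  toFun k := ⟨(k₀ : X)⁻¹ * k.1, by
    refine ⟨?_, G.mul_mem (G.inv_mem k₀.2) k.1.2⟩
    have : (k₀ : X)⁻¹ * k.1 = ((k₀ : X)⁻¹ * c) * ((k.1 : X)⁻¹ * c)⁻¹ := by group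
    change (k₀ : X)⁻¹ * k.1 ∈ Y
    rw [this]
    exact Y.mul_mem hc (Y.inv_mem k.2)⟩
  invFun u := ⟨⟨(k₀ : X) * u.1, G.mul_mem k₀.2 u.2.2⟩, by
    change ((k₀ : X) * u.1)⁻¹ * c ∈ Y
    have : ((k₀ : X) * u.1)⁻¹ * c = (u.1 : X)⁻¹ * ((k₀ : X)⁻¹ * c) := by group
    rw [this]
    exact Y.mul_mem (Y.inv_mem u.2.1) hc⟩
  left_inv k := by
    apply Subtype.ext; apply Subtype.ext
    simp
  right_inv u := by
    apply Subtype.ext
    simp

theorem result {X : Type*} [Group X] (σ : MulAut X) (e : ℕ) (he : 1 ≤ e)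
    [Finite ↥((MulEquiv.toMonoidHom (σ ^ e)).eqLocus (MonoidHom.id X))]
    (Y : Subgroup X) (hY : ∀ y : X, y ∈ Y ↔ σ y ∈ Y)
    (hYL : ∀ y ∈ Y, ∃ a ∈ Y, y = a * (σ a)⁻¹) (hYLe : ∀ y ∈ Y, ∃ a ∈ Y, y = a * ((σ ^ e) a)⁻¹)
    (g : X) (hg : g ∈ (MulEquiv.toMonoidHom (σ ^ e)).eqLocus (MonoidHom.id X)) (a : X) (ha : g = a * (σ a)⁻¹) :
    Nat.card {k : ↥((MulEquiv.toMonoidHom (σ ^ e)).eqLocus (MonoidHom.id X)) // (k : X)⁻¹ * g * σ k ∈ Y} *
        Nat.card ↥(Y ⊓ (MulEquiv.toMonoidHom σ).eqLocus (MonoidHom.id X)) =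
      Nat.card {h : ↥((MulEquiv.toMonoidHom σ).eqLocus (MonoidHom.id X)) // (h : X)⁻¹ * (((σ ^ e) a)⁻¹ * a) * h ∈ Y} *
        Nat.card ↥(Y ⊓ (MulEquiv.toMonoidHom (σ ^ e)).eqLocus (MonoidHom.id X)) := by
  set G := (MulEquiv.toMonoidHom (σ ^ e)).eqLocus (MonoidHom.id X) with hG
  set H := (MulEquiv.toMonoidHom σ).eqLocus (MonoidHom.id X) with hH
  have memG : ∀ y : X, y ∈ G ↔ (σ ^ e) y = y := fun y => Iff.rfl
  have memH : ∀ y : X, y ∈ H ↔ σ y = y := fun y => Iff.rfl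
  have hYe : ∀ (n : ℕ) (y : X), y ∈ Y → (σ ^ n) y ∈ Y := by
    intro n
    induction n with
    | zero => intro y hy; simpa using hy
    | succ n ih =>
      intro y hy
      rw [pow_succ, MulAut.mul_apply]
      exact ih _ ((hY y).1 hy)
  let R : ↥G → ↥H → Prop := fun k h => (k : X)⁻¹ * a * h ∈ Y
  have h1 : Nat.card {p : ↥G × ↥H // R p.1 p.2} = Nat.card {k : ↥G // ∃ h, R k h} * Nat.card ↥(Y ⊓ H) := by
    apply card_rel
    rintro k ⟨h₀, hh₀⟩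
    exact ⟨cosetEquivR Y H ((k : X)⁻¹ * a) h₀ hh₀⟩
  have h2 : Nat.card {p : ↥G × ↥H // R p.1 p.2} = Nat.card {h : ↥H // ∃ k, R k h} * Nat.card ↥(Y ⊓ G) := by
    apply card_rel'
    rintro h ⟨k₀, hk₀⟩
    have hk₀' : (k₀ : X)⁻¹ * (a * h) ∈ Y := by rw [← mul_assoc]; exact hk₀
    refine ⟨Equiv.trans (Equiv.subtypeEquivRight ?_) (cosetEquivL Y G (a * h) k₀ hk₀')⟩
    intro k
    change (k : X)⁻¹ * a * h ∈ Y ↔ (k : X)⁻¹ * (a * h) ∈ Y
    rw [mul_assoc]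
  have h3 : Nat.card {k : ↥G // ∃ h, R k h} = Nat.card {k : ↥G // (k : X)⁻¹ * g * σ k ∈ Y} := by
    apply Nat.card_congr
    apply Equiv.subtypeEquivRight
    intro k
    constructor
    · rintro ⟨h, hh⟩
      have hy : (k : X)⁻¹ * a * h ∈ Y := hh
      have hsy := (hY _).1 hy
      have hσh : σ (h : X) = h := h.2
      have : (k : X)⁻¹ * g * σ k = ((k : X)⁻¹ * a * h) * (σ ((k : X)⁻¹ * a * h))⁻¹ := by
        simp only [map_mul, map_inv]
        rw [hσh, ha]; group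
      rw [this]
      exact Y.mul_mem hy (Y.inv_mem hsy)
    · intro hk
      obtain ⟨y, hy, hyk⟩ := hYL _ hk
      have hmem : a⁻¹ * k * y ∈ H := by
        rw [memH]
        simp only [map_mul, map_inv]
        rw [ha] at hyk
        have : σ (k : X) = σ a * a⁻¹ * k * y * (σ y)⁻¹ := by
          calc σ (k : X) = σ a * a⁻¹ * k * ((k : X)⁻¹ * (a * (σ a)⁻¹) * σ k) := by group
            _ = _ := by rw [hyk]; group
        rw [this]; group
      refine ⟨⟨a⁻¹ * k * y, hmem⟩, ?_⟩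
      change (k : X)⁻¹ * a * (a⁻¹ * k * y) ∈ Y
      have : (k : X)⁻¹ * a * (a⁻¹ * k * y) = y := by group
      rw [this]; exact hy
  have h4 : Nat.card {h : ↥H // ∃ k, R k h} = Nat.card {h : ↥H // (h : X)⁻¹ * (((σ ^ e) a)⁻¹ * a) * h ∈ Y} := by
    apply Nat.card_congr
    apply Equiv.subtypeEquivRight
    intro h
    have hσh : (σ ^ e) (h : X) = h := pow_fix σ e _ h.2
    constructor
    · rintro ⟨k, hk⟩
      have hy : (k : X)⁻¹ * a * h ∈ Y := hk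
      have hsy := hYe e _ hy
      have hσk : (σ ^ e) (k : X) = k := k.2
      have : (h : X)⁻¹ * (((σ ^ e) a)⁻¹ * a) * h = ((σ ^ e) ((k : X)⁻¹ * a * h))⁻¹ * ((k : X)⁻¹ * a * h) := by
        simp only [map_mul, map_inv]
        rw [hσh, hσk]; group
      rw [this]
      exact Y.mul_mem (Y.inv_mem hsy) hy
    · intro hh
      obtain ⟨c, hc, hch⟩ := hYLe _ (Y.inv_mem hh)
      have hmem : a * h * c ∈ G := by
        rw [memG]
        simp only [map_mul]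
        rw [hσh]
        have : (σ ^ e) c = (h : X)⁻¹ * (((σ ^ e) a)⁻¹ * a) * h * c := by
          calc (σ ^ e) c = (c * ((σ ^ e) c)⁻¹)⁻¹ * c := by group
            _ = _ := by rw [← hch, inv_inv]
        rw [this]; group
      refine ⟨⟨a * h * c, hmem⟩, ?_⟩
      change (a * h * c)⁻¹ * a * h ∈ Y
      have : (a * h * c)⁻¹ * a * h = c⁻¹ := by group
      rw [this]; exact Y.inv_mem hc
  rw [← h3, ← h4, ← h1, ← h2]

end Cfsg.Agent.S2669
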