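import Cfsg.Statements.S2671
import Cfsg.Agent.Lib.Helper50.CC.MAIN
import Cfsg.Agent.Lib.Helper50.CC.TW5
import Cfsg.Agent.Lib.Helper50.CC.ROOT
import Cfsg.Agent.Lib.Helper50.CC.CNT1
import Cfsg.Agent.Lib.Helper50.CC.CNT2
import Cfsg.Agent.Lib.Helper50.CC.GU1
import Cfsg.Agent.Lib.Helper50.CC.GU2
import Cfsg.Agent.Lib.Helper50.CC.AR2
import Cfsg.Agent.Lib.Helper50.CC.AR3
import Cfsg.Agent.Lib.Helper50.CC.AR4
import Cfsg.Agent.Lib.Helper50.GUFrames

set_option autoImplicit false
open Cfsg
open Cfsg.Agent.Lib.Helper50.CC Cfsg.Agent.Lib.Helper65.GR Cfsg.Agent.Lib.Helper50 Cfsg.Agent.Lib.Helper50.GUConj Cfsg.Agent.Lib.Helper50.Herm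

namespace Cfsg.Agent.S2671

/-- Number of conjugacy classes of elements of odd prime order r in the general unitary group GU_n(q), for r not dividing q(q + 1): let i be the multiplicative order of q modulo r, b = i if i is odd and b = i/2 if i is even, and s = (r − 1)/b. If i ≢ 2 (mod 4) the eigenvalue orbits pair off into dual pairs of totally isotropic blocks and there are C(⌊n/(2b)⌋ + s/2, s/2) − 1 classes; if i ≡ 2 (mod 4) each orbit gives a non-degenerate block of dimension i/2 and there are C(⌊2n/i⌋ + s, s) − 1 classes. -/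
theorem result {K : Type*} [Field K] [Fintype K] {p q n r i b s : ℕ} [Fact p.Prime] [CharP K p] (hK : Fintype.card K = q ^ 2) (hr : r.Prime) (hr2 : r ≠ 2) (hrp : r ≠ p) (hi : i = orderOf (q : ZMod r)) (hi2 : i ≠ 2) (hb : b = if Odd i then i else i / 2) (hs : s * b = r - 1) : Nat.card {C : ConjClasses ↥(Cfsg.GU n K q) // ∃ g : ↥(Cfsg.GU n K q), ConjClasses.mk g = C ∧ orderOf g = r} = if i % 4 = 2 then Nat.choose (2 * n / i + s) s - 1 else Nat.choose (n / (2 * b) + s / 2) (s / 2) - 1 := by
  have hp : p.Prime := Fact.out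
  have hrF : (r : K) ≠ 0 := by
    intro h
    rw [CharP.cast_eq_zero_iff K p r] at h
    exact hrp ((Nat.prime_dvd_prime_iff_eq hp hr).mp h).symm
  have hb' : b = orderOf ((Fintype.card K : ℕ) : ZMod r) := by
    rw [hK]; exact orderOf_sq q r i b hi hb
  have hb1 : 1 ≤ b := by
    rcases Nat.eq_zero_or_pos b with h | h
    · rw [h, mul_zero] at hs
      have := hr.two_le
      omega
    · exact h
  have hrq : ¬ r ∣ q := by
    intro h
    obtain ⟨k, -, hk⟩ := FiniteField.card K p
    have h1 : r ∣ p ^ (k : ℕ) := by rw [← hk, hK]; exact dvd_pow h (by norm_num)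
    exact hrp ((Nat.prime_dvd_prime_iff_eq hr hp).mp (hr.dvd_of_dvd_pow h1))
  have hdeg : ∀ P ∈ irr K r, P.natDegree = b := fun P hP => by
    rw [hb']; exact irr_natDegree p r hr hrp P hP
  have hcop : r.Coprime p := (Nat.coprime_primes hr hp).mpr hrp
  have hcard : Fintype.card (irr K r) = s := by
    rw [Fintype.card_coe]; exact card_irr p r b s hr hrp hb' hs
  have hσ : ∀ x : K, (frobQ hK) ((frobQ hK) x) = x := fun x => pow_q_sq hK x
  set τ := st (frobQ hK) r with hτ
  -- existence, for all degrees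
  have hex : ∀ (n' : ℕ) (a : irr K r → ℕ), a ≠ 0 → b * ∑ P, a P ≤ n' → (∀ P, a (τ P) = a P) →
      ∃ g : ↥(Cfsg.GU n' K q), orderOf g = r ∧
        ((g : Matrix.GeneralLinearGroup (Fin n') K) : Matrix (Fin n') (Fin n') K).charpoly = cp K r n' b a := by
    intro n' a ha0 ha hsym
    obtain ⟨M, hM, hc⟩ := exists_order p r n' b hr hrp hb1 hdeg a ha0 ha
    obtain ⟨z, hz⟩ := gu_exists hK p M (by rw [hM]; exact hcop) (by
      rw [hc]; exact (sym_iff_tw (frobQ hK) hσ r n' b hr hrF a).2 hsym)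
    refine ⟨⟨z * M * z⁻¹, hz⟩, ?_, ?_⟩
    · rw [← Subgroup.orderOf_coe]
      show orderOf (z * M * z⁻¹) = r
      rw [← hM]
      exact orderOf_injective (MulAut.conj z).toMonoidHom (MulAut.conj z).injective M
    · show ((z * M * z⁻¹ : Matrix.GeneralLinearGroup (Fin n') K) : Matrix (Fin n') (Fin n') K).charpoly = _
      rw [← hc]
      simp only [Units.val_mul]
      rw [Matrix.charpoly_mul_comm, ← mul_assoc]
      simp
  have hdich : (i % 4 ≠ 2 → ∀ P, τ P ≠ P) ∧ (i % 4 = 2 → ∀ P, τ P = P) := by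
    constructor
    · intro h4 P hP
      classical
      obtain ⟨g, hg, -⟩ := hex b (Pi.single P 1) (by
          intro h
          have := congrFun h P
          simp at this) (by simp) (by
          intro Q
          by_cases hQ : Q = P
          · rw [hQ, hP]
          · have : τ Q ≠ P := by
              intro h
              apply hQ
              rw [← st_st (frobQ hK) hσ r hr hrF Q, ← hτ, h, hP]
            rw [Pi.single_eq_of_ne this, Pi.single_eq_of_ne hQ])
      have h1 : r ∣ Nat.card ↥(Cfsg.GU b K q) := by rw [← hg]; exact orderOf_dvd_natCard g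
      rw [Cfsg.Agent.Lib.Helper50.Herm.card_GU hK b] at h1
      exact not_dvd_card_GU q r i b hr hr2 hrq hi hb h4 h1
    · intro h4 P
      obtain ⟨e, he1, he2⟩ := exists_pow_neg_one_gu hK p r i hr hr2 hi h4
      exact st_eq_self p (frobQ hK) hσ r hr hrF e he1 he2 P
  have key := count_main (G := ↥(Cfsg.GU n K q))
    (fun g => ((g : Matrix.GeneralLinearGroup (Fin n) K) : Matrix (Fin n) (Fin n) K).charpoly) r n b hr hrF τ
    (by
      intro g h hgh
      obtain ⟨c, hc⟩ := isConj_iff.mp hgh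
      rw [← hc]
      show _ = ((c.1 * g.1 * c.1⁻¹ : Matrix.GeneralLinearGroup (Fin n) K) : Matrix (Fin n) (Fin n) K).charpoly
      simp only [Units.val_mul]
      rw [Matrix.charpoly_mul_comm, ← mul_assoc]
      simp)
    (by
      intro g hg
      have hg' : orderOf g.1 = r := by rw [Subgroup.orderOf_coe]; exact hg
      have hgr : ((g : Matrix.GeneralLinearGroup (Fin n) K) : Matrix (Fin n) (Fin n) K) ^ r = 1 := by
        rw [← Units.val_pow_eq_pow_val, ← hg', pow_orderOf_eq_one, Units.val_one]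
      obtain ⟨a, ha, hga⟩ := charpoly_eq_cp r n b hr hrF hdeg _ hgr
      refine ⟨a, ?_, ha, ?_, hga⟩
      · rintro rfl
        exact charpoly_ne_cp_zero p r n b hr hrp g.1 hg' hga
      · rw [hτ, ← sym_iff_tw (frobQ hK) hσ r n b hr hrF a, ← hga]
        exact gu_tw hK g.1 g.2)
    (by
      intro g h hg hh hc
      have hg' : orderOf g.1 = r := by rw [Subgroup.orderOf_coe]; exact hg
      have hh' : orderOf h.1 = r := by rw [Subgroup.orderOf_coe]; exact hh
      obtain ⟨x, hx⟩ := Cfsg.Agent.Lib.Helper50.SemiConj.conj_GL p g.1 h.1 (by rw [hg']; exact hcop)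
        (by rw [hh']; exact hcop) hc
      obtain ⟨z, hz, hzz⟩ := conj_GU hK g.1 h.1 x g.2 h.2 hx
      exact isConj_iff.mpr ⟨⟨z, hz⟩, Subtype.ext hzz⟩)
    (hex n)
  rw [key]
  by_cases h4 : i % 4 = 2
  · rw [if_pos h4, card_lab_id τ (hdich.2 h4) n b s hb1 hcard]
    have hodd : ¬ Odd i := by rw [Nat.odd_iff]; omega
    rw [if_neg hodd] at hb
    have hi2b : i = 2 * b := by omega
    rw [hi2b, Nat.mul_div_mul_left _ _ (by norm_num : 0 < 2)]
  · rw [if_neg h4, card_lab_free τ (st_st _ hσ r hr hrF) (hdich.1 h4) n b s hb1 hcard]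

end Cfsg.Agent.S2671
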