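import Cfsg.Statements.S2673
import Cfsg.Agent.Lib.Helper50.CC.OCOM

set_option autoImplicit false
open Cfsg
open Polynomial Cfsg.Agent.Lib.Helper65.GR Cfsg.Agent.Lib.Helper49 QuadraticMap Matrix Cfsg.Agent.Lib.Helper50.CC

namespace Cfsg.Agent.S2673

/-- Number of conjugacy classes of elements of odd prime order r ≠ p in the orthogonal group O_(2m+1)(q) of x_0² + Σ x_j y_j, q odd: with i the multiplicative order of q mod r and t = (r − 1)/i, there are C(⌊m/i⌋ + t/2, t/2) − 1 classes if i is odd (dual pairs of totally singular i-blocks) and C(⌊(2m+1)/i⌋ + t, t) − 1 if i is even (elliptic i-blocks). -/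
theorem result {F : Type*} [Field F] [Fintype F] {p q : ℕ} [Fact p.Prime] [CharP F p] (hF : Fintype.card F = q) (hq : Odd q) (m r i t : ℕ) (hr : r.Prime) (hr2 : r ≠ 2) (hrp : r ≠ p) (hi : i = orderOf (q : ZMod r)) (ht : t * i = r - 1) : Nat.card {C : ConjClasses ↥(Cfsg.isometryGroup F (Cfsg.quadFormOdd m F)) // ∃ g : ↥(Cfsg.isometryGroup F (Cfsg.quadFormOdd m F)), ConjClasses.mk g = C ∧ orderOf g = r} = if Odd i then Nat.choose (m / i + t / 2) (t / 2) - 1 else Nat.choose ((2 * m + 1) / i + t) t - 1 := by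
  subst hF
  have h2F : (2 : F) ≠ 0 := by
    intro h
    have h2 : ((2 : ℕ) : F) = 0 := by exact_mod_cast h
    rw [CharP.cast_eq_zero_iff F p 2] at h2
    have hp : p.Prime := Fact.out
    have hp2 : p = 2 := (Nat.prime_dvd_prime_iff_eq hp Nat.prime_two).mp h2
    obtain ⟨n, hn⟩ := FiniteField.card' F
    have hdvd : p ∣ Fintype.card F := by
      have := FiniteField.card F p
      obtain ⟨k, _, hk⟩ := this
      rw [hk]
      exact dvd_pow_self p k.ne_zero
    rw [hp2] at hdvd
    exact (Nat.not_even_iff_odd.mpr hq) (even_iff_two_dvd.mpr hdvd)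
  obtain ⟨hrF, hi1, ht1, hdeg, hcard, hd1, hd2, hss, hpar⟩ := setup (F := F) p r i t hr hr2 hrp hi ht
  have hn : Fintype.card (Unit ⊕ (Fin m ⊕ Fin m)) = 2 * m + 1 := by simp; ring
  have hQ := oddQF_nondegenerate m F h2F
  have key := count_main (G := ↥(Cfsg.isometryGroup F (Cfsg.quadFormOdd m F)))
    (fun g => (g.1.1 : Matrix _ _ F).charpoly) r (2 * m + 1) i hr hrF (st (RingHom.id F) r)
    (o_charpoly_conj _)
    (fun g hg => o_label _ (oddQF m F) (oddQF_coe m F) hQ r (2 * m + 1) i hr hrF hdeg hn g hg)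
    (fun g h hg hh hc => o_conj' p _ (oddQF m F) (oddQF_coe m F) hQ r hr hr2 hrp g h hg hh hc)
    (by
      intro a ha0 ha hsym
      obtain ⟨k, hk⟩ := hpar a hsym
      exact exists_odd_dim p h2F r i m hr hr2 hrp hi1 hdeg a ha0 hsym k (by omega) (by omega))
  rw [key]
  by_cases hodd : Odd i
  · rw [if_pos hodd, card_lab_free _ hss (hd1 hodd) (2 * m + 1) i t hi1 hcard]
    have : (2 * m + 1) / (2 * i) = m / i := by
      rw [← Nat.div_div_eq_div_mul]
      congr 1
      omega
    rw [this]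
  · rw [if_neg hodd, card_lab_id _ (hd2 hodd) (2 * m + 1) i t hi1 hcard]

end Cfsg.Agent.S2673
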