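import Cfsg.Statements.S2674
import Cfsg.Agent.Lib.Helper50.CC.OCOM

set_option autoImplicit false
open Cfsg
open Polynomial Cfsg.Agent.Lib.Helper65.GR Cfsg.Agent.Lib.Helper49 QuadraticMap Matrix Cfsg.Agent.Lib.Helper50.CC

namespace Cfsg.Agent.S2674

/-- Number of conjugacy classes of elements of odd prime order r ≠ p in the orthogonal group O⁺_2m(q) of Σ x_j y_j (m ≥ 1): with i the multiplicative order of q mod r and t = (r − 1)/i — if i is odd, C(⌊m/i⌋ + t/2, t/2) − 1; if i is even, C(⌊2m/i⌋ + t, t) − 1 minus, when i divides 2m with odd quotient, the C(2m/i + t − 1, t − 1) tuples using the whole space (an odd number of elliptic i-blocks fills an elliptic, not a hyperbolic, space). -/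
theorem result {F : Type*} [Field F] [Fintype F] {p q : ℕ} [Fact p.Prime] [CharP F p] (hF : Fintype.card F = q) (m r i t : ℕ) (hm : 1 ≤ m) (hr : r.Prime) (hr2 : r ≠ 2) (hrp : r ≠ p) (hi : i = orderOf (q : ZMod r)) (ht : t * i = r - 1) : Nat.card {C : ConjClasses ↥(Cfsg.isometryGroup F (Cfsg.quadFormPlus m F)) // ∃ g : ↥(Cfsg.isometryGroup F (Cfsg.quadFormPlus m F)), ConjClasses.mk g = C ∧ orderOf g = r} = if Odd i then Nat.choose (m / i + t / 2) (t / 2) - 1 else Nat.choose (2 * m / i + t) t - 1 - (if i ∣ 2 * m ∧ Odd (2 * m / i) then Nat.choose (2 * m / i + t - 1) (t - 1) else 0) := by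
  subst hF
  obtain ⟨hrF, hi1, ht1, hdeg, hcard, hd1, hd2, hss, hpar⟩ := setup (F := F) p r i t hr hr2 hrp hi ht
  have hn : Fintype.card (Fin m ⊕ Fin m) = 2 * m := by simp; ring
  have hQ := plusQF_nondegenerate m F
  by_cases hodd : Odd i
  · rw [if_pos hodd]
    have key := count_main (G := ↥(Cfsg.isometryGroup F (Cfsg.quadFormPlus m F)))
      (fun g => (g.1.1 : Matrix _ _ F).charpoly) r (2 * m) i hr hrF (st (RingHom.id F) r)
      (o_charpoly_conj _)
      (fun g hg => o_label _ (plusQF m F) (plusQF_coe m F) hQ r (2 * m) i hr hrF hdeg hn g hg)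
      (fun g h hg hh hc => o_conj' p _ (plusQF m F) (plusQF_coe m F) hQ r hr hr2 hrp g h hg hh hc)
      (by
        intro a ha0 ha hsym
        obtain ⟨A, hA, hAc⟩ := hyp_core p m r i hr hrp hi1 hdeg (hd1 hodd) a ha0 ha hsym
        obtain ⟨g, hg, hgc⟩ := hyp_plus m A
        exact ⟨g, by rw [hg, hA], by rw [hgc, hAc]⟩)
    rw [key, card_lab_free _ hss (hd1 hodd) (2 * m) i t hi1 hcard,
      Nat.mul_div_mul_left _ _ (by norm_num : 0 < 2)]
  · rw [if_neg hodd]
    have hev : Even i := Nat.not_odd_iff_even.mp hodd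
    obtain ⟨a', c', hac⟩ := exists_aniso (F := F)
    obtain ⟨d, rfl⟩ : ∃ d, m = d + 1 := ⟨m - 1, by omega⟩
    have key := count_pred (G := ↥(Cfsg.isometryGroup F (Cfsg.quadFormPlus (d + 1) F)))
      (fun g => (g.1.1 : Matrix _ _ F).charpoly) r (2 * (d + 1)) i hr hrF
      (fun a => a ≠ 0 ∧ i * ∑ P, a P ≤ 2 * (d + 1) ∧ (∀ P, a (st (RingHom.id F) r P) = a P) ∧
        ¬ (i * ∑ P, a P = 2 * (d + 1) ∧ Odd (∑ P, a P)))
      (o_charpoly_conj _)
      (by
        intro g hg
        obtain ⟨a, ha0, ha, hsym, hga⟩ :=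
          o_label _ (plusQF (d + 1) F) (plusQF_coe (d + 1) F) hQ r (2 * (d + 1)) i hr hrF hdeg hn g hg
        refine ⟨a, ⟨ha0, ha, hsym, ?_⟩, hga⟩
        rintro ⟨hfull, hoddA⟩
        have := parity_full r i (d + 1) hr hr2 hrF hi hev hi1 (Cfsg.quadFormPlus (d + 1) F)
          (by simp [Cfsg.quadFormPlus]) 1 (Or.inl rfl) (N0_plus (d + 1)) a hfull g hg hga
        rw [hoddA.neg_one_pow] at this
        norm_num at this)
      (fun g h hg hh hc =>
        o_conj' p _ (plusQF (d + 1) F) (plusQF_coe (d + 1) F) hQ r hr hr2 hrp g h hg hh hc)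
      (by
        rintro a ⟨ha0, ha, hsym, hex⟩
        obtain ⟨k, hk⟩ := hpar a hsym
        have hk2 : i * ∑ P, a P = 2 * k := by omega
        by_cases hA : Even (∑ P, a P)
        · obtain ⟨d₁, hd₁⟩ : ∃ d₁, d + 1 = k + d₁ := ⟨d + 1 - k, by omega⟩
          exact (exists_even_dim p r i hr hr2 hrp hi hev hi1 hdeg a' c' hac a ha0 hsym k d₁ d hk2 hd₁
            (plusQF d₁ F) (plusQF_nondegenerate d₁ F) (by simp; ring) 1 (Or.inl rfl)
            (by rw [plusQF_coe]; exact N0_plus d₁)).1 (by rw [hA.neg_one_pow]; norm_num)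
        · have hA' : Odd (∑ P, a P) := Nat.not_even_iff_odd.mp hA
          have hne : i * ∑ P, a P ≠ 2 * (d + 1) := fun h => hex ⟨h, hA'⟩
          obtain ⟨e, he⟩ : ∃ e, d + 1 = k + (e + 1) := ⟨d - k, by omega⟩
          exact (exists_even_dim p r i hr hr2 hrp hi hev hi1 hdeg a' c' hac a ha0 hsym k (e + 1) d hk2 he
            (minusQF e F a' c') (minusQF_nondegenerate e F a' c' (minus_disc_ne_zero a' c' hac))
            (by simp; ring) (-1) (Or.inr rfl)
            (by rw [minusQF_coe]; exact N0_minus a' c' hac e)).1 (by rw [hA'.neg_one_pow]; norm_num))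
    rw [key, card_lab_id_excl _ (hd2 hodd) (2 * (d + 1)) i t hi1 hcard ht1 (by omega) Odd]

end Cfsg.Agent.S2674
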