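import Cfsg.Statements.S2675
import Cfsg.Agent.Lib.Helper50.CC.OCOM

set_option autoImplicit false
open Cfsg
open Polynomial Cfsg.Agent.Lib.Helper65.GR Cfsg.Agent.Lib.Helper49 QuadraticMap Matrix Cfsg.Agent.Lib.Helper50.CC

namespace Cfsg.Agent.S2675

/-- Number of conjugacy classes of elements of odd prime order r ≠ p in the orthogonal group O⁻_2m(q) of an elliptic form Σ_(j<m−1) x_j y_j + z₁² + a z₁z₂ + c z₂² (binary part anisotropic, m ≥ 1): with i the multiplicative order of q mod r and t = (r − 1)/i — if i is odd, C(⌊m/i⌋ + t/2, t/2) − 1 minus, when i divides m, the C(m/i + t/2 − 1, t/2 − 1) tuples filling the whole space (dual pairs of totally singular blocks fill a hyperbolic space); if i is even, C(⌊2m/i⌋ + t, t) − 1 minus, when i divides 2m with even quotient, the C(2m/i + t − 1, t − 1) tuples filling the whole space with an even number of elliptic blocks. -/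
theorem result {F : Type*} [Field F] [Fintype F] {p q : ℕ} [Fact p.Prime] [CharP F p] (hF : Fintype.card F = q) (m r i t : ℕ) (hm : 1 ≤ m) (a c : F) (hac : ∀ z₁ z₂ : F, z₁ ^ 2 + a * z₁ * z₂ + c * z₂ ^ 2 = 0 → z₁ = 0 ∧ z₂ = 0) (hr : r.Prime) (hr2 : r ≠ 2) (hrp : r ≠ p) (hi : i = orderOf (q : ZMod r)) (ht : t * i = r - 1) : Nat.card {C : ConjClasses ↥(Cfsg.isometryGroup F (Cfsg.quadFormMinus (m - 1) F a c)) // ∃ g : ↥(Cfsg.isometryGroup F (Cfsg.quadFormMinus (m - 1) F a c)), ConjClasses.mk g = C ∧ orderOf g = r} = if Odd i then Nat.choose (m / i + t / 2) (t / 2) - 1 - (if i ∣ m then Nat.choose (m / i + t / 2 - 1) (t / 2 - 1) else 0) else Nat.choose (2 * m / i + t) t - 1 - (if i ∣ 2 * m ∧ Even (2 * m / i) then Nat.choose (2 * m / i + t - 1) (t - 1) else 0) := by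
  subst hF
  obtain ⟨hrF, hi1, ht1, hdeg, hcard, hd1, hd2, hss, hpar⟩ := setup (F := F) p r i t hr hr2 hrp hi ht
  obtain ⟨d, rfl⟩ : ∃ d, m = d + 1 := ⟨m - 1, by omega⟩
  rw [show d + 1 - 1 = d from rfl]
  have hn : Fintype.card ((Fin d ⊕ Fin d) ⊕ Fin 2) = 2 * (d + 1) := by simp; ring
  have hQ := minusQF_nondegenerate d F a c (minus_disc_ne_zero a c hac)
  by_cases hodd : Odd i
  · rw [if_pos hodd]
    have key := count_pred (G := ↥(Cfsg.isometryGroup F (Cfsg.quadFormMinus d F a c)))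
      (fun g => (g.1.1 : Matrix _ _ F).charpoly) r (2 * (d + 1)) i hr hrF
      (fun b => b ≠ 0 ∧ i * ∑ P, b P ≤ 2 * (d + 1) ∧ (∀ P, b (st (RingHom.id F) r P) = b P) ∧
        i * ∑ P, b P ≠ 2 * (d + 1))
      (o_charpoly_conj _)
      (by
        intro g hg
        obtain ⟨b, hb0, hb, hsym, hgb⟩ :=
          o_label _ (minusQF d F a c) (minusQF_coe d F a c) hQ r (2 * (d + 1)) i hr hrF hdeg hn g hg
        exact ⟨b, ⟨hb0, hb, hsym, no_full_minus_odd d a c hac r i hr hrF (hd1 hodd) b hsym g hgb⟩, hgb⟩)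
      (fun g h hg hh hc =>
        o_conj' p _ (minusQF d F a c) (minusQF_coe d F a c) hQ r hr hr2 hrp g h hg hh hc)
      (by
        rintro b ⟨hb0, hb, hsym, hne⟩
        obtain ⟨k, hk⟩ := hpar b hsym
        have hb' : i * ∑ P, b P ≤ 2 * d := by omega
        obtain ⟨A, hA, hAc⟩ := hyp_core p d r i hr hrp hi1 hdeg (hd1 hodd) b hb0 hb' hsym
        obtain ⟨g, hg, hgc⟩ := hyp_minus d a c A
        exact ⟨g, by rw [hg, hA], by rw [hgc, hAc, cp_mul_pow r (2 * d) i 2 b hb']; rfl⟩)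
    rw [key, card_lab_free_excl _ hss (hd1 hodd) (2 * (d + 1)) i t hi1 hcard ht1 (by omega)]
    simp only [Nat.mul_div_mul_left _ _ (by norm_num : 0 < 2),
      Nat.mul_dvd_mul_iff_left (by norm_num : 0 < 2)]
  · rw [if_neg hodd]
    have hev : Even i := Nat.not_odd_iff_even.mp hodd
    have key := count_pred (G := ↥(Cfsg.isometryGroup F (Cfsg.quadFormMinus d F a c)))
      (fun g => (g.1.1 : Matrix _ _ F).charpoly) r (2 * (d + 1)) i hr hrF
      (fun b => b ≠ 0 ∧ i * ∑ P, b P ≤ 2 * (d + 1) ∧ (∀ P, b (st (RingHom.id F) r P) = b P) ∧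
        ¬ (i * ∑ P, b P = 2 * (d + 1) ∧ Even (∑ P, b P)))
      (o_charpoly_conj _)
      (by
        intro g hg
        obtain ⟨b, hb0, hb, hsym, hgb⟩ :=
          o_label _ (minusQF d F a c) (minusQF_coe d F a c) hQ r (2 * (d + 1)) i hr hrF hdeg hn g hg
        refine ⟨b, ⟨hb0, hb, hsym, ?_⟩, hgb⟩
        rintro ⟨hfull, hevA⟩
        have := parity_full r i (d + 1) hr hr2 hrF hi hev hi1 (Cfsg.quadFormMinus d F a c)
          (by simp [Cfsg.quadFormMinus]) (-1) (Or.inr rfl) (N0_minus a c hac d) b hfull g hg hgb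
        rw [hevA.neg_one_pow] at this
        norm_num at this)
      (fun g h hg hh hc =>
        o_conj' p _ (minusQF d F a c) (minusQF_coe d F a c) hQ r hr hr2 hrp g h hg hh hc)
      (by
        rintro b ⟨hb0, hb, hsym, hex⟩
        obtain ⟨k, hk⟩ := hpar b hsym
        have hk2 : i * ∑ P, b P = 2 * k := by omega
        by_cases hA : Odd (∑ P, b P)
        · obtain ⟨d₁, hd₁⟩ : ∃ d₁, d + 1 = k + d₁ := ⟨d + 1 - k, by omega⟩
          exact (exists_even_dim p r i hr hr2 hrp hi hev hi1 hdeg a c hac b hb0 hsym k d₁ d hk2 hd₁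
            (plusQF d₁ F) (plusQF_nondegenerate d₁ F) (by simp; ring) 1 (Or.inl rfl)
            (by rw [plusQF_coe]; exact N0_plus d₁)).2 (by rw [hA.neg_one_pow]; norm_num)
        · have hA' : Even (∑ P, b P) := Nat.not_odd_iff_even.mp hA
          have hne : i * ∑ P, b P ≠ 2 * (d + 1) := fun h => hex ⟨h, hA'⟩
          obtain ⟨e, he⟩ : ∃ e, d + 1 = k + (e + 1) := ⟨d - k, by omega⟩
          exact (exists_even_dim p r i hr hr2 hrp hi hev hi1 hdeg a c hac b hb0 hsym k (e + 1) d hk2 he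
            (minusQF e F a c) (minusQF_nondegenerate e F a c (minus_disc_ne_zero a c hac))
            (by simp; ring) (-1) (Or.inr rfl)
            (by rw [minusQF_coe]; exact N0_minus a c hac e)).2 (by rw [hA'.neg_one_pow]; norm_num))
    rw [key, card_lab_id_excl _ (hd2 hodd) (2 * (d + 1)) i t hi1 hcard ht1 (by omega) Even]

end Cfsg.Agent.S2675
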