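import Cfsg.Statements.S2677
import Cfsg.Agent.Lib.Helper50.GUFix3

set_option autoImplicit false
open Cfsg

namespace Cfsg.Agent.S2677

/-- Centraliser of a field automorphism of odd prime order in PGU_n(q): let q = q₀^r with r an odd prime, K the field with q² elements and σ a field automorphism of K of order r (fixed field of order q₀²). The elements g of GU_n(q) whose entrywise image under σ is a scalar multiple of g — those whose coset modulo the q + 1 unitary scalars is fixed by σ — number (q + 1)/(q₀ + 1) · |GU_n(q₀)|; equivalently the centraliser in PGU_n(q) of the induced automorphism has the order of PGU_n(q₀). -/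
theorem result {K : Type*} [Field K] [Fintype K] {q₀ q r n : ℕ} (hr : r.Prime) (hr2 : r ≠ 2) (hn : 1 ≤ n) (hq : q = q₀ ^ r) (hK : Fintype.card K = q ^ 2) (σ : K ≃+* K) (hσ : orderOf σ = r) : (Nat.card {g : ↥(Cfsg.GU n K q) // ∃ c : K, c ≠ 0 ∧ ((g : GL (Fin n) K) : Matrix (Fin n) (Fin n) K).map σ = c • ((g : GL (Fin n) K) : Matrix (Fin n) (Fin n) K)} : ℤ) = ((q + 1) / (q₀ + 1) : ℕ) * ((q₀ : ℤ) ^ (n * (n - 1) / 2) * ∏ i : Fin n, ((q₀ : ℤ) ^ ((i : ℕ) + 1) - (-1) ^ ((i : ℕ) + 1))) := by
  have hodd : Odd r := hr.odd_of_ne_two hr2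
  rw [Cfsg.Agent.Lib.Helper50.GUFix.card_scalar_fixed_GU hodd hq hK σ hσ hn]
  have hq0 : 1 ≤ q₀ := by
    rcases Nat.eq_zero_or_pos q₀ with h | h
    · exfalso
      rw [h, zero_pow hr.ne_zero] at hq
      rw [hq] at hK
      have : 0 < Fintype.card K := Fintype.card_pos
      rw [hK] at this
      simp at this
    · exact h
  push_cast
  congr 2
  rw [Finset.prod_range]
  apply Finset.prod_congr rfl
  intro i _
  have h1 : 1 ≤ q₀ ^ ((i : ℕ) + 1) := Nat.one_le_pow _ _ hq0
  by_cases hi : Even (i : ℕ)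
  · rw [if_pos hi, Odd.neg_one_pow (Even.add_one hi)]
    push_cast
    ring
  · rw [if_neg hi, Even.neg_one_pow (Nat.not_even_iff_odd.1 hi).add_one]
    push_cast [Nat.cast_sub h1]
    ring

end Cfsg.Agent.S2677
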