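import Cfsg.Statements.S2678
import Cfsg.Agent.Lib.Helper50.FiniteFieldExt

set_option autoImplicit false
open Cfsg
open Matrix

namespace Cfsg.Agent.S2678

section aux

variable {F K : Type*} [Field F] [Field K] [Algebra F K]

noncomputable def trForm (a : ℕ) : (Fin a ⊕ Fin a → K) →ₗ[F] (Fin a ⊕ Fin a → K) →ₗ[F] F :=
  LinearMap.mk₂ F (fun u v => Algebra.trace F K (u ⬝ᵥ (J (Fin a) K *ᵥ v)))
    (by intro u u' v; rw [add_dotProduct, map_add])
    (by intro c u v
        rw [← map_smul]
        congr 1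
        simp only [dotProduct, Finset.smul_sum, Pi.smul_apply, smul_mul_assoc])
    (by intro u v v'; rw [mulVec_add, dotProduct_add, map_add])
    (by intro c u v
        rw [← map_smul]
        congr 1
        simp only [dotProduct, mulVec, Finset.smul_sum, Pi.smul_apply, mul_smul_comm, Finset.mul_sum])

theorem trForm_apply (a : ℕ) (u v : Fin a ⊕ Fin a → K) :
    trForm (F := F) a u v = Algebra.trace F K (u ⬝ᵥ (J (Fin a) K *ᵥ v)) := rfl

theorem trForm_single (a : ℕ) (i j : Fin a ⊕ Fin a) (x y : K) :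
    trForm (F := F) a (Pi.single i x) (Pi.single j y) = Algebra.trace F K (x * J (Fin a) K i j * y) := by
  rw [trForm_apply]
  congr 1
  rw [single_dotProduct, mulVec_single]
  simp [mul_assoc]

def idxEquiv (a : ℕ) : (Σ _ : Fin a ⊕ Fin a, Fin 2) ≃ Fin (2 * a) ⊕ Fin (2 * a) :=
  (Equiv.sigmaEquivProd _ _).trans ((Equiv.sumProdDistrib _ _ _).trans
    (Equiv.sumCongr ((Equiv.prodComm _ _).trans finProdFinEquiv) ((Equiv.prodComm _ _).trans finProdFinEquiv)))

theorem idxEquiv_inl (a : ℕ) (x : Fin a) (i : Fin 2) :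
    idxEquiv a ⟨Sum.inl x, i⟩ = Sum.inl (finProdFinEquiv (i, x)) := rfl

theorem idxEquiv_inr (a : ℕ) (x : Fin a) (i : Fin 2) :
    idxEquiv a ⟨Sum.inr x, i⟩ = Sum.inr (finProdFinEquiv (i, x)) := rfl

noncomputable def bigBasis (a : ℕ) (b b' : Module.Basis (Fin 2) F K) :
    Module.Basis (Fin (2 * a) ⊕ Fin (2 * a)) F (Fin a ⊕ Fin a → K) :=
  (Pi.basis (fun j : Fin a ⊕ Fin a => Sum.elim (fun _ => b) (fun _ => b') j)).reindex (idxEquiv a)

theorem bigBasis_inl (a : ℕ) (b b' : Module.Basis (Fin 2) F K) (x : Fin a) (i : Fin 2) :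
    bigBasis a b b' (Sum.inl (finProdFinEquiv (i, x))) = Pi.single (Sum.inl x) (b i) := by
  rw [← idxEquiv_inl, bigBasis, Module.Basis.reindex_apply, Equiv.symm_apply_apply, Pi.basis_apply]
  rfl

theorem bigBasis_inr (a : ℕ) (b b' : Module.Basis (Fin 2) F K) (x : Fin a) (i : Fin 2) :
    bigBasis a b b' (Sum.inr (finProdFinEquiv (i, x))) = Pi.single (Sum.inr x) (b' i) := by
  rw [← idxEquiv_inr, bigBasis, Module.Basis.reindex_apply, Equiv.symm_apply_apply, Pi.basis_apply]
  rfl

theorem gram (a : ℕ) (b b' : Module.Basis (Fin 2) F K)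
    (hbb : ∀ i j, Algebra.trace F K (b i * b' j) = if i = j then 1 else 0) :
    LinearMap.toMatrix₂ (bigBasis a b b') (bigBasis a b b') (trForm (F := F) a) = J (Fin (2 * a)) F := by
  ext s t
  rw [LinearMap.toMatrix₂_apply]
  rcases s with s | s <;> rcases t with t | t
  all_goals
    obtain ⟨⟨i, x⟩, rfl⟩ := finProdFinEquiv.surjective s
    obtain ⟨⟨j, y⟩, rfl⟩ := finProdFinEquiv.surjective t
  · rw [bigBasis_inl, bigBasis_inl, trForm_single]
    simp [J]
  · rw [bigBasis_inl, bigBasis_inr, trForm_single]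
    simp only [J, fromBlocks_apply₁₂]
    rw [Matrix.neg_apply, Matrix.neg_apply, Matrix.one_apply, Matrix.one_apply]
    simp only [EmbeddingLike.apply_eq_iff_eq, Prod.mk.injEq]
    by_cases hxy : x = y
    · subst hxy
      simp [hbb]
    · simp [hxy]
  · rw [bigBasis_inr, bigBasis_inl, trForm_single]
    simp only [J, fromBlocks_apply₂₁]
    rw [Matrix.one_apply, Matrix.one_apply]
    simp only [EmbeddingLike.apply_eq_iff_eq, Prod.mk.injEq]
    by_cases hxy : x = y
    · subst hxy
      simp [hbb, mul_comm (b' i), eq_comm]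
    · simp [hxy]
  · rw [bigBasis_inr, bigBasis_inr, trForm_single]
    simp [J]

noncomputable def actF (a : ℕ) (A : Matrix (Fin a ⊕ Fin a) (Fin a ⊕ Fin a) K) :
    (Fin a ⊕ Fin a → K) →ₗ[F] (Fin a ⊕ Fin a → K) :=
  (Matrix.toLin' A).restrictScalars F

theorem actF_apply (a : ℕ) (A : Matrix (Fin a ⊕ Fin a) (Fin a ⊕ Fin a) K) (v : Fin a ⊕ Fin a → K) :
    actF (F := F) a A v = A *ᵥ v := rfl

theorem trForm_compl (a : ℕ) (A : Matrix (Fin a ⊕ Fin a) (Fin a ⊕ Fin a) K)
    (hA : Aᵀ * J (Fin a) K * A = J (Fin a) K) :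
    (trForm (F := F) a).compl₁₂ (actF a A) (actF a A) = trForm a := by
  apply LinearMap.ext; intro u
  apply LinearMap.ext; intro v
  rw [LinearMap.compl₁₂_apply, trForm_apply, trForm_apply, actF_apply, actF_apply]
  congr 1
  conv_rhs => rw [← hA]
  rw [mulVec_mulVec, ← Matrix.vecMul_transpose, ← dotProduct_mulVec, mulVec_mulVec, Matrix.mul_assoc]


theorem main_aux [FiniteDimensional F K] [Algebra.IsSeparable F K] (h2 : Module.finrank F K = 2) (a : ℕ) :
    ∃ φ : ↥(Matrix.symplecticGroup (Fin a) K) →* ↥(Matrix.symplecticGroup (Fin (2 * a)) F),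
      Function.Injective φ := by
  classical
  let b : Module.Basis (Fin 2) F K := Module.finBasisOfFinrankEq F K h2
  let b' : Module.Basis (Fin 2) F K := (Algebra.traceForm F K).dualBasis (traceForm_nondegenerate F K) b
  have hbb : ∀ i j, Algebra.trace F K (b i * b' j) = if i = j then 1 else 0 := by
    intro i j
    have := LinearMap.BilinForm.apply_dualBasis_left (traceForm_nondegenerate F K) b j i
    rw [Algebra.traceForm_apply, mul_comm] at this
    exact this
  let B := bigBasis a b b'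
  have hmem : ∀ A : ↥(Matrix.symplecticGroup (Fin a) K),
      LinearMap.toMatrix B B (actF (F := F) a A.1) ∈ Matrix.symplecticGroup (Fin (2 * a)) F := by
    intro A
    rw [SymplecticGroup.mem_iff']
    have h1 := LinearMap.toMatrix₂_compl₁₂ B B B B (trForm (F := F) a) (actF a A.1) (actF a A.1)
    rw [trForm_compl a A.1 (SymplecticGroup.mem_iff'.1 A.2), gram a b b' hbb] at h1
    exact h1.symm
  refine ⟨{ toFun := fun A => ⟨LinearMap.toMatrix B B (actF (F := F) a A.1), hmem A⟩
            map_one' := ?_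
            map_mul' := ?_ }, ?_⟩
  · apply Subtype.ext
    change LinearMap.toMatrix B B (actF (F := F) a (1 : Matrix _ _ K)) = 1
    have : actF (F := F) a (1 : Matrix _ _ K) = LinearMap.id := by
      apply LinearMap.ext; intro v
      rw [actF_apply, one_mulVec]; rfl
    rw [this, LinearMap.toMatrix_id]
  · intro A A'
    apply Subtype.ext
    change LinearMap.toMatrix B B (actF (F := F) a (A.1 * A'.1)) =
      LinearMap.toMatrix B B (actF (F := F) a A.1) * LinearMap.toMatrix B B (actF (F := F) a A'.1)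
    rw [← LinearMap.toMatrix_comp]
    congr 1
    apply LinearMap.ext; intro v
    rw [LinearMap.comp_apply, actF_apply, actF_apply, actF_apply, mulVec_mulVec]
  · intro A A' hAA
    have h1 : LinearMap.toMatrix B B (actF (F := F) a A.1) = LinearMap.toMatrix B B (actF (F := F) a A'.1) :=
      congrArg Subtype.val hAA
    have h2 := (LinearMap.toMatrix B B).injective h1
    apply Subtype.ext
    apply Matrix.toLin'.injective
    apply LinearMap.ext; intro v
    exact LinearMap.congr_fun h2 v

end aux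

theorem result {K F : Type*} [Field K] [Fintype K] [Field F] [Fintype F] {q : ℕ} (hK : Fintype.card K = q ^ 2) (hF : Fintype.card F = q) (a : ℕ) : ∃ φ : ↥(Matrix.symplecticGroup (Fin a) K) →* ↥(Matrix.symplecticGroup (Fin (2 * a)) F), Function.Injective φ := by
  obtain ⟨alg, h2⟩ := Cfsg.Agent.Lib.Helper50.exists_algebra_of_card_pow (F := F) (K := K) 2 (by rw [hK, hF])
  exact main_aux h2 a

end Cfsg.Agent.S2678
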