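import Cfsg.Statements.S2697
import Cfsg.Agent.Lib.Helper18.AutPSL.FieldConj

set_option autoImplicit false
open Cfsg
open Matrix MatrixGroups Cfsg.Agent.Lib.Helper18.AutPSL

namespace Cfsg.Agent.S2697

/-- Let T = PSL_n(F) be simple over a finite field (n ≥ 2; |F| ≥ 4 when n = 2) and let x be a field automorphism or a graph-field automorphism of T of prime order r. Then an element y of the coset Inndiag(T)·x (that is, y = δ x with δ in the inner-diagonal group, the image of PGL_n(F)) has order r if and only if y is conjugate to x by an element of Inndiag(T). -/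
theorem result {F : Type*} [Field F] [Fintype F] {p f : ℕ} [Fact p.Prime] (hF : Fintype.card F = p ^ f) (hf : 1 ≤ f) {n : ℕ} (hn : 2 ≤ n) (hs : n = 2 → 4 ≤ Fintype.card F) (x δ : MulAut (Matrix.ProjectiveSpecialLinearGroup (Fin n) F)) (hx : Cfsg.IsFieldAutClassPSL x ∨ Cfsg.IsGraphFieldAutClassPSL x) {r : ℕ} (hr : r.Prime) (hxr : orderOf x = r) (hδ : δ ∈ Cfsg.inndiagPSL n F) :
    orderOf (δ * x) = r ↔ Cfsg.IsConjUnder (Cfsg.inndiagPSL n F) x (δ * x) := by
  have hchar : CharP F p := charP_of_card_eq_prime_pow hF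
  rw [inndiag_eq] at hδ ⊢
  obtain ⟨d, rfl⟩ := hδ
  constructor
  swap
  · rintro ⟨h, -, e⟩
    rw [e, ← hxr]
    have := orderOf_conj' h⁻¹ x
    rwa [inv_inv] at this
  · intro ho
    have ho' : (cG d * x) ^ r = 1 := by
      rw [← ho]
      exact pow_orderOf_eq_one _
    rcases hx with hx | hx
    · obtain ⟨u, σ, hσ, rfl⟩ := exists_conj_fld p hn hx
      rw [orderOf_conj', orderOf_injective _ (fl_injective hn)] at hxr
      exact conj_of_core (fl σ) u d r
        (fun g hg => field_core hn g σ r hr.pos hxr hg) ho'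
    · obtain ⟨h3, u, σ, hσ, rfl⟩ := exists_conj_gfld p hx
      rw [orderOf_conj'] at hxr
      obtain ⟨rfl, hσ2⟩ := gfield_order h3 σ hr hxr
      exact conj_of_core (fl σ * gr) u d 2
        (fun g hg => gfield_core hn g σ hσ hσ2 hg) ho'

end Cfsg.Agent.S2697
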