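import Cfsg.Statements.S2698
import Cfsg.Agent.Lib.Helper18.AutPSL.FieldCent

set_option autoImplicit false
open Cfsg
open Matrix MatrixGroups Cfsg.Agent.Lib.Helper18.AutPSL

namespace Cfsg.Agent.S2698

/-- Let T = PSL_n(F) be simple over the field F with p^f elements (n ≥ 2; p^f ≥ 4 when n = 2), G = Inndiag(T) the image of PGL_n(F) in Aut(T), and x a field automorphism of T of prime order r. Then r divides f; the centralizer C_G(x) is isomorphic to PGL_n(F₀) for the subfield size |F₀| = p^(f/r); and the G-class of x is the union of exactly gcd(n, (p^f − 1)/(p^(f/r) − 1)) classes under conjugation by T (the inner automorphism group). -/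
theorem result {F : Type*} [Field F] [Fintype F] {p f : ℕ} [Fact p.Prime] (hF : Fintype.card F = p ^ f) (hf : 1 ≤ f) {n : ℕ} (hn : 2 ≤ n) (hs : n = 2 → 4 ≤ Fintype.card F) (x : MulAut (Matrix.ProjectiveSpecialLinearGroup (Fin n) F)) (hx : Cfsg.IsFieldAutClassPSL x) {r : ℕ} (hr : r.Prime) (hxr : orderOf x = r) (F₀ : Type*) [Field F₀] [Fintype F₀] (hF₀ : Fintype.card F₀ = p ^ (f / r)) :
    r ∣ f ∧ Nonempty (↥(Cfsg.inndiagPSL n F ⊓ Subgroup.centralizer {x}) ≃* Matrix.ProjGenLinGroup (Fin n) F₀) ∧ Cfsg.splitClassCount (Cfsg.inndiagPSL n F) (Cfsg.Inn (Matrix.ProjectiveSpecialLinearGroup (Fin n) F)) x = Nat.gcd n ((p ^ f - 1) / (p ^ (f / r) - 1)) := by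
  classical
  have hchar : CharP F p := charP_of_card_eq_prime_pow hF
  have : Nonempty (Fin n) := ⟨⟨0, by omega⟩⟩
  obtain ⟨u, σ, hσ, rfl⟩ := exists_conj_fld p hn hx
  rw [orderOf_conj', orderOf_injective _ (fl_injective hn)] at hxr
  obtain ⟨hdvd, hemb⟩ := exists_subfield_emb hF σ hxr hr.pos
  obtain ⟨j, hj⟩ := hemb F₀ hF₀
  refine ⟨hdvd, ?_, ?_⟩
  · rw [inndiag_eq]
    obtain ⟨e⟩ := centralizer_equiv (Th j) (cG : GL (Fin n) F →* _).range (fl σ) (cG u) ⟨u, rfl⟩
      (range_Th hn j σ hj r hr.pos hxr)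
    exact ⟨e.trans (QuotientGroup.quotientMulEquivOfEq (ker_Th hn j))⟩
  · rw [inndiag_eq, splitClassCount_conj (cG : GL (Fin n) F →* _).range _ (fl σ) (cG u) ⟨u, rfl⟩,
      inn_eq,
      splitClassCount_eq cG GeneralLinearGroup.det det_surjective,
      map_det_cent_fl hn σ r hr.pos hxr]
    apply index_sup_of_card _ (p ^ (f / r) - 1)
    · rw [card_ker_quoU j σ hj, hF₀]
    · rw [Nat.card_eq_fintype_card, Fintype.card_units, hF]
      symm
      apply Nat.mul_div_cancel'
      have := Subgroup.card_subgroup_dvd_card (quoU σ).ker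
      rwa [card_ker_quoU j σ hj, hF₀, Nat.card_eq_fintype_card, Fintype.card_units, hF] at this

end Cfsg.Agent.S2698
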