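import Cfsg.Statements.S2699
import Cfsg.Agent.Lib.Helper50.GIReps
import Cfsg.Agent.Lib.Helper50.GIField
import Cfsg.Agent.Lib.Helper50.GIOdd
import Cfsg.Agent.Lib.Helper67.GIOdd2

set_option autoImplicit false
open Cfsg
open Matrix MatrixGroups Cfsg.Agent.Lib.Helper50.GI

namespace Cfsg.Agent.S2699

/-- Let T = PSL_n(F) over the field with p^f elements with n ≥ 3 odd, n = 2m + 1, and G = Inndiag(T) the image of PGL_n(F). Every involutory graph automorphism γ of T (an inner-diagonal automorphism followed by inverse-transpose, of order 2) has centralizer C_G(γ) isomorphic to the projective conformal orthogonal group of the form x₀² + Σ xᵢ yᵢ in dimension n (for q even this group is isomorphic to Sp_{n−1}(q)), and any two involutory graph automorphisms are G-conjugate. -/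
theorem result {F : Type*} [Field F] [Fintype F] {p f : ℕ} [Fact p.Prime] (hF : Fintype.card F = p ^ f) (hf : 1 ≤ f) {n : ℕ} (hn : 3 ≤ n) {m : ℕ} (hnm : n = 2 * m + 1) (γ γ' : MulAut (Matrix.ProjectiveSpecialLinearGroup (Fin n) F)) (hγ : Cfsg.IsGraphAutClassPSL γ) (hγ2 : orderOf γ = 2) (hγ' : Cfsg.IsGraphAutClassPSL γ') (hγ'2 : orderOf γ' = 2) :
    Nonempty (↥(Cfsg.inndiagPSL n F ⊓ Subgroup.centralizer {γ}) ≃* Cfsg.PGO F (Cfsg.quadFormOdd m F)) ∧ Cfsg.IsConjUnder (Cfsg.inndiagPSL n F) γ γ' := by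
  classical
  subst hnm
  have hchar : CharP F p := charP_of_card_eq_prime_pow hF
  obtain ⟨M, rfl⟩ := exists_gam hγ
  obtain ⟨M', rfl⟩ := exists_gam hγ'
  have hM := (orderOf_gam_iff hn M).1 hγ2
  have hM' := (orderOf_gam_iff hn M').1 hγ'2
  obtain ⟨e⟩ := cent_equiv_simB hn M
  by_cases hp : p = 2
  · subst hp
    have hneg : ∀ A : Matrix (Fin (2 * m + 1)) (Fin (2 * m + 1)) F, -A = A := by
      intro A
      ext i j
      rw [Matrix.neg_apply]
      exact CharTwo.neg_eq _
    have hsym : ∀ A : GL (Fin (2 * m + 1)) F, (A.1ᵀ = A.1 ∨ A.1ᵀ = -A.1) →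
        A.1ᵀ = A.1 ∧ ∃ i, A.1 i i ≠ 0 := by
      intro A hA
      have h1 : A.1ᵀ = A.1 := by
        rcases hA with h | h
        · exact h
        · rw [h, hneg]
      refine ⟨h1, ?_⟩
      by_contra hcon
      push Not at hcon
      exact gl_det_ne_zero A (Cfsg.Agent.Lib.Helper67.GI.det_alt_odd A.1 (by rw [h1, hneg]) hcon)
    obtain ⟨hs, hi⟩ := hsym M hM
    obtain ⟨hs', hi'⟩ := hsym M' hM'
    constructor
    · obtain ⟨e'⟩ := Cfsg.Agent.Lib.Helper67.GI.simB_odd_char2 M.1 hs (gl_det_ne_zero M)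
      exact ⟨e.trans e'⟩
    · obtain ⟨P, hP⟩ := Cfsg.Agent.Lib.Helper67.GI.congr_char2 M.1 M'.1 hs hs' (gl_det_ne_zero _)
        (gl_det_ne_zero _) hi hi'
      exact (conj_iff hn _ _).2 ⟨P, 1, by rw [Units.val_one, one_smul]; exact hP⟩
  · have h2 : (2 : F) ≠ 0 := by
      intro h
      have h3 : ((2 : ℕ) : F) = 0 := by exact_mod_cast h
      have h4 := (CharP.cast_eq_zero_iff F p 2).1 h3
      exact hp ((Nat.prime_dvd_prime_iff_eq Fact.out Nat.prime_two).1 h4)
    have hsym : ∀ A : GL (Fin (2 * m + 1)) F, (A.1ᵀ = A.1 ∨ A.1ᵀ = -A.1) → A.1ᵀ = A.1 := by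
      intro A hA
      rcases hA with h | h
      · exact h
      · exfalso
        apply gl_det_ne_zero A
        apply Cfsg.Agent.Lib.Helper67.GI.det_alt_odd A.1 h
        intro i
        have h1 := congrFun (congrFun h i) i
        rw [transpose_apply, Matrix.neg_apply] at h1
        have h3 : (2 : F) * A.1 i i = 0 := by linear_combination h1
        exact (mul_eq_zero.1 h3).resolve_left h2
    have hs := hsym M hM
    have hs' := hsym M' hM'
    constructor
    · obtain ⟨e'⟩ := Cfsg.Agent.Lib.Helper50.GI.simB_odd h2 M.1 hs (gl_det_ne_zero M)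
      exact ⟨e.trans e'⟩
    · have hd := gl_det_ne_zero M
      have hd' := gl_det_ne_zero M'
      set a : F := M'.1.det / M.1.det with ha
      have ha0 : a ≠ 0 := div_ne_zero hd' hd
      obtain ⟨P, hP⟩ := Cfsg.Agent.Lib.Helper50.GI.congr_symm h2 (a • M.1) M'.1
        (by rw [transpose_smul, hs]) hs'
        (by rw [det_smul]; exact mul_ne_zero (pow_ne_zero _ ha0) hd) ((a ^ m)⁻¹)
        (inv_ne_zero (pow_ne_zero _ ha0)) (by
          rw [det_smul, Fintype.card_fin]
          have : M'.1.det = a * M.1.det := by rw [ha, div_mul_cancel₀ _ hd]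
          rw [this]
          field_simp
          ring)
      refine (conj_iff hn _ _).2 ⟨P, Units.mk0 a ha0, ?_⟩
      rw [hP, Units.val_mk0, Matrix.mul_smul, smul_mul_assoc]

end Cfsg.Agent.S2699
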