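import Cfsg.Statements.S2700
import Cfsg.Agent.Lib.Helper50.GIReps
import Cfsg.Agent.Lib.Helper50.GIField
import Cfsg.Agent.Lib.Helper50.GISp

set_option autoImplicit false
open Cfsg
open Matrix MatrixGroups Cfsg.Agent.Lib.Helper50.GI

namespace Cfsg.Agent.S2700

/-- Let T = PSL_n(F) over a finite field of odd order with n = 2m ≥ 4 even, and G = Inndiag(T) the image of PGL_n(F). The involutory graph automorphisms of T fall into exactly three G-classes, with representatives γ₁, γ₂, γ₃ whose centralizers in G are isomorphic respectively to the projective conformal symplectic group PGSp_n(F), the projective conformal orthogonal group of the plus-type form Σ xᵢ yᵢ, and that of a minus-type form Σ xᵢ yᵢ + z₁² + a z₁ z₂ + b z₂² (anisotropic binary part) in dimension n. -/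
theorem result {F : Type*} [Field F] [Fintype F] (hodd : Odd (Fintype.card F)) {n m : ℕ} (hm : 2 ≤ m) (hnm : n = 2 * m) :
    ∃ (γ₁ γ₂ γ₃ : MulAut (Matrix.ProjectiveSpecialLinearGroup (Fin n) F)) (a b : F), (∀ z₁ z₂ : F, z₁ ^ 2 + a * z₁ * z₂ + b * z₂ ^ 2 = 0 → z₁ = 0 ∧ z₂ = 0) ∧ Cfsg.IsGraphAutClassPSL γ₁ ∧ orderOf γ₁ = 2 ∧ Cfsg.IsGraphAutClassPSL γ₂ ∧ orderOf γ₂ = 2 ∧ Cfsg.IsGraphAutClassPSL γ₃ ∧ orderOf γ₃ = 2 ∧ ¬ Cfsg.IsConjUnder (Cfsg.inndiagPSL n F) γ₁ γ₂ ∧ ¬ Cfsg.IsConjUnder (Cfsg.inndiagPSL n F) γ₁ γ₃ ∧ ¬ Cfsg.IsConjUnder (Cfsg.inndiagPSL n F) γ₂ γ₃ ∧ (∀ γ : MulAut (Matrix.ProjectiveSpecialLinearGroup (Fin n) F), Cfsg.IsGraphAutClassPSL γ → orderOf γ = 2 → Cfsg.IsConjUnder (Cfsg.inndiagPSL n F) γ₁ γ ∨ Cfsg.IsConjUnder (Cfsg.inndiagPSL n F) γ₂ γ ∨ Cfsg.IsConjUnder (Cfsg.inndiagPSL n F) γ₃ γ) ∧ Nonempty (↥(Cfsg.inndiagPSL n F ⊓ Subgroup.centralizer {γ₁}) ≃* Cfsg.PGSp m F) ∧ Nonempty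 (↥(Cfsg.inndiagPSL n F ⊓ Subgroup.centralizer {γ₂}) ≃* Cfsg.PGO F (Cfsg.quadFormPlus m F)) ∧ Nonempty (↥(Cfsg.inndiagPSL n F ⊓ Subgroup.centralizer {γ₃}) ≃* Cfsg.PGO F (Cfsg.quadFormMinus (m - 1) F a b)) := by
  classical
  subst hnm
  have hn : 3 ≤ 2 * m := by omega
  have h2 : (2 : F) ≠ 0 := two_ne_zero_of_odd hodd
  obtain ⟨α, hα⟩ := exists_nonsquare_of_odd (F := F) hodd
  have hα0 : α ≠ 0 := ne_zero_of_not_isSquare hα
  have hs1 : ((-1 : F)) ^ m ≠ 0 := pow_ne_zero _ (neg_ne_zero.2 one_ne_zero)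
  let i₀ : Fin (2 * m) := ⟨0, by omega⟩
  have : Nonempty (Fin (2 * m)) := ⟨i₀⟩
  let M₁ : GL (Fin (2 * m)) F := mkGL (Jn F m) (Jn_det_ne_zero m)
  let M₂ : GL (Fin (2 * m)) F := mkGL (dgn i₀ ((-1) ^ m)) (by rw [dgn_det]; exact hs1)
  let M₃ : GL (Fin (2 * m)) F := mkGL (dgn i₀ ((-1) ^ m * α)) (by
    rw [dgn_det]; exact mul_ne_zero hs1 hα0)
  have hM₁ : M₁.1 = Jn F m := rfl
  have hM₂ : M₂.1 = dgn i₀ ((-1) ^ m) := rfl
  have hM₃ : M₃.1 = dgn i₀ ((-1) ^ m * α) := rfl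
  -- a symmetric invertible matrix is not congruent to a skew one
  have hskew : ∀ (M : GL (Fin (2 * m)) F), M.1ᵀ = M.1 →
      ¬ Cfsg.IsConjUnder (Cfsg.inndiagPSL (2 * m) F) (gam M₁) (gam M) := by
    intro M hM hc
    obtain ⟨h, a, e⟩ := (conj_iff hn _ _).1 hc
    have h1 : M.1ᵀ = -M.1 := by
      rw [e, transpose_smul, transpose_mul, transpose_mul, transpose_transpose, hM₁, Jn_transpose]
      simp [Matrix.mul_assoc]
    rw [hM] at h1
    have h3 : (2 : F) • M.1 = 0 := by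
      rw [two_smul]
      nth_rewrite 1 [h1]
      rw [neg_add_cancel]
    have h4 : M.1 = 0 := (smul_eq_zero.1 h3).resolve_left h2
    have h5 := gl_det_ne_zero M
    rw [h4, det_zero] at h5
    exact h5 rfl
  refine ⟨gam M₁, gam M₂, gam M₃, 0, -α, aniso_of_nonsquare hα, isGraph_gam hn _, ?_,
    isGraph_gam hn _, ?_, isGraph_gam hn _, ?_, hskew M₂ (dgn_transpose _ _),
    hskew M₃ (dgn_transpose _ _), ?_, ?_, ?_, ?_, ?_⟩
  · exact (orderOf_gam_iff hn _).2 (Or.inr (Jn_transpose m))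
  · exact (orderOf_gam_iff hn _).2 (Or.inl (dgn_transpose _ _))
  · exact (orderOf_gam_iff hn _).2 (Or.inl (dgn_transpose _ _))
  · intro hc
    obtain ⟨h, a, e⟩ := (conj_iff hn _ _).1 hc
    have h1 := congrArg Matrix.det e
    rw [det_congr, hM₂, hM₃, dgn_det, dgn_det] at h1
    apply hα
    refine ⟨(a : F) ^ m * h.1.det, ?_⟩
    apply mul_left_cancel₀ hs1
    rw [h1]
    ring
  · intro γ hγ hγ2
    obtain ⟨M, rfl⟩ := exists_gam hγ
    rcases (orderOf_gam_iff hn M).1 hγ2 with hM | hM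
    · have hd := gl_det_ne_zero M
      rcases sq_or_nonsq hodd hα (div_ne_zero hd hs1) with ⟨s, hs, hdet⟩ | ⟨s, hs, hdet⟩
      · right; left
        obtain ⟨P, hP⟩ := congr_symm h2 M₂.1 M.1 (dgn_transpose _ _) hM
          (gl_det_ne_zero _) s hs (by rw [hM₂, dgn_det, ← hdet, mul_div_cancel₀ _ hs1])
        exact (conj_iff hn _ _).2 ⟨P, 1, by rw [Units.val_one, one_smul]; exact hP⟩
      · right; right
        obtain ⟨P, hP⟩ := congr_symm h2 M₃.1 M.1 (dgn_transpose _ _) hM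
          (gl_det_ne_zero _) s hs (by rw [hM₃, dgn_det, mul_assoc, ← hdet, mul_div_cancel₀ _ hs1])
        exact (conj_iff hn _ _).2 ⟨P, 1, by rw [Units.val_one, one_smul]; exact hP⟩
    · left
      have hdiag : ∀ i, M.1 i i = 0 := by
        intro i
        have h1 := congrFun (congrFun hM i) i
        rw [transpose_apply, Matrix.neg_apply] at h1
        have h3 : (2 : F) * M.1 i i = 0 := by linear_combination h1
        exact (mul_eq_zero.1 h3).resolve_left h2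
      obtain ⟨P, hP⟩ := congr_alt_even M₁.1 M.1 (Jn_transpose m) (Jn_diag m) hM hdiag
        (gl_det_ne_zero _) (gl_det_ne_zero _)
      exact (conj_iff hn _ _).2 ⟨P, 1, by rw [Units.val_one, one_smul]; exact hP⟩
  · obtain ⟨e⟩ := cent_equiv_simB hn M₁
    obtain ⟨e'⟩ := simB_alt M₁.1 (Jn_transpose m) (Jn_diag m) (gl_det_ne_zero _)
    exact ⟨e.trans e'⟩
  · obtain ⟨e⟩ := cent_equiv_simB hn M₂
    obtain ⟨e'⟩ := simB_plus h2 M₂.1 (dgn_transpose _ _) 1 one_ne_zero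
      (by rw [hM₂, dgn_det]; ring)
    exact ⟨e.trans e'⟩
  · obtain ⟨e⟩ := cent_equiv_simB hn M₃
    obtain ⟨e'⟩ := simB_minus h2 (by omega) M₃.1 (dgn_transpose _ _) α 1 hα
      one_ne_zero (by rw [hM₃, dgn_det]; ring)
    exact ⟨e.trans e'⟩

end Cfsg.Agent.S2700
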