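import Cfsg.Statements.S2701
import Cfsg.Agent.Lib.Helper50.GIReps
import Cfsg.Agent.Lib.Helper50.GIField
import Cfsg.Agent.Lib.Helper50.GISp
import Cfsg.Agent.Lib.Helper67.GIBase
import Cfsg.Agent.Lib.Helper69.GISP2
import Cfsg.Agent.Lib.Helper69.GITV2

set_option autoImplicit false
open Cfsg
open Matrix MatrixGroups Cfsg.Agent.Lib.Helper50.GI

namespace Cfsg.Agent.S2701

/-- Let T = PSL_n(F) over a finite field of characteristic 2 with n = 2m ≥ 4 even, and G = Inndiag(T) the image of PGL_n(F). The involutory graph automorphisms of T fall into exactly two G-classes, with representatives γ₁ and γ₃ whose centralizers in G are isomorphic respectively to the symplectic group Sp_n(F) and to the centralizer in Sp_n(F) of a symplectic transvection. -/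
theorem result {F : Type*} [Field F] [Fintype F] [CharP F 2] {n m : ℕ} (hm : 2 ≤ m) (hnm : n = 2 * m) :
    ∃ (γ₁ γ₃ : MulAut (Matrix.ProjectiveSpecialLinearGroup (Fin n) F)) (t : ↥(Matrix.symplecticGroup (Fin m) F)), Cfsg.IsTransvection (t : Matrix (Fin m ⊕ Fin m) (Fin m ⊕ Fin m) F) ∧ Cfsg.IsGraphAutClassPSL γ₁ ∧ orderOf γ₁ = 2 ∧ Cfsg.IsGraphAutClassPSL γ₃ ∧ orderOf γ₃ = 2 ∧ ¬ Cfsg.IsConjUnder (Cfsg.inndiagPSL n F) γ₁ γ₃ ∧ (∀ γ : MulAut (Matrix.ProjectiveSpecialLinearGroup (Fin n) F), Cfsg.IsGraphAutClassPSL γ → orderOf γ = 2 → Cfsg.IsConjUnder (Cfsg.inndiagPSL n F) γ₁ γ ∨ Cfsg.IsConjUnder (Cfsg.inndiagPSL n F) γ₃ γ) ∧ Nonempty (↥(Cfsg.inndiagPSL n F ⊓ Subgroup.centralizer {γ₁}) ≃* ↥(Matrix.symplecticGroup (Fin m) F)) ∧ Nonempty (↥(Cfsg.inndiagPSL n F ⊓ Subgroup.centralizer {γ₃}) ≃* ↥(Subgroup.centralizer ({t} : Set ↥(Matrix.symplecticGroup (Fin m) F)))) := by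
  classical
  subst hnm
  have hn : 3 ≤ 2 * m := by omega
  have hneg : ∀ A : Matrix (Fin (2 * m)) (Fin (2 * m)) F, -A = A := by
    intro A
    ext i j
    rw [Matrix.neg_apply]
    exact CharTwo.neg_eq _
  let i₀ : Fin (2 * m) := ⟨0, by omega⟩
  let M₁ : GL (Fin (2 * m)) F := mkGL (Jn F m) (Jn_det_ne_zero m)
  have hM₁ : M₁.1 = Jn F m := rfl
  have h1T : ((1 : GL (Fin (2 * m)) F).1)ᵀ = (1 : GL (Fin (2 * m)) F).1 := by
    rw [Units.val_one, transpose_one]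
  have h1i : ∃ i, (1 : GL (Fin (2 * m)) F).1 i i ≠ 0 := ⟨i₀, by rw [Units.val_one, one_apply_eq]; exact one_ne_zero⟩
  obtain ⟨t, ht, htN⟩ := Cfsg.Agent.Lib.Helper69.GI.simB_char2_nonalt (K := F) (m := m) (by omega)
  refine ⟨gam M₁, gam 1, t, ht, isGraph_gam hn _, ?_, isGraph_gam hn _, ?_, ?_, ?_, ?_, ?_⟩
  · exact (orderOf_gam_iff hn _).2 (Or.inr (Jn_transpose m))
  · exact (orderOf_gam_iff hn _).2 (Or.inl h1T)
  · intro hc
    obtain ⟨h, a, e⟩ := (conj_iff hn _ _).1 hc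
    have h1 := congrFun (congrFun e i₀) i₀
    rw [Matrix.smul_apply, hM₁, congr_diag_of_alt (Jn_transpose m) (Jn_diag m), smul_zero,
      Units.val_one, one_apply_eq] at h1
    exact one_ne_zero h1
  · intro γ hγ hγ2
    obtain ⟨M, rfl⟩ := exists_gam hγ
    have hM : M.1ᵀ = M.1 := by
      rcases (orderOf_gam_iff hn M).1 hγ2 with h | h
      · exact h
      · rw [h, hneg]
    by_cases hd : ∀ i, M.1 i i = 0
    · left
      obtain ⟨P, hP⟩ := Cfsg.Agent.Lib.Helper67.GI.congr_alt M₁.1 M.1 (Jn_transpose m) (Jn_diag m)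
        (by rw [hM, hneg]) hd (gl_det_ne_zero _) (gl_det_ne_zero _)
      exact (conj_iff hn _ _).2 ⟨P, 1, by rw [Units.val_one, one_smul]; exact hP⟩
    · right
      push Not at hd
      obtain ⟨P, hP⟩ := Cfsg.Agent.Lib.Helper67.GI.congr_char2 (1 : GL (Fin (2 * m)) F).1 M.1 h1T hM
        (gl_det_ne_zero _) (gl_det_ne_zero _) h1i hd
      exact (conj_iff hn _ _).2 ⟨P, 1, by rw [Units.val_one, one_smul]; exact hP⟩
  · obtain ⟨e⟩ := cent_equiv_simB hn M₁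
    obtain ⟨e'⟩ := Cfsg.Agent.Lib.Helper50.GI.simB_alt M₁.1 (Jn_transpose m) (Jn_diag m) (gl_det_ne_zero _)
    obtain ⟨e''⟩ := Cfsg.Agent.Lib.Helper69.GI.pgsp_char2 (K := F) m
    exact ⟨(e.trans e').trans e''⟩
  · obtain ⟨e⟩ := cent_equiv_simB hn (1 : GL (Fin (2 * m)) F)
    obtain ⟨e'⟩ := htN (1 : GL (Fin (2 * m)) F).1 h1T (gl_det_ne_zero _) h1i
    exact ⟨e.trans e'⟩

end Cfsg.Agent.S2701
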