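import Cfsg.Statements.S2702
import Cfsg.Agent.Lib.Helper50.GISplitL
import Cfsg.Agent.Lib.Helper50.GINiso

set_option autoImplicit false
open Cfsg
open Matrix MatrixGroups Cfsg.Agent.Lib.Helper50.GI

namespace Cfsg.Agent.S2702

/-- Let T = PSL_n(F) over the field with q = p^f elements, n ≥ 3, G = Inndiag(T) the image of PGL_n(F), and γ an involutory graph automorphism of T. The G-class of γ is the union of exactly c T-classes, where: if n is even and q is odd, c = gcd(n/2, q − 1) when C_G(γ) is isomorphic to the projective conformal symplectic group PGSp_n(F) (symplectic type) and c = gcd(n, q − 1)/2 otherwise; and c = gcd(n, q − 1) when n is odd or q is even. -/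
theorem result {F : Type*} [Field F] [Fintype F] {p f : ℕ} [Fact p.Prime] (hF : Fintype.card F = p ^ f) (hf : 1 ≤ f) {n : ℕ} (hn : 3 ≤ n) (γ : MulAut (Matrix.ProjectiveSpecialLinearGroup (Fin n) F)) (hγ : Cfsg.IsGraphAutClassPSL γ) (hγ2 : orderOf γ = 2) :
    ((Even n ∧ Odd p ∧ Nonempty (↥(Cfsg.inndiagPSL n F ⊓ Subgroup.centralizer {γ}) ≃* Cfsg.PGSp (n / 2) F)) → Cfsg.splitClassCount (Cfsg.inndiagPSL n F) (Cfsg.Inn (Matrix.ProjectiveSpecialLinearGroup (Fin n) F)) γ = Nat.gcd (n / 2) (p ^ f - 1)) ∧ ((Even n ∧ Odd p ∧ ¬ Nonempty (↥(Cfsg.inndiagPSL n F ⊓ Subgroup.centralizer {γ}) ≃* Cfsg.PGSp (n / 2) F)) → Cfsg.splitClassCount (Cfsg.inndiagPSL n F) (Cfsg.Inn (Matrix.ProjectiveSpecialLinearGroup (Fin n) F)) γ = Nat.gcd n (p ^ f - 1) / 2) ∧ (¬ (Even n ∧ Odd p) → Cfsg.splitClassCount (Cfsg.inndiagPSL n F) (Cfsg.Inn (Matrix.ProjectiveSpecialLinearGroup (Fin n) F)) γ = Nat.gcd n (p ^ f - 1)) := by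
  classical
  have hchar : CharP F p := charP_of_card_eq_prime_pow hF
  obtain ⟨M, rfl⟩ := exists_gam hγ
  have hM := (orderOf_gam_iff hn M).1 hγ2
  have hcard : Nat.card Fˣ = p ^ f - 1 := by
    rw [Nat.card_eq_fintype_card, Fintype.card_units, hF]
  have hd := gl_det_ne_zero M
  rw [split_eq hn M]
  have h2of : Odd p → (2 : F) ≠ 0 := by
    intro hp
    exact two_ne_zero_of_odd (by rw [hF]; exact hp.pow)
  refine ⟨?_, ?_, ?_⟩
  · rintro ⟨he, hp, ⟨e⟩⟩
    obtain ⟨m, rfl⟩ : ∃ m, n = 2 * m := by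
      obtain ⟨m, hm⟩ := he
      exact ⟨m, by omega⟩
    rw [Nat.mul_div_cancel_left m (by norm_num : 0 < 2)] at e ⊢
    have h2 := h2of hp
    have hodd : Odd (Fintype.card F) := by rw [hF]; exact hp.pow
    obtain ⟨α, hα⟩ := exists_nonsquare_of_odd (F := F) hodd
    have hs1 : ((-1 : F)) ^ m ≠ 0 := pow_ne_zero _ (neg_ne_zero.2 one_ne_zero)
    have hskew : M.1ᵀ = -M.1 := by
      rcases hM with h | h
      · exfalso
        obtain ⟨e1⟩ := cent_equiv_simB hn M
        rcases sq_or_nonsq hodd hα (div_ne_zero hd hs1) with ⟨s, hs, hdet⟩ | ⟨s, hs, hdet⟩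
        · obtain ⟨e2⟩ := simB_plus h2 M.1 h s hs (by rw [← hdet, mul_div_cancel₀ _ hs1])
          exact not_iso_plus h2 (by omega)
            ⟨(e2.symm.trans e1.symm).trans e⟩
        · obtain ⟨e2⟩ := simB_minus h2 (by omega) M.1 h α s hα hs
            (by rw [mul_assoc, ← hdet, mul_div_cancel₀ _ hs1])
          exact not_iso_minus h2 (by omega) 0 (-α)
            (aniso_of_nonsquare hα) ⟨(e2.symm.trans e1.symm).trans e⟩
      · exact h
    have hdiag : ∀ i, M.1 i i = 0 := by
      intro i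
      have h1 := congrFun (congrFun hskew i) i
      rw [transpose_apply, Matrix.neg_apply] at h1
      have h3 : (2 : F) * M.1 i i = 0 := by linear_combination h1
      exact (mul_eq_zero.1 h3).resolve_left h2
    rw [detImg_alt hn M hskew hdiag, index_pow_range, hcard]
  · rintro ⟨he, hp, hne⟩
    obtain ⟨m, rfl⟩ : ∃ m, n = 2 * m := by
      obtain ⟨m, hm⟩ := he
      exact ⟨m, by omega⟩
    rw [Nat.mul_div_cancel_left m (by norm_num : 0 < 2)] at hne
    have h2 := h2of hp
    have hsym : M.1ᵀ = M.1 := by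
      rcases hM with h | h
      · exact h
      · exfalso
        apply hne
        have hdiag : ∀ i, M.1 i i = 0 := by
          intro i
          have h1 := congrFun (congrFun h i) i
          rw [transpose_apply, Matrix.neg_apply] at h1
          have h3 : (2 : F) * M.1 i i = 0 := by linear_combination h1
          exact (mul_eq_zero.1 h3).resolve_left h2
        obtain ⟨e1⟩ := cent_equiv_simB hn M
        obtain ⟨e2⟩ := simB_alt M.1 h hdiag hd
        exact ⟨e1.trans e2⟩
    have hord : orderOf (-1 : Fˣ) = 2 := by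
      apply orderOf_eq_prime (by simp)
      intro h
      have h1 := congrArg Units.val h
      rw [Units.val_neg, Units.val_one] at h1
      apply h2
      linear_combination -h1
    rw [detImg_symm h2 hn M hsym, index_pow_sup_neg (-1) hord m, hcard]
  · intro hne
    by_cases he : Even n
    · have hp2 : p = 2 := by
        have h1 : ¬ Odd p := fun h => hne ⟨he, h⟩
        exact (Nat.Prime.eq_two_or_odd' Fact.out).resolve_right h1
      subst hp2
      rw [detImg_char2 hn M, index_pow_range, hcard]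
    · obtain ⟨k, rfl⟩ : ∃ k, n = 2 * k + 1 := Nat.not_even_iff_odd.1 he
      rw [detImg_odd hn M, index_pow_range, hcard]

end Cfsg.Agent.S2702
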