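import Cfsg.Statements.S2703
import Cfsg.Agent.Lib.Helper50.GIReps
import Cfsg.Agent.Lib.Helper50.GIField
import Cfsg.Agent.Lib.Helper50.GIOdd

set_option autoImplicit false
open Cfsg
open Matrix MatrixGroups Cfsg.Agent.Lib.Helper50.GI

namespace Cfsg.Agent.S2703

/-- Let T = PSL_n(F) over the field with q elements, q odd, n = 2m ≥ 4 even, and ι the inverse-transpose automorphism. Its centralizer in G = Inndiag(T) (the image of PGL_n(F)) is isomorphic to the projective conformal orthogonal group of the plus-type form Σ xᵢ yᵢ in dimension n when n(q − 1)/4 is even, and to that of a minus-type form (Σ xᵢ yᵢ + z₁² + a z₁ z₂ + b z₂² with anisotropic binary part) when n(q − 1)/4 is odd. -/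
theorem result {F : Type*} [Field F] [Fintype F] (hodd : Odd (Fintype.card F)) {n m : ℕ} (hm : 2 ≤ m) (hnm : n = 2 * m) (ι : MulAut (Matrix.ProjectiveSpecialLinearGroup (Fin n) F)) (hι : Cfsg.IsInverseTransposeAutPSL ι) :
    (Even (n * (Fintype.card F - 1) / 4) → Nonempty (↥(Cfsg.inndiagPSL n F ⊓ Subgroup.centralizer {ι}) ≃* Cfsg.PGO F (Cfsg.quadFormPlus m F))) ∧ (¬ Even (n * (Fintype.card F - 1) / 4) → ∃ a b : F, (∀ z₁ z₂ : F, z₁ ^ 2 + a * z₁ * z₂ + b * z₂ ^ 2 = 0 → z₁ = 0 ∧ z₂ = 0) ∧ Nonempty (↥(Cfsg.inndiagPSL n F ⊓ Subgroup.centralizer {ι}) ≃* Cfsg.PGO F (Cfsg.quadFormMinus (m - 1) F a b))) := by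
  classical
  subst hnm
  have hn : 3 ≤ 2 * m := by omega
  have h2 : (2 : F) ≠ 0 := two_ne_zero_of_odd hodd
  have hι' : ι = gam (1 : GL (Fin (2 * m)) F) := by
    rw [Cfsg.Agent.Lib.Helper18.AutPSL.eq_gr_of_isInverseTranspose hι]
    unfold gam
    rw [map_one, one_mul]
  obtain ⟨k, hk⟩ := hodd
  have hpar : 2 * m * (Fintype.card F - 1) / 4 = m * k := by
    rw [hk]
    have : 2 * m * (2 * k + 1 - 1) = 4 * (m * k) := by
      rw [Nat.add_sub_cancel]; ring
    rw [this, Nat.mul_div_cancel_left _ (by norm_num)]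
  rw [hpar, hι']
  obtain ⟨e⟩ := cent_equiv_simB hn (1 : GL (Fin (2 * m)) F)
  have h1T : ((1 : GL (Fin (2 * m)) F).1)ᵀ = (1 : GL (Fin (2 * m)) F).1 := by
    rw [Units.val_one, transpose_one]
  have h1d : ((1 : GL (Fin (2 * m)) F).1).det = 1 := by rw [Units.val_one, det_one]
  constructor
  · intro hev
    -- `(-1) ^ m` is a square
    obtain ⟨s, hs, hs2⟩ : ∃ s : F, s ≠ 0 ∧ (1 : F) = (-1) ^ m * s ^ 2 := by
      rcases Nat.even_mul.1 hev with hm' | hk'
      · exact ⟨1, one_ne_zero, by rw [hm'.neg_one_pow]; ring⟩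
      · have hsq : IsSquare (-1 : F) := by
          rw [FiniteField.isSquare_neg_one_iff, hk]
          obtain ⟨l, hl⟩ := hk'
          omega
        obtain ⟨i, hi⟩ := hsq
        have hi0 : i ≠ 0 := by
          rintro rfl
          rw [mul_zero] at hi
          exact one_ne_zero (neg_eq_zero.1 hi)
        refine ⟨i ^ m, pow_ne_zero _ hi0, ?_⟩
        rw [← pow_mul, mul_comm m 2, pow_mul, sq, ← hi, ← mul_pow]
        simp
    obtain ⟨e'⟩ := simB_plus h2 (1 : GL (Fin (2 * m)) F).1 h1T s hs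
      (by rw [h1d]; exact hs2)
    exact ⟨e.trans e'⟩
  · intro hev
    have hm' : ¬ Even m := fun h => hev (Nat.even_mul.2 (Or.inl h))
    have hk' : ¬ Even k := fun h => hev (Nat.even_mul.2 (Or.inr h))
    have hα : ¬ IsSquare (-1 : F) := by
      rw [FiniteField.isSquare_neg_one_iff, hk]
      rw [Nat.not_even_iff_odd] at hk'
      obtain ⟨l, hl⟩ := hk'
      omega
    refine ⟨0, -(-1), aniso_of_nonsquare hα, ?_⟩
    obtain ⟨e'⟩ := simB_minus h2 (by omega) (1 : GL (Fin (2 * m)) F).1 h1T (-1) 1 hα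
      one_ne_zero (by rw [h1d, (Nat.not_even_iff_odd.1 hm').neg_one_pow]; ring)
    exact ⟨e.trans e'⟩

end Cfsg.Agent.S2703
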