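import Cfsg.Statements.S2704
import Cfsg.Agent.Lib.Helper18.AutPSL.GFieldCent

set_option autoImplicit false
open Cfsg
open Matrix MatrixGroups Cfsg.Agent.Lib.Helper18.AutPSL

namespace Cfsg.Agent.S2704

/-- Let T = PSL_n(F) over the field F with p^f elements, n ≥ 3, and G = Inndiag(T) the image of PGL_n(F). If x is an involutory graph-field automorphism of T then f is even; x is G-conjugate to every other involutory graph-field automorphism; C_G(x) is isomorphic to the projective general unitary group PGU_n(q₀) with q₀² = p^f, realised over F itself through the Hermitian form Σ uᵢ vᵢ^{q₀}; and the G-class of x is the union of exactly gcd(n, q₀ − 1) T-classes. -/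
theorem result {F : Type*} [Field F] [Fintype F] {p f : ℕ} [Fact p.Prime] (hF : Fintype.card F = p ^ f) (hf : 1 ≤ f) {n : ℕ} (hn : 3 ≤ n) (x : MulAut (Matrix.ProjectiveSpecialLinearGroup (Fin n) F)) (hx : Cfsg.IsGraphFieldAutClassPSL x) (hx2 : orderOf x = 2) :
    Even f ∧ (∀ y : MulAut (Matrix.ProjectiveSpecialLinearGroup (Fin n) F), Cfsg.IsGraphFieldAutClassPSL y → orderOf y = 2 → Cfsg.IsConjUnder (Cfsg.inndiagPSL n F) x y) ∧ Nonempty (↥(Cfsg.inndiagPSL n F ⊓ Subgroup.centralizer {x}) ≃* Cfsg.PGU n F (p ^ (f / 2))) ∧ Cfsg.splitClassCount (Cfsg.inndiagPSL n F) (Cfsg.Inn (Matrix.ProjectiveSpecialLinearGroup (Fin n) F)) x = Nat.gcd n (p ^ (f / 2) - 1) := by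
  classical
  have hchar : CharP F p := charP_of_card_eq_prime_pow hF
  have : Nonempty (Fin n) := ⟨⟨0, by omega⟩⟩
  have hn2 : 2 ≤ n := by omega
  obtain ⟨-, u, σ, hσ, rfl⟩ := exists_conj_gfld p hx
  rw [orderOf_conj'] at hx2
  obtain ⟨-, hσ2⟩ := gfield_order hn σ Nat.prime_two hx2
  obtain ⟨hev, hq, hσq⟩ := invol_data hF σ hσ hσ2
  have hsq : (p ^ (f / 2)) ^ 2 - 1 = (p ^ (f / 2) + 1) * (p ^ (f / 2) - 1) := by
    have := Nat.sq_sub_sq (p ^ (f / 2)) 1
    simpa using this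
  refine ⟨hev, ?_, ?_, ?_⟩
  · intro y hy hy2
    obtain ⟨-, v, σ', hσ', rfl⟩ := exists_conj_gfld p hy
    rw [orderOf_conj'] at hy2
    obtain ⟨-, hσ2'⟩ := gfield_order hn σ' Nat.prime_two hy2
    obtain ⟨-, -, hσq'⟩ := invol_data hF σ' hσ' hσ2'
    have e : σ' = σ := by
      ext x
      rw [hσq, hσq']
    rw [e, inndiag_eq]
    refine ⟨cG (v⁻¹ * u), ⟨_, rfl⟩, ?_⟩
    rw [map_mul, map_inv]
    group
  · rw [inndiag_eq]
    obtain ⟨e⟩ := centralizer_equiv (Tu n F (p ^ (f / 2))) (cG : GL (Fin n) F →* _).range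
      (fl σ * gr) (cG u) ⟨u, rfl⟩ (range_Tu hn2 hq σ hσq hσ hσ2)
    exact ⟨e.trans (QuotientGroup.quotientMulEquivOfEq (ker_Tu hn2))⟩
  · rw [inndiag_eq,
      splitClassCount_conj (cG : GL (Fin n) F →* _).range _ (fl σ * gr) (cG u) ⟨u, rfl⟩,
      inn_eq, splitClassCount_eq cG GeneralLinearGroup.det det_surjective,
      map_det_cent_gf hn2 σ hσq hσ hσ2]
    apply index_sup_of_card _ (p ^ (f / 2) + 1)
    · rw [IsCyclic.card_powMonoidHom_ker, Nat.card_eq_fintype_card, Fintype.card_units, hq, hsq]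
      exact Nat.gcd_eq_right (dvd_mul_right _ _)
    · rw [Nat.card_eq_fintype_card, Fintype.card_units, hq, hsq]

end Cfsg.Agent.S2704
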