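import Cfsg.Statements.S2706
import Cfsg.Agent.Lib.Helper50.GIPSU3
import Cfsg.Agent.Lib.Helper50.GIOdd
import Cfsg.Agent.Lib.Helper67.GIFld
import Cfsg.Agent.Lib.Helper67.GIOdd2

set_option autoImplicit false
open Cfsg
open Matrix MatrixGroups Cfsg.Agent.Lib.Helper50.GI Cfsg.Agent.Lib.Helper99.AutPSU
open Cfsg.Agent.Lib.Helper47.AutPSU (ph)

namespace Cfsg.Agent.S2706

/-- Let T = PSU_n(q) be simple with n = 2m + 1 ≥ 3 odd, realised over the field F with q² elements, and G = Inndiag(T) the image of PGU_n(q). Every involutory graph automorphism γ of T (an inner-diagonal automorphism times a standard field automorphism of even order, of order 2) has centralizer C_G(γ) isomorphic to the projective conformal orthogonal group of the form x₀² + Σ xᵢ yᵢ in dimension n over a field F₀ with q elements, and any two involutory graph automorphisms of T are G-conjugate. -/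
theorem result {F : Type*} [Field F] [Fintype F] {p f q : ℕ} [Fact p.Prime] (hq : q = p ^ f) (hf : 1 ≤ f) (hF : Fintype.card F = q ^ 2) {n : ℕ} (hn : 3 ≤ n) (hs : ¬ (n = 3 ∧ q = 2)) {m : ℕ} (hnm : n = 2 * m + 1) (F₀ : Type*) [Field F₀] [Fintype F₀] (hF₀ : Fintype.card F₀ = q) (γ γ' : MulAut (Cfsg.PSU n F q)) (hγ : Cfsg.IsGraphAutClassPSU γ) (hγ2 : orderOf γ = 2) (hγ' : Cfsg.IsGraphAutClassPSU γ') (hγ'2 : orderOf γ' = 2) :
    Nonempty (↥(Cfsg.inndiagPSU n F q ⊓ Subgroup.centralizer {γ}) ≃* Cfsg.PGO F₀ (Cfsg.quadFormOdd m F₀)) ∧ Cfsg.IsConjUnder (Cfsg.inndiagPSU n F q) γ γ' := by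
  classical
  subst hnm
  obtain ⟨j, hj⟩ := Cfsg.Agent.Lib.Helper67.GI.exists_emb hF hF₀
  have hchar₀ : CharP F₀ p := charP_of_card_eq_prime_pow (hF₀.trans hq)
  have hchar : CharP F p := charP_of_injective_ringHom j.injective p
  obtain ⟨M, rfl⟩ := exists_gamU hF hγ hγ2
  obtain ⟨M', rfl⟩ := exists_gamU hF hγ' hγ'2
  have hM := (orderOf_gamU_iff hF hn M).1 hγ2
  have hM' := (orderOf_gamU_iff hF hn M').1 hγ'2
  by_cases hp : p = 2
  · subst hp
    have hneg : ∀ A : Matrix (Fin (2 * m + 1)) (Fin (2 * m + 1)) F₀, -A = A := by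
      intro A
      ext i k
      rw [Matrix.neg_apply]
      exact CharTwo.neg_eq _
    have hnegF : ∀ A : Matrix (Fin (2 * m + 1)) (Fin (2 * m + 1)) F, -A = A := by
      intro A
      ext i k
      rw [Matrix.neg_apply]
      exact CharTwo.neg_eq _
    have hsym : ∀ A : ↥(Cfsg.GU (2 * m + 1) F q), ((mG A)ᵀ = mG A ∨ (mG A)ᵀ = -mG A) →
        (mG A)ᵀ = mG A := by
      intro A hA
      rcases hA with h | h
      · exact h
      · rw [h, hnegF]
    have hi : ∀ N : Matrix (Fin (2 * m + 1)) (Fin (2 * m + 1)) F₀, Nᵀ = N → N.det ≠ 0 →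
        ∃ i, N i i ≠ 0 := by
      intro N hN hd
      by_contra hcon
      push Not at hcon
      exact hd (Cfsg.Agent.Lib.Helper67.GI.det_alt_odd N (by rw [hN, hneg]) hcon)
    obtain ⟨N₀, hD, hd, hN₀⟩ := exists_datE_symm hF j hj M (hsym M hM)
    obtain ⟨N₀', hD', hd', hN₀'⟩ := exists_datE_symm hF j hj M' (hsym M' hM')
    constructor
    · obtain ⟨e⟩ := cent_datE hF hn j hj one_ne_zero hD
      obtain ⟨e'⟩ := Cfsg.Agent.Lib.Helper67.GI.simB_odd_char2 N₀ hN₀ hd
      exact ⟨e.trans e'⟩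
    · obtain ⟨P, hP⟩ := Cfsg.Agent.Lib.Helper67.GI.congr_char2 N₀ N₀' hN₀ hN₀' hd hd'
        (hi N₀ hN₀ hd) (hi N₀' hN₀' hd')
      exact conj_of_congr hF hn j hj one_ne_zero hD hD' P 1 one_ne_zero (by rw [one_smul]; exact hP)
  · have h2 : (2 : F₀) ≠ 0 := by
      intro h
      have h3 : ((2 : ℕ) : F₀) = 0 := by exact_mod_cast h
      have h4 := (CharP.cast_eq_zero_iff F₀ p 2).1 h3
      exact hp ((Nat.prime_dvd_prime_iff_eq Fact.out Nat.prime_two).1 h4)
    have h2F : (2 : F) ≠ 0 := by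
      intro h
      have h3 : ((2 : ℕ) : F) = 0 := by exact_mod_cast h
      have h4 := (CharP.cast_eq_zero_iff F p 2).1 h3
      exact hp ((Nat.prime_dvd_prime_iff_eq Fact.out Nat.prime_two).1 h4)
    have hsym : ∀ A : ↥(Cfsg.GU (2 * m + 1) F q), ((mG A)ᵀ = mG A ∨ (mG A)ᵀ = -mG A) →
        (mG A)ᵀ = mG A := by
      intro A hA
      rcases hA with h | h
      · exact h
      · exfalso
        apply mG_det A
        apply Cfsg.Agent.Lib.Helper67.GI.det_alt_odd (mG A) h
        intro i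
        have h1 := congrFun (congrFun h i) i
        rw [transpose_apply, Matrix.neg_apply] at h1
        have h3 : (2 : F) * mG A i i = 0 := by linear_combination h1
        exact (mul_eq_zero.1 h3).resolve_left h2F
    obtain ⟨N₀, hD, hd, hN₀⟩ := exists_datE_symm hF j hj M (hsym M hM)
    obtain ⟨N₀', hD', hd', hN₀'⟩ := exists_datE_symm hF j hj M' (hsym M' hM')
    constructor
    · obtain ⟨e⟩ := cent_datE hF hn j hj one_ne_zero hD
      obtain ⟨e'⟩ := simB_odd h2 N₀ hN₀ hd
      exact ⟨e.trans e'⟩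
    · set a : F₀ := N₀'.det / N₀.det with ha
      have ha0 : a ≠ 0 := div_ne_zero hd' hd
      obtain ⟨P, hP⟩ := congr_symm h2 (a • N₀) N₀'
        (by rw [transpose_smul, hN₀]) hN₀'
        (by rw [det_smul]; exact mul_ne_zero (pow_ne_zero _ ha0) hd) ((a ^ m)⁻¹)
        (inv_ne_zero (pow_ne_zero _ ha0)) (by
          rw [det_smul, Fintype.card_fin]
          have : N₀'.det = a * N₀.det := by rw [ha, div_mul_cancel₀ _ hd]
          rw [this]
          field_simp
          ring)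
      exact conj_of_congr hF hn j hj one_ne_zero hD hD' P a ha0
        (by rw [hP, Matrix.mul_smul, smul_mul_assoc])

end Cfsg.Agent.S2706
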