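import Cfsg.Statements.S2707
import Cfsg.Agent.Lib.Helper50.GIPSU3
import Cfsg.Agent.Lib.Helper50.GIField
import Cfsg.Agent.Lib.Helper50.GISp
import Cfsg.Agent.Lib.Helper67.GIFld

set_option autoImplicit false
open Cfsg
open Matrix MatrixGroups Cfsg.Agent.Lib.Helper50.GI Cfsg.Agent.Lib.Helper99.AutPSU
open Cfsg.Agent.Lib.Helper47.AutPSU (ph)

namespace Cfsg.Agent.S2707

/-- Let T = PSU_n(q) with n = 2m ≥ 4 even and q odd, realised over the field F with q² elements, and G = Inndiag(T) the image of PGU_n(q). The involutory graph automorphisms of T fall into exactly three G-classes, with representatives whose centralizers in G are isomorphic respectively to the projective conformal symplectic group PGSp_n(F₀), the projective conformal orthogonal group of the plus-type form Σ xᵢ yᵢ, and that of a minus-type form Σ xᵢ yᵢ + z₁² + a z₁ z₂ + b z₂² (anisotropic binary part) in dimension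 n, all over a field F₀ with q elements. -/
theorem result {F : Type*} [Field F] [Fintype F] {q : ℕ} (hodd : Odd q) (hF : Fintype.card F = q ^ 2) {n m : ℕ} (hm : 2 ≤ m) (hnm : n = 2 * m) (F₀ : Type*) [Field F₀] [Fintype F₀] (hF₀ : Fintype.card F₀ = q) :
    ∃ (γ₁ γ₂ γ₃ : MulAut (Cfsg.PSU n F q)) (a b : F₀), (∀ z₁ z₂ : F₀, z₁ ^ 2 + a * z₁ * z₂ + b * z₂ ^ 2 = 0 → z₁ = 0 ∧ z₂ = 0) ∧ Cfsg.IsGraphAutClassPSU γ₁ ∧ orderOf γ₁ = 2 ∧ Cfsg.IsGraphAutClassPSU γ₂ ∧ orderOf γ₂ = 2 ∧ Cfsg.IsGraphAutClassPSU γ₃ ∧ orderOf γ₃ = 2 ∧ ¬ Cfsg.IsConjUnder (Cfsg.inndiagPSU n F q) γ₁ γ₂ ∧ ¬ Cfsg.IsConjUnder (Cfsg.inndiagPSU n F q) γ₁ γ₃ ∧ ¬ Cfsg.IsConjUnder (Cfsg.inndiagPSU n F q) γ₂ γ₃ ∧ (∀ γ : MulAut (Cfsg.PSU n F q), Cfsg.IsGraphAutClassPSU γ → orderOf γ = 2 → Cfsg.IsConjUnder (Cfsg.inndiagPSU n F q) γ₁ γ ∨ Cfsg.IsConjUnder (Cfsg.inndiagPSU n F q) γ₂ γ ∨ Cfsg.IsConjUnder (Cfsg.inndiagPSU n F q)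 γ₃ γ) ∧ Nonempty (↥(Cfsg.inndiagPSU n F q ⊓ Subgroup.centralizer {γ₁}) ≃* Cfsg.PGSp m F₀) ∧ Nonempty (↥(Cfsg.inndiagPSU n F q ⊓ Subgroup.centralizer {γ₂}) ≃* Cfsg.PGO F₀ (Cfsg.quadFormPlus m F₀)) ∧ Nonempty (↥(Cfsg.inndiagPSU n F q ⊓ Subgroup.centralizer {γ₃}) ≃* Cfsg.PGO F₀ (Cfsg.quadFormMinus (m - 1) F₀ a b)) := by
  classical
  subst hnm
  have hn : 3 ≤ 2 * m := by omega
  obtain ⟨j, hj⟩ := Cfsg.Agent.Lib.Helper67.GI.exists_emb hF hF₀
  have hodd₀ : Odd (Fintype.card F₀) := by rw [hF₀]; exact hodd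
  have h2 : (2 : F₀) ≠ 0 := two_ne_zero_of_odd hodd₀
  have h2F : (2 : F) ≠ 0 := two_ne_zero_of_odd (by rw [hF]; exact hodd.pow)
  obtain ⟨α, hα⟩ := exists_nonsquare_of_odd (F := F₀) hodd₀
  have hα0 : α ≠ 0 := ne_zero_of_not_isSquare hα
  have hs1 : ((-1 : F₀)) ^ m ≠ 0 := pow_ne_zero _ (neg_ne_zero.2 one_ne_zero)
  let i₀ : Fin (2 * m) := ⟨0, by omega⟩
  obtain ⟨e, he, heq⟩ := exists_skew_elt hF
  obtain ⟨M₁, hD₁, hM₁⟩ := exists_M_skew hF j hj he heq (Jn F₀ m) (Jn_det_ne_zero m)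
    (Jn_transpose m)
  obtain ⟨M₂, hD₂, hM₂⟩ := exists_M_symm hF j hj (dgn i₀ ((-1 : F₀) ^ m))
    (by rw [dgn_det]; exact hs1) (dgn_transpose _ _)
  obtain ⟨M₃, hD₃, hM₃⟩ := exists_M_symm hF j hj (dgn i₀ ((-1 : F₀) ^ m * α))
    (by rw [dgn_det]; exact mul_ne_zero hs1 hα0) (dgn_transpose _ _)
  refine ⟨gamU hF M₁, gamU hF M₂, gamU hF M₃, 0, -α, aniso_of_nonsquare hα, isGraph_gamU hF hn _, ?_,
    isGraph_gamU hF hn _, ?_, isGraph_gamU hF hn _, ?_, not_conj_skew_symm hF hn h2F hM₁ hM₂,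
    not_conj_skew_symm hF hn h2F hM₁ hM₃, ?_, ?_, ?_, ?_, ?_⟩
  · exact (orderOf_gamU_iff hF hn _).2 (Or.inr hM₁)
  · exact (orderOf_gamU_iff hF hn _).2 (Or.inl hM₂)
  · exact (orderOf_gamU_iff hF hn _).2 (Or.inl hM₃)
  · intro hc
    obtain ⟨A, ν, hA, hν, h1⟩ := (conj_datE hF hn j hj one_ne_zero hD₂ hD₃).1 hc
    have h3 := congrArg Matrix.det h1
    rw [det_smul, det_mul, det_mul, det_transpose, dgn_det, dgn_det, Fintype.card_fin] at h3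
    have hx : ν ^ m * A.det ≠ 0 := mul_ne_zero (pow_ne_zero _ hν) hA
    have h4 : α * (ν ^ m * A.det) ^ 2 = 1 := by
      apply mul_left_cancel₀ hs1
      linear_combination h3
    apply hα
    refine ⟨(ν ^ m * A.det)⁻¹, ?_⟩
    field_simp
    linear_combination h4
  · intro γ hγ hγ2
    obtain ⟨M, rfl⟩ := exists_gamU hF hγ hγ2
    rcases (orderOf_gamU_iff hF hn M).1 hγ2 with hM | hM
    · obtain ⟨N₀, hD, hd, hN₀⟩ := exists_datE_symm hF j hj M hM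
      rcases sq_or_nonsq hodd₀ hα (div_ne_zero hd hs1) with ⟨s, hs, hdet⟩ | ⟨s, hs, hdet⟩
      · right; left
        obtain ⟨P, hP⟩ := congr_symm h2 (dgn i₀ ((-1 : F₀) ^ m)) N₀ (dgn_transpose _ _) hN₀
          (by rw [dgn_det]; exact hs1) s hs (by rw [dgn_det, ← hdet, mul_div_cancel₀ _ hs1])
        exact conj_of_congr hF hn j hj one_ne_zero hD₂ hD P 1 one_ne_zero
          (by rw [one_smul]; exact hP)
      · right; right
        obtain ⟨P, hP⟩ := congr_symm h2 (dgn i₀ ((-1 : F₀) ^ m * α)) N₀ (dgn_transpose _ _) hN₀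
          (by rw [dgn_det]; exact mul_ne_zero hs1 hα0) s hs
          (by rw [dgn_det, mul_assoc, ← hdet, mul_div_cancel₀ _ hs1])
        exact conj_of_congr hF hn j hj one_ne_zero hD₃ hD P 1 one_ne_zero
          (by rw [one_smul]; exact hP)
    · left
      obtain ⟨N₀, hD, hd, hN₀⟩ := exists_datE_skew hF j hj he heq M hM
      have hdiag : ∀ i, N₀ i i = 0 := by
        intro i
        have h1 := congrFun (congrFun hN₀ i) i
        rw [transpose_apply, Matrix.neg_apply] at h1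
        have h3 : (2 : F₀) * N₀ i i = 0 := by linear_combination h1
        exact (mul_eq_zero.1 h3).resolve_left h2
      obtain ⟨P, hP⟩ := congr_alt_even (Jn F₀ m) N₀ (Jn_transpose m) (Jn_diag m) hN₀ hdiag
        (Jn_det_ne_zero m) hd
      exact conj_of_congr hF hn j hj he hD₁ hD P 1 one_ne_zero (by rw [one_smul]; exact hP)
  · obtain ⟨e1⟩ := cent_datE hF hn j hj he hD₁
    obtain ⟨e'⟩ := simB_alt (Jn F₀ m) (Jn_transpose m) (Jn_diag m) (Jn_det_ne_zero m)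
    exact ⟨e1.trans e'⟩
  · obtain ⟨e1⟩ := cent_datE hF hn j hj one_ne_zero hD₂
    obtain ⟨e'⟩ := simB_plus h2 (dgn i₀ ((-1 : F₀) ^ m)) (dgn_transpose _ _) 1 one_ne_zero
      (by rw [dgn_det]; ring)
    exact ⟨e1.trans e'⟩
  · obtain ⟨e1⟩ := cent_datE hF hn j hj one_ne_zero hD₃
    obtain ⟨e'⟩ := simB_minus h2 (by omega) (dgn i₀ ((-1 : F₀) ^ m * α)) (dgn_transpose _ _) α 1 hα
      one_ne_zero (by rw [dgn_det]; ring)
    exact ⟨e1.trans e'⟩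

end Cfsg.Agent.S2707
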