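import Cfsg.Statements.S2708
import Cfsg.Agent.Lib.Helper50.GIPSU3
import Cfsg.Agent.Lib.Helper50.GISp
import Cfsg.Agent.Lib.Helper67.GIFld
import Cfsg.Agent.Lib.Helper67.GIBase
import Cfsg.Agent.Lib.Helper69.GISP2
import Cfsg.Agent.Lib.Helper69.GITV2

set_option autoImplicit false
open Cfsg
open Matrix MatrixGroups Cfsg.Agent.Lib.Helper50.GI Cfsg.Agent.Lib.Helper99.AutPSU
open Cfsg.Agent.Lib.Helper47.AutPSU (ph)

namespace Cfsg.Agent.S2708

/-- Let T = PSU_n(q) with n = 2m ≥ 4 even and q even, realised over the field F (of characteristic 2) with q² elements, and G = Inndiag(T) the image of PGU_n(q). The involutory graph automorphisms of T fall into exactly two G-classes, with representatives whose centralizers in G are isomorphic respectively to the symplectic group Sp_n(F₀) and to the centralizer in Sp_n(F₀) of a symplectic transvection, F₀ a field with q elements. -/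
theorem result {F : Type*} [Field F] [Fintype F] [CharP F 2] {q : ℕ} (hF : Fintype.card F = q ^ 2) {n m : ℕ} (hm : 2 ≤ m) (hnm : n = 2 * m) (F₀ : Type*) [Field F₀] [Fintype F₀] (hF₀ : Fintype.card F₀ = q) :
    ∃ (γ₁ γ₃ : MulAut (Cfsg.PSU n F q)) (t : ↥(Matrix.symplecticGroup (Fin m) F₀)), Cfsg.IsTransvection (t : Matrix (Fin m ⊕ Fin m) (Fin m ⊕ Fin m) F₀) ∧ Cfsg.IsGraphAutClassPSU γ₁ ∧ orderOf γ₁ = 2 ∧ Cfsg.IsGraphAutClassPSU γ₃ ∧ orderOf γ₃ = 2 ∧ ¬ Cfsg.IsConjUnder (Cfsg.inndiagPSU n F q) γ₁ γ₃ ∧ (∀ γ : MulAut (Cfsg.PSU n F q), Cfsg.IsGraphAutClassPSU γ → orderOf γ = 2 → Cfsg.IsConjUnder (Cfsg.inndiagPSU n F q) γ₁ γ ∨ Cfsg.IsConjUnder (Cfsg.inndiagPSU n F q) γ₃ γ) ∧ Nonempty (↥(Cfsg.inndiagPSU n F q ⊓ Subgroup.centralizer {γ₁}) ≃* ↥(Matrix.symplecticGroup (Fin m) F₀)) ∧ Nonempty (↥(Cfsg.inndiagPSU n F q ⊓ Subgroup.centralizer {γ₃}) ≃* ↥(Subgroup.centralizer ({t} : Set ↥(Matrix.symplecticGroup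 (Fin m) F₀)))) := by
  classical
  subst hnm
  have hn : 3 ≤ 2 * m := by omega
  obtain ⟨j, hj⟩ := Cfsg.Agent.Lib.Helper67.GI.exists_emb hF hF₀
  haveI : CharP F₀ 2 := RingHom.charP j j.injective 2
  have hneg : ∀ A : Matrix (Fin (2 * m)) (Fin (2 * m)) F₀, -A = A := by
    intro A
    ext i k
    rw [Matrix.neg_apply]
    exact CharTwo.neg_eq _
  have hnegF : ∀ A : Matrix (Fin (2 * m)) (Fin (2 * m)) F, -A = A := by
    intro A
    ext i k
    rw [Matrix.neg_apply]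
    exact CharTwo.neg_eq _
  let i₀ : Fin (2 * m) := ⟨0, by omega⟩
  obtain ⟨M₁, hD₁, hM₁⟩ := exists_M_symm hF j hj (Jn F₀ m) (Jn_det_ne_zero m)
    (by rw [Jn_transpose, hneg])
  have hD₃ : DatE hF j 1 (1 : ↥(Cfsg.GU (2 * m) F q)) (1 : Matrix (Fin (2 * m)) (Fin (2 * m)) F₀) :=
    datE_one hF j
  have h1d : (1 : Matrix (Fin (2 * m)) (Fin (2 * m)) F₀).det ≠ 0 := by
    rw [det_one]; exact one_ne_zero
  have h1i : ∃ i, (1 : Matrix (Fin (2 * m)) (Fin (2 * m)) F₀) i i ≠ 0 :=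
    ⟨i₀, by rw [one_apply_eq]; exact one_ne_zero⟩
  obtain ⟨t, ht, htN⟩ := Cfsg.Agent.Lib.Helper69.GI.simB_char2_nonalt (K := F₀) (m := m) (by omega)
  refine ⟨gamU hF M₁, gamU hF 1, t, ht, isGraph_gamU hF hn _, ?_, isGraph_gamU hF hn _, ?_, ?_, ?_,
    ?_, ?_⟩
  · exact (orderOf_gamU_iff hF hn _).2 (Or.inl hM₁)
  · exact (orderOf_gamU_iff hF hn _).2 (Or.inl transpose_one)
  · intro hc
    obtain ⟨A, ν, hA, hν, h1⟩ := (conj_datE hF hn j hj one_ne_zero hD₁ hD₃).1 hc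
    have hu : IsUnit A.det := isUnit_iff_ne_zero.2 hA
    have h3 : (A⁻¹)ᵀ * Jn F₀ m * ((A⁻¹)ᵀ)ᵀ = ν • (1 : Matrix (Fin (2 * m)) (Fin (2 * m)) F₀) := by
      rw [← h1, Matrix.mul_one, transpose_transpose, Matrix.mul_smul, smul_mul_assoc]
      congr 1
      calc (A⁻¹)ᵀ * (Aᵀ * A) * A⁻¹ = (A * A⁻¹)ᵀ * (A * A⁻¹) := by
            rw [transpose_mul]
            simp only [Matrix.mul_assoc]
        _ = 1 := by rw [Matrix.mul_nonsing_inv _ hu, transpose_one, Matrix.one_mul]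
    have h4 := congrFun (congrFun h3 i₀) i₀
    rw [congr_diag_of_alt (Jn_transpose m) (Jn_diag m), Matrix.smul_apply, one_apply_eq, smul_eq_mul,
      mul_one] at h4
    exact hν h4.symm
  · intro γ hγ hγ2
    obtain ⟨M, rfl⟩ := exists_gamU hF hγ hγ2
    have hM : (mG M)ᵀ = mG M := by
      rcases (orderOf_gamU_iff hF hn M).1 hγ2 with h | h
      · exact h
      · rw [h, hnegF]
    obtain ⟨N₀, hD, hd, hN₀⟩ := exists_datE_symm hF j hj M hM
    by_cases hdg : ∀ i, N₀ i i = 0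
    · left
      obtain ⟨P, hP⟩ := Cfsg.Agent.Lib.Helper67.GI.congr_alt (Jn F₀ m) N₀ (Jn_transpose m) (Jn_diag m)
        (by rw [hN₀, hneg]) hdg (Jn_det_ne_zero m) hd
      exact conj_of_congr hF hn j hj one_ne_zero hD₁ hD P 1 one_ne_zero (by rw [one_smul]; exact hP)
    · right
      push Not at hdg
      obtain ⟨P, hP⟩ := Cfsg.Agent.Lib.Helper67.GI.congr_char2
        (1 : Matrix (Fin (2 * m)) (Fin (2 * m)) F₀) N₀ transpose_one hN₀ h1d hd h1i hdg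
      exact conj_of_congr hF hn j hj one_ne_zero hD₃ hD P 1 one_ne_zero (by rw [one_smul]; exact hP)
  · obtain ⟨e⟩ := cent_datE hF hn j hj one_ne_zero hD₁
    obtain ⟨e'⟩ := simB_alt (Jn F₀ m) (Jn_transpose m) (Jn_diag m) (Jn_det_ne_zero m)
    obtain ⟨e''⟩ := Cfsg.Agent.Lib.Helper69.GI.pgsp_char2 (K := F₀) m
    exact ⟨(e.trans e').trans e''⟩
  · obtain ⟨e⟩ := cent_datE hF hn j hj one_ne_zero hD₃
    obtain ⟨e'⟩ := htN (1 : Matrix (Fin (2 * m)) (Fin (2 * m)) F₀) transpose_one h1d h1i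
    exact ⟨e.trans e'⟩

end Cfsg.Agent.S2708
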