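import Cfsg.Statements.S2709
import Cfsg.Agent.Lib.Helper50.GISplitU
import Cfsg.Agent.Lib.Helper50.GINiso
import Cfsg.Agent.Lib.Helper67.GIFld

set_option autoImplicit false
open Cfsg
open Matrix MatrixGroups Cfsg.Agent.Lib.Helper50.GI Cfsg.Agent.Lib.Helper99.AutPSU
open Cfsg.Agent.Lib.Helper47.AutPSU (ph U1 card_U1)

namespace Cfsg.Agent.S2709

/-- Let T = PSU_n(q) be simple (n ≥ 3, (n,q) ≠ (3,2), q = p^f), realised over the field F with q² elements, G = Inndiag(T) the image of PGU_n(q), and γ an involutory graph automorphism of T. The G-class of γ is the union of exactly c T-classes, where: if n is even and q is odd, c = gcd(n/2, q + 1) when C_G(γ) is isomorphic to PGSp_n(F₀) for a field F₀ with q elements (symplectic type) and c = gcd(n, q + 1)/2 otherwise; and c = gcd(n, q + 1) when n is odd or q is even. -/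
theorem result {F : Type*} [Field F] [Fintype F] {p f q : ℕ} [Fact p.Prime] (hq : q = p ^ f) (hf : 1 ≤ f) (hF : Fintype.card F = q ^ 2) {n : ℕ} (hn : 3 ≤ n) (hs : ¬ (n = 3 ∧ q = 2)) (F₀ : Type*) [Field F₀] [Fintype F₀] (hF₀ : Fintype.card F₀ = q) (γ : MulAut (Cfsg.PSU n F q)) (hγ : Cfsg.IsGraphAutClassPSU γ) (hγ2 : orderOf γ = 2) :
    ((Even n ∧ Odd q ∧ Nonempty (↥(Cfsg.inndiagPSU n F q ⊓ Subgroup.centralizer {γ}) ≃* Cfsg.PGSp (n / 2) F₀)) → Cfsg.splitClassCount (Cfsg.inndiagPSU n F q) (Cfsg.Inn (Cfsg.PSU n F q)) γ = Nat.gcd (n / 2) (q + 1)) ∧ ((Even n ∧ Odd q ∧ ¬ Nonempty (↥(Cfsg.inndiagPSU n F q ⊓ Subgroup.centralizer {γ}) ≃* Cfsg.PGSp (n / 2) F₀)) → Cfsg.splitClassCount (Cfsg.inndiagPSU n F q) (Cfsg.Inn (Cfsg.PSU n F q)) γ = Nat.gcd n (q + 1) / 2) ∧ (¬ (Even n ∧ Odd q) → Cfsg.splitClassCount (Cfsg.inndiagPSU n F q) (Cfsg.Inn (Cfsg.PSU n F q)) γ = Nat.gcd n (q + 1)) := by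
  classical
  obtain ⟨j, hj⟩ := Cfsg.Agent.Lib.Helper67.GI.exists_emb hF hF₀
  obtain ⟨M, rfl⟩ := exists_gamU hF hγ hγ2
  have hM := (orderOf_gamU_iff hF hn M).1 hγ2
  have hcard : Nat.card ↥(U1 F q) = q + 1 := card_U1 hF
  rw [splitU_eq hF hn M]
  refine ⟨?_, ?_, ?_⟩
  · rintro ⟨he, hqo, ⟨e⟩⟩
    obtain ⟨m, rfl⟩ : ∃ m, n = 2 * m := by
      obtain ⟨m, hm⟩ := he
      exact ⟨m, by omega⟩
    rw [Nat.mul_div_cancel_left m (by norm_num : 0 < 2)] at e ⊢
    have hodd₀ : Odd (Fintype.card F₀) := by rw [hF₀]; exact hqo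
    have h2 : (2 : F₀) ≠ 0 := two_ne_zero_of_odd hodd₀
    have h2F : (2 : F) ≠ 0 := two_ne_zero_of_odd (by rw [hF]; exact hqo.pow)
    obtain ⟨α, hα⟩ := exists_nonsquare_of_odd (F := F₀) hodd₀
    have hs1 : ((-1 : F₀)) ^ m ≠ 0 := pow_ne_zero _ (neg_ne_zero.2 one_ne_zero)
    have hskew : (mG M)ᵀ = -mG M := by
      rcases hM with h | h
      · exfalso
        obtain ⟨N₀, hD, hd, hN₀⟩ := exists_datE_symm hF j hj M h
        obtain ⟨e1⟩ := cent_datE hF hn j hj one_ne_zero hD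
        rcases sq_or_nonsq hodd₀ hα (div_ne_zero hd hs1) with ⟨s, hs', hdet⟩ | ⟨s, hs', hdet⟩
        · obtain ⟨e2⟩ := simB_plus h2 N₀ hN₀ s hs' (by rw [← hdet, mul_div_cancel₀ _ hs1])
          exact not_iso_plus h2 (by omega)
            ⟨(e2.symm.trans e1.symm).trans e⟩
        · obtain ⟨e2⟩ := simB_minus h2 (by omega) N₀ hN₀ α s hα hs'
            (by rw [mul_assoc, ← hdet, mul_div_cancel₀ _ hs1])
          exact not_iso_minus h2 (by omega) 0 (-α)
            (aniso_of_nonsquare hα) ⟨(e2.symm.trans e1.symm).trans e⟩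
      · exact h
    obtain ⟨e', he', heq⟩ := exists_skew_elt hF
    obtain ⟨N₀, hD, hd, hN₀⟩ := exists_datE_skew hF j hj he' heq M hskew
    have hdiagM : ∀ i, mG M i i = 0 := by
      intro i
      have h1 := congrFun (congrFun hskew i) i
      rw [transpose_apply, Matrix.neg_apply] at h1
      have h3 : (2 : F) * mG M i i = 0 := by linear_combination h1
      exact (mul_eq_zero.1 h3).resolve_left h2F
    have hdiagN : ∀ i, N₀ i i = 0 := by
      intro i
      have h1 := congrFun (congrFun hN₀ i) i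
      rw [transpose_apply, Matrix.neg_apply] at h1
      have h3 : (2 : F₀) * N₀ i i = 0 := by linear_combination h1
      exact (mul_eq_zero.1 h3).resolve_left h2
    rw [detImgU_alt hF j hj hn M hskew hdiagM hD hN₀ hdiagN hd, index_pow_range, hcard]
  · rintro ⟨he, hqo, hne⟩
    obtain ⟨m, rfl⟩ : ∃ m, n = 2 * m := by
      obtain ⟨m, hm⟩ := he
      exact ⟨m, by omega⟩
    rw [Nat.mul_div_cancel_left m (by norm_num : 0 < 2)] at hne
    have hodd₀ : Odd (Fintype.card F₀) := by rw [hF₀]; exact hqo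
    have h2 : (2 : F₀) ≠ 0 := two_ne_zero_of_odd hodd₀
    have h2F : (2 : F) ≠ 0 := two_ne_zero_of_odd (by rw [hF]; exact hqo.pow)
    have hsym : (mG M)ᵀ = mG M := by
      rcases hM with h | h
      · exact h
      · exfalso
        apply hne
        obtain ⟨e', he', heq⟩ := exists_skew_elt hF
        obtain ⟨N₀, hD, hd, hN₀⟩ := exists_datE_skew hF j hj he' heq M h
        have hdiagN : ∀ i, N₀ i i = 0 := by
          intro i
          have h1 := congrFun (congrFun hN₀ i) i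
          rw [transpose_apply, Matrix.neg_apply] at h1
          have h3 : (2 : F₀) * N₀ i i = 0 := by linear_combination h1
          exact (mul_eq_zero.1 h3).resolve_left h2
        obtain ⟨e1⟩ := cent_datE hF hn j hj he' hD
        obtain ⟨e2⟩ := simB_alt N₀ hN₀ hdiagN hd
        exact ⟨e1.trans e2⟩
    obtain ⟨N₀, hD, hd, hN₀⟩ := exists_datE_symm hF j hj M hsym
    have hz1 : (-1 : F) ^ (q + 1) = 1 := (hqo.add_one).neg_one_pow
    have hord : orderOf (mkU1 (-1 : F) hz1) = 2 := by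
      apply orderOf_eq_prime
      · apply U1_ext
        rw [U1_pow_val, mkU1_val]
        simp
      · intro h
        have h1 : (((mkU1 (-1 : F) hz1 : ↥(U1 F q)) : Fˣ) : F) = 1 := by rw [h]; rfl
        rw [mkU1_val] at h1
        apply h2F
        linear_combination -h1
    rw [detImgU_symm hF j hj h2 hn M hD hN₀ hd (mkU1 (-1 : F) hz1) rfl,
      index_pow_sup_neg _ hord m, hcard]
  · intro hne
    by_cases he : Even n
    · have hq2 : ¬ Odd q := fun h => hne ⟨he, h⟩
      have hp2 : p = 2 := by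
        rcases Nat.Prime.eq_two_or_odd' (Fact.out : p.Prime) with h | h
        · exact h
        · exact absurd (hq ▸ h.pow) hq2
      subst hp2
      have hchar : CharP F 2 := charP_of_card_eq_prime_pow (f := f * 2) (by rw [hF, hq, pow_mul])
      rw [detImgU_char2 hF hn M, index_pow_range, hcard]
    · obtain ⟨k, rfl⟩ : ∃ k, n = 2 * k + 1 := Nat.not_even_iff_odd.1 he
      rw [detImgU_odd hF hn M, index_pow_range, hcard]

end Cfsg.Agent.S2709
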