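import Cfsg.Statements.S2710
import Cfsg.Agent.Lib.Helper50.GIPSU3
import Cfsg.Agent.Lib.Helper50.GIField
import Cfsg.Agent.Lib.Helper50.GIOdd
import Cfsg.Agent.Lib.Helper67.GIFld

set_option autoImplicit false
open Cfsg
open Matrix MatrixGroups Cfsg.Agent.Lib.Helper50.GI Cfsg.Agent.Lib.Helper99.AutPSU
open Cfsg.Agent.Lib.Helper47.AutPSU (ph)

namespace Cfsg.Agent.S2710

/-- Let T = PSU_n(q) with n ≥ 4 divisible by 4 (n = 2m) and q odd, realised over the field F with q² elements, G = Inndiag(T) the image of PGU_n(q), and φ the standard field automorphism of T attached to the q-th power map of F (it induces inverse-transpose on the unitary matrices and is a graph automorphism). Its centralizer in G is isomorphic to the projective conformal orthogonal group of the plus-type form Σ xᵢ yᵢ in dimension n over a field F₀ with q elements. (Dimensions n ≡ 2 (mod 4) are not covered.) -/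
theorem result {F : Type*} [Field F] [Fintype F] {q : ℕ} (hodd : Odd q) (hF : Fintype.card F = q ^ 2) {n m : ℕ} (hm : 2 ≤ m) (hnm : n = 2 * m) (h4 : 4 ∣ n) (F₀ : Type*) [Field F₀] [Fintype F₀] (hF₀ : Fintype.card F₀ = q) (σ : F ≃+* F) (hσ : ∀ a : F, σ a = a ^ q) (φ : MulAut (Cfsg.PSU n F q)) (hφ : Cfsg.IsFieldAutPSUOf σ φ) :
    Nonempty (↥(Cfsg.inndiagPSU n F q ⊓ Subgroup.centralizer {φ}) ≃* Cfsg.PGO F₀ (Cfsg.quadFormPlus m F₀)) := by
  classical
  subst hnm
  obtain ⟨j, hj⟩ := Cfsg.Agent.Lib.Helper67.GI.exists_emb hF hF₀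
  have hσ' : σ = ph hF := by
    ext x
    exact hσ x
  have hφ' : φ = gamU hF 1 := by rw [gamU_one, (isFieldAut_iff σ φ).1 hφ, hσ']
  rw [hφ']
  have hn : 3 ≤ 2 * m := by omega
  obtain ⟨e⟩ := cent_datE hF hn j hj one_ne_zero (datE_one hF j)
  have h2 : (2 : F₀) ≠ 0 := two_ne_zero_of_odd (by rw [hF₀]; exact hodd)
  have hk : Even m := by
    obtain ⟨c, hc⟩ := h4
    exact ⟨c, by omega⟩
  obtain ⟨e'⟩ := simB_plus h2 (1 : Matrix (Fin (2 * m)) (Fin (2 * m)) F₀) transpose_one 1 one_ne_zero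
    (by rw [det_one, hk.neg_one_pow]; ring)
  exact ⟨e.trans e'⟩

end Cfsg.Agent.S2710
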