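import Cfsg.Statements.S2712
import Cfsg.Agent.S2693
import Cfsg.Agent.Lib.Helper1.PSpAut.Main

set_option autoImplicit false
open Cfsg

namespace Cfsg.Agent.S2712

/-- Let T = PSp_{2m}(F) be simple over the field F with p^f elements (m ≥ 2, (2m, |F|) ≠ (4, 2)), G = Inndiag(T) the image of the projective conformal symplectic group PGSp_{2m}(F), and x a field automorphism of T of prime order r. Then r divides f; C_G(x) is isomorphic to PGSp_{2m}(F₀) for a field F₀ with p^(f/r) elements; and the G-class of x is the union of exactly gcd(gcd(2, p^f − 1), r) T-classes. -/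
theorem result {F : Type*} [Field F] [Fintype F] {p f : ℕ} [Fact p.Prime] (hF : Fintype.card F = p ^ f) (hf : 1 ≤ f) {m : ℕ} (hm : 2 ≤ m) (hs : m = 2 → 3 ≤ Fintype.card F) (x : MulAut (Cfsg.PSp m F)) (hx : Cfsg.IsFieldAutClassPSp x) {r : ℕ} (hr : r.Prime) (hxr : orderOf x = r) (F₀ : Type*) [Field F₀] [Fintype F₀] (hF₀ : Fintype.card F₀ = p ^ (f / r)) :
    r ∣ f ∧ Nonempty (↥(Cfsg.inndiagPSp m F ⊓ Subgroup.centralizer {x}) ≃* Cfsg.PGSp m F₀) ∧ Cfsg.splitClassCount (Cfsg.inndiagPSp m F) (Cfsg.Inn (Cfsg.PSp m F)) x = Nat.gcd (Nat.gcd 2 (p ^ f - 1)) r := by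
  have hm0 : 0 < m := by omega
  have hN := Cfsg.Agent.Lib.Helper1.PSpAut.normal_range (F := F) hm0 (fun h2 => by
    haveI : Fact (ringChar F).Prime := ⟨CharP.char_is_prime F (ringChar F)⟩
    exact Cfsg.Agent.S2693.result (p := ringChar F) hm (fun _ => h2))
  exact Cfsg.Agent.Lib.Helper1.PSpAut.field_cent hF hf hm0 hN x hx hr hxr F₀ hF₀

end Cfsg.Agent.S2712
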