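import Cfsg.Statements.S2715
import Cfsg.Agent.S2695
import Cfsg.Agent.Lib.Helper6.FA.Main
import Cfsg.Agent.Lib.Helper6.FA.Red4

set_option autoImplicit false
open Cfsg

namespace Cfsg.Agent.S2715

/-- the statement for forms given as functions equal to the standard ones -/
theorem key {F : Type*} [Field F] [Fintype F] {p f m r : ℕ}
    (F₀ : Type*) [Field F₀] [Fintype F₀]
    (Q : ((Fin m ⊕ Fin m) → F) → F) (hQ : Q = Cfsg.quadFormPlus m F)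
    (Q₀ : ((Fin m ⊕ Fin m) → F₀) → F₀) (hQ₀ : Q₀ = Cfsg.quadFormPlus m F₀)
    (H : ∀ (x β φ : MulAut (Cfsg.POmega F Q)) (σ : F ≃+* F) (_ : β ∈ Cfsg.gammaPOmega F Q)
      (_ : Cfsg.IsFieldAutPOmegaOf Q σ φ) (_ : x = β * φ * β⁻¹) (_ : orderOf x = r),
      r ∣ f ∧ Nonempty (↥(Cfsg.Agent.Lib.Helper6.OA.inndiagOf Q (Cfsg.PreservesSingularClasses Q) ⊓
          Subgroup.centralizer {x}) ≃*
          ↥(Cfsg.Agent.Lib.Helper6.OA.inndiagOf Q₀ (Cfsg.PreservesSingularClasses Q₀))) ∧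
      ((Odd r ∨ p = 2) → Cfsg.splitClassCount
        (Cfsg.Agent.Lib.Helper6.OA.inndiagOf Q (Cfsg.PreservesSingularClasses Q))
        (Cfsg.Inn (Cfsg.POmega F Q)) x = 1) ∧
      ((r = 2 ∧ p ≠ 2 ∧ Odd m ∧ p ^ (f / 2) % 4 = 1) → Cfsg.splitClassCount
        (Cfsg.Agent.Lib.Helper6.OA.inndiagOf Q (Cfsg.PreservesSingularClasses Q))
        (Cfsg.Inn (Cfsg.POmega F Q)) x = 2) ∧
      ((r = 2 ∧ p ≠ 2 ∧ ¬ (Odd m ∧ p ^ (f / 2) % 4 = 1)) → Cfsg.splitClassCount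
        (Cfsg.Agent.Lib.Helper6.OA.inndiagOf Q (Cfsg.PreservesSingularClasses Q))
        (Cfsg.Inn (Cfsg.POmega F Q)) x = 4))
    (x β φ : MulAut (Cfsg.POmega F (Cfsg.quadFormPlus m F))) (σ : F ≃+* F)
    (hβ : β ∈ Cfsg.gammaPOmega F (Cfsg.quadFormPlus m F))
    (hφ : Cfsg.IsFieldAutPOmegaOf (Cfsg.quadFormPlus m F) σ φ) (hx : x = β * φ * β⁻¹)
    (hxr : orderOf x = r) :
    r ∣ f ∧ Nonempty (↥(Cfsg.inndiagPOmegaPlus m F ⊓ Subgroup.centralizer {x}) ≃* ↥(Cfsg.inndiagPOmegaPlus m F₀)) ∧ ((Odd r ∨ p = 2) → Cfsg.splitClassCount (Cfsg.inndiagPOmegaPlus m F) (Cfsg.Inn (Cfsg.POmega F (Cfsg.quadFormPlus m F))) x = 1) ∧ ((r = 2 ∧ p ≠ 2 ∧ Odd m ∧ p ^ (f / 2) % 4 = 1) → Cfsg.splitClassCount (Cfsg.inndiagPOmegaPlus m F) (Cfsg.Inn (Cfsg.POmega F (Cfsg.quadFormPlus m F))) x = 2) ∧ ((r = 2 ∧ p ≠ 2 ∧ ¬ (Odd m ∧ p ^ (f / 2) % 4 = 1)) → Cfsg.splitClassCount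 (Cfsg.inndiagPOmegaPlus m F) (Cfsg.Inn (Cfsg.POmega F (Cfsg.quadFormPlus m F))) x = 4) := by
  subst hQ
  subst hQ₀
  exact H x β φ σ hβ hφ hx hxr

/-- Let T = PΩ⁺_{2m}(F) (m ≥ 4, |F| = p^f; the form Σ xᵢ yᵢ), G = Inndiag(T) the image of the class-preserving similarities in Aut(T), and x a field automorphism of T of prime order r. Then r divides f; C_G(x) is isomorphic to Inndiag(PΩ⁺_{2m}(F₀)) for a field F₀ with p^(f/r) elements; and the G-class of x is the union of exactly c T-classes, where c = 1 if r is odd or p = 2, and otherwise (r = 2, p odd) c = 2 when m is odd and p^(f/2) ≡ 1 (mod 4), and c = 4 in the remaining cases. -/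
theorem result {F : Type*} [Field F] [Fintype F] {p f : ℕ} [Fact p.Prime] (hF : Fintype.card F = p ^ f) (hf : 1 ≤ f) {m : ℕ} (hm : 4 ≤ m) (x : MulAut (Cfsg.POmega F (Cfsg.quadFormPlus m F))) (hx : Cfsg.IsFieldAutClassPOmega (Cfsg.quadFormPlus m F) x) {r : ℕ} (hr : r.Prime) (hxr : orderOf x = r) (F₀ : Type*) [Field F₀] [Fintype F₀] (hF₀ : Fintype.card F₀ = p ^ (f / r)) :
    r ∣ f ∧ Nonempty (↥(Cfsg.inndiagPOmegaPlus m F ⊓ Subgroup.centralizer {x}) ≃* ↥(Cfsg.inndiagPOmegaPlus m F₀)) ∧ ((Odd r ∨ p = 2) → Cfsg.splitClassCount (Cfsg.inndiagPOmegaPlus m F) (Cfsg.Inn (Cfsg.POmega F (Cfsg.quadFormPlus m F))) x = 1) ∧ ((r = 2 ∧ p ≠ 2 ∧ Odd m ∧ p ^ (f / 2) % 4 = 1) → Cfsg.splitClassCount (Cfsg.inndiagPOmegaPlus m F) (Cfsg.Inn (Cfsg.POmega F (Cfsg.quadFormPlus m F))) x = 2) ∧ ((r = 2 ∧ p ≠ 2 ∧ ¬ (Odd m ∧ p ^ (f / 2) % 4 = 1)) → Cfsg.splitClassCount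 (Cfsg.inndiagPOmegaPlus m F) (Cfsg.Inn (Cfsg.POmega F (Cfsg.quadFormPlus m F))) x = 4) := by
  obtain ⟨α, φ, σ, -, hφ, e⟩ := hx
  have ex : x = α⁻¹ * φ * α := by rw [← e]; group
  obtain ⟨β, hβ, eβ⟩ : ∃ β ∈ Cfsg.gammaPOmega F (Cfsg.quadFormPlus m F),
      α⁻¹ * φ * α = β * φ * β⁻¹ := by
    rcases Nat.eq_or_lt_of_le hm with h4 | h5
    · subst h4
      exact Cfsg.Agent.Lib.Helper6.FA.reduce4 α φ σ hφ
    · refine ⟨α⁻¹, ?_, by rw [inv_inv]⟩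
      rw [Cfsg.Agent.S2695.result h5]
      exact Subgroup.mem_top _
  refine key F₀ _ (Cfsg.Agent.Lib.Helper49.plusQF_coe m F) _
    (Cfsg.Agent.Lib.Helper49.plusQF_coe m F₀) ?_ x β φ σ hβ hφ (ex.trans eβ) hxr
  intro x β φ σ hβ hφ hx hxr
  exact Cfsg.Agent.Lib.Helper6.FA.main hF hm x β φ σ hβ hφ hx hr hxr F₀ hF₀

end Cfsg.Agent.S2715
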