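import Cfsg.Statements.S2718
import Cfsg.Agent.Lib.Helper6.OA.InstDiag
import Cfsg.Agent.Lib.Helper6.GS.Main

set_option autoImplicit false
open Cfsg

namespace Cfsg.Agent.S2718

/-- Let T = PΩ⁺_{2m}(F) with m ≥ 4 and |F| = q odd, G = Inndiag(T), and γ an involutory graph automorphism of T induced by a similarity (one interchanging the two classes of maximal totally singular subspaces). Then the G-class of γ is either a single T-class or the union of exactly two T-classes, and it is the union of two unless m is odd and q ≡ 3 (mod 4). -/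
theorem result {F : Type*} [Field F] [Fintype F] (hodd : Odd (Fintype.card F)) {m : ℕ} (hm : 4 ≤ m) (γ : MulAut (Cfsg.POmega F (Cfsg.quadFormPlus m F))) (hγ : Cfsg.IsSimilarityGraphAutPOmegaPlus m γ) (hγ2 : orderOf γ = 2) :
    (Cfsg.splitClassCount (Cfsg.inndiagPOmegaPlus m F) (Cfsg.Inn (Cfsg.POmega F (Cfsg.quadFormPlus m F))) γ = 1 ∨ Cfsg.splitClassCount (Cfsg.inndiagPOmegaPlus m F) (Cfsg.Inn (Cfsg.POmega F (Cfsg.quadFormPlus m F))) γ = 2) ∧ (¬ (Odd m ∧ Fintype.card F % 4 = 3) → Cfsg.splitClassCount (Cfsg.inndiagPOmegaPlus m F) (Cfsg.Inn (Cfsg.POmega F (Cfsg.quadFormPlus m F))) γ = 2) := by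
  have key : ∀ Q : ((Fin m ⊕ Fin m) → F) → F, Q = Cfsg.quadFormPlus m F →
      (∀ γ : MulAut (Cfsg.POmega F Q),
        (∃ g : GL (Fin m ⊕ Fin m) F, g ∈ Geo.quadSimilarityGroup (F := F) Q ∧
          ¬ PreservesSingularClasses Q (g : Matrix (Fin m ⊕ Fin m) (Fin m ⊕ Fin m) F) ∧
          IsInducedBySemilinearPOmega Q g (RingEquiv.refl F) γ) → orderOf γ = 2 →
        (Cfsg.splitClassCount (Cfsg.Agent.Lib.Helper6.OA.inndiagOf Q (Cfsg.PreservesSingularClasses Q)) (Cfsg.Inn (Cfsg.POmega F Q)) γ = 1 ∨ Cfsg.splitClassCount (Cfsg.Agent.Lib.Helper6.OA.inndiagOf Q (Cfsg.PreservesSingularClasses Q)) (Cfsg.Inn (Cfsg.POmega F Q)) γ = 2) ∧ (¬ (Odd m ∧ Fintype.card F % 4 = 3) → Cfsg.splitClassCount (Cfsg.Agent.Lib.Helper6.OA.inndiagOf Q (Cfsg.PreservesSingularClasses Q)) (Cfsg.Inn (Cfsg.POmega F Q)) γ = 2)) →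
      (Cfsg.splitClassCount (Cfsg.inndiagPOmegaPlus m F) (Cfsg.Inn (Cfsg.POmega F (Cfsg.quadFormPlus m F))) γ = 1 ∨ Cfsg.splitClassCount (Cfsg.inndiagPOmegaPlus m F) (Cfsg.Inn (Cfsg.POmega F (Cfsg.quadFormPlus m F))) γ = 2) ∧ (¬ (Odd m ∧ Fintype.card F % 4 = 3) → Cfsg.splitClassCount (Cfsg.inndiagPOmegaPlus m F) (Cfsg.Inn (Cfsg.POmega F (Cfsg.quadFormPlus m F))) γ = 2) := by
    rintro Q rfl h
    exact h γ hγ hγ2
  obtain ⟨ν, D, hD, S⟩ := Cfsg.Agent.Lib.Helper6.OA.setup_plus hodd hm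
  have hn := Cfsg.Agent.Lib.Helper6.OA.neg_mem_plus_iff hodd hm
  apply key _ (Cfsg.Agent.Lib.Helper49.plusQF_coe m F)
  rw [Cfsg.Agent.Lib.Helper6.OA.inndiagOf_plus S]
  rintro γ ⟨g, hg, hnp, hind⟩ ho
  have hγg := Cfsg.Agent.Lib.Helper6.OA.eq_cG_of_induced _ hg hind
  have heps : S.eps ⟨g, hg⟩ = -1 := by
    rcases Int.units_eq_one_or (S.eps ⟨g, hg⟩) with h | h
    · exact absurd ((Cfsg.Agent.Lib.Helper6.OA.preserves_plus_iff S ⟨g, hg⟩).2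
        ((S.eps_eq_one_iff _).1 h)) hnp
    · exact h
  have hsq : γ * γ = 1 := by rw [← pow_two, ← ho, pow_orderOf_eq_one]
  rw [hγg] at hsq ⊢
  obtain ⟨h1, h2, -⟩ := Cfsg.Agent.Lib.Helper6.GS.main' S ⟨g, hg⟩ heps hsq
  exact ⟨h1, fun h => h2 (hn.2 h)⟩

end Cfsg.Agent.S2718
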