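import Cfsg.Statements.S2719
import Cfsg.Agent.Lib.Helper6.OA.InstDiagMinus
import Cfsg.Agent.Lib.Helper6.GS.Minus

set_option autoImplicit false
open Cfsg

namespace Cfsg.Agent.S2719

/-- Let T = PΩ⁻_{2m+2}(F) with m ≥ 3 and |F| = q odd (form with anisotropic binary part z₁² + a z₁ z₂ + b z₂²), G = Inndiag(T), and γ an involutory graph automorphism of T (an automorphism in the image of the semisimilarity group, not inner-diagonal, of order 2). Then the G-class of γ is either a single T-class or the union of exactly two T-classes, and it is the union of two unless m is even and q ≡ 1 (mod 4). -/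
theorem result {F : Type*} [Field F] [Fintype F] (hodd : Odd (Fintype.card F)) {m : ℕ} (hm : 3 ≤ m) (a b : F) (hab : (∀ z₁ z₂ : F, z₁ ^ 2 + a * z₁ * z₂ + b * z₂ ^ 2 = 0 → z₁ = 0 ∧ z₂ = 0)) (γ : MulAut (Cfsg.POmega F (Cfsg.quadFormMinus m F a b))) (hγ : Cfsg.IsGraphAutClassPOmegaMinus m a b γ) (hγ2 : orderOf γ = 2) :
    (Cfsg.splitClassCount (Cfsg.inndiagPOmegaMinus m F a b) (Cfsg.Inn (Cfsg.POmega F (Cfsg.quadFormMinus m F a b))) γ = 1 ∨ Cfsg.splitClassCount (Cfsg.inndiagPOmegaMinus m F a b) (Cfsg.Inn (Cfsg.POmega F (Cfsg.quadFormMinus m F a b))) γ = 2) ∧ (¬ (Even m ∧ Fintype.card F % 4 = 1) → Cfsg.splitClassCount (Cfsg.inndiagPOmegaMinus m F a b) (Cfsg.Inn (Cfsg.POmega F (Cfsg.quadFormMinus m F a b))) γ = 2) := by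
  have key : ∀ (Q : (((Fin m ⊕ Fin m) ⊕ Fin 2) → F) → F) (_ : Q = Cfsg.quadFormMinus m F a b)
      (J : Subgroup (MulAut (Cfsg.POmega F Q)))
      (_ : Cfsg.Agent.Lib.Helper6.OA.inndiagOf Q (Cfsg.PreservesSingularClassesMinus m a b) = J),
      (∀ γ : MulAut (Cfsg.POmega F Q), γ ∈ Cfsg.gammaPOmega F Q → γ ∉ J → orderOf γ = 2 →
        (Cfsg.splitClassCount J (Cfsg.Inn (Cfsg.POmega F Q)) γ = 1 ∨ Cfsg.splitClassCount J (Cfsg.Inn (Cfsg.POmega F Q)) γ = 2) ∧ (¬ (Even m ∧ Fintype.card F % 4 = 1) → Cfsg.splitClassCount J (Cfsg.Inn (Cfsg.POmega F Q)) γ = 2)) →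
      (Cfsg.splitClassCount (Cfsg.inndiagPOmegaMinus m F a b) (Cfsg.Inn (Cfsg.POmega F (Cfsg.quadFormMinus m F a b))) γ = 1 ∨ Cfsg.splitClassCount (Cfsg.inndiagPOmegaMinus m F a b) (Cfsg.Inn (Cfsg.POmega F (Cfsg.quadFormMinus m F a b))) γ = 2) ∧ (¬ (Even m ∧ Fintype.card F % 4 = 1) → Cfsg.splitClassCount (Cfsg.inndiagPOmegaMinus m F a b) (Cfsg.Inn (Cfsg.POmega F (Cfsg.quadFormMinus m F a b))) γ = 2) := by
    rintro Q rfl J rfl h
    exact h γ hγ.1 hγ.2.1 hγ2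
  obtain ⟨ν, u₁, u₂, D, hu, hD, S⟩ := Cfsg.Agent.Lib.Helper6.OA.setup_minus hodd hm a b hab
  have hn := Cfsg.Agent.Lib.Helper6.OA.neg_mem_minus_iff (m := m) hodd a b hab
  apply key _ (Cfsg.Agent.Lib.Helper49.minusQF_coe m F a b) _
    (Cfsg.Agent.Lib.Helper6.OA.inndiagOf_minus S hab)
  intro γ hγ1 hγ2' ho
  exact Cfsg.Agent.Lib.Helper6.GS.minus_main hodd hm a b hab S hn γ hγ1 hγ2' ho

end Cfsg.Agent.S2719
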