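import Cfsg.Statements.S2724
import Cfsg.Agent.Lib.Helper6.OA.Inst

set_option autoImplicit false
open Cfsg

namespace Cfsg.Agent.S2724

/-- Let T = PΩ⁺_{2m}(F) with m ≥ 4 and |F| = q odd. The image G̃ of the conformal orthogonal group in Aut(T), taken modulo the inner automorphism group T, is elementary abelian of order 4 when m is odd and q ≡ 3 (mod 4), and dihedral of order 8 otherwise. -/
theorem result {F : Type*} [Field F] [Fintype F] (hodd : Odd (Fintype.card F)) {m : ℕ} (hm : 4 ≤ m) :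
    ((Odd m ∧ Fintype.card F % 4 = 3) → (∃ φ : ↥(Cfsg.pgoAut F (Cfsg.quadFormPlus m F)) →* Multiplicative (ZMod 2 × ZMod 2), Function.Surjective φ ∧ φ.ker = (Cfsg.Inn (Cfsg.POmega F (Cfsg.quadFormPlus m F))).subgroupOf (Cfsg.pgoAut F (Cfsg.quadFormPlus m F)))) ∧ (¬ (Odd m ∧ Fintype.card F % 4 = 3) → (∃ φ : ↥(Cfsg.pgoAut F (Cfsg.quadFormPlus m F)) →* DihedralGroup 4, Function.Surjective φ ∧ φ.ker = (Cfsg.Inn (Cfsg.POmega F (Cfsg.quadFormPlus m F))).subgroupOf (Cfsg.pgoAut F (Cfsg.quadFormPlus m F)))) := by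
  rw [← Cfsg.Agent.Lib.Helper49.plusQF_coe]
  obtain ⟨ν, D, -, S⟩ := Cfsg.Agent.Lib.Helper6.OA.setup_plus hodd hm
  have hn := Cfsg.Agent.Lib.Helper6.OA.neg_mem_plus_iff hodd hm
  constructor
  · intro h
    exact S.pgo_mod_Inn_of_not (fun hc => (hn.1 hc) h)
  · intro h
    exact S.pgo_mod_Inn (hn.2 h)

end Cfsg.Agent.S2724
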