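import Cfsg.Statements.S2725
import Cfsg.Agent.Lib.Helper6.OA.InstDiag

set_option autoImplicit false
open Cfsg

namespace Cfsg.Agent.S2725

/-- Let T = PΩ⁺_{2m}(F) with m ≥ 4 and |F| = q odd. The inner-diagonal group G = Inndiag(T) (image of the class-preserving similarities) taken modulo the inner automorphism group T is cyclic of order 2 when m is odd and q ≡ 3 (mod 4), cyclic of order 4 when m is odd and q ≡ 1 (mod 4), and elementary abelian of order 4 when m is even. -/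
theorem result {F : Type*} [Field F] [Fintype F] (hodd : Odd (Fintype.card F)) {m : ℕ} (hm : 4 ≤ m) :
    ((Odd m ∧ Fintype.card F % 4 = 3) → (∃ φ : ↥(Cfsg.inndiagPOmegaPlus m F) →* Multiplicative (ZMod 2), Function.Surjective φ ∧ φ.ker = (Cfsg.Inn (Cfsg.POmega F (Cfsg.quadFormPlus m F))).subgroupOf (Cfsg.inndiagPOmegaPlus m F))) ∧ ((Odd m ∧ Fintype.card F % 4 = 1) → (∃ φ : ↥(Cfsg.inndiagPOmegaPlus m F) →* Multiplicative (ZMod 4), Function.Surjective φ ∧ φ.ker = (Cfsg.Inn (Cfsg.POmega F (Cfsg.quadFormPlus m F))).subgroupOf (Cfsg.inndiagPOmegaPlus m F))) ∧ (Even m → (∃ φ : ↥(Cfsg.inndiagPOmegaPlus m F) →* Multiplicative (ZMod 2 × ZMod 2), Function.Surjective φ ∧ φ.ker = (Cfsg.Inn (Cfsg.POmega F (Cfsg.quadFormPlus m F))).subgroupOf (Cfsg.inndiagPOmegaPlus m F))) := by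
  have key : ∀ Q : ((Fin m ⊕ Fin m) → F) → F, Q = Cfsg.quadFormPlus m F →
      (((Odd m ∧ Fintype.card F % 4 = 3) → (∃ φ : ↥(Cfsg.Agent.Lib.Helper6.OA.inndiagOf Q (Cfsg.PreservesSingularClasses Q)) →* Multiplicative (ZMod 2), Function.Surjective φ ∧ φ.ker = (Cfsg.Inn (Cfsg.POmega F Q)).subgroupOf (Cfsg.Agent.Lib.Helper6.OA.inndiagOf Q (Cfsg.PreservesSingularClasses Q)))) ∧ ((Odd m ∧ Fintype.card F % 4 = 1) → (∃ φ : ↥(Cfsg.Agent.Lib.Helper6.OA.inndiagOf Q (Cfsg.PreservesSingularClasses Q)) →* Multiplicative (ZMod 4), Function.Surjective φ ∧ φ.ker = (Cfsg.Inn (Cfsg.POmega F Q)).subgroupOf (Cfsg.Agent.Lib.Helper6.OA.inndiagOf Q (Cfsg.PreservesSingularClasses Q)))) ∧ (Even m → (∃ φ : ↥(Cfsg.Agent.Lib.Helper6.OA.inndiagOf Q (Cfsg.PreservesSingularClasses Q)) →* Multiplicative (ZMod 2 × ZMod 2), Function.Surjective φ ∧ φ.ker = (Cfsg.Inn (Cfsg.POmega F Q)).subgroupOf (Cfsg.Agent.Lib.Helper6.OA.inndiagOf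 Q (Cfsg.PreservesSingularClasses Q))))) →
      ((Odd m ∧ Fintype.card F % 4 = 3) → (∃ φ : ↥(Cfsg.inndiagPOmegaPlus m F) →* Multiplicative (ZMod 2), Function.Surjective φ ∧ φ.ker = (Cfsg.Inn (Cfsg.POmega F (Cfsg.quadFormPlus m F))).subgroupOf (Cfsg.inndiagPOmegaPlus m F))) ∧ ((Odd m ∧ Fintype.card F % 4 = 1) → (∃ φ : ↥(Cfsg.inndiagPOmegaPlus m F) →* Multiplicative (ZMod 4), Function.Surjective φ ∧ φ.ker = (Cfsg.Inn (Cfsg.POmega F (Cfsg.quadFormPlus m F))).subgroupOf (Cfsg.inndiagPOmegaPlus m F))) ∧ (Even m → (∃ φ : ↥(Cfsg.inndiagPOmegaPlus m F) →* Multiplicative (ZMod 2 × ZMod 2), Function.Surjective φ ∧ φ.ker = (Cfsg.Inn (Cfsg.POmega F (Cfsg.quadFormPlus m F))).subgroupOf (Cfsg.inndiagPOmegaPlus m F))) := by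
    rintro Q rfl h
    exact h
  obtain ⟨ν, D, hD, S⟩ := Cfsg.Agent.Lib.Helper6.OA.setup_plus hodd hm
  have hn := Cfsg.Agent.Lib.Helper6.OA.neg_mem_plus_iff hodd hm
  apply key _ (Cfsg.Agent.Lib.Helper49.plusQF_coe m F)
  rw [Cfsg.Agent.Lib.Helper6.OA.inndiagOf_plus S]
  refine ⟨fun h => ?_, fun h => ?_, fun h => ?_⟩
  · exact S.ID_mod_Inn_of_not (fun hc => (hn.1 hc) h)
  · exact S.ID_mod_Inn_c4 (hn.2 (fun hc => by omega))
      (Cfsg.Agent.Lib.Helper6.OA.eps_plusD_of_odd S hD h.1)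
  · exact S.ID_mod_Inn_v4 (hn.2 (fun hc => (Nat.not_even_iff_odd.2 hc.1) h))
      (Cfsg.Agent.Lib.Helper6.OA.eps_plusD_of_even S hD h)

end Cfsg.Agent.S2725
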