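import Cfsg.Statements.S2726
import Cfsg.Agent.Lib.Helper6.OA.Inst

set_option autoImplicit false
open Cfsg

namespace Cfsg.Agent.S2726

/-- Let T = PΩ⁻_{2m+2}(F) with m ≥ 3 and |F| = q odd (form with anisotropic binary part). Inside Aut(T), the image G̃ of the conformal orthogonal group of the form modulo the image of the special orthogonal group is elementary abelian of order 4. -/
theorem result {F : Type*} [Field F] [Fintype F] (hodd : Odd (Fintype.card F)) {m : ℕ} (hm : 3 ≤ m) (a b : F) (hab : (∀ z₁ z₂ : F, z₁ ^ 2 + a * z₁ * z₂ + b * z₂ ^ 2 = 0 → z₁ = 0 ∧ z₂ = 0)) :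
    (∃ φ : ↥(Cfsg.pgoAut F (Cfsg.quadFormMinus m F a b)) →* Multiplicative (ZMod 2 × ZMod 2), Function.Surjective φ ∧ φ.ker = (Cfsg.psoAut F (Cfsg.quadFormMinus m F a b)).subgroupOf (Cfsg.pgoAut F (Cfsg.quadFormMinus m F a b))) := by
  rw [← Cfsg.Agent.Lib.Helper49.minusQF_coe]
  obtain ⟨ν, u₁, u₂, D, -, -, S⟩ := Cfsg.Agent.Lib.Helper6.OA.setup_minus hodd hm a b hab
  exact S.pgo_mod_pso

end Cfsg.Agent.S2726
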