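import Cfsg.Statements.S2729
import Cfsg.Agent.Lib.Helper6.OA.InstDiagMinus

set_option autoImplicit false
open Cfsg

namespace Cfsg.Agent.S2729

/-- Let T = PΩ⁻_{2m+2}(F) with m ≥ 3 and |F| = q odd (form with anisotropic binary part). The inner-diagonal group G = Inndiag(T) (image of the class-preserving similarities) taken modulo the inner automorphism group T is cyclic of order 4 when m is even and q ≡ 3 (mod 4), and of order 2 otherwise. -/
theorem result {F : Type*} [Field F] [Fintype F] (hodd : Odd (Fintype.card F)) {m : ℕ} (hm : 3 ≤ m) (a b : F) (hab : (∀ z₁ z₂ : F, z₁ ^ 2 + a * z₁ * z₂ + b * z₂ ^ 2 = 0 → z₁ = 0 ∧ z₂ = 0)) :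
    ((Even m ∧ Fintype.card F % 4 = 3) → (∃ φ : ↥(Cfsg.inndiagPOmegaMinus m F a b) →* Multiplicative (ZMod 4), Function.Surjective φ ∧ φ.ker = (Cfsg.Inn (Cfsg.POmega F (Cfsg.quadFormMinus m F a b))).subgroupOf (Cfsg.inndiagPOmegaMinus m F a b))) ∧ (¬ (Even m ∧ Fintype.card F % 4 = 3) → (∃ φ : ↥(Cfsg.inndiagPOmegaMinus m F a b) →* Multiplicative (ZMod 2), Function.Surjective φ ∧ φ.ker = (Cfsg.Inn (Cfsg.POmega F (Cfsg.quadFormMinus m F a b))).subgroupOf (Cfsg.inndiagPOmegaMinus m F a b))) := by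
  have key : ∀ (Q : (((Fin m ⊕ Fin m) ⊕ Fin 2) → F) → F) (_ : Q = Cfsg.quadFormMinus m F a b)
      (J : Subgroup (MulAut (Cfsg.POmega F Q)))
      (_ : Cfsg.Agent.Lib.Helper6.OA.inndiagOf Q (Cfsg.PreservesSingularClassesMinus m a b) = J),
      (((Even m ∧ Fintype.card F % 4 = 3) → (∃ φ : ↥J →* Multiplicative (ZMod 4), Function.Surjective φ ∧ φ.ker = (Cfsg.Inn (Cfsg.POmega F Q)).subgroupOf J)) ∧ (¬ (Even m ∧ Fintype.card F % 4 = 3) → (∃ φ : ↥J →* Multiplicative (ZMod 2), Function.Surjective φ ∧ φ.ker = (Cfsg.Inn (Cfsg.POmega F Q)).subgroupOf J))) →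
      ((Even m ∧ Fintype.card F % 4 = 3) → (∃ φ : ↥(Cfsg.inndiagPOmegaMinus m F a b) →* Multiplicative (ZMod 4), Function.Surjective φ ∧ φ.ker = (Cfsg.Inn (Cfsg.POmega F (Cfsg.quadFormMinus m F a b))).subgroupOf (Cfsg.inndiagPOmegaMinus m F a b))) ∧ (¬ (Even m ∧ Fintype.card F % 4 = 3) → (∃ φ : ↥(Cfsg.inndiagPOmegaMinus m F a b) →* Multiplicative (ZMod 2), Function.Surjective φ ∧ φ.ker = (Cfsg.Inn (Cfsg.POmega F (Cfsg.quadFormMinus m F a b))).subgroupOf (Cfsg.inndiagPOmegaMinus m F a b))) := by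
    rintro Q rfl J rfl h
    exact h
  obtain ⟨ν, u₁, u₂, D, hu, hD, S⟩ := Cfsg.Agent.Lib.Helper6.OA.setup_minus hodd hm a b hab
  have hn := Cfsg.Agent.Lib.Helper6.OA.neg_mem_minus_iff (m := m) hodd a b hab
  apply key _ (Cfsg.Agent.Lib.Helper49.minusQF_coe m F a b) _
    (Cfsg.Agent.Lib.Helper6.OA.inndiagOf_minus S hab)
  refine ⟨fun h => ?_, fun h => ?_⟩
  · exact S.ID_mod_Inn_c4 (hn.2 h) (Cfsg.Agent.Lib.Helper6.OA.eps_minusD_of_even S hu hD h.1)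
  · exact S.ID_mod_Inn_of_not (fun hc => h (hn.1 hc))

end Cfsg.Agent.S2729
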