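import Cfsg.Statements.S2736
import Cfsg.Agent.S2695
import Cfsg.Agent.Lib.Helper66.OGrpE

set_option autoImplicit false
open Cfsg

namespace Cfsg.Agent.S2736

open scoped MatrixGroups in
/-- the statement for a form given as a function equal to the standard one -/
theorem key {F : Type*} [Field F] [Fintype F] {m : ℕ}
    (Q : ((Fin m ⊕ Fin m) → F) → F) (hQ : Q = Cfsg.quadFormPlus m F)
    (H : ∀ (x δ : MulAut (Cfsg.POmega F Q))
      (_ : Cfsg.IsFieldAutClassPOmega Q x ∨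
        ∃ (α γ φ : MulAut (Cfsg.POmega F Q)) (σ : F ≃+* F)
          (v : Fin m ⊕ Fin m → F) (r : GL (Fin m ⊕ Fin m) F),
          σ ≠ RingEquiv.refl F ∧ Q v ≠ 0 ∧ (∀ i, σ (v i) = v i) ∧
          (r : Matrix (Fin m ⊕ Fin m) (Fin m ⊕ Fin m) F) = Cfsg.reflectionMatrix Q v ∧
          Cfsg.IsInducedBySemilinearPOmega Q r (RingEquiv.refl F) γ ∧
          Cfsg.IsFieldAutPOmegaOf Q σ φ ∧ α * x * α⁻¹ = γ * φ)
      {r : ℕ} (_ : r.Prime) (_ : orderOf x = r)
      (_ : δ ∈ Cfsg.autSubgroupOf (fun β : Cfsg.POmega F Q ≃* Cfsg.POmega F Q =>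
        ∃ g : GL (Fin m ⊕ Fin m) F, g ∈ Cfsg.Geo.quadSimilarityGroup (F := F) Q ∧
          Cfsg.PreservesSingularClasses Q (g : Matrix (Fin m ⊕ Fin m) (Fin m ⊕ Fin m) F) ∧
          Cfsg.IsInducedBySemilinearPOmega Q g (RingEquiv.refl F) β)),
      orderOf (δ * x) = r ↔ Cfsg.IsConjUnder (Cfsg.autSubgroupOf
        (fun β : Cfsg.POmega F Q ≃* Cfsg.POmega F Q =>
        ∃ g : GL (Fin m ⊕ Fin m) F, g ∈ Cfsg.Geo.quadSimilarityGroup (F := F) Q ∧
          Cfsg.PreservesSingularClasses Q (g : Matrix (Fin m ⊕ Fin m) (Fin m ⊕ Fin m) F) ∧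
          Cfsg.IsInducedBySemilinearPOmega Q g (RingEquiv.refl F) β)) x (δ * x))
    (x δ : MulAut (Cfsg.POmega F (Cfsg.quadFormPlus m F)))
    (hx : Cfsg.IsFieldAutClassPOmega (Cfsg.quadFormPlus m F) x ∨
      Cfsg.IsGraphFieldAutClassPOmegaPlus m x) {r : ℕ} (hr : r.Prime) (hxr : orderOf x = r)
    (hδ : δ ∈ Cfsg.inndiagPOmegaPlus m F) :
    orderOf (δ * x) = r ↔ Cfsg.IsConjUnder (Cfsg.inndiagPOmegaPlus m F) x (δ * x) := by
  subst hQ
  exact H x δ hx hr hxr hδ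

/-- Let T = PΩ⁺_{2m}(F) with m ≥ 5 (dimension ≠ 8) and x a field automorphism or a graph-field automorphism of T of prime order r. Then an element y of the coset Inndiag(T)·x (y = δ x with δ induced by a class-preserving similarity) has order r if and only if y is conjugate to x by an element of Inndiag(T). -/
theorem result {F : Type*} [Field F] [Fintype F] {m : ℕ} (hm : 5 ≤ m) (x δ : MulAut (Cfsg.POmega F (Cfsg.quadFormPlus m F))) (hx : Cfsg.IsFieldAutClassPOmega (Cfsg.quadFormPlus m F) x ∨ Cfsg.IsGraphFieldAutClassPOmegaPlus m x) {r : ℕ} (hr : r.Prime) (hxr : orderOf x = r) (hδ : δ ∈ Cfsg.inndiagPOmegaPlus m F) :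
    orderOf (δ * x) = r ↔ Cfsg.IsConjUnder (Cfsg.inndiagPOmegaPlus m F) x (δ * x) := by
  obtain ⟨k, rfl⟩ : ∃ k, m = k + 1 := ⟨m - 1, by omega⟩
  refine key _ (Cfsg.Agent.Lib.Helper49.plusQF_coe (k + 1) F) ?_ x δ hx hr hxr hδ
  intro x δ hx r hr hxr hδ
  refine Cfsg.Agent.Lib.Helper66.OGrp.main_plus k hm ?_ x δ hx hr hxr hδ
  rw [Cfsg.Agent.Lib.Helper49.plusQF_coe]
  exact Cfsg.Agent.S2695.result hm

end Cfsg.Agent.S2736
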