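import Cfsg.Statements.S2737
import Cfsg.Agent.Lib.Helper66.OMinF

set_option autoImplicit false
open Cfsg

namespace Cfsg.Agent.S2737

/-- the statement for forms given as functions equal to the standard ones -/
theorem key {F : Type*} [Field F] [Fintype F] {m : ℕ} (a b a' b' : F)
    (Q Q' : (((Fin m ⊕ Fin m) ⊕ Fin 2) → F) → F) (hQ : Q = Cfsg.quadFormMinus m F a b)
    (hQ' : Q' = Cfsg.quadFormMinus m F a' b')
    (H : ∀ (x δ : MulAut (Cfsg.POmega F Q)) (ψ : Cfsg.POmega F Q ≃* Cfsg.POmega F Q')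
      (σ : F ≃+* F) (_ : Cfsg.IsFieldAutPOmegaOf Q' σ ((ψ.symm.trans x).trans ψ))
      (_ : σ ≠ RingEquiv.refl F) (_ : σ a' = a') (_ : σ b' = b')
      {r : ℕ} (_ : r.Prime) (_ : orderOf x = r)
      (_ : δ ∈ Cfsg.Agent.Lib.Helper6.OA.inndiagOf Q (Cfsg.PreservesSingularClassesMinus m a b)),
      orderOf (δ * x) = r ↔ Cfsg.IsConjUnder
        (Cfsg.Agent.Lib.Helper6.OA.inndiagOf Q (Cfsg.PreservesSingularClassesMinus m a b)) x (δ * x))
    (x δ : MulAut (Cfsg.POmega F (Cfsg.quadFormMinus m F a b)))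
    (ψ : Cfsg.POmega F (Cfsg.quadFormMinus m F a b) ≃* Cfsg.POmega F (Cfsg.quadFormMinus m F a' b'))
    (σ : F ≃+* F)
    (hψ : Cfsg.IsFieldAutPOmegaOf (Cfsg.quadFormMinus m F a' b') σ ((ψ.symm.trans x).trans ψ))
    (hσ : σ ≠ RingEquiv.refl F) (ha' : σ a' = a') (hb' : σ b' = b')
    {r : ℕ} (hr : r.Prime) (hxr : orderOf x = r) (hδ : δ ∈ Cfsg.inndiagPOmegaMinus m F a b) :
    orderOf (δ * x) = r ↔ Cfsg.IsConjUnder (Cfsg.inndiagPOmegaMinus m F a b) x (δ * x) := by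
  subst hQ hQ'
  exact H x δ ψ σ hψ hσ ha' hb' hr hxr hδ

/-- Let T = PΩ⁻_{2m+2}(F) (m ≥ 3; form with anisotropic binary part) and x a field automorphism of T of prime order r. Then an element y of the coset Inndiag(T)·x has order r if and only if y is conjugate to x by an element of Inndiag(T). (T has no graph-field automorphisms.) -/
theorem result {F : Type*} [Field F] [Fintype F] {m : ℕ} (hm : 3 ≤ m) (a b : F) (hab : (∀ z₁ z₂ : F, z₁ ^ 2 + a * z₁ * z₂ + b * z₂ ^ 2 = 0 → z₁ = 0 ∧ z₂ = 0)) (x δ : MulAut (Cfsg.POmega F (Cfsg.quadFormMinus m F a b))) (hx : Cfsg.IsFieldAutClassPOmegaMinus m x) {r : ℕ} (hr : r.Prime) (hxr : orderOf x = r) (hδ : δ ∈ Cfsg.inndiagPOmegaMinus m F a b) :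
    orderOf (δ * x) = r ↔ Cfsg.IsConjUnder (Cfsg.inndiagPOmegaMinus m F a b) x (δ * x) := by
  obtain ⟨a', b', ψ, σ, hab', hσ, ha', hb', hψ⟩ := hx
  refine key a b a' b' _ _ (Cfsg.Agent.Lib.Helper49.minusQF_coe m F a b)
    (Cfsg.Agent.Lib.Helper49.minusQF_coe m F a' b') ?_ x δ ψ σ hψ hσ ha' hb' hr hxr hδ
  intro x δ ψ σ hψ hσ ha' hb' r hr hxr hδ
  exact Cfsg.Agent.Lib.Helper66.OMin.main_minus hm a b a' b' hab hab' x δ ψ σ hσ ha' hb' hψ hr hxr hδ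

end Cfsg.Agent.S2737
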