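import Cfsg.Statements.S2738
-- import your own Cfsg.Agent.* helpers here
import Mathlib

set_option autoImplicit false
open Cfsg

namespace Cfsg.Agent.S2738

/-- The special linear group SL(3, 4) has centre of order 3 and does not split over it: no subgroup is a complement to the centre (so SL(3, 4) is a non-split central extension of PSL(3, 4) by a group of order 3). -/
theorem result (F : Type*) [Field F] [Fintype F] (hF : Fintype.card F = 4) : Nat.card ↥(Subgroup.center (Matrix.SpecialLinearGroup (Fin 3) F)) = 3 ∧ ¬ ∃ K : Subgroup (Matrix.SpecialLinearGroup (Fin 3) F), Subgroup.IsComplement' (Subgroup.center (Matrix.SpecialLinearGroup (Fin 3) F)) K := by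
  classical
  have hu : ∀ u : Fˣ, u ^ 3 = 1 := by
    intro u
    have h1 : Fintype.card Fˣ = 3 := by rw [Fintype.card_units, hF]
    rw [← h1]
    exact pow_card_eq_one
  constructor
  · have e := Matrix.SpecialLinearGroup.center_equiv_rootsOfUnity' (R := F) (0 : Fin 3)
    rw [Nat.card_congr e.toEquiv]
    have htop : rootsOfUnity (Fintype.card (Fin 3)) F = ⊤ := by
      rw [eq_top_iff]
      intro u _
      rw [mem_rootsOfUnity]
      simpa using hu u
    rw [htop, Nat.card_congr Subgroup.topEquiv.toEquiv, Nat.card_eq_fintype_card, Fintype.card_units, hF]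
  · rintro ⟨K, hK⟩
    obtain ⟨ω, hω0, hω1⟩ : ∃ ω : F, ω ≠ 0 ∧ ω ≠ 1 := by
      by_contra hcon
      push Not at hcon
      have hsub : (Finset.univ : Finset F) ⊆ {0, 1} := by
        intro x _
        by_cases hx : x = 0
        · simp [hx]
        · simp [hcon x hx]
      have := Finset.card_le_card hsub
      rw [Finset.card_univ, hF] at this
      have h2 : ({0, 1} : Finset F).card ≤ 2 := Finset.card_le_two
      omega
    have hω3 : ω ^ 3 = 1 := by
      have := hu (Units.mk0 ω hω0)
      have h2 := congrArg Units.val this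
      simpa using h2
    have hω2 : ω ^ 2 ≠ 1 := by
      intro h2
      apply hω1
      have : ω ^ 3 = ω ^ 2 * ω := by ring
      rw [hω3, h2, one_mul] at this
      exact this.symm
    let d : Matrix.SpecialLinearGroup (Fin 3) F :=
      ⟨!![1, 0, 0; 0, ω, 0; 0, 0, ω ^ 2], by rw [Matrix.det_fin_three]; simp; linear_combination hω3⟩
    let π : Matrix.SpecialLinearGroup (Fin 3) F :=
      ⟨!![0, 1, 0; 0, 0, 1; 1, 0, 0], by rw [Matrix.det_fin_three]; simp⟩
    let z : Matrix.SpecialLinearGroup (Fin 3) F :=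
      ⟨!![ω ^ 2, 0, 0; 0, ω ^ 2, 0; 0, 0, ω ^ 2], by
        rw [Matrix.det_fin_three]; simp; linear_combination (ω ^ 3 + 1) * hω3⟩
    have hz : z ∈ Subgroup.center (Matrix.SpecialLinearGroup (Fin 3) F) := by
      rw [Matrix.SpecialLinearGroup.mem_center_iff]
      refine ⟨ω ^ 2, ?_, ?_⟩
      · simp; linear_combination (ω ^ 3 + 1) * hω3
      · ext i j
        fin_cases i <;> fin_cases j <;> simp [z, Matrix.scalar_apply]
    have hz1 : z ≠ 1 := by
      intro h
      have := congrArg (fun M : Matrix.SpecialLinearGroup (Fin 3) F => (M : Matrix (Fin 3) (Fin 3) F) 0 0) h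
      simp only [z] at this
      exact hω2 (by simpa using this)
    have hcomm : d * π = z * (π * d) := by
      apply Subtype.ext
      rw [Matrix.SpecialLinearGroup.coe_mul, Matrix.SpecialLinearGroup.coe_mul,
        Matrix.SpecialLinearGroup.coe_mul]
      have h4 : ω ^ 2 * ω ^ 2 = ω := by linear_combination ω * hω3
      have h5 : ω ^ 2 * ω = 1 := by linear_combination hω3
      ext i j
      fin_cases i <;> fin_cases j <;>
        simp [d, π, z, Matrix.mul_apply, Fin.sum_univ_three, h4, h5]
    obtain ⟨⟨⟨z₁, hz₁⟩, ⟨k₁, hk₁⟩⟩, h1⟩ := hK.2 d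
    obtain ⟨⟨⟨z₂, hz₂⟩, ⟨k₂, hk₂⟩⟩, h2⟩ := hK.2 π
    simp only at h1 h2
    have c1 := Subgroup.mem_center_iff.1 hz₁
    have c2 := Subgroup.mem_center_iff.1 hz₂
    have hzK : z ∈ K := by
      have h3 : z = k₁ * k₂ * (k₂ * k₁)⁻¹ := by
        rw [eq_mul_inv_iff_mul_eq]
        have e1 : d * π = z₁ * z₂ * (k₁ * k₂) := by
          rw [← h1, ← h2]
          calc z₁ * k₁ * (z₂ * k₂) = z₁ * (k₁ * z₂) * k₂ := by group
            _ = z₁ * (z₂ * k₁) * k₂ := by rw [c2]
            _ = _ := by group
        have e2 : π * d = z₁ * z₂ * (k₂ * k₁) := by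
          rw [← h1, ← h2]
          calc z₂ * k₂ * (z₁ * k₁) = z₂ * (k₂ * z₁) * k₁ := by group
            _ = z₂ * (z₁ * k₂) * k₁ := by rw [c1]
            _ = (z₂ * z₁) * (k₂ * k₁) := by group
            _ = _ := by rw [c1]
        rw [e1, e2] at hcomm
        have c3 := Subgroup.mem_center_iff.1 hz
        have : z₁ * z₂ * (k₁ * k₂) = z₁ * z₂ * (z * (k₂ * k₁)) := by
          rw [hcomm, ← mul_assoc z, ← c3]
          group
        exact (mul_left_cancel this).symm
      rw [h3]
      exact K.mul_mem (K.mul_mem hk₁ hk₂) (K.inv_mem (K.mul_mem hk₂ hk₁))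
    have hdisj := hK.disjoint
    rw [Subgroup.disjoint_def] at hdisj
    exact hz1 (hdisj hz hzK)

end Cfsg.Agent.S2738
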