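import Cfsg.Statements.S2758
import Cfsg.Agent.Lib.Helper5.DihedralIso
-- import your own Cfsg.Agent.* helpers here

set_option autoImplicit false
open Cfsg

namespace Cfsg.Agent.S2758

theorem involves_of_sub_surj {B C : Type*} [Group B] [Group C] (K : Subgroup B)
    (g : K →* C) (hg : Function.Surjective g) : Cfsg.Involves C B := by
  have h : ((g.ker).map K.subtype).subgroupOf K = g.ker :=
    Subgroup.comap_map_eq_self_of_injective K.subtype_injective _
  have hn : (((g.ker).map K.subtype).subgroupOf K).Normal := by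
    rw [h]; infer_instance
  exact ⟨K, (g.ker).map K.subtype, hn,
    ⟨(QuotientGroup.quotientMulEquivOfEq h).trans (QuotientGroup.quotientKerEquivOfSurjective g hg)⟩⟩

/-- (1) ⇒ (2), inside the group `K` -/
theorem one_two {K : Type*} [Group K] [Finite K] {p : ℕ} [Fact p.Prime] (hp : p ≠ 2)
    (π : K →* DihedralGroup p) (hπ : Function.Surjective π) :
    ∃ (x : K) (P : Subgroup K), (∃ k : ℕ, orderOf x = 2 ^ k) ∧ IsPGroup p ↥P ∧
      x ∈ Subgroup.normalizer (P : Set K) ∧ x ∉ Subgroup.centralizer (P : Set K) := by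
  have hpp : p.Prime := Fact.out
  have : NeZero p := ⟨hpp.ne_zero⟩
  let C : Subgroup (DihedralGroup p) := Subgroup.zpowers (DihedralGroup.r 1)
  have hCcard : Nat.card C = p := by
    rw [Nat.card_zpowers, DihedralGroup.orderOf_r_one]
  have hCn : C.Normal := by
    apply Subgroup.normal_of_index_eq_two
    have h1 := C.card_mul_index
    rw [hCcard, DihedralGroup.nat_card, mul_comm 2 p] at h1
    exact Nat.eq_of_mul_eq_mul_left hpp.pos h1
  let L : Subgroup K := C.comap π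
  have hLn : L.Normal := hCn.comap π
  obtain ⟨P⟩ : Nonempty (Sylow p L) := inferInstance
  have hfr := Sylow.normalizer_sup_eq_top P
  obtain ⟨k₀, hk₀⟩ := hπ (DihedralGroup.sr 0)
  have hk₀' : k₀ ∈ Subgroup.normalizer ((Subgroup.map L.subtype (P : Subgroup L) : Subgroup K) : Set K) ⊔ L := by
    rw [hfr]; trivial
  rw [Subgroup.mem_sup_of_normal_right] at hk₀'
  obtain ⟨n, hn, l, hl, hnl⟩ := hk₀'
  obtain ⟨i, hi⟩ : ∃ i : ZMod p, π l = DihedralGroup.r i := by
    obtain ⟨z, hz⟩ := Subgroup.mem_zpowers_iff.mp (show π l ∈ C from hl)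
    exact ⟨z, by rw [← hz, DihedralGroup.r_one_zpow]⟩
  obtain ⟨j, hj⟩ : ∃ j : ZMod p, π n = DihedralGroup.sr j := by
    have h1 : π n = π k₀ * (π l)⁻¹ := by rw [← hnl, map_mul, mul_inv_cancel_right]
    rw [hk₀, hi] at h1
    exact ⟨_, h1⟩
  obtain ⟨a, m, hm, ham⟩ := Nat.exists_eq_two_pow_mul_odd (orderOf_pos n).ne'
  have hm0 : m ≠ 0 := by rintro rfl; simp at hm
  have hxo : orderOf (n ^ m) = 2 ^ a := by
    rw [orderOf_pow_of_dvd hm0 ⟨2 ^ a, by rw [ham, mul_comm]⟩, ham, Nat.mul_div_cancel _ (Nat.pos_of_ne_zero hm0)]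
  have hπx : π (n ^ m) = DihedralGroup.sr j := by
    obtain ⟨t, rfl⟩ := hm
    rw [map_pow, hj, pow_succ, pow_mul, pow_two, DihedralGroup.sr_mul_self, one_pow, one_mul]
  -- an element of `P` over `r 1`
  have hπ₁ : Function.Surjective (π.subgroupComap C) :=
    MonoidHom.subgroupComap_surjective_of_surjective π C hπ
  have hCp : IsPGroup p C := IsPGroup.of_card (n := 1) (by rw [hCcard, pow_one])
  have htop : ((P.mapSurjective hπ₁ : Sylow p C) : Subgroup C) = ⊤ := by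
    have h1 : IsPGroup p (⊤ : Subgroup C) := hCp.of_equiv Subgroup.topEquiv.symm
    exact ((P.mapSurjective hπ₁).3 h1 le_top).symm
  rw [Sylow.coe_mapSurjective] at htop
  have hr1 : (⟨DihedralGroup.r 1, Subgroup.mem_zpowers _⟩ : C) ∈ (P : Subgroup L).map (π.subgroupComap C) := by
    rw [htop]; trivial
  obtain ⟨u, hu, hu1⟩ := hr1
  have hu2 : π (u : K) = DihedralGroup.r 1 := congrArg Subtype.val hu1
  refine ⟨n ^ m, Subgroup.map L.subtype (P : Subgroup L), ⟨a, hxo⟩, P.2.map _,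
    Subgroup.pow_mem _ hn m, ?_⟩
  intro hc
  rw [Subgroup.mem_centralizer_iff] at hc
  have h1 := hc (u : K) ⟨u, hu, rfl⟩
  have h2 := congrArg π h1
  rw [map_mul, map_mul, hπx, hu2, DihedralGroup.r_mul_sr, DihedralGroup.sr_mul_r] at h2
  have h3 : j - 1 = j + 1 := by
    injection h2
  have h4 : (2 : ZMod p) = 0 := by linear_combination -h3
  have h5 : ((2 : ℕ) : ZMod p) = 0 := by exact_mod_cast h4
  rw [ZMod.natCast_eq_zero_iff] at h5
  exact hp ((Nat.prime_dvd_prime_iff_eq hpp Nat.prime_two).mp h5)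

/-- descending to the last power of `x` not centralising `P` -/
theorem two_three_aux {G : Type*} [Group G] (P : Subgroup G) : ∀ (k : ℕ) (x : G),
    x ^ (2 ^ k) ∈ Subgroup.centralizer (P : Set G) → x ∉ Subgroup.centralizer (P : Set G) →
    ∃ m : ℕ, x ^ m ∉ Subgroup.centralizer (P : Set G) ∧
      (x ^ m) ^ 2 ∈ Subgroup.centralizer (P : Set G) := by
  intro k
  induction k with
  | zero =>
    intro x h1 h2
    rw [pow_zero, pow_one] at h1
    exact absurd h1 h2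
  | succ k ih =>
    intro x h1 h2
    by_cases h3 : x ^ 2 ∈ Subgroup.centralizer (P : Set G)
    · exact ⟨1, by rwa [pow_one], by rwa [pow_one]⟩
    · obtain ⟨m, hm1, hm2⟩ := ih (x ^ 2) (by rw [← pow_mul, ← pow_succ']; exact h1) h3
      exact ⟨2 * m, by rwa [pow_mul], by rwa [pow_mul]⟩

theorem two_three {G : Type*} [Group G] [Finite G] {p : ℕ} [Fact p.Prime]
    (x : G) (P : Subgroup G) (hx : ∃ k : ℕ, orderOf x = 2 ^ k) (hP : IsPGroup p ↥P)
    (hxN : x ∈ Subgroup.normalizer (P : Set G)) (hxC : x ∉ Subgroup.centralizer (P : Set G)) :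
    ∃ x y : G, (∃ k : ℕ, orderOf x = 2 ^ k) ∧ (∃ k : ℕ, orderOf y = p ^ k) ∧ y ≠ 1 ∧
      x * y * x⁻¹ = y⁻¹ := by
  obtain ⟨k, hk⟩ := hx
  obtain ⟨m, hm1, hm2⟩ := two_three_aux P k x (by rw [← hk, pow_orderOf_eq_one]; exact one_mem _) hxC
  obtain ⟨x0, hx0⟩ : ∃ x0, x0 = x ^ m := ⟨_, rfl⟩
  rw [← hx0] at hm1 hm2
  have hx0N : x0 ∈ Subgroup.normalizer (P : Set G) := hx0 ▸ Subgroup.pow_mem _ hxN m
  have hx0o : ∃ k : ℕ, orderOf x0 = 2 ^ k := by
    have : orderOf x0 ∣ 2 ^ k := by rw [hx0, ← hk]; exact orderOf_pow_dvd m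
    obtain ⟨a, -, ha⟩ := (Nat.dvd_prime_pow Nat.prime_two).mp this
    exact ⟨a, ha⟩
  rw [Subgroup.mem_centralizer_iff] at hm1
  push Not at hm1
  obtain ⟨u, hu, hne⟩ := hm1
  have hu' : x0 * u * x0⁻¹ ∈ P := (Subgroup.mem_normalizer_iff.mp hx0N u).mp hu
  have hyP : u⁻¹ * (x0 * u * x0⁻¹) ∈ P := P.mul_mem (P.inv_mem hu) hu'
  refine ⟨x0, u⁻¹ * (x0 * u * x0⁻¹), hx0o, ?_, ?_, ?_⟩
  · obtain ⟨a, ha⟩ := (IsPGroup.iff_orderOf.mp hP) ⟨_, hyP⟩
    exact ⟨a, by rw [← ha, ← Subgroup.orderOf_coe]⟩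
  · intro h
    apply hne
    have h1 : x0 * u * x0⁻¹ = u := by
      have := congrArg (fun w => u * w) h
      simpa using this
    exact (mul_inv_eq_iff_eq_mul.mp h1).symm
  · rw [Subgroup.mem_centralizer_iff] at hm2
    have h1 := hm2 u hu
    have h2 : x0 ^ 2 * u * (x0 ^ 2)⁻¹ = u := by rw [← h1]; group
    have h3 : x0 * (u⁻¹ * (x0 * u * x0⁻¹)) * x0⁻¹
        = (x0 * u * x0⁻¹)⁻¹ * (x0 ^ 2 * u * (x0 ^ 2)⁻¹) := by group
    rw [h3, h2]
    group

theorem dih_quot {H : Type*} [Group H] {p : ℕ} [Fact p.Prime] (hp : p ≠ 2) (X Y : H) (k : ℕ)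
    (hgen : Subgroup.closure ({X, Y} : Set H) = ⊤) (hXY : X * Y * X⁻¹ = Y⁻¹)
    (hYo : orderOf Y = p) (hXo : orderOf X = 2 ^ k) :
    ∃ f : H →* DihedralGroup p, Function.Surjective f := by
  have hpp : p.Prime := Fact.out
  have hYne : Y⁻¹ ≠ Y := by
    intro h
    have h1 : Y ^ 2 = 1 := by
      rw [pow_two]
      nth_rewrite 1 [← h]
      exact inv_mul_cancel Y
    have h2 := orderOf_dvd_of_pow_eq_one h1
    rw [hYo] at h2
    exact hp ((Nat.prime_dvd_prime_iff_eq hpp Nat.prime_two).mp h2)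
  have hncomm : X * Y ≠ Y * X := by
    intro h
    apply hYne
    rw [← hXY, h]
    group
  have hX2Y : X ^ 2 * Y = Y * X ^ 2 := by
    have h1 : X ^ 2 * Y * (X ^ 2)⁻¹ = X * (X * Y * X⁻¹) * X⁻¹ := by
      simp only [pow_two]; group
    have h2 : X * Y⁻¹ * X⁻¹ = Y := by
      have : X * Y⁻¹ * X⁻¹ = (X * Y * X⁻¹)⁻¹ := by group
      rw [this, hXY, inv_inv]
    rw [hXY, h2] at h1
    exact mul_inv_eq_iff_eq_mul.mp h1
  have hcen : ∀ g : H, g * X ^ 2 = X ^ 2 * g := by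
    intro g
    have h1 : Subgroup.closure ({X, Y} : Set H) ≤ Subgroup.centralizer {X ^ 2} := by
      rw [Subgroup.closure_le]
      intro w hw
      simp only [Set.mem_insert_iff, Set.mem_singleton_iff] at hw
      rw [SetLike.mem_coe, Subgroup.mem_centralizer_singleton_iff]
      rcases hw with rfl | rfl
      · group
      · exact hX2Y.symm
    have h2 : g ∈ Subgroup.centralizer {X ^ 2} := h1 (by rw [hgen]; trivial)
    rwa [Subgroup.mem_centralizer_singleton_iff] at h2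
  obtain ⟨Z, hZ⟩ : ∃ Z : Subgroup H, Z = Subgroup.zpowers (X ^ 2) := ⟨_, rfl⟩
  have hX2Z : X ^ 2 ∈ Z := hZ ▸ Subgroup.mem_zpowers _
  have hZc : ∀ z ∈ Z, ∀ g : H, g * z = z * g := by
    intro z hz g
    rw [hZ] at hz
    obtain ⟨t, rfl⟩ := Subgroup.mem_zpowers_iff.mp hz
    exact ((show Commute g (X ^ 2) from hcen g).zpow_right t).eq
  have hZn : Z.Normal := ⟨fun z hz g => by rw [hZc z hz g, mul_inv_cancel_right]; exact hz⟩
  obtain ⟨a, ha_def⟩ : ∃ a : H ⧸ Z, a = QuotientGroup.mk' Z X := ⟨_, rfl⟩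
  obtain ⟨b, hb_def⟩ : ∃ b : H ⧸ Z, b = QuotientGroup.mk' Z (X * Y) := ⟨_, rfl⟩
  obtain ⟨c, hc_def⟩ : ∃ c : H ⧸ Z, c = QuotientGroup.mk' Z Y := ⟨_, rfl⟩
  have hmk1 : ∀ w : H, QuotientGroup.mk' Z w = 1 ↔ w ∈ Z := fun w => QuotientGroup.eq_one_iff w
  have ha2 : a ^ 2 = 1 := by
    rw [ha_def, ← map_pow, hmk1]; exact hX2Z
  have ha : orderOf a = 2 := by
    refine orderOf_eq_prime ha2 ?_
    intro h
    rw [ha_def, hmk1] at h
    exact hncomm (hZc X h Y).symm
  have hb : orderOf b = 2 := by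
    refine orderOf_eq_prime ?_ ?_
    · rw [hb_def, ← map_pow, hmk1]
      have : (X * Y) ^ 2 = X ^ 2 := by
        have h1 : (X * Y) ^ 2 = (X * Y * X⁻¹) * (X ^ 2 * Y) := by
          simp only [pow_two]; group
        rw [h1, hXY, hX2Y]
        group
      rw [this]; exact hX2Z
    · intro h
      rw [hb_def, hmk1] at h
      have h1 := hZc _ h Y
      apply hncomm
      have h2 : Y * (X * Y) * Y⁻¹ = X * Y * Y * Y⁻¹ := by rw [h1]
      rw [mul_inv_cancel_right] at h2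
      rw [← h2]
      group
  have hbac : b = a * c := by rw [hb_def, ha_def, hc_def, ← map_mul]
  have hab : a * b = c := by
    rw [hbac, ← mul_assoc, ← pow_two, ha2, one_mul]
  have hc : orderOf c = p := by
    refine orderOf_eq_prime ?_ ?_
    · rw [hc_def, ← map_pow, ← hYo, pow_orderOf_eq_one, map_one]
    · intro h
      rw [hc_def, hmk1, hZ] at h
      have h1 := orderOf_dvd_of_mem_zpowers h
      have h2 : orderOf (X ^ 2) ∣ 2 ^ k := hXo ▸ orderOf_pow_dvd 2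
      rw [hYo] at h1
      have h3 := hpp.dvd_of_dvd_pow (h1.trans h2)
      exact hp ((Nat.prime_dvd_prime_iff_eq hpp Nat.prime_two).mp h3)
  have htop : Subgroup.closure ({a, b} : Set (H ⧸ Z)) = ⊤ := by
    have h1 : (Subgroup.closure ({X, Y} : Set H)).map (QuotientGroup.mk' Z) = ⊤ := by
      rw [hgen]; exact Subgroup.map_top_of_surjective _ (QuotientGroup.mk'_surjective Z)
    rw [MonoidHom.map_closure] at h1
    rw [eq_top_iff, ← h1, Subgroup.closure_le]
    rintro _ ⟨w, hw, rfl⟩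
    simp only [Set.mem_insert_iff, Set.mem_singleton_iff] at hw
    rcases hw with rfl | rfl
    · rw [← ha_def]
      exact Subgroup.subset_closure (by simp)
    · rw [← hc_def, ← hab]
      exact Subgroup.mul_mem _ (Subgroup.subset_closure (by simp))
        (Subgroup.subset_closure (by simp))
  obtain ⟨e⟩ : Nonempty (↥(Subgroup.closure ({a, b} : Set (H ⧸ Z))) ≃* DihedralGroup p) := by
    have h1 : orderOf (a * b) = p := by rw [hab, hc]
    have e := Cfsg.Agent.Lib.Helper5.dihEquiv ha hb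
    rw [h1] at e
    exact ⟨e⟩
  let e2 : (H ⧸ Z) ≃* DihedralGroup p :=
    (Subgroup.topEquiv.symm.trans (MulEquiv.subgroupCongr htop.symm)).trans e
  exact ⟨e2.toMonoidHom.comp (QuotientGroup.mk' Z),
    e2.surjective.comp (QuotientGroup.mk'_surjective Z)⟩

theorem three_one {G : Type*} [Group G] [Finite G] {p : ℕ} [Fact p.Prime] (hp : p ≠ 2)
    (x y : G) (hx : ∃ k : ℕ, orderOf x = 2 ^ k) (hy : ∃ k : ℕ, orderOf y = p ^ k) (hy1 : y ≠ 1)
    (hxy : x * y * x⁻¹ = y⁻¹) : Cfsg.Involves (DihedralGroup p) G := by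
  have hpp : p.Prime := Fact.out
  -- reduce to order p
  obtain ⟨y', hy'o, hxy'⟩ : ∃ y' : G, orderOf y' = p ∧ x * y' * x⁻¹ = y'⁻¹ := by
    obtain ⟨k, hk⟩ := hy
    obtain ⟨k, rfl⟩ : ∃ k', k = k' + 1 := by
      cases k with
      | zero => rw [pow_zero, orderOf_eq_one_iff] at hk; exact absurd hk hy1
      | succ k => exact ⟨k, rfl⟩
    refine ⟨y ^ (p ^ k), ?_, ?_⟩
    · rw [orderOf_pow_of_dvd (pow_ne_zero _ hpp.ne_zero) ⟨p, by rw [hk, pow_succ]⟩, hk, pow_succ,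
        Nat.mul_div_cancel_left _ (pow_pos hpp.pos k)]
    · rw [← conj_pow, hxy, inv_pow]
  clear hxy hy1 hy y
  obtain ⟨k, hk⟩ := hx
  let Hs : Subgroup G := Subgroup.closure {x, y'}
  let X : Hs := ⟨x, Subgroup.subset_closure (by simp)⟩
  let Y : Hs := ⟨y', Subgroup.subset_closure (by simp)⟩
  have hgen : Subgroup.closure ({X, Y} : Set Hs) = ⊤ := by
    have h1 : ((Subtype.val ⁻¹' ({x, y'} : Set G)) : Set Hs) = {X, Y} := by
      ext w
      simp only [Set.mem_preimage, Set.mem_insert_iff, Set.mem_singleton_iff, Subtype.ext_iff]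
      rfl
    rw [← h1]
    exact Subgroup.closure_closure_coe_preimage
  have hXY : X * Y * X⁻¹ = Y⁻¹ := Subtype.ext hxy'
  have hYo : orderOf Y = p := by rw [← Subgroup.orderOf_coe]; exact hy'o
  have hXo : orderOf X = 2 ^ k := by rw [← Subgroup.orderOf_coe]; exact hk
  obtain ⟨f, hf⟩ := dih_quot hp X Y k hgen hXY hYo hXo
  exact involves_of_sub_surj Hs f hf

/-- For an odd prime p and a finite group G the following are equivalent: the dihedral group of order 2p is involved in G; some element of 2-power order normalizes but does not centralize some p-subgroup of G; some element of 2-power order inverts some nonidentity element of p-power order. -/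
theorem result {G : Type*} [Group G] [Finite G] {p : ℕ} [Fact p.Prime] (hp : p ≠ 2) : (Cfsg.Involves (DihedralGroup p) G ↔ ∃ (x : G) (P : Subgroup G), (∃ k : ℕ, orderOf x = 2 ^ k) ∧ IsPGroup p ↥P ∧ x ∈ Subgroup.normalizer (P : Set G) ∧ x ∉ Subgroup.centralizer (P : Set G)) ∧ (Cfsg.Involves (DihedralGroup p) G ↔ ∃ x y : G, (∃ k : ℕ, orderOf x = 2 ^ k) ∧ (∃ k : ℕ, orderOf y = p ^ k) ∧ y ≠ 1 ∧ x * y * x⁻¹ = y⁻¹) := by
  have h12 : Cfsg.Involves (DihedralGroup p) G → ∃ (x : G) (P : Subgroup G),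
      (∃ k : ℕ, orderOf x = 2 ^ k) ∧ IsPGroup p ↥P ∧ x ∈ Subgroup.normalizer (P : Set G) ∧
      x ∉ Subgroup.centralizer (P : Set G) := by
    rintro ⟨K, R, hn, ⟨e⟩⟩
    obtain ⟨x, P, ⟨k, hk⟩, hP, hxN, hxC⟩ := one_two hp
      (e.toMonoidHom.comp (QuotientGroup.mk' (R.subgroupOf K)))
      (e.surjective.comp (QuotientGroup.mk'_surjective _))
    refine ⟨(x : G), P.map K.subtype, ⟨k, by rw [Subgroup.orderOf_coe, hk]⟩, hP.map _,
      Subgroup.le_normalizer_map K.subtype ⟨x, hxN, rfl⟩, ?_⟩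
    intro hc
    apply hxC
    rw [Subgroup.mem_centralizer_iff] at hc ⊢
    intro u hu
    exact Subtype.ext (hc (u : G) ⟨u, hu, rfl⟩)
  have h23 : (∃ (x : G) (P : Subgroup G),
      (∃ k : ℕ, orderOf x = 2 ^ k) ∧ IsPGroup p ↥P ∧ x ∈ Subgroup.normalizer (P : Set G) ∧
      x ∉ Subgroup.centralizer (P : Set G)) → ∃ x y : G, (∃ k : ℕ, orderOf x = 2 ^ k) ∧
      (∃ k : ℕ, orderOf y = p ^ k) ∧ y ≠ 1 ∧ x * y * x⁻¹ = y⁻¹ := by
    rintro ⟨x, P, hx, hP, hxN, hxC⟩
    exact two_three x P hx hP hxN hxC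
  have h31 : (∃ x y : G, (∃ k : ℕ, orderOf x = 2 ^ k) ∧
      (∃ k : ℕ, orderOf y = p ^ k) ∧ y ≠ 1 ∧ x * y * x⁻¹ = y⁻¹) →
      Cfsg.Involves (DihedralGroup p) G := by
    rintro ⟨x, y, hx, hy, hy1, hxy⟩
    exact three_one hp x y hx hy hy1 hxy
  exact ⟨⟨h12, fun h => h31 (h23 h)⟩, ⟨fun h => h23 (h12 h), h31⟩⟩

end Cfsg.Agent.S2758
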