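import Cfsg.Statements.S2761
import Cfsg.Agent.S1012

set_option autoImplicit false
open Cfsg

namespace Cfsg.Agent.S2761

abbrev SL3 := Matrix.SpecialLinearGroup (Fin 3) (ZMod 2)

def cond (M : SL3) : Prop := M.1 2 0 = 0 ∧ M.1 2 1 = 0 ∧ M.1 2 2 = 1

instance : DecidablePred cond := fun M => by unfold cond; infer_instance

set_option maxRecDepth 100000 in
theorem card_cond : Fintype.card {M : SL3 // cond M} = 24 := by
  decide +kernel

set_option maxRecDepth 100000 in
theorem order_cond : ∀ M : SL3, cond M → M ^ 6 = 1 → M ^ 2 = 1 ∨ M ^ 3 = 1 := by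
  decide +kernel

set_option maxRecDepth 100000 in
theorem inv_cond : ∀ M : SL3, cond M → cond M⁻¹ := by
  decide +kernel

theorem mul_cond (A B : SL3) (hA : cond A) (hB : cond B) : cond (A * B) := by
  obtain ⟨a0, a1, a2⟩ := hA
  obtain ⟨b0, b1, b2⟩ := hB
  refine ⟨?_, ?_, ?_⟩ <;>
  simp [Matrix.SpecialLinearGroup.coe_mul, Matrix.mul_apply, Fin.sum_univ_three, a0, a1, a2, b0,
    b1, b2]

def Q0 : Subgroup SL3 where
  carrier := {M | cond M}
  mul_mem' := fun {a b} ha hb => mul_cond a b ha hb
  one_mem' := by decide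
  inv_mem' := fun {a} ha => inv_cond a ha

theorem qd_eq : Cfsg.qd 2 = Q0 := by
  have : Cfsg.qd 2 = Subgroup.closure (Q0 : Set SL3) := rfl
  rw [this, Subgroup.closure_eq]

/-- The group Qd(2), the natural semidirect product of an elementary abelian group of order 4 by SL₂(2) (realised as the affine subgroup of SL₃(2)), is isomorphic to the symmetric group of degree 4. -/
theorem result : Nonempty (↥(Cfsg.qd 2) ≃* Equiv.Perm (Fin 4)) := by
  rw [qd_eq]
  apply Cfsg.Agent.S1012.result
  · have : Nat.card Q0 = Nat.card {M : SL3 // cond M} := rfl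
    rw [this, Nat.card_eq_fintype_card]
    exact card_cond
  · intro g hg
    have hg' : orderOf (g : SL3) = 6 := by rw [Subgroup.orderOf_coe, hg]
    have h6 : (g : SL3) ^ 6 = 1 := by rw [← hg']; exact pow_orderOf_eq_one _
    rcases order_cond g g.2 h6 with h | h
    · have := orderOf_dvd_of_pow_eq_one h
      rw [hg'] at this
      omega
    · have := orderOf_dvd_of_pow_eq_one h
      rw [hg'] at this
      omega

end Cfsg.Agent.S2761
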