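import Cfsg.Statements.S2779
import Cfsg.Agent.Lib.Helper3.NatSL2.Comp

set_option autoImplicit false
open Cfsg

namespace Cfsg.Agent.S2779

/-- Let L act on the elementary abelian p-group V (inside a finite group, by conjugation, faithfully) as SL₂(F) on its natural module, F a field with p^n elements, and let S be a Sylow p-subgroup of L. Then [V, S, S] = 1; |V| = p^(2n) and |C_V(S)| = p^n; and for every nonidentity s ∈ S and every v ∈ V outside C_V(S): C_V(s) = C_V(S) = [V, S] = [V, s] = the subgroup generated by the commutators [v, t], t ∈ S. -/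
theorem result {G : Type*} [Group G] [Finite G] {p : ℕ} [Fact p.Prime] {F : Type*} [Field F] [Fintype F] (n : ℕ) (hF : Fintype.card F = p ^ n) (V L : Subgroup G) (hnat : Cfsg.IsNaturalSL2Module F V L) (hf : L ⊓ Subgroup.centralizer (V : Set G) = ⊥) (S : Sylow p ↥L) (T : Subgroup G) (hT : T = ((S : Subgroup ↥L).map L.subtype)) : ⁅⁅V, T⁆, T⁆ = ⊥ ∧ Nat.card V = p ^ (2 * n) ∧ Nat.card ↥(V ⊓ Subgroup.centralizer ((T : Subgroup G) : Set G)) = p ^ n ∧ ∀ s ∈ T, s ≠ 1 → (V ⊓ Subgroup.centralizer ({s} : Set G)) = (V ⊓ Subgroup.centralizer ((T : Subgroup G) : Set G)) ∧ ⁅V, T⁆ = (V ⊓ Subgroup.centralizer ((T : Subgroup G) : Set G)) ∧ ⁅V, Subgroup.zpowers s⁆ = (V ⊓ Subgroup.centralizer ((T : Subgroup G) : Set G)) ∧ ∀ v ∈ V, v ∉ Subgroup.centralizer (T : Set G) → Subgroup.closure {x : G | ∃ t ∈ T, x = v * t * v⁻¹ * t⁻¹} = (V ⊓ Subgroup.centralizer ((T : Subgroup G) : Set G)) := by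
  obtain ⟨φ, ρ, N⟩ := Cfsg.Agent.Lib.Helper3.NatSL2.exists_nat2 n hF V L hnat hf S T hT
  have hVT : ⁅V, T⁆ = V ⊓ Subgroup.centralizer ((T : Subgroup G) : Set G) := by
    apply le_antisymm N.comm_le
    obtain ⟨t, ht, e⟩ := N.exists_T 1
    have h1 : t ≠ 1 := by
      rintro rfl
      rw [N.base.ρ_one] at e
      have := congrFun (congrFun e 0) 1
      simp at this
    exact (N.le_comm_s ht h1).trans (Cfsg.Agent.Lib.Helper3.NatSL2.Nat2.comm_s_le ht)
  refine ⟨?_, ?_, ?_, ?_⟩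
  · rw [hVT, Subgroup.commutator_eq_bot_iff_le_centralizer]
    exact inf_le_right
  · rw [N.base.card_V, hF, ← pow_mul, mul_comm]
  · rw [N.card_V1, hF]
  · intro s hs h1
    refine ⟨?_, hVT, ?_, ?_⟩
    · ext v
      rw [N.mem_Cs hs h1, N.mem_V1]
    · exact le_antisymm ((Cfsg.Agent.Lib.Helper3.NatSL2.Nat2.comm_s_le hs).trans N.comm_le)
        (N.le_comm_s hs h1)
    · intro v hv hvT
      exact N.closure_eq hv hvT

end Cfsg.Agent.S2779
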