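import Cfsg.Statements.S2780
import Cfsg.Agent.Lib.Helper3.NatSL2.Decomp

set_option autoImplicit false
open Cfsg

namespace Cfsg.Agent.S2780

/-- Let L act on the elementary abelian p-group V (inside a finite group, faithfully) as SL₂(F) on its natural module, F a field with p^n elements, S a Sylow p-subgroup of L. Then: for every g ∈ L not normalizing S, V is the internal direct product of C_V(S) and C_V(gSg⁻¹); every nonidentity element of L of order prime to p acts on V without nonidentity fixed points; and C_V(S) and V/C_V(S) are irreducible for N_L(S): the only N_L(S)-invariant subgroups of C_V(S) are 1 and C_V(S), and the only N_L(S)-invariant subgroups between C_V(S) and V are those two. -/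
theorem result {G : Type*} [Group G] [Finite G] {p : ℕ} [Fact p.Prime] {F : Type*} [Field F] [Fintype F] (n : ℕ) (hF : Fintype.card F = p ^ n) (V L : Subgroup G) (hnat : Cfsg.IsNaturalSL2Module F V L) (hf : L ⊓ Subgroup.centralizer (V : Set G) = ⊥) (S : Sylow p ↥L) (T : Subgroup G) (hT : T = ((S : Subgroup ↥L).map L.subtype)) : (∀ g ∈ L, g ∉ Subgroup.normalizer (T : Set G) → Cfsg.IsInternalDirectProduct (V ⊓ Subgroup.centralizer ((T : Subgroup G) : Set G)) (V ⊓ Subgroup.centralizer ((T.map (MulAut.conj g).toMonoidHom : Subgroup G) : Set G)) V) ∧ (∀ x ∈ L, x ≠ 1 → (orderOf x).Coprime p → (V ⊓ Subgroup.centralizer ({x} : Set G)) = ⊥) ∧ (∀ U : Subgroup G, U ≤ (V ⊓ Subgroup.centralizer ((T : Subgroup G) : Set G)) → L ⊓ Subgroup.normalizer (T : Set G) ≤ Subgroup.normalizer (U : Set G) → U = ⊥ ∨ U = (V ⊓ Subgroup.centralizer ((T : Subgroup G) : Set G))) ∧ (∀ U : Subgroup G, (V ⊓ Subgroup.centralizer ((T : Subgroup G) : Set G)) ≤ U → U ≤ V → L ⊓ Subgroup.normalizer (T : Set G) ≤ Subgroup.normalizer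 (U : Set G) → U = (V ⊓ Subgroup.centralizer ((T : Subgroup G) : Set G)) ∨ U = V) := by
  obtain ⟨φ, ρ, N⟩ := Cfsg.Agent.Lib.Helper3.NatSL2.exists_nat2 n hF V L hnat hf S T hT
  have hch : CharP F p := charP_of_card_eq_prime_pow hF
  refine ⟨?_, ?_, ?_, ?_⟩
  · intro g hg hgn
    have hc : ρ g 1 0 ≠ 0 := fun h => hgn (N.mem_normalizer hg h)
    refine ⟨inf_le_left, inf_le_left, ?_, N.inf_eq_bot hg hc, N.sup_eq hg hc⟩
    intro a ha b hb
    exact N.base.V_comm ha.1 hb.1
  · intro x hx hx1 hco
    rw [eq_bot_iff]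
    intro v hv
    rw [Subgroup.mem_bot]
    by_contra hv1
    obtain ⟨hvV, hvc⟩ := Subgroup.mem_inf.mp hv
    rw [Subgroup.mem_centralizer_singleton_iff] at hvc
    have hfix : x * v * x⁻¹ = v := by
      rw [← hvc]
      group
    have hp := N.base.pow_char_eq_one p hx hvV hv1 hfix
    have h1 : orderOf x ∣ p := orderOf_dvd_of_pow_eq_one hp
    have h2 : orderOf x ∣ 1 := by
      have := Nat.dvd_gcd dvd_rfl h1
      rwa [hco] at this
    exact hx1 (orderOf_eq_one_iff.mp (Nat.dvd_one.mp h2))
  · intro U hU hn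
    exact N.irred1 U hU hn
  · intro U hU hUV hn
    exact N.irred2 U hU hUV hn

end Cfsg.Agent.S2780
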