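import Cfsg.Statements.S2781
import Cfsg.Agent.Lib.Helper52.Avg
import Cfsg.Agent.Lib.Helper52.Subn
import Cfsg.Agent.Lib.Helper52.SylowN

set_option autoImplicit false
open Cfsg

namespace Cfsg.Agent.S2781

open Cfsg.Agent.Lib.Helper52

theorem normalizer_inf_le_normalizer_sup {G : Type*} [Group G] (A B : Subgroup G) :
    Subgroup.normalizer (A : Set G) ⊓ Subgroup.normalizer (B : Set G) ≤
      Subgroup.normalizer ((A ⊔ B : Subgroup G) : Set G) := by
  apply le_normalizer_of_conj_mem
  intro g hg x hx
  have h1 : A ⊔ B ≤ (A ⊔ B : Subgroup G).comap (MulAut.conj g).toMonoidHom := by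
    apply sup_le
    · intro a ha
      exact (le_sup_left : A ≤ A ⊔ B) (mem_normalizer_conj hg.1 ha)
    · intro a ha
      exact (le_sup_right : B ≤ A ⊔ B) (mem_normalizer_conj hg.2 ha)
  exact h1 hx

theorem normalizer_inf_le_normalizer_inf {G : Type*} [Group G] (A B : Subgroup G) :
    Subgroup.normalizer (A : Set G) ⊓ Subgroup.normalizer (B : Set G) ≤
      Subgroup.normalizer ((A ⊓ B : Subgroup G) : Set G) := by
  apply le_normalizer_of_conj_mem
  intro g hg x hx
  exact ⟨mem_normalizer_conj hg.1 hx.1, mem_normalizer_conj hg.2 hx.2⟩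

/-- Let H act faithfully by conjugation on the elementary abelian p-subgroup V of a finite group, let O^p(H) be the subgroup of H generated by its elements of order prime to p, and T a Sylow p-subgroup of O^p(H). If V is generated by the H-conjugates of C_V(T) (V is the smallest H-invariant subgroup containing C_V(T)), then V = [V, O^p(H)]·C_V(O^p(H)). -/
theorem result {G : Type*} [Group G] [Finite G] {p : ℕ} [Fact p.Prime] (V H : Subgroup G) (hV : Cfsg.IsElementaryAbelian p V) (hHV : H ≤ Subgroup.normalizer (V : Set G)) (hf : H ⊓ Subgroup.centralizer (V : Set G) = ⊥) (R : Subgroup G) (hR : R = (Cfsg.pResidual p ↥H).map H.subtype) (S : Sylow p ↥R) (T : Subgroup G) (hT : T = ((S : Subgroup ↥R).map R.subtype)) (hgen : ∀ W : Subgroup G, H ≤ Subgroup.normalizer (W : Set G) → (V ⊓ Subgroup.centralizer ((T : Subgroup G) : Set G)) ≤ W → V ≤ W) : ⁅V, R⁆ ⊔ (V ⊓ Subgroup.centralizer ((R : Subgroup G) : Set G)) = V := by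
  have hRH : R ≤ H := by
    rw [hR]
    exact Subgroup.map_subtype_le _
  have hRV : R ≤ Subgroup.normalizer (V : Set G) := hRH.trans hHV
  have hHR : H ≤ Subgroup.normalizer (R : Set G) := by
    rw [hR, pResidual_map_subtype]
    exact Subgroup.le_normalizer.trans (normalizer_le_normalizer_pResOf p H)
  apply le_antisymm
  · exact sup_le (commutator_le_of_le_normalizer hRV) inf_le_left
  · apply hgen
    · intro h hh
      apply normalizer_inf_le_normalizer_sup
      refine ⟨normalizer_inf_le_normalizer_commutator _ _ ⟨hHV hh, hHR hh⟩, ?_⟩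
      apply normalizer_inf_le_normalizer_inf
      exact ⟨hHV hh, normalizer_le_normalizer_centralizer' R (hHR hh)⟩
    · intro v hv
      have : IsMulCommutative V := hV.1
      obtain ⟨N, hN1, hN2, -, -⟩ := exists_avg V R T hRV
      have h1 := hN1 v hv
      have h2 := hN2 v hv ⁅V, R⁆ (by
        intro g hg
        rw [Subgroup.commutator_comm]
        exact Subgroup.commutator_mem_commutator hg hv.1)
      have hm : Nat.Coprime (T.relIndex R) p := by
        have h3 : T.relIndex R = (S : Subgroup ↥R).index := by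
          rw [hT, Subgroup.relIndex, Subgroup.subgroupOf,
            Subgroup.comap_map_eq_self_of_injective R.subtype_injective]
        rw [h3]
        exact ((Fact.out : p.Prime).coprime_iff_not_dvd.2 S.not_dvd_index).symm
      apply mem_of_pow_mem_of_coprime _ (a := T.relIndex R) (b := p) _ _ hm
      · have h4 : v ^ T.relIndex R = (N v * (v ^ T.relIndex R)⁻¹)⁻¹ * N v := by group
        rw [h4]
        exact Subgroup.mul_mem _ (Subgroup.inv_mem _ ((le_sup_left : _ ≤ ⁅V, R⁆ ⊔ _) h2))
          ((le_sup_right : _ ≤ ⁅V, R⁆ ⊔ _) h1)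
      · rw [hV.2 v hv.1]
        exact Subgroup.one_mem _

end Cfsg.Agent.S2781
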