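import Cfsg.Statements.S2856
-- import your own Cfsg.Agent.* helpers here
import Cfsg.Agent.Lib.Helper51.Amalgam3
import Cfsg.Agent.Lib.Helper51.NilpotentAction

set_option autoImplicit false
open Cfsg Cfsg.Agent.Lib.Helper51
open scoped commutatorElement

namespace Cfsg.Agent.S2856

theorem le_normalizer_pCoreOf {X : Type*} [Group X] (p : ℕ) (H : Subgroup X) :
    H ≤ Subgroup.normalizer (Cfsg.pCoreOf p H : Set X) := by
  rw [Subgroup.le_normalizer_iff]
  rintro g hg _ ⟨y, hy, rfl⟩
  exact ⟨⟨g, hg⟩ * y * ⟨g, hg⟩⁻¹, (Cfsg.Agent.Lib.Helper51.pCore_normal p).conj_mem y hy _, rfl⟩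

theorem le_normalizer_commutator {X : Type*} [Group X] {K A B : Subgroup X}
    (hA : K ≤ Subgroup.normalizer (A : Set X)) (hB : K ≤ Subgroup.normalizer (B : Set X)) :
    K ≤ Subgroup.normalizer ((⁅A, B⁆ : Subgroup X) : Set X) := by
  intro g hg
  have h1 := Subgroup.mem_normalizer_iff_map_conj_eq.1 (hA hg)
  have h2 := Subgroup.mem_normalizer_iff_map_conj_eq.1 (hB hg)
  rw [Subgroup.mem_normalizer_iff_map_conj_eq, Subgroup.map_commutator, h1, h2]

/-- Let (M₁, M₂) be an amalgam pair in X satisfying the rank-two standing hypothesis (characteristic p, the normalizers in M₁ and in M₂ of a Sylow p-subgroup of M₁ ∩ M₂ equal and contained in M₁ ∩ M₂, and strongly p-embedded residues), λ a vertex of the coset graph, L_λ the subgroup of its stabilizer generated by the p-elements, Q_λ = O_p of the stabilizer, O^p(L_λ) the subgroup of L_λ generated by its elements of order prime to p, and V_λ^{(k)} the subgroup generated by the Z_μ over the vertices μ at distance at most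 k from λ (Z_μ being generated by the Ω₁(Z(S)), S a Sylow p-subgroup of the stabilizer of μ). If n ≥ 1 and V_λ^{(n)} ≤ Q_λ, then O^p(L_λ) does not centralize V_λ^{(n)}/[V_λ^{(n)}, Q_λ], that is, [V_λ^{(n)}, O^p(L_λ)] is not contained in [V_λ^{(n)}, Q_λ]. -/
theorem result {X : Type*} [Group X] {p : ℕ} [Fact p.Prime] (M₁ M₂ : Subgroup X) (h : Cfsg.IsSpeAmalgamPair p M₁ M₂) (lam : Cfsg.CosetVertex M₁ M₂) (n : ℕ) (hn : 1 ≤ n) (V : Subgroup X) (hV : V = Cfsg.vertexVIter p M₁ M₂ n lam) (hVQ : V ≤ Cfsg.vertexQ p lam) : ¬ ⁅V, ((Cfsg.pResidual p ↥(Cfsg.pElementClosure p (MulAction.stabilizer X lam))).map (Cfsg.pElementClosure p (MulAction.stabilizer X lam)).subtype)⁆ ≤ ⁅V, Cfsg.vertexQ p lam⁆ := by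
  intro hcon
  have hchar := h.1
  have hgen := hchar.1.1
  obtain ⟨μ, hadj⟩ := exists_adj lam
  obtain ⟨m, rfl⟩ : ∃ m, n = m + 1 := ⟨n - 1, by omega⟩
  have hfin := finite_stabilizer hchar lam
  set Q := Cfsg.vertexQ p lam with hQ
  set Op := ((Cfsg.pResidual p ↥(Cfsg.pElementClosure p (MulAction.stabilizer X lam))).map
      (Cfsg.pElementClosure p (MulAction.stabilizer X lam)).subtype) with hOp
  set U := Cfsg.vertexVIter p M₁ M₂ m μ with hU
  have hUV : U ≤ V := by rw [hV]; exact vertexVIter_le_of_adj hgen m hadj.symm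
  have hGV : MulAction.stabilizer X lam ≤ Subgroup.normalizer (V : Set X) := by
    rw [hV]; exact le_normalizer_vertexVIter hchar (m + 1) lam
  have hGU : MulAction.stabilizer X μ ≤ Subgroup.normalizer (U : Set X) :=
    le_normalizer_vertexVIter hchar m μ
  have hQG : Q ≤ MulAction.stabilizer X lam := pCoreOf_le _
  have hQμ : Q ≤ MulAction.stabilizer X μ :=
    (vertexQ_le_neighbourKernel hchar lam).trans (neighbourKernel_le_of_adj hadj)
  have hGQ : MulAction.stabilizer X lam ≤ Subgroup.normalizer (Q : Set X) := le_normalizer_pCoreOf p _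
  have hGVQ : MulAction.stabilizer X lam ≤ Subgroup.normalizer ((⁅V, Q⁆ : Subgroup X) : Set X) :=
    le_normalizer_commutator hGV hGQ
  set D := U ⊔ ⁅V, Q⁆ with hD
  have hedge : Cfsg.edgeStabilizer lam μ ≤ Subgroup.normalizer (D : Set X) :=
    (le_inf (inf_le_right.trans hGU) (inf_le_left.trans hGVQ)).trans
      (Subgroup.normalizer_inf_normalizer_le_normalizer_sup _ _)
  have hOpG : Op ≤ MulAction.stabilizer X lam :=
    (Subgroup.map_subtype_le _).trans (pElementClosure_le _)
  have hOpD : Op ≤ Subgroup.normalizer (D : Set X) := by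
    rw [Subgroup.le_normalizer_iff]
    intro g hg d hd
    have : D ≤ D.comap (MulAut.conj g).toMonoidHom := by
      apply sup_le
      · intro u hu
        have h3 : ⁅u, g⁆ ∈ D :=
          Subgroup.mem_sup_right (hcon (Subgroup.commutator_mem_commutator (hUV hu) hg))
        have h4 : g * u * g⁻¹ = ⁅u, g⁆⁻¹ * u := by rw [commutatorElement_def]; group
        change g * u * g⁻¹ ∈ D
        rw [h4]
        exact mul_mem (inv_mem h3) (Subgroup.mem_sup_left hu)
      · intro c hc
        exact Subgroup.mem_sup_right ((Subgroup.le_normalizer_iff.1 hGVQ) g (hOpG hg) c hc)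
    exact this hd
  have hGD : MulAction.stabilizer X lam ≤ Subgroup.normalizer (D : Set X) :=
    (stabilizer_le_sup h hadj).trans (sup_le hOpD hedge)
  have hGD' := Subgroup.le_normalizer_iff.1 hGD
  have hZμ : Cfsg.vertexZ p μ ≤ U := vertexZ_le_vertexVIter (by simp)
  have hVD : V ≤ D := by
    rw [hV]
    apply iSup_le
    rintro ⟨ν, hν⟩
    change Cfsg.vertexZ p ν ≤ D
    rcases Nat.eq_zero_or_pos ((Cfsg.cosetGraph M₁ M₂).dist lam ν) with h0 | hpos
    · rw [(connected M₁ M₂ hgen).dist_eq_zero_iff] at h0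
      subst h0
      apply sylowCenterClosure_le
      intro T' hT'
      obtain ⟨T, hT⟩ := exists_isSylowIn (p := p) (Cfsg.edgeStabilizer lam μ)
      obtain ⟨g, hg, rfl⟩ := (hT.edge_left hchar hadj).exists_conj hT'
      rw [← OZ_map]
      rintro _ ⟨z, hz, rfl⟩
      have hzD : z ∈ D :=
        Subgroup.mem_sup_left (hZμ (OZ_le_sylowCenterClosure (hT.edge_right hchar hadj) hz))
      exact hGD' g hg z hzD
    · obtain ⟨k, hk⟩ : ∃ k, (Cfsg.cosetGraph M₁ M₂).dist lam ν = k + 1 := ⟨_, (Nat.succ_pred_eq_of_pos hpos).symm⟩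
      obtain ⟨μ', hμ', hd⟩ := exists_adj_dist (connected M₁ M₂ hgen) hk
      obtain ⟨g, hg, rfl⟩ := neighbours_transitive M₁ M₂ lam μ μ' hadj hμ'
      intro z hz
      have h5 : g⁻¹ * z * g⁻¹⁻¹ ∈ Cfsg.vertexZ p (g⁻¹ • ν) := vertexZ_smul_le hchar g⁻¹ ν ⟨z, hz, rfl⟩
      have h6 : Cfsg.vertexZ p (g⁻¹ • ν) ≤ U := by
        apply vertexZ_le_vertexVIter
        have := dist_smul hgen g μ (g⁻¹ • ν)
        rw [smul_inv_smul] at this
        rw [← this, hd]
        omega
      have h7 := hGD' g hg _ (Subgroup.mem_sup_left (h6 h5))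
      simpa [mul_assoc] using h7
  have hQp : IsPGroup p Q := (pCore_isPGroup p).map _
  have hQfin : Finite Q := Finite.of_injective (Subgroup.inclusion hQG) (Subgroup.inclusion_injective hQG)
  have hQnil : Group.IsNilpotent Q := hQp.isNilpotent
  have hVU : V ≤ U := le_of_le_sup_commutator Q U V (hUV.trans hVQ) hVQ (hQμ.trans hGU) hVD
  have hUeq : U = V := le_antisymm hUV hVU
  have hUe : U ≤ Cfsg.edgeStabilizer lam μ := (hUV.trans hVQ).trans (le_inf hQG hQμ)
  have hUbot : U = ⊥ := by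
    apply eq_bot_of_normalizer_transitive M₁ M₂ hchar.1 lam μ hadj U hUe
    · intro ν ν' a1 a2
      obtain ⟨g, hg, hg'⟩ := neighbours_transitive M₁ M₂ lam ν ν' a1 a2
      exact ⟨g, by rw [hUeq]; exact hGV hg, hg'⟩
    · intro ν ν' a1 a2
      obtain ⟨g, hg, hg'⟩ := neighbours_transitive M₁ M₂ μ ν ν' a1 a2
      exact ⟨g, hGU hg, hg'⟩
  apply vertexZ_ne_bot hchar μ
  rw [eq_bot_iff, ← hUbot]
  exact hZμ

end Cfsg.Agent.S2856
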