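import Cfsg.Statements.S2857
-- import your own Cfsg.Agent.* helpers here
import Cfsg.Agent.Lib.Helper51.Amalgam3

set_option autoImplicit false
open Cfsg Cfsg.Agent.Lib.Helper51
open scoped commutatorElement

namespace Cfsg.Agent.S2857

/-- Let (M₁, M₂) be an amalgam pair in X satisfying the rank-two standing hypothesis (characteristic p, the normalizers in M₁ and in M₂ of a Sylow p-subgroup of M₁ ∩ M₂ equal and contained in M₁ ∩ M₂, and strongly p-embedded residues), λ a vertex of the coset graph, L_λ the subgroup of its stabilizer generated by the p-elements, Q_λ = O_p of the stabilizer, O^p(L_λ) the subgroup of L_λ generated by its elements of order prime to p, and V_λ^{(k)} the subgroup generated by the Z_μ over the vertices μ at distance at most k from λ (Z_μ being generated by the Ω₁(Z(S)), S a Sylow p-subgroup of the stabilizer of μ). If n ≥ 2 and V_λ^{(n)} ≤ Q_λ, then O^p(L_λ) does not centralize V_λ^{(n)}/V_λ^{(n-2)}, that is, [V_λ^{(n)}, O^p(L_λ)] is not contained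 in V_λ^{(n-2)}. -/
theorem result {X : Type*} [Group X] {p : ℕ} [Fact p.Prime] (M₁ M₂ : Subgroup X) (h : Cfsg.IsSpeAmalgamPair p M₁ M₂) (lam : Cfsg.CosetVertex M₁ M₂) (n : ℕ) (hn : 2 ≤ n) (hVQ : Cfsg.vertexVIter p M₁ M₂ n lam ≤ Cfsg.vertexQ p lam) : ¬ ⁅Cfsg.vertexVIter p M₁ M₂ n lam, ((Cfsg.pResidual p ↥(Cfsg.pElementClosure p (MulAction.stabilizer X lam))).map (Cfsg.pElementClosure p (MulAction.stabilizer X lam)).subtype)⁆ ≤ Cfsg.vertexVIter p M₁ M₂ (n - 2) lam := by
  intro hcon
  have hchar := h.1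
  have hgen := hchar.1.1
  obtain ⟨μ, hadj⟩ := exists_adj lam
  obtain ⟨m, rfl⟩ : ∃ m, n = m + 2 := ⟨n - 2, by omega⟩
  simp only [Nat.add_sub_cancel] at hcon
  set W := Cfsg.vertexVIter p M₁ M₂ (m + 1) μ with hW
  have h1 : Cfsg.vertexVIter p M₁ M₂ m lam ≤ W := vertexVIter_le_of_adj hgen m hadj
  have h2 : W ≤ Cfsg.vertexVIter p M₁ M₂ (m + 2) lam := vertexVIter_le_of_adj hgen (m + 1) hadj.symm
  have hOp : ((Cfsg.pResidual p ↥(Cfsg.pElementClosure p (MulAction.stabilizer X lam))).map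
      (Cfsg.pElementClosure p (MulAction.stabilizer X lam)).subtype) ≤ Subgroup.normalizer (W : Set X) := by
    rw [Subgroup.le_normalizer_iff]
    intro g hg w hw
    have h3 : ⁅w, g⁆ ∈ W := h1 (hcon (Subgroup.commutator_mem_commutator (h2 hw) hg))
    have h4 : g * w * g⁻¹ = ⁅w, g⁆⁻¹ * w := by rw [commutatorElement_def]; group
    rw [h4]
    exact mul_mem (inv_mem h3) hw
  have hμ : MulAction.stabilizer X μ ≤ Subgroup.normalizer (W : Set X) :=
    le_normalizer_vertexVIter hchar (m + 1) μ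
  have hlam : MulAction.stabilizer X lam ≤ Subgroup.normalizer (W : Set X) :=
    (stabilizer_le_sup h hadj).trans (sup_le hOp (inf_le_right.trans hμ))
  have hWe : W ≤ Cfsg.edgeStabilizer lam μ := by
    have h5 := (h2.trans hVQ).trans (vertexQ_le_neighbourKernel hchar lam)
    exact le_inf (h5.trans inf_le_left) (h5.trans (neighbourKernel_le_of_adj hadj))
  have hWbot : W = ⊥ := by
    apply eq_bot_of_normalizer_transitive M₁ M₂ hchar.1 lam μ hadj W hWe
    · intro ν ν' a1 a2
      obtain ⟨g, hg, hg'⟩ := neighbours_transitive M₁ M₂ lam ν ν' a1 a2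
      exact ⟨g, hlam hg, hg'⟩
    · intro ν ν' a1 a2
      obtain ⟨g, hg, hg'⟩ := neighbours_transitive M₁ M₂ μ ν ν' a1 a2
      exact ⟨g, hμ hg, hg'⟩
  apply vertexZ_ne_bot hchar μ
  rw [eq_bot_iff, ← hWbot]
  exact vertexZ_le_vertexVIter (by simp)

end Cfsg.Agent.S2857
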