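import Cfsg.Statements.S2941
import Cfsg.Agent.Lib.Helper55.SupNormal
import Cfsg.Agent.Lib.Helper55.Isolated

set_option autoImplicit false
open Cfsg

namespace Cfsg.Agent.S2941

open Cfsg.Agent.Lib.Helper55
open scoped commutatorElement

/-- Let G be a finite group of characteristic 2 type in which every 2-local subgroup is solvable and the centralizer of Ω₁(Z(S)) lies in N_G(S) for every Sylow 2-subgroup S, and let T be a nontrivial 2-subgroup and K a J(T)-component (J the Thompson subgroup generated by the elementary abelian 2-subgroups of largest order). If a subgroup Q is normalized by ⟨K, J(T)⟩ and normalizes J(T), then Q normalizes K. -/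
theorem result {G : Type*} [Group G] [Finite G] (hL : Cfsg.IsCharacteristicTwoType G) (hN : ∀ N : Subgroup G, Cfsg.IsTwoLocal N → Group.IsSolvable ↥N)
    (hZ : ∀ S : Sylow 2 G, Subgroup.centralizer (Cfsg.omegaCenterOf (S : Subgroup G) : Set G) ≤ Subgroup.normalizer ((S : Subgroup G) : Set G)) (T : Subgroup G) (hT : IsPGroup 2 ↥T) (hT1 : T ≠ ⊥) (K : Subgroup G) (hK : Cfsg.IsJComponent T K)
    (Q : Subgroup G) (hQ1 : K ⊔ Cfsg.thompsonSubgroupOf 2 T ≤ Subgroup.normalizer (Q : Set G)) (hQ2 : Q ≤ Subgroup.normalizer (Cfsg.thompsonSubgroupOf 2 T : Set G)) :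
    Q ≤ Subgroup.normalizer (K : Set G) := by
  obtain ⟨hgen, hcomm, -⟩ := hK
  set J := Cfsg.thompsonSubgroupOf 2 T with hJdef
  have hJT : J ≤ T := Subgroup.map_subtype_le _
  have hJ2 : IsPGroup 2 ↥J := hT.to_le hJT
  have hJK : J ≤ Subgroup.normalizer (K : Set G) := le_normalizer_of_commutator_le hcomm.le
  have hKQ : ∀ k ∈ K, ∀ q ∈ Q, k * q * k⁻¹ ∈ Q :=
    Subgroup.le_normalizer_iff.1 (le_sup_left.trans hQ1)
  have hQJ : ∀ q ∈ Q, ∀ j ∈ J, q * j * q⁻¹ ∈ J := Subgroup.le_normalizer_iff.1 hQ2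
  -- step 2
  have step2 : ∀ q ∈ Q, K ≤ (K ⊔ J).comap (MulAut.conj q).toMonoidHom := by
    intro q hq
    conv_lhs => rw [← hcomm]
    rw [Subgroup.commutator_le]
    intro k hk j hj
    show q * ⁅k, j⁆ * q⁻¹ ∈ K ⊔ J
    have hq' : k⁻¹ * q * k * q⁻¹ ∈ Q := by
      have := hKQ k⁻¹ (K.inv_mem hk) q hq
      exact Q.mul_mem (by simpa using this) (Q.inv_mem hq)
    have hj' : q * j * q⁻¹ ∈ J := hQJ q hq j hj
    have hj'' : (k⁻¹ * q * k * q⁻¹) * (q * j * q⁻¹) * (k⁻¹ * q * k * q⁻¹)⁻¹ ∈ J := hQJ _ hq' _ hj'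
    have h1 : ⁅k, (k⁻¹ * q * k * q⁻¹) * (q * j * q⁻¹) * (k⁻¹ * q * k * q⁻¹)⁻¹⁆ ∈ K := by
      rw [← hcomm]
      exact Subgroup.commutator_mem_commutator hk hj''
    have h2 : q * ⁅k, j⁆ * q⁻¹ = ⁅k, (k⁻¹ * q * k * q⁻¹) * (q * j * q⁻¹) * (k⁻¹ * q * k * q⁻¹)⁻¹⁆ *
        (((k⁻¹ * q * k * q⁻¹) * (q * j * q⁻¹) * (k⁻¹ * q * k * q⁻¹)⁻¹) * (q * j * q⁻¹)⁻¹) := by
      simp only [commutatorElement_def]
      group
    rw [h2]
    exact Subgroup.mul_mem_sup h1 (J.mul_mem hj'' (J.inv_mem hj'))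
  have hnorm : Q ≤ Subgroup.normalizer ((Subgroup.closure {g : G | g ∈ K ∧ Odd (orderOf g)} : Subgroup G) : Set G) := by
    rw [Subgroup.le_normalizer_closure_iff]
    intro q hq g hg
    apply Subgroup.subset_closure
    have h1 : q * g * q⁻¹ ∈ K ⊔ J := step2 q hq hg.1
    have h2 : Odd (orderOf (q * g * q⁻¹)) := by rw [orderOf_conj']; exact hg.2
    exact ⟨mem_of_mem_sup_of_coprime hJK hJ2 h1 (Nat.Coprime.symm (Nat.coprime_two_left.2 h2)), h2⟩
  rw [hgen] at hnorm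
  exact hnorm

end Cfsg.Agent.S2941
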