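import Cfsg.Statements.S2947
import Cfsg.Agent.Lib.Helper55.SylowMore
import Cfsg.Agent.Lib.Helper55.CharP
import Cfsg.Agent.Lib.Helper55.Isolated

set_option autoImplicit false
open Cfsg

namespace Cfsg.Agent.S2947

open Cfsg.Agent.Lib.Helper55

theorem se_mem {G : Type*} [Group G] [Finite G] {M : Subgroup G} (hM : Cfsg.IsStronglyEmbedded M)
    {t g : G} {k : ℕ} (ht1 : t ≠ 1) (ht : t ^ (2 ^ k) = 1) (htM : t ∈ M)
    (htg : t ∈ M.map (MulAut.conj g).toMonoidHom) : g ∈ M := by
  by_contra hg
  have hodd := hM.2.2 g hg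
  apply ht1
  have h1 : (⟨t, ⟨htM, htg⟩⟩ : ↥(M ⊓ M.map (MulAut.conj g).toMonoidHom)) ^
      Nat.card ↥(M ⊓ M.map (MulAut.conj g).toMonoidHom) = 1 := pow_card_eq_one'
  have h2 : t ^ Nat.card ↥(M ⊓ M.map (MulAut.conj g).toMonoidHom) = 1 := by
    have h3 := congrArg Subtype.val h1
    rwa [Subgroup.coe_pow] at h3
  exact eq_one_of_pow_of_coprime ht h2 (Nat.Coprime.symm (Nat.coprime_two_left.2 hodd))

theorem se_centralizer_le {G : Type*} [Group G] [Finite G] {M : Subgroup G} (hM : Cfsg.IsStronglyEmbedded M)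
    {t : G} {k : ℕ} (ht1 : t ≠ 1) (ht : t ^ (2 ^ k) = 1) (htM : t ∈ M) :
    Subgroup.centralizer ({t} : Set G) ≤ M := by
  intro g hg
  rw [Subgroup.mem_centralizer_singleton_iff] at hg
  refine se_mem hM ht1 ht htM ?_
  rw [mem_map_conj]
  have : g⁻¹ * t * g = t := by
    calc g⁻¹ * t * g = g⁻¹ * (t * g) := by group
      _ = g⁻¹ * (g * t) := by rw [hg]
      _ = t := by group
  rw [this]; exact htM

theorem exists_ne_one_of_ne_bot {G : Type*} [Group G] {D : Subgroup G} (h : D ≠ ⊥) :
    ∃ t ∈ D, t ≠ 1 := by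
  by_contra hcon
  push Not at hcon
  exact h ((Subgroup.eq_bot_iff_forall D).2 hcon)

theorem se_normalizer_le {G : Type*} [Group G] [Finite G] {M : Subgroup G} (hM : Cfsg.IsStronglyEmbedded M)
    {D : Subgroup G} (hD : IsPGroup 2 ↥D) (hD1 : D ≠ ⊥) (hDM : D ≤ M) :
    Subgroup.normalizer (D : Set G) ≤ M := by
  intro g hg
  obtain ⟨t, htD, ht1⟩ := exists_ne_one_of_ne_bot hD1
  obtain ⟨k, hk⟩ := hD ⟨t, htD⟩
  have hk' : t ^ (2 ^ k) = 1 := by simpa using congrArg Subtype.val hk
  refine se_mem hM ht1 hk' (hDM htD) ?_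
  rw [mem_map_conj]
  apply hDM
  have := (Subgroup.inv_mem _ hg t).1 htD
  simpa using this

/-- Let G be a finite group of characteristic 2 type in which every 2-local subgroup is solvable and the centralizer of Ω₁(Z(S)) lies in N_G(S) for every Sylow 2-subgroup S; suppose O₂(G) = 1, fix a Sylow 2-subgroup S and a 2-local subgroup M containing N_G(J(S)) (J the Thompson subgroup generated by the elementary abelian 2-subgroups of largest order). Then M is strongly embedded in G (a proper subgroup of even order whose intersection with each conjugate by an element outside M has odd order) if and only if no nontrivial 2-subgroup of M lies in a 2-local subgroup of G not contained in M. -/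
theorem result {G : Type*} [Group G] [Finite G] (hL : Cfsg.IsCharacteristicTwoType G) (hN : ∀ N : Subgroup G, Cfsg.IsTwoLocal N → Group.IsSolvable ↥N)
    (hZ : ∀ S : Sylow 2 G, Subgroup.centralizer (Cfsg.omegaCenterOf (S : Subgroup G) : Set G) ≤ Subgroup.normalizer ((S : Subgroup G) : Set G)) (hO : Cfsg.pCore 2 G = ⊥) (S : Sylow 2 G) (M : Subgroup G) (hM : Cfsg.IsTwoLocal M)
    (hMJ : Subgroup.normalizer (Cfsg.thompsonSubgroupOf 2 (S : Subgroup G) : Set G) ≤ M) :
    Cfsg.IsStronglyEmbedded M ↔ Cfsg.straddlingTwoSubgroups M = ∅ := by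
  constructor
  · intro hSE
    rw [Set.eq_empty_iff_forall_notMem]
    rintro T ⟨hT2, hT1, hTM, L, ⟨U, hU2, hU1, rfl⟩, hTL, hLM⟩
    apply hLM
    have hP : IsPGroup 2 ↥(T ⊔ U) := hT2.to_sup_of_normal_right' hU2 hTL
    obtain ⟨t, htT, ht1⟩ := exists_ne_one_of_ne_bot hT1
    obtain ⟨k, hk⟩ := hT2 ⟨t, htT⟩
    have hk' : t ^ (2 ^ k) = 1 := by simpa using congrArg Subtype.val hk
    have hnt : Nontrivial ↥(T ⊔ U) :=
      ⟨⟨⟨t, le_sup_left (a := T) htT⟩, 1, fun h => ht1 (congrArg Subtype.val h)⟩⟩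
    have hcn : Nontrivial ↥(Subgroup.center ↥(T ⊔ U)) := hP.center_nontrivial
    obtain ⟨z, hz1⟩ := exists_ne (1 : ↥(Subgroup.center ↥(T ⊔ U)))
    have hz1' : ((z : ↥(T ⊔ U)) : G) ≠ 1 := by
      intro h
      apply hz1
      exact Subtype.ext (Subtype.ext h)
    have hzc : ∀ y ∈ T ⊔ U, y * ((z : ↥(T ⊔ U)) : G) = ((z : ↥(T ⊔ U)) : G) * y := by
      intro y hy
      have := (Subgroup.mem_center_iff.1 z.2) ⟨y, hy⟩
      exact congrArg Subtype.val this
    obtain ⟨k2, hk2⟩ := hP (z : ↥(T ⊔ U))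
    have hk2' : ((z : ↥(T ⊔ U)) : G) ^ (2 ^ k2) = 1 := by simpa using congrArg Subtype.val hk2
    have hzM : ((z : ↥(T ⊔ U)) : G) ∈ M := by
      apply se_centralizer_le hSE ht1 hk' (hTM htT)
      rw [Subgroup.mem_centralizer_singleton_iff]
      exact (hzc t (le_sup_left (a := T) htT)).symm
    have hUM : U ≤ M := by
      intro u hu
      apply se_centralizer_le hSE hz1' hk2' hzM
      rw [Subgroup.mem_centralizer_singleton_iff]
      exact hzc u (le_sup_right (a := T) hu)
    exact se_normalizer_le hSE hU2 hU1 hUM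
  · intro hemp
    have hns : ∀ D : Subgroup G, IsPGroup 2 ↥D → D ≠ ⊥ → D ≤ M → Subgroup.normalizer (D : Set G) ≤ M := by
      intro D hD hD1 hDM
      by_contra hcon
      have : D ∈ Cfsg.straddlingTwoSubgroups M :=
        ⟨hD, hD1, hDM, _, ⟨D, hD, hD1, rfl⟩, Subgroup.le_normalizer, hcon⟩
      rw [hemp] at this
      exact this
    obtain ⟨U, hU2, hU1, hMU⟩ := hM
    have hUM : U ≤ M := hMU ▸ Subgroup.le_normalizer
    refine ⟨?_, ?_, ?_⟩
    · intro htop
      apply hU1
      have hUn : U.Normal := by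
        rw [← Subgroup.normalizer_eq_top_iff, ← hMU, htop]
      have := le_pCore hUn hU2
      rw [hO] at this
      exact le_bot_iff.1 this
    · have h1 : 2 ∣ Nat.card ↥U := by
        rcases hU2.card_eq_or_dvd with h | h
        · exact absurd (Subgroup.card_eq_one.1 h) hU1
        · exact h
      exact even_iff_two_dvd.2 (h1.trans (Subgroup.card_dvd_of_le hUM))
    · intro g hg
      by_contra hodd
      rw [Nat.not_odd_iff_even, even_iff_two_dvd] at hodd
      obtain ⟨t, ht⟩ := exists_prime_orderOf_dvd_card' 2 hodd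
      have ht2 : orderOf (t : G) = 2 := by rw [Subgroup.orderOf_coe]; exact ht
      have htM : (t : G) ∈ M := t.2.1
      have htg : g⁻¹ * (t : G) * g ∈ M := mem_map_conj.1 t.2.2
      have ht1 : (t : G) ≠ 1 := by
        intro h; rw [h, orderOf_one] at ht2; omega
      have ht'1 : g⁻¹ * (t : G) * g ≠ 1 := by
        intro h
        apply ht1
        calc (t : G) = g * (g⁻¹ * (t : G) * g) * g⁻¹ := by group
          _ = 1 := by rw [h]; group
      have hord' : orderOf (g⁻¹ * (t : G) * g) = 2 := by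
        have := orderOf_conj' g⁻¹ (t : G)
        rw [inv_inv] at this
        rw [this, ht2]
      obtain ⟨P, hP⟩ := (isPGroup_zpowers_of_orderOf (p := 2) ⟨1, by rw [hord', pow_one]⟩).exists_le_sylow
      have ht'P : g⁻¹ * (t : G) * g ∈ (P : Subgroup G) := hP (Subgroup.mem_zpowers _)
      have key : ∀ R : Subgroup G, IsPGroup 2 ↥R → ∀ y ∈ R, y ∈ M → y ≠ 1 → R ≤ M := by
        intro R hR y hyR hyM hy1
        apply pgroup_le_of_normalizers_le hR
        · intro D hD hD1
          exact hns D (hR.to_le (hD.trans inf_le_left)) hD1 (hD.trans inf_le_right)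
        · intro h
          apply hy1
          have : y ∈ R ⊓ M := ⟨hyR, hyM⟩
          rw [h] at this
          exact Subgroup.mem_bot.1 this
      have hPM : (P : Subgroup G) ≤ M := key _ P.2 _ ht'P htg ht'1
      obtain ⟨P', hP'⟩ := exists_sylow_conj P g
      have htP' : (t : G) ∈ (P' : Subgroup G) := by
        rw [hP', mem_map_conj]; exact ht'P
      have hP'M : (P' : Subgroup G) ≤ M := key _ P'.2 _ htP' htM ht1
      obtain ⟨m, hm, hmP⟩ := sylow_conj_in_subgroup P P' hPM hP'M
      have hP1 : (P : Subgroup G) ≠ ⊥ := by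
        intro h
        rw [h] at ht'P
        exact ht'1 (Subgroup.mem_bot.1 ht'P)
      have hnorm : m⁻¹ * g ∈ Subgroup.normalizer ((P : Subgroup G) : Set G) := by
        apply mem_normalizer_of_map_conj_eq
        have h1 : (P : Subgroup G).map (MulAut.conj (m⁻¹ * g)).toMonoidHom =
            ((P : Subgroup G).map (MulAut.conj g).toMonoidHom).map (MulAut.conj m⁻¹).toMonoidHom := by
          rw [Subgroup.map_map]
          congr 1
          ext x
          simp [mul_assoc]
        rw [h1, ← hP', hmP, Subgroup.map_map]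
        have h2 : (MulAut.conj m⁻¹).toMonoidHom.comp (MulAut.conj m).toMonoidHom = MonoidHom.id G := by
          ext x
          simp [mul_assoc]
        rw [h2, Subgroup.map_id]
      have := hns _ P.2 hP1 hPM hnorm
      apply hg
      have h3 := M.mul_mem hm this
      simpa using h3

end Cfsg.Agent.S2947
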