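import Cfsg.Statements.S3084
-- import your own Cfsg.Agent.* helpers here
import Cfsg.Agent.Lib.Helper92.GRS.G0
import Cfsg.Agent.Lib.Helper92.GRS.COORD
import Cfsg.Agent.Lib.Helper92.GRS.ASMA
import Cfsg.Agent.Lib.Helper92.GRS.ASMB
import Cfsg.Agent.Lib.Helper92.GRS.ESQ

set_option autoImplicit false
open Cfsg

namespace Cfsg.Agent.S3084

open Cfsg.Agent.Lib.Helper92 Cfsg.Agent.Lib.Helper92.Mdl

/-- Let K be a group acting faithfully and linearly on a finite-dimensional vector space U of dimension 2n ≥ 2 over the field with two elements, preserving a quadratic form q whose polar bilinear form is non-degenerate and which vanishes on some n-dimensional subspace (a non-singular form of plus type). Then there is a finite group R with a normal extraspecial 2-subgroup Q of order 2^(2n+1), an isomorphism of R/Q with K, and a surjective homomorphism χ from Q onto (the additive group of) U with kernel the centre of Q, such that χ carries conjugation by any r in R to the action of the image of r in K, and an element a of Q squares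 to the identity exactly when q vanishes at χ(a). -/
theorem result {K : Type*} [Group K] {U : Type*} [AddCommGroup U] [Module (ZMod 2) U] [Module.Finite (ZMod 2) U] (n : ℕ) (hn1 : 1 ≤ n) (hn : Module.finrank (ZMod 2) U = 2 * n) (ρ : Representation (ZMod 2) K U) (hρ : Function.Injective ρ) (q : QuadraticForm (ZMod 2) U) (hq : ∀ (k : K) (u : U), q (ρ k u) = q u) (hnd : (QuadraticMap.polarBilin q).Nondegenerate) (hplus : ∃ W : Submodule (ZMod 2) U, Module.finrank (ZMod 2) ↥W = n ∧ ∀ w ∈ W, q w = 0) : ∃ (R : Type) (_ : Group R) (_ : Finite R) (Q : Subgroup R) (hN : Q.Normal) (e : R ⧸ Q ≃* K) (χ : ↥Q →* Multiplicative U), Cfsg.IsExtraspecial 2 ↥Q ∧ Nat.card ↥Q = 2 ^ (2 * n + 1) ∧ Function.Surjective χ ∧ χ.ker = Subgroup.center ↥Q ∧ (∀ (r : R) (a : ↥Q), χ ⟨r * a * r⁻¹, hN.conj_mem (a : R) a.2 r⟩ = Multiplicative.ofAdd (ρ (e (r : R ⧸ Q)) (Multiplicative.toAdd (χ a)))) ∧ ∀ a : ↥Q, a * a = 1 ↔ q (Multiplicative.toAdd (χ a)) = 0 := by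
  obtain ⟨B, c, hqf, hB⟩ := exists_coord (2 * n) hn q hnd
  have hq' : ∀ k u, qf B (c (ρ k u)) = qf B (c u) := by
    intro k u
    rw [hqf, hqf, hq]
  obtain ⟨S, κ, hκs, hκker, hInn, hκv⟩ := exists_kappa B hB c ρ hρ hq'
  obtain ⟨R₀, _, _, p, j, hp, hj, hpj, hconj, hker⟩ := exists_griess_core B hB
  obtain ⟨R, _, _, Q, hN, e, i, hi⟩ :=
    assembly_abstract p j hp hj hpj hconj hker S κ hκs hκker hInn
  -- the vector part as a homomorphism
  let vh : Mdl B →* Multiplicative U :=
    MonoidHom.mk' (fun x => Multiplicative.ofAdd (c.symm x.v)) (by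
      intro x y
      rw [mul_v, map_add, ofAdd_add])
  have hvh : ∀ x, vh x = Multiplicative.ofAdd (c.symm x.v) := fun _ => rfl
  have hχ : ∀ a : ↥Q, (vh.comp i.symm.toMonoidHom) a =
      Multiplicative.ofAdd (c.symm (i.symm a).v) := fun _ => rfl
  have hes : ES2 ↥Q (i (zc B)) := es2_map_equiv (es2 B hB) i
  have hcard : Nat.card ↥Q = 2 ^ (2 * n + 1) := by
    rw [← Nat.card_congr i.toEquiv, card_eq, Fintype.card_fin, pow_succ, mul_comm]
  refine ⟨R, inferInstance, inferInstance, Q, hN, e, vh.comp i.symm.toMonoidHom,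
    hes.isExtraspecial hcard (by omega), hcard, ?_, ?_, ?_, ?_⟩
  · intro u
    refine ⟨i ⟨c (Multiplicative.toAdd u), 0⟩, ?_⟩
    rw [hχ]
    simp
  · ext a
    rw [MonoidHom.mem_ker, hχ]
    have h1 : a ∈ Subgroup.center ↥Q ↔ i.symm a ∈ Subgroup.center (Mdl B) := by
      rw [Subgroup.mem_center_iff, Subgroup.mem_center_iff]
      constructor
      · intro h g
        have := h (i g)
        apply i.injective
        rw [map_mul, map_mul, MulEquiv.apply_symm_apply]
        exact this
      · intro h g
        have := h (i.symm g)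
        apply i.symm.injective
        rw [map_mul, map_mul]
        exact this
    rw [h1, mem_center_iff_v B hB]
    constructor
    · intro h
      have h2 : c.symm (i.symm a).v = 0 := by
        have := congrArg Multiplicative.toAdd h
        simpa using this
      simpa using h2
    · intro h
      rw [h]; simp
  · intro r a
    obtain ⟨s, hs1, hs2⟩ := hi r (i.symm a)
    rw [MulEquiv.apply_symm_apply] at hs2
    have h3 : (⟨r * a * r⁻¹, hN.conj_mem (a : R) a.2 r⟩ : ↥Q) = i ((s : MulAut (Mdl B)) (i.symm a)) :=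
      Subtype.ext hs2
    rw [h3, hχ, hχ, MulEquiv.symm_apply_apply, hκv, hs1]
    simp
  · intro a
    rw [hχ]
    have h1 : a * a = 1 ↔ (i.symm a) ^ 2 = 1 := by
      rw [pow_two, ← map_mul]
      constructor
      · intro h; rw [h, map_one]
      · intro h
        apply i.symm.injective
        rw [h, map_one]
    rw [h1, sq_eq, toAdd_ofAdd, ← hqf, LinearEquiv.apply_symm_apply]
    constructor
    · intro h
      exact congrArg Mdl.a h
    · intro h
      rw [h]; rfl

end Cfsg.Agent.S3084
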