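import Cfsg.Statements.S3356
import Cfsg.Agent.Lib.Helper60.HalfTrans

set_option autoImplicit false
open Cfsg

namespace Cfsg.Agent.S3356

abbrev St {G Ω : Type*} [Group G] [MulAction G Ω] (a : Ω) (n : G) :
    Subgroup (MulAction.stabilizer G a) :=
  MulAction.stabilizer (MulAction.stabilizer G a) (n • a)

/-- Let G be a finite 3/2-transitive permutation group: G acts faithfully and transitively on a finite set, the point stabilizers are non-trivial, and for each point a all orbits of G_a on the remaining points have the same size. Suppose G has a regular normal subgroup N and G is not a Frobenius group (some two-point stabilizer is non-trivial). Then N is an elementary abelian p-group for some prime p, and every non-trivial normal subgroup of G contains N (so N is the unique minimal normal subgroup). -/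
theorem result {G Ω : Type*} [Group G] [Finite G]
    [MulAction G Ω] [FaithfulSMul G Ω] [Finite Ω] (htrans : MulAction.IsPretransitive G Ω)
    (hne : ∀ a : Ω, MulAction.stabilizer G a ≠ ⊥)
    (hhalf : ∀ a b c : Ω, b ≠ a → c ≠ a →
      Nat.card (MulAction.orbit (MulAction.stabilizer G a) b) = Nat.card (MulAction.orbit (MulAction.stabilizer G a) c))
    (N : Subgroup G) [hN : N.Normal] (hNt : MulAction.IsPretransitive N Ω) (hNr : ∀ a : Ω, MulAction.stabilizer N a = ⊥)
    (hnotF : ∃ a b : Ω, a ≠ b ∧ MulAction.stabilizer G a ⊓ MulAction.stabilizer G b ≠ ⊥) :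
    (∃ p : ℕ, p.Prime ∧ IsMulCommutative N ∧ ∀ x ∈ N, x ^ p = 1) ∧
    (∀ M : Subgroup G, M.Normal → M ≠ ⊥ → N ≤ M) := by
  classical
  obtain ⟨a, b₀, hab, hnF⟩ := hnotF
  have hfix : ∀ g : MulAction.stabilizer G a, g • a = a := fun g => g.2
  have hfixinv : ∀ g : MulAction.stabilizer G a, (g : G)⁻¹ • a = a := fun g => (g⁻¹).2
  have hreg : ∀ n₁ ∈ N, ∀ n₂ ∈ N, n₁ • a = n₂ • a → n₁ = n₂ := by
    intro n₁ h₁ n₂ h₂ h
    have hm : (⟨n₂⁻¹ * n₁, N.mul_mem (N.inv_mem h₂) h₁⟩ : N) ∈ MulAction.stabilizer N a := by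
      rw [MulAction.mem_stabilizer_iff]
      show (n₂⁻¹ * n₁) • a = a
      rw [mul_smul, h, inv_smul_smul]
    rw [hNr a, Subgroup.mem_bot] at hm
    have := congrArg Subtype.val hm
    simp only [Subgroup.coe_one] at this
    exact (inv_mul_eq_one.mp this).symm
  have htr : ∀ b : Ω, ∃ n ∈ N, n • a = b := by
    intro b
    obtain ⟨n, hn⟩ := hNt.exists_smul_eq a b
    exact ⟨n, n.2, hn⟩
  have hact : ∀ (g : MulAction.stabilizer G a) (n : G),
      g • (n • a) = ((g : G) * n * (g : G)⁻¹) • a := by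
    intro g n
    show (g : G) • (n • a) = _
    rw [mul_smul, mul_smul, hfixinv g]
  have hstab : ∀ (g : MulAction.stabilizer G a) (n : G), n ∈ N →
      (g ∈ MulAction.stabilizer (MulAction.stabilizer G a) (n • a) ↔
        (g : G) * n * (g : G)⁻¹ = n) := by
    intro g n hn
    rw [MulAction.mem_stabilizer_iff, hact]
    constructor
    · intro h
      exact hreg _ (hN.conj_mem n hn g) _ hn h
    · intro h
      rw [h]
  have hne1 : ∀ n ∈ N, n ≠ 1 → n • a ≠ a := by
    intro n hn h1 h
    apply h1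
    apply hreg n hn 1 N.one_mem
    rw [h, one_smul]
  have hcardΩ : Nat.card N = Nat.card Ω := by
    have := MulAction.index_stabilizer_of_transitive N a
    rw [hNr a, Subgroup.index_bot] at this
    exact this
  -- the constant k
  have hk : ∀ b : Ω, b ≠ a → Nat.card (MulAction.stabilizer (MulAction.stabilizer G a) b)
      = Nat.card (MulAction.stabilizer (MulAction.stabilizer G a) b₀) := by
    intro b hb
    have h1 := hhalf a b b₀ hb hab.symm
    have h2 := Subgroup.card_mul_index (MulAction.stabilizer (MulAction.stabilizer G a) b)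
    have h3 := Subgroup.card_mul_index (MulAction.stabilizer (MulAction.stabilizer G a) b₀)
    rw [MulAction.index_stabilizer, ← Nat.card_coe_set_eq] at h2 h3
    rw [h1] at h2
    have hpos : 0 < Nat.card (MulAction.orbit (MulAction.stabilizer G a) b₀) :=
      Nat.card_pos_iff.mpr ⟨⟨⟨b₀, MulAction.mem_orbit_self b₀⟩⟩, inferInstance⟩
    exact Nat.eq_of_mul_eq_mul_right hpos (h2.trans h3.symm)
  set k := Nat.card (MulAction.stabilizer (MulAction.stabilizer G a) b₀) with hkdef
  have hk1 : 1 < k := by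
    rw [hkdef, Finite.one_lt_card_iff_nontrivial]
    obtain ⟨g, hg, hg1⟩ : ∃ g : G, g ∈ MulAction.stabilizer G a ⊓ MulAction.stabilizer G b₀ ∧ g ≠ 1 := by
      obtain ⟨g, hg⟩ := (Subgroup.ne_bot_iff_exists_ne_one).mp hnF
      exact ⟨(g : G), g.2, fun h => hg (Subtype.ext h)⟩
    refine ⟨⟨1, ⟨⟨g, hg.1⟩, ?_⟩, ?_⟩⟩
    · rw [MulAction.mem_stabilizer_iff]
      exact hg.2
    · intro h
      apply hg1
      have := congrArg (fun x : MulAction.stabilizer (MulAction.stabilizer G a) b₀ =>
        ((x : MulAction.stabilizer G a) : G)) h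
      exact this.symm
  have hexg : ∀ b : Ω, b ≠ a → ∃ g ∈ MulAction.stabilizer (MulAction.stabilizer G a) b, g ≠ 1 := by
    intro b hb
    have h1 : 1 < Nat.card (MulAction.stabilizer (MulAction.stabilizer G a) b) := by
      rw [hk b hb]; exact hk1
    rw [Finite.one_lt_card_iff_nontrivial] at h1
    obtain ⟨g, hg⟩ := exists_ne (1 : MulAction.stabilizer (MulAction.stabilizer G a) b)
    exact ⟨g, g.2, fun h => hg (Subtype.ext h)⟩
  have hfaith : ∀ g : MulAction.stabilizer G a, (∀ c : Ω, g • c = c) → g = 1 := by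
    intro g hg
    apply Subtype.ext
    apply FaithfulSMul.eq_of_smul_eq_smul (α := Ω)
    intro c
    rw [Subgroup.coe_one, one_smul]
    exact hg c
  have hstab_eq : ∀ b c : Ω, b ≠ a → c ≠ a →
      MulAction.stabilizer (MulAction.stabilizer G a) b ≤
        MulAction.stabilizer (MulAction.stabilizer G a) c →
      MulAction.stabilizer (MulAction.stabilizer G a) b =
        MulAction.stabilizer (MulAction.stabilizer G a) c := by
    intro b c hb hc hle
    exact Subgroup.eq_of_le_of_card_ge hle (by rw [hk b hb, hk c hc])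
  -- (c') no proper nontrivial invariant subgroup
  have hmin : ∀ K : Subgroup G, K ≤ N →
      (∀ g : MulAction.stabilizer G a, ∀ u ∈ K, (g : G) * u * (g : G)⁻¹ ∈ K) → K = ⊥ ∨ K = N := by
    intro K hKN hKinv
    by_contra hcon
    push Not at hcon
    obtain ⟨hKbot, hKN'⟩ := hcon
    obtain ⟨u₀, hu₀K, hu₀1⟩ : ∃ u ∈ K, u ≠ 1 := by
      obtain ⟨g, hg⟩ := (Subgroup.ne_bot_iff_exists_ne_one).mp hKbot
      exact ⟨(g : G), g.2, fun h => hg (Subtype.ext h)⟩
    obtain ⟨x₀, hx₀N, hx₀K⟩ : ∃ x ∈ N, x ∉ K := by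
      by_contra h
      push Not at h
      exact hKN' (le_antisymm hKN h)
    have claim : ∀ x ∈ N, x ∉ K → ∀ u ∈ K, u ≠ 1 → St a x = St a u := by
      intro x hxN hxK u huK hu1
      have hx1 : x ≠ 1 := fun h => hxK (h ▸ K.one_mem)
      have hinj : Set.InjOn (fun u : G => (x * u) • a) (K : Set G) := by
        intro u₁ h₁ u₂ h₂ h
        have := hreg _ (N.mul_mem hxN (hKN h₁)) _ (N.mul_mem hxN (hKN h₂)) h
        exact mul_left_cancel this
      have hΔ := Cfsg.Agent.Lib.Helper60.stabilizer_eq_of_half_transitive a hfix k hk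
        ((fun u : G => (x * u) • a) '' (K : Set G))
        (by
          rintro ⟨u', hu', h⟩
          have h1 : x * u' = 1 := hreg _ (N.mul_mem hxN (hKN hu')) 1 N.one_mem (by
            rw [one_smul]; exact h)
          apply hxK
          rw [eq_inv_of_mul_eq_one_left h1]
          exact K.inv_mem hu')
        (by
          rw [Nat.card_coe_set_eq, hinj.ncard_image, ← hcardΩ,
            ← Nat.card_coe_set_eq]
          exact Subgroup.card_dvd_of_le hKN)
        (by
          rintro _ ⟨u₁, hu₁, rfl⟩ g hg _ ⟨u₂, hu₂, rfl⟩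
          have h1 := (hstab g (x * u₁) (N.mul_mem hxN (hKN hu₁))).mp hg
          simp only
          rw [hact]
          refine ⟨u₁ * ((g : G) * (u₁⁻¹ * u₂) * (g : G)⁻¹),
            K.mul_mem hu₁ (hKinv g _ (K.mul_mem (K.inv_mem hu₁) hu₂)), ?_⟩
          simp only
          congr 1
          calc x * (u₁ * ((g : G) * (u₁⁻¹ * u₂) * (g : G)⁻¹))
              = (x * u₁) * ((g : G) * (u₁⁻¹ * u₂) * (g : G)⁻¹) := by group
            _ = ((g : G) * (x * u₁) * (g : G)⁻¹) * ((g : G) * (u₁⁻¹ * u₂) * (g : G)⁻¹) := by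
                rw [h1]
            _ = (g : G) * (x * u₂) * (g : G)⁻¹ := by group)
      have h1 : St a (x * 1) = St a (x * u) :=
        hΔ _ ⟨1, K.one_mem, rfl⟩ _ ⟨u, huK, rfl⟩
      rw [mul_one] at h1
      apply hstab_eq _ _ (hne1 x hxN hx1) (hne1 u (hKN huK) hu1)
      intro g hg
      have h2 := (hstab g x hxN).mp hg
      have hg' : g ∈ St a (x * u) := by rw [← h1]; exact hg
      have h3 := (hstab g (x * u) (N.mul_mem hxN (hKN huK))).mp hg'
      rw [hstab g u (hKN huK)]
      have h4 : (g : G) * (x * u) * (g : G)⁻¹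
          = ((g : G) * x * (g : G)⁻¹) * ((g : G) * u * (g : G)⁻¹) := by group
      rw [h4, h2] at h3
      exact mul_left_cancel h3
    obtain ⟨g, hg, hg1⟩ := hexg (u₀ • a) (hne1 u₀ (hKN hu₀K) hu₀1)
    apply hg1
    apply hfaith
    intro c
    obtain ⟨n, hn, rfl⟩ := htr c
    by_cases hnK : n ∈ K
    · by_cases hn1 : n = 1
      · rw [hn1, one_smul]; exact hfix g
      · have h1 : St a x₀ = St a n := claim x₀ hx₀N hx₀K n hnK hn1
        have h2 : St a x₀ = St a u₀ := claim x₀ hx₀N hx₀K u₀ hu₀K hu₀1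
        have : g ∈ St a n := by rw [← h1, h2]; exact hg
        exact this
    · have h1 : St a n = St a u₀ := claim n hn hnK u₀ hu₀K hu₀1
      have : g ∈ St a n := by rw [h1]; exact hg
      exact this
  -- (b') stabilizers are constant on N-classes
  have hclass : ∀ y ∈ N, y ≠ 1 → ∀ u ∈ N, St a y = St a (u * y * u⁻¹) := by
    intro y hy hy1 u hu
    have hinj : Function.Injective (fun n : N => (n : G) • a) := by
      intro n₁ n₂ h
      exact Subtype.ext (hreg _ n₁.2 _ n₂.2 h)
    have hmemΔ : ∀ b : Ω, b ∈ (fun n : N => (n : G) • a) ''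
        (MulAction.orbit (ConjAct N) (⟨y, hy⟩ : N)) ↔ ∃ w ∈ N, b = (w * y * w⁻¹) • a := by
      intro b
      constructor
      · rintro ⟨_, ⟨w, rfl⟩, rfl⟩
        refine ⟨(ConjAct.ofConjAct w : N), (ConjAct.ofConjAct w : N).2, ?_⟩
        simp only [ConjAct.smul_def]
        rfl
      · rintro ⟨w, hw, rfl⟩
        refine ⟨⟨w * y * w⁻¹, hN.conj_mem y hy w⟩, ⟨ConjAct.toConjAct (⟨w, hw⟩ : N), ?_⟩, rfl⟩
        simp only [ConjAct.smul_def]
        rfl
    have hΔ := Cfsg.Agent.Lib.Helper60.stabilizer_eq_of_half_transitive a hfix k hk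
      ((fun n : N => (n : G) • a) '' (MulAction.orbit (ConjAct N) (⟨y, hy⟩ : N)))
      (by
        rw [hmemΔ]
        rintro ⟨w, hw, h⟩
        have h1 : w * y * w⁻¹ = 1 := hreg _ (hN.conj_mem y hy w) 1 N.one_mem (by
          rw [one_smul]; exact h.symm)
        apply hy1
        have : y = w⁻¹ * (w * y * w⁻¹) * w := by group
        rw [this, h1]; group)
      (by
        rw [Nat.card_coe_set_eq, Set.ncard_image_of_injective _ hinj, ← MulAction.index_stabilizer,
          ← hcardΩ]
        have := Subgroup.index_dvd_card (MulAction.stabilizer (ConjAct N) (⟨y, hy⟩ : N))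
        rwa [Nat.card_congr (ConjAct.toConjAct (G := N)).symm.toEquiv] at this)
      (by
        intro b hb g hg b' hb'
        rw [hmemΔ] at hb hb' ⊢
        obtain ⟨w, hw, rfl⟩ := hb
        obtain ⟨w', hw', rfl⟩ := hb'
        have h1 := (hstab g _ (hN.conj_mem y hy w)).mp hg
        rw [hact]
        refine ⟨((g : G) * (w' * w⁻¹) * (g : G)⁻¹) * w,
          N.mul_mem (hN.conj_mem _ (N.mul_mem hw' (N.inv_mem hw)) g) hw, ?_⟩
        congr 1
        calc (g : G) * (w' * y * w'⁻¹) * (g : G)⁻¹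
            = ((g : G) * (w' * w⁻¹) * (g : G)⁻¹) * ((g : G) * (w * y * w⁻¹) * (g : G)⁻¹)
              * ((g : G) * (w' * w⁻¹) * (g : G)⁻¹)⁻¹ := by group
          _ = ((g : G) * (w' * w⁻¹) * (g : G)⁻¹) * (w * y * w⁻¹)
              * ((g : G) * (w' * w⁻¹) * (g : G)⁻¹)⁻¹ := by rw [h1]
          _ = (g : G) * (w' * w⁻¹) * (g : G)⁻¹ * w * y
              * ((g : G) * (w' * w⁻¹) * (g : G)⁻¹ * w)⁻¹ := by group)
    have h1 := hΔ ((1 * y * 1⁻¹) • a) ((hmemΔ _).mpr ⟨1, N.one_mem, rfl⟩)
      ((u * y * u⁻¹) • a) ((hmemΔ _).mpr ⟨u, hu, rfl⟩)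
    simpa using h1
  have hP : ∀ x ∈ N, ∀ y ∈ N, x ≠ 1 → y ≠ 1 → St a x ≠ St a y → x * y = y * x := by
    intro x hx y hy hx1 hy1 hne
    by_contra hc
    have hcN : x * y * x⁻¹ * y⁻¹ ∈ N := N.mul_mem (hN.conj_mem y hy x) (N.inv_mem hy)
    have hc1 : x * y * x⁻¹ * y⁻¹ ≠ 1 := by
      intro h
      apply hc
      calc x * y = (x * y * x⁻¹ * y⁻¹) * (y * x) := by group
        _ = y * x := by rw [h, one_mul]
    have h1 : St a y = St a (x * y * x⁻¹ * y⁻¹) := by
      apply hstab_eq _ _ (hne1 y hy hy1) (hne1 _ hcN hc1)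
      intro g hg
      have e1 := (hstab g y hy).mp hg
      have hg' : g ∈ St a (x * y * x⁻¹) := by rw [← hclass y hy hy1 x hx]; exact hg
      have e2 := (hstab g _ (hN.conj_mem y hy x)).mp hg'
      rw [hstab g _ hcN]
      calc (g : G) * (x * y * x⁻¹ * y⁻¹) * (g : G)⁻¹
          = ((g : G) * (x * y * x⁻¹) * (g : G)⁻¹) * ((g : G) * y * (g : G)⁻¹)⁻¹ := by group
        _ = x * y * x⁻¹ * y⁻¹ := by rw [e1, e2]
    have h2 : St a x = St a (x * y * x⁻¹ * y⁻¹) := by
      apply hstab_eq _ _ (hne1 x hx hx1) (hne1 _ hcN hc1)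
      intro g hg
      have e1 := (hstab g x hx).mp hg
      have hg' : g ∈ St a (y * x * y⁻¹) := by rw [← hclass x hx hx1 y hy]; exact hg
      have e2 := (hstab g _ (hN.conj_mem x hx y)).mp hg'
      rw [hstab g _ hcN]
      calc (g : G) * (x * y * x⁻¹ * y⁻¹) * (g : G)⁻¹
          = ((g : G) * x * (g : G)⁻¹) * ((g : G) * (y * x * y⁻¹) * (g : G)⁻¹)⁻¹ := by group
        _ = x * (y * x * y⁻¹)⁻¹ := by rw [e1, e2]
        _ = x * y * x⁻¹ * y⁻¹ := by group
    exact hne (h2.trans h1.symm)
  have hcomm : ∀ x ∈ N, ∀ y ∈ N, x * y = y * x := by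
    intro x hx y hy
    by_cases hx1 : x = 1
    · rw [hx1, one_mul, mul_one]
    by_cases hy1 : y = 1
    · rw [hy1, one_mul, mul_one]
    by_cases hxy : St a x = St a y
    · obtain ⟨g, hg, hg1⟩ := hexg (x • a) (hne1 x hx hx1)
      have hgx := (hstab g x hx).mp hg
      have hgy : g ∈ St a y := by rw [← hxy]; exact hg
      obtain ⟨c, hc⟩ : ∃ c : Ω, g • c ≠ c := by
        by_contra h
        push Not at h
        exact hg1 (hfaith g h)
      obtain ⟨w, hw, rfl⟩ := htr c
      have hgw : g ∉ St a w := hc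
      have hw1 : w ≠ 1 := by
        intro h
        apply hc
        rw [h, one_smul]; exact hfix g
      have hwx : w * x = x * w := hP w hw x hx hw1 hx1 (fun h => hgw (by rw [h]; exact hg))
      have hwy : w * y = y * w := hP w hw y hy hw1 hy1 (fun h => hgw (by rw [h]; exact hgy))
      have hwxN : w * x ∈ N := N.mul_mem hw hx
      have hgwx : g ∉ St a (w * x) := by
        intro h
        apply hgw
        have e1 := (hstab g _ hwxN).mp h
        rw [hstab g w hw]
        have e2 : (g : G) * (w * x) * (g : G)⁻¹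
            = ((g : G) * w * (g : G)⁻¹) * ((g : G) * x * (g : G)⁻¹) := by group
        rw [e2, hgx] at e1
        exact mul_right_cancel e1
      have hwx1 : w * x ≠ 1 := by
        intro h
        apply hgwx
        rw [hstab g _ hwxN, h]; group
      have h3 : (w * x) * y = y * (w * x) :=
        hP _ hwxN y hy hwx1 hy1 (fun h => hgwx (by rw [h]; exact hgy))
      have h4 : w * (x * y) = w * (y * x) := by
        calc w * (x * y) = (w * x) * y := by group
          _ = y * (w * x) := h3
          _ = (y * w) * x := by group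
          _ = (w * y) * x := by rw [hwy]
          _ = w * (y * x) := by group
      exact mul_left_cancel h4
    · exact hP x hx y hy hx1 hy1 hxy
  have hNcomm : IsMulCommutative N := ⟨⟨fun x y => Subtype.ext (hcomm x x.2 y y.2)⟩⟩
  refine ⟨?_, ?_⟩
  · -- exponent p
    have hN1 : Nat.card N ≠ 1 := by
      intro h
      obtain ⟨n, hn, hnb⟩ := htr b₀
      have hsub : Subsingleton N := (Nat.card_eq_one_iff_unique.mp h).1
      have : (⟨n, hn⟩ : N) = 1 := Subsingleton.elim _ _
      have hn1 : n = 1 := congrArg Subtype.val this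
      rw [hn1, one_smul] at hnb
      exact hab hnb
    have hp : (Nat.card N).minFac.Prime := Nat.minFac_prime hN1
    refine ⟨(Nat.card N).minFac, hp, hNcomm, ?_⟩
    haveI : Fact (Nat.card N).minFac.Prime := ⟨hp⟩
    obtain ⟨x₀, hx₀⟩ := exists_prime_orderOf_dvd_card' (G := N) (Nat.card N).minFac
      (Nat.minFac_dvd _)
    let K : Subgroup G :=
      { carrier := {x | x ∈ N ∧ x ^ (Nat.card N).minFac = 1}
        mul_mem' := by
          rintro x y ⟨hx, hx'⟩ ⟨hy, hy'⟩
          refine ⟨N.mul_mem hx hy, ?_⟩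
          have : Commute x y := hcomm x hx y hy
          rw [this.mul_pow, hx', hy', one_mul]
        one_mem' := ⟨N.one_mem, one_pow _⟩
        inv_mem' := by
          rintro x ⟨hx, hx'⟩
          exact ⟨N.inv_mem hx, by rw [inv_pow, hx', inv_one]⟩ }
    have hKN : K ≤ N := fun x hx => hx.1
    have hKinv : ∀ g : MulAction.stabilizer G a, ∀ u ∈ K, (g : G) * u * (g : G)⁻¹ ∈ K := by
      rintro g u ⟨hu, hu'⟩
      exact ⟨hN.conj_mem u hu g, by rw [conj_pow, hu']; group⟩
    rcases hmin K hKN hKinv with h | h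
    · exfalso
      have hxK : (x₀ : G) ∈ K := by
        refine ⟨x₀.2, ?_⟩
        have := pow_orderOf_eq_one x₀
        rw [hx₀] at this
        exact congrArg Subtype.val this
      rw [h, Subgroup.mem_bot] at hxK
      have : x₀ = 1 := Subtype.ext hxK
      rw [this, orderOf_one] at hx₀
      exact hp.one_lt.ne hx₀
    · intro x hx
      have : x ∈ K := h ▸ hx
      exact this.2
  · intro M hM hMbot
    have hinv : ∀ g : MulAction.stabilizer G a, ∀ u ∈ M ⊓ N, (g : G) * u * (g : G)⁻¹ ∈ M ⊓ N :=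
      fun g u hu => ⟨hM.conj_mem u hu.1 g, hN.conj_mem u hu.2 g⟩
    rcases hmin (M ⊓ N) inf_le_right hinv with h | h
    · exfalso
      obtain ⟨g, hgM, hg1⟩ : ∃ g ∈ M, g ≠ 1 := by
        obtain ⟨g, hg⟩ := (Subgroup.ne_bot_iff_exists_ne_one).mp hMbot
        exact ⟨(g : G), g.2, fun h => hg (Subtype.ext h)⟩
      have hcent : ∀ n ∈ N, g * n = n * g := by
        intro n hn
        have h1 : g * n * g⁻¹ * n⁻¹ ∈ M ⊓ N := by
          refine ⟨?_, N.mul_mem (hN.conj_mem n hn g) (N.inv_mem hn)⟩
          have : g * n * g⁻¹ * n⁻¹ = g * (n * g⁻¹ * n⁻¹) := by group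
          rw [this]
          exact M.mul_mem hgM (hM.conj_mem _ (M.inv_mem hgM) n)
        rw [h, Subgroup.mem_bot] at h1
        calc g * n = (g * n * g⁻¹ * n⁻¹) * (n * g) := by group
          _ = n * g := by rw [h1, one_mul]
      obtain ⟨n, hn, hna⟩ := htr (g • a)
      have hα : n⁻¹ * g ∈ MulAction.stabilizer G a := by
        rw [MulAction.mem_stabilizer_iff, mul_smul, ← hna, inv_smul_smul]
      have hα1 : (⟨n⁻¹ * g, hα⟩ : MulAction.stabilizer G a) = 1 := by
        apply hfaith
        intro c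
        obtain ⟨w, hw, rfl⟩ := htr c
        show (n⁻¹ * g) • (w • a) = w • a
        have e1 : (n⁻¹ * g) * w = w * (n⁻¹ * g) := by
          calc (n⁻¹ * g) * w = n⁻¹ * (g * w) := by group
            _ = n⁻¹ * (w * g) := by rw [hcent w hw]
            _ = (n⁻¹ * w) * g := by group
            _ = (w * n⁻¹) * g := by rw [hcomm _ (N.inv_mem hn) w hw]
            _ = w * (n⁻¹ * g) := by group
        rw [← mul_smul, e1, mul_smul]
        congr 1
      have hgn : g = n := by
        have := congrArg Subtype.val hα1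
        simp only [Subgroup.coe_one] at this
        exact (inv_mul_eq_one.mp this).symm
      have : g ∈ M ⊓ N := ⟨hgM, hgn ▸ hn⟩
      rw [h, Subgroup.mem_bot] at this
      exact hg1 this
    · rw [← h]; exact inf_le_left

end Cfsg.Agent.S3356
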