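import Cfsg.Statements.S3362
-- import your own Cfsg.Agent.* helpers here

set_option autoImplicit false
set_option linter.unusedSectionVars false
open Cfsg

namespace Cfsg.Agent.S3362


section
variable {Ω : Type*} [Fintype Ω] [DecidableEq Ω]

theorem level (S : List (Equiv.Perm Ω)) (H : Subgroup (Equiv.Perm Ω)) (b : Ω) (O : Finset Ω)
    (W : Ω → List (Equiv.Perm Ω))
    (hHS : H ≤ Subgroup.closure {x | x ∈ S})
    (hW : ∀ p ∈ O, ∀ g ∈ W p, g ∈ S) (hbO : b ∈ O) (hW1 : W b = [])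
    (hstep : ∀ g ∈ S, ∀ p ∈ O, g p ∈ O ∧ ((W (g p)).prod)⁻¹ * g * (W p).prod ∈ H) (g : Equiv.Perm Ω) :
    g ∈ Subgroup.closure {x | x ∈ S} ↔ (g b ∈ O ∧ ((W (g b)).prod)⁻¹ * g ∈ H) := by
  have hU : ∀ p ∈ O, (W p).prod ∈ Subgroup.closure {x | x ∈ S} := by
    intro p hp
    apply Subgroup.list_prod_mem
    intro x hx
    exact Subgroup.subset_closure (hW p hp x hx)
  constructor
  · intro hg
    have key : ∀ x : Equiv.Perm Ω, (x b ∈ O ∧ ((W (x b)).prod)⁻¹ * x ∈ H) →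
        ((g * x) b ∈ O ∧ ((W ((g * x) b)).prod)⁻¹ * (g * x) ∈ H) := by
      induction hg using Subgroup.closure_induction with
      | mem a ha =>
        intro x hx
        obtain ⟨h1, h2⟩ := hstep a ha (x b) hx.1
        refine ⟨h1, ?_⟩
        have : ((W ((a * x) b)).prod)⁻¹ * (a * x)
            = (((W (a (x b))).prod)⁻¹ * a * (W (x b)).prod) * (((W (x b)).prod)⁻¹ * x) := by
          rw [Equiv.Perm.mul_apply]; group
        rw [this]
        exact H.mul_mem h2 hx.2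
      | one => intro x hx; simpa using hx
      | mul a c _ _ iha ihc =>
        intro x hx
        rw [mul_assoc]
        exact iha _ (ihc x hx)
      | inv a _ iha =>
        intro x hx
        have hpow : ∀ n : ℕ, ((a ^ n * x) b ∈ O ∧ ((W ((a ^ n * x) b)).prod)⁻¹ * (a ^ n * x) ∈ H) := by
          intro n
          induction n with
          | zero => simpa using hx
          | succ n ih => rw [pow_succ', mul_assoc]; exact iha _ ih
        have hinv : a⁻¹ = a ^ (orderOf a - 1) := by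
          apply inv_eq_of_mul_eq_one_right
          rw [← pow_succ']
          have : orderOf a - 1 + 1 = orderOf a := Nat.sub_add_cancel (orderOf_pos a)
          rw [this, pow_orderOf_eq_one]
        rw [hinv]
        exact hpow _
    have := key 1 (by simp [hbO, hW1, H.one_mem])
    simpa using this
  · rintro ⟨h1, h2⟩
    have : g = (W (g b)).prod * (((W (g b)).prod)⁻¹ * g) := by group
    rw [this]
    exact Subgroup.mul_mem _ (hU _ h1) (hHS h2)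

theorem level_card (S : List (Equiv.Perm Ω)) (H : Subgroup (Equiv.Perm Ω)) (b : Ω) (O : Finset Ω)
    (W : Ω → List (Equiv.Perm Ω)) (hHb : ∀ h ∈ H, h b = b) (hWb : ∀ p ∈ O, (W p).prod b = p)
    (hiff : ∀ g : Equiv.Perm Ω, g ∈ Subgroup.closure {x | x ∈ S} ↔
      (g b ∈ O ∧ ((W (g b)).prod)⁻¹ * g ∈ H)) :
    Nat.card (Subgroup.closure {x | x ∈ S}) = O.card * Nat.card H := by
  have hb' : ∀ (p : O) (h : H), ((W p.1).prod * h.1) b = p.1 := by
    intro p h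
    rw [Equiv.Perm.mul_apply, hHb h.1 h.2, hWb p.1 p.2]
  let e : (Subgroup.closure {x | x ∈ S}) ≃ O × H :=
    { toFun := fun g => (⟨g.1 b, ((hiff g.1).1 g.2).1⟩, ⟨_, ((hiff g.1).1 g.2).2⟩)
      invFun := fun ph => ⟨(W ph.1.1).prod * ph.2.1, (hiff _).2 (by
        rw [hb' ph.1 ph.2]
        refine ⟨ph.1.2, ?_⟩
        have : ((W ph.1.1).prod)⁻¹ * ((W ph.1.1).prod * ph.2.1) = ph.2.1 := by group
        rw [this]; exact ph.2.2)⟩
      left_inv := by
        intro g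
        apply Subtype.ext
        show (W (g.1 b)).prod * (((W (g.1 b)).prod)⁻¹ * g.1) = g.1
        group
      right_inv := by
        rintro ⟨p, h⟩
        apply Prod.ext
        · apply Subtype.ext
          exact hb' p h
        · apply Subtype.ext
          show ((W (((W p.1).prod * h.1) b)).prod)⁻¹ * ((W p.1).prod * h.1) = h.1
          rw [hb' p h]; group }
  rw [Nat.card_congr e, Nat.card_prod, Nat.card_eq_fintype_card, Fintype.card_coe]

end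

theorem all_of {α : Type*} (l : List α) (Q : α → Prop) [DecidablePred Q]
    (h : l.all (fun a => decide (Q a)) = true) : ∀ a ∈ l, Q a := by
  intro a ha
  exact of_decide_eq_true (List.all_eq_true.1 h a ha)

abbrev P12 := Equiv.Perm (Fin 12)

def gs : P12 := ⟨![0, 1, 2, 4, 5, 3, 7, 8, 6, 10, 11, 9], ![0, 1, 2, 5, 3, 4, 8, 6, 7, 11, 9, 10], by decide, by decide⟩
def gt : P12 := ⟨![0, 1, 2, 6, 7, 8, 9, 10, 11, 3, 4, 5], ![0, 1, 2, 9, 10, 11, 3, 4, 5, 6, 7, 8], by decide, by decide⟩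
def gu : P12 := ⟨![0, 1, 2, 3, 6, 9, 5, 8, 11, 4, 7, 10], ![0, 1, 2, 3, 9, 6, 4, 10, 7, 5, 11, 8], by decide, by decide⟩
def gv : P12 := ⟨![0, 1, 2, 3, 7, 11, 10, 5, 6, 8, 9, 4], ![0, 1, 2, 3, 11, 7, 8, 4, 9, 10, 6, 5], by decide, by decide⟩
def gw : P12 := ⟨![0, 1, 2, 3, 10, 8, 11, 6, 4, 7, 5, 9], ![0, 1, 2, 3, 8, 10, 7, 9, 5, 11, 4, 6], by decide, by decide⟩
def g1 : P12 := ⟨![3, 1, 2, 0, 4, 5, 7, 6, 10, 11, 8, 9], ![3, 1, 2, 0, 4, 5, 7, 6, 10, 11, 8, 9], by decide, by decide⟩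
def g2 : P12 := ⟨![1, 0, 2, 3, 4, 5, 9, 10, 11, 6, 7, 8], ![1, 0, 2, 3, 4, 5, 9, 10, 11, 6, 7, 8], by decide, by decide⟩
def g3 : P12 := ⟨![0, 2, 1, 3, 4, 5, 11, 9, 10, 7, 8, 6], ![0, 2, 1, 3, 4, 5, 11, 9, 10, 7, 8, 6], by decide, by decide⟩

def S1 : List P12 := [gu, gv, gw]
def O1 : Finset (Fin 12) := {4, 5, 6, 7, 8, 9, 10, 11}
def W1 : Fin 12 → List P12 := ![[], [], [], [], [], [gu, gu], [gu], [gv], [gu, gv], [gv, gw], [gw], [gw, gu]]
def G1 : Subgroup P12 := Subgroup.closure {x | x ∈ S1}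
def S2 : List P12 := [gs, gt, gu, gv, gw]
def O2 : Finset (Fin 12) := {3, 4, 5, 6, 7, 8, 9, 10, 11}
def W2 : Fin 12 → List P12 := ![[], [], [], [], [gs], [gs, gs], [gt], [gt, gs], [gt, gs, gs], [gt, gt], [gw, gs], [gw, gt]]
def G2 : Subgroup P12 := Subgroup.closure {x | x ∈ S2}
def S3 : List P12 := [gs, gt, gu, gv, gw, g1]
def O3 : Finset (Fin 12) := {0, 3, 4, 5, 6, 7, 8, 9, 10, 11}
def W3 : Fin 12 → List P12 := ![[], [], [], [g1], [gs, g1], [gs, gs, g1], [gt, g1], [gt, gs, g1], [gt, gs, gs, g1], [gt, gt, g1], [gw, gs, g1], [gw, gt, g1]]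
def G3 : Subgroup P12 := Subgroup.closure {x | x ∈ S3}
def S4 : List P12 := [gs, gt, gu, gv, gw, g1, g2]
def O4 : Finset (Fin 12) := {0, 1, 3, 4, 5, 6, 7, 8, 9, 10, 11}
def W4 : Fin 12 → List P12 := ![[g2], [], [], [g1, g2], [gs, g1, g2], [gs, gs, g1, g2], [gt, g1, g2], [gt, gs, g1, g2], [gt, gs, gs, g1, g2], [gt, gt, g1, g2], [gw, gs, g1, g2], [gw, gt, g1, g2]]
def G4 : Subgroup P12 := Subgroup.closure {x | x ∈ S4}
def S5 : List P12 := [gs, gt, gu, gv, gw, g1, g2, g3]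
def O5 : Finset (Fin 12) := {0, 1, 2, 3, 4, 5, 6, 7, 8, 9, 10, 11}
def W5 : Fin 12 → List P12 := ![[g2, g3], [g3], [], [g1, g2, g3], [gs, g1, g2, g3], [gs, gs, g1, g2, g3], [gt, g1, g2, g3], [gt, gs, g1, g2, g3], [gt, gs, gs, g1, g2, g3], [gt, gt, g1, g2, g3], [gw, gs, g1, g2, g3], [gw, gt, g1, g2, g3]]
def G5 : Subgroup P12 := Subgroup.closure {x | x ∈ S5}

def sift1 (g : P12) : Prop := g 4 ∈ O1 ∧ ((W1 (g 4)).prod)⁻¹ * g = 1
instance : DecidablePred sift1 := fun g => by unfold sift1; infer_instance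
def sift2 (g : P12) : Prop := g 3 ∈ O2 ∧ sift1 (((W2 (g 3)).prod)⁻¹ * g)
instance : DecidablePred sift2 := fun g => by unfold sift2; infer_instance
def sift3 (g : P12) : Prop := g 0 ∈ O3 ∧ sift2 (((W3 (g 0)).prod)⁻¹ * g)
instance : DecidablePred sift3 := fun g => by unfold sift3; infer_instance
def sift4 (g : P12) : Prop := g 1 ∈ O4 ∧ sift3 (((W4 (g 1)).prod)⁻¹ * g)
instance : DecidablePred sift4 := fun g => by unfold sift4; infer_instance
def sift5 (g : P12) : Prop := g 2 ∈ O5 ∧ sift4 (((W5 (g 2)).prod)⁻¹ * g)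
instance : DecidablePred sift5 := fun g => by unfold sift5; infer_instance

theorem step1 : ∀ g ∈ S1, ∀ p ∈ O1, g p ∈ O1 ∧ ((W1 (g p)).prod)⁻¹ * g * (W1 p).prod = 1 :=
  all_of S1 _ (by decide +kernel)

theorem words1 : ∀ p ∈ O1, ∀ g ∈ W1 p, g ∈ S1 := fun p hp =>
  all_of (W1 p) _ ((by decide +kernel : ∀ p ∈ O1, (W1 p).all (fun g => decide (g ∈ S1)) = true) p hp)

theorem iff1 (g : P12) : g ∈ G1 ↔ (g 4 ∈ O1 ∧ ((W1 (g 4)).prod)⁻¹ * g ∈ (⊥ : Subgroup P12)) :=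
  level S1 ⊥ 4 O1 W1 bot_le words1 (by decide) rfl
    (fun g hg p hp => ⟨(step1 g hg p hp).1, Subgroup.mem_bot.2 (step1 g hg p hp).2⟩) g

theorem mem1 (g : P12) : g ∈ G1 ↔ sift1 g := by
  rw [iff1, Subgroup.mem_bot]; rfl

theorem card1 : Nat.card G1 = 8 := by
  have := level_card S1 ⊥ 4 O1 W1 (fun h hh => by rw [Subgroup.mem_bot.1 hh]; rfl) (by decide +kernel) iff1
  rw [Subgroup.card_bot] at this
  exact this

theorem step2 : ∀ g ∈ S2, ∀ p ∈ O2, g p ∈ O2 ∧ sift1 (((W2 (g p)).prod)⁻¹ * g * (W2 p).prod) :=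
  all_of S2 _ (by decide +kernel)

theorem words2 : ∀ p ∈ O2, ∀ g ∈ W2 p, g ∈ S2 := fun p hp =>
  all_of (W2 p) _ ((by decide +kernel : ∀ p ∈ O2, (W2 p).all (fun g => decide (g ∈ S2)) = true) p hp)

theorem le2 : G1 ≤ G2 :=
  Subgroup.closure_mono (all_of S1 (fun x => x ∈ S2) (by decide +kernel))

theorem fix2 : ∀ h ∈ G1, h 3 = 3 := by
  have : G1 ≤ MulAction.stabilizer P12 (3 : Fin 12) :=
    (Subgroup.closure_le _).2 (all_of S1 (fun x => x 3 = 3) (by decide +kernel))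
  exact fun h hh => this hh

theorem iff2 (g : P12) : g ∈ G2 ↔ (g 3 ∈ O2 ∧ ((W2 (g 3)).prod)⁻¹ * g ∈ G1) :=
  level S2 G1 3 O2 W2 le2 words2 (by decide) rfl
    (fun g hg p hp => ⟨(step2 g hg p hp).1, (mem1 _).2 (step2 g hg p hp).2⟩) g

theorem mem2 (g : P12) : g ∈ G2 ↔ sift2 g := by
  rw [iff2, mem1]; rfl

theorem card2 : Nat.card G2 = 72 := by
  have := level_card S2 G1 3 O2 W2 fix2 (by decide +kernel) iff2
  rw [card1] at this
  exact this

theorem stab2 (g : P12) (hg : g ∈ G2) (hb : g 3 = 3) : g ∈ G1 := by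
  have := ((iff2 g).1 hg).2
  rw [hb] at this
  simpa [W2] using this

theorem step3 : ∀ g ∈ S3, ∀ p ∈ O3, g p ∈ O3 ∧ sift2 (((W3 (g p)).prod)⁻¹ * g * (W3 p).prod) :=
  all_of S3 _ (by decide +kernel)

theorem words3 : ∀ p ∈ O3, ∀ g ∈ W3 p, g ∈ S3 := fun p hp =>
  all_of (W3 p) _ ((by decide +kernel : ∀ p ∈ O3, (W3 p).all (fun g => decide (g ∈ S3)) = true) p hp)

theorem le3 : G2 ≤ G3 :=
  Subgroup.closure_mono (all_of S2 (fun x => x ∈ S3) (by decide +kernel))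

theorem fix3 : ∀ h ∈ G2, h 0 = 0 := by
  have : G2 ≤ MulAction.stabilizer P12 (0 : Fin 12) :=
    (Subgroup.closure_le _).2 (all_of S2 (fun x => x 0 = 0) (by decide +kernel))
  exact fun h hh => this hh

theorem iff3 (g : P12) : g ∈ G3 ↔ (g 0 ∈ O3 ∧ ((W3 (g 0)).prod)⁻¹ * g ∈ G2) :=
  level S3 G2 0 O3 W3 le3 words3 (by decide) rfl
    (fun g hg p hp => ⟨(step3 g hg p hp).1, (mem2 _).2 (step3 g hg p hp).2⟩) g

theorem mem3 (g : P12) : g ∈ G3 ↔ sift3 g := by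
  rw [iff3, mem2]; rfl

theorem card3 : Nat.card G3 = 720 := by
  have := level_card S3 G2 0 O3 W3 fix3 (by decide +kernel) iff3
  rw [card2] at this
  exact this

theorem stab3 (g : P12) (hg : g ∈ G3) (hb : g 0 = 0) : g ∈ G2 := by
  have := ((iff3 g).1 hg).2
  rw [hb] at this
  simpa [W3] using this

theorem step4 : ∀ g ∈ S4, ∀ p ∈ O4, g p ∈ O4 ∧ sift3 (((W4 (g p)).prod)⁻¹ * g * (W4 p).prod) :=
  all_of S4 _ (by decide +kernel)

theorem words4 : ∀ p ∈ O4, ∀ g ∈ W4 p, g ∈ S4 := fun p hp =>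
  all_of (W4 p) _ ((by decide +kernel : ∀ p ∈ O4, (W4 p).all (fun g => decide (g ∈ S4)) = true) p hp)

theorem le4 : G3 ≤ G4 :=
  Subgroup.closure_mono (all_of S3 (fun x => x ∈ S4) (by decide +kernel))

theorem fix4 : ∀ h ∈ G3, h 1 = 1 := by
  have : G3 ≤ MulAction.stabilizer P12 (1 : Fin 12) :=
    (Subgroup.closure_le _).2 (all_of S3 (fun x => x 1 = 1) (by decide +kernel))
  exact fun h hh => this hh

theorem iff4 (g : P12) : g ∈ G4 ↔ (g 1 ∈ O4 ∧ ((W4 (g 1)).prod)⁻¹ * g ∈ G3) :=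
  level S4 G3 1 O4 W4 le4 words4 (by decide) rfl
    (fun g hg p hp => ⟨(step4 g hg p hp).1, (mem3 _).2 (step4 g hg p hp).2⟩) g

theorem mem4 (g : P12) : g ∈ G4 ↔ sift4 g := by
  rw [iff4, mem3]; rfl

theorem card4 : Nat.card G4 = 7920 := by
  have := level_card S4 G3 1 O4 W4 fix4 (by decide +kernel) iff4
  rw [card3] at this
  exact this

theorem stab4 (g : P12) (hg : g ∈ G4) (hb : g 1 = 1) : g ∈ G3 := by
  have := ((iff4 g).1 hg).2
  rw [hb] at this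
  simpa [W4] using this

theorem step5 : ∀ g ∈ S5, ∀ p ∈ O5, g p ∈ O5 ∧ sift4 (((W5 (g p)).prod)⁻¹ * g * (W5 p).prod) :=
  all_of S5 _ (by decide +kernel)

theorem words5 : ∀ p ∈ O5, ∀ g ∈ W5 p, g ∈ S5 := fun p hp =>
  all_of (W5 p) _ ((by decide +kernel : ∀ p ∈ O5, (W5 p).all (fun g => decide (g ∈ S5)) = true) p hp)

theorem le5 : G4 ≤ G5 :=
  Subgroup.closure_mono (all_of S4 (fun x => x ∈ S5) (by decide +kernel))

theorem fix5 : ∀ h ∈ G4, h 2 = 2 := by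
  have : G4 ≤ MulAction.stabilizer P12 (2 : Fin 12) :=
    (Subgroup.closure_le _).2 (all_of S4 (fun x => x 2 = 2) (by decide +kernel))
  exact fun h hh => this hh

theorem iff5 (g : P12) : g ∈ G5 ↔ (g 2 ∈ O5 ∧ ((W5 (g 2)).prod)⁻¹ * g ∈ G4) :=
  level S5 G4 2 O5 W5 le5 words5 (by decide) rfl
    (fun g hg p hp => ⟨(step5 g hg p hp).1, (mem4 _).2 (step5 g hg p hp).2⟩) g

theorem mem5 (g : P12) : g ∈ G5 ↔ sift5 g := by
  rw [iff5, mem4]; rfl

theorem card5 : Nat.card G5 = 95040 := by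
  have := level_card S5 G4 2 O5 W5 fix5 (by decide +kernel) iff5
  rw [card4] at this
  exact this

theorem stab5 (g : P12) (hg : g ∈ G5) (hb : g 2 = 2) : g ∈ G4 := by
  have := ((iff5 g).1 hg).2
  rw [hb] at this
  simpa [W5] using this

theorem stab1 (g : P12) (hg : g ∈ G1) (hb : g 4 = 4) : g = 1 := by
  have := ((iff1 g).1 hg).2
  rw [hb, Subgroup.mem_bot] at this
  simpa [W1] using this

theorem fix_all (g : P12) (hg : g ∈ G5) (h2 : g 2 = 2) (h1 : g 1 = 1) (h0 : g 0 = 0) (h3 : g 3 = 3)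
    (h4 : g 4 = 4) : g = 1 :=
  stab1 g (stab2 g (stab3 g (stab4 g (stab5 g hg h2) h1) h0) h3) h4

def y0 : Fin 5 ↪ Fin 12 := ⟨![2, 1, 0, 3, 4], by decide⟩

theorem stab_y0 : MulAction.stabilizer G5 y0 = ⊥ := by
  rw [eq_bot_iff]; intro g hg
  rw [MulAction.mem_stabilizer_iff] at hg
  have h : ∀ i, (g : P12) (y0 i) = y0 i := fun i => DFunLike.congr_fun hg i
  rw [Subgroup.mem_bot]; apply Subtype.ext
  exact fix_all g.1 g.2 (h 0) (h 1) (h 2) (h 3) (h 4)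

theorem orbit_y0 : MulAction.orbit G5 y0 = Set.univ := by
  have h1 : (MulAction.stabilizer G5 y0).index = (MulAction.orbit G5 y0).ncard :=
    MulAction.index_stabilizer _ _
  rw [stab_y0, Subgroup.index_bot, card5] at h1
  apply Set.eq_of_subset_of_ncard_le (Set.subset_univ _)
  rw [Set.ncard_univ, ← h1, Nat.card_eq_fintype_card, Fintype.card_embedding_eq]
  simp [Nat.descFactorial]


/-- An explicit construction of the Mathieu groups of degrees 11 and 12. On the points 0, …, 11 let s = (3 4 5)(6 7 8)(9 10 11), t = (3 6 9)(4 7 10)(5 8 11), u = (4 6 5 9)(7 8 11 10), v = (4 7 5 11)(6 10 9 8), w = (4 10 5 8)(6 11 9 7), x₁ = (0 3)(6 7)(8 10)(9 11), x₂ = (0 1)(6 9)(7 10)(8 11), x₃ = (1 2)(6 11)(7 9)(8 10) (each written as a product of transpositions). Then the group M₁₂ generated by all eight permutations is sharply 5-transitive on the 12 points and has order 95040, and the group M₁₁ generated by the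 first seven has order 7920 and is the stabilizer of the point 2 in M₁₂. -/
theorem result
    (s t u v w x₁ x₂ x₃ : Equiv.Perm (Fin 12))
    (hs : s = Equiv.swap (3 : Fin 12) 5 * Equiv.swap (3 : Fin 12) 4 * Equiv.swap (6 : Fin 12) 8 * Equiv.swap (6 : Fin 12) 7 * Equiv.swap (9 : Fin 12) 11 * Equiv.swap (9 : Fin 12) 10) (ht : t = Equiv.swap (3 : Fin 12) 9 * Equiv.swap (3 : Fin 12) 6 * Equiv.swap (4 : Fin 12) 10 * Equiv.swap (4 : Fin 12) 7 * Equiv.swap (5 : Fin 12) 11 * Equiv.swap (5 : Fin 12) 8)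
    (hu : u = Equiv.swap (4 : Fin 12) 9 * Equiv.swap (4 : Fin 12) 5 * Equiv.swap (4 : Fin 12) 6 * Equiv.swap (7 : Fin 12) 10 * Equiv.swap (7 : Fin 12) 11 * Equiv.swap (7 : Fin 12) 8) (hv : v = Equiv.swap (4 : Fin 12) 11 * Equiv.swap (4 : Fin 12) 5 * Equiv.swap (4 : Fin 12) 7 * Equiv.swap (6 : Fin 12) 8 * Equiv.swap (6 : Fin 12) 9 * Equiv.swap (6 : Fin 12) 10) (hw : w = Equiv.swap (4 : Fin 12) 8 * Equiv.swap (4 : Fin 12) 5 * Equiv.swap (4 : Fin 12) 10 * Equiv.swap (6 : Fin 12) 7 * Equiv.swap (6 : Fin 12) 9 * Equiv.swap (6 : Fin 12) 11)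
    (hx₁ : x₁ = Equiv.swap (0 : Fin 12) 3 * Equiv.swap (6 : Fin 12) 7 * Equiv.swap (8 : Fin 12) 10 * Equiv.swap (9 : Fin 12) 11) (hx₂ : x₂ = Equiv.swap (0 : Fin 12) 1 * Equiv.swap (6 : Fin 12) 9 * Equiv.swap (7 : Fin 12) 10 * Equiv.swap (8 : Fin 12) 11)
    (hx₃ : x₃ = Equiv.swap (1 : Fin 12) 2 * Equiv.swap (6 : Fin 12) 11 * Equiv.swap (7 : Fin 12) 9 * Equiv.swap (8 : Fin 12) 10)
    (M₁₂ M₁₁ : Subgroup (Equiv.Perm (Fin 12))) (hM₁₂ : M₁₂ = Subgroup.closure {s, t, u, v, w, x₁, x₂, x₃})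
    (hM₁₁ : M₁₁ = Subgroup.closure {s, t, u, v, w, x₁, x₂}) :
    MulAction.IsMultiplyPretransitive M₁₂ (Fin 12) 5 ∧ (∀ y : Fin 5 ↪ Fin 12, MulAction.stabilizer M₁₂ y = ⊥) ∧
    Nat.card M₁₂ = 95040 ∧ Nat.card M₁₁ = 7920 ∧
    M₁₁ = M₁₂ ⊓ MulAction.stabilizer (Equiv.Perm (Fin 12)) (2 : Fin 12) := by
  have es : s = gs := by rw [hs]; decide +kernel
  have et : t = gt := by rw [ht]; decide +kernel
  have eu : u = gu := by rw [hu]; decide +kernel
  have ev : v = gv := by rw [hv]; decide +kernel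
  have ew : w = gw := by rw [hw]; decide +kernel
  have e1 : x₁ = g1 := by rw [hx₁]; decide +kernel
  have e2 : x₂ = g2 := by rw [hx₂]; decide +kernel
  have e3 : x₃ = g3 := by rw [hx₃]; decide +kernel
  have h12 : M₁₂ = G5 := by
    rw [hM₁₂, es, et, eu, ev, ew, e1, e2, e3, G5]
    congr 1
    ext x
    simp [S5]
  have h11 : M₁₁ = G4 := by
    rw [hM₁₁, es, et, eu, ev, ew, e1, e2, G4]
    congr 1
    ext x
    simp [S4]
  subst h12 h11
  have hall : ∀ y : Fin 5 ↪ Fin 12, ∃ a : G5, a • y0 = y := by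
    intro y
    have : y ∈ MulAction.orbit G5 y0 := by rw [orbit_y0]; trivial
    exact this
  refine ⟨⟨?_⟩, ?_, card5, card4, ?_⟩
  · intro x y
    obtain ⟨a, rfl⟩ := hall x
    obtain ⟨b, rfl⟩ := hall y
    refine ⟨b * a⁻¹, ?_⟩
    have := (mul_smul (b * a⁻¹) a y0).symm
    rw [inv_mul_cancel_right] at this
    exact this
  · intro y
    obtain ⟨a, rfl⟩ := hall y
    rw [eq_bot_iff]; intro g hg
    rw [MulAction.mem_stabilizer_iff] at hg
    have h1 : a⁻¹ * g * a ∈ MulAction.stabilizer G5 y0 := by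
      rw [MulAction.mem_stabilizer_iff, mul_smul, mul_smul]
      have h2 : a⁻¹ • (g • (a • y0)) = a⁻¹ • (a • y0) := congrArg _ hg
      exact h2.trans (inv_smul_smul a y0)
    rw [stab_y0, Subgroup.mem_bot] at h1
    rw [Subgroup.mem_bot]
    have := congrArg (fun w => a * w * a⁻¹) h1
    simpa [mul_assoc] using this
  · ext g
    rw [Subgroup.mem_inf, MulAction.mem_stabilizer_iff]
    constructor
    · intro hg
      exact ⟨le5 hg, fix5 g hg⟩
    · rintro ⟨hg, hb⟩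
      exact stab5 g hg hb

end Cfsg.Agent.S3362
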