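import Cfsg.Statements.S3375
-- import your own Cfsg.Agent.* helpers here

set_option autoImplicit false
open Cfsg

namespace Cfsg.Agent.S3375

theorem exists_invariant {H : Type*} [Group H] (γ : MulAut H) (hinv : ∀ h, γ (γ h) = h)
    (M : Subgroup H) (hM : M.index = 2) :
    ∃ A : Subgroup H, A.index = 2 ∧ ∀ a, a ∈ A ↔ γ a ∈ A := by
  by_cases hMi : ∀ a, a ∈ M ↔ γ a ∈ M
  · exact ⟨M, hM, hMi⟩
  have hmul : ∀ a b : H, a * b ∈ M ↔ (a ∈ M ↔ b ∈ M) := fun a b =>
    Subgroup.mul_mem_iff_of_index_two hM
  let A : Subgroup H :=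
    { carrier := {h | h ∈ M ↔ γ h ∈ M}
      one_mem' := by simp [M.one_mem]
      mul_mem' := by
        intro a b ha hb
        simp only [Set.mem_ofPred_eq] at ha hb ⊢
        rw [map_mul, hmul, hmul, ha, hb]
      inv_mem' := by
        intro a ha
        simp only [Set.mem_ofPred_eq] at ha ⊢
        rw [map_inv, M.inv_mem_iff, M.inv_mem_iff, ha] }
  have memA : ∀ h, h ∈ A ↔ (h ∈ M ↔ γ h ∈ M) := fun h => Iff.rfl
  refine ⟨A, ?_, ?_⟩
  · rw [Subgroup.index_eq_two_iff]
    push Not at hMi
    obtain ⟨a, ha⟩ := hMi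
    refine ⟨a, fun b => ?_⟩
    rw [memA, memA, map_mul, hmul, hmul]
    unfold Xor
    tauto
  · intro a
    rw [memA, memA, hinv]
    tauto

/-- Let γ be an automorphism of order 2 of a finite group H. (i) If γ fixes only the identity, then H is abelian and γ inverts every element. (ii) If γ has exactly two fixed points and H has a subgroup of index 2, then H has a γ-invariant abelian subgroup of index 2 on which γ acts by inversion. -/
theorem result {H : Type*} [Group H] [Finite H] (γ : MulAut H) (hγ : orderOf γ = 2) :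
    ((∀ h : H, γ h = h → h = 1) → (∀ a b : H, a * b = b * a) ∧ ∀ h : H, γ h = h⁻¹) ∧
    ((Nat.card {h : H // γ h = h} = 2 ∧ ∃ M : Subgroup H, M.index = 2) →
      ∃ A : Subgroup H, A.index = 2 ∧ IsMulCommutative A ∧ (∀ a ∈ A, γ a ∈ A) ∧ ∀ a ∈ A, γ a = a⁻¹) := by
  have hinv : ∀ h, γ (γ h) = h := by
    intro h
    have h2 : γ ^ 2 = 1 := by rw [← hγ]; exact pow_orderOf_eq_one γ
    have : (γ ^ 2) h = h := by rw [h2]; rfl
    simpa [pow_two] using this
  constructor
  · intro hfpf
    have hφ : MonoidHom.FixedPointFree γ := hfpf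
    have h2 : Function.Involutive γ := hinv
    refine ⟨fun a b => hφ.commute_all_of_involutive h2 a b, fun h => ?_⟩
    exact congrFun (hφ.coe_eq_inv_of_involutive h2) h
  · rintro ⟨hcard, M, hM⟩
    obtain ⟨A, hA, hAi⟩ := exists_invariant γ hinv M hM
    have hmul : ∀ a b : H, a * b ∈ A ↔ (a ∈ A ↔ b ∈ A) := fun a b =>
      Subgroup.mul_mem_iff_of_index_two hA
    let F : Subgroup H := (γ.toMonoidHom).eqLocus (MonoidHom.id H)
    have memF : ∀ h, h ∈ F ↔ γ h = h := fun h => Iff.rfl
    have hFcard : Nat.card F = 2 := by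
      rw [← hcard]
      exact Nat.card_congr (Equiv.subtypeEquivRight memF)
    have hidx : F.index = Nat.card A := by
      have h1 := F.card_mul_index
      have h2 := A.card_mul_index
      rw [hFcard] at h1
      rw [hA] at h2
      omega
    let c : H ⧸ F → A := Quotient.lift (fun h : H => (⟨h * (γ h)⁻¹, by
        rw [hmul, A.inv_mem_iff]; exact hAi h⟩ : A)) (by
      intro a b hab
      have hab' : a⁻¹ * b ∈ F := QuotientGroup.leftRel_apply.1 hab
      rw [memF, map_mul, map_inv] at hab'
      apply Subtype.ext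
      show a * (γ a)⁻¹ = b * (γ b)⁻¹
      have : γ b = γ a * (a⁻¹ * b) := by rw [← hab']; group
      rw [this]; group)
    have hc : Function.Injective c := by
      intro x y
      induction x using QuotientGroup.induction_on with | H a => ?_
      induction y using QuotientGroup.induction_on with | H b => ?_
      intro hxy
      have h1 : a * (γ a)⁻¹ = b * (γ b)⁻¹ := congrArg Subtype.val hxy
      apply QuotientGroup.eq.2
      rw [memF, map_mul, map_inv]
      have : (γ a)⁻¹ = a⁻¹ * (b * (γ b)⁻¹) := by rw [← h1]; group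
      rw [this]; group
    have hbij : Function.Bijective c :=
      (Nat.bijective_iff_injective_and_card c).2 ⟨hc, hidx⟩
    have hinvA : ∀ a ∈ A, γ a = a⁻¹ := by
      intro a ha
      obtain ⟨x, hx⟩ := hbij.2 ⟨a, ha⟩
      induction x using QuotientGroup.induction_on with | H h => ?_
      have h1 : h * (γ h)⁻¹ = a := congrArg Subtype.val hx
      rw [← h1, map_mul, map_inv, hinv]; group
    refine ⟨A, hA, ⟨⟨fun a b => ?_⟩⟩, fun a ha => (hAi a).1 ha, hinvA⟩
    apply Subtype.ext
    show (a : H) * b = b * a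
    have h1 := hinvA _ (A.mul_mem a.2 b.2)
    rw [map_mul, hinvA _ a.2, hinvA _ b.2] at h1
    have h2 := congrArg (fun x => x⁻¹) h1
    simpa using h2.symm

end Cfsg.Agent.S3375
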