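import Cfsg.Statements.S3379
-- import your own Cfsg.Agent.* helpers here

set_option autoImplicit false
open Cfsg

namespace Cfsg.Agent.S3379

theorem commutator_le_of_gen {G : Type*} [Group G] (x y : G) (hgen : Subgroup.closure {x, y} = ⊤)
    (N : Subgroup G) [hN : N.Normal] (hxy : (x * y)⁻¹ * (y * x) ∈ N) : commutator G ≤ N := by
  have hcomm : ∀ a b : G ⧸ N, a * b = b * a := by
    have h1 : Subgroup.closure ({(x : G ⧸ N), (y : G ⧸ N)} : Set (G ⧸ N)) = ⊤ := by
      have := congrArg (Subgroup.map (QuotientGroup.mk' N)) hgen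
      rw [MonoidHom.map_closure, Subgroup.map_top_of_surjective _ (QuotientGroup.mk'_surjective N),
        Set.image_pair] at this
      exact this
    have hxy' : (x : G ⧸ N) * (y : G ⧸ N) = (y : G ⧸ N) * (x : G ⧸ N) := by
      rw [← QuotientGroup.mk_mul, ← QuotientGroup.mk_mul]
      exact QuotientGroup.eq.2 hxy
    have h2 : IsMulCommutative (Subgroup.closure ({(x : G ⧸ N), (y : G ⧸ N)} : Set (G ⧸ N))) := by
      apply Subgroup.isMulCommutative_closure
      intro a ha b hb
      simp only [Set.mem_insert_iff, Set.mem_singleton_iff] at ha hb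
      rcases ha with rfl | rfl <;> rcases hb with rfl | rfl <;> simp [hxy']
    intro a b
    have ha : a ∈ Subgroup.closure ({(x : G ⧸ N), (y : G ⧸ N)} : Set (G ⧸ N)) := by rw [h1]; trivial
    have hb : b ∈ Subgroup.closure ({(x : G ⧸ N), (y : G ⧸ N)} : Set (G ⧸ N)) := by rw [h1]; trivial
    exact congrArg Subtype.val (h2.is_comm.comm ⟨a, ha⟩ ⟨b, hb⟩)
  let _ : CommGroup (G ⧸ N) := { (inferInstance : Group (G ⧸ N)) with mul_comm := hcomm }
  have := Abelianization.commutator_subset_ker (QuotientGroup.mk' N)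
  rwa [QuotientGroup.ker_mk'] at this

/-- Let G be a finite group all of whose Sylow subgroups are cyclic. Then G is generated by two elements x and y of coprime orders n and m with x⁻¹yx = y^r, where gcd(r − 1, m) = 1 and r^n ≡ 1 (mod m). -/
theorem result {G : Type*} [Group G] [Finite G]
    (hZ : ∀ (p : ℕ) [Fact p.Prime] (P : Sylow p G), IsCyclic (P : Subgroup G)) :
    ∃ (x y : G) (n m r : ℕ), Subgroup.closure {x, y} = ⊤ ∧ orderOf x = n ∧ orderOf y = m ∧
      x⁻¹ * y * x = y ^ r ∧ Nat.Coprime (r - 1) m ∧ Nat.Coprime n m ∧ 1 ≤ r ∧ r ^ n % m = 1 % m := by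
  have hG : IsZGroup G := ⟨fun p hp P => by have := Fact.mk hp; exact hZ p P⟩
  obtain ⟨K, hK⟩ := Subgroup.exists_right_complement'_of_coprime hG.coprime_commutator_index
  have hKc : IsCyclic K := by
    have h1 : Abelianization G ≃* K := hK.symm.QuotientMulEquiv
    exact isCyclic_of_surjective _ h1.surjective
  have hNc : IsCyclic (commutator G) := hG.isCyclic_commutator
  obtain ⟨⟨x, hxK⟩, hx⟩ := hKc.exists_generator
  obtain ⟨⟨y, hyN⟩, hy⟩ := hNc.exists_generator
  have hKx : K = Subgroup.zpowers x := by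
    apply le_antisymm
    · intro k hk
      obtain ⟨i, hi⟩ := Subgroup.mem_zpowers_iff.1 (hx ⟨k, hk⟩)
      exact Subgroup.mem_zpowers_iff.2 ⟨i, by simpa using congrArg Subtype.val hi⟩
    · rw [Subgroup.zpowers_le]; exact hxK
  have hNy : commutator G = Subgroup.zpowers y := by
    apply le_antisymm
    · intro k hk
      obtain ⟨i, hi⟩ := Subgroup.mem_zpowers_iff.1 (hy ⟨k, hk⟩)
      exact Subgroup.mem_zpowers_iff.2 ⟨i, by simpa using congrArg Subtype.val hi⟩
    · rw [Subgroup.zpowers_le]; exact hyN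
  have hgen : Subgroup.closure {x, y} = ⊤ := by
    have h1 := hK.sup_eq_top
    rw [hKx, hNy, Subgroup.zpowers_eq_closure, Subgroup.zpowers_eq_closure,
      ← Subgroup.closure_union] at h1
    rw [← h1]; congr 1
    ext z; simp
  have hm : 0 < orderOf y := orderOf_pos y
  have hcop : Nat.Coprime (orderOf x) (orderOf y) := by
    have h1 := hG.coprime_commutator_index
    have h2 : (commutator G).index = Nat.card K := hK.symm.index_eq_card
    rw [h2, hKx, hNy, Nat.card_zpowers, Nat.card_zpowers] at h1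
    exact h1.symm
  -- conjugation action on y
  have hconj : ∀ g : G, ∃ j : ℤ, g * y * g⁻¹ = y ^ j := by
    intro g
    have h1 : g * y * g⁻¹ ∈ commutator G :=
      (inferInstance : (commutator G).Normal).conj_mem y hyN g
    rw [hNy] at h1
    obtain ⟨j, hj⟩ := Subgroup.mem_zpowers_iff.1 h1
    exact ⟨j, hj.symm⟩
  obtain ⟨r0, hr0⟩ : ∃ r0 : ℕ, x⁻¹ * y * x = y ^ r0 := by
    have h1 : x⁻¹ * y * x ∈ commutator G := by
      have := (inferInstance : (commutator G).Normal).conj_mem y hyN x⁻¹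
      simpa using this
    rw [hNy, ← mem_powers_iff_mem_zpowers] at h1
    obtain ⟨r0, hr0⟩ := Submonoid.mem_powers_iff _ _ |>.1 h1
    exact ⟨r0, hr0.symm⟩
  set r := r0 + orderOf y with hr
  have hr1 : 1 ≤ r := by omega
  have hxyr : x⁻¹ * y * x = y ^ r := by
    rw [hr, pow_add, pow_orderOf_eq_one, mul_one, hr0]
  have hpow : ∀ k : ℕ, (x ^ k)⁻¹ * y * x ^ k = y ^ (r ^ k) := by
    intro k
    induction k with
    | zero => simp
    | succ k ih =>
      have h1 : (x ^ (k + 1))⁻¹ * y * x ^ (k + 1) = x⁻¹ * ((x ^ k)⁻¹ * y * x ^ k) * x := by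
        rw [pow_succ]; group
      rw [h1, ih]
      have h2 : x⁻¹ * y ^ (r ^ k) * x = (x⁻¹ * y * x) ^ (r ^ k) := by
        have := conj_pow (a := x⁻¹) (b := y) (i := r ^ k)
        simpa using this.symm
      rw [h2, hxyr, ← pow_mul, pow_succ, mul_comm]
  refine ⟨x, y, orderOf x, orderOf y, r, hgen, rfl, rfl, hxyr, ?_, hcop, hr1, ?_⟩
  · -- coprimality of r - 1 and m
    let N₁ : Subgroup G := Subgroup.zpowers (y ^ (r - 1))
    have hN₁ : N₁.Normal := by
      constructor
      intro z hz g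
      obtain ⟨i, rfl⟩ := Subgroup.mem_zpowers_iff.1 hz
      obtain ⟨j, hj⟩ := hconj g
      refine Subgroup.mem_zpowers_iff.2 ⟨j * i, ?_⟩
      have h1 : g * (y ^ (r - 1)) ^ i * g⁻¹ = (g * y * g⁻¹) ^ (((r - 1 : ℕ) : ℤ) * i) := by
        rw [conj_zpow, zpow_mul, zpow_natCast]
      rw [h1, hj, ← zpow_natCast, ← zpow_mul, ← zpow_mul]
      congr 1; ring
    have hle : commutator G ≤ N₁ := by
      apply commutator_le_of_gen x y hgen N₁
      have h1 : (x * y)⁻¹ * (y * x) = y⁻¹ * (x⁻¹ * y * x) := by group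
      rw [h1, hxyr]
      have h2 : y⁻¹ * y ^ r = y ^ (r - 1) := by
        obtain ⟨s, hs⟩ : ∃ s, r = s + 1 := ⟨r - 1, by omega⟩
        rw [hs, pow_succ']; simp
      rw [h2]
      exact Subgroup.mem_zpowers _
    obtain ⟨i, hi⟩ := Subgroup.mem_zpowers_iff.1 (hle hyN)
    have h1 : y ^ (((r - 1 : ℕ) : ℤ) * i) = y ^ (1 : ℤ) := by
      rw [zpow_mul, zpow_natCast, hi, zpow_one]
    rw [zpow_eq_zpow_iff_modEq] at h1
    obtain ⟨t, ht⟩ := (Int.modEq_iff_dvd.1 h1)
    rw [← Nat.isCoprime_iff_coprime]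
    exact ⟨i, t, by linarith⟩
  · have h1 := hpow (orderOf x)
    rw [pow_orderOf_eq_one] at h1
    simp only [inv_one, one_mul, mul_one] at h1
    have h2 : y ^ (r ^ orderOf x) = y ^ 1 := by rw [← h1, pow_one]
    rw [pow_eq_pow_iff_modEq] at h2
    exact h2

end Cfsg.Agent.S3379
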