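import Cfsg.Statements.S3380
import Cfsg.Agent.Lib.Helper71.PSum
import Cfsg.Agent.Lib.Helper71.NormalSq
import Cfsg.Agent.Lib.Helper70.Kulakoff

set_option autoImplicit false
open Cfsg

namespace Cfsg.Agent.S3380

open Cfsg.Agent.Lib.Helper71 Cfsg.Agent.Lib.Helper71.PSum

/-- Let a finite p-group G act faithfully and irreducibly on a non-trivial finite vector space V over the field with q elements (q prime), and suppose G is not cyclic, generalized quaternion, dihedral or semidihedral. Then G has a subgroup H of index p and V is the direct sum of p subspaces, each invariant under H, on none of which H acts faithfully, and which every element of G outside H permutes in a single p-cycle. -/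
theorem result
    (q : ℕ) [Fact q.Prime] {V : Type*} [AddCommGroup V] [Module (ZMod q) V] [Finite V] [Nontrivial V]
    {G : Type*} [Group G] [Finite G] (p : ℕ) [Fact p.Prime] (hG : IsPGroup p G)
    (ρ : G →* (V ≃ₗ[ZMod q] V)) (hρ : Function.Injective ρ)
    (hirr : ∀ W : Submodule (ZMod q) V, (∀ g : G, ∀ w ∈ W, ρ g w ∈ W) → W = ⊥ ∨ W = ⊤)
    (hnc : ¬ IsCyclic G) (hnq : ∀ n : ℕ, ¬ Nonempty (G ≃* QuaternionGroup n))
    (hnd : ∀ n : ℕ, ¬ Nonempty (G ≃* DihedralGroup n)) (hnsd : ¬ Cfsg.IsQuasiDihedral G) :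
    ∃ (H : Subgroup G) (W : Fin p → Submodule (ZMod q) V), H.index = p ∧
      iSup W = ⊤ ∧ iSupIndep W ∧
      (∀ h ∈ H, ∀ i, ∀ w ∈ W i, ρ h w ∈ W i) ∧
      (∀ i, ∃ h ∈ H, h ≠ 1 ∧ ∀ w ∈ W i, ρ h w = w) ∧
      ∀ g : G, g ∉ H → ∃ σ : Equiv.Perm (Fin p), orderOf σ = p ∧ ∀ i, (W i).map (ρ g : V →ₗ[ZMod q] V) = W (σ i) := by
  classical
  have hpp : p.Prime := Fact.out
  have hqq : q.Prime := Fact.out
  -- central elements with a fixed vector are trivial
  have hcentral : ∀ x : G, x ∈ Subgroup.center G → x ≠ 1 → Fx ρ x = ⊥ := by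
    intro x hx hx1
    have hinv : ∀ g : G, ∀ w ∈ Fx ρ x, ρ g w ∈ Fx ρ x := by
      intro g w hw
      rw [mem_Fx] at hw ⊢
      have h1 : x * g = g * x := (Subgroup.mem_center_iff.mp hx g).symm
      calc ρ x (ρ g w) = ρ (x * g) w := by rw [map_mul]; rfl
        _ = ρ (g * x) w := by rw [h1]
        _ = ρ g (ρ x w) := by rw [map_mul]; rfl
        _ = ρ g w := by rw [hw]
    rcases hirr _ hinv with h | h
    · exact h
    · exfalso
      apply hx1
      apply hρ
      rw [map_one]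
      ext v
      have : v ∈ Fx ρ x := by rw [h]; trivial
      exact (mem_Fx ρ).mp this
  -- `q ≠ p`
  have hqp : q ≠ p := by
    intro hqp
    subst hqp
    let _ : MulAction G V := MulAction.compHom V ρ
    have hsm : ∀ (g : G) (v : V), g • v = ρ g v := fun g v => rfl
    have hdvd : q ∣ Nat.card V := by
      obtain ⟨v, hv⟩ := exists_ne (0 : V)
      have h1 : addOrderOf v ∣ q := by
        apply addOrderOf_dvd_of_nsmul_eq_zero
        rw [← Nat.cast_smul_eq_nsmul (ZMod q), ZMod.natCast_self, zero_smul]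
      have h2 : addOrderOf v = q := by
        rcases (Nat.dvd_prime hqq).mp h1 with h | h
        · exact absurd (AddMonoid.addOrderOf_eq_one_iff.mp h) hv
        · exact h
      rw [← h2]
      exact addOrderOf_dvd_natCard v
    obtain ⟨b, hb, hne⟩ := hG.exists_fixed_point_of_prime_dvd_card_of_fixed_point V hdvd
      (a := 0) (by intro g; rw [hsm, map_zero])
    have hinv : ∀ g : G, ∀ w ∈ (⨅ x : G, Fx ρ x), ρ g w ∈ (⨅ x : G, Fx ρ x) := by
      intro g w hw
      have := (mem_Fx ρ).mp ((Submodule.mem_iInf _).mp hw g)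
      rw [this]; exact hw
    have hbm : b ∈ (⨅ x : G, Fx ρ x) := by
      rw [Submodule.mem_iInf]
      intro x
      exact (mem_Fx ρ).mpr (hb x)
    rcases hirr _ hinv with h | h
    · rw [h, Submodule.mem_bot] at hbm
      exact hne hbm.symm
    · apply hnc
      have : Subsingleton G := by
        constructor
        intro x y
        apply hρ
        ext v
        have hv : v ∈ (⨅ x : G, Fx ρ x) := by rw [h]; trivial
        rw [(mem_Fx ρ).mp ((Submodule.mem_iInf _).mp hv x),
          (mem_Fx ρ).mp ((Submodule.mem_iInf _).mp hv y)]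
      infer_instance
  have hpq0 : (p : ZMod q) ≠ 0 := by
    intro h
    rw [ZMod.natCast_eq_zero_iff] at h
    exact hqp ((Nat.prime_dvd_prime_iff_eq hqq hpp).mp h)
  obtain ⟨E, hEn, hEc, hEexp, hEcomm⟩ := exists_normal_sq_exp p hG hnc hnq hnd hnsd
  have hEne : E ≠ ⊥ := by
    rintro rfl
    rw [Subgroup.card_bot] at hEc
    have := Nat.one_lt_pow (n := 2) (by norm_num) hpp.one_lt
    omega
  obtain ⟨z, hzE, hzc, hzo⟩ := Cfsg.Agent.Lib.Helper3.exists_central_order_p hG E hEne
  have hz1 : z ≠ 1 := by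
    rintro rfl
    rw [orderOf_one] at hzo
    exact hpp.one_lt.ne hzo
  have hzp : z ^ p = 1 := hEexp z hzE
  have hZle : Subgroup.zpowers z ≤ E := by rw [Subgroup.zpowers_le]; exact hzE
  have hZcard : Nat.card (Subgroup.zpowers z) = p := by rw [Nat.card_zpowers, hzo]
  obtain ⟨e, heE, hez⟩ : ∃ e ∈ E, e ∉ Subgroup.zpowers z := by
    by_contra hcon
    push Not at hcon
    have h1 : E ≤ Subgroup.zpowers z := hcon
    have h2 := Subgroup.card_le_of_le h1
    rw [hEc, hZcard] at h2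
    have := hpp.one_lt
    nlinarith
  have hep : e ^ p = 1 := hEexp e heE
  have hcez : Commute e z := Subgroup.mem_center_iff.mp hzc e
  have hN : ∀ v : V, SL ρ p z v = 0 := by
    intro v
    have h1 := SL_mem ρ hzp v
    rw [hcentral z hzc hz1, Submodule.mem_bot] at h1
    exact h1
  set d : ZMod p → G := fun k => e * z ^ k.val with hd
  set Wz : ZMod p → Submodule (ZMod q) V := fun k => Fx ρ (d k) with hWz
  have hsup : ⨆ k, Wz k = ⊤ := iSup_Fx ρ hcez hzp hep hN hpq0
  have hind : iSupIndep Wz := iSupIndep_Fx ρ hcez hzp hN hpq0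
  have hd1 : ∀ k, d k ≠ 1 := by
    intro k h
    apply hez
    have h2 : e = (z ^ k.val)⁻¹ := eq_inv_of_mul_eq_one_left h
    rw [h2]
    exact Subgroup.inv_mem _ (Subgroup.pow_mem _ (Subgroup.mem_zpowers z) _)
  have hzpc : ∀ n : ℕ, z ^ n ∈ Subgroup.center G := fun n => Subgroup.pow_mem _ hzc n
  -- `e` is not central
  have henc : e ∉ Subgroup.center G := by
    intro hec
    have h1 : ∀ k, Wz k = ⊥ := fun k =>
      hcentral (d k) (Subgroup.mul_mem _ hec (hzpc _)) (hd1 k)
    have h2 : (⨆ k, Wz k) = ⊥ := by simp [h1]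
    rw [hsup] at h2
    exact top_ne_bot h2
  -- the commutator map
  have hcc : ∀ g : G, g * e * g⁻¹ * e⁻¹ ∈ Subgroup.center G := by
    intro g
    have h1 := Cfsg.Agent.Lib.Helper70.commutator_central_of_normal_card_sq hG E hEc e heE g
    have h2 : g * e * g⁻¹ * e⁻¹ = (e * g * e⁻¹ * g⁻¹)⁻¹ := by group
    rw [h2]
    exact Subgroup.inv_mem _ h1
  have hcE : ∀ g : G, g * e * g⁻¹ * e⁻¹ ∈ E := fun g =>
    E.mul_mem (hEn.conj_mem e heE g) (E.inv_mem heE)
  have hZ1 : E ⊓ Subgroup.center G = Subgroup.zpowers z := by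
    symm
    apply Subgroup.eq_of_le_of_card_ge (le_inf hZle (by rw [Subgroup.zpowers_le]; exact hzc))
    rw [hZcard]
    obtain ⟨m, hm⟩ := IsPGroup.iff_card.mp (hG.to_subgroup (E ⊓ Subgroup.center G))
    have hlt : Nat.card (E ⊓ Subgroup.center G : Subgroup G) < p ^ 2 := by
      rw [← hEc]
      by_contra hcon
      have h1 : E ⊓ Subgroup.center G = E :=
        Subgroup.eq_of_le_of_card_ge inf_le_left (not_lt.mp hcon)
      apply henc
      have : e ∈ E ⊓ Subgroup.center G := by rw [h1]; exact heE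
      exact this.2
    rw [hm] at hlt ⊢
    have hm2 : m < 2 := (Nat.pow_lt_pow_iff_right hpp.one_lt).mp hlt
    calc p ^ m ≤ p ^ 1 := Nat.pow_le_pow_right hpp.pos (by omega)
      _ = p := pow_one p
  let φ : G →* G :=
    { toFun := fun g => g * e * g⁻¹ * e⁻¹
      map_one' := by group
      map_mul' := by
        intro g h
        have h1 := Subgroup.mem_center_iff.mp (hcc h) g
        calc g * h * e * (g * h)⁻¹ * e⁻¹ = g * (h * e * h⁻¹ * e⁻¹) * e * g⁻¹ * e⁻¹ := by group
          _ = (h * e * h⁻¹ * e⁻¹) * g * e * g⁻¹ * e⁻¹ := by rw [h1]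
          _ = (h * e * h⁻¹ * e⁻¹) * (g * e * g⁻¹ * e⁻¹) := by group
          _ = (g * e * g⁻¹ * e⁻¹) * (h * e * h⁻¹ * e⁻¹) :=
            (Subgroup.mem_center_iff.mp (hcc h) _).symm }
  have hφ : ∀ g, φ g = g * e * g⁻¹ * e⁻¹ := fun g => rfl
  have hker : ∀ g, g ∈ φ.ker ↔ g * e = e * g := by
    intro g
    rw [MonoidHom.mem_ker, hφ]
    constructor
    · intro h
      calc g * e = (g * e * g⁻¹ * e⁻¹) * (e * g) := by group
        _ = e * g := by rw [h, one_mul]
    · intro h
      rw [h]; group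
  have hrange : φ.range ≤ Subgroup.zpowers z := by
    rintro _ ⟨g, rfl⟩
    rw [← hZ1]
    exact ⟨hcE g, hcc g⟩
  have hidx : φ.ker.index = p := by
    rw [Subgroup.index_ker]
    have h1 : Nat.card φ.range ∣ p := hZcard ▸ Subgroup.card_dvd_of_le hrange
    rcases (Nat.dvd_prime hpp).mp h1 with h | h
    · exfalso
      apply henc
      rw [Subgroup.mem_center_iff]
      intro g
      have h2 : φ.range = ⊥ := Subgroup.card_eq_one.mp h
      have h3 : φ g ∈ φ.range := ⟨g, rfl⟩
      rw [h2, Subgroup.mem_bot] at h3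
      exact (hker g).mp h3
    · exact h
  have hkap : ∀ g : G, ∃ κ : ZMod p, g * e * g⁻¹ = e * z ^ κ.val ∧ (g ∉ φ.ker → κ ≠ 0) := by
    intro g
    have h1 : φ g ∈ Subgroup.zpowers z := hrange ⟨g, rfl⟩
    rw [← mem_powers_iff_mem_zpowers] at h1
    obtain ⟨n, hn⟩ := h1
    have hn' : z ^ n = g * e * g⁻¹ * e⁻¹ := hn
    have h2 : z ^ ((n : ZMod p)).val = g * e * g⁻¹ * e⁻¹ := by
      rw [ZMod.val_natCast, ← pow_eq_pow_mod _ hzp, hn']
    refine ⟨(n : ZMod p), ?_, ?_⟩
    · rw [h2, (Subgroup.mem_center_iff.mp (hcc g) e)]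
      group
    · intro hg h0
      apply hg
      rw [MonoidHom.mem_ker, hφ, ← h2, h0, ZMod.val_zero, pow_zero]
  have hconj : ∀ (g : G) (κ : ZMod p), g * e * g⁻¹ = e * z ^ κ.val →
      ∀ k, g * d k * g⁻¹ = d (k + κ) := by
    intro g κ hκ k
    show g * (e * z ^ k.val) * g⁻¹ = e * z ^ (k + κ).val
    have h1 := Subgroup.mem_center_iff.mp (hzpc k.val) g⁻¹
    calc g * (e * z ^ k.val) * g⁻¹ = g * e * (z ^ k.val * g⁻¹) := by group
      _ = g * e * (g⁻¹ * z ^ k.val) := by rw [h1]
      _ = (g * e * g⁻¹) * z ^ k.val := by group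
      _ = e * (z ^ κ.val * z ^ k.val) := by rw [hκ, mul_assoc]
      _ = e * z ^ (k + κ).val := by rw [add_comm k κ, pow_val_add hzp]
  have hmapW : ∀ (g : G) (κ : ZMod p), g * e * g⁻¹ = e * z ^ κ.val →
      ∀ k, (Wz k).map (ρ g : V →ₗ[ZMod q] V) = Wz (k + κ) := by
    intro g κ hκ k
    ext y
    rw [Submodule.mem_map]
    constructor
    · rintro ⟨x, hx, rfl⟩
      have hx' : ρ (d k) x = x := (mem_Fx ρ).mp hx
      apply (mem_Fx ρ).mpr
      show ρ (d (k + κ)) (ρ g x) = ρ g x
      rw [← hconj g κ hκ k]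
      calc ρ (g * d k * g⁻¹) (ρ g x) = ρ (g * d k * g⁻¹ * g) x := by
            rw [map_mul (f := ρ) (g * d k * g⁻¹) g]; rfl
        _ = ρ (g * d k) x := by rw [inv_mul_cancel_right]
        _ = ρ g (ρ (d k) x) := by rw [map_mul (f := ρ) g (d k)]; rfl
        _ = ρ g x := by rw [hx']
    · intro hy
      have hy' : ρ (d (k + κ)) y = y := (mem_Fx ρ).mp hy
      refine ⟨ρ g⁻¹ y, ?_, ?_⟩
      · apply (mem_Fx ρ).mpr
        have h1 : d k * g⁻¹ = g⁻¹ * d (k + κ) := by
          rw [← hconj g κ hκ k]; group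
        calc ρ (d k) (ρ g⁻¹ y) = ρ (d k * g⁻¹) y := by rw [map_mul (f := ρ) (d k) g⁻¹]; rfl
          _ = ρ (g⁻¹ * d (k + κ)) y := by rw [h1]
          _ = ρ g⁻¹ (ρ (d (k + κ)) y) := by rw [map_mul (f := ρ) g⁻¹ (d (k + κ))]; rfl
          _ = ρ g⁻¹ y := by rw [hy']
      · show ρ g (ρ g⁻¹ y) = y
        calc ρ g (ρ g⁻¹ y) = ρ (g * g⁻¹) y := by rw [map_mul]; rfl
          _ = y := by rw [mul_inv_cancel, map_one]; rfl
  have : NeZero p := ⟨hpp.ne_zero⟩
  let f : Fin p ≃ ZMod p := (ZMod.finEquiv p).toEquiv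
  refine ⟨φ.ker, fun i => Wz (f i), hidx, ?_, ?_, ?_, ?_, ?_⟩
  · rw [← hsup]
    exact Equiv.iSup_comp (g := Wz) f
  · exact hind.comp f.injective
  · intro h hh i w hw
    have h1 : h * e * h⁻¹ = e * z ^ (0 : ZMod p).val := by
      rw [(hker h).mp hh, ZMod.val_zero, pow_zero, mul_one, mul_inv_cancel_right]
    have h2 := hmapW h 0 h1 (f i)
    rw [add_zero] at h2
    show ρ h w ∈ Wz (f i)
    rw [← h2]
    exact Submodule.mem_map_of_mem hw
  · intro i
    refine ⟨d (f i), ?_, hd1 _, fun w hw => (mem_Fx ρ).mp hw⟩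
    rw [hker]
    show e * z ^ (f i).val * e = e * (e * z ^ (f i).val)
    rw [mul_assoc, ← (hcez.pow_right _).eq]
  · intro g hg
    obtain ⟨κ, hκ, hκ0⟩ := hkap g
    have hκ1 := hκ0 hg
    refine ⟨f.symm.permCongrHom (Equiv.addRight κ), ?_, ?_⟩
    · rw [MulEquiv.orderOf_eq]
      apply orderOf_eq_prime
      · have hpow : ∀ n : ℕ, (Equiv.addRight κ : Equiv.Perm (ZMod p)) ^ n =
            Equiv.addRight (n • κ) := by
          intro n
          induction n with
          | zero => ext x; simp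
          | succ n ih =>
            rw [pow_succ, ih]
            ext x
            simp [add_smul, add_assoc, add_comm]
        rw [hpow]
        ext x
        simp
      · intro h
        have := congrArg (fun τ : Equiv.Perm (ZMod p) => τ 0) h
        simp at this
        exact hκ1 this
    · intro i
      rw [hmapW g κ hκ (f i)]
      congr 1
      simp [Equiv.permCongrHom]

end Cfsg.Agent.S3380
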