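import Cfsg.Statements.S3381
-- import your own Cfsg.Agent.* helpers here

set_option autoImplicit false
open Cfsg

namespace Cfsg.Agent.S3381

section
variable {q : ℕ} [Fact q.Prime] {V : Type*} [AddCommGroup V] [Module (ZMod q) V]
  {G : Type*} [Group G] (ρ : G →* (V ≃ₗ[ZMod q] V))

theorem rmul (g h : G) (v : V) : ρ (g * h) v = ρ g (ρ h v) := by
  rw [map_mul]; rfl

theorem rone (v : V) : ρ 1 v = v := by
  rw [map_one]; rfl

variable (hstab : ∀ v : V, v ≠ 0 → Nat.card {g : G // ρ g v = v} = 2)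
include hstab

theorem uniq {v : V} (hv : v ≠ 0) {g h : G} (hg : ρ g v = v) (hh : ρ h v = v) (hg1 : g ≠ 1)
    (hh1 : h ≠ 1) : g = h := by
  obtain ⟨x, y, hxy, huniv⟩ := Nat.card_eq_two_iff.1 (hstab v hv)
  have mem : ∀ a : {g : G // ρ g v = v}, a = x ∨ a = y := by
    intro a
    have : a ∈ ({x, y} : Set _) := by rw [huniv]; trivial
    simpa using this
  have h1 := mem ⟨1, rone ρ v⟩
  have h2 := mem ⟨g, hg⟩
  have h3 := mem ⟨h, hh⟩
  have e1 : (⟨g, hg⟩ : {g : G // ρ g v = v}) ≠ ⟨1, rone ρ v⟩ := fun e => hg1 (congrArg Subtype.val e)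
  have e2 : (⟨h, hh⟩ : {g : G // ρ g v = v}) ≠ ⟨1, rone ρ v⟩ := fun e => hh1 (congrArg Subtype.val e)
  have : (⟨g, hg⟩ : {g : G // ρ g v = v}) = ⟨h, hh⟩ := by
    rcases h1 with h1 | h1 <;> rcases h2 with h2 | h2 <;> rcases h3 with h3 | h3 <;>
      simp_all
  exact congrArg Subtype.val this

theorem exi {v : V} (hv : v ≠ 0) : ∃ t : G, t ≠ 1 ∧ ρ t v = v := by
  obtain ⟨x, y, hxy, -⟩ := Nat.card_eq_two_iff.1 (hstab v hv)
  by_cases hx : x.1 = 1
  · refine ⟨y.1, fun hy => hxy (Subtype.ext (hx.trans hy.symm)), y.2⟩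
  · exact ⟨x.1, hx, x.2⟩

theorem sq_one {v : V} (hv : v ≠ 0) {t : G} (ht1 : t ≠ 1) (ht : ρ t v = v) : t * t = 1 := by
  by_contra h
  have h2 : ρ (t * t) v = v := by rw [rmul, ht, ht]
  have := uniq ρ hstab hv h2 ht h ht1
  exact ht1 (by simpa using this)

theorem central_neg (hρ : Function.Injective ρ) {c : G} (hc : c ∈ Subgroup.center G) (hc1 : c ≠ 1)
    (hc2 : c * c = 1) (v : V) : ρ c v = -v := by
  have hcomm : ∀ g : G, ∀ w : V, ρ g (ρ c w) = ρ c (ρ g w) := by
    intro g w
    rw [← rmul, ← rmul, (Subgroup.mem_center_iff.1 hc g)]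
  have hcc : ∀ w, ρ c (ρ c w) = w := by
    intro w; rw [← rmul, hc2, rone]
  -- for w not fixed by c, c w = - w
  have key : ∀ w : V, ρ c w ≠ w → ρ c w = -w := by
    intro w hw
    have hw0 : w ≠ 0 := by rintro rfl; exact hw (map_zero _)
    obtain ⟨t, ht1, ht⟩ := exi ρ hstab hw0
    have htc : t ≠ c := by rintro rfl; exact hw ht
    by_contra hne
    have hv' : w + ρ c w ≠ 0 := by
      intro h0
      exact hne (eq_neg_of_add_eq_zero_right h0)
    have f1 : ρ c (w + ρ c w) = w + ρ c w := by rw [map_add, hcc, add_comm]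
    have f2 : ρ t (w + ρ c w) = w + ρ c w := by rw [map_add, hcomm, ht]
    exact htc (uniq ρ hstab hv' f2 f1 ht1 hc1)
  -- c is not the identity map
  obtain ⟨u, hu⟩ : ∃ u : V, ρ c u ≠ u := by
    by_contra hall
    push Not at hall
    apply hc1
    apply hρ
    rw [map_one]
    ext w
    exact hall w
  have hun := key u hu
  by_cases hv : ρ c v = v
  · -- then v = 0
    have h1 : ρ c (u + v) ≠ u + v := by
      rw [map_add, hv]
      intro h
      exact hu (add_right_cancel h)
    have h2 := key (u + v) h1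
    rw [map_add, hv, hun, neg_add] at h2
    have h3 : v = -v := add_left_cancel h2
    rw [hv]; exact h3
  · exact key v hv

end

section
variable {q : ℕ} [Fact q.Prime] {V : Type*} [AddCommGroup V] [Module (ZMod q) V] [Finite V]
  {G : Type*} [Group G] (ρ : G →* (V ≃ₗ[ZMod q] V))

/-- fixed space -/
def fx (g : G) : Submodule (ZMod q) V := LinearMap.eqLocus (ρ g : V →ₗ[ZMod q] V) LinearMap.id

theorem mem_fx (g : G) (v : V) : v ∈ fx ρ g ↔ ρ g v = v := Iff.rfl

theorem card_mul_le (g h : G) (hd : ∀ d : V, ρ g d = d → ρ h d = d → d = 0) :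
    Nat.card (fx ρ g) * Nat.card (fx ρ h) ≤ Nat.card V := by
  rw [← Nat.card_prod]
  apply Nat.card_le_card_of_injective (fun p : fx ρ g × fx ρ h => (p.1 : V) + p.2)
  rintro ⟨⟨a, ha⟩, ⟨b, hb⟩⟩ ⟨⟨a', ha'⟩, ⟨b', hb'⟩⟩ hab
  simp only at hab
  have hd1 : a - a' = b' - b := by
    have : a - a' - (b' - b) = (a + b) - (a' + b') := by abel
    rw [← sub_eq_zero, this, hab, sub_self]
  have h0 : a - a' = 0 := by
    apply hd
    · exact (fx ρ g).sub_mem ha ha'
    · rw [hd1]; exact (fx ρ h).sub_mem hb' hb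
  have h1 : b' - b = 0 := by rw [← hd1, h0]
  simp only [Prod.mk.injEq, Subtype.mk.injEq]
  exact ⟨sub_eq_zero.1 h0, (sub_eq_zero.1 h1).symm⟩

theorem card_mul_eq (two : (2 : ZMod q) ≠ 0) (t z : G) (ht : t * t = 1) (hz : ∀ v, ρ z v = -v) :
    Nat.card (fx ρ t) * Nat.card (fx ρ (t * z)) = Nat.card V := by
  have htt : ∀ w, ρ t (ρ t w) = w := by
    intro w; rw [← rmul, ht, rone]
  have hneg : ∀ d : V, d = -d → d = 0 := by
    intro d hd
    have : (2 : ZMod q) • d = 0 := by
      rw [two_smul]; nth_rewrite 2 [hd]; simp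
    rcases smul_eq_zero.1 this with h | h
    · exact absurd h two
    · exact h
  apply le_antisymm
  · apply card_mul_le
    intro d h1 h2
    rw [rmul, hz, map_neg, h1] at h2
    exact hneg d h2.symm
  · rw [← Nat.card_prod]
    apply Nat.card_le_card_of_surjective (fun p : fx ρ t × fx ρ (t * z) => (p.1 : V) + p.2)
    intro v
    refine ⟨(⟨(2 : ZMod q)⁻¹ • (v + ρ t v), ?_⟩, ⟨(2 : ZMod q)⁻¹ • (v - ρ t v), ?_⟩), ?_⟩
    · rw [mem_fx, map_smul, map_add, htt, add_comm]
    · rw [mem_fx, rmul, hz, map_neg, map_smul, map_sub, htt, ← smul_neg, neg_sub]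
    · simp only
      rw [← smul_add]
      have : v + ρ t v + (v - ρ t v) = (2 : ZMod q) • v := by rw [two_smul]; abel
      rw [this, smul_smul, inv_mul_cancel₀ two, one_smul]

theorem arith {a a' b b' N : ℕ} (hN : 0 < N) (h1 : a * a' = N) (h2 : b * b' = N) (h3 : b * a ≤ N)
    (h4 : b * a' ≤ N) (h5 : b' * a ≤ N) (h6 : b' * a' ≤ N) : a = a' := by
  have ha : 0 < a := Nat.pos_of_ne_zero (by rintro rfl; simp at h1; omega)
  have ha' : 0 < a' := Nat.pos_of_ne_zero (by rintro rfl; simp at h1; omega)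
  have hb : 0 < b := Nat.pos_of_ne_zero (by rintro rfl; simp at h2; omega)
  have hb' : 0 < b' := Nat.pos_of_ne_zero (by rintro rfl; simp at h2; omega)
  have e1 : a' ≤ b := by
    have : b' * a' ≤ b' * b := by rw [mul_comm b' b, h2]; exact h6
    exact Nat.le_of_mul_le_mul_left this hb'
  have e2 : b ≤ a' := by
    have : a * b ≤ a * a' := by rw [h1, mul_comm]; exact h3
    exact Nat.le_of_mul_le_mul_left this ha
  have e3 : a ≤ b := by
    have : b' * a ≤ b' * b := by rw [mul_comm b' b, h2]; exact h5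
    exact Nat.le_of_mul_le_mul_left this hb'
  have e4 : b ≤ a := by
    have : a' * b ≤ a' * a := by rw [mul_comm a' a, h1, mul_comm]; exact h4
    exact Nat.le_of_mul_le_mul_left this ha'
  omega

end

theorem card_ne {α : Type*} [Finite α] (a : α) : Nat.card {x : α // x ≠ a} = Nat.card α - 1 := by
  classical
  have := Fintype.ofFinite α
  rw [Nat.card_eq_fintype_card, Nat.card_eq_fintype_card]
  exact Set.card_ne_eq a

/-- Let G be a finite group acting faithfully and linearly on a non-trivial finite vector space V over the field with q elements (q prime) so that every non-zero vector has a stabilizer of order 2, and suppose G has a central involution. Then V has q^(2r) elements for some r and G contains exactly q^r + 1 non-central involutions. -/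
theorem result
    (q : ℕ) [Fact q.Prime] {V : Type*} [AddCommGroup V] [Module (ZMod q) V] [Finite V] [Nontrivial V]
    {G : Type*} [Group G] [Finite G] (ρ : G →* (V ≃ₗ[ZMod q] V)) (hρ : Function.Injective ρ)
    (hstab : ∀ v : V, v ≠ 0 → Nat.card {g : G // ρ g v = v} = 2)
    (z : G) (hz : orderOf z = 2) (hzc : z ∈ Subgroup.center G) :
    ∃ r : ℕ, Nat.card V = q ^ (2 * r) ∧
      Nat.card {g : G // orderOf g = 2 ∧ g ∉ Subgroup.center G} = q ^ r + 1 := by
  have hz1 : z ≠ 1 := by rintro rfl; simp at hz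
  have hz2 : z * z = 1 := by rw [← pow_two, ← hz]; exact pow_orderOf_eq_one z
  have hzn : ∀ v, ρ z v = -v := central_neg ρ hstab hρ hzc hz1 hz2
  have two : (2 : ZMod q) ≠ 0 := by
    intro h2
    apply hz1; apply hρ; rw [map_one]; ext w
    show ρ z w = w
    rw [hzn]
    have : (2 : ZMod q) • w = 0 := by rw [h2, zero_smul]
    rw [two_smul] at this
    exact neg_eq_of_add_eq_zero_left this
  have hneg : ∀ d : V, d = -d → d = 0 := by
    intro d hd
    have : (2 : ZMod q) • d = 0 := by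
      rw [two_smul]; nth_rewrite 2 [hd]; simp
    rcases smul_eq_zero.1 this with h | h
    · exact absurd h two
    · exact h
  have hzcomm : ∀ g : G, g * z = z * g := fun g => (Subgroup.mem_center_iff.1 hzc g)
  -- characterization of the noncentral involutions
  have hI : ∀ g : G, (orderOf g = 2 ∧ g ∉ Subgroup.center G) ↔
      (g ≠ 1 ∧ ∃ v : V, v ≠ 0 ∧ ρ g v = v) := by
    intro g
    constructor
    · rintro ⟨ho, hnc⟩
      have hg1 : g ≠ 1 := by rintro rfl; simp at ho
      have hg2 : g * g = 1 := by rw [← pow_two, ← ho]; exact pow_orderOf_eq_one g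
      refine ⟨hg1, ?_⟩
      by_contra hno
      push Not at hno
      apply hnc
      have : g = z := by
        apply hρ
        ext w
        rw [hzn]
        have hfix : ρ g (w + ρ g w) = w + ρ g w := by
          rw [map_add, ← rmul, hg2, rone, add_comm]
        have h0 : w + ρ g w = 0 := by
          by_contra hne
          exact hno _ hne hfix
        exact eq_neg_of_add_eq_zero_right h0
      rw [this]; exact hzc
    · rintro ⟨hg1, v, hv, hgv⟩
      have hg2 := sq_one ρ hstab hv hg1 hgv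
      refine ⟨orderOf_eq_prime (by rw [pow_two]; exact hg2) hg1, ?_⟩
      intro hc
      have := central_neg ρ hstab hρ hc hg1 hg2 v
      rw [hgv] at this
      exact hv (hneg v this)
  have hNpos : 0 < Nat.card V := Nat.card_pos
  -- squares
  have hsq : ∀ t : G, t ≠ 1 → (∃ v : V, v ≠ 0 ∧ ρ t v = v) →
      Nat.card (fx ρ t) * Nat.card (fx ρ t) = Nat.card V := by
    rintro t ht1 ⟨a, ha0, hta⟩
    have ht2 := sq_one ρ hstab ha0 ht1 hta
    have htt : ∀ w, ρ t (ρ t w) = w := by
      intro w; rw [← rmul, ht2, rone]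
    obtain ⟨w, hw⟩ : ∃ w : V, w - ρ t w ≠ 0 := by
      by_contra hall
      push Not at hall
      apply ht1; apply hρ; rw [map_one]; ext w
      exact (sub_eq_zero.1 (hall w)).symm
    set b := w - ρ t w with hb
    have htb : ρ t b = -b := by rw [hb, map_sub, htt, neg_sub]
    have htzb : ρ (t * z) b = b := by rw [rmul, hzn, map_neg, htb, neg_neg]
    have htz1 : t * z ≠ 1 := by
      intro h
      have h1 : ρ (t * z) a = a := by rw [h, rone]
      rw [rmul, hzn, map_neg, hta] at h1
      exact ha0 (hneg a h1.symm)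
    have hv0 : a + b ≠ 0 := by
      intro h
      have hab : a = -b := eq_neg_of_add_eq_zero_left h
      have h1 : ρ t a = -a := by rw [hab, map_neg, htb]
      rw [hta] at h1
      exact ha0 (hneg a h1)
    obtain ⟨s, hs1, hsv⟩ := exi ρ hstab hv0
    have hs2 := sq_one ρ hstab hv0 hs1 hsv
    have hst : s ≠ t := by
      rintro rfl
      rw [map_add, hta, htb] at hsv
      have : -b = b := add_left_cancel hsv
      exact hw (hneg b this.symm)
    have hstz : s ≠ t * z := by
      rintro rfl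
      rw [map_add, htzb, rmul, hzn, map_neg, hta] at hsv
      have : -a = a := add_right_cancel hsv
      exact ha0 (hneg a this.symm)
    have hsz1 : s * z ≠ 1 := by
      intro h
      have h1 : ρ (s * z) (a + b) = a + b := by rw [h, rone]
      rw [rmul, hzn, map_neg, hsv] at h1
      exact hv0 (hneg _ h1.symm)
    have hszt : s * z ≠ t := by
      intro h
      apply hstz
      rw [← h, mul_assoc, hz2, mul_one]
    have hsztz : s * z ≠ t * z := fun h => hst (mul_right_cancel h)
    have disj : ∀ g h : G, g ≠ 1 → h ≠ 1 → g ≠ h → ∀ d : V, ρ g d = d → ρ h d = d → d = 0 := by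
      intro g h hg hh hgh d h1 h2
      by_contra hd
      exact hgh (uniq ρ hstab hd h1 h2 hg hh)
    have e := arith hNpos (card_mul_eq ρ two t z ht2 hzn) (card_mul_eq ρ two s z hs2 hzn)
      (card_mul_le ρ s t (disj s t hs1 ht1 hst))
      (card_mul_le ρ s (t * z) (disj s (t * z) hs1 htz1 hstz))
      (card_mul_le ρ (s * z) t (disj (s * z) t hsz1 ht1 hszt))
      (card_mul_le ρ (s * z) (t * z) (disj (s * z) (t * z) hsz1 htz1 hsztz))
    have h1 := card_mul_eq ρ two t z ht2 hzn
    rw [← e] at h1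
    exact h1
  -- pick one
  obtain ⟨v0, hv0⟩ := exists_ne (0 : V)
  obtain ⟨t0, ht01, ht0v⟩ := exi ρ hstab hv0
  have hfr : Nat.card (fx ρ t0) = q ^ Module.finrank (ZMod q) (fx ρ t0) := by
    rw [Module.natCard_eq_pow_finrank (K := ZMod q), Nat.card_zmod]
  set r := Module.finrank (ZMod q) (fx ρ t0) with hr
  have hN : Nat.card V = q ^ r * q ^ r := by
    rw [← hsq t0 ht01 ⟨v0, hv0, ht0v⟩, hfr]
  have hall : ∀ t : G, t ≠ 1 → (∃ v : V, v ≠ 0 ∧ ρ t v = v) → Nat.card (fx ρ t) = q ^ r := by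
    intro t ht hv
    have := hsq t ht hv
    rw [hN] at this
    exact Nat.mul_self_inj.1 this
  refine ⟨r, by rw [hN, two_mul, pow_add], ?_⟩
  -- counting
  let I := {g : G // orderOf g = 2 ∧ g ∉ Subgroup.center G}
  choose τ0 hτ1 hτ2 using fun v : {v : V // v ≠ 0} => exi ρ hstab v.2
  let τ : {v : V // v ≠ 0} → I := fun v => ⟨τ0 v, (hI _).2 ⟨hτ1 v, v.1, v.2, hτ2 v⟩⟩
  have hfib : ∀ t : I, Nat.card {v : {v : V // v ≠ 0} // τ v = t} = q ^ r - 1 := by
    intro t
    obtain ⟨ht1, hex⟩ := (hI t.1).1 t.2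
    rw [← hall t.1 ht1 hex, ← card_ne (0 : fx ρ t.1)]
    apply Nat.card_congr
    refine ⟨fun v => ⟨⟨v.1.1, ?_⟩, ?_⟩, fun x => ⟨⟨x.1.1, ?_⟩, ?_⟩, ?_, ?_⟩
    · rw [mem_fx]
      have := hτ2 v.1
      have h2 : τ0 v.1 = t.1 := congrArg Subtype.val v.2
      rw [h2] at this
      exact this
    · intro h
      exact v.1.2 (congrArg Subtype.val h)
    · intro h
      exact x.2 (Subtype.ext h)
    · apply Subtype.ext
      show τ0 _ = t.1
      exact uniq ρ hstab (fun h => x.2 (Subtype.ext h)) (hτ2 _) x.1.2 (hτ1 _) ht1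
    · intro v; rfl
    · intro x; rfl
  have hsum : Nat.card {v : V // v ≠ 0} = Nat.card I * (q ^ r - 1) := by
    have := Fintype.ofFinite I
    rw [← Nat.card_congr (Equiv.sigmaFiberEquiv τ), Nat.card_sigma]
    simp only [hfib, Finset.sum_const, Finset.card_univ, smul_eq_mul, Nat.card_eq_fintype_card]
  rw [card_ne, hN] at hsum
  have hq1 : 1 < q ^ r := by
    rw [← hfr]
    have : Nontrivial (fx ρ t0) := ⟨⟨⟨v0, ht0v⟩, 0, fun h => hv0 (congrArg Subtype.val h)⟩⟩
    exact Finite.one_lt_card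
  obtain ⟨m, hm⟩ : ∃ m, q ^ r = m + 2 := ⟨q ^ r - 2, by omega⟩
  show Nat.card I = q ^ r + 1
  rw [hm] at hsum ⊢
  have h1 : (m + 2) * (m + 2) - 1 = (m + 3) * (m + 1) := by
    have : (m + 2) * (m + 2) = (m + 3) * (m + 1) + 1 := by ring
    omega
  have h2 : m + 2 - 1 = m + 1 := by omega
  rw [h1, h2] at hsum
  exact (Nat.eq_of_mul_eq_mul_right (by omega) hsum).symm

end Cfsg.Agent.S3381
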