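import Cfsg.Statements.S3382
import Cfsg.Agent.Lib.Helper21.Homocyclic
import Cfsg.Agent.Lib.Helper3.Coprime
import Cfsg.Agent.Lib.Helper89.StabSubgroup

set_option autoImplicit false
set_option linter.unusedSectionVars false
open Cfsg

namespace Cfsg.Agent.S3382

section
variable {q : ℕ} [Fact q.Prime]

/-- diagonal map -/
def dg (a b : (ZMod q)ˣ) : (Fin 2 → ZMod q) ≃ₗ[ZMod q] (Fin 2 → ZMod q) where
  toFun v := ![a * v 0, b * v 1]
  map_add' v w := by ext i; fin_cases i <;> simp [mul_add]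
  map_smul' c v := by ext i; fin_cases i <;> simp [mul_left_comm]
  invFun v := ![↑a⁻¹ * v 0, ↑b⁻¹ * v 1]
  left_inv v := by
    ext i; fin_cases i
    · show (↑a⁻¹ : ZMod q) * (a * v 0) = v 0
      rw [Units.inv_mul_cancel_left]
    · show (↑b⁻¹ : ZMod q) * (b * v 1) = v 1
      rw [Units.inv_mul_cancel_left]
  right_inv v := by
    ext i; fin_cases i
    · show (a : ZMod q) * (↑a⁻¹ * v 0) = v 0
      rw [Units.mul_inv_cancel_left]
    · show (b : ZMod q) * (↑b⁻¹ * v 1) = v 1
      rw [Units.mul_inv_cancel_left]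

/-- antidiagonal map -/
def an (a b : (ZMod q)ˣ) : (Fin 2 → ZMod q) ≃ₗ[ZMod q] (Fin 2 → ZMod q) where
  toFun v := ![b * v 1, a * v 0]
  map_add' v w := by ext i; fin_cases i <;> simp [mul_add]
  map_smul' c v := by ext i; fin_cases i <;> simp [mul_left_comm]
  invFun v := ![↑a⁻¹ * v 1, ↑b⁻¹ * v 0]
  left_inv v := by
    ext i; fin_cases i
    · show (↑a⁻¹ : ZMod q) * (a * v 0) = v 0
      rw [Units.inv_mul_cancel_left]
    · show (↑b⁻¹ : ZMod q) * (b * v 1) = v 1
      rw [Units.inv_mul_cancel_left]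
  right_inv v := by
    ext i; fin_cases i
    · show (b : ZMod q) * (↑b⁻¹ * v 0) = v 0
      rw [Units.mul_inv_cancel_left]
    · show (a : ZMod q) * (↑a⁻¹ * v 1) = v 1
      rw [Units.mul_inv_cancel_left]

theorem dg_apply (a b : (ZMod q)ˣ) (v : Fin 2 → ZMod q) : dg a b v = ![a * v 0, b * v 1] := rfl
theorem an_apply (a b : (ZMod q)ˣ) (v : Fin 2 → ZMod q) : an a b v = ![b * v 1, a * v 0] := rfl

theorem dg_dg (a b c d : (ZMod q)ˣ) : dg a b * dg c d = dg (a * c) (b * d) := by
  ext v i; fin_cases i <;> simp [LinearEquiv.mul_apply, dg_apply, mul_assoc]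
theorem an_an (a b c d : (ZMod q)ˣ) : an a b * an c d = dg (b * c) (a * d) := by
  ext v i; fin_cases i <;> simp [LinearEquiv.mul_apply, dg_apply, an_apply, mul_assoc]
theorem dg_an (a b c d : (ZMod q)ˣ) : dg a b * an c d = an (b * c) (a * d) := by
  ext v i; fin_cases i <;> simp [LinearEquiv.mul_apply, dg_apply, an_apply, mul_assoc]
theorem an_dg (a b c d : (ZMod q)ˣ) : an a b * dg c d = an (a * c) (b * d) := by
  ext v i; fin_cases i <;> simp [LinearEquiv.mul_apply, dg_apply, an_apply, mul_assoc]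
theorem dg_one : dg (1 : (ZMod q)ˣ) 1 = 1 := by
  ext v i; fin_cases i <;> simp [dg_apply]
theorem dg_pow (a b : (ZMod q)ˣ) (k : ℕ) : dg a b ^ k = dg (a ^ k) (b ^ k) := by
  induction k with
  | zero => simp [dg_one]
  | succ k ih => rw [pow_succ, ih, dg_dg, pow_succ, pow_succ]
theorem dg_inj {a b c d : (ZMod q)ˣ} (h : dg a b = dg c d) : a = c ∧ b = d := by
  have h0 := congrFun (congrArg (fun f => f ![1, 0]) h) 0
  have h1 := congrFun (congrArg (fun f => f ![0, 1]) h) 1
  simp [dg_apply] at h0 h1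
  exact ⟨Units.ext h0, Units.ext h1⟩
theorem an_inj {a b c d : (ZMod q)ˣ} (h : an a b = an c d) : a = c ∧ b = d := by
  have h0 := congrFun (congrArg (fun f => f ![1, 0]) h) 1
  have h1 := congrFun (congrArg (fun f => f ![0, 1]) h) 0
  simp [an_apply] at h0 h1
  exact ⟨Units.ext h0, Units.ext h1⟩
theorem dg_ne_an (a b c d : (ZMod q)ˣ) : dg a b ≠ an c d := by
  intro h
  have h0 := congrFun (congrArg (fun f => f ![1, 0]) h) 0
  simp [dg_apply, an_apply] at h0
theorem an_inv (a b : (ZMod q)ˣ) : (an a b)⁻¹ = an b⁻¹ a⁻¹ := by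
  apply inv_eq_of_mul_eq_one_right
  rw [an_an]; simp [dg_one]
theorem dg_inv (a b : (ZMod q)ˣ) : (dg a b)⁻¹ = dg a⁻¹ b⁻¹ := by
  apply inv_eq_of_mul_eq_one_right
  rw [dg_dg]; simp [dg_one]

variable {T : Subgroup ((Fin 2 → ZMod q) ≃ₗ[ZMod q] (Fin 2 → ZMod q))}
    (hT : ∀ f, f ∈ T ↔ ∃ a s : ZMod q, a ≠ 0 ∧ (s = 1 ∨ s = -1) ∧
      ((∀ v, f v = ![a * v 0, s * a⁻¹ * v 1]) ∨ (∀ v, f v = ![s * a⁻¹ * v 1, a * v 0])))
include hT

theorem mem_cases {f : (Fin 2 → ZMod q) ≃ₗ[ZMod q] (Fin 2 → ZMod q)} (hf : f ∈ T) :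
    ∃ a b : (ZMod q)ˣ, (a * b = 1 ∨ a * b = -1) ∧ (f = dg a b ∨ f = an a b) := by
  obtain ⟨a, s, ha, hs, h⟩ := (hT f).1 hf
  have hs0 : s ≠ 0 := by
    rcases hs with rfl | rfl
    · exact one_ne_zero
    · exact neg_ne_zero.2 one_ne_zero
  refine ⟨Units.mk0 a ha, Units.mk0 (s * a⁻¹) (mul_ne_zero hs0 (inv_ne_zero ha)), ?_, ?_⟩
  · rcases hs with rfl | rfl
    · left; ext; simp [ha]
    · right; ext; simp [ha]
  · rcases h with h | h
    · left; ext v i; rw [h v]; rfl
    · right; ext v i; rw [h v]; rfl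

theorem dg_mem (a b : (ZMod q)ˣ) (h : a * b = 1 ∨ a * b = -1) : dg a b ∈ T := by
  rw [hT]
  refine ⟨a, ((a * b : (ZMod q)ˣ) : ZMod q), a.ne_zero, ?_, Or.inl ?_⟩
  · rcases h with h | h
    · left; rw [h]; rfl
    · right; rw [h]; simp
  · intro v
    rw [dg_apply]
    have : ((a * b : (ZMod q)ˣ) : ZMod q) * (a : ZMod q)⁻¹ = b := by
      rw [Units.val_mul, mul_comm (a : ZMod q), mul_assoc, mul_inv_cancel₀ a.ne_zero, mul_one]
    rw [this]

theorem an_mem (a b : (ZMod q)ˣ) (h : a * b = 1 ∨ a * b = -1) : an a b ∈ T := by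
  rw [hT]
  refine ⟨a, ((a * b : (ZMod q)ˣ) : ZMod q), a.ne_zero, ?_, Or.inr ?_⟩
  · rcases h with h | h
    · left; rw [h]; rfl
    · right; rw [h]; simp
  · intro v
    rw [an_apply]
    have : ((a * b : (ZMod q)ˣ) : ZMod q) * (a : ZMod q)⁻¹ = b := by
      rw [Units.val_mul, mul_comm (a : ZMod q), mul_assoc, mul_inv_cancel₀ a.ne_zero, mul_one]
    rw [this]

omit hT in
theorem fix_of_sq {T : Type*} [Group T] (α : MulAut T) (n : ℕ) (hn : Odd n) (hαn : α ^ n = 1) (x : T)
    (h : α (α x) = x) : α x = x := by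
  obtain ⟨k, rfl⟩ := hn
  have h2 : ∀ j : ℕ, (α ^ (2 * j)) x = x := by
    intro j
    induction j with
    | zero => simp
    | succ j ih =>
      have h' : (α ^ 2) x = x := by rw [pow_two, MulAut.mul_apply]; exact h
      rw [Nat.mul_succ, pow_add, MulAut.mul_apply, h', ih]
  have h3 : (α ^ (2 * k + 1)) x = x := by rw [hαn]; rfl
  rw [pow_succ', MulAut.mul_apply, h2] at h3
  exact h3

omit hT in
theorem unit_sq {a : (ZMod q)ˣ} (h : a ^ 2 = 1) : a = 1 ∨ a = -1 := by
  have h1 : (a : ZMod q) * a = 1 := by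
    have := congrArg Units.val h
    simpa [pow_two] using this
  rcases mul_self_eq_one_iff.1 h1 with h | h
  · left; exact Units.ext h
  · right; exact Units.ext (by simpa using h)

theorem isP (m : ℕ) (hq : q = 2 ^ m + 1) : IsPGroup 2 T := by
  intro t
  refine ⟨m + 1, ?_⟩
  apply Subtype.ext
  rw [Subgroup.coe_pow, Subgroup.coe_one]
  have hq' : q - 1 = 2 ^ m := by rw [hq]; simp
  have hu : ∀ a : (ZMod q)ˣ, a ^ (2 ^ m) = 1 := by
    intro a
    have := ZMod.units_pow_card_sub_one_eq_one q a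
    rwa [hq'] at this
  obtain ⟨a, b, hab, h | h⟩ := mem_cases hT t.2
  · rw [h, dg_pow, pow_succ, pow_mul, pow_mul, hu, hu]; simp [dg_one]
  · rw [h, pow_succ', pow_mul, pow_two, an_an, dg_pow, hu, hu, dg_one]

open Cfsg.Agent.Lib.Helper3 Cfsg.Agent.Lib.Helper21 in
theorem aut_trivial_big (m : ℕ) (hq : q = 2 ^ m + 1) (h2 : (2 : ZMod q) ≠ 0)
    (h16 : (16 : ZMod q) ≠ 1) (α : MulAut T) (hα : Nat.Coprime (orderOf α) 2) : α = 1 := by
  have hP : IsPGroup 2 T := isP hT m hq
  have hodd : Odd (orderOf α) := Nat.coprime_two_right.1 hα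
  have hαn : α ^ orderOf α = 1 := pow_orderOf_eq_one α
  have hne : (1 : (ZMod q)ˣ) ≠ -1 := by
    intro h
    have h' : (1 : ZMod q) = -1 := by
      have := congrArg Units.val h
      simpa using this
    apply h2
    linear_combination h'
  let A : Subgroup T := Subgroup.centralizer {x : T | ∃ u : T, x = u ^ 2}
  have sq_diag : ∀ u : T, ∃ c d, ((u ^ 2 : T) : (Fin 2 → ZMod q) ≃ₗ[ZMod q] (Fin 2 → ZMod q)) = dg c d := by
    intro u
    rw [Subgroup.coe_pow]
    obtain ⟨a, b, -, h | h⟩ := mem_cases hT u.2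
    · exact ⟨_, _, by rw [h, dg_pow]⟩
    · exact ⟨_, _, by rw [h, pow_two, an_an]⟩
  have memA : ∀ t : T, t ∈ A ↔ ∃ a b, t.1 = dg a b := by
    intro t
    constructor
    · intro ht
      obtain ⟨a, b, -, h | h⟩ := mem_cases hT t.2
      · exact ⟨a, b, h⟩
      · exfalso
        let two : (ZMod q)ˣ := Units.mk0 2 h2
        let u : T := ⟨dg two two⁻¹, dg_mem hT _ _ (Or.inl (by simp))⟩
        have h1 := (Subgroup.mem_centralizer_iff.1 ht) (u ^ 2) ⟨u, rfl⟩
        have h3 := congrArg Subtype.val h1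
        rw [Subgroup.coe_mul, Subgroup.coe_mul, Subgroup.coe_pow, h] at h3
        change dg two two⁻¹ ^ 2 * an a b = an a b * dg two two⁻¹ ^ 2 at h3
        rw [dg_pow, dg_an, an_dg] at h3
        have h4 := (an_inj h3).1
        rw [mul_comm] at h4
        have h5 : two⁻¹ ^ 2 = two ^ 2 := mul_left_cancel h4
        have h6 : two ^ 4 = 1 := by
          calc two ^ 4 = two ^ 2 * two ^ 2 := by rw [← pow_add]
            _ = two ^ 2 * two⁻¹ ^ 2 := by rw [h5]
            _ = 1 := by rw [← mul_pow]; simp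
        apply h16
        have h7 := congrArg Units.val h6
        simp only [Units.val_pow_eq_pow_val, Units.val_one, two, Units.val_mk0] at h7
        rw [← h7]; norm_num
    · rintro ⟨a, b, h⟩
      rw [Subgroup.mem_centralizer_iff]
      rintro x ⟨u, rfl⟩
      obtain ⟨c, d, hcd⟩ := sq_diag u
      apply Subtype.ext
      rw [Subgroup.coe_mul, Subgroup.coe_mul, hcd, h, dg_dg, dg_dg, mul_comm c, mul_comm d]
  have invA : ∀ β : MulAut T, ∀ t ∈ A, β t ∈ A := by
    intro β t ht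
    rw [Subgroup.mem_centralizer_iff] at ht ⊢
    rintro x ⟨u, rfl⟩
    have h1 := ht ((β.symm u) ^ 2) ⟨_, rfl⟩
    have h' := congrArg β h1
    simpa using h'
  let zc : T := ⟨dg (-1) (-1), dg_mem hT _ _ (Or.inl (by simp))⟩
  let z1 : T := ⟨dg 1 (-1), dg_mem hT _ _ (Or.inr (by simp))⟩
  let z2 : T := ⟨dg (-1) 1, dg_mem hT _ _ (Or.inr (by simp))⟩
  let w0 : T := ⟨an 1 1, an_mem hT _ _ (Or.inl (by simp))⟩
  have inv_cases : ∀ t : T, t ∈ A → t ^ 2 = 1 → t = 1 ∨ t = zc ∨ t = z1 ∨ t = z2 := by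
    intro t ht h
    obtain ⟨a, b, hab⟩ := (memA t).1 ht
    have h1 := congrArg Subtype.val h
    rw [Subgroup.coe_pow, hab, dg_pow, Subgroup.coe_one, ← dg_one] at h1
    obtain ⟨ha, hb⟩ := dg_inj h1
    rcases unit_sq ha with rfl | rfl <;> rcases unit_sq hb with rfl | rfl
    · left; exact Subtype.ext (hab.trans dg_one)
    · right; right; left; exact Subtype.ext hab
    · right; right; right; exact Subtype.ext hab
    · right; left; exact Subtype.ext hab
  have hzc : ∀ u : T, zc * u = u * zc := by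
    intro u
    apply Subtype.ext
    rw [Subgroup.coe_mul, Subgroup.coe_mul]
    change dg (-1) (-1) * u.1 = u.1 * dg (-1) (-1)
    obtain ⟨a, b, -, h | h⟩ := mem_cases hT u.2
    · rw [h, dg_dg, dg_dg, mul_comm a, mul_comm b]
    · rw [h, dg_an, an_dg, mul_comm a, mul_comm b]
  have hz1 : ¬ ∀ u : T, z1 * u = u * z1 := by
    intro h
    have h1 := congrArg Subtype.val (h w0)
    rw [Subgroup.coe_mul, Subgroup.coe_mul] at h1
    change dg 1 (-1) * an 1 1 = an 1 1 * dg 1 (-1) at h1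
    rw [dg_an, an_dg] at h1
    have := (an_inj h1).1
    simp only [mul_one] at this
    exact hne this.symm
  have hz2 : ¬ ∀ u : T, z2 * u = u * z2 := by
    intro h
    have h1 := congrArg Subtype.val (h w0)
    rw [Subgroup.coe_mul, Subgroup.coe_mul] at h1
    change dg (-1) 1 * an 1 1 = an 1 1 * dg (-1) 1 at h1
    rw [dg_an, an_dg] at h1
    have := (an_inj h1).1
    simp only [mul_one, one_mul] at this
    exact hne this
  have hcen : ∀ z : T, (∀ u : T, z * u = u * z) → ∀ u : T, α z * u = u * α z := by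
    intro z hz u
    have h1 := congrArg α (hz (α.symm u))
    simpa using h1
  have zcA : zc ∈ A := (memA zc).2 ⟨_, _, rfl⟩
  have z1A : z1 ∈ A := (memA z1).2 ⟨_, _, rfl⟩
  have z2A : z2 ∈ A := (memA z2).2 ⟨_, _, rfl⟩
  have zc2 : zc ^ 2 = 1 := by
    apply Subtype.ext
    rw [Subgroup.coe_pow]
    change dg (-1) (-1) ^ 2 = 1
    rw [dg_pow]; simp [dg_one]
  have z12 : z1 ^ 2 = 1 := by
    apply Subtype.ext
    rw [Subgroup.coe_pow]
    change dg 1 (-1) ^ 2 = 1
    rw [dg_pow]; simp [dg_one]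
  have z22 : z2 ^ 2 = 1 := by
    apply Subtype.ext
    rw [Subgroup.coe_pow]
    change dg (-1) 1 ^ 2 = 1
    rw [dg_pow]; simp [dg_one]
  have ne_of : ∀ {a b c d : (ZMod q)ˣ} (h1 : dg a b ∈ T) (h2 : dg c d ∈ T), (a ≠ c ∨ b ≠ d) →
      (⟨dg a b, h1⟩ : T) ≠ ⟨dg c d, h2⟩ := by
    intro a b c d h1 h2 h h'
    obtain ⟨e1, e2⟩ := dg_inj (congrArg Subtype.val h')
    rcases h with h | h
    · exact h e1
    · exact h e2
  have one_eq : (1 : T) = ⟨dg 1 1, dg_mem hT _ _ (Or.inl (by simp))⟩ := Subtype.ext dg_one.symm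
  have zc1 : zc ≠ 1 := by rw [one_eq]; exact ne_of _ _ (Or.inl hne.symm)
  have z11 : z1 ≠ 1 := by rw [one_eq]; exact ne_of _ _ (Or.inr hne.symm)
  have z21 : z2 ≠ 1 := by rw [one_eq]; exact ne_of _ _ (Or.inl hne.symm)
  have z1c : z1 ≠ zc := ne_of _ _ (Or.inl hne)
  have z2c : z2 ≠ zc := ne_of _ _ (Or.inr hne)
  have z1z2 : z1 ≠ z2 := ne_of _ _ (Or.inl hne)
  have fzc : α zc = zc := by
    rcases inv_cases (α zc) (invA α zc zcA) (by rw [← map_pow, zc2, map_one]) with h | h | h | h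
    · exfalso; exact zc1 (by simpa using h)
    · exact h
    · exfalso; apply hz1; rw [← h]; exact hcen zc hzc
    · exfalso; apply hz2; rw [← h]; exact hcen zc hzc
  have c1 : α z1 = z1 ∨ α z1 = z2 := by
    rcases inv_cases (α z1) (invA α z1 z1A) (by rw [← map_pow, z12, map_one]) with h | h | h | h
    · exfalso; exact z11 (by simpa using h)
    · exfalso; exact z1c (α.injective (h.trans fzc.symm))
    · left; exact h
    · right; exact h
  have c2 : α z2 = z1 ∨ α z2 = z2 := by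
    rcases inv_cases (α z2) (invA α z2 z2A) (by rw [← map_pow, z22, map_one]) with h | h | h | h
    · exfalso; exact z21 (by simpa using h)
    · exfalso; exact z2c (α.injective (h.trans fzc.symm))
    · left; exact h
    · right; exact h
  have fz1 : α z1 = z1 := by
    apply fix_of_sq α _ hodd hαn
    rcases c1 with h | h
    · rw [h, h]
    · rw [h]
      rcases c2 with h' | h'
      · exact h'
      · exfalso; exact z1z2 (α.injective (h.trans h'.symm))
  have fz2 : α z2 = z2 := by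
    rcases c2 with h | h
    · exfalso; exact z1z2 (α.injective (fz1.trans h.symm))
    · exact h
  let β : MulAut A := restrictAut α A (invA α) (invA α.symm)
  have hβ : β = 1 := by
    apply aut_eq_one_of_fix_involutions _ (hP.to_subgroup A) β (orderOf α) hodd
    · exact orderOf_dvd_iff_pow_eq_one.1 (orderOf_restrictAut_dvd α A (invA α) (invA α.symm))
    · intro z hz
      have hz2' : z ^ 2 = 1 := by
        have := pow_orderOf_eq_one z
        rwa [hz] at this
      have hz1' : z ≠ 1 := by rintro rfl; simp at hz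
      apply Subtype.ext
      rw [restrictAut_apply]
      rcases inv_cases z.1 z.2 (by rw [← Subgroup.coe_pow, hz2']; rfl) with h | h | h | h
      · exfalso; exact hz1' (Subtype.ext h)
      · rw [h]; exact fzc
      · rw [h]; exact fz1
      · rw [h]; exact fz2
    · intro x y
      obtain ⟨a, b, hab⟩ := (memA x.1).1 x.2
      obtain ⟨c, d, hcd⟩ := (memA y.1).1 y.2
      apply Subtype.ext; apply Subtype.ext
      rw [Subgroup.coe_mul, Subgroup.coe_mul, Subgroup.coe_mul, Subgroup.coe_mul, hab, hcd, dg_dg,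
        dg_dg, mul_comm a, mul_comm b]
  have fA : ∀ t ∈ A, α t = t := by
    intro t ht
    have h1 : β ⟨t, ht⟩ = ⟨t, ht⟩ := by rw [hβ]; rfl
    exact congrArg Subtype.val h1
  ext1 t
  rw [MulAut.one_apply]
  by_cases ht : t ∈ A
  · exact fA t ht
  · apply aut_fixes_of_coprime hP α hα t
    apply fA
    have ht' : α t ∉ A := by
      intro h
      apply ht
      have := invA α.symm _ h
      simpa using this
    obtain ⟨a, b, -, h | h⟩ := mem_cases hT t.2
    · exact absurd ((memA t).2 ⟨a, b, h⟩) ht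
    · obtain ⟨c, d, -, h' | h'⟩ := mem_cases hT (α t).2
      · exact absurd ((memA _).2 ⟨c, d, h'⟩) ht'
      · rw [memA]
        refine ⟨a⁻¹ * c, b⁻¹ * d, ?_⟩
        rw [Subgroup.coe_mul, Subgroup.coe_inv, h, h', an_inv, an_an]

open Cfsg.Agent.Lib.Helper3 in
theorem aut_trivial_three (hu : ∀ a : (ZMod q)ˣ, a = 1 ∨ a = -1) (hne : (1 : (ZMod q)ˣ) ≠ -1)
    (hP : IsPGroup 2 T) (α : MulAut T) (hα : Nat.Coprime (orderOf α) 2) : α = 1 := by
  let zc : T := ⟨dg (-1) (-1), dg_mem hT _ _ (Or.inl (by simp))⟩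
  let c1 : T := ⟨an 1 (-1), an_mem hT _ _ (Or.inr (by simp))⟩
  have husq : ∀ a : (ZMod q)ˣ, a * a = 1 := by
    intro a; rcases hu a with rfl | rfl <;> simp
  have hsq : ∀ u : T, u ^ 2 = 1 ∨ u ^ 2 = zc := by
    intro u
    obtain ⟨a, b, hab, h | h⟩ := mem_cases hT u.2
    · left
      apply Subtype.ext
      rw [Subgroup.coe_pow, h, pow_two, dg_dg, husq, husq, dg_one]; rfl
    · rcases hab with hab | hab
      · left
        apply Subtype.ext
        rw [Subgroup.coe_pow, h, pow_two, an_an, mul_comm b a, hab, dg_one]; rfl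
      · right
        apply Subtype.ext
        rw [Subgroup.coe_pow, h, pow_two, an_an, mul_comm b a, hab]
  have hc1 : c1 ^ 2 = zc := by
    apply Subtype.ext
    rw [Subgroup.coe_pow]
    change an 1 (-1) ^ 2 = dg (-1) (-1)
    rw [pow_two, an_an]; simp
  have zc1 : zc ≠ 1 := by
    intro h
    have h1 := congrArg Subtype.val h
    change dg (-1) (-1) = 1 at h1
    rw [← dg_one] at h1
    exact hne (dg_inj h1).1.symm
  have fzc : α zc = zc := by
    rw [← hc1, map_pow]
    rcases hsq (α c1) with h | h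
    · exfalso
      rw [← map_pow, hc1] at h
      exact zc1 (by simpa using h)
    · rw [h, hc1]
  have fc1 : α c1 = c1 := by
    apply aut_fixes_of_coprime hP α hα c1
    have h1 : (α c1) ^ 2 = zc := by rw [← map_pow, hc1, fzc]
    have h2 : c1⁻¹ * α c1 = 1 ∨ c1⁻¹ * α c1 = zc := by
      obtain ⟨a, b, hab, h | h⟩ := mem_cases hT (α c1).2
      · exfalso
        have h3 := congrArg Subtype.val h1
        rw [Subgroup.coe_pow, h, pow_two, dg_dg, husq, husq] at h3
        exact hne (dg_inj h3).1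
      · have h3 := congrArg Subtype.val h1
        rw [Subgroup.coe_pow, h, pow_two, an_an] at h3
        have h4 : a * b = -1 := (dg_inj h3).2
        rcases hu a with rfl | rfl
        · left
          apply Subtype.ext
          rw [Subgroup.coe_mul, Subgroup.coe_inv, h]
          change (an 1 (-1))⁻¹ * an 1 b = 1
          rw [one_mul] at h4
          rw [h4, inv_mul_cancel]
        · right
          apply Subtype.ext
          rw [Subgroup.coe_mul, Subgroup.coe_inv, h]
          change (an 1 (-1))⁻¹ * an (-1) b = dg (-1) (-1)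
          have h5 : b = 1 := by
            have := congrArg (fun x => -x) h4
            simpa using this
          rw [h5, an_inv, an_an]; simp
    rcases h2 with h | h
    · rw [h, map_one]
    · rw [h, fzc]
  have fixC : ∀ t : T, ((∃ a, t.1 = dg a a) ∨ (∃ a, t.1 = an a (-a))) → α t = t := by
    rintro t (⟨a, h⟩ | ⟨a, h⟩)
    · rcases hu a with rfl | rfl
      · have : t = 1 := Subtype.ext (h.trans dg_one)
        rw [this, map_one]
      · have : t = zc := Subtype.ext h
        rw [this, fzc]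
    · rcases hu a with rfl | rfl
      · have : t = c1 := Subtype.ext h
        rw [this, fc1]
      · have : t = c1⁻¹ := by
          apply Subtype.ext
          rw [h, Subgroup.coe_inv]
          change an (-1) (- -1) = (an 1 (-1))⁻¹
          rw [an_inv]; simp
        rw [this, map_inv, fc1]
  have hneg : ∀ a b : (ZMod q)ˣ, a = b ∨ b = -a := by
    intro a b
    rcases hu a with rfl | rfl <;> rcases hu b with rfl | rfl <;> simp
  have outC : ∀ t : T, ¬ ((∃ a, t.1 = dg a a) ∨ (∃ a, t.1 = an a (-a))) →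
      ((∃ a, t.1 = dg a (-a)) ∨ (∃ a, t.1 = an a a)) := by
    intro t ht
    push Not at ht
    obtain ⟨a, b, -, h | h⟩ := mem_cases hT t.2
    · left
      rcases hneg a b with rfl | rfl
      · exact absurd h (ht.1 a)
      · exact ⟨a, h⟩
    · right
      rcases hneg a b with rfl | rfl
      · exact ⟨a, h⟩
      · exact absurd h (ht.2 a)
  ext1 t
  rw [MulAut.one_apply]
  by_cases ht : ((∃ a, t.1 = dg a a) ∨ (∃ a, t.1 = an a (-a)))
  · exact fixC t ht
  · apply aut_fixes_of_coprime hP α hα t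
    apply fixC
    have ht' : ¬ ((∃ a, (α t).1 = dg a a) ∨ (∃ a, (α t).1 = an a (-a))) := by
      intro h
      apply ht
      have h1 := fixC _ h
      have h2 : α t = t := α.injective h1
      rwa [h2] at h
    rw [Subgroup.coe_mul, Subgroup.coe_inv]
    rcases outC t ht with ⟨a, h⟩ | ⟨a, h⟩ <;> rcases outC _ ht' with ⟨c, h'⟩ | ⟨c, h'⟩
    · left; exact ⟨a⁻¹ * c, by rw [h, h', dg_inv, dg_dg]; simp⟩
    · right; exact ⟨-a⁻¹ * c, by rw [h, h', dg_inv, dg_an]; simp⟩
    · right; exact ⟨a⁻¹ * c, by rw [h, h', an_inv, an_dg]; simp⟩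
    · left; exact ⟨a⁻¹ * c, by rw [h, h', an_inv, an_an]⟩

theorem aut_trivial_two (hu : ∀ a : (ZMod q)ˣ, a = 1) (α : MulAut T) : α = 1 := by
  have h : ∀ t : T, t = 1 ∨ t.1 = an 1 1 := by
    intro t
    obtain ⟨a, b, -, h | h⟩ := mem_cases hT t.2
    · left; apply Subtype.ext; rw [h, hu a, hu b, dg_one]; rfl
    · right; rw [h, hu a, hu b]
  ext1 t
  rw [MulAut.one_apply]
  rcases h t with rfl | ht
  · rw [map_one]
  · rcases h (α t) with h' | h'
    · have : t = 1 := by simpa using h'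
      rw [this, map_one]
    · exact Subtype.ext (h'.trans ht.symm)

end

theorem u2 : ∀ a : (ZMod 2)ˣ, a = 1 := by decide
theorem u3 : ∀ a : (ZMod 3)ˣ, a = 1 ∨ a = -1 := by decide
theorem u3' : (1 : (ZMod 3)ˣ) ≠ -1 := by decide

/-- Let q = 2^m + 1 be a prime other than 5. Then the automorphism group of the group of linear maps of F_q² of the forms (x, y) ↦ (a x, ± a⁻¹ y) and (x, y) ↦ (± a⁻¹ y, a x) with a ≠ 0 is itself a 2-group. -/
theorem result (q m : ℕ) [Fact q.Prime] (hq : q = 2 ^ m + 1) (hq5 : q ≠ 5)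
    (T : Subgroup ((Fin 2 → ZMod q) ≃ₗ[ZMod q] (Fin 2 → ZMod q)))
    (hT : ∀ f, f ∈ T ↔ ∃ a s : ZMod q, a ≠ 0 ∧ (s = 1 ∨ s = -1) ∧
      ((∀ v, f v = ![a * v 0, s * a⁻¹ * v 1]) ∨ (∀ v, f v = ![s * a⁻¹ * v 1, a * v 0]))) :
    IsPGroup 2 (MulAut T) := by
  have : Fact (Nat.Prime 2) := ⟨Nat.prime_two⟩
  have hfinL : Finite ((Fin 2 → ZMod q) ≃ₗ[ZMod q] (Fin 2 → ZMod q)) :=
    Finite.of_injective (fun f => (f : (Fin 2 → ZMod q) → (Fin 2 → ZMod q))) DFunLike.coe_injective
  have hfinA : Finite (MulAut T) :=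
    Finite.of_injective (fun f => (f : T → T)) DFunLike.coe_injective
  apply Cfsg.Agent.Lib.Helper89.isPGroup_of_coprime_trivial
  intro α hα
  have hqp : q.Prime := Fact.out
  by_cases hq2 : q = 2
  · subst hq2
    exact aut_trivial_two hT u2 α
  by_cases hq3 : q = 3
  · subst hq3
    exact aut_trivial_three hT u3 u3' (isP hT m hq) α hα
  apply aut_trivial_big hT m hq _ _ α hα
  · intro h
    have h1 : ((2 : ℕ) : ZMod q) = 0 := by exact_mod_cast h
    rw [ZMod.natCast_eq_zero_iff] at h1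
    exact hq2 ((Nat.prime_dvd_prime_iff_eq hqp Nat.prime_two).1 h1)
  · intro h
    have h1 : ((15 : ℕ) : ZMod q) = 0 := by
      push_cast
      linear_combination h
    rw [ZMod.natCast_eq_zero_iff] at h1
    have h2 : q ∣ 3 * 5 := by simpa using h1
    rcases (Nat.Prime.dvd_mul hqp).1 h2 with h3 | h3
    · exact hq3 ((Nat.prime_dvd_prime_iff_eq hqp Nat.prime_three).1 h3)
    · exact hq5 ((Nat.prime_dvd_prime_iff_eq hqp Nat.prime_five).1 h3)

end Cfsg.Agent.S3382
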