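import Cfsg.Statements.S3419
import Cfsg.Agent.Lib.Helper37.AltSpec2

set_option autoImplicit false
open Cfsg

namespace Cfsg.Agent.S3419

open Cfsg.Agent.Lib.Helper37.AltSpec

/-- Let n ≥ 5 and let G be a finite group with the same order and the same set of element orders as the alternating group of degree n. Then G is not solvable. -/
theorem result {G : Type*} [Group G] [Finite G] (n : ℕ) (hn : 5 ≤ n)
    (hcard : Nat.card G = Nat.card ↥(alternatingGroup (Fin n)))
    (hspec : Set.range (orderOf : G → ℕ) = Set.range (orderOf : ↥(alternatingGroup (Fin n)) → ℕ)) :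
    ¬ Group.IsSolvable G := by
  have hc := card_alt n (by omega)
  rw [← hcard] at hc
  by_cases h6 : n = 6
  · subst h6
    have hG : Nat.card G = (3 ^ 2 * 5 ^ 1) * 8 := by
      have : (6 : ℕ).factorial = 720 := by decide
      omega
    refine not_solvable_of 3 5 2 1 8 (by norm_num) (by norm_num) (by norm_num) (by norm_num)
      (by norm_num) hG (by norm_num) ?_ ?_ (no_order 6 3 5 (by norm_num) (by norm_num) (by norm_num)
        (by norm_num) hspec)
    · intro j h1 h2
      interval_cases j <;> norm_num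
    · intro j h1 h2
      interval_cases j <;> norm_num
  by_cases h10 : n = 10
  · subst h10
    have hG : Nat.card G = (5 ^ 2 * 7 ^ 1) * 10368 := by
      have : (10 : ℕ).factorial = 3628800 := by decide
      omega
    refine not_solvable_of 5 7 2 1 10368 (by norm_num) (by norm_num) (by norm_num) (by norm_num)
      (by norm_num) hG (by norm_num) ?_ ?_ (no_order 10 5 7 (by norm_num) (by norm_num) (by norm_num)
        (by norm_num) hspec)
    · intro j h1 h2
      interval_cases j <;> norm_num
    · intro j h1 h2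
      interval_cases j <;> norm_num
  obtain ⟨p, q, hp, hq, hpq⟩ := exists_two_pi n hn h6 h10
  obtain ⟨m1, hm1, hpm1⟩ := pi_val n p hn hp
  obtain ⟨m2, hm2, hqm2⟩ := pi_val n q hn hq
  rw [← hcard] at hm1 hm2
  have hcop : q.Coprime p := (Nat.coprime_primes hq.1 hp.1).2 hpq.symm
  have hqm1 : q ∣ m1 := hcop.dvd_of_dvd_mul_left (by rw [← hm1, hm2]; exact dvd_mul_right _ _)
  obtain ⟨m, rfl⟩ := hqm1
  have hpm : ¬ p ∣ m := fun h => hpm1 (h.mul_left q)
  have hqm : ¬ q ∣ m := by
    intro h
    apply hqm2
    have h1 : q * m2 = q * (p * m) := by rw [← hm2, hm1]; ring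
    rw [Nat.eq_of_mul_eq_mul_left hq.1.pos h1]
    exact h.mul_left p
  refine not_solvable_of p q 1 1 m hp.1 hq.1 hpq le_rfl le_rfl (by rw [hm1]; ring) ?_ ?_ ?_
    (no_order n p q hp.1 hq.1 hpq (by have := hp.2.1; have := hq.2.1; omega) hspec)
  · rw [pow_one, pow_one]
    exact Nat.Coprime.mul_left ((Nat.Prime.coprime_iff_not_dvd hp.1).2 hpm)
      ((Nat.Prime.coprime_iff_not_dvd hq.1).2 hqm)
  · intro j h1 h2
    obtain rfl : j = 1 := by omega
    rw [pow_one]; exact pi_not_dvd hn hp hq
  · intro j h1 h2
    obtain rfl : j = 1 := by omega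
    rw [pow_one]; exact pi_not_dvd hn hq hp


end Cfsg.Agent.S3419
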