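import Cfsg.Statements.S3420
import Cfsg.Agent.Lib.Helper37.AltSpec3

set_option autoImplicit false
open Cfsg

namespace Cfsg.Agent.S3420

open Cfsg.Agent.Lib.Helper37.AltSpec

/-- Let n ≥ 11 and let G be a finite group with the same order and the same set of element orders as the alternating group of degree n. Then G has normal subgroups N < H such that H/N is a non-abelian simple group whose order is divisible by every prime p with n/2 < p ≤ n. -/
theorem result {G : Type*} [Group G] [Finite G] (n : ℕ) (hn : 11 ≤ n)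
    (hcard : Nat.card G = Nat.card ↥(alternatingGroup (Fin n)))
    (hspec : Set.range (orderOf : G → ℕ) = Set.range (orderOf : ↥(alternatingGroup (Fin n)) → ℕ)) :
    ∃ (N H : Subgroup G) (_ : N.Normal), H.Normal ∧ N < H ∧
      IsSimpleGroup (↥H ⧸ N.subgroupOf H) ∧ ¬ IsMulCommutative (↥H ⧸ N.subgroupOf H) ∧
      ∀ p : ℕ, p.Prime → n < 2 * p → p ≤ n → p ∣ Nat.card (↥H ⧸ N.subgroupOf H) := by
  obtain ⟨p0, q0, hp0, hq0, hpq0⟩ := exists_two_pi n (by omega) (by omega) (by omega)
  refine simple_section n (by omega) ?_ ?_ p0 q0 hp0 hq0 hpq0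
  · intro p hp
    obtain ⟨m, hm, hpm⟩ := pi_val n p (by omega) hp
    rw [hcard, hm]
    refine ⟨dvd_mul_right _ _, ?_⟩
    intro h
    rw [pow_two] at h
    exact hpm (Nat.dvd_of_mul_dvd_mul_left hp.1.pos h)
  · intro p q hp hq hpq
    exact no_order n p q hp.1 hq.1 hpq (by have := hp.2.1; have := hq.2.1; omega) hspec


end Cfsg.Agent.S3420
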