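import Cfsg.Statements.S3704
-- import your own Cfsg.Agent.* helpers here

set_option autoImplicit false
open Cfsg

namespace Cfsg.Agent.S3704

open MulAction

section aux

variable {G Ω : Type*} [Group G] [MulAction G Ω] (H : Subgroup G)

/-- the orbit class of a point -/
def cls (ω : Ω) : orbitRel.Quotient H Ω := Quotient.mk'' ω

theorem cls_smul (h : G) (hh : h ∈ H) (ω : Ω) : cls H (h • ω) = cls H ω := by
  apply Quotient.sound'
  exact ⟨⟨h, hh⟩, rfl⟩

/-- the invariant matrix attached to a function on orbits -/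
noncomputable def M (φ : orbitRel.Quotient H Ω → ℚ) : Matrix Ω (G ⧸ H) ℚ :=
  fun ω q => φ (cls H (q.out⁻¹ • ω))

theorem M_smul (φ : orbitRel.Quotient H Ω → ℚ) (x : G) (ω : Ω) (q : G ⧸ H) :
    M H φ (x • ω) (x • q) = M H φ ω q := by
  unfold M
  congr 1
  obtain ⟨h, hh⟩ := QuotientGroup.mk_out_eq_mul H (x * q.out)
  have h1 : x • q = ((x * q.out : G) : G ⧸ H) := by
    conv_lhs => rw [← QuotientGroup.out_eq' q]
    rfl
  rw [h1, hh]
  have h2 : (x * q.out * (h : G))⁻¹ • x • ω = (h : G)⁻¹ • (q.out⁻¹ • ω) := by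
    simp only [mul_inv_rev, mul_smul, inv_smul_smul]
  rw [h2]
  exact cls_smul H _ (H.inv_mem h.2) _

theorem B_smul [Fintype (G ⧸ H)] (φ ψ : orbitRel.Quotient H Ω → ℚ) (x : G) (α β : Ω) :
    (M H φ * (M H ψ).transpose) (x • α) (x • β) = (M H φ * (M H ψ).transpose) α β := by
  simp only [Matrix.mul_apply, Matrix.transpose_apply]
  rw [← Equiv.sum_comp (MulAction.toPerm x)]
  simp [M_smul]

theorem M_add (φ ψ : orbitRel.Quotient H Ω → ℚ) : M H (φ + ψ) = M H φ + M H ψ := by
  ext ω q; rfl

theorem M_smul' (c : ℚ) (φ : orbitRel.Quotient H Ω → ℚ) : M H (c • φ) = c • M H φ := by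
  ext ω q; rfl

end aux

theorem mulVec_inj {Ω : Type*} [Fintype Ω] [DecidableEq Ω] (s b : ℚ) (hb : 0 ≤ b) (hsb : b < s)
    (N : Matrix Ω Ω ℚ) (hN : ∀ α β, N α β = if α = β then s else b) :
    Function.Injective N.mulVec := by
  have hlin : ∀ w : Ω → ℚ, ∀ α, N.mulVec w α = (s - b) * w α + b * ∑ β, w β := by
    intro w α
    simp only [Matrix.mulVec, dotProduct, hN]
    have : ∀ β, (if α = β then s else b) * w β = b * w β + if α = β then (s - b) * w β else 0 := by
      intro β
      split_ifs <;> ring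
    simp only [this, Finset.sum_add_distrib, Finset.sum_ite_eq, Finset.mem_univ, if_true,
      ← Finset.mul_sum]
    ring
  have hzero : ∀ w : Ω → ℚ, N.mulVec w = 0 → w = 0 := by
    intro w hw
    have h1 : ∀ α, (s - b) * w α + b * ∑ β, w β = 0 := by
      intro α
      rw [← hlin, hw]; rfl
    have h2 : ((s - b) + (Fintype.card Ω : ℚ) * b) * ∑ β, w β = 0 := by
      have := Finset.sum_congr rfl (fun α (_ : α ∈ Finset.univ) => h1 α)
      rw [Finset.sum_add_distrib, ← Finset.mul_sum, Finset.sum_const, Finset.sum_const_zero,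
        Finset.card_univ, nsmul_eq_mul] at this
      linarith
    have h3 : (s - b) + (Fintype.card Ω : ℚ) * b > 0 := by
      have : (0 : ℚ) ≤ (Fintype.card Ω : ℚ) * b := mul_nonneg (Nat.cast_nonneg _) hb
      linarith
    have h4 : ∑ β, w β = 0 := by
      rcases mul_eq_zero.mp h2 with h | h
      · exact absurd h h3.ne'
      · exact h
    funext α
    have := h1 α
    rw [h4, mul_zero, add_zero] at this
    rcases mul_eq_zero.mp this with h | h
    · exact absurd h (by linarith : s - b ≠ 0)
    · exact h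
  intro w w' hww
  have : N.mulVec (w - w') = 0 := by rw [Matrix.mulVec_sub, hww, sub_self]
  exact sub_eq_zero.mp (hzero _ this)

/-- Let G be a finite group acting faithfully and 2-transitively on a finite set Ω of size n, and let H be a subgroup of index n in G which is not transitive on Ω and fixes no point of Ω. Then H has exactly two orbits on Ω. -/
theorem result {G Ω : Type*} [Group G] [Finite G] [MulAction G Ω] [FaithfulSMul G Ω] [Finite Ω] (h2 : MulAction.IsMultiplyPretransitive G Ω 2) (H : Subgroup G) (hidx : H.index = Nat.card Ω) (hnt : ¬ MulAction.IsPretransitive H Ω) (hfix : ∀ a : Ω, ∃ h : H, h • a ≠ a) : Nat.card (MulAction.orbitRel.Quotient H Ω) = 2 := by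
  classical
  have : Fintype Ω := Fintype.ofFinite Ω
  have : Fintype (G ⧸ H) := Fintype.ofFinite _
  have : Fintype (orbitRel.Quotient H Ω) := Fintype.ofFinite _
  obtain ⟨α₀, β₀, hαβ⟩ : ∃ α₀ β₀ : Ω, cls H α₀ ≠ cls H β₀ := by
    by_contra hcon
    push Not at hcon
    apply hnt
    constructor
    intro x y
    have h := Quotient.exact' (hcon y x)
    obtain ⟨h, hh⟩ := h
    exact ⟨h, hh⟩
  have hne : α₀ ≠ β₀ := fun h => hαβ (by rw [h])
  have h2' : ∀ {a b c d : Ω} (_ : a ≠ b) (_ : c ≠ d), ∃ g : G, g • a = c ∧ g • b = d :=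
    is_two_pretransitive_iff.mp h2
  have htr : IsPretransitive G Ω := isPretransitive_of_is_two_pretransitive
  set A : Matrix Ω (G ⧸ H) ℚ := M H (Pi.single (cls H α₀) 1) with hA
  have hB : ∀ φ α β, (M H φ * A.transpose) α β =
      if α = β then (M H φ * A.transpose) α₀ α₀ else (M H φ * A.transpose) α₀ β₀ := by
    intro φ α β
    split_ifs with h
    · subst h
      obtain ⟨x, hx⟩ := exists_smul_eq G α₀ α
      rw [← hx, hA, B_smul]
    · obtain ⟨x, hx1, hx2⟩ := h2' hne h
      rw [← hx1, ← hx2, hA, B_smul]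
  have hAval : ∀ ω q, A ω q = if cls H (q.out⁻¹ • ω) = cls H α₀ then 1 else 0 := by
    intro ω q
    rw [hA]
    unfold M
    rw [Pi.single_apply]
  have hA01 : ∀ ω q, A ω q = 0 ∨ A ω q = 1 := by
    intro ω q
    rw [hAval]
    split_ifs
    · right; rfl
    · left; rfl
  obtain ⟨h₀, hh₀⟩ := QuotientGroup.mk_out_eq_mul H 1
  set q₀ : G ⧸ H := ((1 : G) : G ⧸ H) with hq₀
  have hq₀H : q₀.out ∈ H := by rw [hh₀, one_mul]; exact h₀.2
  have hb0 : 0 ≤ (A * A.transpose) α₀ β₀ := by
    simp only [Matrix.mul_apply, Matrix.transpose_apply]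
    apply Finset.sum_nonneg
    intro q _
    rcases hA01 α₀ q with h | h <;> rcases hA01 β₀ q with h' | h' <;> rw [h, h'] <;> norm_num
  have hsb : (A * A.transpose) α₀ β₀ < (A * A.transpose) α₀ α₀ := by
    simp only [Matrix.mul_apply, Matrix.transpose_apply]
    apply Finset.sum_lt_sum
    · intro q _
      rcases hA01 α₀ q with h | h <;> rcases hA01 β₀ q with h' | h' <;> rw [h, h'] <;> norm_num
    · refine ⟨q₀, Finset.mem_univ _, ?_⟩
      have e1 : A α₀ q₀ = 1 := by
        rw [hAval, if_pos (cls_smul H _ (H.inv_mem hq₀H) _)]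
      have e2 : A β₀ q₀ = 0 := by
        rw [hAval, if_neg]
        rw [cls_smul H _ (H.inv_mem hq₀H) _]
        exact hαβ.symm
      rw [e1, e2]; norm_num
  have hinj := mulVec_inj _ _ hb0 hsb (A * A.transpose) (hB _)
  rw [Matrix.mulVec_injective_iff_isUnit] at hinj
  obtain ⟨C, hC⟩ := hinj.exists_right_inv
  have hcard : Fintype.card Ω = Fintype.card (G ⧸ H) := by
    rw [← Nat.card_eq_fintype_card, ← Nat.card_eq_fintype_card, ← hidx]; rfl
  have hleft : (A.transpose * C) * A = 1 := by
    rw [← Matrix.mul_eq_one_comm_of_equiv (Fintype.card_eq.mp hcard).some, ← Matrix.mul_assoc]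
    exact hC
  have hcancel : ∀ X : Matrix Ω (G ⧸ H) ℚ, X * A.transpose = 0 → X = 0 := by
    intro X hX
    have h1 : A.transpose * (A.transpose * C).transpose = 1 := by
      rw [← Matrix.transpose_mul, hleft, Matrix.transpose_one]
    calc X = X * (A.transpose * (A.transpose * C).transpose) := by rw [h1, Matrix.mul_one]
      _ = (X * A.transpose) * (A.transpose * C).transpose := by rw [Matrix.mul_assoc]
      _ = 0 := by rw [hX, Matrix.zero_mul]
  let Λ : (orbitRel.Quotient H Ω → ℚ) →ₗ[ℚ] (ℚ × ℚ) :=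
    { toFun := fun φ => ((M H φ * A.transpose) α₀ α₀, (M H φ * A.transpose) α₀ β₀)
      map_add' := by
        intro φ ψ
        simp only [M_add, Matrix.add_mul, Matrix.add_apply, Prod.mk_add_mk]
      map_smul' := by
        intro c φ
        simp only [M_smul', Matrix.smul_mul, Matrix.smul_apply, RingHom.id_apply, Prod.smul_mk] }
  have hΛ : Function.Injective Λ := by
    rw [injective_iff_map_eq_zero]
    intro φ hφ
    have h1 : (M H φ * A.transpose) α₀ α₀ = 0 := congrArg Prod.fst hφ
    have h2 : (M H φ * A.transpose) α₀ β₀ = 0 := congrArg Prod.snd hφ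
    have h3 : M H φ * A.transpose = 0 := by
      ext α β
      rw [hB, h1, h2]
      simp
    have h4 := hcancel _ h3
    funext c
    induction c using Quotient.inductionOn' with
    | h ω =>
      have := congrFun (congrFun h4 (q₀.out • ω)) q₀
      unfold M at this
      rw [inv_smul_smul] at this
      exact this
  have hle := LinearMap.finrank_le_finrank_of_injective hΛ
  rw [Module.finrank_fintype_fun_eq_card, Module.finrank_prod, Module.finrank_self] at hle
  have hge : 1 < Fintype.card (orbitRel.Quotient H Ω) :=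
    Fintype.one_lt_card_iff.mpr ⟨_, _, hαβ⟩
  rw [Nat.card_eq_fintype_card]
  omega

end Cfsg.Agent.S3704
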