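import Cfsg.Statements.S3707
-- import your own Cfsg.Agent.* helpers here

set_option autoImplicit false
open Cfsg

namespace Cfsg.Agent.S3707

open MulAction
open scoped Pointwise

section aux

variable (G : Type*) {Ω : Type*} [Group G] [MulAction G Ω]

/-- `Δ` is a Jordan complement: its pointwise stabilizer is transitive outside `Δ`. -/
def JC (Δ : Set Ω) : Prop :=
  ∀ x, x ∉ Δ → ∀ y, y ∉ Δ → ∃ g : G, (∀ z ∈ Δ, g • z = z) ∧ g • x = y

variable {G}

theorem JC.smul {Δ : Set Ω} (h : JC G Δ) (k : G) : JC G (k • Δ) := by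
  intro x hx y hy
  rw [Set.mem_smul_set_iff_inv_smul_mem] at hx hy
  obtain ⟨g, hg1, hg2⟩ := h _ hx _ hy
  refine ⟨k * g * k⁻¹, ?_, ?_⟩
  · intro z hz
    rw [Set.mem_smul_set_iff_inv_smul_mem] at hz
    rw [mul_smul, mul_smul, hg1 _ hz, smul_inv_smul]
  · rw [mul_smul, mul_smul, hg2, smul_inv_smul]

theorem JC.inter {Δ₁ Δ₂ : Set Ω} (h1 : JC G Δ₁) (h2 : JC G Δ₂) (hne : Δ₁ ∪ Δ₂ ≠ Set.univ) :
    JC G (Δ₁ ∩ Δ₂) := by
  obtain ⟨c, hc⟩ := (Set.ne_univ_iff_exists_notMem _).mp hne
  have hc1 : c ∉ Δ₁ := fun h => hc (Or.inl h)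
  have hc2 : c ∉ Δ₂ := fun h => hc (Or.inr h)
  have key : ∀ x, x ∉ Δ₁ ∩ Δ₂ → ∃ g : G, (∀ z ∈ Δ₁ ∩ Δ₂, g • z = z) ∧ g • x = c := by
    intro x hx
    by_cases hx1 : x ∈ Δ₁
    · have hx2 : x ∉ Δ₂ := fun h => hx ⟨hx1, h⟩
      obtain ⟨g, hg1, hg2⟩ := h2 x hx2 c hc2
      exact ⟨g, fun z hz => hg1 z hz.2, hg2⟩
    · obtain ⟨g, hg1, hg2⟩ := h1 x hx1 c hc1
      exact ⟨g, fun z hz => hg1 z hz.1, hg2⟩
  intro x hx y hy
  obtain ⟨g, hg1, hg2⟩ := key x hx
  obtain ⟨k, hk1, hk2⟩ := key y hy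
  refine ⟨k⁻¹ * g, ?_, ?_⟩
  · intro z hz
    rw [mul_smul, hg1 z hz, inv_smul_eq_iff, hk1 z hz]
  · rw [mul_smul, hg2, inv_smul_eq_iff, hk2]

theorem ncard_smul (k : G) (S : Set Ω) : (k • S).ncard = S.ncard := by
  rw [← Set.image_smul]
  exact Set.ncard_image_of_injective _ (MulAction.injective k)

theorem three_trans (h2 : ∀ {a b c d : Ω}, a ≠ b → c ≠ d → ∃ g : G, g • a = c ∧ g • b = d)
    (a b : Ω) (hab : a ≠ b) (hJ : JC G ({a, b} : Set Ω)) : IsMultiplyPretransitive G Ω 3 := by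
  rw [isMultiplyPretransitive_iff]
  intro x y
  have hx01 : x 0 ≠ x 1 := x.injective.ne (by decide)
  have hx02 : x 0 ≠ x 2 := x.injective.ne (by decide)
  have hx12 : x 1 ≠ x 2 := x.injective.ne (by decide)
  have hy01 : y 0 ≠ y 1 := y.injective.ne (by decide)
  have hy02 : y 0 ≠ y 2 := y.injective.ne (by decide)
  have hy12 : y 1 ≠ y 2 := y.injective.ne (by decide)
  obtain ⟨g₁, h11, h12⟩ := h2 hx01 hab
  obtain ⟨g₂, h21, h22⟩ := h2 hy01 hab
  have hx : g₁ • x 2 ∉ ({a, b} : Set Ω) := by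
    intro h
    rcases h with h | h
    · rw [← h11] at h; exact hx02 (MulAction.injective g₁ h).symm
    · rw [Set.mem_singleton_iff, ← h12] at h; exact hx12 (MulAction.injective g₁ h).symm
  have hy : g₂ • y 2 ∉ ({a, b} : Set Ω) := by
    intro h
    rcases h with h | h
    · rw [← h21] at h; exact hy02 (MulAction.injective g₂ h).symm
    · rw [Set.mem_singleton_iff, ← h22] at h; exact hy12 (MulAction.injective g₂ h).symm
  obtain ⟨k, hk1, hk2⟩ := hJ _ hx _ hy
  refine ⟨g₂⁻¹ * k * g₁, ?_⟩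
  ext i
  rw [Function.Embedding.smul_apply, mul_smul, mul_smul, inv_smul_eq_iff]
  fin_cases i
  · show k • g₁ • x 0 = g₂ • y 0
    rw [h11, h21]; exact hk1 a (Or.inl rfl)
  · show k • g₁ • x 1 = g₂ • y 1
    rw [h12, h22]; exact hk1 b (Or.inr rfl)
  · exact hk2

end aux

/-- Let G be a finite primitive permutation group on Ω of degree n and Γ ⊂ Ω a subset with 1 < #Γ ≤ n/2 such that the pointwise stabilizer of Ω ∖ Γ is transitive on Γ. Then G is 3-transitive on Ω. -/
theorem result {G Ω : Type*} [Group G] [Finite G] [MulAction G Ω] [FaithfulSMul G Ω] [Finite Ω] (hprim : MulAction.IsPreprimitive G Ω) (Γ : Set Ω) (h1 : 1 < Γ.ncard) (h2 : 2 * Γ.ncard ≤ Nat.card Ω) (htr : ∀ x ∈ Γ, ∀ y ∈ Γ, ∃ g : G, (∀ z ∉ Γ, g • z = z) ∧ g • x = y) : MulAction.IsMultiplyPretransitive G Ω 3 := by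
  classical
  set Δ : Set Ω := Γᶜ with hΔ
  have hJΔ : JC G Δ := by
    intro x hx y hy
    rw [hΔ, Set.notMem_compl_iff] at hx hy
    obtain ⟨g, hg1, hg2⟩ := htr x hx y hy
    exact ⟨g, fun z hz => hg1 z hz, hg2⟩
  have hcard : Γ.ncard + Δ.ncard = Nat.card Ω := Set.ncard_add_ncard_compl Γ
  have hΔc : Δᶜ = Γ := compl_compl Γ
  -- 2-transitivity
  have h2t : IsMultiplyPretransitive G Ω 2 := by
    obtain ⟨n, hn⟩ : ∃ n, Δ.ncard = n + 1 := ⟨Δ.ncard - 1, by omega⟩
    apply hprim.is_two_pretransitive hn (by omega)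
    rw [isPretransitive_iff]
    rintro ⟨x, hx⟩ ⟨y, hy⟩
    rw [SubMulAction.mem_ofFixingSubgroup_iff] at hx hy
    obtain ⟨g, hg1, hg2⟩ := hJΔ x hx y hy
    refine ⟨⟨g, ?_⟩, ?_⟩
    · rw [mem_fixingSubgroup_iff]
      exact hg1
    · apply Subtype.ext
      exact hg2
  have h2t' : ∀ {a b c d : Ω} (_ : a ≠ b) (_ : c ≠ d), ∃ g : G, g • a = c ∧ g • b = d :=
    is_two_pretransitive_iff.mp h2t
  let 𝒥 : Set (Set Ω) := {D | JC G D ∧ 2 ≤ D.ncard ∧ 2 ≤ Dᶜ.ncard}
  obtain ⟨L, hL, hmin⟩ := Set.exists_min_image 𝒥 Set.ncard (Set.toFinite _)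
    ⟨Δ, hJΔ, by omega, by rw [hΔc]; omega⟩
  obtain ⟨hLJ, hL2, hLc2⟩ := hL
  have hLcard : L.ncard + Lᶜ.ncard = Nat.card Ω := Set.ncard_add_ncard_compl L
  have F4 : ∀ D : Set Ω, JC G D → 2 ≤ Dᶜ.ncard → ∀ L' : Set Ω, JC G L' → L'.ncard = L.ncard →
      D ∪ L' = Set.univ ∨ (D ∩ L').ncard ≤ 1 ∨ L' ⊆ D := by
    intro D hD hDc L' hL' hL'c
    by_contra hcon
    push Not at hcon
    obtain ⟨c1, c2, c3⟩ := hcon
    have hmem : D ∩ L' ∈ 𝒥 := by
      refine ⟨hD.inter hL' c1, by omega, ?_⟩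
      refine hDc.trans (Set.ncard_le_ncard ?_ (Set.toFinite _))
      exact Set.compl_subset_compl.mpr Set.inter_subset_left
    have h3 := hmin _ hmem
    have h4 : D ∩ L' = L' :=
      Set.eq_of_subset_of_ncard_le Set.inter_subset_right (by omega) (Set.toFinite _)
    exact c3 (h4 ▸ Set.inter_subset_left)
  have hsmulJ : ∀ g : G, JC G (g • L) := fun g => hLJ.smul g
  have hsmulc : ∀ g : G, (g • L).ncard = L.ncard := fun g => ncard_smul g L
  have hsmulcc : ∀ g : G, 2 ≤ (g • L)ᶜ.ncard := by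
    intro g
    rw [← Set.smul_set_compl, ncard_smul]
    exact hLc2
  have hLeq2 : L.ncard = 2 := by
    by_contra hne
    have hL3 : 3 ≤ L.ncard := by omega
    by_cases hA : ∀ g g' : G, g • L ≠ g' • L → ((g • L) ∩ (g' • L)).ncard ≤ 1
    · -- linear space case
      have hline : ∀ p s : Ω, p ≠ s → ∃ g : G, p ∈ g • L ∧ s ∈ g • L := by
        intro p s hps
        obtain ⟨a, b, ha, hb, hab⟩ := (Set.one_lt_ncard_iff (Set.toFinite _)).mp
          (show 1 < L.ncard by omega)
        obtain ⟨g, hg1, hg2⟩ := h2t' hab hps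
        exact ⟨g, hg1 ▸ Set.smul_mem_smul_set ha, hg2 ▸ Set.smul_mem_smul_set hb⟩
      obtain ⟨p, hp⟩ : Γ.Nonempty := by
        rw [← Set.ncard_pos (Set.toFinite _)]; omega
      have hpΔ : p ∉ Δ := by rw [hΔ, Set.notMem_compl_iff]; exact hp
      have hunion : ∀ S : Set Ω, Δ ∪ S = Set.univ → Γ ⊆ S := by
        intro S hS x hx
        have : x ∈ Δ ∪ S := by rw [hS]; trivial
        rcases this with h | h
        · exact absurd hx h
        · exact h
      by_cases hA1 : ∃ g : G, Γ ⊆ g • L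
      · obtain ⟨g, hg⟩ := hA1
        obtain ⟨s', hs'⟩ : ((g • L)ᶜ).Nonempty := by
          rw [← Set.ncard_pos (Set.toFinite _)]
          have := hsmulcc g
          omega
        have hs'Δ : s' ∈ Δ := fun h => hs' (hg h)
        have hps' : p ≠ s' := fun h => hpΔ (h ▸ hs'Δ)
        obtain ⟨g', hg'1, hg'2⟩ := hline p s' hps'
        have hne' : g' • L ≠ g • L := fun h => hs' (h ▸ hg'2)
        have hint := hA g' g hne'
        rcases F4 Δ hJΔ (by rw [hΔc]; omega) (g' • L) (hsmulJ g') (hsmulc g') with h | h | h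
        · have : Γ ⊆ (g' • L) ∩ (g • L) := Set.subset_inter (hunion _ h) hg
          have := Set.ncard_le_ncard this (Set.toFinite _)
          omega
        · have hsub : g' • L ⊆ (Δ ∩ g' • L) ∪ ((g' • L) ∩ (g • L)) := by
            intro x hx
            by_cases hxΔ : x ∈ Δ
            · exact Or.inl ⟨hxΔ, hx⟩
            · rw [hΔ, Set.notMem_compl_iff] at hxΔ
              exact Or.inr ⟨hx, hg hxΔ⟩
          have h5 := Set.ncard_le_ncard hsub (Set.toFinite _)
          have h6 := Set.ncard_union_le (Δ ∩ g' • L) ((g' • L) ∩ (g • L))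
          have h7 := hsmulc g'
          omega
        · exact hpΔ (h hg'1)
      · push Not at hA1
        have key : ∀ s ∈ Δ, ∃ g : G, ∃ t : Ω, p ∈ g • L ∧ s ∈ g • L ∧ t ∈ g • L ∧ t ≠ p ∧ t ∈ Γ ∧
            (Δ ∩ g • L).ncard ≤ 1 := by
          intro s hs
          have hps : p ≠ s := fun h => hpΔ (h ▸ hs)
          obtain ⟨g, hg1, hg2⟩ := hline p s hps
          have hint : (Δ ∩ g • L).ncard ≤ 1 := by
            rcases F4 Δ hJΔ (by rw [hΔc]; omega) (g • L) (hsmulJ g) (hsmulc g) with h | h | h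
            · exact absurd (hunion _ h) (hA1 g)
            · exact h
            · exact absurd (h hg1) hpΔ
          obtain ⟨t, ht⟩ : ((g • L) \ {p, s}).Nonempty := by
            rw [← Set.ncard_pos (Set.toFinite _)]
            have h5 := Set.le_ncard_sdiff ({p, s} : Set Ω) (g • L) 
            have h6 : ({p, s} : Set Ω).ncard ≤ 2 := Set.ncard_insert_le _ _ |>.trans (by simp)
            have h7 := hsmulc g
            omega
          have htp : t ≠ p := fun h => ht.2 (Or.inl h)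
          have hts : t ≠ s := fun h => ht.2 (Or.inr h)
          refine ⟨g, t, hg1, hg2, ht.1, htp, ?_, hint⟩
          by_contra htΓ
          have htΔ : t ∈ Δ := htΓ
          exact hts ((Set.ncard_le_one_iff (Set.toFinite _)).mp hint ⟨htΔ, ht.1⟩ ⟨hs, hg2⟩)
        choose! gs ts hkey using key
        have hle : Δ.ncard ≤ (Γ \ {p}).ncard := by
          apply Set.ncard_le_ncard_of_injOn ts _ _ (Set.toFinite _)
          · intro s hs
            exact ⟨(hkey s hs).2.2.2.2.1, (hkey s hs).2.2.2.1⟩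
          · intro s hs s' hs' hss
            obtain ⟨a1, a2, a3, a4, a5, a6⟩ := hkey s hs
            obtain ⟨b1, b2, b3, b4, b5, b6⟩ := hkey s' hs'
            have heq : gs s • L = gs s' • L := by
              by_contra hne'
              have := hA _ _ hne'
              exact a4 ((Set.ncard_le_one_iff (Set.toFinite _)).mp this ⟨a3, hss ▸ b3⟩ ⟨a1, b1⟩)
            exact (Set.ncard_le_one_iff (Set.toFinite _)).mp a6 ⟨hs, a2⟩ ⟨hs', heq ▸ b2⟩
        rw [Set.ncard_sdiff_singleton_of_mem hp] at hle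
        omega
    · -- block case
      push Not at hA
      obtain ⟨g, g', hgg, hint⟩ := hA
      have hun : g • L ∪ g' • L = Set.univ := by
        rcases F4 (g • L) (hsmulJ g) (hsmulcc g) (g' • L) (hsmulJ g') (hsmulc g') with h | h | h
        · exact h
        · omega
        · exfalso
          apply hgg
          exact (Set.eq_of_subset_of_ncard_le h (by rw [hsmulc, hsmulc]) (Set.toFinite _)).symm
      have hbig : Nat.card Ω + 2 ≤ 2 * L.ncard := by
        have h5 := Set.ncard_union_add_ncard_inter (g • L) (g' • L) (Set.toFinite _) (Set.toFinite _)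
        rw [hun, Set.ncard_univ, hsmulc, hsmulc] at h5
        omega
      have hblock : IsBlock G Lᶜ := by
        rw [isBlock_iff_smul_eq_or_disjoint]
        intro k
        by_cases hk : k • L = L
        · left
          rw [Set.smul_set_compl, hk]
        · right
          rcases F4 L hLJ hLc2 (k • L) (hsmulJ k) (hsmulc k) with h | h | h
          · rw [Set.smul_set_compl, Set.disjoint_compl_left_iff_subset]
            intro x hx
            have : x ∈ L ∪ k • L := by rw [h]; trivial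
            rcases this with h' | h'
            · exact absurd h' hx
            · exact h'
          · exfalso
            have h5 := Set.ncard_union_add_ncard_inter L (k • L) (Set.toFinite _) (Set.toFinite _)
            have h6 : (L ∪ k • L).ncard ≤ Nat.card Ω := by
              rw [← Set.ncard_univ]
              exact Set.ncard_le_ncard (Set.subset_univ _) (Set.toFinite _)
            rw [hsmulc] at h5
            omega
          · exfalso
            exact hk (Set.eq_of_subset_of_ncard_le h (by rw [hsmulc]) (Set.toFinite _))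
      rcases hprim.isTrivialBlock_of_isBlock hblock with h | h
      · have := (Set.ncard_le_one_iff_subsingleton (s := Lᶜ)).mpr h
        omega
      · rw [h, Set.ncard_univ] at hLcard
        omega
  obtain ⟨a, b, hab, hLab⟩ := Set.ncard_eq_two.mp hLeq2
  rw [hLab] at hLJ
  exact three_trans h2t' a b hab hLJ

end Cfsg.Agent.S3707
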