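import Cfsg.Statements.S3733
import Cfsg.Agent.Lib.Helper96.PartitionTrick

set_option autoImplicit false
open Cfsg

namespace Cfsg.Agent.S3733

/-- If proper subgroups partition the operator group `A`, one of them has fixed points. -/
theorem result {G : Type*} [Group G] [Finite G] (A V : Subgroup G) (hVab : IsMulCommutative V) (hV : V ≠ ⊥) (hAV : A ≤ Subgroup.normalizer (V : Set G)) (𝒜 : Finset (Subgroup G)) (hne : 𝒜.Nonempty) (hprop : ∀ B ∈ 𝒜, B < A) (hpart : ∀ a ∈ A, a ≠ 1 → ∃! B, B ∈ 𝒜 ∧ a ∈ B) (hk : (𝒜.card - 1).Coprime (Nat.card V)) : ∃ B ∈ 𝒜, V ⊓ Subgroup.centralizer (B : Set G) ≠ ⊥ := by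
  by_contra hcon
  push Not at hcon
  have h := Cfsg.Agent.Lib.Helper96.pow_eq_one_of_partition_subgroup A V hVab hAV 𝒜 hne
    (fun B hB => (hprop B hB).le) hpart hcon
  apply hV
  rw [Subgroup.eq_bot_iff_forall]
  intro v hv
  have h1 : orderOf v ∣ 𝒜.card - 1 := orderOf_dvd_of_pow_eq_one (h v hv)
  have h2 : orderOf v ∣ Nat.card V := by
    have := orderOf_dvd_natCard (⟨v, hv⟩ : V)
    rwa [Subgroup.orderOf_mk] at this
  have h3 : orderOf v = 1 := Nat.eq_one_of_dvd_coprimes hk h1 h2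
  exact orderOf_eq_one_iff.1 h3

end Cfsg.Agent.S3733
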