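import Cfsg.Statements.S3735
-- import your own Cfsg.Agent.* helpers here

set_option autoImplicit false
open Cfsg

namespace Cfsg.Agent.S3735

variable {G : Type*} [Group G]

theorem inv_iff (A S : Subgroup G) :
    A ≤ Subgroup.normalizer (S : Set G) ↔ ∀ a ∈ A, ∀ s ∈ S, a * s * a⁻¹ ∈ S := by
  constructor
  · intro h a ha s hs
    exact (Subgroup.mem_normalizer_iff.mp (h ha) s).mp hs
  · intro h a ha
    rw [Subgroup.mem_normalizer_iff]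
    intro s
    refine ⟨h a ha s, fun hs => ?_⟩
    have := h a⁻¹ (A.inv_mem ha) _ hs
    simpa [mul_assoc] using this

/-- conjugate subgroup -/
def cj (h : G) (S : Subgroup G) : Subgroup G := S.map (MulAut.conj h).toMonoidHom

theorem mem_cj (h x : G) (S : Subgroup G) : x ∈ cj h S ↔ h⁻¹ * x * h ∈ S := by
  unfold cj
  rw [Subgroup.mem_map_equiv, MulAut.conj_symm_apply]

theorem cj_mono (h : G) {S S' : Subgroup G} (hS : S ≤ S') : cj h S ≤ cj h S' :=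
  Subgroup.map_mono hS

theorem cj_cj_inv (h : G) (S : Subgroup G) : cj h (cj h⁻¹ S) = S := by
  ext x
  rw [mem_cj, mem_cj]
  simp [mul_assoc]

theorem cj_inv_cj (h : G) (S : Subgroup G) : cj h⁻¹ (cj h S) = S := by
  ext x
  rw [mem_cj, mem_cj]
  simp [mul_assoc]

theorem cj_bot (h : G) : cj h (⊥ : Subgroup G) = ⊥ := Subgroup.map_bot _

theorem inv_cj {H A S : Subgroup G} (hAn : ∀ h ∈ H, ∀ a ∈ A, h * a * h⁻¹ ∈ A) {h : G} (hh : h ∈ H)
    (hS : ∀ a ∈ A, ∀ s ∈ S, a * s * a⁻¹ ∈ S) : ∀ a ∈ A, ∀ s ∈ cj h S, a * s * a⁻¹ ∈ cj h S := by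
  intro a ha s hs
  rw [mem_cj] at hs ⊢
  have h1 : h⁻¹ * a * h ∈ A := by
    have := hAn h⁻¹ (H.inv_mem hh) a ha
    simpa using this
  have := hS _ h1 _ hs
  have e : h⁻¹ * a * h * (h⁻¹ * s * h) * (h⁻¹ * a * h)⁻¹ = h⁻¹ * (a * s * a⁻¹) * h := by group
  rwa [e] at this

/-- minimal invariant subgroups -/
def MinInv (A V S : Subgroup G) : Prop :=
  S ≤ V ∧ (∀ a ∈ A, ∀ s ∈ S, a * s * a⁻¹ ∈ S) ∧ S ≠ ⊥ ∧
    ∀ S' : Subgroup G, S' ≤ S → (∀ a ∈ A, ∀ s ∈ S', a * s * a⁻¹ ∈ S') → S' = ⊥ ∨ S' = S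

theorem minInv_cj {H A V S : Subgroup G} (hAn : ∀ h ∈ H, ∀ a ∈ A, h * a * h⁻¹ ∈ A)
    (hHV : ∀ h ∈ H, ∀ v ∈ V, h * v * h⁻¹ ∈ V) {h : G} (hh : h ∈ H) (hS : MinInv A V S) :
    MinInv A V (cj h S) := by
  obtain ⟨h1, h2, h3, h4⟩ := hS
  refine ⟨?_, inv_cj hAn hh h2, ?_, ?_⟩
  · intro x hx
    rw [mem_cj] at hx
    have := hHV h hh _ (h1 hx)
    simpa [mul_assoc] using this
  · intro hb
    apply h3
    rw [← cj_inv_cj h S, hb, cj_bot]
  · intro S' hS' hinv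
    have hle : cj h⁻¹ S' ≤ S := by
      rw [← cj_inv_cj h S]; exact cj_mono _ hS'
    rcases h4 _ hle (inv_cj hAn (H.inv_mem hh) hinv) with hb | hb
    · left
      rw [← cj_cj_inv h S', hb, cj_bot]
    · right
      rw [← cj_cj_inv h S', hb]

theorem exists_minInv [Finite G] {A V W : Subgroup G} (hWV : W ≤ V)
    (hW : ∀ a ∈ A, ∀ s ∈ W, a * s * a⁻¹ ∈ W) (hne : W ≠ ⊥) : ∃ S, MinInv A V S ∧ S ≤ W := by
  let 𝒮 : Set (Subgroup G) := {S | S ≤ W ∧ (∀ a ∈ A, ∀ s ∈ S, a * s * a⁻¹ ∈ S) ∧ S ≠ ⊥}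
  obtain ⟨S, hS, hmin⟩ := (Set.toFinite 𝒮).exists_minimal ⟨W, le_rfl, hW, hne⟩
  refine ⟨S, ⟨hS.1.trans hWV, hS.2.1, hS.2.2, ?_⟩, hS.1⟩
  intro S' hS' hinv
  by_cases hb : S' = ⊥
  · exact Or.inl hb
  · right
    exact le_antisymm hS' (hmin ⟨hS'.trans hS.1, hinv, hb⟩ hS')

theorem mem_sup_comm {V X Y : Subgroup G} (hV : ∀ x ∈ V, ∀ y ∈ V, x * y = y * x) (hX : X ≤ V)
    (hY : Y ≤ V) {z : G} (hz : z ∈ X ⊔ Y) : ∃ x ∈ X, ∃ y ∈ Y, x * y = z := by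
  have hle : X ≤ Subgroup.normalizer (Y : Set G) := by
    rw [inv_iff]
    intro a ha s hs
    rw [hV a (hX ha) s (hY hs), mul_assoc, mul_inv_cancel, mul_one]
    exact hs
  have := Subgroup.coe_mul_of_left_le_normalizer_right X Y hle
  have hz' : z ∈ ((X ⊔ Y : Subgroup G) : Set G) := hz
  rw [this] at hz'
  exact Set.mem_mul.mp hz'

theorem inv_sup {A X Y : Subgroup G} (hX : ∀ a ∈ A, ∀ s ∈ X, a * s * a⁻¹ ∈ X)
    (hY : ∀ a ∈ A, ∀ s ∈ Y, a * s * a⁻¹ ∈ Y) : ∀ a ∈ A, ∀ s ∈ X ⊔ Y, a * s * a⁻¹ ∈ X ⊔ Y := by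
  rw [← inv_iff] at *
  exact (le_inf hX hY).trans (Subgroup.normalizer_inf_normalizer_le_normalizer_sup X Y)

theorem inv_inf {A X Y : Subgroup G} (hX : ∀ a ∈ A, ∀ s ∈ X, a * s * a⁻¹ ∈ X)
    (hY : ∀ a ∈ A, ∀ s ∈ Y, a * s * a⁻¹ ∈ Y) : ∀ a ∈ A, ∀ s ∈ X ⊓ Y, a * s * a⁻¹ ∈ X ⊓ Y :=
  fun a ha s hs => ⟨hX a ha s hs.1, hY a ha s hs.2⟩

/-- Clifford's Theorem for actions on finite abelian groups, first part. Let H and V be subgroups of a finite group with V abelian and H normalizing V, and let A be a normal subgroup of H. If every H-invariant subgroup of V has an H-invariant complement in V, then every A-invariant subgroup of V has an A-invariant complement in V. -/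
theorem result {G : Type*} [Group G] [Finite G] (H A V : Subgroup G) (hVab : IsMulCommutative V) (hHV : H ≤ Subgroup.normalizer (V : Set G)) (hAH : A ≤ H) (hAn : H ≤ Subgroup.normalizer (A : Set G)) (hss : ∀ U : Subgroup G, U ≤ V → H ≤ Subgroup.normalizer (U : Set G) → ∃ W : Subgroup G, W ≤ V ∧ H ≤ Subgroup.normalizer (W : Set G) ∧ U ⊓ W = ⊥ ∧ U ⊔ W = V) (U : Subgroup G) (hUV : U ≤ V) (hAU : A ≤ Subgroup.normalizer (U : Set G)) : ∃ W : Subgroup G, W ≤ V ∧ A ≤ Subgroup.normalizer (W : Set G) ∧ U ⊓ W = ⊥ ∧ U ⊔ W = V := by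
  have hV : ∀ x ∈ V, ∀ y ∈ V, x * y = y * x := by
    intro x hx y hy
    have := hVab.is_comm.comm ⟨x, hx⟩ ⟨y, hy⟩
    exact congrArg Subtype.val this
  simp only [inv_iff] at hHV hAn hss hAU ⊢
  -- the socle
  let T : Subgroup G := sSup {S | MinInv A V S}
  have hTV : T ≤ V := sSup_le fun S hS => hS.1
  have hTH : ∀ h ∈ H, ∀ t ∈ T, h * t * h⁻¹ ∈ T := by
    intro h hh
    have : T ≤ cj h⁻¹ T := by
      apply sSup_le
      intro S hS
      rw [← cj_inv_cj h S]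
      apply cj_mono
      exact le_sSup (minInv_cj hAn hHV hh hS)
    intro t ht
    have := this ht
    rw [mem_cj] at this
    simpa using this
  have hT : T = V := by
    obtain ⟨W, hWV, hWH, hTW, hTW'⟩ := hss T hTV hTH
    by_cases hW : W = ⊥
    · rw [hW, sup_bot_eq] at hTW'
      exact hTW'
    · exfalso
      obtain ⟨S, hS, hSW⟩ := exists_minInv (A := A) hWV (fun a ha => hWH a (hAH ha)) hW
      have : S ≤ T ⊓ W := le_inf (le_sSup hS) hSW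
      rw [hTW] at this
      exact hS.2.2.1 (le_bot_iff.mp this)
  let 𝒲 : Set (Subgroup G) := {W | W ≤ V ∧ (∀ a ∈ A, ∀ s ∈ W, a * s * a⁻¹ ∈ W) ∧ U ⊓ W = ⊥}
  obtain ⟨W, hW, hmax⟩ := (Set.toFinite 𝒲).exists_maximal
    ⟨⊥, bot_le, fun a _ s hs => by
      rw [Subgroup.mem_bot] at hs ⊢
      rw [hs]; group, inf_bot_eq _⟩
  refine ⟨W, hW.1, hW.2.1, hW.2.2, ?_⟩
  apply le_antisymm (sup_le hUV hW.1)
  rw [← hT]
  apply sSup_le
  intro S hS
  by_contra hnot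
  have hbot : S ⊓ (U ⊔ W) = ⊥ := by
    rcases hS.2.2.2 (S ⊓ (U ⊔ W)) inf_le_left (inv_inf hS.2.1 (inv_sup hAU hW.2.1)) with h | h
    · exact h
    · exact absurd (inf_eq_left.mp h) hnot
  have hmem : W ⊔ S ∈ 𝒲 := by
    refine ⟨sup_le hW.1 hS.1, inv_sup hW.2.1 hS.2.1, ?_⟩
    rw [eq_bot_iff]
    intro x hx
    obtain ⟨w, hw, s, hs, rfl⟩ := mem_sup_comm hV hW.1 hS.1 hx.2
    have hs1 : s ∈ S ⊓ (U ⊔ W) := by
      refine ⟨hs, ?_⟩
      have : s = w⁻¹ * (w * s) := by group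
      rw [this]
      exact mul_mem (Subgroup.mem_sup_right (W.inv_mem hw)) (Subgroup.mem_sup_left hx.1)
    rw [hbot, Subgroup.mem_bot] at hs1
    subst hs1
    rw [mul_one] at hx ⊢
    rw [← hW.2.2]
    exact ⟨hx.1, hw⟩
  have := hmax hmem le_sup_left
  exact hnot ((le_sup_right.trans this).trans le_sup_right)

end Cfsg.Agent.S3735
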