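import Cfsg.Statements.S3736
import Mathlib
import Cfsg.Agent.S0841
import Cfsg.Agent.Lib.Helper1.Coprime2
import Cfsg.Agent.Lib.Helper1.PQLemma
import Cfsg.Agent.Lib.Helper1.PGroup
import Cfsg.Agent.Lib.Helper65.MinAction

set_option autoImplicit false
open Cfsg

namespace Cfsg.Agent.S3736

open Cfsg.Agent.Lib.Helper1 Cfsg.Agent.Lib.Helper65

/-- The Hall–Higman reduction for a minimal non-trivial action. Let B, A and P be subgroups of a finite group with P a p-group, B normalizing P, and A a normal subgroup of B of order prime to p. Suppose A does not centralize P but centralizes every proper B-invariant subgroup of P. Then [P, A] = P; P is elementary abelian or special; B acts irreducibly on P/Φ(P), that is, the only B-invariant subgroups of P containing Φ(P) are Φ(P) and P; and if p is odd then every element of P has order dividing p. -/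
theorem result {X : Type*} [Group X] [Finite X] {p : ℕ} [Fact p.Prime] (B A P : Subgroup X) (hP : IsPGroup p P) (hBP : B ≤ Subgroup.normalizer (P : Set X)) (hAB : A ≤ B) (hAn : B ≤ Subgroup.normalizer (A : Set X)) (hAp : (Nat.card A).Coprime p) (hnt : ⁅P, A⁆ ≠ ⊥) (hmin : ∀ U : Subgroup X, U < P → B ≤ Subgroup.normalizer (U : Set X) → ⁅U, A⁆ = ⊥) : ⁅P, A⁆ = P ∧ (Cfsg.IsElementaryAbelian p P ∨ Cfsg.IsSpecial p ↥P) ∧ (∀ U : Subgroup X, (frattini ↥P).map P.subtype ≤ U → U ≤ P → B ≤ Subgroup.normalizer (U : Set X) → U = (frattini ↥P).map P.subtype ∨ U = P) ∧ (p ≠ 2 → ∀ x ∈ P, x ^ p = 1) := by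
  have hp : p.Prime := Fact.out
  have hAP : A ≤ Subgroup.normalizer (P : Set X) := hAB.trans hBP
  obtain ⟨n, hn⟩ := hP.exists_card_eq
  have hcop : (Nat.card A).Coprime (Nat.card P) := by rw [hn]; exact hAp.pow_right n
  have hsolv : Group.IsSolvable A ∨ Group.IsSolvable P := by
    right
    have := hP.isNilpotent
    infer_instance
  have hle : ⁅P, A⁆ ≤ P := commutator_le_left_of_le_normalizer hAP
  have hBn : B ≤ Subgroup.normalizer ((⁅P, A⁆ : Subgroup X) : Set X) :=
    (le_inf hBP hAn).trans (inf_normalizer_le_normalizer_commutator P A)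
  have h1 : ⁅P, A⁆ = P := by
    by_contra hne
    have := hmin _ (lt_of_le_of_ne hle hne) hBn
    rw [coprime_commutator_commutator A P hAP hcop hsolv] at this
    exact hnt this
  have hPne : P ≠ ⊥ := by
    intro h
    apply hnt
    rw [h1, h]
  have hZ : ∀ U : Subgroup X, U < P → B ≤ Subgroup.normalizer (U : Set X) →
      P ≤ Subgroup.normalizer (U : Set X) → ⁅P, U⁆ = ⊥ := by
    intro U hU hBU hPU
    have hUA := hmin U hU hBU
    have e1 : ⁅⁅A, U⁆, P⁆ = ⊥ := by
      rw [Subgroup.commutator_comm A U, hUA]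
      exact Subgroup.commutator_bot_left _
    have e2 : ⁅⁅U, P⁆, A⁆ = ⊥ := by
      have : ⁅U, P⁆ ≤ U := commutator_le_left_of_le_normalizer hPU
      exact le_bot_iff.mp ((Subgroup.commutator_mono this le_rfl).trans hUA.le)
    have := Subgroup.commutator_commutator_eq_bot_of_rotate e1 e2
    rwa [h1] at this
  have hchar : ∀ C : Subgroup P, C.Characteristic →
      Subgroup.normalizer (P : Set X) ≤ Subgroup.normalizer ((C.map P.subtype : Subgroup X) : Set X) := by
    intro C hC
    exact normalizer_le_normalizer_map_of_characteristic P C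
  set Φ := (frattini ↥P).map P.subtype with hΦ
  have hΦle : Φ ≤ P := Subgroup.map_subtype_le _
  have hΦlt : Φ < P := by
    refine lt_of_le_of_ne hΦle ?_
    intro h
    have hnontriv : (⊥ : Subgroup P) ≠ ⊤ := by
      intro hbt
      apply hPne
      rw [eq_bot_iff]
      intro x hx
      have : (⟨x, hx⟩ : P) ∈ (⊥ : Subgroup P) := by rw [hbt]; trivial
      rw [Subgroup.mem_bot] at this
      simpa using congrArg Subtype.val this
    obtain h' | ⟨M, hM, -⟩ := eq_top_or_exists_le_coatom (⊥ : Subgroup P)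
    · exact hnontriv h'
    · have h2 : frattini ↥P ≤ M := frattini_le_coatom hM
      have h3 : frattini ↥P = ⊤ := by
        apply Subgroup.map_injective P.subtype_injective
        rw [← hΦ, h, ← MonoidHom.range_eq_map, Subgroup.range_subtype]
      rw [h3] at h2
      exact hM.1 (top_le_iff.mp h2)
  have hΦB : B ≤ Subgroup.normalizer (Φ : Set X) := hBP.trans (hchar _ inferInstance)
  have hΦP : P ≤ Subgroup.normalizer (Φ : Set X) := Subgroup.le_normalizer.trans (hchar _ inferInstance)
  have hcf : commutator P ≤ frattini P := by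
    rw [le_frattini_iff]
    intro M hM
    exact pgroup_commutator_le_coatom hP hM
  have hDΦ : ⁅P, P⁆ ≤ Φ := by
    rw [← Subgroup.map_subtype_commutator]
    exact Subgroup.map_mono hcf
  have hfixΦ : P ⊓ Subgroup.centralizer (A : Set X) ≤ Φ :=
    inf_centralizer_le_of_commutator_eq A P Φ hAP (hAB.trans hΦB) hΦP hDΦ hcop h1
  have hpowΦ : ∀ x : P, x ^ p ∈ frattini P := by
    intro x
    rw [mem_frattini_iff]
    intro M hM
    exact pgroup_pow_mem_coatom hP hM x
  have hΦA : Φ ≤ Subgroup.centralizer (A : Set X) :=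
    Subgroup.commutator_eq_bot_iff_le_centralizer.mp (hmin Φ hΦlt hΦB)
  have hfc : frattini P ≤ Subgroup.center P := by
    intro x hx
    rw [Subgroup.mem_center_iff]
    intro y
    have h2 := Subgroup.commutator_eq_bot_iff_le_centralizer.mp (hZ Φ hΦlt hΦB hΦP)
    have h3 := Subgroup.mem_centralizer_iff.mp (h2 y.2) x.1 ⟨x, hx, rfl⟩
    exact Subtype.ext h3.symm
  have hexp : (∀ x y : P, (x * y) ^ p = x ^ p * y ^ p) → ∀ x ∈ P, x ^ p = 1 := by
    intro hmul
    let K : Subgroup X :=
      { carrier := {x | x ∈ P ∧ x ^ p = 1}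
        mul_mem' := by
          rintro x y ⟨hx, hx1⟩ ⟨hy, hy1⟩
          refine ⟨P.mul_mem hx hy, ?_⟩
          have := congrArg Subtype.val (hmul ⟨x, hx⟩ ⟨y, hy⟩)
          simp only [Subgroup.coe_pow, Subgroup.coe_mul] at this
          rw [this, hx1, hy1, one_mul]
        one_mem' := ⟨P.one_mem, one_pow _⟩
        inv_mem' := by
          rintro x ⟨hx, hx1⟩
          exact ⟨P.inv_mem hx, by rw [inv_pow, hx1, inv_one]⟩ }
    have hK : ⁅P, A⁆ ≤ K := by
      rw [Subgroup.commutator_le]
      intro x hx a ha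
      refine ⟨hle (Subgroup.commutator_mem_commutator hx ha), ?_⟩
      have hy : a * x⁻¹ * a⁻¹ ∈ P := (Subgroup.le_normalizer_iff.mp hAP) a ha _ (P.inv_mem hx)
      have h2 := congrArg Subtype.val (hmul ⟨x, hx⟩ ⟨_, hy⟩)
      simp only [Subgroup.coe_pow, Subgroup.coe_mul] at h2
      rw [commutatorElement_def, show x * a * x⁻¹ * a⁻¹ = x * (a * x⁻¹ * a⁻¹) by group, h2,
        conj_pow, inv_pow]
      have h3 : x ^ p ∈ Φ := ⟨⟨x, hx⟩ ^ p, hpowΦ ⟨x, hx⟩, rfl⟩
      have h4 := Subgroup.mem_centralizer_iff.mp (hΦA h3) a ha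
      have h5 : a * (x ^ p)⁻¹ * a⁻¹ = (x ^ p)⁻¹ := by
        have h6 : a * (x ^ p)⁻¹ = (x ^ p)⁻¹ * a := by
          have : (x ^ p)⁻¹ * (a * x ^ p) * (x ^ p)⁻¹ = (x ^ p)⁻¹ * (x ^ p * a) * (x ^ p)⁻¹ := by
            rw [h4]
          simpa [mul_assoc] using this.symm
        rw [h6, mul_inv_cancel_right]
      rw [h5, mul_inv_cancel]
    intro x hx
    exact (hK (h1.symm ▸ hx)).2
  have hirr : ∀ U : Subgroup X, Φ ≤ U → U ≤ P → B ≤ Subgroup.normalizer (U : Set X) →
      U = Φ ∨ U = P := by
    intro U hΦU hUP hBU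
    by_cases hUP' : U = P
    · exact Or.inr hUP'
    · left
      have hlt := lt_of_le_of_ne hUP hUP'
      have := Subgroup.commutator_eq_bot_iff_le_centralizer.mp (hmin U hlt hBU)
      exact le_antisymm ((le_inf hUP this).trans hfixΦ) hΦU
  by_cases hab : ∀ x y : P, x * y = y * x
  · have hE : ∀ x ∈ P, x ^ p = 1 := hexp (fun x y => (show Commute x y from hab x y).mul_pow p)
    exact ⟨h1, Or.inl ⟨⟨⟨hab⟩⟩, hE⟩, hirr, fun _ => hE⟩
  · have hcne : Subgroup.center P ≠ ⊤ := by
      intro h
      apply hab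
      intro x y
      have : y ∈ Subgroup.center P := by rw [h]; trivial
      exact (Subgroup.mem_center_iff.mp this x)
    set Z := (Subgroup.center P).map P.subtype with hZdef
    have hZlt : Z < P := by
      refine lt_of_le_of_ne (Subgroup.map_subtype_le _) ?_
      intro h
      apply hcne
      apply Subgroup.map_injective P.subtype_injective
      rw [← hZdef, h, ← MonoidHom.range_eq_map, Subgroup.range_subtype]
    have hZB : B ≤ Subgroup.normalizer (Z : Set X) := hBP.trans (hchar _ inferInstance)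
    have hZA := Subgroup.commutator_eq_bot_iff_le_centralizer.mp (hmin Z hZlt hZB)
    have hnD : Subgroup.normalizer (P : Set X) ≤ Subgroup.normalizer ((⁅P, P⁆ : Subgroup X) : Set X) :=
      (le_inf le_rfl le_rfl).trans (inf_normalizer_le_normalizer_commutator P P)
    have hD : P ⊓ Subgroup.centralizer (A : Set X) ≤ ⁅P, P⁆ :=
      inf_centralizer_le_of_commutator_eq A P ⁅P, P⁆ hAP (hAP.trans hnD)
        (Subgroup.le_normalizer.trans hnD) le_rfl hcop h1
    have hzc : Subgroup.center P ≤ commutator P := by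
      rw [← Subgroup.map_le_map_iff_of_injective P.subtype_injective, Subgroup.map_subtype_commutator]
      exact (le_inf hZlt.le hZA).trans hD
    have hspecial : IsSpecial p P :=
      ⟨hP, le_antisymm hfc (hzc.trans hcf), le_antisymm (hcf.trans hfc) hzc⟩
    refine ⟨h1, Or.inr hspecial, hirr, ?_⟩
    intro hp2
    apply hexp
    intro x y
    have hcc : commutator P ≤ Subgroup.center P := hcf.trans hfc
    rw [Cfsg.Agent.S0841.result hcc x y p]
    have hcZ : y⁻¹ * x⁻¹ * y * x ∈ Subgroup.center P := by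
      apply hcc
      have h := Subgroup.commutator_mem_commutator (Subgroup.mem_top y⁻¹) (Subgroup.mem_top x⁻¹)
      rw [commutatorElement_def] at h
      rw [commutator_def]
      simpa using h
    set c := y⁻¹ * x⁻¹ * y * x with hc
    have hcp : c ^ p = 1 := by
      have e1 : x⁻¹ * y * x = y * c := by rw [hc]; group
      have e2 : (x⁻¹ * y * x) ^ p = x⁻¹ * y ^ p * x := by
        simpa using conj_pow (a := x⁻¹) (b := y) (i := p)
      have e3 : x⁻¹ * y ^ p * x = y ^ p := by
        have := Subgroup.mem_center_iff.mp (hfc (hpowΦ y)) x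
        rw [mul_assoc, ← this, inv_mul_cancel_left]
      have e4 : (y * c) ^ p = y ^ p * c ^ p :=
        (show Commute y c from Subgroup.mem_center_iff.mp hcZ y).mul_pow p
      rw [e1, e4, e3] at e2
      simpa using e2
    have hodd : 2 ∣ p - 1 := by
      have := hp.eq_two_or_odd'.resolve_left hp2
      obtain ⟨k, hk⟩ := this
      exact ⟨k, by omega⟩
    rw [Nat.mul_div_assoc p hodd, pow_mul, hcp, one_pow, mul_one]

end Cfsg.Agent.S3736
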