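import Cfsg.Statements.S3737
import Mathlib
import Cfsg.Agent.S3736
import Cfsg.Agent.Lib.Helper65.Baer

set_option autoImplicit false
open Cfsg

namespace Cfsg.Agent.S3737

open Cfsg.Agent.Lib.Helper65

/-- Thompson's strengthening of the P × Q lemma for odd primes. Let p be an odd prime and let P, Q and G be subgroups of a finite group with P a p-group, Q of order prime to p and normalized by P, and G a p-group normalized by both P and Q. If every element of G centralized by P is centralized by Q, then Q centralizes G. -/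
theorem result {X : Type*} [Group X] [Finite X] {p : ℕ} [Fact p.Prime] (hp : p ≠ 2) (P Q G : Subgroup X) (hP : IsPGroup p P) (hQ : (Nat.card Q).Coprime p) (hPQ : P ≤ Subgroup.normalizer (Q : Set X)) (hG : IsPGroup p G) (hPG : P ≤ Subgroup.normalizer (G : Set X)) (hQG : Q ≤ Subgroup.normalizer (G : Set X)) (hC : G ⊓ Subgroup.centralizer (P : Set X) ≤ Subgroup.centralizer (Q : Set X)) : Q ≤ Subgroup.centralizer (G : Set X) := by
  induction hcard : Nat.card G using Nat.strong_induction_on generalizing G with
  | _ n ih =>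
  by_contra hne
  have hnt : ⁅G, Q⁆ ≠ ⊥ := by
    intro h
    apply hne
    rw [Subgroup.commutator_comm] at h
    exact Subgroup.commutator_eq_bot_iff_le_centralizer.mp h
  set B := P ⊔ Q with hB
  have hBG : B ≤ Subgroup.normalizer (G : Set X) := sup_le hPG hQG
  have hQB : Q ≤ B := le_sup_right
  have hBQ : B ≤ Subgroup.normalizer (Q : Set X) := sup_le hPQ Subgroup.le_normalizer
  have hmin : ∀ U : Subgroup X, U < G → B ≤ Subgroup.normalizer (U : Set X) → ⁅U, Q⁆ = ⊥ := by
    intro U hU hBU
    have hlt : Nat.card U < n := by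
      rw [← hcard]
      exact Set.ncard_lt_ncard (SetLike.coe_ssubset_coe.mpr hU) (Set.toFinite _)
    have := ih (Nat.card U) hlt U (hG.to_le hU.le) (le_sup_left.trans hBU) (le_sup_right.trans hBU)
      ((inf_le_inf_right _ hU.le).trans hC) rfl
    rw [Subgroup.commutator_comm]
    exact Subgroup.commutator_eq_bot_iff_le_centralizer.mpr this
  obtain ⟨-, h2, -, h4⟩ := Cfsg.Agent.S3736.result B Q G hG hBG hQB hBQ hQ hnt hmin
  have hexp : ∀ x : G, x ^ p = 1 := fun x => Subtype.ext (h4 hp x.1 x.2)
  have hcl : commutator G ≤ Subgroup.center G := by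
    rcases h2 with h | h
    · have := h.1
      intro x _
      rw [Subgroup.mem_center_iff]
      intro y
      exact this.is_comm.comm y x
    · exact h.2.2.le
  set N := Subgroup.normalizer (G : Set X) with hN
  have key := semidirect_class_two_case hp hG hcl hexp (Subgroup.normalizerMonoidHom G)
    (P.subgroupOf N) (Q.subgroupOf N)
    (hP.comap_of_injective N.subtype N.subtype_injective |>.to_le le_rfl)
    (by rwa [Nat.card_congr (Subgroup.subgroupOfEquivOfLe hQG).toEquiv])
    (by
      rw [Subgroup.le_normalizer_iff]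
      intro a ha b hb
      exact (Subgroup.le_normalizer_iff.mp hPQ) a.1 (Subgroup.mem_subgroupOf.mp ha) b.1
        (Subgroup.mem_subgroupOf.mp hb))
    (by
      intro v hv β hβ
      have h1 : v.1 ∈ G ⊓ Subgroup.centralizer (P : Set X) := by
        refine ⟨v.2, ?_⟩
        show v.1 ∈ Subgroup.centralizer (P : Set X)
        rw [Subgroup.mem_centralizer_iff]
        intro a ha
        have := congrArg Subtype.val (hv ⟨a, hPG ha⟩ (Subgroup.mem_subgroupOf.mpr ha))
        have h3 : a * v.1 * a⁻¹ = v.1 := this
        exact mul_inv_eq_iff_eq_mul.mp h3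
      have h2 := Subgroup.mem_centralizer_iff.mp (hC h1) β.1 (Subgroup.mem_subgroupOf.mp hβ)
      apply Subtype.ext
      show β.1 * v.1 * β.1⁻¹ = v.1
      rw [h2, mul_inv_cancel_right])
  apply hne
  intro b hb
  rw [Subgroup.mem_centralizer_iff]
  intro g hg
  have := congrArg Subtype.val (key ⟨b, hQG hb⟩ (Subgroup.mem_subgroupOf.mpr hb) ⟨g, hg⟩)
  have h3 : b * g * b⁻¹ = g := this
  exact (mul_inv_eq_iff_eq_mul.mp h3).symm

end Cfsg.Agent.S3737
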