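import Cfsg.Statements.S3739
import Mathlib
import Cfsg.Agent.S3738
import Cfsg.Agent.Lib.Helper70.Rank2
import Cfsg.Agent.Lib.Helper53.Basic
-- import your own Cfsg.Agent.* helpers here

set_option autoImplicit false
open Cfsg

namespace Cfsg.Agent.S3739

open Cfsg.Agent.S3738 Cfsg.Agent.Lib.Helper70.Rank2

open scoped Pointwise in
theorem core {G : Type*} [Group G] [Finite G] (T : Subgroup G) [hTn : T.Normal]
    (hT : IsPGroup 2 T) (hchar : Subgroup.centralizer (T : Set G) ≤ T)
    (hrank : ∀ E : Subgroup G, (∀ a ∈ E, ∀ b ∈ E, a * b = b * a) → (∀ a ∈ E, a * a = 1) →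
      Nat.card E ≤ 4)
    (c u : G) (hc : orderOf c = 3) (hu : orderOf u = 2) (hcu : c * u = u * c)
    (d : G) (hd : IsPGroup 3 (Subgroup.zpowers d)) (W : Subgroup G)
    (hWc : ∀ a ∈ W, ∀ b ∈ W, a * b = b * a) (hW2 : ∀ a ∈ W, a * a = 1) (hW1 : W ≠ ⊥)
    (hdW : ∀ w ∈ W, d * w * d⁻¹ ∈ W) (hfpf : ∀ w ∈ W, d * w * d⁻¹ = w → w = 1) : False := by
  have hW4 : Nat.card W = 4 :=
    le_antisymm (hrank W hWc hW2) (four_le_card W hW2 hW1 d hdW hfpf)
  -- irreducibility
  have hirr : ∀ (e : G) (Y : Subgroup G), Y ≤ W → Y ≠ ⊥ → (∀ y ∈ Y, e * y * e⁻¹ ∈ Y) →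
      (∀ w ∈ W, e * w * e⁻¹ = w → w = 1) → Y = W := by
    intro e Y hYW hY1 hYe hef
    apply Subgroup.eq_of_le_of_card_ge hYW
    rw [hW4]
    exact four_le_card Y (fun y hy => hW2 y (hYW hy)) hY1 e hYe (fun y hy => hef y (hYW hy))
  -- involutions commuting with W lie in W
  have hmemW : ∀ x : G, x * x = 1 → (∀ w ∈ W, x * w = w * x) → x ∈ W := by
    intro x hx2 hxW
    obtain ⟨hE1, hE2⟩ := closure_invol ((W : Set G) ∪ {x}) (by
      rintro a (ha | rfl) b (hb | rfl)
      · exact hWc a ha b hb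
      · exact (hxW a ha).symm
      · exact hxW b hb
      · rfl) (by
      rintro a (ha | rfl)
      · exact hW2 a ha
      · exact hx2)
    have hE := hrank _ hE1 hE2
    have hle : W ≤ Subgroup.closure ((W : Set G) ∪ {x}) :=
      fun w hw => Subgroup.subset_closure (Or.inl hw)
    have heq := Subgroup.eq_of_le_of_card_ge hle (by rw [hW4]; exact hE)
    rw [heq]
    exact Subgroup.subset_closure (Or.inr rfl)
  -- a central involution of `W T`
  have hWp : IsPGroup 2 W := by
    intro w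
    refine ⟨1, ?_⟩
    rw [pow_one, pow_two]
    exact Subtype.ext (hW2 w w.2)
  have hHp : IsPGroup 2 (W ⊔ T : Subgroup G) := hWp.to_sup_of_normal_right hT
  have : Fact (Nat.Prime 2) := ⟨Nat.prime_two⟩
  have hHnt : Nontrivial (W ⊔ T : Subgroup G) := by
    rw [Subgroup.nontrivial_iff_ne_bot]
    intro h
    apply hW1
    rw [eq_bot_iff, ← h]
    exact le_sup_left
  have hcnt := hHp.center_nontrivial
  obtain ⟨z, hz⟩ := exists_ne (1 : Subgroup.center (W ⊔ T : Subgroup G))
  obtain ⟨z0, hz0⟩ : ∃ z0 : G, z0 = ((z : (W ⊔ T : Subgroup G)) : G) := ⟨_, rfl⟩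
  have hz01 : z0 ≠ 1 := by
    intro h
    apply hz
    apply Subtype.ext
    apply Subtype.ext
    rw [← hz0, h]
    rfl
  have hz0c : ∀ h ∈ (W ⊔ T : Subgroup G), h * z0 = z0 * h := by
    intro h hh
    have := Subgroup.mem_center_iff.1 z.2 ⟨h, hh⟩
    rw [hz0]
    exact congrArg Subtype.val this
  obtain ⟨k, hk⟩ := hHp (z : (W ⊔ T : Subgroup G))
  have hk' : z0 ^ 2 ^ k = 1 := by
    rw [hz0]
    exact congrArg Subtype.val hk
  obtain ⟨j, hv1, hv2⟩ := exists_invol_pow k z0 hk' hz01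
  have hvc : ∀ h ∈ (W ⊔ T : Subgroup G), z0 ^ j * h = h * z0 ^ j := by
    intro h hh
    have : Commute z0 h := (hz0c h hh).symm
    exact (this.pow_left j).eq
  have hvW : z0 ^ j ∈ W := hmemW _ hv2 (fun w hw => hvc w (Subgroup.mem_sup_left hw))
  have hvT : z0 ^ j ∈ Subgroup.centralizer (T : Set G) := by
    rw [Subgroup.mem_centralizer_iff]
    intro t ht
    exact (hvc t (Subgroup.mem_sup_right ht)).symm
  -- W is central in T
  have hcentN : ∀ (g y : G), y ∈ Subgroup.centralizer (T : Set G) →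
      g * y * g⁻¹ ∈ Subgroup.centralizer (T : Set G) := by
    intro g y hy
    rw [Subgroup.mem_centralizer_iff] at hy ⊢
    intro t ht
    have h1 : g⁻¹ * t * g ∈ T := by
      have := hTn.conj_mem t ht g⁻¹
      rwa [inv_inv] at this
    have h2 := hy _ h1
    calc t * (g * y * g⁻¹) = g * ((g⁻¹ * t * g) * y) * g⁻¹ := by group
      _ = g * (y * (g⁻¹ * t * g)) * g⁻¹ := by rw [h2]
      _ = g * y * g⁻¹ * t := by group
  have hWZ : W ≤ Subgroup.centralizer (T : Set G) := by
    have := hirr d (W ⊓ Subgroup.centralizer (T : Set G)) inf_le_left (by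
      intro h
      apply hv1
      have : z0 ^ j ∈ W ⊓ Subgroup.centralizer (T : Set G) := ⟨hvW, hvT⟩
      rw [h, Subgroup.mem_bot] at this
      exact this) (by
      rintro y ⟨hy1, hy2⟩
      exact ⟨hdW y hy1, hcentN d y hy2⟩) hfpf
    rw [← this]
    exact inf_le_right
  have hWT : W ≤ T := hWZ.trans hchar
  have hinvT : ∀ x ∈ T, x * x = 1 → x ∈ W := by
    intro x hx hx2
    apply hmemW x hx2
    intro w hw
    exact Subgroup.mem_centralizer_iff.1 (hWZ hw) x hx
  have hWn : ∀ (g w : G), w ∈ W → g * w * g⁻¹ ∈ W := by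
    intro g w hw
    apply hinvT _ (hTn.conj_mem w (hWT hw) g)
    calc g * w * g⁻¹ * (g * w * g⁻¹) = g * (w * w) * g⁻¹ := by group
      _ = 1 := by rw [hW2 w hw]; group
  -- an element of order three fixing a nontrivial element of `W` centralizes `W`
  have hdich : ∀ e : G, e ^ 3 = 1 → (∃ t ∈ W, t ≠ 1 ∧ e * t * e⁻¹ = t) →
      ∀ w ∈ W, e * w * e⁻¹ = w := by
    rintro e he ⟨t, ht, ht1, hte⟩
    obtain ⟨m, hm⟩ := three_dvd (MulAut.conj e) (by rw [← map_pow, he, map_one]) W
      (fun x hx => by rw [MulAut.conj_apply]; exact hWn e x hx)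
    have h1 : (W ⊓ fx (MulAut.conj e) : Subgroup G) ≠ ⊥ := by
      intro h
      apply ht1
      have : t ∈ (W ⊓ fx (MulAut.conj e) : Subgroup G) := by
        rw [Subgroup.mem_inf, mem_fx, MulAut.conj_apply]
        exact ⟨ht, hte⟩
      rwa [h, Subgroup.mem_bot] at this
    have h2 : Nat.card (W ⊓ fx (MulAut.conj e) : Subgroup G) ≠ 1 := by
      intro h
      exact h1 (Subgroup.card_eq_one.1 h)
    have h3 : 0 < Nat.card (W ⊓ fx (MulAut.conj e) : Subgroup G) := Nat.card_pos
    have hm0 : m = 0 := by omega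
    rw [hm0, mul_zero, add_zero] at hm
    have h4 := Subgroup.eq_of_le_of_card_ge
      (inf_le_left : (W ⊓ fx (MulAut.conj e) : Subgroup G) ≤ W) hm.le
    intro w hw
    rw [← h4, Subgroup.mem_inf, mem_fx, MulAut.conj_apply] at hw
    exact hw.2
  have hc3 : c ^ 3 = 1 := by rw [← hc]; exact pow_orderOf_eq_one c
  have hu2 : u * u = 1 := by rw [← pow_two, ← hu]; exact pow_orderOf_eq_one u
  have hu1 : u ≠ 1 := by
    intro h
    rw [h, orderOf_one] at hu
    omega
  have huinv : u⁻¹ = u := inv_eq_of_mul_eq_one_left hu2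
  -- `c` centralizes `W`
  have hcW : ∀ w ∈ W, c * w * c⁻¹ = w := by
    apply hdich c hc3
    by_contra hcon
    push Not at hcon
    have hcf : ∀ w ∈ W, c * w * c⁻¹ = w → w = 1 := by
      intro w hw h
      by_contra h1
      exact hcon w hw h1 h
    have hU := hirr c (W ⊓ Subgroup.centralizer {u}) inf_le_left (by
      obtain ⟨w, hw⟩ := Subgroup.ne_bot_iff_exists_ne_one.1 hW1
      have hw1 : (w : G) ≠ 1 := fun h => hw (Subtype.ext h)
      intro hbot
      by_cases h : u * w * u⁻¹ = w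
      · apply hw1
        have : (w : G) ∈ W ⊓ Subgroup.centralizer {u} := by
          rw [Subgroup.mem_inf, Subgroup.mem_centralizer_iff]
          refine ⟨w.2, ?_⟩
          intro x hx
          rw [Set.mem_singleton_iff] at hx
          rw [hx]
          calc u * (w : G) = (u * w * u⁻¹) * u := by group
            _ = w * u := by rw [h]
        rwa [hbot, Subgroup.mem_bot] at this
      · have huw : u * w * u⁻¹ ∈ W := hWn u w w.2
        have : (w : G) * (u * w * u⁻¹) ∈ W ⊓ Subgroup.centralizer {u} := by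
          rw [Subgroup.mem_inf, Subgroup.mem_centralizer_iff]
          refine ⟨W.mul_mem w.2 huw, ?_⟩
          intro x hx
          rw [Set.mem_singleton_iff] at hx
          rw [hx]
          calc u * ((w : G) * (u * w * u⁻¹)) = (u * w * u⁻¹) * ((u * u) * w * u⁻¹) := by group
            _ = (u * w * u⁻¹) * w * u := by rw [hu2, huinv]; group
            _ = w * (u * w * u⁻¹) * u := by rw [hWc _ huw _ w.2]
        rw [hbot, Subgroup.mem_bot] at this
        apply h
        calc u * (w : G) * u⁻¹ = ((w : G) * w) * (u * w * u⁻¹) := by rw [hW2 w w.2, one_mul]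
          _ = w * (w * (u * w * u⁻¹)) := by group
          _ = w := by rw [this, mul_one]) (by
      intro y hy
      rw [Subgroup.mem_inf, Subgroup.mem_centralizer_iff] at hy ⊢
      refine ⟨hWn c y hy.1, ?_⟩
      intro x hx
      rw [Set.mem_singleton_iff] at hx
      rw [hx]
      have h1 := hy.2 u rfl
      have h2 : u * c⁻¹ = c⁻¹ * u := by
        have : Commute u c := hcu.symm
        exact this.inv_right.eq
      calc u * (c * y * c⁻¹) = (u * c) * y * c⁻¹ := by group
        _ = (c * u) * y * c⁻¹ := by rw [hcu]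
        _ = c * (u * y) * c⁻¹ := by group
        _ = c * (y * u) * c⁻¹ := by rw [h1]
        _ = c * y * (u * c⁻¹) := by group
        _ = c * y * (c⁻¹ * u) := by rw [h2]
        _ = c * y * c⁻¹ * u := by group) hcf
    have huW : u ∈ W := by
      apply hmemW u hu2
      intro w hw
      rw [← hU, Subgroup.mem_inf, Subgroup.mem_centralizer_iff] at hw
      exact hw.2 u rfl
    apply hu1
    apply hcf u huW
    rw [hcu]
    group
  -- fixed point free on `W` implies fixed point free on `T`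
  have hfT : ∀ e : G, (∀ w ∈ W, e * w * e⁻¹ = w → w = 1) → ∀ x ∈ T, e * x * e⁻¹ = x → x = 1 := by
    intro e he x hx hex
    by_contra hx1
    obtain ⟨k, hk⟩ := hT ⟨x, hx⟩
    have hk' : x ^ 2 ^ k = 1 := congrArg Subtype.val hk
    obtain ⟨j, hj1, hj2⟩ := exists_invol_pow k x hk' hx1
    apply hj1
    apply he _ (hinvT _ (T.pow_mem hx j) hj2)
    rw [← conj_pow, hex]
  have hfin : ∀ c₁ d₁ : G, c₁ * d₁ = d₁ * c₁ → orderOf c₁ = 3 → d₁ ^ 3 = 1 →
      (∀ w ∈ W, c₁ * w * c₁⁻¹ = w) → (∀ w ∈ W, d₁ * w * d₁⁻¹ = w → w = 1) → False := by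
    intro c₁ d₁ hcd hc₁ hd₁ hc₁W hd₁W
    have h1 : (MulAut.conjNormal c₁ : MulAut T) = 1 := by
      apply no_pair hT (MulAut.conjNormal c₁) (MulAut.conjNormal d₁)
      · change _ * _ = _ * _
        rw [← map_mul, ← map_mul, hcd]
      · rw [← map_pow, ← hc₁, pow_orderOf_eq_one, map_one]
      · rw [← map_pow, hd₁, map_one]
      · intro x hx
        have h2 := congrArg Subtype.val hx
        rw [MulAut.conjNormal_apply] at h2
        exact Subtype.ext (hfT d₁ hd₁W x x.2 h2)
      · intro w hw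
        apply Subtype.ext
        rw [MulAut.conjNormal_apply]
        exact hc₁W _ (hinvT w w.2 (congrArg Subtype.val hw))
      · intro E hE1 hE2
        have := hrank (E.map T.subtype) (by
          rintro _ ⟨a, ha, rfl⟩ _ ⟨b, hb, rfl⟩
          exact congrArg Subtype.val (hE1 a ha b hb)) (by
          rintro _ ⟨a, ha, rfl⟩
          exact congrArg Subtype.val (hE2 a ha))
        rwa [Subgroup.card_map_of_injective (Subgroup.subtype_injective T)] at this
    have h2 : c₁ ∈ Subgroup.centralizer (T : Set G) := by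
      rw [Subgroup.mem_centralizer_iff]
      intro t ht
      have h3 := congrArg (fun f : MulAut T => ((f ⟨t, ht⟩ : T) : G)) h1
      simp only [MulAut.conjNormal_apply, MulAut.one_apply] at h3
      calc t * c₁ = (c₁ * t * c₁⁻¹) * c₁ := by rw [h3]
        _ = c₁ * t := by group
    obtain ⟨k, hk⟩ := hT ⟨c₁, hchar h2⟩
    have hk' : c₁ ^ 2 ^ k = 1 := congrArg Subtype.val hk
    have h3 := orderOf_dvd_of_pow_eq_one hk'
    rw [hc₁] at h3
    have h4 := Nat.Prime.dvd_of_dvd_pow Nat.prime_three h3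
    omega
  -- `d` has order three
  have hd1 : d ≠ 1 := by
    rintro rfl
    obtain ⟨w, hw⟩ := Subgroup.ne_bot_iff_exists_ne_one.1 hW1
    exact hw (Subtype.ext (hfpf w w.2 (by group)))
  have : Fact (Nat.Prime 3) := ⟨Nat.prime_three⟩
  obtain ⟨n, hn⟩ := hd.exists_card_eq
  rw [Nat.card_zpowers] at hn
  have hn1 : 1 ≤ n := by
    rcases Nat.eq_zero_or_pos n with h | h
    · rw [h, pow_zero, orderOf_eq_one_iff] at hn
      exact absurd hn hd1
    · exact h
  have hd3 : orderOf d = 3 := by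
    apply Cfsg.Agent.S3738.result d n hn1 hn T hT
    · rw [T.normalizer_eq_top]
      trivial
    · have h1 : Disjoint (Subgroup.zpowers d) T :=
        IsPGroup.disjoint_of_ne 3 2 (by norm_num) _ _ hd hT
      rw [eq_bot_iff]
      calc Subgroup.zpowers d ⊓ Subgroup.centralizer (T : Set G) ≤ Subgroup.zpowers d ⊓ T :=
            inf_le_inf_left _ hchar
        _ = ⊥ := h1.eq_bot
    · rw [eq_bot_iff]
      intro x hx
      rw [Subgroup.mem_inf, Subgroup.mem_centralizer_iff] at hx
      rw [Subgroup.mem_bot]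
      apply hfT d hfpf x hx.1
      rw [hx.2 d rfl]
      group
    · intro V hV hVc A hAc hA2
      have := hrank ((A.map V.subtype)) (by
        rintro _ ⟨a, ha, rfl⟩ _ ⟨b, hb, rfl⟩
        have := hAc.is_comm.comm ⟨a, ha⟩ ⟨b, hb⟩
        exact congrArg (fun x : A => ((x : V) : G)) this) (by
        rintro _ ⟨a, ha, rfl⟩
        have := hA2 a ha
        rw [pow_two] at this
        exact congrArg Subtype.val this)
      rw [Subgroup.card_map_of_injective (Subgroup.subtype_injective V)] at this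
      exact this
  have hd3' : d ^ 3 = 1 := by rw [← hd3]; exact pow_orderOf_eq_one d
  -- Sylow 3-subgroups
  obtain ⟨S, hS⟩ := hd.exists_le_sylow
  have hdS : d ∈ S := hS (Subgroup.mem_zpowers d)
  have hcp : IsPGroup 3 (Subgroup.zpowers c) :=
    IsPGroup.of_card (n := 1) (by rw [Nat.card_zpowers, hc, pow_one])
  obtain ⟨S', hS'⟩ := hcp.exists_le_sylow
  obtain ⟨g, hg⟩ := MulAction.exists_smul_eq G S' S
  have hc'S : g * c * g⁻¹ ∈ S := by
    rw [← hg]
    have h1 : MulAut.conj g • c ∈ MulAut.conj g • (S' : Subgroup G) :=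
      Subgroup.smul_mem_pointwise_smul _ _ _ (hS' (Subgroup.mem_zpowers c))
    exact h1
  have hSnt : Nontrivial S := ⟨⟨⟨d, hdS⟩, 1, fun h => hd1 (congrArg Subtype.val h)⟩⟩
  have hcS := S.2.center_nontrivial
  have hZp : IsPGroup 3 (Subgroup.center S) := S.2.to_subgroup _
  have h3dvd : 3 ∣ Nat.card (Subgroup.center S) :=
    (hZp.card_eq_or_dvd).resolve_left (Finite.one_lt_card).ne'
  obtain ⟨e, he⟩ := exists_prime_orderOf_dvd_card' 3 h3dvd
  obtain ⟨e0, he0⟩ : ∃ e0 : G, e0 = ((e : S) : G) := ⟨_, rfl⟩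
  have he0ord : orderOf e0 = 3 := by
    rw [he0, Subgroup.orderOf_coe, Subgroup.orderOf_coe, he]
  have he03 : e0 ^ 3 = 1 := by rw [← he0ord]; exact pow_orderOf_eq_one e0
  have he0c : ∀ s ∈ S, s * e0 = e0 * s := by
    intro s hs
    have := Subgroup.mem_center_iff.1 e.2 ⟨s, hs⟩
    rw [he0]
    exact congrArg Subtype.val this
  by_cases hcase : ∃ t ∈ W, t ≠ 1 ∧ e0 * t * e0⁻¹ = t
  · exact hfin e0 d (he0c d hdS).symm he0ord hd3' (hdich e0 he03 hcase) hfpf
  · push Not at hcase
    apply hfin (g * c * g⁻¹) e0 (he0c _ hc'S) _ he03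
    · intro w hw
      have h1 : g⁻¹ * w * g ∈ W := by
        have := hWn g⁻¹ w hw
        rwa [inv_inv] at this
      have h2 := hcW _ h1
      calc g * c * g⁻¹ * w * (g * c * g⁻¹)⁻¹ = g * (c * (g⁻¹ * w * g) * c⁻¹) * g⁻¹ := by group
        _ = g * (g⁻¹ * w * g) * g⁻¹ := by rw [h2]
        _ = w := by group
    · intro w hw h
      by_contra h1
      exact hcase w hw h1 h
    · have := (MulAut.conj g).orderOf_eq c
      rw [MulAut.conj_apply] at this
      rw [this, hc]

/-- Let G be a finite group with C_G(O₂(G)) ≤ O₂(G) containing an element of order 6, and let d be a non-identity 3-element of G normalizing a nontrivial elementary abelian 2-subgroup W with C_W(d) = 1. Then G has an elementary abelian subgroup of order 8. -/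
theorem result {G : Type*} [Group G] [Finite G] (hchar : Subgroup.centralizer (Cfsg.pCore 2 G : Set G) ≤ Cfsg.pCore 2 G) (hsix : ∃ g : G, orderOf g = 6) (d : G) (hd1 : d ≠ 1) (hd : IsPGroup 3 ↥(Subgroup.zpowers d)) (W : Subgroup G) (hW : Cfsg.IsElementaryAbelian 2 W) (hW1 : W ≠ ⊥) (hdW : d ∈ Subgroup.normalizer (W : Set G)) (hfpf : W ⊓ Subgroup.centralizer {d} = ⊥) : ∃ E : Subgroup G, Cfsg.IsElementaryAbelian 2 E ∧ Nat.card E = 8 := by
  by_contra hno
  have : Fact (Nat.Prime 2) := ⟨Nat.prime_two⟩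
  have hrank : ∀ E : Subgroup G, (∀ a ∈ E, ∀ b ∈ E, a * b = b * a) → (∀ a ∈ E, a * a = 1) →
      Nat.card E ≤ 4 := by
    intro E hE1 hE2
    by_contra hcon
    push Not at hcon
    have hEp : IsPGroup 2 E :=
      fun w => ⟨1, by rw [pow_one, pow_two]; exact Subtype.ext (hE2 w w.2)⟩
    obtain ⟨k, hk⟩ := hEp.exists_card_eq
    have hk3 : 3 ≤ k := by
      by_contra h
      push Not at h
      have : 2 ^ k ≤ 2 ^ 2 := Nat.pow_le_pow_right (by norm_num) (by omega)
      omega
    obtain ⟨K, hK⟩ := Sylow.exists_subgroup_card_pow_prime (G := E) 2 (n := 3)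
      (by rw [hk]; exact pow_dvd_pow 2 hk3)
    apply hno
    refine ⟨K.map E.subtype, ⟨⟨⟨?_⟩⟩, ?_⟩, ?_⟩
    · rintro ⟨_, a, ha, rfl⟩ ⟨_, b, hb, rfl⟩
      exact Subtype.ext (hE1 a a.2 b b.2)
    · rintro _ ⟨a, ha, rfl⟩
      rw [pow_two]
      exact hE2 a a.2
    · rw [Subgroup.card_map_of_injective (Subgroup.subtype_injective E), hK]
      norm_num
  obtain ⟨g, hg⟩ := hsix
  have hTn := Cfsg.Agent.Lib.Helper53.pCore_normal 2 G
  apply core (Cfsg.pCore 2 G) (Cfsg.Agent.Lib.Helper53.pCore_isPGroup 2 G) hchar hrank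
    (g ^ 2) (g ^ 3) _ _ _ d hd W _ _ hW1
  · intro w hw
    exact (Subgroup.mem_normalizer_iff.1 hdW w).1 hw
  · intro w hw h
    have : w ∈ W ⊓ Subgroup.centralizer {d} := by
      rw [Subgroup.mem_inf, Subgroup.mem_centralizer_iff]
      refine ⟨hw, ?_⟩
      intro x hx
      rw [Set.mem_singleton_iff] at hx
      rw [hx]
      calc d * w = (d * w * d⁻¹) * d := by group
        _ = w * d := by rw [h]
    rwa [hfpf, Subgroup.mem_bot] at this
  · rw [orderOf_pow_of_dvd (by norm_num) (by rw [hg]; norm_num), hg]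
  · rw [orderOf_pow_of_dvd (by norm_num) (by rw [hg]; norm_num), hg]
  · rw [← pow_add, ← pow_add]
  · intro a ha b hb
    exact congrArg Subtype.val (hW.1.is_comm.comm ⟨a, ha⟩ ⟨b, hb⟩)
  · intro a ha
    rw [← pow_two]
    exact hW.2 a ha

end Cfsg.Agent.S3739
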