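import Cfsg.Statements.S3741
import Cfsg.Agent.Lib.Helper59.CycSelfCentA

set_option autoImplicit false
open Cfsg

namespace Cfsg.Agent.S3741

open Cfsg.Agent.Lib.Helper59

theorem comm_index {G : Type*} [Group G] {p : ℕ} [hp : Fact p.Prime] (H Z : Subgroup G) (c : G)
    (hZc : Nat.card Z = p) (hZ : ∀ h ∈ H, h * c * h⁻¹ * c⁻¹ ∈ Z)
    (hcomm : ∀ z ∈ Z, ∀ h ∈ H, z * h = h * z) (hne : ∃ h ∈ H, h * c * h⁻¹ * c⁻¹ ≠ 1) :
    (H ⊓ Subgroup.centralizer ({c} : Set G)).relIndex H = p := by
  let f : H →* Z := MonoidHom.mk' (fun h => ⟨(h : G) * c * (h : G)⁻¹ * c⁻¹, hZ h h.2⟩) (by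
    intro a b
    apply Subtype.ext
    have h1 := hcomm _ (hZ b b.2) a a.2
    show ((a : G) * b) * c * ((a : G) * b)⁻¹ * c⁻¹ = ((a : G) * c * (a : G)⁻¹ * c⁻¹) * ((b : G) * c * (b : G)⁻¹ * c⁻¹)
    have h2 : ((a : G) * b) * c * ((a : G) * b)⁻¹ * c⁻¹
        = (a : G) * ((b : G) * c * (b : G)⁻¹ * c⁻¹) * (c * (a : G)⁻¹ * c⁻¹) := by group
    rw [h2, ← h1]
    have h3 := hcomm _ (hZ b b.2) a a.2
    -- z * a * (c a⁻¹ c⁻¹) = (a c a⁻¹ c⁻¹) * z
    have hz : ∀ z ∈ Z, z * ((a : G) * c * (a : G)⁻¹ * c⁻¹) = ((a : G) * c * (a : G)⁻¹ * c⁻¹) * z := by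
      intro z hz
      have : IsMulCommutative Z := by
        have : IsCyclic Z := isCyclic_of_prime_card hZc
        exact ⟨⟨fun x y => IsCyclic.commGroup.mul_comm x y⟩⟩
      have := this.is_comm.comm ⟨z, hz⟩ ⟨_, hZ a a.2⟩
      exact congrArg Subtype.val this
    have := hz _ (hZ b b.2)
    calc ((b : G) * c * (b : G)⁻¹ * c⁻¹) * (a : G) * (c * (a : G)⁻¹ * c⁻¹)
        = ((b : G) * c * (b : G)⁻¹ * c⁻¹) * ((a : G) * c * (a : G)⁻¹ * c⁻¹) := by group
      _ = _ := this)
  have hker : f.ker = (H ⊓ Subgroup.centralizer ({c} : Set G)).subgroupOf H := by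
    ext h
    rw [MonoidHom.mem_ker, Subgroup.mem_subgroupOf, Subgroup.mem_inf, Subgroup.mem_centralizer_singleton_iff]
    constructor
    · intro hh
      have : (h : G) * c * (h : G)⁻¹ * c⁻¹ = 1 := congrArg Subtype.val hh
      refine ⟨h.2, ?_⟩
      have h2 : (h : G) * c = c * h := by
        calc (h : G) * c = ((h : G) * c * (h : G)⁻¹ * c⁻¹) * (c * h) := by group
          _ = c * h := by rw [this, one_mul]
      exact h2
    · rintro ⟨-, hh⟩
      apply Subtype.ext
      show (h : G) * c * (h : G)⁻¹ * c⁻¹ = 1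
      rw [hh]; group
  have hrange : f.range = ⊤ := by
    have : Fact (Nat.card Z).Prime := by rw [hZc]; exact hp
    rcases Subgroup.eq_bot_or_eq_top_of_prime_card f.range with h | h
    · exfalso
      obtain ⟨h0, hh0, hne0⟩ := hne
      have : f ⟨h0, hh0⟩ ∈ f.range := ⟨_, rfl⟩
      rw [h, Subgroup.mem_bot] at this
      exact hne0 (congrArg Subtype.val this)
    · exact h
  rw [Subgroup.relIndex, ← hker, Subgroup.index_ker, hrange, Subgroup.card_top, hZc]

theorem main {G : Type*} [Group G] [Finite G] {p : ℕ} [hp : Fact p.Prime] (Z B : Subgroup G)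
    (hZc : Nat.card Z = p) (hcB : ∀ z ∈ Z, ∀ h ∈ B, z * h = h * z) :
    ∀ (n : ℕ) (A : Subgroup G), Nat.card A ≤ n → (∀ z ∈ Z, ∀ h ∈ A, z * h = h * z) →
      (∀ a ∈ A, ∀ b ∈ B, a * b * a⁻¹ * b⁻¹ ∈ Z) →
      (A ⊓ Subgroup.centralizer (B : Set G)).relIndex A = (B ⊓ Subgroup.centralizer (A : Set G)).relIndex B := by
  intro n
  induction n with
  | zero =>
    intro A hA
    exact absurd hA (by have := Nat.card_pos (α := A); omega)
  | succ n ih =>
    intro A hA hcA hAB
    by_cases hall : ∀ a ∈ A, ∀ b ∈ B, a * b = b * a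
    · have h1 : A ≤ A ⊓ Subgroup.centralizer (B : Set G) := by
        intro a ha
        refine Subgroup.mem_inf.2 ⟨ha, ?_⟩
        rw [Subgroup.mem_centralizer_iff]
        intro b hb
        exact (hall a ha b hb).symm
      have h2 : B ≤ B ⊓ Subgroup.centralizer (A : Set G) := by
        intro b hb
        refine Subgroup.mem_inf.2 ⟨hb, ?_⟩
        rw [Subgroup.mem_centralizer_iff]
        intro a ha
        exact hall a ha b hb
      rw [Subgroup.relIndex_eq_one.2 h1, Subgroup.relIndex_eq_one.2 h2]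
    · push Not at hall
      obtain ⟨a0, ha0, b, hb, hne⟩ := hall
      have hne1 : a0 * b * a0⁻¹ * b⁻¹ ≠ 1 := by
        intro h
        apply hne
        calc a0 * b = (a0 * b * a0⁻¹ * b⁻¹) * (b * a0) := by group
          _ = b * a0 := by rw [h, one_mul]
      set A1 := A ⊓ Subgroup.centralizer ({b} : Set G) with hA1
      have hidx1 : A1.relIndex A = p :=
        comm_index A Z b hZc (fun h hh => hAB h hh b hb) hcA ⟨a0, ha0, hne1⟩
      have hA1le : A1 ≤ A := inf_le_left
      have hcard : Nat.card A1 ≤ n := by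
        have h1 : A1.relIndex A * Nat.card A1 = Nat.card A := by
          have := Subgroup.relIndex_mul_relIndex ⊥ A1 A bot_le hA1le
          rw [Subgroup.relIndex_bot_left, Subgroup.relIndex_bot_left] at this
          rw [mul_comm]; exact this
        rw [hidx1] at h1
        have h2 := hp.out.two_le
        have h3 := Nat.card_pos (α := A1)
        nlinarith
      have ih1 := ih A1 hcard (fun z hz h hh => hcA z hz h (hA1le hh))
        (fun a ha b hb => hAB a (hA1le ha) b hb)
      -- C_{A1}(B) = C_A(B)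
      have hCA : A1 ⊓ Subgroup.centralizer (B : Set G) = A ⊓ Subgroup.centralizer (B : Set G) := by
        apply le_antisymm
        · exact inf_le_inf_right _ hA1le
        · intro x hx
          refine Subgroup.mem_inf.2 ⟨Subgroup.mem_inf.2 ⟨hx.1, ?_⟩, hx.2⟩
          rw [Subgroup.mem_centralizer_singleton_iff]
          exact ((Subgroup.mem_centralizer_iff.1 hx.2) b hb).symm
      set B1 := B ⊓ Subgroup.centralizer (A1 : Set G) with hB1
      have hbB1 : b ∈ B1 := by
        refine Subgroup.mem_inf.2 ⟨hb, ?_⟩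
        rw [Subgroup.mem_centralizer_iff]
        intro a ha
        exact (Subgroup.mem_centralizer_singleton_iff.1 ha.2)
      have hne2 : b * a0 * b⁻¹ * a0⁻¹ ≠ 1 := by
        intro h
        apply hne
        calc a0 * b = (b * a0 * b⁻¹ * a0⁻¹)⁻¹ * (b * a0) := by group
          _ = b * a0 := by rw [h, inv_one, one_mul]
      have hidx2 : (B1 ⊓ Subgroup.centralizer ({a0} : Set G)).relIndex B1 = p := by
        refine comm_index B1 Z a0 hZc ?_ (fun z hz h hh => hcB z hz h hh.1) ⟨b, hbB1, hne2⟩
        intro h hh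
        have := Z.inv_mem (hAB a0 ha0 h hh.1)
        have h2 : (a0 * h * a0⁻¹ * h⁻¹)⁻¹ = h * a0 * h⁻¹ * a0⁻¹ := by group
        rwa [h2] at this
      have hCB : B1 ⊓ Subgroup.centralizer ({a0} : Set G) = B ⊓ Subgroup.centralizer (A : Set G) := by
        apply le_antisymm
        · intro y hy
          refine Subgroup.mem_inf.2 ⟨hy.1.1, ?_⟩
          -- A ⊓ C(y) contains A1 and a0
          set D := A ⊓ Subgroup.centralizer ({y} : Set G) with hD
          have hA1D : A1 ≤ D := by
            intro a ha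
            refine Subgroup.mem_inf.2 ⟨hA1le ha, ?_⟩
            rw [Subgroup.mem_centralizer_singleton_iff]
            exact ((Subgroup.mem_centralizer_iff.1 hy.1.2) a ha)
          have ha0D : a0 ∈ D := by
            refine Subgroup.mem_inf.2 ⟨ha0, ?_⟩
            rw [Subgroup.mem_centralizer_singleton_iff]
            exact (Subgroup.mem_centralizer_singleton_iff.1 hy.2).symm
          have hDA : D ≤ A := inf_le_left
          have hmul := Subgroup.relIndex_mul_relIndex A1 D A hA1D hDA
          rw [hidx1] at hmul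
          have hne3 : A1.relIndex D ≠ 1 := by
            intro h
            rw [Subgroup.relIndex_eq_one] at h
            have := (Subgroup.mem_inf.1 (h ha0D)).2
            rw [Subgroup.mem_centralizer_singleton_iff] at this
            exact hne this
          have hdvd : A1.relIndex D ∣ p := ⟨_, hmul.symm⟩
          rcases (Nat.dvd_prime hp.out).1 hdvd with h | h
          · exact absurd h hne3
          · rw [h] at hmul
            have h1 : D.relIndex A = 1 := by
              have := hp.out.pos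
              nlinarith
            rw [Subgroup.relIndex_eq_one] at h1
            rw [Subgroup.mem_centralizer_iff]
            intro a ha
            exact (Subgroup.mem_centralizer_singleton_iff.1 (h1 ha).2)
        · intro y hy
          refine Subgroup.mem_inf.2 ⟨Subgroup.mem_inf.2 ⟨hy.1, ?_⟩, ?_⟩
          · exact Subgroup.centralizer_le (by exact_mod_cast hA1le) hy.2
          · rw [Subgroup.mem_centralizer_singleton_iff]
            exact ((Subgroup.mem_centralizer_iff.1 hy.2) a0 ha0).symm
      rw [hCB] at hidx2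
      rw [hCA] at ih1
      have hB1le : B1 ≤ B := inf_le_left
      have e1 := Subgroup.relIndex_mul_relIndex (A ⊓ Subgroup.centralizer (B : Set G)) A1 A
        (by rw [← hCA]; exact inf_le_left) hA1le
      have e2 := Subgroup.relIndex_mul_relIndex (B ⊓ Subgroup.centralizer (A : Set G)) B1 B
        (by rw [← hCB]; exact inf_le_left) hB1le
      rw [← e1, ← e2, hidx1, hidx2, ih1, mul_comm]

/-- Let A and B be subgroups of a finite p-group with [A, B] ≤ A ∩ B and [A, B] of order at most p. Then |A : C_A(B)| = |B : C_B(A)|. -/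
theorem result {G : Type*} [Group G] [Finite G] {p : ℕ} [Fact p.Prime] (hG : IsPGroup p G) (A B : Subgroup G) (hAB : ⁅A, B⁆ ≤ A ⊓ B) (hcard : Nat.card ↥⁅A, B⁆ ≤ p) : (A ⊓ Subgroup.centralizer (B : Set G)).relIndex A = (B ⊓ Subgroup.centralizer (A : Set G)).relIndex B := by
  have hp : p.Prime := Fact.out
  have hmem : ∀ a ∈ A, ∀ b ∈ B, a * b * a⁻¹ * b⁻¹ ∈ ⁅A, B⁆ := fun a ha b hb =>
    Subgroup.commutator_mem_commutator ha hb
  by_cases hbot : ⁅A, B⁆ = ⊥
  · have hall : ∀ a ∈ A, ∀ b ∈ B, a * b = b * a := by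
      intro a ha b hb
      have := hmem a ha b hb
      rw [hbot, Subgroup.mem_bot] at this
      calc a * b = (a * b * a⁻¹ * b⁻¹) * (b * a) := by group
        _ = b * a := by rw [this, one_mul]
    have h1 : A ≤ A ⊓ Subgroup.centralizer (B : Set G) := by
      intro a ha
      refine Subgroup.mem_inf.2 ⟨ha, ?_⟩
      rw [Subgroup.mem_centralizer_iff]
      intro b hb
      exact (hall a ha b hb).symm
    have h2 : B ≤ B ⊓ Subgroup.centralizer (A : Set G) := by
      intro b hb
      refine Subgroup.mem_inf.2 ⟨hb, ?_⟩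
      rw [Subgroup.mem_centralizer_iff]
      intro a ha
      exact hall a ha b hb
    rw [Subgroup.relIndex_eq_one.2 h1, Subgroup.relIndex_eq_one.2 h2]
  · set Z := ⁅A, B⁆ with hZ
    have hZc : Nat.card Z = p := by
      obtain ⟨k, hk⟩ := (hG.to_subgroup Z).exists_card_eq
      rcases k with _ | k
      · exfalso
        rw [pow_zero] at hk
        exact hbot (Subgroup.card_eq_one.1 hk)
      · rcases k with _ | k
        · simpa using hk
        · exfalso
          rw [hk] at hcard
          have : p ^ 2 ≤ p ^ (k + 1 + 1) := Nat.pow_le_pow_right hp.pos (by omega)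
          have h2 := hp.two_le
          nlinarith
    -- Z is centralised by any subgroup H ≥ Z normalising it
    have key : ∀ H : Subgroup G, Z ≤ H → (∀ h ∈ H, ∀ z ∈ Z, h * z * h⁻¹ ∈ Z) →
        ∀ z ∈ Z, ∀ h ∈ H, z * h = h * z := by
      intro H hZH hnorm z hz h hh
      have hN : (Z.subgroupOf H).Normal := by
        constructor
        intro x hx g
        rw [Subgroup.mem_subgroupOf] at hx ⊢
        exact hnorm g g.2 x hx
      have hc : Nat.card (Z.subgroupOf H) = p := by
        rw [← hZc]
        exact Nat.card_congr (Subgroup.subgroupOfEquivOfLe hZH).toEquiv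
      have := le_center_of_normal_card_prime (hG.to_subgroup H) (Z.subgroupOf H) hc
      have hz' : (⟨z, hZH hz⟩ : H) ∈ Z.subgroupOf H := by
        rw [Subgroup.mem_subgroupOf]; exact hz
      have h3 := Subgroup.mem_center_iff.1 (this hz') ⟨h, hh⟩
      exact (congrArg Subtype.val h3).symm
    have hcA : ∀ z ∈ Z, ∀ h ∈ A, z * h = h * z := by
      apply key A (hAB.trans inf_le_left)
      intro a ha z hz
      have h1 := hmem a ha z (hAB hz).2
      have := Z.mul_mem h1 hz
      simpa using this
    have hcB : ∀ z ∈ Z, ∀ h ∈ B, z * h = h * z := by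
      apply key B (hAB.trans inf_le_right)
      intro b hb z hz
      have h1 := hmem z (hAB hz).1 b hb
      have := Z.mul_mem (Z.inv_mem h1) hz
      have h2 : (z * b * z⁻¹ * b⁻¹)⁻¹ * z = b * z * b⁻¹ := by group
      rwa [h2] at this
    exact main Z B hZc hcB _ A le_rfl hcA hmem

end Cfsg.Agent.S3741
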