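import Cfsg.Statements.S3746
import Cfsg.Agent.Lib.Helper27.Components

set_option autoImplicit false
open Cfsg
open scoped commutatorElement

namespace Cfsg.Agent.S3746

set_option linter.style.haveILetI false

open Cfsg.Agent.Lib.Helper27

theorem commutator_sup_central_le {G : Type*} [Group G] (Z : Subgroup G) (hZ : Z ≤ Subgroup.center G)
    [Z.Normal] (A : Subgroup G) : ⁅A ⊔ Z, A ⊔ Z⁆ ≤ ⁅A, A⁆ := by
  rw [Subgroup.commutator_le]
  intro x hx y hy
  rw [← SetLike.mem_coe, Subgroup.mul_normal] at hx hy
  obtain ⟨a, ha, z, hz, rfl⟩ := hx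
  obtain ⟨b, hb, w, hw, rfl⟩ := hy
  have hzc : ∀ g : G, ⁅z, g⁆ = 1 := by
    intro g
    rw [commutatorElement_eq_one_iff_mul_comm]
    exact ((Subgroup.mem_center_iff.1 (hZ hz)) g).symm
  have hwc : ∀ g : G, ⁅g, w⁆ = 1 := by
    intro g
    rw [commutatorElement_eq_one_iff_mul_comm]
    exact (Subgroup.mem_center_iff.1 (hZ hw)) g
  rw [commutatorElement_mul_left_eq_conj_mul, hzc, commutatorElement_mul_right_eq_mul_conj, hwc]
  simp only [mul_one, mul_inv_cancel, one_mul, mul_inv_cancel_right]
  exact Subgroup.commutator_mem_commutator ha hb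

/-- Let Z ≤ Z(G) be a central subgroup of a finite group G and E a subgroup of G containing Z whose image E/Z is a component of G/Z (subnormal and quasisimple). Then the derived subgroup [E, E] is a component of G. -/
theorem result {G : Type*} [Group G] [Finite G] (Z : Subgroup G) (hZ : Z ≤ Subgroup.center G) [Z.Normal] (E : Subgroup G) (hZE : Z ≤ E) (hE : Cfsg.IsComponent (E.map (QuotientGroup.mk' Z))) : Cfsg.IsComponent ⁅E, E⁆ := by
  obtain ⟨hsub, hqs⟩ := hE
  obtain ⟨hperf, hne, hnorm⟩ := isQuasisimple_iff.1 hqs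
  set D : Subgroup G := ⁅E, E⁆ with hD
  have hDE : D ≤ E := Subgroup.commutator_le_self E
  have hmapD : D.map (QuotientGroup.mk' Z) = E.map (QuotientGroup.mk' Z) := by
    rw [hD, Subgroup.map_commutator, hperf]
  have sup_of_map : ∀ A : Subgroup G, A.map (QuotientGroup.mk' Z) = E.map (QuotientGroup.mk' Z) →
      A ⊔ Z = E := by
    intro A hA
    have := congrArg (Subgroup.comap (QuotientGroup.mk' Z)) hA
    rw [Subgroup.comap_map_eq, Subgroup.comap_map_eq, QuotientGroup.ker_mk', sup_of_le_left hZE] at this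
    exact this
  have hDZ : D ⊔ Z = E := sup_of_map D hmapD
  have hDperf : ⁅D, D⁆ = D := by
    apply le_antisymm (Subgroup.commutator_le_self D)
    calc D = ⁅D ⊔ Z, D ⊔ Z⁆ := by rw [hDZ]
      _ ≤ ⁅D, D⁆ := commutator_sup_central_le Z hZ D
  refine ⟨?_, ?_⟩
  · have hEsub : E.IsSubnormal := by
      have := hsub.comap (QuotientGroup.mk' Z)
      rwa [Subgroup.comap_map_eq, QuotientGroup.ker_mk', sup_of_le_left hZE] at this
    exact Subgroup.IsSubnormal.step D E hDE hEsub
      ((Subgroup.normal_subgroupOf_iff_le_normalizer hDE).2 (Subgroup.normalizer_commutator_ge_left E E))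
  · rw [isQuasisimple_iff]
    refine ⟨hDperf, ?_, ?_⟩
    · intro h
      apply hne
      rw [← hmapD, h, Subgroup.map_bot]
    · intro N hND hDN
      have h1 : N.map (QuotientGroup.mk' Z) ≤ E.map (QuotientGroup.mk' Z) :=
        Subgroup.map_mono (hND.trans hDE)
      have h2 : E.map (QuotientGroup.mk' Z) ≤
          Subgroup.normalizer ((N.map (QuotientGroup.mk' Z) : Subgroup (G ⧸ Z)) : Set (G ⧸ Z)) := by
        rw [← hmapD]
        exact (Subgroup.map_mono hDN).trans (Subgroup.le_normalizer_map _)
      rcases hnorm _ h1 h2 with h3 | h3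
      · left
        apply le_antisymm hND
        have h4 := sup_of_map N h3
        calc D = ⁅N ⊔ Z, N ⊔ Z⁆ := by rw [h4]
          _ ≤ ⁅N, N⁆ := commutator_sup_central_le Z hZ N
          _ ≤ N := Subgroup.commutator_le_self N
      · right
        apply comm_eq_bot_of_perfect hDperf
        have h4 : ⁅N, D⁆ ≤ Z := by
          rw [← QuotientGroup.ker_mk' Z, ← Subgroup.map_eq_bot_iff, Subgroup.map_commutator, hmapD]
          exact h3
        rw [Subgroup.commutator_eq_bot_iff_le_centralizer]
        intro x hx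
        have := hZ (h4 hx)
        rw [Subgroup.mem_centralizer_iff]
        intro d _
        exact (Subgroup.mem_center_iff.1 this) d

end Cfsg.Agent.S3746
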