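import Cfsg.Statements.S3747
import Cfsg.Agent.Lib.Helper27.Layer
import Cfsg.Agent.Lib.Helper28.GenFitting
import Cfsg.Agent.Lib.Helper30.SZ

set_option autoImplicit false
open Cfsg
open scoped commutatorElement

namespace Cfsg.Agent.S3747

set_option linter.style.haveILetI false

open Cfsg.Agent.Lib.Helper27 Cfsg.Agent.Lib.Helper30

variable {G : Type*} [Group G]

theorem normalClosure_eq_sSup (K : Subgroup G) :
    Subgroup.normalClosure (K : Set G) = sSup (Set.range (fun g : G => cj g K)) := by
  apply le_antisymm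
  · have hn : (sSup (Set.range (fun g : G => cj g K))).Normal := by
      apply Cfsg.Agent.Lib.Helper28.normal_of_map_conj_le
      intro g
      rw [Subgroup.map_le_iff_le_comap, sSup_le_iff]
      rintro _ ⟨h, rfl⟩
      rw [← Subgroup.map_le_iff_le_comap]
      have : cj g (cj h K) = cj (g * h) K := (cj_mul g h K).symm
      exact this.le.trans (le_sSup ⟨g * h, rfl⟩)
    apply Subgroup.normalClosure_le_normal
    have : K ≤ sSup (Set.range (fun g : G => cj g K)) := le_sSup ⟨1, cj_one K⟩
    exact this
  · rw [sSup_le_iff]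
    rintro _ ⟨g, rfl⟩
    rintro _ ⟨k, hk, rfl⟩
    exact (Subgroup.normalClosure_normal).conj_mem k (Subgroup.subset_normalClosure hk) g

theorem part_a [Finite G] (K : Subgroup G) (hK : Cfsg.IsComponent K) (hZ : Subgroup.center ↥K = ⊥) :
    Subgroup.normalClosure (K : Set G) ≠ ⊥ ∧ ∀ N : Subgroup G, N.Normal →
      N ≤ Subgroup.normalClosure (K : Set G) → N = ⊥ ∨ N = Subgroup.normalClosure (K : Set G) := by
  have hKle : K ≤ Subgroup.normalClosure (K : Set G) := Subgroup.le_normalClosure
  refine ⟨?_, ?_⟩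
  · intro h
    rw [h] at hKle
    exact qs_ne_bot hK.2 (le_bot_iff.1 hKle)
  · intro N hN hNM
    rcases comp_le_or_comm hK hN.isSubnormal with h | h
    · right
      exact le_antisymm hNM (Subgroup.normalClosure_le_normal h)
    · left
      have hKc : K ⊓ Subgroup.centralizer (K : Set G) = ⊥ := by
        rw [← map_center_subtype, hZ, Subgroup.map_bot]
      rw [eq_bot_iff]
      intro z hz
      have hz1 : z ∈ sSup (Set.range (fun g : G => cj g K)) := by
        rw [← normalClosure_eq_sSup]; exact hNM hz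
      have hz2 : ∀ L ∈ Set.range (fun g : G => cj g K), z ∈ Subgroup.centralizer (L : Set G) := by
        rintro _ ⟨g, rfl⟩
        rw [Subgroup.mem_centralizer_iff]
        rintro _ ⟨k, hk, rfl⟩
        have h1 : g⁻¹ * z * g⁻¹⁻¹ ∈ N := hN.conj_mem z hz g⁻¹
        have h2 := commute_of_comm_eq_bot h hk h1
        simp only [MulEquiv.coe_toMonoidHom, MulAut.conj_apply]
        have e1 : g * k * g⁻¹ * z = g * (k * (g⁻¹ * z * g⁻¹⁻¹)) * g⁻¹ := by group
        have e2 : z * (g * k * g⁻¹) = g * ((g⁻¹ * z * g⁻¹⁻¹) * k) * g⁻¹ := by group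
        rw [e1, e2, h2]
      have h3 := center_sSup_components_aux _ (Set.toFinite _)
        (by rintro _ ⟨g, rfl⟩; exact comp_conj hK g) z hz1 hz2
      have h4 : sSup ((fun L : Subgroup G => L ⊓ Subgroup.centralizer (L : Set G)) ''
          Set.range (fun g : G => cj g K)) = ⊥ := by
        rw [eq_bot_iff, sSup_le_iff]
        rintro _ ⟨_, ⟨g, rfl⟩, rfl⟩
        intro x hx
        have hx1 : g⁻¹ * x * g ∈ K := mem_cj.1 hx.1
        have hx2 : g⁻¹ * x * g ∈ Subgroup.centralizer (K : Set G) := by
          rw [Subgroup.mem_centralizer_iff]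
          intro k hk
          have := (Subgroup.mem_centralizer_iff.1 hx.2) (g * k * g⁻¹) (conj_mem_cj hk)
          have e1 : k * (g⁻¹ * x * g) = g⁻¹ * (g * k * g⁻¹ * x) * g := by group
          have e2 : g⁻¹ * x * g * k = g⁻¹ * (x * (g * k * g⁻¹)) * g := by group
          rw [e1, e2, this]
        have hx3 : g⁻¹ * x * g ∈ K ⊓ Subgroup.centralizer (K : Set G) := ⟨hx1, hx2⟩
        rw [hKc, Subgroup.mem_bot] at hx3
        rw [Subgroup.mem_bot]
        have : x = g * (g⁻¹ * x * g) * g⁻¹ := by group
        rw [this, hx3]; group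
      rw [h4] at h3
      exact h3

/-- Let G be a finite group. (a) If K is a component of G with trivial centre, then the normal closure of K in G is a minimal normal subgroup of G. (b) If the Fitting subgroup of G is trivial, then the layer E(G) is generated by the minimal normal subgroups of G. -/
theorem result {G : Type*} [Group G] [Finite G] : (∀ K : Subgroup G, Cfsg.IsComponent K → Subgroup.center ↥K = ⊥ → (Subgroup.normalClosure (K : Set G) ≠ ⊥ ∧ ∀ N : Subgroup G, N.Normal → N ≤ Subgroup.normalClosure (K : Set G) → N = ⊥ ∨ N = Subgroup.normalClosure (K : Set G))) ∧ (Cfsg.fittingSubgroup G = ⊥ → sSup {N : Subgroup G | N ≠ ⊥ ∧ N.Normal ∧ ∀ N' : Subgroup G, N'.Normal → N' ≤ N → N' = ⊥ ∨ N' = N} = Cfsg.layer G) := by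
  refine ⟨part_a, ?_⟩
  intro hF
  have hEn : (Cfsg.layer G).Normal := Cfsg.Agent.Lib.Helper28.layer_normal
  have hFstar : Cfsg.generalizedFittingSubgroup G = Cfsg.layer G := by
    unfold Cfsg.generalizedFittingSubgroup
    rw [hF, sup_bot_eq]
  apply le_antisymm
  · rw [sSup_le_iff]
    rintro N ⟨hNne, hNn, hNmin⟩
    haveI := hNn
    rcases hNmin (N ⊓ Cfsg.layer G) inferInstance inf_le_left with h | h
    · exfalso
      have h1 : ⁅N, Cfsg.layer G⁆ = ⊥ := by
        rw [eq_bot_iff, ← h]; exact Subgroup.commutator_le_inf _ _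
      have h2 : N ≤ Subgroup.centralizer (Cfsg.layer G : Set G) :=
        Subgroup.commutator_eq_bot_iff_le_centralizer.1 h1
      have h3 := Cfsg.Agent.Lib.Helper28.centralizer_genFitting_le (G := G)
      rw [hFstar] at h3
      have h4 : N ≤ N ⊓ Cfsg.layer G := le_inf le_rfl (h2.trans h3)
      rw [h] at h4
      exact hNne (le_bot_iff.1 h4)
    · rw [← h]; exact inf_le_right
  · rw [layer_le_iff]
    intro K hK
    have hZ : Subgroup.center ↥K = ⊥ := by
      have h1 : ((Subgroup.center ↥K).map K.subtype).IsSubnormal :=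
        Subgroup.IsSubnormal.trans' (Subgroup.Normal.isSubnormal inferInstance) hK.1
      have h2 : Group.IsNilpotent ↥((Subgroup.center ↥K).map K.subtype) := by
        rw [Subgroup.isNilpotent_iff_lowerCentralSeries]
        refine ⟨1, ?_⟩
        show ⁅_, _⁆ = ⊥
        rw [Subgroup.commutator_eq_bot_iff_le_centralizer, map_center_subtype]
        exact inf_le_right.trans (Subgroup.centralizer_le (by exact_mod_cast inf_le_left))
      have h3 := Cfsg.Agent.Lib.Helper28.subnormal_le_fitting h1 h2
      rw [hF] at h3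
      exact (Subgroup.map_eq_bot_iff_of_injective _ K.subtype_injective).1 (le_bot_iff.1 h3)
    obtain ⟨h1, h2⟩ := part_a K hK hZ
    exact (Subgroup.le_normalClosure).trans (le_sSup ⟨h1, Subgroup.normalClosure_normal, h2⟩)

end Cfsg.Agent.S3747
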