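import Cfsg.Statements.S3748
import Cfsg.Agent.Lib.Helper12.Subnormal
import Cfsg.Agent.Lib.Helper1.Cores

set_option autoImplicit false
open Cfsg

namespace Cfsg.Agent.S3748

set_option linter.style.haveILetI false

theorem isSubnormal_of_nilpotent {N : Type*} [Group N] [Finite N] [Group.IsNilpotent N]
    (H : Subgroup N) : H.IsSubnormal := by
  induction H using WellFoundedGT.induction with
  | ind H ih =>
    by_cases hH : H = ⊤
    · subst hH; exact Subgroup.IsSubnormal.top
    · have hnc : NormalizerCondition N := Group.normalizerCondition_of_isNilpotent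
      have hlt : H < Subgroup.normalizer (H : Set N) := hnc H (lt_top_iff_ne_top.2 hH)
      exact Subgroup.IsSubnormal.step H _ hlt.le (ih _ hlt) inferInstance

/-- Call a proper subgroup M of G primitive when M = N_G(N) for every non-trivial normal subgroup N of M. If M is a primitive subgroup of the finite group G, then no non-trivial subnormal subgroup of G is contained in M; in particular M ∩ F(G) = 1. -/
theorem result {G : Type*} [Group G] [Finite G] (M : Subgroup G) (hM : M ≠ ⊤) (hprim : ∀ N : Subgroup G, N ≤ M → M ≤ Subgroup.normalizer (N : Set G) → N ≠ ⊥ → Subgroup.normalizer (N : Set G) = M) : (∀ L : Subgroup G, L.IsSubnormal → L ≤ M → L = ⊥) ∧ M ⊓ Cfsg.fittingSubgroup G = ⊥ := by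
  have main : ∀ L : Subgroup G, L.IsSubnormal → L ≤ M → L = ⊥ := by
    set S : Subgroup G := sSup {L : Subgroup G | L.IsSubnormal ∧ L ≤ M} with hS
    have hSsub : S.IsSubnormal :=
      Cfsg.Agent.Lib.Helper12.isSubnormal_sSup _ (fun U hU => hU.1)
    have hSM : S ≤ M := sSup_le (fun U hU => hU.2)
    have hMS : M ≤ Subgroup.normalizer (S : Set G) := by
      rw [Subgroup.le_normalizer_iff]
      intro m hm s hs
      have h1 : (S.map (MulAut.conj m).toMonoidHom).IsSubnormal :=
        hSsub.map (MulAut.conj m).surjective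
      have h2 : S.map (MulAut.conj m).toMonoidHom ≤ M := by
        rintro _ ⟨t, ht, rfl⟩
        simp only [MulEquiv.coe_toMonoidHom, MulAut.conj_apply]
        exact M.mul_mem (M.mul_mem hm (hSM ht)) (M.inv_mem hm)
      have h3 : S.map (MulAut.conj m).toMonoidHom ≤ S := le_sSup ⟨h1, h2⟩
      exact h3 ⟨s, hs, by simp⟩
    have hSbot : S = ⊥ := by
      by_contra hne
      have hN := hprim S hSM hMS hne
      rcases Subgroup.IsSubnormal.iff_eq_top_or_exists.1 hSsub with htop | ⟨K, hSK, hK, hKn⟩
      · apply hM
        rw [htop] at hSM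
        exact top_le_iff.1 hSM
      · have h1 : K ≤ Subgroup.normalizer (S : Set G) :=
          (Subgroup.normal_subgroupOf_iff_le_normalizer hSK.le).1 hKn
        rw [hN] at h1
        have h2 : K ≤ S := le_sSup ⟨hK, h1⟩
        exact absurd h2 (not_le_of_gt hSK)
    intro L hL hLM
    have : L ≤ S := le_sSup ⟨hL, hLM⟩
    rw [hSbot] at this
    exact le_bot_iff.1 this
  refine ⟨main, ?_⟩
  apply main _ _ inf_le_left
  haveI := Cfsg.Agent.Lib.Helper1.fitting_nilpotent G
  have hF : (Cfsg.fittingSubgroup G).IsSubnormal :=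
    (Cfsg.Agent.Lib.Helper1.fitting_normal G).isSubnormal
  exact Subgroup.IsSubnormal.trans inf_le_right (isSubnormal_of_nilpotent _) hF

end Cfsg.Agent.S3748
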