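import Cfsg.Statements.S3749
import Cfsg.Agent.Lib.Helper30.SZ
import Cfsg.Agent.Lib.Helper1.Cores

set_option autoImplicit false
open Cfsg
open Cfsg.Agent.Lib.Helper30
open scoped Pointwise

namespace Cfsg.Agent.S3749

set_option linter.style.haveILetI false

variable {G : Type*} [Group G]

/-- ambient version of a Sylow subgroup of `N` -/
abbrev amb {q : ℕ} {N : Subgroup G} (Q : Sylow q N) : Subgroup G := (Q : Subgroup N).map N.subtype

theorem amb_conjNormal {q : ℕ} {N : Subgroup G} [N.Normal] (g : G) (Q : Sylow q N) :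
    amb ((MulAut.conjNormal g : MulAut N) • Q) = cj g (amb Q) := by
  ext x
  constructor
  · rintro ⟨y, hy, rfl⟩
    obtain ⟨z, hz, rfl⟩ := hy
    exact ⟨z, ⟨z, hz, rfl⟩, by simp⟩
  · rintro ⟨_, ⟨z, hz, rfl⟩, rfl⟩
    exact ⟨MulAut.conjNormal g z, ⟨z, hz, rfl⟩, by simp⟩

theorem amb_injective {q : ℕ} {N : Subgroup G} {Q1 Q2 : Sylow q N} (h : amb Q1 = amb Q2) :
    Q1 = Q2 :=
  Sylow.ext (Subgroup.map_injective N.subtype_injective h)

theorem amb_le {q : ℕ} {N : Subgroup G} (Q : Sylow q N) : amb Q ≤ N := Subgroup.map_subtype_le _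

theorem exists_cj_amb [Finite G] {q : ℕ} [Fact q.Prime] {N : Subgroup G} [N.Normal] (Q1 Q2 : Sylow q N) :
    ∃ n ∈ N, amb Q2 = cj n (amb Q1) := by
  obtain ⟨n, hn⟩ := MulAction.exists_smul_eq N Q1 Q2
  refine ⟨n, n.2, ?_⟩
  rw [← amb_conjNormal, MulAut.conjNormal_val, ← Sylow.smul_def, hn]

/-- uniqueness of the invariant Sylow subgroup -/
theorem unique_invariant [Finite G] {p q : ℕ} [Fact p.Prime] [Fact q.Prime] (N P : Subgroup G) [N.Normal]
    (hP : IsPGroup p P) (hpN : ¬ p ∣ Nat.card N)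
    (hNP : ∀ n ∈ N, n ∈ Subgroup.normalizer (P : Set G) → n = 1)
    (Q1 Q2 : Sylow q N) (h1 : P ≤ Subgroup.normalizer (amb Q1 : Set G))
    (h2 : P ≤ Subgroup.normalizer (amb Q2 : Set G)) : Q1 = Q2 := by
  have hp : p.Prime := Fact.out
  obtain ⟨n, hn, hQ⟩ := exists_cj_amb Q1 Q2
  set N' : Subgroup G := N ⊓ Subgroup.normalizer (amb Q2 : Set G) with hN'
  have hPN' : P ≤ Subgroup.normalizer (N' : Set G) := by
    rw [Subgroup.le_normalizer_iff]
    intro x hx y hy
    refine ⟨‹N.Normal›.conj_mem y hy.1 x, ?_⟩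
    exact Subgroup.mul_mem _ (Subgroup.mul_mem _ (h2 hx) hy.2) (Subgroup.inv_mem _ (h2 hx))
  have hcop : (Nat.card N').Coprime (Nat.card P) := by
    obtain ⟨k, hk⟩ := (IsPGroup.iff_card).1 hP
    rw [hk]
    apply Nat.Coprime.pow_right
    rw [Nat.coprime_comm, hp.coprime_iff_not_dvd]
    intro h
    exact hpN (h.trans (Subgroup.card_dvd_of_le inf_le_left))
  have hK : cj n P ≤ N' ⊔ P := by
    rintro _ ⟨x, hx, rfl⟩
    simp only [MulEquiv.coe_toMonoidHom, MulAut.conj_apply]
    have e : n * x * n⁻¹ = (n * (x * n⁻¹ * x⁻¹)) * x := by group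
    rw [e]
    apply Subgroup.mul_mem _ _ (Subgroup.mem_sup_right hx)
    apply Subgroup.mem_sup_left
    refine ⟨N.mul_mem hn (‹N.Normal›.conj_mem _ (N.inv_mem hn) x), ?_⟩
    have h3 : n * x * n⁻¹ ∈ Subgroup.normalizer (amb Q2 : Set G) := by
      apply mem_normalizer_of_cj_eq
      rw [hQ, ← cj_mul]
      have : n * x * n⁻¹ * n = n * x := by group
      rw [this, cj_mul, cj_eq_of_mem_normalizer (h1 hx)]
    have e2 : n * (x * n⁻¹ * x⁻¹) = (n * x * n⁻¹) * x⁻¹ := by group
    rw [e2]
    exact Subgroup.mul_mem _ h3 (Subgroup.inv_mem _ (h2 hx))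
  have hPsol : Group.IsSolvable P := by
    haveI := hP.isNilpotent
    infer_instance
  obtain ⟨y, hy, hyK⟩ := sz_conj N' P (cj n P) hPN' (Or.inr hPsol) hcop hK (card_cj n P)
  have h4 : y⁻¹ * n ∈ Subgroup.normalizer (P : Set G) := by
    apply mem_normalizer_of_cj_eq
    rw [cj_mul, hyK, cj_inv_cj]
  have h5 : y⁻¹ * n = 1 := hNP _ (N.mul_mem (N.inv_mem hy.1) hn) h4
  have h6 : n = y := by
    have := congrArg (fun z => y * z) h5
    simpa using this
  apply amb_injective
  have h7 : cj n⁻¹ (amb Q2) = amb Q2 := by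
    apply cj_eq_of_mem_normalizer
    rw [h6]; exact Subgroup.inv_mem _ hy.2
  rw [← h7, hQ, cj_inv_cj]

/-- Call a proper subgroup M of G primitive when M = N_G(N) for every non-trivial normal subgroup N of M. Let M be a primitive subgroup of the finite group G, p a prime with O_p(M) ≠ 1, and N a normal subgroup of G with M ∩ N = 1. Then p does not divide the order of N; for every prime q there is exactly one Sylow q-subgroup of N normalized by M; and if the order of N has at least two prime divisors then M is not a maximal subgroup of G. -/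
theorem result {G : Type*} [Group G] [Finite G] (M : Subgroup G) (hM : M ≠ ⊤) (hprim : ∀ N : Subgroup G, N ≤ M → M ≤ Subgroup.normalizer (N : Set G) → N ≠ ⊥ → Subgroup.normalizer (N : Set G) = M) {p : ℕ} [Fact p.Prime] (hOp : Cfsg.pCore p ↥M ≠ ⊥) (N : Subgroup G) [N.Normal] (hMN : M ⊓ N = ⊥) : ¬ p ∣ Nat.card N ∧ (∀ q : ℕ, [Fact q.Prime] → ∃! Q : Sylow q ↥N, M ≤ Subgroup.normalizer ((Q : Subgroup ↥N).map N.subtype : Set G)) ∧ ((∃ q r : ℕ, q.Prime ∧ r.Prime ∧ q ≠ r ∧ q ∣ Nat.card N ∧ r ∣ Nat.card N) → ¬ IsCoatom M) := by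
  have hp : p.Prime := Fact.out
  set P : Subgroup G := (Cfsg.pCore p ↥M).map M.subtype with hP
  have hPM : P ≤ M := Subgroup.map_subtype_le _
  have hPne : P ≠ ⊥ := by
    intro h
    apply hOp
    exact (Subgroup.map_eq_bot_iff_of_injective _ M.subtype_injective).1 h
  have hPp : IsPGroup p P := (Cfsg.Agent.Lib.Helper1.pCore_isPGroup p ↥M).map _
  have hMP : M ≤ Subgroup.normalizer (P : Set G) := by
    rw [Subgroup.le_normalizer_iff]
    rintro m hm _ ⟨y, hy, rfl⟩
    have := (Cfsg.Agent.Lib.Helper1.pCore_normal p ↥M).conj_mem y hy ⟨m, hm⟩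
    exact ⟨_, this, by simp⟩
  have hNP : Subgroup.normalizer (P : Set G) = M := hprim P hPM hMP hPne
  have hNP' : ∀ n ∈ N, n ∈ Subgroup.normalizer (P : Set G) → n = 1 := by
    intro n hn hn'
    rw [hNP] at hn'
    have : n ∈ M ⊓ N := ⟨hn', hn⟩
    rw [hMN] at this
    exact Subgroup.mem_bot.1 this
  let A : Subgroup (MulAut N) := P.map (MulAut.conjNormal)
  have hA : IsPGroup p A := hPp.map _
  -- part 1
  have part1 : ¬ p ∣ Nat.card N := by
    have h1 := hA.card_modEq_card_fixedPoints (↥N)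
    have hfix : MulAction.fixedPoints A N = {1} := by
      ext n
      simp only [Set.mem_singleton_iff]
      constructor
      · intro hn
        have hc : ∀ x ∈ P, x * n * x⁻¹ = n := by
          intro x hx
          have h2 := hn ⟨MulAut.conjNormal x, ⟨x, hx, rfl⟩⟩
          have h3 : ((MulAut.conjNormal x : MulAut N) n : G) = n := congrArg Subtype.val h2
          rwa [MulAut.conjNormal_apply] at h3
        have h4 : (n : G) ∈ Subgroup.normalizer (P : Set G) := by
          have : (n : G) ∈ Subgroup.centralizer (P : Set G) := by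
            rw [Subgroup.mem_centralizer_iff]
            intro x hx
            have := hc x hx
            calc x * n = (x * n * x⁻¹) * x := by group
              _ = n * x := by rw [this]
          exact Subgroup.centralizer_le_normalizer _ this
        exact Subtype.ext (hNP' n n.2 h4)
      · rintro rfl
        intro a
        exact map_one a.1
    rw [hfix] at h1
    intro hdvd
    have h2 : Nat.card N ≡ 0 [MOD p] := (Nat.modEq_zero_iff_dvd).2 hdvd
    have h3 : (1 : ℕ) ≡ 0 [MOD p] := by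
      have : Nat.card ↥({1} : Set N) = 1 := by simp
      rw [this] at h1
      exact h1.symm.trans h2
    have := (Nat.modEq_zero_iff_dvd).1 h3
    exact hp.one_lt.ne' (Nat.dvd_one.1 this)
  -- part 2
  have part2 : ∀ q : ℕ, [Fact q.Prime] → ∃! Q : Sylow q ↥N, M ≤ Subgroup.normalizer ((Q : Subgroup ↥N).map N.subtype : Set G) := by
    intro q _
    have hnd : ¬ p ∣ Nat.card (Sylow q N) := by
      intro h
      obtain ⟨Q0⟩ : Nonempty (Sylow q N) := inferInstance
      exact part1 ((h.trans (Sylow.card_dvd_index Q0)).trans (Subgroup.index_dvd_card _))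
    obtain ⟨Q, hQ⟩ := hA.nonempty_fixed_point_of_prime_not_dvd_card (Sylow q N) hnd
    have hQP : P ≤ Subgroup.normalizer (amb Q : Set G) := by
      intro x hx
      apply mem_normalizer_of_cj_eq
      rw [← amb_conjNormal]
      have h2 := hQ ⟨MulAut.conjNormal x, ⟨x, hx, rfl⟩⟩
      exact congrArg amb h2
    refine ⟨Q, ?_, ?_⟩
    · intro m hm
      apply mem_normalizer_of_cj_eq
      rw [← amb_conjNormal]
      congr 1
      apply unique_invariant N P hPp part1 hNP' _ _ _ hQP
      rw [amb_conjNormal]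
      intro x hx
      apply mem_normalizer_of_cj_eq
      rw [← cj_mul]
      have e : x * m = m * (m⁻¹ * x * m) := by group
      have hx' : m⁻¹ * x * m ∈ P := by
        have := hMP (M.inv_mem hm)
        rw [Subgroup.mem_normalizer_iff] at this
        have h3 := (this x).1 hx
        simpa using h3
      rw [e, cj_mul, cj_eq_of_mem_normalizer (hQP hx')]
    · intro Q' hQ'
      exact unique_invariant N P hPp part1 hNP' _ _ (hPM.trans hQ') hQP
  refine ⟨part1, part2, ?_⟩
  rintro ⟨q, r, hq, hr, hqr, hqN, hrN⟩ hcoatom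
  haveI : Fact q.Prime := ⟨hq⟩
  obtain ⟨Q, hQ, -⟩ := part2 q
  have hQne : amb Q ≠ ⊥ := by
    intro h
    have h1 : (Q : Subgroup N) = ⊥ := (Subgroup.map_eq_bot_iff_of_injective _ N.subtype_injective).1 h
    have h2 := Q.card_eq_multiplicity
    rw [h1] at h2
    simp only [Subgroup.card_bot] at h2
    have h3 : (Nat.card N).factorization q = 0 := by
      by_contra hne
      have : 1 < q ^ (Nat.card N).factorization q := Nat.one_lt_pow hne hq.one_lt
      omega
    have h4 := (hq.dvd_iff_one_le_factorization (Nat.card_pos.ne')).1 hqN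
    omega
  have hlt : M < M ⊔ amb Q := by
    refine lt_of_le_of_ne le_sup_left ?_
    intro h
    have h1 : amb Q ≤ M := by rw [h]; exact le_sup_right
    have h2 : amb Q ≤ M ⊓ N := le_inf h1 (amb_le Q)
    rw [hMN] at h2
    exact hQne (le_bot_iff.1 h2)
  have htop : M ⊔ amb Q = ⊤ := hcoatom.2 _ hlt
  have hNQ : N ≤ amb Q := by
    intro n hn
    have h1 : n ∈ M ⊔ amb Q := by rw [htop]; trivial
    rw [← SetLike.mem_coe, Subgroup.coe_mul_of_left_le_normalizer_right M (amb Q) hQ] at h1
    obtain ⟨m, hm, u, hu, rfl⟩ := h1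
    have h2 : m ∈ M ⊓ N := by
      refine ⟨hm, ?_⟩
      have := N.mul_mem hn (N.inv_mem (amb_le Q hu))
      simpa using this
    rw [hMN] at h2
    rw [Subgroup.mem_bot.1 h2]
    show 1 * u ∈ amb Q
    rw [one_mul]
    exact hu
  have hNq : IsPGroup q N := (Q.isPGroup'.map N.subtype).to_le hNQ
  obtain ⟨k, hk⟩ := (IsPGroup.iff_card).1 hNq
  rw [hk] at hrN
  exact hqr ((Nat.prime_dvd_prime_iff_eq hr hq).1 (hr.dvd_of_dvd_pow hrN)).symm

end Cfsg.Agent.S3749
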