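import Cfsg.Statements.S3750
import Cfsg.Agent.S3747
import Cfsg.Agent.S3748

set_option autoImplicit false
open Cfsg
open scoped commutatorElement

namespace Cfsg.Agent.S3750

set_option linter.style.haveILetI false

open Cfsg.Agent.Lib.Helper27

theorem eq_bot_of_center_eq_bot {G : Type*} [Group G] (F : Subgroup G)
    (hnil : ∃ n, F.lowerCentralSeries n = ⊥) (hZ : F ⊓ Subgroup.centralizer (F : Set G) = ⊥) :
    F = ⊥ := by
  classical
  have hspec := Nat.find_spec hnil
  rcases Nat.eq_zero_or_pos (Nat.find hnil) with h0 | hpos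
  · rw [h0] at hspec; exact hspec
  · exfalso
    obtain ⟨c, hc⟩ : ∃ c, Nat.find hnil = c + 1 := ⟨Nat.find hnil - 1, by omega⟩
    rw [hc, Subgroup.lowerCentralSeries_succ, Subgroup.commutator_eq_bot_iff_le_centralizer] at hspec
    have h1 : F.lowerCentralSeries c ≤ F := F.lowerCentralSeries_antitone (Nat.zero_le c)
    have h2 : F.lowerCentralSeries c ≤ F ⊓ Subgroup.centralizer (F : Set G) := le_inf h1 hspec
    rw [hZ] at h2
    have := Nat.find_min' hnil (le_bot_iff.1 h2)
    omega

/-- Call a proper subgroup M of G primitive when M = N_G(N) for every non-trivial normal subgroup N of M. Let M be a primitive subgroup of the finite group G and N a normal subgroup of G with M ∩ F*(N) ≠ 1. Then F(G) = 1 and F*(N) = F*(G) = E(G); in particular every minimal normal subgroup of G is contained in N. -/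
theorem result {G : Type*} [Group G] [Finite G] (M : Subgroup G) (hM : M ≠ ⊤) (hprim : ∀ N : Subgroup G, N ≤ M → M ≤ Subgroup.normalizer (N : Set G) → N ≠ ⊥ → Subgroup.normalizer (N : Set G) = M) (N : Subgroup G) [N.Normal] (hMF : M ⊓ (Cfsg.generalizedFittingSubgroup ↥N).map N.subtype ≠ ⊥) : Cfsg.fittingSubgroup G = ⊥ ∧ (Cfsg.generalizedFittingSubgroup ↥N).map N.subtype = Cfsg.generalizedFittingSubgroup G ∧ Cfsg.generalizedFittingSubgroup G = Cfsg.layer G ∧ ∀ K : Subgroup G, K.Normal → K ≠ ⊥ → (∀ K' : Subgroup G, K'.Normal → K' ≤ K → K' = ⊥ ∨ K' = K) → K ≤ N := by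
  obtain ⟨hsub, hMFit⟩ := Cfsg.Agent.S3748.result M hM hprim
  have hNn : N.Normal := inferInstance
  have hFN : (Cfsg.generalizedFittingSubgroup ↥N).map N.subtype = Cfsg.generalizedFittingSubgroup G ⊓ N :=
    (Cfsg.Agent.Lib.Helper28.genFitting_inf_subnormal hNn.isSubnormal).symm
  rw [hFN] at hMF ⊢
  haveI hFsn : (Cfsg.generalizedFittingSubgroup G).Normal := Cfsg.Agent.Lib.Helper28.genFitting_normal
  set X : Subgroup G := M ⊓ (Cfsg.generalizedFittingSubgroup G ⊓ N) with hX
  have hXM : X ≤ M := inf_le_left
  have hMX : M ≤ Subgroup.normalizer (X : Set G) := by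
    have h1 : M ≤ Subgroup.normalizer (M : Set G) := Subgroup.le_normalizer
    have h2 : M ≤ Subgroup.normalizer ((Cfsg.generalizedFittingSubgroup G ⊓ N : Subgroup G) : Set G) :=
      Subgroup.le_normalizer_of_normal
    exact (le_inf h1 h2).trans Subgroup.inf_normalizer_le_normalizer_inf
  have hNX : Subgroup.normalizer (X : Set G) = M := hprim X hXM hMX hMF
  have hCX : Subgroup.centralizer (X : Set G) ≤ M := by
    rw [← hNX]; exact Subgroup.centralizer_le_normalizer _
  -- F(G) = 1
  have hFit : Cfsg.fittingSubgroup G = ⊥ := by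
    apply eq_bot_of_center_eq_bot
    · exact (Subgroup.isNilpotent_iff_lowerCentralSeries _).1
        (Cfsg.Agent.Lib.Helper28.fitting_isNilpotent (G := G))
    · rw [eq_bot_iff, ← hMFit]
      refine le_inf ?_ inf_le_left
      refine le_trans ?_ hCX
      have h1 : Cfsg.fittingSubgroup G ⊓ Subgroup.centralizer (Cfsg.fittingSubgroup G : Set G) ≤
          Subgroup.centralizer (Cfsg.generalizedFittingSubgroup G : Set G) := by
        rw [← Subgroup.commutator_eq_bot_iff_le_centralizer, eq_bot_iff]
        unfold Cfsg.generalizedFittingSubgroup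
        apply Cfsg.Agent.Lib.Helper28.commutator_sup_le ⊥
        · rw [le_bot_iff, Subgroup.commutator_comm, eq_bot_iff,
            ← Cfsg.Agent.Lib.Helper28.layer_commutator_fitting (G := G)]
          exact Subgroup.commutator_mono le_rfl inf_le_left
        · rw [le_bot_iff, Subgroup.commutator_eq_bot_iff_le_centralizer]
          exact inf_le_right
      refine h1.trans (Subgroup.centralizer_le ?_)
      exact_mod_cast (inf_le_right.trans inf_le_left : X ≤ Cfsg.generalizedFittingSubgroup G)
  have hFstar : Cfsg.generalizedFittingSubgroup G = Cfsg.layer G := by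
    unfold Cfsg.generalizedFittingSubgroup
    rw [hFit, sup_bot_eq]
  have hEN : Cfsg.layer G ≤ N := by
    rw [layer_le_iff]
    intro K hK
    rcases comp_le_or_comm hK hNn.isSubnormal with h | h
    · exact h
    · exfalso
      have h1 : K ≤ Subgroup.centralizer (N : Set G) := Subgroup.commutator_eq_bot_iff_le_centralizer.1 h
      have h2 : K ≤ M := by
        refine (h1.trans (Subgroup.centralizer_le ?_)).trans hCX
        exact_mod_cast (inf_le_right.trans inf_le_right : X ≤ N)
      exact qs_ne_bot hK.2 (hsub K hK.1 h2)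
  refine ⟨hFit, ?_, hFstar, ?_⟩
  · rw [hFstar]; exact inf_eq_left.2 hEN
  · intro K hKn hKne hKmin
    refine le_trans ?_ hEN
    rw [← (Cfsg.Agent.S3747.result (G := G)).2 hFit]
    exact le_sSup ⟨hKne, hKn, hKmin⟩

end Cfsg.Agent.S3750
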