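import Cfsg.Statements.S3751
import Cfsg.Agent.Lib.Helper5.Conj
import Cfsg.Agent.Lib.Helper28.Cores

set_option autoImplicit false
open Cfsg
open scoped commutatorElement

namespace Cfsg.Agent.S3751

set_option linter.style.haveILetI false

open Cfsg.Agent.Lib.Helper5

variable {G : Type*} [Group G]

/-- `L` is a `p`-local subgroup -/
def IsLoc (p : ℕ) (L : Subgroup G) : Prop :=
  ∃ T : Subgroup G, IsPGroup p T ∧ T ≠ ⊥ ∧ L = Subgroup.normalizer (T : Set G)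

/-- `M` is a maximal `p`-local subgroup -/
def IsMaxLoc (p : ℕ) (M : Subgroup G) : Prop :=
  IsLoc p M ∧ ∀ L : Subgroup G, IsLoc p L → M ≤ L → L = M

/-- `O_p(M)` in the ambient group -/
abbrev Op (p : ℕ) (M : Subgroup G) : Subgroup G := (Cfsg.pCore p ↥M).map M.subtype

theorem IsLoc.conj {p : ℕ} {L : Subgroup G} (h : IsLoc p L) (g : G) : IsLoc p (cj g L) := by
  obtain ⟨T, hT, hne, rfl⟩ := h
  exact ⟨cj g T, isPGroup_cj hT g, fun h => hne (cj_eq_bot_iff.1 h), (normalizer_cj g T).symm⟩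

theorem IsMaxLoc.conj {p : ℕ} {M : Subgroup G} (h : IsMaxLoc p M) (g : G) : IsMaxLoc p (cj g M) := by
  refine ⟨h.1.conj g, fun L hL hML => ?_⟩
  have h1 : M ≤ cj g⁻¹ L := cj_le_iff.1 hML
  have h2 := h.2 _ (hL.conj g⁻¹) h1
  rw [← h2, cj_cj_inv]

theorem exists_maxLoc_ge [Finite G] {p : ℕ} {L : Subgroup G} (h : IsLoc p L) :
    ∃ M, IsMaxLoc p M ∧ L ≤ M := by
  obtain ⟨M, hLM, hM⟩ := (Set.toFinite {L : Subgroup G | IsLoc p L}).exists_le_maximal h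
  exact ⟨M, ⟨hM.1, fun L' hL' hle => le_antisymm (hM.2 hL' hle) hle⟩, hLM⟩

theorem Op_le (p : ℕ) (M : Subgroup G) : Op p M ≤ M := Subgroup.map_subtype_le _

theorem le_normalizer_Op (p : ℕ) (M : Subgroup G) :
    Subgroup.normalizer (M : Set G) ≤ Subgroup.normalizer (Op p M : Set G) :=
  Cfsg.Agent.Lib.Helper28.le_normalizer_map_subtype_of_characteristic le_rfl
    (Cfsg.Agent.Lib.Helper28.pCore_characteristic p)

theorem isPGroup_Op [Finite G] (p : ℕ) [Fact p.Prime] (M : Subgroup G) : IsPGroup p (Op p M) :=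
  (Cfsg.Agent.Lib.Helper28.pCore_isPGroup p).map _

/-- a `p`-subgroup of `M` normalized by `M` lies in `O_p(M)` -/
theorem le_Op {p : ℕ} {M B : Subgroup G} (hBM : B ≤ M) (hB : IsPGroup p B)
    (hn : M ≤ Subgroup.normalizer (B : Set G)) : B ≤ Op p M := by
  have h1 : (B.subgroupOf M).Normal := (Subgroup.normal_subgroupOf_iff_le_normalizer hBM).2 hn
  have h2 : IsPGroup p (B.subgroupOf M) := hB.comap_subtype
  have h3 : B.subgroupOf M ≤ Cfsg.pCore p ↥M := Cfsg.Agent.Lib.Helper28.le_pCore h1 h2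
  intro b hb
  exact ⟨⟨b, hBM hb⟩, h3 hb, rfl⟩

/-- ambient form of characteristic `p` -/
theorem mem_Op_of_centralizes {p : ℕ} {M : Subgroup G}
    (hchar : Subgroup.centralizer (Cfsg.pCore p ↥M : Set ↥M) ≤ Cfsg.pCore p ↥M)
    {a : G} (ha : a ∈ M) (hc : a ∈ Subgroup.centralizer (Op p M : Set G)) : a ∈ Op p M := by
  refine ⟨⟨a, ha⟩, hchar ?_, rfl⟩
  rw [Subgroup.mem_centralizer_iff]
  intro y hy
  apply Subtype.ext
  exact (Subgroup.mem_centralizer_iff.1 hc) y ⟨y, hy, rfl⟩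

/-- maximal `p`-locals of characteristic `p` are primitive -/
theorem primitive_of_maxLoc [Finite G] {p : ℕ} [Fact p.Prime] {M : Subgroup G} (hM : IsMaxLoc p M)
    (hchar : Subgroup.centralizer (Cfsg.pCore p ↥M : Set ↥M) ≤ Cfsg.pCore p ↥M)
    {A : Subgroup G} (hAM : A ≤ M) (hne : A ≠ ⊥) (hMA : M ≤ Subgroup.normalizer (A : Set G)) :
    Subgroup.normalizer (A : Set G) = M := by
  have hMQ : M ≤ Subgroup.normalizer (Op p M : Set G) :=
    Subgroup.le_normalizer.trans (le_normalizer_Op p M)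
  have hBne : A ⊓ Op p M ≠ ⊥ := by
    intro h
    have h1 : ⁅A, Op p M⁆ ≤ A ⊓ Op p M := by
      refine le_inf ?_ ?_
      · exact Subgroup.le_normalizer_iff_commutator_le_left.1 ((Op_le p M).trans hMA)
      · exact Subgroup.le_normalizer_iff_commutator_le_right.1 (hAM.trans hMQ)
    rw [h, le_bot_iff, Subgroup.commutator_eq_bot_iff_le_centralizer] at h1
    have h2 : A ≤ A ⊓ Op p M := le_inf le_rfl (fun a ha => mem_Op_of_centralizes hchar (hAM ha) (h1 ha))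
    rw [h] at h2
    exact hne (le_bot_iff.1 h2)
  have hB : A ⊓ Op p M ≤ Op p A := by
    apply le_Op inf_le_left ((isPGroup_Op p M).to_le inf_le_right)
    exact (le_inf Subgroup.le_normalizer (hAM.trans hMQ)).trans Subgroup.inf_normalizer_le_normalizer_inf
  have hOA : Op p A ≠ ⊥ := by
    intro h
    rw [h] at hB
    exact hBne (le_bot_iff.1 hB)
  have hloc : IsLoc p (Subgroup.normalizer (Op p A : Set G)) := ⟨Op p A, isPGroup_Op p A, hOA, rfl⟩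
  have h3 := hM.2 _ hloc (hMA.trans (le_normalizer_Op p A))
  exact le_antisymm ((le_normalizer_Op p A).trans h3.le) hMA

/-- `T` is a maximal `p`-subgroup of `M` -/
def IsMaxP (p : ℕ) (T M : Subgroup G) : Prop :=
  T ≤ M ∧ IsPGroup p T ∧ ∀ Q : Subgroup G, IsPGroup p Q → Q ≤ M → T ≤ Q → Q = T

theorem IsMaxP.Op_le [Finite G] {p : ℕ} [Fact p.Prime] {T M : Subgroup G} (h : IsMaxP p T M) : Op p M ≤ T := by
  have hMQ : M ≤ Subgroup.normalizer (Op p M : Set G) :=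
    Subgroup.le_normalizer.trans (le_normalizer_Op p M)
  have h1 : IsPGroup p (T ⊔ Op p M : Subgroup G) :=
    h.2.1.to_sup_of_normal_right' (isPGroup_Op p M) (h.1.trans hMQ)
  have h2 := h.2.2 _ h1 (sup_le h.1 (S3751.Op_le p M)) le_sup_left
  rw [← h2]; exact le_sup_right

theorem IsMaxP.conj {p : ℕ} {T M : Subgroup G} (h : IsMaxP p T M) (x : G) : IsMaxP p (cj x T) (cj x M) := by
  refine ⟨cj_mono h.1, isPGroup_cj h.2.1 x, fun Q hQ hQM hTQ => ?_⟩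
  have h0 : cj x⁻¹ Q ≤ M := by
    rw [cj_le_iff, inv_inv]; exact hQM
  have h1 := h.2.2 (cj x⁻¹ Q) (isPGroup_cj hQ _) h0 (cj_le_iff.1 hTQ)
  rw [← h1, cj_cj_inv]

/-- if `T` is not a maximal `p`-subgroup of `M` it is properly contained in a `p`-subgroup of `N_M(T)` -/
theorem exists_lt_of_not_isMaxP [Finite G] {p : ℕ} [Fact p.Prime] {T M : Subgroup G} (hTM : T ≤ M)
    (hT : IsPGroup p T) (h : ¬ IsMaxP p T M) :
    ∃ T₁ : Subgroup G, IsPGroup p T₁ ∧ T < T₁ ∧ T₁ ≤ M ∧ T₁ ≤ Subgroup.normalizer (T : Set G) := by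
  unfold IsMaxP at h
  push Not at h
  obtain ⟨Q, hQ, hQM, hTQ, hne⟩ := h hTM hT
  have hlt : T < Q := lt_of_le_of_ne hTQ (Ne.symm hne)
  obtain ⟨x, hxQ, hxT, hxN⟩ := exists_normalizing_not_mem hQ hlt
  refine ⟨Q ⊓ Subgroup.normalizer (T : Set G), hQ.to_le inf_le_left, ?_, inf_le_left.trans hQM, inf_le_right⟩
  refine lt_of_le_of_ne (le_inf hTQ Subgroup.le_normalizer) ?_
  intro heq
  apply hxT
  rw [heq]
  exact ⟨hxQ, hxN⟩

/-- Two distinct subgroups M₁, M₂ of G form a primitive pair when, for {i, j} = {1, 2}, every non-trivial normal subgroup A of M_i contained in M₁ ∩ M₂ satisfies N_{M_j}(A) = M₁ ∩ M₂; the pair has characteristic p when moreover C_{M_i}(O_p(M_i)) ≤ O_p(M_i) for both i and O_p(M₁)O_p(M₂) ≤ M₁ ∩ M₂. Let G be a finite group, p a prime dividing its order, with O_p(G) = 1 and every p-local subgroup of characteristic p. Then either G has a primitive pair of characteristic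 p, or every maximal p-local subgroup M of G is strongly p-embedded in G: M is a proper subgroup, p divides its order, and for every g ∉ M the order of M ∩ gMg⁻¹ is prime to p. -/
theorem result {G : Type*} [Group G] [Finite G] {p : ℕ} [Fact p.Prime] (hloc : Cfsg.IsOfLocalCharacteristic p G) (hOp : Cfsg.pCore p G = ⊥) : (∃ M₁ M₂ : Subgroup G, M₁ ≠ M₂ ∧ (∀ A : Subgroup G, A ≠ ⊥ → A ≤ M₁ ⊓ M₂ → (M₁ ≤ Subgroup.normalizer (A : Set G) → M₂ ⊓ Subgroup.normalizer (A : Set G) = M₁ ⊓ M₂) ∧ (M₂ ≤ Subgroup.normalizer (A : Set G) → M₁ ⊓ Subgroup.normalizer (A : Set G) = M₁ ⊓ M₂)) ∧ Subgroup.centralizer (Cfsg.pCore p ↥M₁ : Set ↥M₁) ≤ Cfsg.pCore p ↥M₁ ∧ Subgroup.centralizer (Cfsg.pCore p ↥M₂ : Set ↥M₂) ≤ Cfsg.pCore p ↥M₂ ∧ (Cfsg.pCore p ↥M₁).map M₁.subtype ⊔ (Cfsg.pCore p ↥M₂).map M₂.subtype ≤ M₁ ⊓ M₂) ∨ (∀ M : Subgroup G, (∃ T : Subgroup G, IsPGroup p T ∧ T ≠ ⊥ ∧ M = Subgroup.normalizer (T : Set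 G)) → (∀ L : Subgroup G, (∃ T : Subgroup G, IsPGroup p T ∧ T ≠ ⊥ ∧ L = Subgroup.normalizer (T : Set G)) → M ≤ L → L = M) → M ≠ ⊤ ∧ p ∣ Nat.card M ∧ ∀ g : G, g ∉ M → ¬ p ∣ Nat.card ↥(M ⊓ M.map (MulAut.conj g).toMonoidHom)) := by
  have hp : p.Prime := Fact.out
  have hchar : ∀ M : Subgroup G, IsLoc p M →
      Subgroup.centralizer (Cfsg.pCore p ↥M : Set ↥M) ≤ Cfsg.pCore p ↥M := by
    rintro M ⟨T, hT, hne, rfl⟩
    exact hloc.2 T hT hne
  have hprim : ∀ M : Subgroup G, IsMaxLoc p M → ∀ A : Subgroup G, A ≤ M → A ≠ ⊥ →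
      M ≤ Subgroup.normalizer (A : Set G) → Subgroup.normalizer (A : Set G) = M :=
    fun M hM A h1 h2 h3 => primitive_of_maxLoc hM (hchar M hM.1) h1 h2 h3
  have hne_bot : ∀ M : Subgroup G, IsLoc p M → M ≠ ⊥ := by
    rintro M ⟨T, hT, hne, rfl⟩ h
    apply hne
    have : T ≤ Subgroup.normalizer (T : Set G) := Subgroup.le_normalizer
    rw [h] at this
    exact le_bot_iff.1 this
  -- it suffices to find two distinct maximal p-locals with a common maximal p-subgroup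
  have hpair : ∀ M₁ M₂ T : Subgroup G, IsMaxLoc p M₁ → IsMaxLoc p M₂ → M₁ ≠ M₂ → IsMaxP p T M₁ →
      IsMaxP p T M₂ → (∃ M₁ M₂ : Subgroup G, M₁ ≠ M₂ ∧ (∀ A : Subgroup G, A ≠ ⊥ → A ≤ M₁ ⊓ M₂ → (M₁ ≤ Subgroup.normalizer (A : Set G) → M₂ ⊓ Subgroup.normalizer (A : Set G) = M₁ ⊓ M₂) ∧ (M₂ ≤ Subgroup.normalizer (A : Set G) → M₁ ⊓ Subgroup.normalizer (A : Set G) = M₁ ⊓ M₂)) ∧ Subgroup.centralizer (Cfsg.pCore p ↥M₁ : Set ↥M₁) ≤ Cfsg.pCore p ↥M₁ ∧ Subgroup.centralizer (Cfsg.pCore p ↥M₂ : Set ↥M₂) ≤ Cfsg.pCore p ↥M₂ ∧ (Cfsg.pCore p ↥M₁).map M₁.subtype ⊔ (Cfsg.pCore p ↥M₂).map M₂.subtype ≤ M₁ ⊓ M₂) := by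
    intro M₁ M₂ T h₁ h₂ hne hT₁ hT₂
    refine ⟨M₁, M₂, hne, ?_, hchar M₁ h₁.1, hchar M₂ h₂.1, ?_⟩
    · intro A hA hAM
      refine ⟨fun h => ?_, fun h => ?_⟩
      · rw [hprim M₁ h₁ A (hAM.trans inf_le_left) hA h, inf_comm]
      · rw [hprim M₂ h₂ A (hAM.trans inf_le_right) hA h]
    · exact sup_le (hT₁.Op_le.trans (le_inf hT₁.1 hT₂.1)) (hT₂.Op_le.trans (le_inf hT₁.1 hT₂.1))
  by_cases hbad : ∃ (M : Subgroup G) (g : G), IsMaxLoc p M ∧ g ∉ M ∧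
      p ∣ Nat.card ↥(M ⊓ M.map (MulAut.conj g).toMonoidHom)
  · left
    obtain ⟨M, g, hM, hg, hdvd⟩ := hbad
    have hself : ∀ M : Subgroup G, IsMaxLoc p M → Subgroup.normalizer (M : Set G) = M :=
      fun M hM => hprim M hM M le_rfl (hne_bot M hM.1) Subgroup.le_normalizer
    have hMg : M ≠ cj g M := by
      intro h
      apply hg
      rw [← hself M hM, mem_normalizer_iff_cj]
      exact h.symm
    -- the family
    let 𝓕 : Set (Subgroup G) := {T | IsPGroup p T ∧ ∃ M₁ M₂ : Subgroup G, IsMaxLoc p M₁ ∧ IsMaxLoc p M₂ ∧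
      M₁ ≠ M₂ ∧ T ≤ M₁ ⊓ M₂}
    obtain ⟨x, hx⟩ := exists_prime_orderOf_dvd_card' p hdvd
    have hT₀ : (Subgroup.zpowers x).map (M ⊓ cj g M).subtype ∈ 𝓕 := by
      refine ⟨?_, M, cj g M, hM, hM.conj g, hMg, Subgroup.map_subtype_le _⟩
      apply IsPGroup.map
      rw [IsPGroup.iff_card]
      exact ⟨1, by rw [Nat.card_zpowers, hx, pow_one]⟩
    have hT₀ne : (Subgroup.zpowers x).map (M ⊓ cj g M).subtype ≠ ⊥ := by
      intro h
      rw [Subgroup.map_eq_bot_iff_of_injective _ (Subgroup.subtype_injective _), Subgroup.zpowers_eq_bot] at h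
      rw [h, orderOf_one] at hx
      exact hp.one_lt.ne hx
    obtain ⟨T, hT₀T, hTmax⟩ := (Set.toFinite 𝓕).exists_le_maximal hT₀
    have hTne : T ≠ ⊥ := by
      intro h
      rw [h] at hT₀T
      exact hT₀ne (le_bot_iff.1 hT₀T)
    obtain ⟨hTp, M₁, M₂, h₁, h₂, hne, hTM⟩ := hTmax.1
    -- key consequence of maximality
    have hkey : ∀ (T₁ L₁ L₂ : Subgroup G), IsPGroup p T₁ → T < T₁ → IsMaxLoc p L₁ → IsMaxLoc p L₂ →
        T₁ ≤ L₁ → T₁ ≤ L₂ → L₁ = L₂ := by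
      intro T₁ L₁ L₂ hT₁ hlt hL₁ hL₂ h1 h2
      by_contra hne'
      have : T₁ ∈ 𝓕 := ⟨hT₁, L₁, L₂, hL₁, hL₂, hne', le_inf h1 h2⟩
      exact absurd (hTmax.2 this hlt.le) (not_le_of_gt hlt)
    -- the one-sided construction
    have hone : ∀ L₁ L₂ : Subgroup G, IsMaxLoc p L₁ → IsMaxLoc p L₂ → L₁ ≠ L₂ → T ≤ L₁ → IsMaxP p T L₂ →
        ∃ K₁ K₂ : Subgroup G, IsMaxLoc p K₁ ∧ IsMaxLoc p K₂ ∧ K₁ ≠ K₂ ∧ IsMaxP p T K₁ ∧ IsMaxP p T K₂ := by
      intro L₁ L₂ hL₁ hL₂ hne' hTL₁ hmax₂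
      by_cases hmax₁ : IsMaxP p T L₁
      · exact ⟨L₁, L₂, hL₁, hL₂, hne', hmax₁, hmax₂⟩
      · obtain ⟨T₁, hT₁, hlt, -, hT₁N⟩ := exists_lt_of_not_isMaxP hTL₁ hTp hmax₁
        obtain ⟨y, hyT₁, hyT⟩ := SetLike.exists_of_lt hlt
        have hyL₂ : y ∉ L₂ := by
          intro hy
          have h1 : T ⊔ Subgroup.zpowers y ≤ T₁ := sup_le hlt.le (by rwa [Subgroup.zpowers_le])
          have h2 := hmax₂.2.2 _ (hT₁.to_le h1) (sup_le hmax₂.1 (by rwa [Subgroup.zpowers_le])) le_sup_left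
          apply hyT
          rw [← h2]
          exact Subgroup.mem_sup_right (Subgroup.mem_zpowers y)
        refine ⟨L₂, cj y L₂, hL₂, hL₂.conj y, ?_, hmax₂, ?_⟩
        · intro h
          apply hyL₂
          rw [← hself L₂ hL₂, mem_normalizer_iff_cj]
          exact h.symm
        · have := hmax₂.conj y
          rwa [mem_normalizer_iff_cj.1 (hT₁N hyT₁)] at this
    have hfin : ∃ K₁ K₂ : Subgroup G, IsMaxLoc p K₁ ∧ IsMaxLoc p K₂ ∧ K₁ ≠ K₂ ∧ IsMaxP p T K₁ ∧ IsMaxP p T K₂ := by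
      by_cases hm₂ : IsMaxP p T M₂
      · exact hone M₁ M₂ h₁ h₂ hne (hTM.trans inf_le_left) hm₂
      · by_cases hm₁ : IsMaxP p T M₁
        · exact hone M₂ M₁ h₂ h₁ hne.symm (hTM.trans inf_le_right) hm₁
        · exfalso
          obtain ⟨T₁, hT₁, hlt₁, hT₁M, hT₁N⟩ := exists_lt_of_not_isMaxP (hTM.trans inf_le_left) hTp hm₁
          obtain ⟨T₂, hT₂, hlt₂, hT₂M, hT₂N⟩ := exists_lt_of_not_isMaxP (hTM.trans inf_le_right) hTp hm₂
          obtain ⟨M₃, h₃, hNM₃⟩ := exists_maxLoc_ge (p := p)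
            (L := Subgroup.normalizer (T : Set G)) ⟨T, hTp, hTne, rfl⟩
          have e1 := hkey T₁ M₁ M₃ hT₁ hlt₁ h₁ h₃ hT₁M (hT₁N.trans hNM₃)
          have e2 := hkey T₂ M₂ M₃ hT₂ hlt₂ h₂ h₃ hT₂M (hT₂N.trans hNM₃)
          exact hne (e1.trans e2.symm)
    obtain ⟨K₁, K₂, hK₁, hK₂, hKne, hTK₁, hTK₂⟩ := hfin
    exact hpair K₁ K₂ T hK₁ hK₂ hKne hTK₁ hTK₂
  · right
    intro M hM1 hM2
    have hM : IsMaxLoc p M := ⟨hM1, hM2⟩
    obtain ⟨T, hT, hne, hMT⟩ := hM1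
    refine ⟨?_, ?_, ?_⟩
    · intro htop
      rw [htop] at hMT
      have hTn : T.Normal := Subgroup.normalizer_eq_top_iff.1 hMT.symm
      have := Cfsg.Agent.Lib.Helper28.le_pCore hTn hT
      rw [hOp] at this
      exact hne (le_bot_iff.1 this)
    · have hTM : T ≤ M := by rw [hMT]; exact Subgroup.le_normalizer
      have h1 : Nat.card T ∣ Nat.card M := Subgroup.card_dvd_of_le hTM
      have h2 : p ∣ Nat.card T := by
        rcases hT.card_eq_or_dvd with h | h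
        · exfalso
          exact hne ((Subgroup.card_eq_one).1 h)
        · exact h
      exact h2.trans h1
    · intro g hg hdvd
      exact hbad ⟨M, g, hM, hg, hdvd⟩

end Cfsg.Agent.S3751
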