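import Cfsg.Statements.S3755
import Cfsg.Agent.Lib.Helper55.FF12
import Cfsg.Agent.Lib.Helper57.Qd1
import Cfsg.Agent.S0250

set_option autoImplicit false
open Cfsg

namespace Cfsg.Agent.S3755

/-- Let M and V be subgroups of a finite group with V an elementary abelian 2-group, M normalizing V and acting faithfully on it (M ∩ C(V) = 1), and C_M(O_{2'}(M)) ≤ O_{2'}(M). If some elementary abelian 2-subgroup A of M satisfies |V : C_V(A)| < |A|², then M has a section isomorphic to the symmetric group of degree 3. -/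
theorem result {X : Type*} [Group X] [Finite X] (M V : Subgroup X) (hV : Cfsg.IsElementaryAbelian 2 V) (hMV : M ≤ Subgroup.normalizer (V : Set X)) (hfaith : M ⊓ Subgroup.centralizer (V : Set X) = ⊥) (hcon : Subgroup.centralizer (Cfsg.pPrimeCore 2 ↥M : Set ↥M) ≤ Cfsg.pPrimeCore 2 ↥M) (A : Subgroup X) (hAM : A ≤ M) (hA : Cfsg.IsElementaryAbelian 2 A) (hsmall : (V ⊓ Subgroup.centralizer (A : Set X)).relIndex V < Nat.card A ^ 2) : Cfsg.Involves (Equiv.Perm (Fin 3)) ↥M := by
  haveI : Fact (Nat.Prime 2) := ⟨Nat.prime_two⟩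
  have h := Cfsg.Agent.Lib.Helper55.ffs_of hV hMV hfaith hcon
  by_contra hnot
  obtain ⟨ψ⟩ := Cfsg.Agent.S0250.result (F := ZMod 2) (ZMod.card 2)
  have hno : ∀ D : Subgroup X, D ≤ M →
      ¬ Nonempty (↥D ≃* Matrix.SpecialLinearGroup (Fin 2) (ZMod 2)) := by
    rintro D hD ⟨φ⟩
    exact hnot (Cfsg.Agent.Lib.Helper57.Qd.involves_of_span (Subgroup.inclusion hD)
      (Subgroup.inclusion_injective hD) (ψ.toMonoidHom.comp φ.toMonoidHom)
      (ψ.surjective.comp φ.surjective))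
  have h1 := Cfsg.Agent.Lib.Helper55.sq_card_mul_le hV h.hKV h.hKf h.hKp h.hKH hno _ A rfl hA hAM
    (hAM.trans hMV) (hAM.trans h.hHK)
    (h.inf_centralizer_eq_bot hAM (Cfsg.Agent.Lib.Helper14.IsElementaryAbelian.isPGroup hA))
  have h2 := Cfsg.Agent.Lib.Helper14.card_mul_relIndex
    (inf_le_left : V ⊓ Subgroup.centralizer (A : Set X) ≤ V)
  have hpos : 0 < Nat.card ↥(V ⊓ Subgroup.centralizer (A : Set X)) := Nat.card_pos
  have h3 : Nat.card ↥(V ⊓ Subgroup.centralizer (A : Set X)) *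
      (V ⊓ Subgroup.centralizer (A : Set X)).relIndex V <
      Nat.card ↥(V ⊓ Subgroup.centralizer (A : Set X)) * Nat.card A ^ 2 :=
    Nat.mul_lt_mul_of_pos_left hsmall hpos
  rw [h2, mul_comm] at h3
  exact absurd h1 (not_le.2 h3)

end Cfsg.Agent.S3755
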