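import Cfsg.Statements.S3760

set_option autoImplicit false
open Cfsg

namespace Cfsg.Agent.S3760

theorem map_conj_mul {G : Type*} [Group G] (K : Subgroup G) (g h : G) :
    K.map (MulAut.conj (g * h)).toMonoidHom
      = (K.map (MulAut.conj h).toMonoidHom).map (MulAut.conj g).toMonoidHom := by
  rw [Subgroup.map_map]
  congr 1
  ext x
  simp [mul_assoc]

theorem mem_normalizer_iff_map {G : Type*} [Group G] (K : Subgroup G) (g : G) :
    g ∈ Subgroup.normalizer (K : Set G) ↔ K.map (MulAut.conj g).toMonoidHom = K :=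
  Subgroup.mem_normalizer_iff_map_conj_eq

/-- Let the group G act transitively on a set X, let x ∈ X with stabilizer H = G_x, and let K ≤ H. Then N_G(K) acts transitively on the set of fixed points of K if and only if every G-conjugate of K contained in H is already an H-conjugate of K. -/
theorem result {G : Type*} [Group G] {X : Type*} [MulAction G X] (htrans : ∀ a b : X, ∃ g : G, g • a = b) (x : X) (K : Subgroup G) (hK : K ≤ MulAction.stabilizer G x) : (∀ a b : X, (∀ k ∈ K, k • a = a) → (∀ k ∈ K, k • b = b) → ∃ g ∈ Subgroup.normalizer (K : Set G), g • a = b) ↔ ∀ g : G, K.map (MulAut.conj g).toMonoidHom ≤ MulAction.stabilizer G x → ∃ h ∈ MulAction.stabilizer G x, K.map (MulAut.conj g).toMonoidHom = K.map (MulAut.conj h).toMonoidHom := by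
  constructor
  · intro H g hg
    have h1 : ∀ k ∈ K, k • (g⁻¹ • x) = g⁻¹ • x := by
      intro k hk
      have : g * k * g⁻¹ ∈ MulAction.stabilizer G x := by
        apply hg
        exact ⟨k, hk, by simp⟩
      rw [MulAction.mem_stabilizer_iff] at this
      calc k • (g⁻¹ • x) = g⁻¹ • ((g * k * g⁻¹) • x) := by simp [mul_smul]
        _ = g⁻¹ • x := by rw [this]
    have h2 : ∀ k ∈ K, k • x = x := fun k hk => hK hk
    obtain ⟨n, hn, hnx⟩ := H x (g⁻¹ • x) h2 h1
    refine ⟨g * n, ?_, ?_⟩
    · rw [MulAction.mem_stabilizer_iff, mul_smul, hnx]; simp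
    · rw [map_conj_mul, (mem_normalizer_iff_map K n).1 hn]
  · intro H a b ha hb
    have key : ∀ c : X, (∀ k ∈ K, k • c = c) → ∃ n ∈ Subgroup.normalizer (K : Set G), n • x = c := by
      intro c hc
      obtain ⟨u, hu⟩ := htrans x c
      have h1 : K.map (MulAut.conj u⁻¹).toMonoidHom ≤ MulAction.stabilizer G x := by
        rintro _ ⟨k, hk, rfl⟩
        rw [MulAction.mem_stabilizer_iff]
        have := hc k hk
        simp only [MulEquiv.coe_toMonoidHom, MulAut.conj_apply, inv_inv, mul_smul]
        rw [hu, this, ← hu]; simp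
      obtain ⟨h, hh, hEq⟩ := H u⁻¹ h1
      refine ⟨u * h, ?_, ?_⟩
      · rw [mem_normalizer_iff_map, map_conj_mul, ← hEq, ← map_conj_mul]
        simp
        ext y; simp
      · rw [mul_smul, hh, hu]
    obtain ⟨n, hn, hnx⟩ := key a ha
    obtain ⟨m, hm, hmx⟩ := key b hb
    refine ⟨m * n⁻¹, Subgroup.mul_mem _ hm (Subgroup.inv_mem _ hn), ?_⟩
    rw [mul_smul, ← hnx]; simp [hmx]

end Cfsg.Agent.S3760
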