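import Cfsg.Statements.S3763
-- import your own Cfsg.Agent.* helpers here
import Cfsg.Agent.Lib.Helper92.ES2Rank2

set_option autoImplicit false
open Cfsg

namespace Cfsg.Agent.S3763

open Cfsg.Agent.Lib.Helper92

/-- Let E be an extraspecial 2-group of order 2^(2n+1). Then the largest elementary abelian subgroups of E have order 2^n or 2^(n+1); and two extraspecial 2-groups of the same order whose largest elementary abelian subgroups have the same order are isomorphic. -/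
theorem result {E : Type*} [Group E] [Finite E] (hE : Cfsg.IsExtraspecial 2 E) (n : ℕ) (hn : Nat.card E = 2 ^ (2 * n + 1)) : ((Cfsg.PRankLE 2 n E ∧ ¬ Cfsg.PRankLE 2 (n - 1) E) ∨ (Cfsg.PRankLE 2 (n + 1) E ∧ ¬ Cfsg.PRankLE 2 n E)) ∧ ∀ (E' : Type*) [Group E'] [Finite E'], Cfsg.IsExtraspecial 2 E' → Nat.card E' = Nat.card E → (∀ k : ℕ, Cfsg.PRankLE 2 k E ↔ Cfsg.PRankLE 2 k E') → Nonempty (E ≃* E') := by
  obtain ⟨z, h⟩ := ES2.exists_of hE.1.2.2.le hE.2
  have hr := h.prank n hn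
  refine ⟨?_, ?_⟩
  · rcases hr with ⟨-, h1, h2⟩ | ⟨-, -, h1, h2⟩
    · exact Or.inr ⟨h1, h2⟩
    · exact Or.inl ⟨h1, h2⟩
  · intro E' _ _ hE' hcard hk
    obtain ⟨z', h'⟩ := ES2.exists_of hE'.1.2.2.le hE'.2
    have hr' := h'.prank n (hcard.trans hn)
    have hNN : NN E = NN E' := by
      rcases hr with ⟨e, h1, h2⟩ | ⟨-, e, h1, h2⟩ <;> rcases hr' with ⟨e', h1', h2'⟩ | ⟨-, e', h1', h2'⟩
      · rw [e, e']
      · exact absurd ((hk n).2 h1') h2
      · exact absurd ((hk n).1 h1) h2'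
      · omega
    obtain ⟨F, -⟩ := ES2.iso_aux _ E E' z z' h h' rfl hcard hNN
    exact ⟨F⟩

end Cfsg.Agent.S3763
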