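import Cfsg.Statements.S3764
import Cfsg.Agent.Lib.Helper79.HAutV
import Cfsg.Agent.Lib.Helper79.HAmb
import Cfsg.Agent.Lib.Helper79.HExtra

set_option autoImplicit false
open Cfsg

namespace Cfsg.Agent.S3764

/-- Let p, q, r be distinct primes and let X, Q, V be subgroups of a finite group with X of order r, Q an extraspecial q-group normalized by X with C_Q(X) = Z(Q), and V an elementary abelian p-group normalized by X and Q on which XQ acts faithfully ((X ⊔ Q) ∩ C(V) = 1). If C_V(X) = 1, then q = 2, r = 2^n + 1 for some n, and Q has order 2^(2n+1). -/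
theorem result {G : Type*} [Group G] [Finite G] {p q r : ℕ} (hp : p.Prime) (hq : q.Prime) (hr : r.Prime) (hpq : p ≠ q) (hpr : p ≠ r) (hqr : q ≠ r) (X Q V : Subgroup G) (hX : Nat.card X = r) (hQ : Cfsg.IsExtraspecial q ↥Q) (hXQ : X ≤ Subgroup.normalizer (Q : Set G)) (hCQ : Q ⊓ Subgroup.centralizer (X : Set G) = (Subgroup.center ↥Q).map Q.subtype) (hV : Cfsg.IsElementaryAbelian p V) (hXV : X ≤ Subgroup.normalizer (V : Set G)) (hQV : Q ≤ Subgroup.normalizer (V : Set G)) (hfaith : (X ⊔ Q) ⊓ Subgroup.centralizer (V : Set G) = ⊥) (hCV : V ⊓ Subgroup.centralizer (X : Set G) = ⊥) : q = 2 ∧ ∃ n : ℕ, r = 2 ^ n + 1 ∧ Nat.card Q = 2 ^ (2 * n + 1) := by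
  classical
  open Cfsg.Agent.Lib.Helper79.HW in
  haveI : Fact r.Prime := ⟨hr⟩
  haveI : Fact p.Prime := ⟨hp⟩
  haveI : Nontrivial X := by
    rw [← Finite.one_lt_card_iff_nontrivial, hX]; exact hr.one_lt
  obtain ⟨⟨a, haX⟩, ha1⟩ := exists_ne (1 : X)
  have ha1' : a ≠ 1 := fun h => ha1 (Subtype.ext h)
  have haV := hXV haX
  have haQ := hXQ haX
  have har : a ^ r = 1 := by
    have := pow_card_eq_one' (G := X) (x := ⟨a, haX⟩)
    rw [hX] at this
    exact congrArg Subtype.val this
  have hgen : ∀ x ∈ X, x ∈ Subgroup.zpowers a := by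
    intro x hx
    have := mem_zpowers_of_prime_card (G := X) hX (g := ⟨a, haX⟩) (g' := ⟨x, hx⟩) ha1
    obtain ⟨k, hk⟩ := this
    exact ⟨k, by simpa using congrArg Subtype.val hk⟩
  have hcent : ∀ v : G, a * v = v * a → v ∈ Subgroup.centralizer (X : Set G) := by
    intro v h2
    rw [Subgroup.mem_centralizer_iff]
    intro x hx
    obtain ⟨k, rfl⟩ := hgen x hx
    exact ((Commute.zpow_left (show Commute a v from h2) k)).eq
  have hcommV : ∀ u v : V, u * v = v * u := fun u v => hV.1.is_comm.comm u v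
  have hexpV : ∀ u : V, u ^ p = 1 := fun u => Subtype.ext (by simpa using hV.2 u u.2)
  obtain ⟨⟨hQq, -, hQcomm⟩, hQZ⟩ := hQ
  have hQ' := conj_mem_iff a Q (fun x hx => (Subgroup.mem_normalizer_iff.mp haQ x).mp hx)
  set σ := conjOn a Q hQ' with hσ
  have hσr : σ ^ r = 1 := by
    ext1 x
    apply Subtype.ext
    rw [conjOn_pow_apply, har]; simp
  have hfix : ∀ x : Q, σ x = x ↔ x ∈ Subgroup.center Q := by
    intro x
    have h1 : x ∈ Subgroup.center Q ↔ (x : G) ∈ (Subgroup.center ↥Q).map Q.subtype := by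
      constructor
      · intro h; exact ⟨x, h, rfl⟩
      · rintro ⟨y, hy, hyx⟩
        have : y = x := Subtype.ext hyx
        rwa [← this]
    rw [h1, ← hCQ, Subgroup.mem_inf]
    constructor
    · intro h
      refine ⟨x.2, hcent _ ?_⟩
      have h2 := congrArg Subtype.val h
      rw [conjOn_apply] at h2
      calc a * (x : G) = (a * x * a⁻¹) * a := by group
        _ = x * a := by rw [h2]
    · rintro ⟨-, h⟩
      rw [Subgroup.mem_centralizer_iff] at h
      apply Subtype.ext
      rw [conjOn_apply, h a haX]; group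
  have C := extraspecial_cfg σ r q hr hq hqr.symm hQq hσr hQcomm hfix
  let K := AlgebraicClosure (ZMod p)
  let R := homRep K (MonoidHom.id (MulAut V))
  let ψ : Q →* MulAut V := V.normalizerMonoidHom.comp (Subgroup.inclusion hQV)
  have hψ : ∀ k : Q, ψ k = act V k (hQV k.2) := fun k => rfl
  set t := act V a haV with ht
  have htr : t ^ r = 1 := by
    rw [ht, ← act_pow, act_eq_one_iff, har]; exact one_mem _
  have hcard : (Nat.card Q : K) ≠ 0 := by
    haveI : Fact q.Prime := ⟨hq⟩
    obtain ⟨k, hk⟩ := (IsPGroup.iff_card).mp hQq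
    rw [hk]; push_cast
    exact pow_ne_zero _ (cast_prime_ne_zero K p q hp hq hpq.symm)
  haveI : Nontrivial (Subgroup.center Q) := by
    rw [← Finite.one_lt_card_iff_nontrivial, hQZ]; exact hq.one_lt
  obtain ⟨⟨x0, hx0m⟩, hx0⟩ := exists_ne (1 : Subgroup.center Q)
  have hx0' : x0 ≠ 1 := fun h => hx0 (Subtype.ext h)
  rcases claim C hr hcard (cast_prime_ne_zero K p r hp hr hpr.symm) (Module.finrank K (HomSp K V))
    (HomSp K V) 0 (R.comp ψ) (R t) rfl (Nat.zero_le _)
    (by rw [Nat.sub_zero, pow_one, ← map_pow, htr, map_one])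
    (by
      intro x
      rw [pow_zero, pow_one]
      simp only [MonoidHom.comp_apply]
      rw [← map_mul, ← map_mul]
      congr 1
      rw [hψ, hψ, ht, ← act_mul, ← act_mul]
      apply act_congr
      rw [conjOn_apply]; group)
    ⟨x0, by
      intro h1
      have h2 : ψ x0 = 1 := (homRep_eq_one_iff p hcommV hexpV _ _).mp h1
      rw [hψ, act_eq_one_iff] at h2
      have h3 : (x0 : G) ∈ (X ⊔ Q) ⊓ Subgroup.centralizer (V : Set G) :=
        Subgroup.mem_inf.mpr ⟨(le_sup_right : Q ≤ X ⊔ Q) x0.2, h2⟩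
      rw [hfaith, Subgroup.mem_bot] at h3
      exact hx0' (Subtype.ext h3)⟩ with ⟨y, hy, hty⟩ | hexc
  · exfalso
    obtain ⟨v, hv, hav⟩ := exists_fixed_of_fixed hcommV _ t y hy hty
    apply hv
    have : (v : G) ∈ V ⊓ Subgroup.centralizer (X : Set G) := by
      refine Subgroup.mem_inf.mpr ⟨v.2, hcent _ ?_⟩
      have h1 := congrArg Subtype.val hav
      simp only [MonoidHom.id_apply] at h1
      rw [act_apply] at h1
      calc a * (v : G) = (a * v * a⁻¹) * a := by group
        _ = v * a := by rw [h1]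
    rw [hCV, Subgroup.mem_bot] at this
    exact Subtype.ext this
  · exact extraspecial_exc σ r q hr hq hQq hQcomm hfix hQZ hexc

end Cfsg.Agent.S3764
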