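import Cfsg.Statements.S3765
import Cfsg.Agent.Lib.Helper79.HAutV
import Cfsg.Agent.Lib.Helper79.HAmb

set_option autoImplicit false
open Cfsg

namespace Cfsg.Agent.S3765

/-- Let p, q, r be distinct primes and let X, Q, V be subgroups of a finite group with X of order r normalizing the q-group Q and acting faithfully on it (X ∩ C(Q) = 1), and V a nontrivial elementary abelian p-group normalized by X and Q on which XQ acts faithfully. If q = 2 and r has the form 2^n + 1, assume in addition that Q is abelian. Then C_V(X) ≠ 1. -/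
theorem result {G : Type*} [Group G] [Finite G] {p q r : ℕ} (hp : p.Prime) (hq : q.Prime) (hr : r.Prime) (hpq : p ≠ q) (hpr : p ≠ r) (hqr : q ≠ r) (X Q V : Subgroup G) (hX : Nat.card X = r) (hQ : IsPGroup q Q) (hXQ : X ≤ Subgroup.normalizer (Q : Set G)) (hXfaith : X ⊓ Subgroup.centralizer (Q : Set G) = ⊥) (hV : Cfsg.IsElementaryAbelian p V) (hV1 : V ≠ ⊥) (hXV : X ≤ Subgroup.normalizer (V : Set G)) (hQV : Q ≤ Subgroup.normalizer (V : Set G)) (hfaith : (X ⊔ Q) ⊓ Subgroup.centralizer (V : Set G) = ⊥) (hexc : q = 2 → (∃ n : ℕ, r = 2 ^ n + 1) → IsMulCommutative Q) : V ⊓ Subgroup.centralizer (X : Set G) ≠ ⊥ := by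
  classical
  open Cfsg.Agent.Lib.Helper79.HW in
  haveI : Fact r.Prime := ⟨hr⟩
  haveI : Nontrivial X := by
    rw [← Finite.one_lt_card_iff_nontrivial, hX]; exact hr.one_lt
  obtain ⟨⟨a, haX⟩, ha1⟩ := exists_ne (1 : X)
  have ha1' : a ≠ 1 := fun h => ha1 (Subtype.ext h)
  have haV := hXV haX
  have haQ := hXQ haX
  have har : a ^ r = 1 := by
    have := pow_card_eq_one' (G := X) (x := ⟨a, haX⟩)
    rw [hX] at this
    exact congrArg Subtype.val this
  have hgen : ∀ x ∈ X, x ∈ Subgroup.zpowers a := by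
    intro x hx
    have := mem_zpowers_of_prime_card (G := X) hX (g := ⟨a, haX⟩) (g' := ⟨x, hx⟩) ha1
    obtain ⟨k, hk⟩ := this
    exact ⟨k, by simpa using congrArg Subtype.val hk⟩
  have hcommV : ∀ u v : V, u * v = v * u := fun u v => hV.1.is_comm.comm u v
  have hexpV : ∀ u : V, u ^ p = 1 := fun u => Subtype.ext (by simpa using hV.2 u u.2)
  have key := autV_B (V := V) p r q hp hr hq hqr.symm hpr.symm hpq.symm hcommV hexpV (act V a haV)
    (by rw [← act_pow]; rw [act_eq_one_iff, har]; exact one_mem _)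
    (imgSub V Q) (imgSub_isPGroup hQ)
    (by
      intro x hx
      obtain ⟨g, hg, hgQ, rfl⟩ := mem_imgSub.mp hx
      rw [← act_inv, ← act_mul, ← act_mul]
      exact mem_imgSub.mpr ⟨_, _, (Subgroup.mem_normalizer_iff.mp haQ g).mp hgQ, rfl⟩)
    (by
      by_contra hcon
      push Not at hcon
      apply ha1'
      have : a ∈ X ⊓ Subgroup.centralizer (Q : Set G) := by
        refine Subgroup.mem_inf.mpr ⟨haX, ?_⟩
        rw [Subgroup.mem_centralizer_iff]
        intro g hg
        have hgV := hQV hg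
        have h1 := hcon (act V g hgV) (mem_imgSub.mpr ⟨g, hgV, hg, rfl⟩)
        have h2 : act V (a * g * a⁻¹ * g⁻¹) (mul_mem (mul_mem (mul_mem haV hgV) (inv_mem haV)) (inv_mem hgV)) = 1 := by
          rw [act_mul V _ _ (mul_mem (mul_mem haV hgV) (inv_mem haV)) (inv_mem hgV),
            act_mul V _ _ (mul_mem haV hgV) (inv_mem haV), act_mul V _ _ haV hgV, act_inv V _ haV,
            act_inv V _ hgV, h1]
          group
        rw [act_eq_one_iff] at h2
        have h3 : a * g * a⁻¹ * g⁻¹ ∈ (X ⊔ Q) ⊓ Subgroup.centralizer (V : Set G) := by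
          refine Subgroup.mem_inf.mpr ⟨?_, h2⟩
          have hX' : X ≤ X ⊔ Q := le_sup_left
          have hQ' : Q ≤ X ⊔ Q := le_sup_right
          exact mul_mem (mul_mem (mul_mem (hX' haX) (hQ' hg)) (inv_mem (hX' haX))) (inv_mem (hQ' hg))
        rw [hfaith, Subgroup.mem_bot] at h3
        calc g * a = (a * g * a⁻¹ * g⁻¹)⁻¹ * (a * g) := by group
          _ = a * g := by rw [h3]; simp
      rw [hXfaith, Subgroup.mem_bot] at this
      exact this)
  rcases key with ⟨v, hv, hav⟩ | ⟨hq2, hm, x, hx, y, hy, hxy⟩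
  · intro hbot
    apply hv
    have : (v : G) ∈ V ⊓ Subgroup.centralizer (X : Set G) := by
      refine Subgroup.mem_inf.mpr ⟨v.2, ?_⟩
      rw [Subgroup.mem_centralizer_iff]
      intro x hx
      have h1 := congrArg Subtype.val hav
      rw [act_apply] at h1
      have h2 : a * (v : G) = v * a := by
        calc a * (v : G) = (a * v * a⁻¹) * a := by group
          _ = v * a := by rw [h1]
      obtain ⟨k, rfl⟩ := hgen x hx
      exact ((Commute.zpow_left (show Commute a (v : G) from h2) k)).eq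
    rw [hbot, Subgroup.mem_bot] at this
    exact Subtype.ext this
  · exfalso
    have hc := hexc hq2 hm
    obtain ⟨g, hg, hgQ, rfl⟩ := mem_imgSub.mp hx
    obtain ⟨g', hg', hgQ', rfl⟩ := mem_imgSub.mp hy
    apply hxy
    rw [← act_mul, ← act_mul]
    apply act_congr
    exact congrArg Subtype.val (hc.is_comm.comm ⟨g, hgQ⟩ ⟨g', hgQ'⟩)

end Cfsg.Agent.S3765
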