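import Cfsg.Statements.S3766
import Cfsg.Agent.S3781
import Cfsg.Agent.Lib.Helper28.Cores
import Cfsg.Agent.Lib.Helper30.SZ

set_option autoImplicit false
open Cfsg
open scoped commutatorElement

namespace Cfsg.Agent.S3766

set_option linter.style.haveILetI false

variable {G : Type*} [Group G]

/-- `U / V` is a chief factor of `G`. -/
def IsChief (U V : Subgroup G) : Prop :=
  U.Normal ∧ V.Normal ∧ V < U ∧ ∀ W : Subgroup G, W.Normal → V ≤ W → W ≤ U → W = V ∨ W = U

/-- a normal nilpotent subgroup centralizes every chief factor -/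
theorem commutator_le_of_chief {U V F : Subgroup G} (h : IsChief U V) (hFn : F.Normal)
    (hF : ∃ n, F.lowerCentralSeries n = ⊥) : ⁅U, F⁆ ≤ V := by
  obtain ⟨hU, hV, hlt, hmax⟩ := h
  haveI := hU
  haveI := hV
  haveI := hFn
  have hW : (⁅U, F⁆ ⊔ V).Normal := inferInstance
  rcases hmax _ hW le_sup_right (sup_le (Subgroup.commutator_le_left _ _) hlt.le) with h1 | h1
  · rw [← h1]; exact le_sup_left
  · exfalso
    have key : ∀ k, U ≤ F.lowerCentralSeries k ⊔ V := by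
      intro k
      induction k with
      | zero =>
        calc U = ⁅U, F⁆ ⊔ V := h1.symm
          _ ≤ F ⊔ V := sup_le_sup_right (Subgroup.commutator_le_right _ _) _
      | succ k ih =>
        haveI := Cfsg.Agent.S3781.lcs_normal F (k + 1)
        have h2 : ⁅F.lowerCentralSeries k ⊔ V, F⁆ ≤ F.lowerCentralSeries (k + 1) ⊔ V := by
          apply Cfsg.Agent.Lib.Helper28.sup_commutator_le
          · exact le_sup_left
          · exact (Subgroup.commutator_le_left _ _).trans le_sup_right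
        calc U = ⁅U, F⁆ ⊔ V := h1.symm
          _ ≤ ⁅F.lowerCentralSeries k ⊔ V, F⁆ ⊔ V :=
              sup_le_sup_right (Subgroup.commutator_mono ih le_rfl) _
          _ ≤ F.lowerCentralSeries (k + 1) ⊔ V := sup_le h2 le_sup_right
    obtain ⟨n, hn⟩ := hF
    have := key n
    rw [hn, bot_sup_eq] at this
    exact absurd this (not_le_of_gt hlt)

theorem exists_chief_below [Finite G] (W : Subgroup G) (hW : W.Normal) (hne : W ≠ ⊥) :
    ∃ V, IsChief W V := by
  obtain ⟨V, hV⟩ := (Set.toFinite {V : Subgroup G | V.Normal ∧ V < W}).exists_maximal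
    ⟨⊥, inferInstance, bot_lt_iff_ne_bot.2 hne⟩
  refine ⟨V, hW, hV.1.1, hV.1.2, ?_⟩
  intro X hX hVX hXW
  by_cases h : X = W
  · exact Or.inr h
  · left
    have := hV.2 (show X ∈ {V : Subgroup G | V.Normal ∧ V < W} from ⟨hX, lt_of_le_of_ne hXW h⟩) hVX
    exact le_antisymm this hVX

/-- iterated commutator with `D` -/
def iterD (D : Subgroup G) (k : ℕ) (W : Subgroup G) : Subgroup G :=
  (fun X : Subgroup G => ⁅X, D⁆)^[k] W

theorem iterD_mono (D : Subgroup G) (k : ℕ) {W W' : Subgroup G} (h : W ≤ W') :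
    iterD D k W ≤ iterD D k W' := by
  induction k with
  | zero => exact h
  | succ k ih =>
    unfold iterD at *
    rw [Function.iterate_succ_apply', Function.iterate_succ_apply']
    exact Subgroup.commutator_mono ih le_rfl

theorem exists_iterD_eq_bot [Finite G] (D F : Subgroup G)
    (hD : ∀ U V : Subgroup G, IsChief U V → U ≤ F → ⁅U, D⁆ ≤ V) (W : Subgroup G) :
    W.Normal → W ≤ F → ∃ k, iterD D k W = ⊥ := by
  induction W using WellFoundedLT.induction with
  | ind W ih =>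
    intro hW hWF
    by_cases hne : W = ⊥
    · exact ⟨0, hne⟩
    · obtain ⟨V, hV⟩ := exists_chief_below W hW hne
      obtain ⟨k, hk⟩ := ih V hV.2.2.1 hV.2.1 (hV.2.2.1.le.trans hWF)
      refine ⟨k + 1, ?_⟩
      have h1 : iterD D (k + 1) W = iterD D k ⁅W, D⁆ := by
        unfold iterD; rw [Function.iterate_succ_apply]
      rw [h1, eq_bot_iff, ← hk]
      exact iterD_mono D k (hD W V hV hWF)

theorem lcs_le_iterD (D : Subgroup G) (j : ℕ) :
    D.lowerCentralSeries (j + 1) ≤ iterD D j ⁅D, D⁆ := by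
  induction j with
  | zero => exact le_rfl
  | succ j ih =>
    rw [Subgroup.lowerCentralSeries_succ]
    unfold iterD at *
    rw [Function.iterate_succ_apply']
    exact Subgroup.commutator_mono ih le_rfl

/-- the subgroup of elements of `N` centralizing all chief factors below `F` -/
def Cn (N F : Subgroup G) [hN : N.Normal] : Subgroup G where
  carrier := {g | g ∈ N ∧ ∀ U V : Subgroup G, IsChief U V → U ≤ F → ∀ u ∈ U, u * g * u⁻¹ * g⁻¹ ∈ V}
  one_mem' := ⟨N.one_mem, fun U V _ _ u _ => by simp [V.one_mem]⟩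
  mul_mem' := by
    rintro a b ⟨ha, ha'⟩ ⟨hb, hb'⟩
    refine ⟨N.mul_mem ha hb, fun U V h hU u hu => ?_⟩
    have e : u * (a * b) * u⁻¹ * (a * b)⁻¹ = (u * a * u⁻¹ * a⁻¹) * (a * (u * b * u⁻¹ * b⁻¹) * a⁻¹) := by
      group
    rw [e]
    exact V.mul_mem (ha' U V h hU u hu) (h.2.1.conj_mem _ (hb' U V h hU u hu) a)
  inv_mem' := by
    rintro a ⟨ha, ha'⟩
    refine ⟨N.inv_mem ha, fun U V h hU u hu => ?_⟩
    have e : u * a⁻¹ * u⁻¹ * a⁻¹⁻¹ = a⁻¹ * (u * a * u⁻¹ * a⁻¹)⁻¹ * a⁻¹⁻¹ := by group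
    rw [e]
    exact h.2.1.conj_mem _ (V.inv_mem (ha' U V h hU u hu)) a⁻¹

theorem Cn_normal (N F : Subgroup G) [hN : N.Normal] : (Cn N F).Normal := by
  constructor
  rintro g ⟨hg, hg'⟩ x
  refine ⟨hN.conj_mem g hg x, fun U V h hU u hu => ?_⟩
  have e : u * (x * g * x⁻¹) * u⁻¹ * (x * g * x⁻¹)⁻¹
      = x * ((x⁻¹ * u * x⁻¹⁻¹) * g * (x⁻¹ * u * x⁻¹⁻¹)⁻¹ * g⁻¹) * x⁻¹ := by group
  rw [e]
  exact h.2.1.conj_mem _ (hg' U V h hU _ (h.1.conj_mem u hu x⁻¹)) x

theorem Cn_le [Finite G] (hG : Group.IsSolvable G) (N F : Subgroup G) [hN : N.Normal]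
    (hF : ∀ D : Subgroup G, D.Normal → D ≤ N → (∃ n, D.lowerCentralSeries n = ⊥) → D ≤ F) :
    Cn N F ≤ F := by
  by_contra hcon
  obtain ⟨D, hD⟩ := (Set.toFinite {D : Subgroup G | D.Normal ∧ D ≤ Cn N F ∧ ¬ D ≤ F}).exists_minimal
    ⟨Cn N F, Cn_normal N F, le_rfl, hcon⟩
  obtain ⟨⟨hDn, hDC, hDF⟩, hmin⟩ := hD
  haveI := hDn
  have hDne : D ≠ ⊥ := by
    rintro rfl
    exact hDF bot_le
  have hDsol : Group.IsSolvable D := inferInstance
  have hlt := Cfsg.Agent.Lib.Helper30.commutator_lt_of_solvable hDsol hDne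
  have hDD : ⁅D, D⁆ ≤ F := by
    by_contra h
    have := hmin (show ⁅D, D⁆ ∈ {D : Subgroup G | D.Normal ∧ D ≤ Cn N F ∧ ¬ D ≤ F} from
      ⟨inferInstance, hlt.le.trans hDC, h⟩) hlt.le
    exact absurd this (not_le_of_gt hlt)
  have hcen : ∀ U V : Subgroup G, IsChief U V → U ≤ F → ⁅U, D⁆ ≤ V := by
    intro U V h hU
    rw [Subgroup.commutator_le]
    intro u hu d hd
    exact (hDC hd).2 U V h hU u hu
  obtain ⟨k, hk⟩ := exists_iterD_eq_bot D F hcen ⁅D, D⁆ inferInstance hDD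
  apply hDF
  apply hF D hDn (fun d hd => (hDC hd).1)
  refine ⟨k + 1, ?_⟩
  rw [eq_bot_iff, ← hk]
  exact lcs_le_iterD D k

/-- Let G be a finite solvable group and N a normal subgroup of G. Call a pair V < U of normal subgroups of G a chief factor of G when no normal subgroup of G lies strictly between them; an element g centralizes the chief factor U/V when u g u⁻¹ g⁻¹ ∈ V for all u ∈ U. Then an element of G lies in the Fitting subgroup F(N) if and only if it lies in N and centralizes every chief factor of G; and also if and only if it lies in N and centralizes every chief factor U/V of G with U ≤ F(N). -/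
theorem result {G : Type*} [Group G] [Finite G] (hG : Group.IsSolvable G) (N : Subgroup G) [N.Normal] (g : G) : (g ∈ (Cfsg.fittingSubgroup ↥N).map N.subtype ↔ g ∈ N ∧ ∀ U V : Subgroup G, (U.Normal ∧ V.Normal ∧ V < U ∧ ∀ W : Subgroup G, W.Normal → V ≤ W → W ≤ U → W = V ∨ W = U) → ∀ u ∈ U, u * g * u⁻¹ * g⁻¹ ∈ V) ∧ (g ∈ (Cfsg.fittingSubgroup ↥N).map N.subtype ↔ g ∈ N ∧ ∀ U V : Subgroup G, (U.Normal ∧ V.Normal ∧ V < U ∧ ∀ W : Subgroup G, W.Normal → V ≤ W → W ≤ U → W = V ∨ W = U) → U ≤ (Cfsg.fittingSubgroup ↥N).map N.subtype → ∀ u ∈ U, u * g * u⁻¹ * g⁻¹ ∈ V) := by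
  have hNn : N.Normal := inferInstance
  have hFeq : (Cfsg.fittingSubgroup ↥N).map N.subtype = Cfsg.fittingSubgroup G ⊓ N :=
    (Cfsg.Agent.Lib.Helper28.fitting_inf_subnormal hNn.isSubnormal).symm
  set F : Subgroup G := (Cfsg.fittingSubgroup ↥N).map N.subtype with hFdef
  have hFGn : (Cfsg.fittingSubgroup G).Normal := Cfsg.Agent.Lib.Helper28.fitting_normal
  have hFn : F.Normal := by rw [hFeq]; infer_instance
  have hFN : F ≤ N := by rw [hFeq]; exact inf_le_right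
  have hFnil : ∃ n, F.lowerCentralSeries n = ⊥ := by
    obtain ⟨n, hn⟩ := (Subgroup.isNilpotent_iff_lowerCentralSeries _).1
      (Cfsg.Agent.Lib.Helper28.fitting_isNilpotent (G := G))
    refine ⟨n, ?_⟩
    rw [eq_bot_iff, ← hn, hFeq]
    exact Subgroup.lowerCentralSeries_mono n inf_le_left
  have hfwd : g ∈ F → g ∈ N ∧ ∀ U V : Subgroup G, (U.Normal ∧ V.Normal ∧ V < U ∧ ∀ W : Subgroup G, W.Normal → V ≤ W → W ≤ U → W = V ∨ W = U) → ∀ u ∈ U, u * g * u⁻¹ * g⁻¹ ∈ V := by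
    intro hg
    refine ⟨hFN hg, fun U V h u hu => ?_⟩
    exact commutator_le_of_chief h hFn hFnil (Subgroup.commutator_mem_commutator hu hg)
  have hbwd : (g ∈ N ∧ ∀ U V : Subgroup G, (U.Normal ∧ V.Normal ∧ V < U ∧ ∀ W : Subgroup G, W.Normal → V ≤ W → W ≤ U → W = V ∨ W = U) → U ≤ F → ∀ u ∈ U, u * g * u⁻¹ * g⁻¹ ∈ V) → g ∈ F := by
    intro hg
    apply Cn_le hG N F _ hg
    intro D hDn hDN hDnil
    rw [hFeq]
    refine le_inf ?_ hDN
    exact Cfsg.Agent.Lib.Helper28.le_fitting hDn ((Subgroup.isNilpotent_iff_lowerCentralSeries _).2 hDnil)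
  refine ⟨⟨hfwd, fun h => hbwd ⟨h.1, fun U V hc _ => h.2 U V hc⟩⟩, ⟨fun h => ?_, hbwd⟩⟩
  obtain ⟨h1, h2⟩ := hfwd h
  exact ⟨h1, fun U V hc _ => h2 U V hc⟩

end Cfsg.Agent.S3766
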