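import Cfsg.Statements.S3767
import Cfsg.Agent.Lib.Helper4.FRamD
import Cfsg.Agent.Lib.Helper14.Sup
import Cfsg.Agent.Lib.Helper92.ESEquiv

set_option autoImplicit false
open Cfsg

namespace Cfsg.Agent.S3767

/-- Let P be an extraspecial p-group of order p^(2n+1) and H a cyclic group of order h prime to p acting on P (inside a common finite group: H normalizes P) so that C_P(x) = Z(P) for every non-identity x ∈ H. Then h divides p^n + 1 or h divides p^n − 1. -/
theorem result {G : Type*} [Group G] [Finite G] {p : ℕ} [Fact p.Prime] (P H : Subgroup G) (hP : Cfsg.IsExtraspecial p ↥P) (n : ℕ) (hn : Nat.card P = p ^ (2 * n + 1)) (hH : IsCyclic H) (hcop : (Nat.card H).Coprime p) (hHP : H ≤ Subgroup.normalizer (P : Set G)) (hfix : ∀ x ∈ H, x ≠ 1 → P ⊓ Subgroup.centralizer {x} = (Subgroup.center ↥P).map P.subtype) : Nat.card H ∣ p ^ n + 1 ∨ Nat.card H ∣ p ^ n - 1 := by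
  classical
  have hp : p.Prime := Fact.out
  by_cases hH1 : H = ⊥
  · left
    rw [hH1, Subgroup.card_bot]; exact one_dvd _
  have hP0 := hP
  obtain ⟨⟨hPp, -, hcomm⟩, hcardZ⟩ := hP
  set Zm : Subgroup G := (Subgroup.center ↥P).map P.subtype with hZm
  have hZmem : ∀ z : G, z ∈ Zm ↔ ∃ hz : z ∈ P, (⟨z, hz⟩ : P) ∈ Subgroup.center ↥P := by
    intro z
    constructor
    · intro h
      obtain ⟨w, hw, rfl⟩ := Subgroup.mem_map.mp h
      exact ⟨w.2, hw⟩
    · rintro ⟨hz, h⟩
      exact Subgroup.mem_map.mpr ⟨⟨z, hz⟩, h, rfl⟩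
  have F1 : ∀ z ∈ Zm, ∀ u ∈ P, u * z = z * u := by
    intro z hz u hu
    obtain ⟨hzP, hzc⟩ := (hZmem z).mp hz
    have := (Subgroup.mem_center_iff.mp hzc) ⟨u, hu⟩
    exact congrArg Subtype.val this
  have F2 : ∀ h ∈ H, ∀ z ∈ Zm, h * z = z * h := by
    intro h hh z hz
    by_cases h1 : h = 1
    · subst h1; simp
    · have h2 : z ∈ P ⊓ Subgroup.centralizer {h} := by rw [hfix h hh h1]; exact hz
      exact (Subgroup.mem_centralizer_iff.mp h2.2) h rfl
  have hdec : ∀ x ∈ P ⊔ H, ∃ u ∈ P, ∃ h ∈ H, x = u * h := fun x hx =>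
    (Cfsg.Agent.Lib.Helper14.mem_sup_of_le_normalizer hHP).mp hx
  have F3 : ∀ x ∈ P ⊔ H, ∀ z ∈ Zm, x * z = z * x := by
    intro x hx z hz
    obtain ⟨u, hu, h, hh, rfl⟩ := hdec x hx
    rw [mul_assoc, F2 h hh z hz, ← mul_assoc, F1 z hz u hu, mul_assoc]
  have F4 : ∀ a ∈ P, ∀ b ∈ P, a * b * a⁻¹ * b⁻¹ ∈ Zm := by
    intro a ha b hb
    have h1 : (⟨a, ha⟩ : P) * ⟨b, hb⟩ * (⟨a, ha⟩ : P)⁻¹ * (⟨b, hb⟩ : P)⁻¹ ∈ commutator ↥P :=
      Subgroup.commutator_mem_commutator (Subgroup.mem_top _) (Subgroup.mem_top _)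
    rw [hcomm] at h1
    exact Subgroup.mem_map.mpr ⟨_, h1, rfl⟩
  have F5 : ∀ z ∈ Zm, z ^ p = 1 := by
    intro z hz
    obtain ⟨hzP, hzc⟩ := (hZmem z).mp hz
    have h1 : (⟨⟨z, hzP⟩, hzc⟩ : Subgroup.center ↥P) ^ p = 1 := by
      rw [← hcardZ]; exact pow_card_eq_one'
    have h2 := congrArg (fun w : Subgroup.center ↥P => ((w : P) : G)) h1
    simpa using h2
  have hHPint : ∀ h ∈ H, h ∈ P → h = 1 := by
    intro h hh hhP
    have h1 : orderOf h ∣ Nat.card H := by
      have := orderOf_dvd_natCard (⟨h, hh⟩ : H)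
      rwa [Subgroup.orderOf_mk] at this
    obtain ⟨k, hk⟩ := (hPp ⟨h, hhP⟩)
    have h2 : h ^ p ^ k = 1 := by
      have := congrArg Subtype.val hk
      simpa using this
    have h3 : orderOf h ∣ p ^ k := orderOf_dvd_of_pow_eq_one h2
    have h4 : (Nat.card H).Coprime (p ^ k) := Nat.Coprime.pow_right k hcop
    have h5 : orderOf h = 1 := Nat.eq_one_of_dvd_coprimes h4 h1 h3
    exact orderOf_eq_one_iff.mp h5
  have hnorm : ∀ h ∈ H, ∀ g ∈ P, h * g * h⁻¹ ∈ P := by
    intro h hh g hg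
    exact (Subgroup.mem_normalizer_iff.mp (hHP hh) g).mp hg
  have F6 : ∀ x ∈ P ⊔ H, x ∉ P → ∀ g ∈ P, x * g * x⁻¹ * g⁻¹ ∈ Zm → g ∈ Zm := by
    intro x hx hxP g hg hxg
    obtain ⟨u, hu, h, hh, rfl⟩ := hdec x hx
    have hh1 : h ≠ 1 := by
      rintro rfl
      apply hxP; simpa using hu
    have hg' : h * g * h⁻¹ ∈ P := hnorm h hh g hg
    have hc := F4 u hu _ hg'
    set w : G := h * g * h⁻¹ * g⁻¹ with hw
    have hwZ : w ∈ Zm := by
      have h1 := Zm.mul_mem (Zm.inv_mem hc) hxg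
      have h2 : (u * (h * g * h⁻¹) * u⁻¹ * (h * g * h⁻¹)⁻¹)⁻¹ * (u * h * g * (u * h)⁻¹ * g⁻¹) = w := by
        rw [hw]; group
      rwa [h2] at h1
    have hconj : h * g * h⁻¹ = w * g := by rw [hw]; group
    have hpow : ∀ k : ℕ, h ^ k * g * (h ^ k)⁻¹ = w ^ k * g := by
      intro k
      induction k with
      | zero => simp
      | succ k ih =>
        have h1 : h ^ (k + 1) * g * (h ^ (k + 1))⁻¹ = h * (h ^ k * g * (h ^ k)⁻¹) * h⁻¹ := by
          rw [pow_succ']; group
        have hwk : h * w ^ k = w ^ k * h := F2 h hh _ (Zm.pow_mem hwZ k)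
        rw [h1, ih, ← mul_assoc, hwk, mul_assoc, mul_assoc, ← mul_assoc h g, hconj, pow_succ]
        group
    have h1 := hpow (orderOf h)
    rw [pow_orderOf_eq_one] at h1
    have h2 : w ^ orderOf h = 1 := by
      have : w ^ orderOf h * g = 1 * g := by rw [← h1]; simp
      exact mul_right_cancel this
    have h3 : orderOf w ∣ orderOf h := orderOf_dvd_of_pow_eq_one h2
    have h4 : orderOf w ∣ p := orderOf_dvd_of_pow_eq_one (F5 w hwZ)
    have h5 : orderOf h ∣ Nat.card H := by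
      have := orderOf_dvd_natCard (⟨h, hh⟩ : H)
      rwa [Subgroup.orderOf_mk] at this
    have h6 : orderOf w = 1 := Nat.eq_one_of_dvd_coprimes hcop (h3.trans h5) h4
    have hw1 : w = 1 := orderOf_eq_one_iff.mp h6
    rw [hw1, one_mul] at hconj
    have h7 : g ∈ P ⊓ Subgroup.centralizer {h} := by
      refine Subgroup.mem_inf.mpr ⟨hg, ?_⟩
      rw [Subgroup.mem_centralizer_iff]
      intro y hy
      rw [Set.mem_singleton_iff] at hy
      subst hy
      calc y * g = (y * g * y⁻¹) * y := by group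
        _ = g * y := by rw [hconj]
    rw [hfix h hh hh1] at h7
    exact h7
  -- pass to L = P ⊔ H
  set L : Subgroup G := P ⊔ H with hL
  have hPL : P ≤ L := le_sup_left
  have hHL : H ≤ L := le_sup_right
  set G' : Subgroup L := P.subgroupOf L with hG'
  have hG'n : G'.Normal := by
    rw [hG', Subgroup.normal_subgroupOf_iff_le_normalizer hPL]
    exact sup_le Subgroup.le_normalizer hHP
  let eP : G' ≃* P := Subgroup.subgroupOfEquivOfLe hPL
  have hES : Cfsg.IsExtraspecial p G' :=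
    Cfsg.Agent.Lib.Helper92.isExtraspecial_of_equiv eP.symm hP0
  obtain ⟨⟨-, -, hcomm'⟩, hcardZ'⟩ := hES
  have hn' : Nat.card G' = p ^ (2 * n + 1) := by
    rw [← hn]; exact Nat.card_congr eP.toEquiv
  have hcen : ∀ z : G', z ∈ Subgroup.center G' ↔ ((z : L) : G) ∈ Zm := by
    intro z
    have hzP : ((z : L) : G) ∈ P := Subgroup.mem_subgroupOf.mp z.2
    constructor
    · intro hz
      rw [hZmem]
      refine ⟨hzP, ?_⟩
      rw [Subgroup.mem_center_iff]
      intro u
      have := (Subgroup.mem_center_iff.mp hz)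
        ⟨⟨(u : G), hPL u.2⟩, Subgroup.mem_subgroupOf.mpr u.2⟩
      apply Subtype.ext
      exact congrArg (fun w : G' => ((w : L) : G)) this
    · intro hz
      rw [Subgroup.mem_center_iff]
      intro u
      apply Subtype.ext
      apply Subtype.ext
      exact F1 _ hz _ (Subgroup.mem_subgroupOf.mp u.2)
  have hne : G' ≠ ⊤ := by
    intro h
    apply hH1
    rw [eq_bot_iff]
    intro x hx
    have h1 : (⟨x, hHL hx⟩ : L) ∈ G' := by rw [h]; exact Subgroup.mem_top _
    rw [Subgroup.mem_bot]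
    exact hHPint x hx (Subgroup.mem_subgroupOf.mp h1)
  let f : H →* L ⧸ G' := (QuotientGroup.mk' G').comp (Subgroup.inclusion hHL)
  have hfs : Function.Surjective f := by
    intro q
    obtain ⟨x, rfl⟩ := QuotientGroup.mk_surjective q
    obtain ⟨u, hu, h, hh, hx⟩ := hdec x x.2
    refine ⟨⟨h, hh⟩, ?_⟩
    show ((⟨h, hHL hh⟩ : L) : L ⧸ G') = (x : L ⧸ G')
    rw [QuotientGroup.eq]
    rw [hG', Subgroup.mem_subgroupOf]
    show h⁻¹ * (x : G) ∈ P
    rw [hx]
    have := hnorm h⁻¹ (H.inv_mem hh) u hu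
    simpa [mul_assoc] using this
  have hfi : Function.Injective f := by
    rw [injective_iff_map_eq_one]
    intro h hh
    have h1 : ((⟨(h : G), hHL h.2⟩ : L) : L ⧸ G') = 1 := hh
    rw [QuotientGroup.eq_one_iff, hG', Subgroup.mem_subgroupOf] at h1
    exact Subtype.ext (hHPint h h.2 h1)
  have hcyc : IsCyclic (L ⧸ G') := isCyclic_of_surjective f hfs
  have hidx : G'.index = Nat.card H :=
    (Nat.card_congr (Equiv.ofBijective f ⟨hfi, hfs⟩)).symm
  have key := Cfsg.Agent.Lib.Helper4.fram_es hp G' hcomm' hcardZ' n hn' hne hcyc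
    (by
      intro x z hz
      apply Subtype.ext
      exact F3 x x.2 _ ((hcen z).mp hz))
    (by
      intro x hx g hz
      obtain ⟨z, hz, hzz⟩ := hz
      rw [hcen]
      apply F6 x x.2 (fun h => hx (Subgroup.mem_subgroupOf.mpr h)) _
        (Subgroup.mem_subgroupOf.mp g.2)
      have := congrArg (fun w : L => (w : G)) hzz
      simp only [Subgroup.coe_mul, Subgroup.coe_inv] at this
      rw [this]
      exact (hcen z).mp hz)
  rw [hidx] at key
  have hpn : 1 ≤ p ^ n := Nat.one_le_pow _ _ hp.pos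
  rcases key with h | h
  · right
    have : ((p ^ n - 1 : ℕ) : ℤ) = (p : ℤ) ^ n - 1 := by
      rw [Nat.cast_sub hpn]; simp
    rw [← this] at h
    exact_mod_cast h
  · left
    exact_mod_cast h

end Cfsg.Agent.S3767
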