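import Cfsg.Statements.S3768
import Cfsg.Agent.S0035

set_option autoImplicit false
set_option linter.style.haveILetI false
open Cfsg

namespace Cfsg.Agent.S3768

open scoped Pointwise
open Cfsg.Agent.S0035

/-- Let G be a finite Frobenius group with Frobenius complement R and Frobenius kernel K (the identity together with the elements in no conjugate of R), and let N be a normal subgroup of G not containing K. Then G/N is a Frobenius group with Frobenius complement RN/N whose Frobenius kernel is the image of K. -/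
theorem result {G : Type*} [Group G] [Finite G] (R : Subgroup G) (hR : Cfsg.IsFrobeniusComplement R) (N : Subgroup G) [N.Normal] (hKN : ¬ Cfsg.frobeniusKernel R ⊆ N) : Cfsg.IsFrobeniusComplement (R.map (QuotientGroup.mk' N)) ∧ Cfsg.frobeniusKernel (R.map (QuotientGroup.mk' N)) = QuotientGroup.mk' N '' Cfsg.frobeniusKernel R := by
  classical
  have hNn : N.Normal := inferInstance
  obtain ⟨K, hKset, hKn, hc⟩ := Cfsg.Agent.S0035.result R hR
  obtain ⟨hR1, hRtop, hTI⟩ := hR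
  have hmemK : ∀ x : G, x ∈ K ↔ x ∈ frobeniusKernel R := by
    intro x; rw [← hKset]; rfl
  have hdisj : ∀ x, x ∈ K → x ∈ R → x = 1 := by
    intro x hxK hxR
    exact (Subgroup.disjoint_def.1 hc.disjoint) hxK hxR
  have hfac : ∀ g : G, ∃ k ∈ K, ∃ r ∈ R, g = k * r := by
    intro g
    obtain ⟨⟨k, r⟩, hkr⟩ := hc.2 g
    exact ⟨k, k.2, r, r.2, hkr.symm⟩
  have hcent : ∀ r ∈ R, r ≠ 1 → ∀ k ∈ K, k * r * k⁻¹ = r → k = 1 := by
    intro r hr hr1 k hk hkr
    have h1 : k⁻¹ ∈ R := by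
      apply mem_of_conj_mem hTI hr hr1
      rw [inv_inv, hkr]; exact hr
    have h2 : k ∈ R := by simpa using R.inv_mem h1
    exact hdisj k hk h2
  have hinj : ∀ r ∈ R, r ≠ 1 → ∀ k1 ∈ K, ∀ k2 ∈ K, k1 * r * k1⁻¹ = k2 * r * k2⁻¹ → k1 = k2 := by
    intro r hr hr1 k1 hk1 k2 hk2 h
    have h1 : (k2⁻¹ * k1) * r * (k2⁻¹ * k1)⁻¹ = r := by
      have : (k2⁻¹ * k1) * r * (k2⁻¹ * k1)⁻¹ = k2⁻¹ * (k1 * r * k1⁻¹) * k2 := by group
      rw [this, h]; group
    have h2 := hcent r hr hr1 _ (K.mul_mem (K.inv_mem hk2) hk1) h1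
    exact (inv_mul_eq_one.1 h2).symm
  have hsurj : ∀ M : Subgroup G, M.Normal → M ≤ K → ∀ r ∈ R, r ≠ 1 → ∀ m ∈ M,
      ∃ m' ∈ M, m' * r * m'⁻¹ * r⁻¹ = m := by
    intro M hMn hMK r hr hr1 m hm
    let f : M → M := fun x => ⟨(x : G) * r * (x : G)⁻¹ * r⁻¹, by
      have h1 : r * (x : G)⁻¹ * r⁻¹ ∈ M := hMn.conj_mem _ (M.inv_mem x.2) r
      have h2 : (x : G) * r * (x : G)⁻¹ * r⁻¹ = (x : G) * (r * (x : G)⁻¹ * r⁻¹) := by group
      rw [h2]; exact M.mul_mem x.2 h1⟩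
    have hf : Function.Injective f := by
      intro x y hxy
      have h1 : (x : G) * r * (x : G)⁻¹ * r⁻¹ = (y : G) * r * (y : G)⁻¹ * r⁻¹ :=
        congrArg Subtype.val hxy
      have h2 := mul_right_cancel h1
      exact Subtype.ext (hinj r hr hr1 _ (hMK x.2) _ (hMK y.2) h2)
    obtain ⟨x, hx⟩ := (Finite.injective_iff_surjective.1 hf) ⟨m, hm⟩
    exact ⟨x, x.2, congrArg Subtype.val hx⟩
  have hNK : N ≤ K := by
    by_contra hcon
    obtain ⟨x, hxN, hxK⟩ := SetLike.not_le_iff_exists.1 hcon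
    rw [hmemK] at hxK
    have hx' : x ≠ 1 ∧ ∃ g : G, x ∈ MulAut.conj g • R := by
      unfold frobeniusKernel at hxK
      simp only [Set.mem_ofPred_eq, not_or, not_forall, not_not] at hxK
      exact hxK
    obtain ⟨hx1, g, hg⟩ := hx'
    rw [mem_conj_smul_iff] at hg
    have hrN : g⁻¹ * x * g ∈ N := by
      have := hNn.conj_mem x hxN g⁻¹
      rwa [inv_inv] at this
    have hr1 : g⁻¹ * x * g ≠ 1 := by
      intro e
      apply hx1
      have : x = g * (g⁻¹ * x * g) * g⁻¹ := by group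
      rw [this, e]; group
    apply hKN
    intro k hk
    rw [← hmemK] at hk
    obtain ⟨k', hk', e⟩ := hsurj K hKn le_rfl _ hg hr1 k hk
    rw [← e]
    exact N.mul_mem (hNn.conj_mem _ hrN k') (N.inv_mem hrN)
  have hmk : ∀ a b : G, (QuotientGroup.mk' N a = QuotientGroup.mk' N b) ↔ a⁻¹ * b ∈ N := by
    intro a b
    exact QuotientGroup.eq
  have hmk1 : ∀ a : G, (QuotientGroup.mk' N a = 1) ↔ a ∈ N := by
    intro a
    exact QuotientGroup.eq_one_iff a
  refine ⟨⟨?_, ?_, ?_⟩, ?_⟩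
  · -- nontrivial
    intro hbot
    apply hR1
    rw [eq_bot_iff]
    intro r hr
    have h1 : QuotientGroup.mk' N r ∈ R.map (QuotientGroup.mk' N) := Subgroup.mem_map_of_mem _ hr
    rw [hbot, Subgroup.mem_bot, hmk1] at h1
    rw [Subgroup.mem_bot]
    exact hdisj r (hNK h1) hr
  · -- proper
    intro htop
    apply hKN
    intro k hk
    rw [← hmemK] at hk
    have h1 : QuotientGroup.mk' N k ∈ R.map (QuotientGroup.mk' N) := by rw [htop]; trivial
    obtain ⟨r, hr, hrk⟩ := Subgroup.mem_map.1 h1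
    rw [hmk] at hrk
    have h2 : r ∈ K := by
      have h3 : r⁻¹ ∈ K := by
        have : r⁻¹ = (r⁻¹ * k) * k⁻¹ := by group
        rw [this]; exact K.mul_mem (hNK hrk) (K.inv_mem hk)
      simpa using K.inv_mem h3
    have h3 := hdisj r h2 hr
    rw [h3] at hrk
    simpa using hrk
  · -- TI
    intro gb hgb
    obtain ⟨g, rfl⟩ := QuotientGroup.mk'_surjective N gb
    obtain ⟨k, hk, r, hr, rfl⟩ := hfac g
    rw [eq_bot_iff]
    intro xb hxb
    obtain ⟨hx1, hx2⟩ := Subgroup.mem_inf.1 hxb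
    rw [mem_conj_smul_iff] at hx2
    obtain ⟨r1, hr1, rfl⟩ := Subgroup.mem_map.1 hx1
    obtain ⟨r2, hr2, he⟩ := Subgroup.mem_map.1 hx2
    rw [Subgroup.mem_bot]
    by_contra hne
    have hr1ne : r1 ≠ 1 := by
      rintro rfl
      exact hne (map_one _)
    rw [← map_inv, ← map_mul, ← map_mul, hmk] at he
    -- he : r2⁻¹ * ((k*r)⁻¹ * r1 * (k*r)) ∈ N
    have he2 : (r * r2 * r⁻¹)⁻¹ * (k⁻¹ * r1 * k) ∈ N := by
      have := hNn.conj_mem _ he r
      have e : r * (r2⁻¹ * ((k * r)⁻¹ * r1 * (k * r))) * r⁻¹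
          = (r * r2 * r⁻¹)⁻¹ * (k⁻¹ * r1 * k) := by group
      rwa [e] at this
    set r3 := r * r2 * r⁻¹ with hr3def
    have hr3 : r3 ∈ R := R.mul_mem (R.mul_mem hr hr2) (R.inv_mem hr)
    have h4 : r1⁻¹ * (k⁻¹ * r1 * k) ∈ K := by
      have h5 : r1⁻¹ * k⁻¹ * r1 ∈ K := by
        have := hKn.conj_mem _ (K.inv_mem hk) r1⁻¹
        rwa [inv_inv] at this
      have e : r1⁻¹ * (k⁻¹ * r1 * k) = (r1⁻¹ * k⁻¹ * r1) * k := by group
      rw [e]; exact K.mul_mem h5 hk
    have h6 : r3⁻¹ * r1 ∈ K := by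
      have e : r3⁻¹ * r1 = (r3⁻¹ * (k⁻¹ * r1 * k)) * (r1⁻¹ * (k⁻¹ * r1 * k))⁻¹ := by group
      rw [e]; exact K.mul_mem (hNK he2) (K.inv_mem h4)
    have h7 : r3⁻¹ * r1 = 1 := hdisj _ h6 (R.mul_mem (R.inv_mem hr3) hr1)
    have h8 : r3 = r1 := inv_mul_eq_one.1 h7
    rw [h8] at he2
    -- he2 : r1⁻¹ * (k⁻¹ * r1 * k) ∈ N
    have h9 : k⁻¹ * r1 * k⁻¹⁻¹ * r1⁻¹ ∈ N := by
      have := hNn.conj_mem _ he2 r1
      have e : r1 * (r1⁻¹ * (k⁻¹ * r1 * k)) * r1⁻¹ = k⁻¹ * r1 * k⁻¹⁻¹ * r1⁻¹ := by group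
      rwa [e] at this
    obtain ⟨m, hm, hme⟩ := hsurj N hNn hNK r1 hr1 hr1ne _ h9
    have h10 := hinj r1 hr1 hr1ne m (hNK hm) k⁻¹ (K.inv_mem hk) (mul_right_cancel hme)
    have hkN : k ∈ N := by
      have : k⁻¹ ∈ N := h10 ▸ hm
      simpa using N.inv_mem this
    apply hgb
    refine Subgroup.mem_map.2 ⟨r, hr, ?_⟩
    rw [hmk]
    have e : r⁻¹ * (k * r) = r⁻¹ * k * r⁻¹⁻¹ := by group
    rw [e]
    exact hNn.conj_mem _ hkN r⁻¹
  · -- kernel
    ext xb
    obtain ⟨x, rfl⟩ := QuotientGroup.mk'_surjective N xb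
    constructor
    · intro hx
      by_cases hxK : x ∈ frobeniusKernel R
      · exact ⟨x, hxK, rfl⟩
      · have hx' : x ≠ 1 ∧ ∃ g : G, x ∈ MulAut.conj g • R := by
          unfold frobeniusKernel at hxK
          simp only [Set.mem_ofPred_eq, not_or, not_forall, not_not] at hxK
          exact hxK
        obtain ⟨-, g, hg⟩ := hx'
        rw [mem_conj_smul_iff] at hg
        rcases hx with hx | hx
        · exact ⟨1, Or.inl rfl, by rw [hx, map_one]⟩
        · exfalso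
          apply hx (QuotientGroup.mk' N g)
          rw [mem_conj_smul_iff, ← map_inv, ← map_mul, ← map_mul]
          exact Subgroup.mem_map_of_mem _ hg
    · rintro ⟨k, hk, hkx⟩
      rw [← hkx]
      rw [← hmemK] at hk
      by_cases h1 : QuotientGroup.mk' N k = 1
      · exact Or.inl h1
      · right
        intro gb hgb
        obtain ⟨g, rfl⟩ := QuotientGroup.mk'_surjective N gb
        rw [mem_conj_smul_iff, ← map_inv, ← map_mul, ← map_mul] at hgb
        obtain ⟨r, hr, he⟩ := Subgroup.mem_map.1 hgb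
        rw [hmk] at he
        have h2 : g⁻¹ * k * g ∈ K := by
          have := hKn.conj_mem _ hk g⁻¹
          rwa [inv_inv] at this
        have h3 : r⁻¹ ∈ K := by
          have e : r⁻¹ = (r⁻¹ * (g⁻¹ * k * g)) * (g⁻¹ * k * g)⁻¹ := by group
          rw [e]; exact K.mul_mem (hNK he) (K.inv_mem h2)
        have h4 : r⁻¹ = 1 := hdisj _ h3 (R.inv_mem hr)
        rw [h4, one_mul] at he
        apply h1
        rw [hmk1]
        have := hNn.conj_mem _ he g
        have e : g * (g⁻¹ * k * g) * g⁻¹ = k := by group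
        rwa [e] at this

end Cfsg.Agent.S3768
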