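import Cfsg.Statements.S3771

set_option autoImplicit false
set_option linter.style.haveILetI false
open Cfsg

namespace Cfsg.Agent.S3771

open Subgroup

theorem mul_card_le_of_lt {R : Type*} [Group R] [Finite R] {p : ℕ} [hp : Fact p.Prime]
    (hR : IsPGroup p R) {H K : Subgroup R} (h : H < K) : p * Nat.card H ≤ Nat.card K := by
  obtain ⟨a, ha⟩ := IsPGroup.iff_card.1 (hR.to_subgroup H)
  obtain ⟨b, hb⟩ := IsPGroup.iff_card.1 (hR.to_subgroup K)
  have hlt : Nat.card H < Nat.card K := by
    rcases lt_or_ge (Nat.card H) (Nat.card K) with h1 | h1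
    · exact h1
    · exact absurd (eq_of_le_of_card_ge h.le h1) h.ne
  rw [ha, hb] at hlt ⊢
  have hab : a < b := (Nat.pow_lt_pow_iff_right hp.out.one_lt).1 hlt
  calc p * p ^ a = p ^ (a + 1) := by ring
    _ ≤ p ^ b := Nat.pow_le_pow_right hp.out.pos hab

/-- Let p be a prime and R a finite p-group of p-rank at most 2 (no elementary abelian subgroup of order p³) in which every element has order dividing p. Then R has order at most p³. -/
theorem result {R : Type*} [Group R] [Finite R] {p : ℕ} [Fact p.Prime] (hR : IsPGroup p R) (hrank : Cfsg.PRankLE p 2 R) (hexp : ∀ x : R, x ^ p = 1) : Nat.card R ≤ p ^ 3 := by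
  classical
  have hp : p.Prime := Fact.out
  by_contra hcon
  push Not at hcon
  have hRnt : Nontrivial R := by
    rw [← Finite.one_lt_card_iff_nontrivial]
    exact lt_of_le_of_lt (Nat.one_le_pow _ _ hp.pos) hcon
  -- a central element of order p
  haveI := hR.center_nontrivial
  obtain ⟨⟨z, hzc⟩, hz1⟩ := exists_ne (1 : center R)
  have hz1' : z ≠ 1 := fun h => hz1 (Subtype.ext h)
  have hzo : orderOf z = p := orderOf_eq_prime (hexp z) hz1'
  have hzcomm : ∀ r : R, r * z = z * r := fun r => mem_center_iff.1 hzc r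
  set Z₀ := zpowers z with hZ₀
  have hZ₀c : Z₀ ≤ center R := by
    rw [hZ₀, zpowers_le]; exact hzc
  haveI hZ₀n : Z₀.Normal := by
    constructor
    intro n hn g
    have := mem_center_iff.1 (hZ₀c hn) g
    rw [this, mul_inv_cancel_right]
    exact hn
  have hZ₀card : Nat.card Z₀ = p := by rw [hZ₀, Nat.card_zpowers, hzo]
  have hZ₀top : Z₀ ≠ ⊤ := by
    intro h
    have : Nat.card R = p := by rw [← hZ₀card, h, card_top]
    rw [this] at hcon
    have h3 : p ^ 1 ≤ p ^ 3 := Nat.pow_le_pow_right hp.pos (by norm_num)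
    rw [pow_one] at h3
    omega
  haveI : Nontrivial (R ⧸ Z₀) := QuotientGroup.nontrivial_iff.2 hZ₀top
  haveI := (hR.to_quotient Z₀).center_nontrivial
  obtain ⟨⟨ab, habc⟩, hab1⟩ := exists_ne (1 : center (R ⧸ Z₀))
  obtain ⟨a, rfl⟩ := QuotientGroup.mk'_surjective Z₀ ab
  have haZ : a ∉ Z₀ := by
    intro h
    apply hab1
    apply Subtype.ext
    exact (QuotientGroup.eq_one_iff a).2 h
  have hcomm : ∀ r : R, r * a * r⁻¹ * a⁻¹ ∈ Z₀ := by
    intro r
    rw [← QuotientGroup.eq_one_iff]
    have h1 := mem_center_iff.1 habc (QuotientGroup.mk' Z₀ r)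
    have h2 : ((r * a * r⁻¹ * a⁻¹ : R) : R ⧸ Z₀)
        = QuotientGroup.mk' Z₀ r * QuotientGroup.mk' Z₀ a * (QuotientGroup.mk' Z₀ r)⁻¹
          * (QuotientGroup.mk' Z₀ a)⁻¹ := rfl
    rw [h2, h1]
    group
  -- the commutator homomorphism
  let φ : R →* R := MonoidHom.mk' (fun r => r * a * r⁻¹ * a⁻¹) (by
    intro r s
    have hs := mem_center_iff.1 (hZ₀c (hcomm s))
    calc r * s * a * (r * s)⁻¹ * a⁻¹ = r * (s * a * s⁻¹ * a⁻¹) * (a * r⁻¹ * a⁻¹) := by group
      _ = (s * a * s⁻¹ * a⁻¹) * r * (a * r⁻¹ * a⁻¹) := by rw [hs r]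
      _ = (s * a * s⁻¹ * a⁻¹) * (r * a * r⁻¹ * a⁻¹) := by group
      _ = (r * a * r⁻¹ * a⁻¹) * (s * a * s⁻¹ * a⁻¹) := (hs _).symm)
  have hφ : ∀ r, φ r = r * a * r⁻¹ * a⁻¹ := fun r => rfl
  have hrange : φ.range ≤ Z₀ := by
    rintro _ ⟨r, rfl⟩
    exact hcomm r
  have hidx : φ.ker.index ≤ p := by
    rw [index_ker, ← hZ₀card]
    exact Nat.le_of_dvd Nat.card_pos (card_dvd_of_le hrange)
  have hkercard : p ^ 2 < Nat.card φ.ker := by
    have h1 := φ.ker.card_mul_index
    have h2 : Nat.card R ≤ Nat.card φ.ker * p := by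
      rw [← h1]; exact Nat.mul_le_mul_left _ hidx
    have h3 : p ^ 3 = p ^ 2 * p := by ring
    rw [h3] at hcon
    exact lt_of_mul_lt_mul_right (lt_of_lt_of_le hcon h2) (Nat.zero_le p)
  have hza : z * a = a * z := (hzcomm a).symm
  set A := closure ({z, a} : Set R) with hA
  have hAc : IsMulCommutative A := by
    apply isMulCommutative_closure
    rintro x (rfl | rfl) y (rfl | rfl)
    · rfl
    · exact hza
    · exact hza.symm
    · rfl
  have hAcard : Nat.card A ≤ p ^ 2 := hrank A hAc (fun x _ => hexp x)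
  obtain ⟨x, hxk, hxA⟩ : ∃ x ∈ φ.ker, x ∉ A := by
    by_contra h
    push Not at h
    have : φ.ker ≤ A := h
    have := Nat.le_of_dvd Nat.card_pos (card_dvd_of_le this)
    omega
  have hxa : x * a = a * x := by
    have h1 : x * a * x⁻¹ * a⁻¹ = 1 := hxk
    calc x * a = (x * a * x⁻¹ * a⁻¹) * (a * x) := by group
      _ = a * x := by rw [h1, one_mul]
  set B := closure ({z, a, x} : Set R) with hB
  have hBc : IsMulCommutative B := by
    apply isMulCommutative_closure
    rintro u (rfl | rfl | rfl) v (rfl | rfl | rfl)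
    · rfl
    · exact hza
    · exact (hzcomm v).symm
    · exact hza.symm
    · rfl
    · exact hxa.symm
    · exact hzcomm u
    · exact hxa
    · rfl
  have hBcard : Nat.card B ≤ p ^ 2 := hrank B hBc (fun x _ => hexp x)
  have h01 : Z₀ < A := by
    refine lt_of_le_of_ne ?_ ?_
    · rw [hZ₀, zpowers_le]; exact subset_closure (by simp)
    · intro h
      apply haZ
      rw [h]; exact subset_closure (by simp)
  have h12 : A < B := by
    refine lt_of_le_of_ne ?_ ?_
    · apply Subgroup.closure_mono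
      intro u hu
      rcases hu with rfl | rfl
      · simp
      · simp
    · intro h
      apply hxA
      rw [h]; exact subset_closure (by simp)
  have c1 := mul_card_le_of_lt hR h01
  have c2 := mul_card_le_of_lt hR h12
  rw [hZ₀card] at c1
  have c3 : p * (p * p) ≤ p ^ 2 := le_trans (le_trans (Nat.mul_le_mul_left p c1) c2) hBcard
  have c4 : p ^ 2 * 2 ≤ p ^ 2 * p := Nat.mul_le_mul_left _ hp.two_le
  have c5 : 0 < p ^ 2 := pow_pos hp.pos 2
  nlinarith

end Cfsg.Agent.S3771
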