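import Cfsg.Statements.S3773
import Cfsg.Agent.Lib.Helper71.Class2Sq
import Cfsg.Agent.Lib.Helper1.PGroup
import Cfsg.Agent.S0012
import Cfsg.Agent.S0013

set_option autoImplicit false
open Cfsg

namespace Cfsg.Agent.S3773

open Cfsg.Agent.Lib.Helper71
open scoped commutatorElement

theorem bound {G : Type*} [Group G] [Finite G] (N : Subgroup G) (hNmem : ∀ x, x ∈ N ↔ x * x = 1)
    (hkc : ∀ x y : G, x⁻¹ * y * x * y⁻¹ ∈ Subgroup.center G)
    (hk2 : ∀ x y : G, (x⁻¹ * y * x * y⁻¹) * (x⁻¹ * y * x * y⁻¹) = 1)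
    (hsqc : ∀ x : G, x * x ∈ Subgroup.center G) (h4 : ∀ x : G, x * x * (x * x) = 1) :
    Nat.card G ≤ Nat.card N * Nat.card (N ⊓ Subgroup.center G : Subgroup G) ^ 2 := by
  set Z0 : Subgroup G := N ⊓ Subgroup.center G with hZ0
  have hkZ : ∀ x y : G, x⁻¹ * y * x * y⁻¹ ∈ Z0 := fun x y => ⟨(hNmem _).2 (hk2 x y), hkc x y⟩
  have hsZ : ∀ x : G, x * x ∈ Z0 := fun x => ⟨(hNmem _).2 (h4 x), hsqc x⟩
  have hDZ : commutator G ≤ Z0 := commutator_le_of_forall Z0 hkZ
  obtain ⟨L, ⟨hZL, hLN⟩, hmax⟩ := exists_maximal_of_wellFoundedGT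
    (fun L : Subgroup G => Z0 ≤ L ∧ L ⊓ N = Z0) ⟨Z0, le_rfl, inf_eq_left.2 inf_le_left⟩
  haveI hLn : L.Normal := Subgroup.Normal.of_commutator_le G (hDZ.trans hZL)
  haveI hNn : N.Normal := Subgroup.Normal.of_commutator_le G (hDZ.trans inf_le_left)
  have htop : L ⊔ N = ⊤ := by
    rw [eq_top_iff]
    intro g _
    by_contra hg
    have hL' : Z0 ≤ L ⊔ Subgroup.zpowers g ∧ (L ⊔ Subgroup.zpowers g) ⊓ N = Z0 := by
      refine ⟨hZL.trans le_sup_left, le_antisymm ?_ (le_inf (hZL.trans le_sup_left) inf_le_left)⟩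
      rintro x ⟨hx1, hx2⟩
      rcases mem_sup_zpowers_of_sq_mem L g (hZL (hsZ g)) x hx1 with h | ⟨l, hl, rfl⟩
      · rw [← hLN]; exact ⟨h, hx2⟩
      · exfalso
        apply hg
        have : g = l⁻¹ * (l * g) := by group
        rw [this]
        exact Subgroup.mul_mem_sup (L.inv_mem hl) hx2
    have := hmax hL' le_sup_left
    exact hg (Subgroup.mem_sup_left (this (Subgroup.mem_sup_right (Subgroup.mem_zpowers g))))
  have hidx : N.index = Z0.relIndex L := by
    rw [← Subgroup.relIndex_top_right, ← htop, Subgroup.relIndex_sup_right, ← hLN,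
      Subgroup.inf_relIndex_left]
  have hle : Z0.relIndex L ≤ Nat.card Z0 ^ 2 := by
    by_contra hlt
    push Not at hlt
    obtain ⟨x, hxL, hxZ, hxx⟩ := exists_sq_mem L Z0 Z0 ⊥ hZL le_rfl bot_le
      (fun r hr u _ => ((Subgroup.mem_center_iff.1 hr.2) u).symm)
      (fun r hr => (hNmem r).1 hr.1) (fun x _ => hsZ x) (fun x _ y _ => hkZ x y)
      (by
        intro x _ m hm
        rw [Subgroup.mem_bot]
        have hmc : m * x = x * m := ((Subgroup.mem_center_iff.1 hm.2) x).symm
        have hmm : m * m = 1 := (hNmem m).1 hm.1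
        calc x * m * (x * m) * (x * x)⁻¹ = x * (m * x) * m * (x * x)⁻¹ := by group
          _ = x * x * (m * m) * (x * x)⁻¹ := by rw [hmc]; group
          _ = 1 := by rw [hmm]; group)
      (by rwa [Subgroup.relIndex_bot_left])
    apply hxZ
    rw [← hLN]
    exact ⟨hxL, (hNmem x).2 (Subgroup.mem_bot.1 hxx)⟩
  rw [← Subgroup.card_mul_index N, hidx]
  exact Nat.mul_le_mul_left _ hle

theorem central_inv_sq {G : Type*} [Group G] (x m : G) (hmc : m ∈ Subgroup.center G) :
    x * m * (x * m) * (x * x)⁻¹ = m * m := by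
  have h : m * x = x * m := ((Subgroup.mem_center_iff.1 hmc) x).symm
  have h2 : (m * m) * (x * x)⁻¹ = (x * x)⁻¹ * (m * m) :=
    ((Subgroup.mem_center_iff.1 ((Subgroup.center G).mul_mem hmc hmc)) _).symm
  calc x * m * (x * m) * (x * x)⁻¹ = x * (m * x) * m * (x * x)⁻¹ := by group
    _ = x * x * ((m * m) * (x * x)⁻¹) := by rw [h]; group
    _ = m * m := by rw [h2]; group

theorem strict_of_center {G : Type*} [Group G] [Finite G] (N : Subgroup G)
    (hNmem : ∀ x, x ∈ N ↔ x * x = 1) (hNc : N ≤ Subgroup.center G)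
    (hkN : ∀ x y : G, x⁻¹ * y * x * y⁻¹ ∈ N) (hsN : ∀ x : G, x * x ∈ N)
    (z : G) (hz : z ∈ Subgroup.center G) (hzN : z ∉ N) : Nat.card G < Nat.card N ^ 3 := by
  have hNn : N.Normal := Subgroup.Normal.of_commutator_le G (commutator_le_of_forall N hkN)
  set M : Subgroup G := N ⊔ Subgroup.zpowers z with hM
  set R0 : Subgroup G := Subgroup.zpowers (z * z) with hR0
  have hcardM : Nat.card M = 2 * Nat.card N :=
    Cfsg.Agent.Lib.Helper1.card_sup_zpowers_of_pow_mem Nat.prime_two N z hzN
      (by rw [pow_two]; exact hsN z)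
  have hR0N : R0 ≤ N := by
    rw [hR0, Subgroup.zpowers_le]; exact hsN z
  have hzz : (z * z) * (z * z) = 1 := (hNmem _).1 (hsN z)
  have hcardR0 : Nat.card R0 = 2 := by
    rw [hR0, Nat.card_zpowers]
    haveI : Fact (Nat.Prime 2) := ⟨Nat.prime_two⟩
    apply orderOf_eq_prime
    · rw [pow_two]; exact hzz
    · intro h; exact hzN ((hNmem z).2 h)
  have hrel : 2 * R0.relIndex N = Nat.card N := by
    have := Subgroup.relIndex_mul_relIndex (⊥ : Subgroup G) R0 N bot_le hR0N
    rwa [Subgroup.relIndex_bot_left, Subgroup.relIndex_bot_left, hcardR0] at this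
  have hle : M.index ≤ (R0.relIndex N) ^ 2 := by
    by_contra hlt
    push Not at hlt
    obtain ⟨x, -, hxM, hxx⟩ := exists_sq_mem ⊤ M N R0 le_top le_sup_left hR0N
      (fun r hr u _ => ((Subgroup.mem_center_iff.1 (hNc hr)) u).symm)
      (fun r hr => (hNmem r).1 hr) (fun x _ => hsN x) (fun x _ y _ => hkN x y)
      (by
        intro x _ m hm
        rcases mem_sup_zpowers_of_sq_mem N z (hsN z) m hm with h | ⟨n, hn, rfl⟩
        · rw [central_inv_sq x m (hNc h), (hNmem m).1 h]; exact R0.one_mem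
        · rw [central_inv_sq x (n * z) ((Subgroup.center G).mul_mem (hNc hn) hz)]
          have hzn : z * n = n * z := ((Subgroup.mem_center_iff.1 hz) n).symm
          have : n * z * (n * z) = z * z := by
            calc n * z * (n * z) = n * (z * n) * z := by group
              _ = (n * n) * (z * z) := by rw [hzn]; group
              _ = z * z := by rw [(hNmem n).1 hn, one_mul]
          rw [this]; exact Subgroup.mem_zpowers _)
      (by rwa [Subgroup.relIndex_top_right])
    have hxx' : x * x ∈ (⊥ : Subgroup G) ⊔ Subgroup.zpowers (z * z) := by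
      rw [bot_sup_eq]; exact hxx
    rcases mem_sup_zpowers_of_sq_mem ⊥ (z * z) (by rw [hzz]; exact Subgroup.one_mem _) _ hxx'
      with h | ⟨l, hl, h⟩
    · exact hxM (Subgroup.mem_sup_left ((hNmem x).2 (Subgroup.mem_bot.1 h)))
    · rw [Subgroup.mem_bot.1 hl, one_mul] at h
      apply hxM
      have hzi : z⁻¹ ∈ Subgroup.center G := (Subgroup.center G).inv_mem hz
      have h1 : x * z⁻¹ ∈ N := by
        rw [hNmem]
        have h2 := central_inv_sq x z⁻¹ hzi
        calc x * z⁻¹ * (x * z⁻¹) = (x * z⁻¹ * (x * z⁻¹) * (x * x)⁻¹) * (x * x) := by group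
          _ = 1 := by rw [h2, h]; group
      have : x = (x * z⁻¹) * z := by group
      rw [this]
      exact Subgroup.mul_mem_sup h1 (Subgroup.mem_zpowers z)
  have hr0 : 0 < R0.relIndex N := by
    rcases Nat.eq_zero_or_pos (R0.relIndex N) with h | h
    · rw [h] at hrel
      have : 0 < Nat.card N := Nat.card_pos
      omega
    · exact h
  rw [← Subgroup.card_mul_index M, hcardM, ← hrel]
  set r := R0.relIndex N
  calc 2 * (2 * r) * M.index ≤ 2 * (2 * r) * r ^ 2 := Nat.mul_le_mul_left _ hle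
    _ = 4 * r ^ 3 := by ring
    _ < 8 * r ^ 3 := by
        have : 0 < r ^ 3 := by positivity
        omega
    _ = (2 * r) ^ 3 := by ring

theorem strict_of_commutator {G : Type*} [Group G] [Finite G] (N : Subgroup G)
    (hNmem : ∀ x, x ∈ N ↔ x * x = 1) (hNc : N ≤ Subgroup.center G)
    (hkN : ∀ x y : G, x⁻¹ * y * x * y⁻¹ ∈ N) (hsN : ∀ x : G, x * x ∈ N)
    (hD : commutator G ≠ N) : Nat.card G < Nat.card N ^ 3 := by
  set D : Subgroup G := commutator G with hDdef
  have hDN : D ≤ N := commutator_le_of_forall N hkN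
  have hcardD : Nat.card D < Nat.card N := by
    by_contra h
    push Not at h
    exact hD (Subgroup.eq_of_le_of_card_ge hDN h)
  let φ : G →* N ⧸ D.subgroupOf N := MonoidHom.mk' (fun x => QuotientGroup.mk ⟨x * x, hsN x⟩) (by
    intro x y
    rw [← QuotientGroup.mk_mul, QuotientGroup.eq, Subgroup.mem_subgroupOf]
    change (x * y * (x * y))⁻¹ * (x * x * (y * y)) ∈ D
    have hc : (x⁻¹ * y * x * y⁻¹) * (y * y) = (y * y) * (x⁻¹ * y * x * y⁻¹) :=
      ((Subgroup.mem_center_iff.1 (hNc (hkN x y))) _).symm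
    have : (x * y * (x * y))⁻¹ * (x * x * (y * y)) = (x⁻¹ * y * x * y⁻¹)⁻¹ := by
      have e : x * y * (x * y) = x * x * ((x⁻¹ * y * x * y⁻¹) * (y * y)) := by group
      rw [e, hc]; group
    rw [this]
    exact D.inv_mem (kcomm_mem_commutator x y))
  set U : Subgroup G := φ.ker with hU
  have hUmem : ∀ x, x ∈ U ↔ x * x ∈ D := by
    intro x
    rw [hU, MonoidHom.mem_ker]
    change (QuotientGroup.mk (⟨x * x, hsN x⟩ : N) : N ⧸ D.subgroupOf N) = 1 ↔ _
    rw [QuotientGroup.eq_one_iff, Subgroup.mem_subgroupOf]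
  have hUidx : U.index ≤ D.relIndex N := by
    rw [hU, Subgroup.index_ker]
    exact Subgroup.card_le_card_group _
  have hNU : N ≤ U := by
    intro x hx
    rw [hUmem, (hNmem x).1 hx]; exact D.one_mem
  have hle : N.relIndex U ≤ Nat.card D ^ 2 := by
    by_contra hlt
    push Not at hlt
    obtain ⟨x, -, hxN, hxx⟩ := exists_sq_mem U N D ⊥ hNU hDN bot_le
      (fun r hr u _ => ((Subgroup.mem_center_iff.1 (hNc (hDN hr))) u).symm)
      (fun r hr => (hNmem r).1 (hDN hr)) (fun x hx => (hUmem x).1 hx)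
      (fun x _ y _ => kcomm_mem_commutator x y)
      (by
        intro x _ m hm
        rw [central_inv_sq x m (hNc hm), (hNmem m).1 hm]; exact Subgroup.one_mem _)
      (by rwa [Subgroup.relIndex_bot_left])
    exact hxN ((hNmem x).2 (Subgroup.mem_bot.1 hxx))
  have h1 : Nat.card N * N.relIndex U = Nat.card U := by
    have := Subgroup.relIndex_mul_relIndex (⊥ : Subgroup G) N U bot_le hNU
    rwa [Subgroup.relIndex_bot_left, Subgroup.relIndex_bot_left] at this
  have h2 : Nat.card D * D.relIndex N = Nat.card N := by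
    have := Subgroup.relIndex_mul_relIndex (⊥ : Subgroup G) D N bot_le hDN
    rwa [Subgroup.relIndex_bot_left, Subgroup.relIndex_bot_left] at this
  have hNpos : 0 < Nat.card N := Nat.card_pos
  rw [← Subgroup.card_mul_index U, ← h1]
  calc Nat.card N * N.relIndex U * U.index
      ≤ Nat.card N * Nat.card D ^ 2 * D.relIndex N :=
        Nat.mul_le_mul (Nat.mul_le_mul_left _ hle) hUidx
    _ = Nat.card N * Nat.card D * (Nat.card D * D.relIndex N) := by ring
    _ = Nat.card N * Nat.card N * Nat.card D := by rw [h2]; ring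
    _ < Nat.card N * Nat.card N * Nat.card N :=
        Nat.mul_lt_mul_of_pos_left hcardD (by positivity)
    _ = Nat.card N ^ 3 := by ring

/-- Let G be a finite 2-group of nilpotency class at most 2 and exponent dividing 4 in which the elements x with x² = 1 form a subgroup N. Then |G| ≤ |N|³, and |G| < |N|³ unless G is special. -/
theorem result {G : Type*} [Group G] [Finite G] (hG : IsPGroup 2 G) (hcl : (⊤ : Subgroup G).lowerCentralSeries 2 = ⊥) (hexp : ∀ x : G, x ^ 4 = 1) (hN : ∀ x y : G, x ^ 2 = 1 → y ^ 2 = 1 → (x * y) ^ 2 = 1) : Nat.card G ≤ Nat.card {x : G // x ^ 2 = 1} ^ 3 ∧ (¬ Cfsg.IsSpecial 2 G → Nat.card G < Nat.card {x : G // x ^ 2 = 1} ^ 3) := by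
  have hkc : ∀ x y : G, x⁻¹ * y * x * y⁻¹ ∈ Subgroup.center G := by
    intro x y
    rw [Subgroup.mem_center_iff]
    intro g
    have h1 : ⁅⁅x⁻¹, y⁆, g⁆ ∈ (⊤ : Subgroup G).lowerCentralSeries 2 := by
      rw [Subgroup.lowerCentralSeries_succ, Subgroup.lowerCentralSeries_succ,
        Subgroup.lowerCentralSeries_zero]
      exact Subgroup.commutator_mem_commutator
        (Subgroup.commutator_mem_commutator (Subgroup.mem_top _) (Subgroup.mem_top _))
        (Subgroup.mem_top _)
    rw [hcl, Subgroup.mem_bot, commutatorElement_eq_one_iff_mul_comm, commutatorElement_def,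
      inv_inv] at h1
    exact h1.symm
  obtain ⟨hk2, hsqc⟩ := class2_exp4 hkc hexp
  have h4 : ∀ x : G, x * x * (x * x) = 1 := by
    intro x
    have := hexp x
    simpa [pow_succ, mul_assoc] using this
  let N : Subgroup G :=
    { carrier := {x | x ^ 2 = 1}
      mul_mem' := fun {a b} ha hb => hN a b ha hb
      one_mem' := by simp
      inv_mem' := by
        intro x hx
        simpa using hx }
  have hNmem : ∀ x, x ∈ N ↔ x * x = 1 := by
    intro x
    change x ^ 2 = 1 ↔ _
    rw [pow_two]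
  have hcardN : Nat.card {x : G // x ^ 2 = 1} = Nat.card N := rfl
  rw [hcardN]
  have hb := bound N hNmem hkc hk2 hsqc h4
  have hNpos : 0 < Nat.card N := Nat.card_pos
  by_cases hNc : N ≤ Subgroup.center G
  · have hZ0 : N ⊓ Subgroup.center G = N := inf_eq_left.2 hNc
    rw [hZ0] at hb
    refine ⟨by calc Nat.card G ≤ Nat.card N * Nat.card N ^ 2 := hb
                 _ = Nat.card N ^ 3 := by ring, ?_⟩
    intro hns
    by_contra hnlt
    apply hns
    have hkN : ∀ x y : G, x⁻¹ * y * x * y⁻¹ ∈ N := fun x y => (hNmem _).2 (hk2 x y)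
    have hsN : ∀ x : G, x * x ∈ N := fun x => (hNmem _).2 (h4 x)
    have hD : commutator G = N := by
      by_contra hD
      exact hnlt (strict_of_commutator N hNmem hNc hkN hsN hD)
    have hZ : Subgroup.center G = N := by
      apply le_antisymm _ hNc
      intro z hz
      by_contra hzN
      exact hnlt (strict_of_center N hNmem hNc hkN hsN z hz hzN)
    haveI : Fact (Nat.Prime 2) := ⟨Nat.prime_two⟩
    have hNn : N.Normal := Subgroup.Normal.of_commutator_le G hD.le
    have hF : frattini G = N := by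
      apply le_antisymm
      · exact Cfsg.Agent.S0013.result 2 hG N hD.le (fun x => by rw [pow_two]; exact hsN x)
      · rw [← hD]; exact (Cfsg.Agent.S0012.result 2 hG).1
    exact ⟨hG, by rw [hF, hZ], by rw [hD, hZ]⟩
  · have hlt : Nat.card (N ⊓ Subgroup.center G : Subgroup G) < Nat.card N := by
      by_contra h
      push Not at h
      have := Subgroup.eq_of_le_of_card_ge (inf_le_left : N ⊓ Subgroup.center G ≤ N) h
      exact hNc (inf_eq_left.1 this)
    have hs : Nat.card G < Nat.card N ^ 3 := by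
      calc Nat.card G ≤ Nat.card N * Nat.card (N ⊓ Subgroup.center G : Subgroup G) ^ 2 := hb
        _ < Nat.card N * Nat.card N ^ 2 :=
            Nat.mul_lt_mul_of_pos_left (Nat.pow_lt_pow_left hlt (by norm_num)) hNpos
        _ = Nat.card N ^ 3 := by ring
    exact ⟨hs.le, fun _ => hs⟩

end Cfsg.Agent.S3773
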