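import Cfsg.Statements.S3774
import Mathlib.Tactic

set_option autoImplicit false
open Cfsg

namespace Cfsg.Agent.S3774

/-- the unique involution in the cyclic group generated by `x`. -/
noncomputable def inv2 {G : Type*} [Group G] (x : G) : G := x ^ (orderOf x / 2)

theorem inv2_spec {G : Type*} [Group G] [Finite G] (hG : IsPGroup 2 G) (x : G) (hx : x ≠ 1) :
    inv2 x ≠ 1 ∧ inv2 x ^ 2 = 1 := by
  obtain ⟨k, hk⟩ := hG x
  obtain ⟨j, _, hj⟩ := (Nat.dvd_prime_pow Nat.prime_two).1 (orderOf_dvd_of_pow_eq_one hk)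
  have hj0 : j ≠ 0 := by
    rintro rfl
    simp at hj
    exact hx hj
  obtain ⟨i, rfl⟩ : ∃ i, j = i + 1 := ⟨j - 1, by omega⟩
  have h2 : orderOf x / 2 = 2 ^ i := by
    rw [hj, pow_succ]; simp
  unfold inv2
  rw [h2]
  constructor
  · intro h
    have := orderOf_dvd_of_pow_eq_one h
    rw [hj] at this
    have h3 := Nat.le_of_dvd (by positivity) this
    rw [pow_succ] at h3
    have : 0 < 2 ^ i := by positivity
    omega
  · rw [← pow_mul, ← pow_succ, ← hj, pow_orderOf_eq_one]

theorem inv2_map {G : Type*} [Group G] (a : MulAut G) (x : G) : inv2 (a x) = a (inv2 x) := by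
  unfold inv2
  rw [MulEquiv.orderOf_eq, map_pow]

theorem dvd_of_two_pow_sub_one_dvd (k n : ℕ) (h : 2 ^ k - 1 ∣ 2 ^ n - 1) : k ∣ n := by
  have h1 : Nat.gcd (2 ^ k - 1) (2 ^ n - 1) = 2 ^ k - 1 := Nat.gcd_eq_left h
  rw [Nat.pow_sub_one_gcd_pow_sub_one] at h1
  have h2 : 2 ^ Nat.gcd k n = 2 ^ k := by
    have : 0 < 2 ^ Nat.gcd k n := by positivity
    have : 0 < 2 ^ k := by positivity
    omega
  have h3 : Nat.gcd k n = k := Nat.pow_right_injective (le_refl 2) h2
  rw [← h3]; exact Nat.gcd_dvd_right k n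

/-- Let G be a nontrivial finite 2-group whose automorphism group permutes the involutions of G transitively. Then every involution of G is central, so that the involutions together with 1 form the subgroup Ω₁(Z(G)), and if this subgroup has order q then |G| is a power of q. -/
theorem result {G : Type*} [Group G] [Finite G] [Nontrivial G] (hG : IsPGroup 2 G) (htrans : ∀ x y : G, x ≠ 1 → x ^ 2 = 1 → y ≠ 1 → y ^ 2 = 1 → ∃ a : MulAut G, a x = y) : (∀ x : G, x ^ 2 = 1 → x ∈ Subgroup.center G) ∧ ∃ m : ℕ, Nat.card G = Nat.card {z : G // z ^ 2 = 1} ^ m := by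
  classical
  haveI : Fact (Nat.Prime 2) := ⟨Nat.prime_two⟩
  haveI := Fintype.ofFinite G
  -- a central involution
  obtain ⟨z0, hz0c, hz01, hz02⟩ : ∃ z : G, z ∈ Subgroup.center G ∧ z ≠ 1 ∧ z ^ 2 = 1 := by
    haveI := hG.center_nontrivial
    obtain ⟨z, hz⟩ := exists_ne (1 : Subgroup.center G)
    have hz' : (z : G) ≠ 1 := fun h => hz (Subtype.ext h)
    refine ⟨inv2 (z : G), ?_, (inv2_spec hG _ hz').1, (inv2_spec hG _ hz').2⟩
    exact Subgroup.pow_mem _ z.2 _
  have hcent : ∀ x : G, x ^ 2 = 1 → x ∈ Subgroup.center G := by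
    intro x hx
    by_cases hx1 : x = 1
    · rw [hx1]; exact Subgroup.one_mem _
    · obtain ⟨a, ha⟩ := htrans z0 x hz01 hz02 hx1 hx
      rw [← ha, Subgroup.mem_center_iff]
      intro g
      have := (Subgroup.mem_center_iff.1 hz0c) (a.symm g)
      have h2 := congrArg a this
      simpa using h2
  refine ⟨hcent, ?_⟩
  -- the subgroup of involutions
  let N : Subgroup G :=
    { carrier := {z | z ^ 2 = 1}
      one_mem' := by simp
      mul_mem' := by
        intro a b ha hb
        have hac := Subgroup.mem_center_iff.1 (hcent a ha)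
        simp only [Set.mem_setOf_eq] at *
        have : Commute a b := (hac b).symm
        rw [this.mul_pow, ha, hb, one_mul]
      inv_mem' := by
        intro a ha
        simp only [Set.mem_setOf_eq] at *
        rw [inv_pow, ha, inv_one] }
  have hNcard : Nat.card {z : G // z ^ 2 = 1} = Nat.card N := rfl
  obtain ⟨k, hk⟩ := (IsPGroup.iff_card (p := 2)).1 (hG.to_subgroup N)
  obtain ⟨n, hn⟩ := (IsPGroup.iff_card (p := 2)).1 hG
  rw [hNcard, hk, hn]
  -- counting
  let s : Finset G := Finset.univ.filter (fun x => x ≠ 1)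
  let t : Finset G := Finset.univ.filter (fun x => x ≠ 1 ∧ x ^ 2 = 1)
  have hst : ∀ x ∈ s, inv2 x ∈ t := by
    intro x hx
    simp only [s, t, Finset.mem_filter, Finset.mem_univ, true_and] at hx ⊢
    exact inv2_spec hG x hx
  have hcount := Finset.card_eq_sum_card_fiberwise hst
  have hfib : ∀ b ∈ t, (s.filter (fun x => inv2 x = b)).card = (s.filter (fun x => inv2 x = z0)).card := by
    intro b hb
    simp only [t, Finset.mem_filter, Finset.mem_univ, true_and] at hb
    obtain ⟨a, ha⟩ := htrans b z0 hb.1 hb.2 hz01 hz02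
    apply Finset.card_bij (fun x _ => a x)
    · intro x hx
      simp only [s, Finset.mem_filter, Finset.mem_univ, true_and] at hx ⊢
      refine ⟨?_, ?_⟩
      · intro h; apply hx.1
        have : a x = a 1 := by rw [h, map_one]
        exact a.injective this
      · rw [inv2_map, hx.2, ha]
    · intro x _ y _ h
      exact a.injective h
    · intro y hy
      simp only [s, Finset.mem_filter, Finset.mem_univ, true_and] at hy ⊢
      refine ⟨a.symm y, ⟨?_, ?_⟩, by simp⟩
      · intro h; apply hy.1
        have : a (a.symm y) = a 1 := by rw [h]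
        simpa using this
      · apply a.injective
        rw [← inv2_map]; simp [hy.2, ha]
  rw [Finset.sum_congr rfl hfib, Finset.sum_const, smul_eq_mul] at hcount
  have hs : s.card = 2 ^ n - 1 := by
    have : s = Finset.univ.erase 1 := by
      ext x; simp [s]
    rw [this, Finset.card_erase_of_mem (Finset.mem_univ _), Finset.card_univ, ← Nat.card_eq_fintype_card, hn]
  have ht : t.card = 2 ^ k - 1 := by
    have h1 : t = (Finset.univ.filter (fun x : G => x ^ 2 = 1)).erase 1 := by
      ext x; simp [t]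
    have h2 : (Finset.univ.filter (fun x : G => x ^ 2 = 1)).card = 2 ^ k := by
      rw [← hk, ← hNcard, Nat.card_eq_fintype_card, Fintype.card_subtype]
    rw [h1, Finset.card_erase_of_mem (by simp), h2]
  rw [hs, ht] at hcount
  obtain ⟨m, hm⟩ := dvd_of_two_pow_sub_one_dvd k n (Dvd.intro _ hcount.symm)
  exact ⟨m, by rw [hm, pow_mul]⟩

end Cfsg.Agent.S3774
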