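import Cfsg.Statements.S3777
import Cfsg.Agent.Lib.Helper72.PHom
import Cfsg.Agent.Lib.Helper72.CommBound

set_option autoImplicit false
open Cfsg

namespace Cfsg.Agent.S3777

open Subgroup Cfsg.Agent.Lib.Helper72
open scoped commutatorElement

set_option linter.style.haveILetI false

variable {G : Type*} [Group G] {p : ℕ} [Fact p.Prime]

/-- a subgroup of index `p` together with an outside element generates -/
theorem sup_zpowers_eq_top [Finite G] (hG : IsPGroup p G) {H : Subgroup G} (hH : H.index = p)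
    {a : G} (ha : a ∉ H) : H ⊔ zpowers a = ⊤ := by
  have hp : p.Prime := Fact.out
  have hlt : H < H ⊔ zpowers a := by
    refine lt_of_le_of_ne le_sup_left ?_
    intro h
    apply ha
    rw [h]
    exact (le_sup_right : zpowers a ≤ H ⊔ zpowers a) (mem_zpowers a)
  have h1 := pgroup_index_of_lt hG hlt
  rw [hH] at h1
  have h2 : (H ⊔ zpowers a).index ≤ 1 := by
    by_contra hcon
    push Not at hcon
    have : p * 2 ≤ p * (H ⊔ zpowers a).index := Nat.mul_le_mul_left _ hcon
    have := hp.pos
    omega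
  have h3 : (H ⊔ zpowers a).index ≠ 0 := index_ne_zero_of_finite
  rw [← index_eq_one]
  omega

/-- if `v ∈ H` (`H` normal of index `p`) commutes with an element outside `H`, then `v` is central
modulo `H'` -/
theorem mem_cenMod_of_comm [Finite G] (hG : IsPGroup p G) {H : Subgroup G} [H.Normal]
    (hH : H.index = p) {v g : G} (hv : v ∈ H) (hg : g ∉ H) (hvg : ⁅g, v⁆ ∈ ⁅H, H⁆) :
    v ∈ cenMod ⁅H, H⁆ := by
  have h1 : H ⊔ zpowers g ≤ DZ ⊤ ⁅H, H⁆ v := by
    rw [sup_le_iff, zpowers_le]
    constructor
    · intro h hh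
      exact ⟨mem_top h, commutator_mem_commutator hh hv⟩
    · exact ⟨mem_top g, hvg⟩
  rw [sup_zpowers_eq_top hG hH hg] at h1
  rw [mem_cenMod]
  intro y
  have := (h1 (mem_top y)).2
  rw [← commutatorElement_inv]
  exact inv_mem this

/-- The subgroup `R` attached to a maximal subgroup `H = ker α` with `H' < G'`. -/
theorem exists_R [Finite G] (hG : IsPGroup p G) (α : G →* Cp p) (hα : α ≠ 1)
    (hred : ¬ commutator G ≤ ⁅α.ker, α.ker⁆) :
    ∃ R : Subgroup G, R ≤ α.ker ∧ Nat.card R * p = Nat.card α.ker ∧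
      ∀ v ∈ α.ker, v ∉ R → centralizer {v} ≤ α.ker := by
  have hp : p.Prime := Fact.out
  set H := α.ker with hHdef
  have hH : H.index = p := index_ker_of_ne_one hα
  obtain ⟨a, ha⟩ : ∃ a, a ∉ H := by
    by_contra hcon
    push Not at hcon
    apply hα
    ext g
    have := hcon g
    rw [hHdef, MonoidHom.mem_ker] at this
    rw [this, MonoidHom.one_apply]
  set D : Subgroup G := H ⊓ cenMod ⁅H, H⁆ with hD
  have hDH : ¬ H ≤ D := by
    intro hle
    apply hred
    have h1 : H ≤ cenMod ⁅H, H⁆ := hle.trans inf_le_right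
    have h2 : a ∈ cenMod ⁅H, H⁆ := by
      have h3 : H ⊔ zpowers a ≤ DZ ⊤ ⁅H, H⁆ a := by
        rw [sup_le_iff, zpowers_le]
        constructor
        · intro h hh
          exact ⟨mem_top h, mem_cenMod.1 (h1 hh) a⟩
        · refine ⟨mem_top a, ?_⟩
          rw [commutatorElement_self]
          exact one_mem _
      rw [sup_zpowers_eq_top hG hH ha] at h3
      rw [mem_cenMod]
      intro y
      have := (h3 (mem_top y)).2
      rw [← commutatorElement_inv]
      exact inv_mem this
    have h4 : (⊤ : Subgroup G) ≤ cenMod ⁅H, H⁆ := by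
      rw [← sup_zpowers_eq_top hG hH ha, sup_le_iff, zpowers_le]
      exact ⟨h1, h2⟩
    rw [_root_.commutator_def, commutator_le]
    intro x _ y _
    exact mem_cenMod.1 (h4 (mem_top x)) y
  have hJ : D.subgroupOf H ≠ ⊤ := by
    rw [Ne, subgroupOf_eq_top]
    exact hDH
  obtain ⟨κ, hκ, hJκ⟩ := exists_hom_of_ne_top (hG.to_subgroup H) hJ
  refine ⟨κ.ker.map H.subtype, ?_, ?_, ?_⟩
  · exact map_subtype_le _
  · rw [card_map_of_injective H.subtype_injective]
    have h1 := card_mul_index κ.ker
    rwa [index_ker_of_ne_one hκ] at h1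
  · intro v hv hvR g hg
    by_contra hgH
    apply hvR
    have h1 : v ∈ cenMod ⁅H, H⁆ := by
      apply mem_cenMod_of_comm hG hH hv hgH
      rw [mem_centralizer_singleton_iff] at hg
      have : ⁅g, v⁆ = 1 := by
        rw [commutatorElement_eq_one_iff_mul_comm]
        exact hg
      rw [this]
      exact one_mem _
    have h2 : (⟨v, hv⟩ : H) ∈ D.subgroupOf H := by
      rw [mem_subgroupOf]
      exact ⟨hv, h1⟩
    exact ⟨⟨v, hv⟩, hJκ h2, rfl⟩

/-- inclusion–exclusion for `H ∖ (R ∪ K)` -/
theorem count_T [Finite G] (H R K : Subgroup G) (hRH : R ≤ H) :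
    Set.ncard {v : G | v ∈ H ∧ v ∉ R ∧ v ∉ K} + Nat.card R + Nat.card (H ⊓ K : Subgroup G) =
      Nat.card H + Nat.card (R ⊓ K : Subgroup G) := by
  have e1 : {v : G | v ∈ H ∧ v ∉ R ∧ v ∉ K} =
      (H : Set G) \ ((R : Set G) ∪ ((H ⊓ K : Subgroup G) : Set G)) := by
    ext v
    simp only [Set.mem_ofPred_eq, Set.mem_sdiff, SetLike.mem_coe, Set.mem_union, mem_inf]
    tauto
  have hsub : ((R : Set G) ∪ ((H ⊓ K : Subgroup G) : Set G)) ⊆ (H : Set G) := by
    intro v hv
    rcases hv with hv | hv
    · exact hRH hv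
    · exact hv.1
  have h1 := Set.ncard_sdiff_add_ncard_of_subset hsub (Set.toFinite _)
  have h2 := Set.ncard_union_add_ncard_inter (R : Set G) ((H ⊓ K : Subgroup G) : Set G)
    (Set.toFinite _) (Set.toFinite _)
  have e2 : (R : Set G) ∩ ((H ⊓ K : Subgroup G) : Set G) = ((R ⊓ K : Subgroup G) : Set G) := by
    ext v
    simp only [Set.mem_inter_iff, SetLike.mem_coe, mem_inf]
    constructor
    · rintro ⟨h1, -, h3⟩
      exact ⟨h1, h3⟩
    · rintro ⟨h1, h3⟩
      exact ⟨h1, hRH h1, h3⟩
  have c : ∀ L : Subgroup G, (L : Set G).ncard = Nat.card L := fun L =>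
    (Nat.card_coe_set_eq (L : Set G)).symm
  rw [e2, c, c, c] at h2
  rw [c] at h1
  rw [e1]
  omega

theorem card_inf_mul_relIndex (H K : Subgroup G) :
    Nat.card (H ⊓ K : Subgroup G) * H.relIndex K = Nat.card K := by
  have h := relIndex_mul_relIndex ⊥ (H ⊓ K) K bot_le inf_le_right
  rwa [relIndex_bot_left, relIndex_bot_left, inf_relIndex_right] at h

/-- numerical lower bound for `|H ∖ (R ∪ K)|` -/
theorem count_lower [Finite G] (hG : IsPGroup p G) (H R K : Subgroup G) [H.Normal] [K.Normal]
    (hH : H.index = p) (hK : K.index = p) (hKH : ¬ K ≤ H) (hRH : R ≤ H)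
    (hR : Nat.card R * p = Nat.card H) :
    p ^ 2 * Nat.card G + Nat.card G ≤
      p ^ 3 * Set.ncard {v : G | v ∈ H ∧ v ∉ R ∧ v ∉ K} + 2 * p * Nat.card G := by
  have hp : p.Prime := Fact.out
  have h1 := count_T H R K hRH
  have h2 : Nat.card H * p = Nat.card G := hH ▸ card_mul_index H
  have h3 : Nat.card K * p = Nat.card G := hK ▸ card_mul_index K
  have h4 : H.relIndex K = p := by
    obtain ⟨k, hkK, hkH⟩ := SetLike.not_le_iff_exists.1 hKH
    have : K ⊔ H = ⊤ := by
      rw [eq_top_iff, ← sup_zpowers_eq_top hG hH hkH, sup_comm]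
      exact sup_le_sup_right ((zpowers_le).2 hkK) H
    rw [← relIndex_sup_right, this, relIndex_top_right, hH]
  have h5 : Nat.card (H ⊓ K : Subgroup G) * p = Nat.card K := h4 ▸ card_inf_mul_relIndex H K
  have h6 : Nat.card R ≤ Nat.card (R ⊓ K : Subgroup G) * p := by
    have e := card_inf_mul_relIndex K R
    rw [inf_comm] at e
    rw [← e]
    apply Nat.mul_le_mul_left
    have : K.relIndex R ∣ K.index := relIndex_dvd_index_of_normal K R
    rw [hK] at this
    exact Nat.le_of_dvd hp.pos this
  set T := Set.ncard {v : G | v ∈ H ∧ v ∉ R ∧ v ∉ K}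
  set rr := Nat.card R
  set rk := Nat.card (R ⊓ K : Subgroup G)
  set hk := Nat.card (H ⊓ K : Subgroup G)
  have h7 : hk = rr := by
    have : hk * p * p = rr * p * p := by rw [h5, h3, hR, h2]
    exact Nat.eq_of_mul_eq_mul_right hp.pos (Nat.eq_of_mul_eq_mul_right hp.pos this)
  rw [← h2, ← hR]
  rw [h7, ← hR] at h1
  have e1 : p ^ 3 * T + 2 * p * (rr * p * p) = p ^ 3 * (T + rr + rr) := by ring
  rw [e1, h1]
  have e2 : p ^ 3 * (rr * p + rk) = p ^ 2 * (rr * p * p) + p ^ 2 * (rk * p) := by ring
  rw [e2]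
  apply Nat.add_le_add_left
  calc rr * p * p = p ^ 2 * rr := by ring
    _ ≤ p ^ 2 * (rk * p) := Nat.mul_le_mul_left _ h6

/-- **Counting lemma.** In a finite `p`-group all of whose maximal subgroups `H` satisfy
`H' < G'`, outside every maximal subgroup there is `v` with `C_G(v) ≤ ⟨v⟩Φ`. -/
theorem exists_good [Finite G] (hG : IsPGroup p G)
    (hred : ∀ α : G →* Cp p, α ≠ 1 → ¬ commutator G ≤ ⁅α.ker, α.ker⁆)
    (κ : G →* Cp p) (hκ : κ ≠ 1) :
    ∃ v, v ∉ κ.ker ∧ centralizer {v} ≤ phiP p G ⊔ zpowers v := by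
  classical
  by_contra hcon
  push Not at hcon
  have hp : p.Prime := Fact.out
  haveI : Fintype G := Fintype.ofFinite G
  haveI : Fintype (G →* Cp p) := Fintype.ofFinite _
  set K := κ.ker with hK
  have hKidx : K.index = p := index_ker_of_ne_one hκ
  have hexR : ∀ α : G →* Cp p, ∃ R : Subgroup G, α ≠ 1 → (R ≤ α.ker ∧
      Nat.card R * p = Nat.card α.ker ∧ ∀ v ∈ α.ker, v ∉ R → centralizer {v} ≤ α.ker) := by
    intro α
    by_cases h : α = 1
    · exact ⟨⊥, fun h' => absurd h h'⟩
    · obtain ⟨R, hR⟩ := exists_R hG α h (hred α h)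
      exact ⟨R, fun _ => hR⟩
  choose R hR using hexR
  set n := Nat.card G with hn
  set x := Nat.card (G →* Cp p) with hx
  let 𝒳 : Finset (G →* Cp p) := Finset.univ.filter (fun α => ¬ K ≤ α.ker)
  let 𝒱 : Finset G := Finset.univ.filter (fun v => v ∉ K)
  let r : (G →* Cp p) → G → Prop := fun α v => v ∈ α.ker ∧ v ∉ R α
  have hdc := Finset.sum_card_bipartiteAbove_eq_sum_card_bipartiteBelow r (s := 𝒳) (t := 𝒱)
  have hne1 : ∀ α ∈ 𝒳, α ≠ 1 := by
    intro α hα h
    rw [Finset.mem_filter] at hα
    apply hα.2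
    rw [h, MonoidHom.ker_one]
    exact le_top
  -- (1)
  have h1 : ∀ α ∈ 𝒳, p ^ 2 * n + n ≤ p ^ 3 * (Finset.bipartiteAbove r 𝒱 α).card + 2 * p * n := by
    intro α hα
    have hα1 := hne1 α hα
    obtain ⟨hR1, hR2, -⟩ := hR α hα1
    have hKα : ¬ K ≤ α.ker := (Finset.mem_filter.1 hα).2
    have := count_lower hG α.ker (R α) K (index_ker_of_ne_one hα1) hKidx hKα hR1 hR2
    have e : (Finset.bipartiteAbove r 𝒱 α).card =
        Set.ncard {v : G | v ∈ α.ker ∧ v ∉ R α ∧ v ∉ K} := by
      rw [← Set.ncard_coe_finset]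
      congr 1
      ext v
      simp only [Finset.bipartiteAbove, Finset.coe_filter, Finset.mem_filter, Finset.mem_univ,
        true_and, Set.mem_ofPred_eq, 𝒱, r]
      tauto
    rw [e]
    exact this
  -- (2)
  have h2 : ∀ v ∈ 𝒱, p ^ 2 * ((Finset.bipartiteBelow r 𝒳 v).card + 1) ≤ x := by
    intro v hv
    have hvK : v ∉ K := (Finset.mem_filter.1 hv).2
    set 𝓗 := Finset.bipartiteBelow r 𝒳 v with h𝓗
    have hmem : ∀ α ∈ 𝓗, α ∈ 𝒳 ∧ v ∈ α.ker ∧ v ∉ R α := by
      intro α hα
      rw [h𝓗, Finset.bipartiteBelow, Finset.mem_filter] at hα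
      exact hα
    set I : Subgroup G := ⨅ α ∈ 𝓗, α.ker with hI
    have hIle : ∀ α ∈ 𝓗, I ≤ α.ker := fun α hα => iInf₂_le α hα
    set L : Subgroup G := phiP p G ⊔ zpowers v with hL
    have hLI : L ≤ I := by
      rw [hI]
      refine le_iInf₂ fun α hα => ?_
      rw [hL, sup_le_iff, zpowers_le]
      exact ⟨phiP_le_ker α, (hmem α hα).2.1⟩
    have hCI : centralizer {v} ≤ I := by
      rw [hI]
      refine le_iInf₂ fun α hα => ?_
      obtain ⟨h1, h2, h3⟩ := hmem α hα
      exact (hR α (hne1 α h1)).2.2 v h2 h3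
    have hLlt : L < I := by
      refine lt_of_le_of_ne hLI ?_
      intro h
      exact hcon v hvK (h.symm ▸ hCI : centralizer {v} ≤ L)
    have hΦlt : phiP p G < L := by
      refine lt_of_le_of_ne le_sup_left ?_
      intro h
      apply hvK
      apply phiP_le_ker κ
      rw [h]
      exact (le_sup_right : zpowers v ≤ L) (mem_zpowers v)
    have e1 := pgroup_index_of_lt hG hLlt
    have e2 := pgroup_index_of_lt hG hΦlt
    rw [index_phiP hG] at e2
    have e3 : 𝓗.card + 1 ≤ I.index := by
      refine le_trans ?_ (card_annih_le hG I)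
      have h1n : (1 : G →* Cp p) ∉ 𝓗 := fun h => hne1 1 (hmem 1 h).1 rfl
      rw [← Finset.card_insert_of_notMem h1n]
      calc (insert 1 𝓗).card = ((insert 1 𝓗 : Finset (G →* Cp p)) : Set (G →* Cp p)).ncard :=
            (Set.ncard_coe_finset _).symm
        _ ≤ ((annih p I : Subgroup (G →* Cp p)) : Set (G →* Cp p)).ncard := by
            apply Set.ncard_le_ncard _ (Set.toFinite _)
            intro α hα
            rw [Finset.mem_coe, Finset.mem_insert] at hα
            rcases hα with rfl | hα
            · exact one_mem _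
            · exact hIle α hα
        _ = Nat.card (annih p I) := (Nat.card_coe_set_eq _).symm
    calc p ^ 2 * (𝓗.card + 1) ≤ p ^ 2 * I.index := Nat.mul_le_mul_left _ e3
      _ = p * (p * I.index) := by ring
      _ ≤ p * L.index := Nat.mul_le_mul_left _ e1
      _ ≤ x := e2
  -- (3)
  have h3 : x ≤ 𝒳.card + p := by
    have e1 := Finset.card_filter_add_card_filter_not (s := (Finset.univ : Finset (G →* Cp p)))
      (fun α => K ≤ α.ker)
    rw [Finset.card_univ, ← Nat.card_eq_fintype_card] at e1
    have e2 : (Finset.univ.filter (fun α : G →* Cp p => K ≤ α.ker)).card ≤ p := by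
      have e0 := card_annih_le hG K
      rw [hKidx] at e0
      refine le_trans (le_of_eq ?_) e0
      rw [← Set.ncard_coe_finset]
      refine Eq.trans ?_ (Nat.card_coe_set_eq ((annih p K : Subgroup (G →* Cp p)) :
        Set (G →* Cp p))).symm
      congr 1
      ext α
      simp [mem_annih]
    have e3 : (Finset.univ.filter (fun α : G →* Cp p => ¬ K ≤ α.ker)) = 𝒳 := rfl
    rw [e3] at e1
    omega
  -- (4)
  have h4 : p * 𝒱.card + n = p * n := by
    have e1 := Finset.card_filter_add_card_filter_not (s := (Finset.univ : Finset G))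
      (fun v => v ∈ K)
    rw [Finset.card_univ, ← Nat.card_eq_fintype_card] at e1
    have e2 : (Finset.univ.filter (fun v : G => v ∈ K)).card = Nat.card K := by
      rw [← Set.ncard_coe_finset]
      refine Eq.trans ?_ (Nat.card_coe_set_eq (K : Set G)).symm
      congr 1
      ext v
      simp
    have e3 : (Finset.univ.filter (fun v : G => v ∉ K)) = 𝒱 := rfl
    have e4 : Nat.card K * p = n := hKidx ▸ card_mul_index K
    rw [e3, e2] at e1
    calc p * 𝒱.card + n = p * 𝒱.card + Nat.card K * p := by rw [e4]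
      _ = p * (Nat.card K + 𝒱.card) := by ring
      _ = p * n := by rw [e1]
  -- sums
  set Sm := ∑ α ∈ 𝒳, (Finset.bipartiteAbove r 𝒱 α).card with hSm
  have s1 : 𝒳.card * (p ^ 2 * n + n) ≤ p ^ 3 * Sm + 𝒳.card * (2 * p * n) := by
    have := Finset.card_nsmul_le_sum 𝒳
      (fun α => p ^ 3 * (Finset.bipartiteAbove r 𝒱 α).card + 2 * p * n) (p ^ 2 * n + n) h1
    rw [Finset.sum_add_distrib, ← Finset.mul_sum, Finset.sum_const, smul_eq_mul, smul_eq_mul]
      at this
    exact this
  have s2 : p ^ 2 * (Sm + 𝒱.card) ≤ 𝒱.card * x := by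
    have := Finset.sum_le_card_nsmul 𝒱
      (fun v => p ^ 2 * ((Finset.bipartiteBelow r 𝒳 v).card + 1)) x h2
    rw [← Finset.mul_sum, Finset.sum_add_distrib, ← hdc, Finset.sum_const, smul_eq_mul,
      smul_eq_mul, mul_one] at this
    exact this
  have hnpos : 0 < n := Nat.card_pos
  have hp2 : 2 ≤ p := hp.two_le
  -- final arithmetic over the integers
  zify at s1 s2 h3 h4
  set X0 : ℤ := (𝒳.card : ℤ)
  set V : ℤ := (𝒱.card : ℤ)
  set S : ℤ := (Sm : ℤ)
  set P : ℤ := (p : ℤ)
  set N : ℤ := (n : ℤ)
  set xx : ℤ := (x : ℤ)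
  have hN : 0 < N := Int.natCast_pos.2 hnpos
  have hP : 2 ≤ P := Int.ofNat_le.2 hp2
  have hX0 : 0 ≤ X0 := by positivity
  have hV : 0 ≤ V := by positivity
  have hPV : P * V = N * (P - 1) := by linarith
  have t1 : P ^ 3 * S + P ^ 2 * (P * V) ≤ (P * V) * xx := by nlinarith
  have t2 : (P * V) * xx ≤ (P * V) * (X0 + P) := by
    apply mul_le_mul_of_nonneg_left h3
    positivity
  rw [hPV] at t1 t2
  have t3 : 0 < N * (P - 1) * (X0 * (P - 2) + P * (P - 1)) := by
    apply mul_pos
    · apply mul_pos hN; linarith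
    · have : 0 ≤ X0 * (P - 2) := mul_nonneg hX0 (by linarith)
      have : 0 < P * (P - 1) := mul_pos (by linarith) (by linarith)
      linarith
  nlinarith

/-- a generating set of at most `d` good elements -/
theorem exists_gens [Finite G] (hG : IsPGroup p G)
    (hred : ∀ α : G →* Cp p, α ≠ 1 → ¬ commutator G ≤ ⁅α.ker, α.ker⁆)
    (d : ℕ) (hd : (phiP p G).index = p ^ d) :
    ∃ S : Finset G, S.card ≤ d ∧ (∀ v ∈ S, centralizer {v} ≤ phiP p G ⊔ zpowers v) ∧
      closure (S : Set G) = ⊤ := by
  classical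
  have hp : p.Prime := Fact.out
  have key : ∀ j ≤ d, ∃ S : Finset G, S.card ≤ j ∧
      (∀ v ∈ S, centralizer {v} ≤ phiP p G ⊔ zpowers v) ∧
      (closure (S : Set G) ⊔ phiP p G).index * p ^ j ≤ p ^ d := by
    intro j
    induction j with
    | zero =>
      intro _
      refine ⟨∅, le_rfl, by simp, ?_⟩
      simp [hd]
    | succ j ih =>
      intro hj
      obtain ⟨S, hS1, hS2, hS3⟩ := ih (by omega)
      by_cases htop : closure (S : Set G) ⊔ phiP p G = ⊤
      · refine ⟨S, by omega, hS2, ?_⟩
        rw [htop, index_top, one_mul]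
        exact Nat.pow_le_pow_right hp.pos hj
      · obtain ⟨κ, hκ, hJκ⟩ := exists_hom_of_ne_top hG htop
        obtain ⟨v, hv1, hv2⟩ := exists_good hG hred κ hκ
        refine ⟨insert v S, (Finset.card_insert_le v S).trans (by omega), ?_, ?_⟩
        · intro w hw
          rcases Finset.mem_insert.1 hw with rfl | hw
          · exact hv2
          · exact hS2 w hw
        · have hlt : closure (S : Set G) ⊔ phiP p G <
              closure ((insert v S : Finset G) : Set G) ⊔ phiP p G := by
            have hle : closure (S : Set G) ⊔ phiP p G ≤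
                closure ((insert v S : Finset G) : Set G) ⊔ phiP p G := by
              apply sup_le_sup_right
              apply Subgroup.closure_mono
              rw [Finset.coe_insert]
              exact Set.subset_insert _ _
            refine lt_of_le_of_ne hle ?_
            intro h
            apply hv1
            apply hJκ
            rw [h]
            apply (le_sup_left : closure ((insert v S : Finset G) : Set G) ≤ _)
            apply Subgroup.subset_closure
            rw [Finset.coe_insert]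
            exact Set.mem_insert _ _
          have h1 := pgroup_index_of_lt hG hlt
          calc (closure ((insert v S : Finset G) : Set G) ⊔ phiP p G).index * p ^ (j + 1)
              = (p * (closure ((insert v S : Finset G) : Set G) ⊔ phiP p G).index) * p ^ j := by
                ring
            _ ≤ (closure (S : Set G) ⊔ phiP p G).index * p ^ j := Nat.mul_le_mul_right _ h1
            _ ≤ p ^ d := hS3
  obtain ⟨S, hS1, hS2, hS3⟩ := key d le_rfl
  refine ⟨S, hS1, hS2, ?_⟩
  apply eq_top_of_sup_phiP hG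
  rw [← index_eq_one]
  have h0 : (closure (S : Set G) ⊔ phiP p G).index ≠ 0 := index_ne_zero_of_finite
  have h1 : (closure (S : Set G) ⊔ phiP p G).index ≤ 1 := by
    have : (closure (S : Set G) ⊔ phiP p G).index * p ^ d ≤ 1 * p ^ d := by rwa [one_mul]
    exact Nat.le_of_mul_le_mul_right this (pow_pos hp.pos d)
  omega

/-- the breadth of a good element on `Φ` -/
theorem good_bound [Finite G] (hG : IsPGroup p G) (v : G)
    (hv : centralizer {v} ≤ phiP p G ⊔ zpowers v) :
    (centralizer {v}).relIndex (phiP p G) * (phiP p G).index ≤ p * (centralizer {v}).index := by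
  set C := centralizer ({v} : Set G)
  set L := phiP p G ⊔ zpowers v
  have h1 : C.relIndex L * L.index = C.index := relIndex_mul_index hv
  have h2 : C.relIndex (phiP p G) ≤ C.relIndex L :=
    relIndex_le_of_le_right le_sup_left (relIndex_ne_zero_fin _ _)
  have h3 : (phiP p G).index ≤ p * L.index := by
    rw [index_phiP hG]
    have e1 := card_annih_le_mul (p := p) (phiP p G) v
    rw [annih_phiP, card_top] at e1
    exact e1.trans (Nat.mul_le_mul_left _ (card_annih_le hG L))
  calc C.relIndex (phiP p G) * (phiP p G).index ≤ C.relIndex L * (p * L.index) :=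
        Nat.mul_le_mul h2 h3
    _ = p * (C.relIndex L * L.index) := by ring
    _ = p * C.index := by rw [h1]

theorem arith (b d : ℕ) (hd : d ≤ b + 1) :
    (b + 1 - d) * d + d * (d - 1) / 2 ≤ b * (b + 1) / 2 := by
  obtain ⟨e, he⟩ : ∃ e, b + 1 = d + e := ⟨b + 1 - d, by omega⟩
  have h1 : b + 1 - d = e := by omega
  rw [h1, he]
  have h2 : e * d + d * (d - 1) / 2 = (2 * (e * d) + d * (d - 1)) / 2 := by
    rw [Nat.mul_add_div (by norm_num : 0 < 2)]
  rw [h2]
  apply Nat.div_le_div_right
  rcases d with _ | d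
  · simp
  · have hb : b = d + e := by omega
    subst hb
    simp only [Nat.add_sub_cancel]
    nlinarith [Nat.zero_le (e * e), Nat.zero_le e, Nat.le_mul_self e]

/-- the reduced case -/
theorem reduced_case [Finite G] (hG : IsPGroup p G) (b : ℕ)
    (hb : ∀ x : G, (centralizer ({x} : Set G)).index ≤ p ^ b)
    (hred : ∀ α : G →* Cp p, α ≠ 1 → ¬ commutator G ≤ ⁅α.ker, α.ker⁆) :
    Nat.card (commutator G) ≤ p ^ (b * (b + 1) / 2) := by
  classical
  have hp : p.Prime := Fact.out
  obtain ⟨n, hn⟩ := hG.exists_card_eq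
  have h2 : (phiP p G).index ∣ p ^ n := hn ▸ index_dvd_card _
  obtain ⟨d, -, hd⟩ := (Nat.dvd_prime_pow hp).1 h2
  obtain ⟨S, hS1, hS2, hS3⟩ := exists_gens hG hred d hd
  rcases S.eq_empty_or_nonempty with rfl | ⟨v₀, hv₀⟩
  · rw [Finset.coe_empty, Subgroup.closure_empty] at hS3
    have : commutator G = ⊥ := by
      rw [eq_bot_iff, hS3]
      exact le_top
    rw [this, card_bot]
    exact Nat.one_le_pow _ _ hp.pos
  · have hbound : ∀ v ∈ S, (centralizer {v}).relIndex (phiP p G) * p ^ d ≤ p ^ (b + 1) := by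
      intro v hv
      have := good_bound hG v (hS2 v hv)
      rw [hd] at this
      calc (centralizer {v}).relIndex (phiP p G) * p ^ d ≤ p * (centralizer {v}).index := this
        _ ≤ p * p ^ b := Nat.mul_le_mul_left _ (hb v)
        _ = p ^ (b + 1) := by rw [pow_succ']
    have hdb : d ≤ b + 1 := by
      have h1 := hbound v₀ hv₀
      have h3 : 0 < (centralizer {v₀}).relIndex (phiP p G) :=
        Nat.pos_of_ne_zero (relIndex_ne_zero_fin _ _)
      have h4 : p ^ d ≤ p ^ (b + 1) :=
        le_trans (Nat.le_mul_of_pos_left _ h3) h1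
      exact (Nat.pow_le_pow_iff_right hp.one_lt).1 h4
    have hbound' : ∀ v ∈ S, (centralizer {v}).relIndex (phiP p G) ≤ p ^ (b + 1 - d) := by
      intro v hv
      have h1 := hbound v hv
      have h3 : p ^ (b + 1) = p ^ (b + 1 - d) * p ^ d := by
        rw [← pow_add]
        congr 1
        omega
      rw [h3] at h1
      exact Nat.le_of_mul_le_mul_right h1 (pow_pos hp.pos d)
    have h5 : Nat.card (cm (phiP p G)) ≤ p ^ ((b + 1 - d) * d) := by
      calc Nat.card (cm (phiP p G)) ≤ ∏ v ∈ S, (centralizer {v}).relIndex (phiP p G) :=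
            card_cm_le_prod hG (phiP p G) S hS3
        _ ≤ (p ^ (b + 1 - d)) ^ S.card := Finset.prod_le_pow_card _ _ _ hbound'
        _ ≤ (p ^ (b + 1 - d)) ^ d := Nat.pow_le_pow_right (pow_pos hp.pos _) hS1
        _ = p ^ ((b + 1 - d) * d) := by rw [← pow_mul]
    calc Nat.card (commutator G)
        ≤ Nat.card (cm (phiP p G)) * p ^ (d * (d - 1) / 2) :=
          card_commutator_le_of_index hG d (phiP p G) commutator_le_phiP hd
      _ ≤ p ^ ((b + 1 - d) * d) * p ^ (d * (d - 1) / 2) := Nat.mul_le_mul_right _ h5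
      _ = p ^ ((b + 1 - d) * d + d * (d - 1) / 2) := by rw [← pow_add]
      _ ≤ p ^ (b * (b + 1) / 2) := Nat.pow_le_pow_right hp.pos (arith b d hdb)

theorem main (b : ℕ) : ∀ (n : ℕ) (G : Type*) [Group G] [Finite G], Nat.card G = n →
    IsPGroup p G → (∀ x : G, (centralizer ({x} : Set G)).index ≤ p ^ b) →
    Nat.card (commutator G) ≤ p ^ (b * (b + 1) / 2) := by
  have hp : p.Prime := Fact.out
  intro n
  induction n using Nat.strong_induction_on with
  | _ n ih =>
    intro G _ _ hn hG hb
    by_cases hred : ∀ α : G →* Cp p, α ≠ 1 → ¬ commutator G ≤ ⁅α.ker, α.ker⁆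
    · exact reduced_case hG b hb hred
    · push Not at hred
      obtain ⟨α, hα, hle⟩ := hred
      set H := α.ker with hH
      have hidx : H.index = p := index_ker_of_ne_one hα
      have hcard : Nat.card H < n := by
        have h1 := card_mul_index H
        rw [hidx, hn] at h1
        have h2 : 0 < Nat.card H := Nat.card_pos
        calc Nat.card H = Nat.card H * 1 := (mul_one _).symm
          _ < Nat.card H * p := Nat.mul_lt_mul_of_pos_left hp.one_lt h2
          _ = n := h1
      have hbH : ∀ x : H, (centralizer ({x} : Set H)).index ≤ p ^ b := by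
        intro x
        have e : centralizer ({x} : Set H) = (centralizer ({(x : G)} : Set G)).subgroupOf H := by
          ext y
          rw [mem_subgroupOf, mem_centralizer_singleton_iff, mem_centralizer_singleton_iff]
          constructor
          · intro h
            exact congrArg Subtype.val h
          · intro h
            exact Subtype.ext h
        rw [e]
        calc ((centralizer ({(x : G)} : Set G)).subgroupOf H).index
            = (centralizer ({(x : G)} : Set G)).relIndex H := rfl
          _ ≤ (centralizer ({(x : G)} : Set G)).relIndex ⊤ :=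
            relIndex_le_of_le_right le_top (relIndex_ne_zero_fin _ _)
          _ = (centralizer ({(x : G)} : Set G)).index := relIndex_top_right _
          _ ≤ p ^ b := hb x
      have h3 := ih _ hcard H rfl (hG.to_subgroup H) hbH
      calc Nat.card (commutator G) ≤ Nat.card (⁅H, H⁆ : Subgroup G) := card_le_of_le hle
        _ = Nat.card (commutator H) := by
            rw [← map_subtype_commutator, card_map_of_injective H.subtype_injective]
        _ ≤ p ^ (b * (b + 1) / 2) := h3

/-- Vaughan-Lee's Theorem: if G is a finite p-group in which every conjugacy class has at most p^b elements (every element has centralizer of index at most p^b), then the derived subgroup of G has order at most p^(b(b+1)/2). -/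
theorem result {G : Type*} [Group G] [Finite G] {p : ℕ} [Fact p.Prime] (hG : IsPGroup p G) (b : ℕ) (hb : ∀ x : G, (Subgroup.centralizer ({x} : Set G)).index ≤ p ^ b) : Nat.card (commutator G) ≤ p ^ (b * (b + 1) / 2) := by
  exact main b _ G rfl hG hb

end Cfsg.Agent.S3777
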