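import Cfsg.Statements.S3778
import Cfsg.Agent.S3781
import Mathlib.Combinatorics.Enumerative.DoubleCounting
import Mathlib.Tactic

set_option autoImplicit false
open Cfsg
open scoped commutatorElement

namespace Cfsg.Agent.S3778

set_option linter.style.haveILetI false

variable {G : Type*} [Group G]

/-- abbreviation for the lower central series of the whole group -/
abbrev gam (G : Type*) [Group G] (i : ℕ) : Subgroup G := (⊤ : Subgroup G).lowerCentralSeries i

/-- the two-step centralizer -/
def Cen (G : Type*) [Group G] (i : ℕ) : Subgroup G where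
  carrier := {g | ∀ h ∈ gam G i, ⁅h, g⁆ ∈ gam G (i + 2)}
  one_mem' := by
    intro h _
    rw [commutatorElement_one_right]; exact Subgroup.one_mem _
  mul_mem' := by
    intro a b ha hb h hh
    rw [commutatorElement_mul_right_eq_mul_conj, mul_assoc, mul_assoc]
    apply Subgroup.mul_mem _ (ha h hh)
    have : (gam G (i + 2)).Normal := inferInstance
    have := this.conj_mem _ (hb h hh) a
    simpa [mul_assoc] using this
  inv_mem' := by
    intro a ha h hh
    rw [commutatorElement_inv_right]
    have hN : (gam G (i + 2)).Normal := inferInstance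
    have h1 : ⁅a, h⁆ ∈ gam G (i + 2) := by
      rw [← commutatorElement_inv]; exact Subgroup.inv_mem _ (ha h hh)
    have := hN.conj_mem _ h1 a⁻¹
    simpa using this

theorem mem_Cen (i : ℕ) (g : G) : g ∈ Cen G i ↔ ∀ h ∈ gam G i, ⁅h, g⁆ ∈ gam G (i + 2) := Iff.rfl

theorem Cen_ne_top [Group.IsNilpotent G] (i : ℕ) (hi : gam G (i + 1) ≠ ⊥) : Cen G i ≠ ⊤ := by
  intro htop
  have h1 : gam G (i + 1) ≤ gam G (i + 2) := by
    show ⁅gam G i, (⊤ : Subgroup G)⁆ ≤ _
    rw [Subgroup.commutator_le]
    intro h hh g _
    have : g ∈ Cen G i := by rw [htop]; trivial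
    exact this h hh
  have h2 := Cfsg.Agent.S3781.commutator_sup_lt (gam G (i + 1)) ⊥ bot_le (by rwa [le_bot_iff])
  rw [sup_bot_eq] at h2
  exact absurd h1 (not_le_of_gt h2)

/-- the chain from the centralizer of `x` up to the whole group -/
def chain (x : G) (i : ℕ) : Subgroup G := Subgroup.centralizer ({x} : Set G) ⊔ gam G i

theorem chain_succ_le (x : G) (i : ℕ) : chain x (i + 1) ≤ chain x i :=
  sup_le_sup_left ((⊤ : Subgroup G).lowerCentralSeries_antitone (Nat.le_succ i)) _

theorem chain_succ_lt (x : G) (i : ℕ) (hx : x ∉ Cen G i) : chain x (i + 1) < chain x i := by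
  refine lt_of_le_of_ne (chain_succ_le x i) ?_
  intro heq
  apply hx
  intro h hh
  have h1 : h ∈ chain x (i + 1) := by
    rw [heq]; exact Subgroup.mem_sup_right hh
  unfold chain at h1
  rw [← SetLike.mem_coe, Subgroup.mul_normal] at h1
  obtain ⟨k, hk, m, hm, rfl⟩ := h1
  rw [commutatorElement_mul_left_eq_conj_mul]
  have hkx : ⁅k, x⁆ = 1 := by
    rw [commutatorElement_eq_one_iff_mul_comm]
    have := Subgroup.mem_centralizer_iff.1 hk x (Set.mem_singleton x)
    exact this.symm
  rw [hkx, mul_one]
  have hN : (gam G (i + 2)).Normal := inferInstance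
  apply hN.conj_mem
  exact Subgroup.commutator_mem_commutator hm (Subgroup.mem_top x)

theorem pow_card_le_index [Finite G] {p : ℕ} [Fact p.Prime] (hG : IsPGroup p G) (x : G) (k : ℕ)
    [DecidablePred (fun i => x ∉ Cen G i)] :
    p ^ ((Finset.range k).filter (fun i => x ∉ Cen G i)).card ≤ (chain x k).index := by
  have hp : p.Prime := Fact.out
  induction k with
  | zero =>
    simp [chain]
  | succ k ih =>
    rw [← Subgroup.relIndex_mul_index (chain_succ_le x k), Finset.range_add_one, Finset.filter_insert]
    have h0 : (chain x (k + 1)).relIndex (chain x k) ≠ 0 :=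
      ((chain x (k + 1)).subgroupOf (chain x k)).index_ne_zero_of_finite
    by_cases hx : x ∉ Cen G k
    · rw [if_pos hx, Finset.card_insert_of_notMem (by simp), pow_succ, mul_comm]
      apply Nat.mul_le_mul _ ih
      have hlt := chain_succ_lt x k hx
      obtain ⟨e, he⟩ := (hG.to_subgroup (chain x k)).index ((chain x (k + 1)).subgroupOf (chain x k))
      have he' : (chain x (k + 1)).relIndex (chain x k) = p ^ e := he
      have : e ≠ 0 := by
        rintro rfl
        rw [pow_zero, Subgroup.relIndex_eq_one] at he'
        exact absurd he' (not_le_of_gt hlt)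
      rw [he']
      calc p = p ^ 1 := (pow_one p).symm
        _ ≤ p ^ e := Nat.pow_le_pow_right hp.pos (by omega)
    · rw [if_neg hx]
      calc _ ≤ (chain x k).index := ih
        _ = 1 * (chain x k).index := (one_mul _).symm
        _ ≤ _ := Nat.mul_le_mul_right _ (by omega)

theorem arith (p m b N S : ℕ) (hp : 2 ≤ p) (hb : b ≠ 0) (hN : 0 < N)
    (h1 : p * S ≤ m * N) (h2 : m * N ≤ S + b * (N - 1)) : m * (p - 1) < b * p ∧ m + 1 ≤ 2 * b := by
  obtain ⟨q, rfl⟩ : ∃ q, p = q + 1 := ⟨p - 1, by omega⟩
  obtain ⟨M, rfl⟩ : ∃ M, N = M + 1 := ⟨N - 1, by omega⟩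
  simp only [Nat.add_sub_cancel] at *
  have hq : 1 ≤ q := by omega
  have hb' : 1 ≤ b := by omega
  have h3 : (q + 1) * (m * (M + 1)) ≤ (q + 1) * S + (q + 1) * (b * M) := by
    calc (q + 1) * (m * (M + 1)) ≤ (q + 1) * (S + b * M) := Nat.mul_le_mul_left _ h2
      _ = _ := by ring
  have h4 : (m * q) * (M + 1) < (b * (q + 1)) * (M + 1) := by nlinarith
  have h5 : m * q < b * (q + 1) := lt_of_mul_lt_mul_right h4 (Nat.zero_le _)
  refine ⟨h5, ?_⟩
  have h6 : m * q < (2 * b) * q := by nlinarith
  have h7 : m < 2 * b := lt_of_mul_lt_mul_right h6 (Nat.zero_le _)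
  omega

/-- If G is a finite p-group in which every conjugacy class has at most p^b elements (every element has centralizer of index at most p^b), then G is abelian when b = 0, and when b ≥ 1 its nilpotency class c satisfies (c − 1)(p − 1) < bp, that is c < bp/(p − 1) + 1, and hence c ≤ 2b. -/
theorem result {G : Type*} [Group G] [Finite G] {p : ℕ} [Fact p.Prime] (hG : IsPGroup p G) (b : ℕ) (hb : ∀ x : G, (Subgroup.centralizer ({x} : Set G)).index ≤ p ^ b) : ∃ c : ℕ, (⊤ : Subgroup G).lowerCentralSeries c = ⊥ ∧ (b ≠ 0 → (c - 1) * (p - 1) < b * p ∧ c ≤ 2 * b) ∧ (b = 0 → c ≤ 1) := by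
  classical
  haveI := hG.isNilpotent
  haveI := Fintype.ofFinite G
  have hp : p.Prime := Fact.out
  have hex : ∃ c, gam G c = ⊥ := Subgroup.nilpotent_iff_lowerCentralSeries.1 inferInstance
  refine ⟨Nat.find hex, Nat.find_spec hex, ?_, ?_⟩
  · intro hb0
    set c := Nat.find hex with hc
    rcases Nat.lt_or_ge c 2 with hc2 | hc2
    · have : c - 1 = 0 := by omega
      rw [this]
      refine ⟨?_, by omega⟩
      have := hp.pos
      have hb1 : 0 < b := Nat.pos_of_ne_zero hb0
      simpa using Nat.mul_pos hb1 this
    · obtain ⟨m, hm⟩ : ∃ m, c = m + 1 := ⟨c - 1, by omega⟩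
      rw [hm]
      simp only [Nat.add_sub_cancel]
      -- the counting function
      let a : G → ℕ := fun x => ((Finset.range m).filter (fun i => x ∈ Cen G i)).card
      have hcomp : ∀ x : G, m ≤ a x + b := by
        intro x
        have h1 := pow_card_le_index hG x m
        have h2 : (chain x m).index ≤ p ^ b := by
          refine le_trans ?_ (hb x)
          exact Nat.le_of_dvd (Nat.pos_of_ne_zero (Subgroup.index_ne_zero_of_finite))
            (Subgroup.index_dvd_of_le le_sup_left)
        have h3 := (Nat.pow_le_pow_iff_right hp.one_lt).1 (le_trans h1 h2)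
        have h4 := Finset.card_filter_add_card_filter_not (s := Finset.range m) (fun i => x ∈ Cen G i)
        rw [Finset.card_range] at h4
        show m ≤ ((Finset.range m).filter (fun i => x ∈ Cen G i)).card + b
        omega
      have hone : a 1 = m := by
        show ((Finset.range m).filter (fun i => (1 : G) ∈ Cen G i)).card = m
        rw [Finset.filter_true_of_mem (fun i _ => Subgroup.one_mem _), Finset.card_range]
      have hsum : ∑ x : G, a x = ∑ i ∈ Finset.range m, Nat.card (Cen G i) := by
        have := Finset.sum_card_bipartiteAbove_eq_sum_card_bipartiteBelow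
          (s := (Finset.univ : Finset G)) (t := Finset.range m) (fun x i => x ∈ Cen G i)
        simp only [Finset.bipartiteAbove, Finset.bipartiteBelow] at this
        rw [show (∑ x : G, a x) = _ from this]
        apply Finset.sum_congr rfl
        intro i _
        rw [Nat.card_eq_fintype_card, Fintype.card_subtype]
      have hCen : ∀ i ∈ Finset.range m, p * Nat.card (Cen G i) ≤ Nat.card G := by
        intro i hi
        rw [Finset.mem_range] at hi
        have hne : gam G (i + 1) ≠ ⊥ := by
          intro h
          have := Nat.find_min' hex h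
          omega
        have hne' := Cen_ne_top i hne
        obtain ⟨e, he⟩ := hG.index (Cen G i)
        have he0 : e ≠ 0 := by
          rintro rfl
          rw [pow_zero, Subgroup.index_eq_one] at he
          exact hne' he
        rw [← (Cen G i).card_mul_index, he, mul_comm]
        apply Nat.mul_le_mul_left
        calc p = p ^ 1 := (pow_one p).symm
          _ ≤ p ^ e := Nat.pow_le_pow_right hp.pos (by omega)
      have h1 : p * ∑ x : G, a x ≤ m * Nat.card G := by
        rw [hsum, Finset.mul_sum]
        calc _ ≤ ∑ i ∈ Finset.range m, Nat.card G := Finset.sum_le_sum hCen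
          _ = m * Nat.card G := by simp
      have h2 : m * Nat.card G ≤ ∑ x : G, a x + b * (Nat.card G - 1) := by
        have hsplit : ∑ x : G, a x = a 1 + ∑ x ∈ Finset.univ.erase (1 : G), a x := by
          rw [Finset.add_sum_erase _ _ (Finset.mem_univ _)]
        have hcard : (Finset.univ.erase (1 : G)).card = Nat.card G - 1 := by
          rw [Finset.card_erase_of_mem (Finset.mem_univ _), Finset.card_univ, Nat.card_eq_fintype_card]
        have h3 : m * (Nat.card G - 1) ≤ ∑ x ∈ Finset.univ.erase (1 : G), a x + b * (Nat.card G - 1) := by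
          rw [← hcard]
          calc m * (Finset.univ.erase (1 : G)).card = ∑ x ∈ Finset.univ.erase (1 : G), m := by simp [mul_comm]
            _ ≤ ∑ x ∈ Finset.univ.erase (1 : G), (a x + b) := Finset.sum_le_sum (fun x _ => hcomp x)
            _ = _ := by rw [Finset.sum_add_distrib]; simp [mul_comm]
        have hpos : 0 < Nat.card G := Nat.card_pos
        obtain ⟨M, hM⟩ : ∃ M, Nat.card G = M + 1 := ⟨Nat.card G - 1, by omega⟩
        rw [hM] at h3 ⊢
        simp only [Nat.add_sub_cancel] at h3 ⊢
        rw [hsplit, hone]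
        nlinarith
      exact arith p m b (Nat.card G) _ hp.two_le hb0 Nat.card_pos h1 h2
  · intro hb0
    apply Nat.find_min' hex
    subst hb0
    show ⁅(⊤ : Subgroup G), (⊤ : Subgroup G)⁆ = ⊥
    rw [Subgroup.commutator_eq_bot_iff_le_centralizer]
    intro g _
    rw [Subgroup.mem_centralizer_iff]
    intro x _
    have h1 := hb x
    have h2 : (Subgroup.centralizer ({x} : Set G)).index = 1 := by
      have : (Subgroup.centralizer ({x} : Set G)).index ≠ 0 := Subgroup.index_ne_zero_of_finite
      simp at h1; omega
    rw [Subgroup.index_eq_one] at h2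
    have : g ∈ Subgroup.centralizer ({x} : Set G) := by rw [h2]; trivial
    exact Subgroup.mem_centralizer_iff.1 this x (Set.mem_singleton x)

end Cfsg.Agent.S3778
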