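import Cfsg.Statements.S3783
-- import your own Cfsg.Agent.* helpers here
import Cfsg.Agent.Lib.Helper67.HHAbelian
import Cfsg.Agent.Lib.Helper66.PLength
import Cfsg.Agent.Lib.Helper66.PComplement
import Cfsg.Agent.Lib.Helper80.PSolv
import Cfsg.Agent.Lib.Helper80.SylNorm
import Cfsg.Agent.Lib.Helper14.PConstrained
import Cfsg.Agent.Lib.Helper14.SectionNormalizer
import Cfsg.Agent.Lib.Helper1.Cores
import Cfsg.Agent.Lib.Helper55.HH
import Cfsg.Agent.Lib.Helper53.Cop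
import Cfsg.Agent.Lib.Helper75.SylowCoprime
import Cfsg.Agent.Lib.Helper31.CNSolv

set_option autoImplicit false
open Cfsg

namespace Cfsg.Agent.S3783

/-- all `q`-subgroups, `q ≠ p`, are commutative -/
def AbQ (p : ℕ) (G : Type*) [Group G] : Prop :=
  ∀ q : ℕ, q.Prime → q ≠ p → ∀ Q : Subgroup G, IsPGroup q Q → ∀ a ∈ Q, ∀ b ∈ Q, a * b = b * a

/-- all `p`-elements are killed by `p ^ n` -/
def ExpP (p n : ℕ) (G : Type*) [Group G] : Prop :=
  ∀ x : G, (∃ k, x ^ p ^ k = 1) → x ^ p ^ n = 1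

theorem abQ_of_surj {G G' : Type*} [Group G] [Finite G] [Group G'] {p : ℕ} (f : G →* G')
    (hf : Function.Surjective f) (h : AbQ p G) : AbQ p G' := by
  intro q hq hqp Q' hQ' a ha b hb
  haveI : Fact q.Prime := ⟨hq⟩
  obtain ⟨Q, hQ, hmap, -⟩ := Cfsg.Agent.Lib.Helper14.exists_isPGroup_map_eq_normalizer f hf Q' hQ'
  rw [← hmap] at ha hb
  obtain ⟨a0, ha0, rfl⟩ := ha
  obtain ⟨b0, hb0, rfl⟩ := hb
  rw [← map_mul, ← map_mul, h q hq hqp Q hQ a0 ha0 b0 hb0]

theorem lift_pel {G G' : Type*} [Group G] [Finite G] [Group G'] {p : ℕ} [hp : Fact p.Prime] (f : G →* G')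
    (hf : Function.Surjective f) (y : G') (hy : ∃ k, y ^ p ^ k = 1) :
    ∃ x : G, f x = y ∧ ∃ k, x ^ p ^ k = 1 := by
  obtain ⟨k, hk⟩ := hy
  obtain ⟨j, -, hj⟩ := (Nat.dvd_prime_pow hp.out).1 (orderOf_dvd_of_pow_eq_one hk)
  obtain ⟨x, hx, i, hi⟩ := Cfsg.Agent.Lib.Helper80.exists_prime_pow_order_lift f hf p y ⟨j, hj⟩
  exact ⟨x, hx, i, by rw [← hi, pow_orderOf_eq_one]⟩

theorem expP_of_surj {G G' : Type*} [Group G] [Finite G] [Group G'] {p : ℕ} [hp : Fact p.Prime] (f : G →* G')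
    (hf : Function.Surjective f) {n : ℕ} (h : ExpP p n G) : ExpP p n G' := by
  intro y hy
  obtain ⟨x, rfl, hx⟩ := lift_pel f hf y hy
  rw [← map_pow, h x hx, map_one]

open scoped commutatorElement in
open Cfsg.Agent.Lib.Helper1 Cfsg.Agent.Lib.Helper66 Cfsg.Agent.Lib.Helper30 Cfsg.Agent.Lib.Helper14 in
theorem keyD {X : Type*} [Group X] [Finite X] {p : ℕ} [hp : Fact p.Prime]
    (hX : Cfsg.IsPSolvable p X) (h0 : Cfsg.pPrimeCore p X = ⊥) (hab : AbQ p X) (n : ℕ)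
    (hexp : ExpP p (n + 1) X) (x : X) (hx : ∃ k, x ^ p ^ k = 1) : x ^ p ^ n ∈ Cfsg.pCore p X := by
  by_contra hxn
  obtain ⟨T, hTn, hT, hbotq⟩ : ∃ (T : Subgroup X) (_ : T.Normal),
      T = Cfsg.pCore p X ∧ Cfsg.pCore p (X ⧸ T) = ⊥ :=
    ⟨_, Cfsg.Agent.Lib.Helper1.pCore_normal p X, rfl, Cfsg.Agent.Lib.Helper31.pCore_quotient_pCore p⟩
  rw [← hT] at hxn
  have hTp : IsPGroup p T := hT ▸ Cfsg.Agent.Lib.Helper1.pCore_isPGroup p X
  have hTc : Subgroup.centralizer (T : Set X) ≤ T := hT ▸ Cfsg.Agent.Lib.Helper80.centralizer_pCore_le hX h0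
  have hY : Cfsg.IsPSolvable p (X ⧸ T) :=
    Cfsg.Agent.Lib.Helper80.isPSolvable_of_surjective hp.out (QuotientGroup.mk' T)
      (QuotientGroup.mk'_surjective T) hX
  have hMcent := Cfsg.Agent.Lib.Helper55.centralizer_pPrimeCore_le hY hbotq
  obtain ⟨M, hM⟩ : ∃ M, M = Cfsg.pPrimeCore p (X ⧸ T) := ⟨_, rfl⟩
  rw [← hM] at hMcent
  haveI hMn : M.Normal := hM ▸ Cfsg.Agent.Lib.Helper1.pPrimeCore_normal p (X ⧸ T)
  have hMc : (Nat.card M).Coprime p := hM ▸ Cfsg.Agent.Lib.Helper1.pPrimeCore_coprime p (X ⧸ T)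
  obtain ⟨K, hK⟩ : ∃ K, K = M.comap (QuotientGroup.mk' T) := ⟨_, rfl⟩
  haveI hKn : K.Normal := hK ▸ inferInstance
  have hTK : T ≤ K := hK ▸ le_comap_mk' T M
  have hKrel : T.relIndex K = Nat.card M := hK ▸ relIndex_comap_mk' T M
  -- a complement B of T in K
  obtain ⟨B, hBc, hKB⟩ : ∃ B : Subgroup X, (Nat.card B).Coprime p ∧ K = B ⊔ T := by
    haveI : (T.subgroupOf K).Normal := inferInstance
    have hcop : Nat.Coprime (Nat.card (T.subgroupOf K)) (T.subgroupOf K).index := by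
      obtain ⟨n, hn⟩ := IsPGroup.iff_card.1 hTp
      rw [card_subgroupOf hTK, hn]
      change Nat.Coprime _ (T.relIndex K)
      rw [hKrel]
      exact (Nat.Coprime.pow_right n hMc).symm
    obtain ⟨B', hB'⟩ := Subgroup.exists_right_complement'_of_coprime hcop
    refine ⟨B'.map K.subtype, ?_, ?_⟩
    · rw [Subgroup.card_map_of_injective K.subtype_injective, ← hB'.symm.index_eq_card]
      change Nat.Coprime (T.relIndex K) p
      rw [hKrel]; exact hMc
    · have h1 := hB'.sup_eq_top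
      have h2 := congrArg (Subgroup.map K.subtype) h1
      rw [Subgroup.map_sup, Subgroup.subgroupOf_map_subtype, inf_eq_left.2 hTK,
        ← MonoidHom.range_eq_map, Subgroup.range_subtype] at h2
      rw [sup_comm]; exact h2.symm
  have hBK : B ≤ K := hKB ▸ le_sup_left
  -- Frattini argument
  have hfrat : ∀ g : X, ∃ t ∈ T, ∃ n ∈ Subgroup.normalizer (B : Set X), g = t * n := by
    intro g
    have h1 : cj g B ≤ B ⊔ T := by
      rw [← hKB]
      calc cj g B ≤ cj g K := cj_mono g hBK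
        _ = K := cj_normal g K
    obtain ⟨x, hx, hle⟩ := le_cj_of_le_sup T hTp B (cj g B) hBc (by rw [card_cj]; exact hBc) h1
    have heq : cj g B = cj x B := by
      apply Subgroup.eq_of_le_of_card_ge hle
      rw [card_cj, card_cj]
    refine ⟨x, hx, x⁻¹ * g, ?_, by group⟩
    apply mem_normalizer_of_cj_eq
    rw [cj_mul, heq, cj_inv_cj]
  -- p-elements modulo T
  have hpel : ∀ g : X, (∃ k, g ^ p ^ k ∈ T) → g ^ p ^ (n + 1) = 1 := by
    rintro g ⟨k, hk⟩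
    apply hexp
    obtain ⟨j, hj⟩ := hTp ⟨_, hk⟩
    refine ⟨k + j, ?_⟩
    have := congrArg Subtype.val hj
    rw [pow_add, pow_mul]
    exact this
  have hmkpow : ∀ (t g : X), t ∈ T → ∀ k : ℕ, ((t * g) ^ k ∈ T ↔ g ^ k ∈ T) := by
    intro t g ht k
    rw [← QuotientGroup.eq_one_iff, ← QuotientGroup.eq_one_iff, QuotientGroup.mk_pow, QuotientGroup.mk_pow,
      QuotientGroup.mk_mul, (QuotientGroup.eq_one_iff t).2 ht, one_mul]
  obtain ⟨t, ht, x', hx'N, rfl⟩ := hfrat x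
  rw [hmkpow t x' ht] at hxn
  have hx'1 : x' ^ p ^ (n + 1) = 1 := by
    apply hpel
    obtain ⟨k, hk⟩ := hx
    exact ⟨k, (hmkpow t x' ht _).1 (hk ▸ T.one_mem)⟩
  obtain ⟨y, hy⟩ : ∃ y, y = x' ^ p ^ n := ⟨_, rfl⟩
  rw [← hy] at hxn
  have hyp1 : y ^ p = 1 := by rw [hy, ← pow_mul, ← pow_succ, hx'1]
  have hyB : y ∉ Subgroup.centralizer (B : Set X) := by
    intro hyc
    have h1 : QuotientGroup.mk' T y ∈ Subgroup.centralizer (M : Set (X ⧸ T)) := by
      rw [Subgroup.mem_centralizer_iff]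
      intro m hm
      obtain ⟨g, rfl⟩ := QuotientGroup.mk'_surjective T m
      have hgK : g ∈ K := by rw [hK]; exact hm
      rw [hKB, ← SetLike.mem_coe, Subgroup.mul_normal] at hgK
      obtain ⟨b, hb, t', ht', rfl⟩ := hgK
      have e1 : QuotientGroup.mk' T (b * t') = QuotientGroup.mk' T b := by
        rw [map_mul, QuotientGroup.mk'_apply T t', (QuotientGroup.eq_one_iff t').2 ht', mul_one]
      rw [e1, ← map_mul, ← map_mul, (Subgroup.mem_centralizer_iff.1 hyc) b hb]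
    have h2 := hMcent h1
    have d1 : orderOf (QuotientGroup.mk' T y) ∣ Nat.card M := Subgroup.orderOf_dvd_natCard M h2
    have d2 : orderOf (QuotientGroup.mk' T y) ∣ p := by
      apply orderOf_dvd_of_pow_eq_one
      rw [← map_pow, hyp1, map_one]
    have h3 := Nat.eq_one_of_dvd_coprimes hMc d1 d2
    rw [orderOf_eq_one_iff] at h3
    exact hxn ((QuotientGroup.eq_one_iff y).1 h3)
  have hzp : IsPGroup p (Subgroup.zpowers x') := by
    rintro ⟨g, hg⟩
    obtain ⟨k, rfl⟩ := Subgroup.mem_zpowers_iff.1 hg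
    refine ⟨n + 1, Subtype.ext ?_⟩
    show (x' ^ k) ^ p ^ (n + 1) = 1
    rw [← zpow_natCast, ← zpow_mul, mul_comm, zpow_mul, zpow_natCast, hx'1, one_zpow]
  have hzN : Subgroup.zpowers x' ≤ Subgroup.normalizer (B : Set X) := Subgroup.zpowers_le.2 hx'N
  have hBp : ¬ p ∣ Nat.card B := (Nat.Prime.coprime_iff_not_dvd hp.out).1 hBc.symm
  obtain ⟨q, hq, R, hRN, hRy⟩ : ∃ (q : ℕ) (_ : Fact q.Prime) (R : Sylow q B),
      Subgroup.zpowers x' ≤ Subgroup.normalizer (((R : Subgroup B).map B.subtype : Subgroup X) : Set X) ∧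
      ¬ ((R : Subgroup B).map B.subtype ≤ Subgroup.centralizer ({y} : Set X)) := by
    by_contra hcon
    push Not at hcon
    apply hyB
    have hC : B ⊓ Subgroup.centralizer ({y} : Set X) = B := by
      apply Subgroup.eq_of_le_of_card_ge inf_le_left
      apply Nat.le_of_dvd Nat.card_pos
      rw [← Nat.factorization_prime_le_iff_dvd Nat.card_pos.ne' Nat.card_pos.ne']
      intro q hq
      haveI : Fact q.Prime := ⟨hq⟩
      obtain ⟨R, hR⟩ := Cfsg.Agent.Lib.Helper75.exists_invariant_sylow (q := q)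
        (Subgroup.zpowers x') B hzp hzN hBp
      have h1 := hcon q ⟨hq⟩ R hR
      have h2 : (R : Subgroup B).map B.subtype ≤ B ⊓ Subgroup.centralizer ({y} : Set X) :=
        le_inf (Subgroup.map_subtype_le _) h1
      have h3 := Subgroup.card_dvd_of_le h2
      rw [Subgroup.card_map_of_injective B.subtype_injective, Sylow.card_eq_multiplicity] at h3
      exact (Nat.Prime.pow_dvd_iff_le_factorization hq Nat.card_pos.ne').1 h3
    rw [Subgroup.mem_centralizer_iff]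
    intro b hb
    have h4 : b ∈ B ⊓ Subgroup.centralizer ({y} : Set X) := hC.symm ▸ hb
    exact (Subgroup.mem_centralizer_singleton_iff.1 (Subgroup.mem_inf.1 h4).2)
  obtain ⟨Q, hQ⟩ : ∃ Q, Q = (R : Subgroup B).map B.subtype := ⟨_, rfl⟩
  rw [← hQ] at hRN hRy
  have hQq : IsPGroup q Q := hQ ▸ R.2.map B.subtype
  have hQB : Q ≤ B := hQ ▸ Subgroup.map_subtype_le _
  have hQc : (Nat.card Q).Coprime p := Nat.Coprime.coprime_dvd_left (Subgroup.card_dvd_of_le hQB) hBc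
  have hqp : q ≠ p := by
    rintro rfl
    have h1 : Q = ⊥ := by
      have := inf_eq_bot_of_pgroup_coprime hQq hQc
      rwa [inf_idem] at this
    apply hRy; rw [h1]; exact bot_le
  have hQab := hab q hq.out hqp Q hQq
  obtain ⟨u, hu, huy⟩ : ∃ u ∈ Q, u ∉ Subgroup.centralizer ({y} : Set X) := SetLike.not_le_iff_exists.1 hRy
  obtain ⟨w, hw⟩ : ∃ w, w = u * y * u⁻¹ * y⁻¹ := ⟨_, rfl⟩
  have hxQ : ∀ a ∈ Q, x' * a * x'⁻¹ ∈ Q := fun a ha =>
    (Subgroup.mem_normalizer_iff.1 (hRN (Subgroup.mem_zpowers x')) a).1 ha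
  have hwQ : w ∈ Q := by
    have : w = u * (y * u⁻¹ * y⁻¹) := by rw [hw]; group
    rw [this, hy]
    exact Q.mul_mem hu (Cfsg.Agent.Lib.Helper67.conj_pow_mem Q x' hxQ _ _ (Q.inv_mem hu))
  have hw1 : w ≠ 1 := by
    intro h
    apply huy
    rw [Subgroup.mem_centralizer_singleton_iff]
    rw [hw] at h
    have h2 := congrArg (fun z => z * y * u) h
    simpa [mul_assoc] using h2
  have hwT : w ∉ Subgroup.centralizer (T : Set X) := by
    intro h
    have h2 : w ∈ T ⊓ Q := Subgroup.mem_inf.2 ⟨hTc h, hwQ⟩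
    rw [inf_eq_bot_of_pgroup_coprime hTp hQc] at h2
    exact hw1 h2
  obtain ⟨a, ha, haw⟩ : ∃ a ∈ T, ⁅w, a⁆ ∉ ⁅T, T⁆ := by
    by_contra hcon
    push Not at hcon
    refine hwT (Cfsg.Agent.Lib.Helper53.mem_centralizer_of_commutator_mem hTp ?_ ?_ hcon)
    · exact Nat.Coprime.coprime_dvd_left (Subgroup.orderOf_dvd_natCard Q hwQ) hQc
    · rw [Subgroup.normalizer_eq_top]; exact Subgroup.mem_top w
  obtain ⟨f, hf, hker⟩ : ∃ f : X →* X ⧸ ⁅T, T⁆, Function.Surjective f ∧ f.ker = ⁅T, T⁆ :=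
    ⟨QuotientGroup.mk' _, QuotientGroup.mk'_surjective _, QuotientGroup.ker_mk' _⟩
  haveI : (T.map f).Normal := hTn.map f hf
  have hVc : ∀ a ∈ T.map f, ∀ b ∈ T.map f, a * b = b * a := by
    rintro _ ⟨s, hs, rfl⟩ _ ⟨t, ht, rfl⟩
    rw [← map_mul, ← map_mul, f.eq_iff, hker]
    have : (t * s)⁻¹ * (s * t) = ⁅s⁻¹, t⁻¹⁆ := by
      rw [commutatorElement_def]; group
    rw [this]
    exact Subgroup.commutator_mem_commutator (T.inv_mem hs) (T.inv_mem ht)
  have hQc' : ∀ a ∈ Q.map f, ∀ b ∈ Q.map f, a * b = b * a := by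
    rintro _ ⟨s, hs, rfl⟩ _ ⟨t, ht, rfl⟩
    rw [← map_mul, ← map_mul, hQab s hs t ht]
  have hQp' : (Nat.card (Q.map f)).Coprime p :=
    Nat.Coprime.coprime_dvd_left (Subgroup.card_map_dvd Q f) hQc
  have hxQ' : ∀ a ∈ Q.map f, f x' * a * (f x')⁻¹ ∈ Q.map f := by
    rintro _ ⟨s, hs, rfl⟩
    exact ⟨x' * s * x'⁻¹, hxQ s hs, by simp⟩
  have hne : (f u * f x' ^ p ^ n * (f u)⁻¹ * (f x' ^ p ^ n)⁻¹) * f a
      ≠ f a * (f u * f x' ^ p ^ n * (f u)⁻¹ * (f x' ^ p ^ n)⁻¹) := by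
    intro h
    apply haw
    have e : f u * f x' ^ p ^ n * (f u)⁻¹ * (f x' ^ p ^ n)⁻¹ = f w := by
      rw [hw, hy]; simp
    rw [e] at h
    rw [← hker, MonoidHom.mem_ker, commutatorElement_def, map_mul, map_mul, map_mul, h]
    simp
  obtain ⟨v', hv', hne'⟩ := Cfsg.Agent.Lib.Helper67.exists_pow_ne_one hp.out (T.map f) hVc (hTp.map f)
    (Q.map f) hQc' hQp' (f x') hxQ' n (by rw [← map_pow, hx'1, map_one]) (f u)
    (Subgroup.mem_map_of_mem f hu) (f a) (Subgroup.mem_map_of_mem f ha) hne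
  obtain ⟨v, hv, rfl⟩ := hv'
  apply hne'
  have h1 : (v * x') ^ p ^ (n + 1) = 1 :=
    hpel _ ⟨n + 1, (hmkpow v x' hv _).2 (hx'1 ▸ T.one_mem)⟩
  rw [← map_mul, ← map_pow, h1, map_one]

open Cfsg.Agent.Lib.Helper1 Cfsg.Agent.Lib.Helper66 in
theorem plen_pgroup {X : Type*} [Group X] [Finite X] (p : ℕ) [hp : Fact p.Prime]
    (h : IsPGroup p X) : Cfsg.PLengthLE p 1 X := by
  rw [pLengthLE_iff, eq_top_iff]
  have h2 : (⊤ : Subgroup X) ≤ ups p X 2 := by
    obtain ⟨m, hm⟩ := IsPGroup.iff_card.1 h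
    apply le_ups_succ_of_odd (j := 1) (X := ⊥) (m := m) (by decide) inferInstance bot_le
    rw [Subgroup.relIndex_bot_left, Subgroup.card_top, hm]
  exact h2.trans (ups_le_succ 2)

open Cfsg.Agent.Lib.Helper1 Cfsg.Agent.Lib.Helper66 in
theorem main {p : ℕ} [hp : Fact p.Prime] (n : ℕ) : ∀ (G : Type*) [Group G] [Finite G],
    Cfsg.IsPSolvable p G → AbQ p G → ExpP p n G → Cfsg.PLengthLE p n G := by
  induction n with
  | zero =>
    intro G _ _ _ _ hexp
    apply pLengthLE_zero_of_coprime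
    rw [Nat.coprime_comm, Nat.Prime.coprime_iff_not_dvd hp.out]
    intro hd
    obtain ⟨x, hx⟩ := exists_prime_orderOf_dvd_card' p hd
    have h1 := hexp x ⟨1, by rw [pow_one, ← hx, pow_orderOf_eq_one]⟩
    rw [pow_zero, pow_one] at h1
    rw [h1, orderOf_one] at hx
    exact hp.out.one_lt.ne hx
  | succ n ih =>
    intro G _ _ hG hab hexp
    have hs1 := QuotientGroup.mk'_surjective (Cfsg.pPrimeCore p G)
    have hG1 := Cfsg.Agent.Lib.Helper80.isPSolvable_of_surjective hp.out _ hs1 hG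
    have hab1 := abQ_of_surj _ hs1 hab
    have hexp1 := expP_of_surj _ hs1 hexp
    have hbot : Cfsg.pPrimeCore p (G ⧸ Cfsg.pPrimeCore p G) = ⊥ :=
      Cfsg.Agent.Lib.Helper80.pPrimeCore_quotient_eq_bot
    have hs2 := QuotientGroup.mk'_surjective (Cfsg.pCore p (G ⧸ Cfsg.pPrimeCore p G))
    have hG2 := Cfsg.Agent.Lib.Helper80.isPSolvable_of_surjective hp.out _ hs2 hG1
    have hab2 := abQ_of_surj _ hs2 hab1
    have hexp2 : ExpP p n ((G ⧸ Cfsg.pPrimeCore p G) ⧸ Cfsg.pCore p (G ⧸ Cfsg.pPrimeCore p G)) := by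
      intro y hy
      obtain ⟨x, rfl, hx⟩ := lift_pel _ hs2 y hy
      rw [← map_pow, QuotientGroup.mk'_apply, QuotientGroup.eq_one_iff]
      exact keyD hG1 hbot hab1 n hexp1 x hx
    have h3 := ih _ hG2 hab2 hexp2
    have h4 := pLengthLE_extension (Cfsg.pCore p (G ⧸ Cfsg.pPrimeCore p G))
      (plen_pgroup p (pCore_isPGroup p _)) h3
    have h5 := pLengthLE_extension (Cfsg.pPrimeCore p G)
      (pLengthLE_zero_of_coprime (pPrimeCore_coprime p G)) h4
    have e : 0 + (1 + n) = n + 1 := by ring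
    rw [e] at h5
    exact h5

/-- Let G be a finite p-soluble group in which, for every prime q ≠ p, the Sylow q-subgroups are abelian. If the Sylow p-subgroups of G have exponent dividing p^n, then G has p-length at most n. -/
theorem result {G : Type*} [Group G] [Finite G] {p : ℕ} [Fact p.Prime] (hG : Cfsg.IsPSolvable p G) (hab : ∀ (q : ℕ) [Fact q.Prime], q ≠ p → ∀ Q : Sylow q G, IsMulCommutative (Q : Subgroup G)) (n : ℕ) (hexp : ∀ (P : Sylow p G), ∀ x ∈ (P : Subgroup G), x ^ p ^ n = 1) : Cfsg.PLengthLE p n G := by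
  have hp : p.Prime := Fact.out
  apply main n G hG
  · intro q hq hqp Q hQ a ha b hb
    haveI : Fact q.Prime := ⟨hq⟩
    obtain ⟨P, hP⟩ := hQ.exists_le_sylow
    have h1 := (hab q hqp P).is_comm.comm ⟨a, hP ha⟩ ⟨b, hP hb⟩
    exact congrArg Subtype.val h1
  · rintro x ⟨k, hk⟩
    have hz : IsPGroup p (Subgroup.zpowers x) := by
      rintro ⟨g, hg⟩
      obtain ⟨j, rfl⟩ := Subgroup.mem_zpowers_iff.1 hg
      refine ⟨k, Subtype.ext ?_⟩
      show (x ^ j) ^ p ^ k = 1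
      rw [← zpow_natCast, ← zpow_mul, mul_comm, zpow_mul, zpow_natCast, hk, one_zpow]
    obtain ⟨P, hP⟩ := hz.exists_le_sylow
    exact hexp P x (hP (Subgroup.mem_zpowers x))

end Cfsg.Agent.S3783
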