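import Cfsg.Statements.S3784
import Mathlib.NumberTheory.Fermat
import Mathlib.Algebra.Ring.GeomSum
import Mathlib.Tactic

set_option autoImplicit false
open Cfsg

namespace Cfsg.Agent.S3784

theorem odd_geom_iff (x : ℤ) (hx : Odd x) (n : ℕ) :
    Odd (∑ i ∈ Finset.range n, x ^ i) ↔ Odd n := by
  induction n with
  | zero => simp
  | succ k ih =>
    have h1 : ¬ Even (x ^ k) := by
      rw [Int.not_even_iff_odd]; exact hx.pow
    rw [Finset.sum_range_succ, Int.odd_add, ih]
    constructor
    · intro h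
      by_contra hk
      rw [Nat.not_odd_iff_even, Nat.even_add_one, Nat.not_even_iff_odd] at hk
      exact h1 (h.1 hk)
    · intro h
      constructor
      · intro hk
        exfalso
        rw [Nat.odd_add_one, Nat.not_odd_iff_even] at h
        exact (Nat.not_even_iff_odd.2 hk) h
      · intro h2; exact absurd h2 h1

theorem odd_dvd_two_pow (s : ℤ) (hs : Odd s) (n : ℕ) (h : s ∣ 2 ^ n) : s = 1 ∨ s = -1 := by
  have h1 : s.natAbs ∣ 2 ^ n := by
    have := Int.natAbs_dvd_natAbs.2 h
    simpa [Int.natAbs_pow] using this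
  obtain ⟨k, _, hk⟩ := (Nat.dvd_prime_pow Nat.prime_two).1 h1
  have h2 : Odd s.natAbs := Int.natAbs_odd.2 hs
  rcases Nat.eq_zero_or_pos k with rfl | hk0
  · simp at hk
    exact Int.natAbs_eq_iff.1 hk |>.imp (by simp) (by simp)
  · exfalso
    rw [hk] at h2
    have : Even (2 ^ k) := (Nat.even_pow.2 ⟨even_two, hk0.ne'⟩)
    exact (Nat.not_even_iff_odd.2 h2) this

/-- if `x ≥ 2` is odd, `n` is odd and `x ^ n - 1` is a power of two then `n = 1`. -/
theorem sub_case (x n b : ℕ) (hx : Odd x) (hx2 : 2 ≤ x) (hn : Odd n) (h : x ^ n = 2 ^ b + 1) :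
    n = 1 := by
  have hS := geom_sum_mul (x : ℤ) n
  have hodd : Odd (∑ i ∈ Finset.range n, (x : ℤ) ^ i) :=
    (odd_geom_iff x (by exact_mod_cast hx) n).2 hn
  have h' : ((x : ℤ) ^ n - 1) = 2 ^ b := by
    have : ((x ^ n : ℕ) : ℤ) = ((2 ^ b + 1 : ℕ) : ℤ) := by rw [h]
    push_cast at this
    linarith
  have hdvd : (∑ i ∈ Finset.range n, (x : ℤ) ^ i) ∣ 2 ^ b := by
    rw [← h', ← hS]; exact dvd_mul_right _ _
  by_contra hn1
  have hn2 : 2 ≤ n := by
    rcases hn with ⟨k, rfl⟩
    omega
  have hbig : (1 : ℤ) + x ≤ ∑ i ∈ Finset.range n, (x : ℤ) ^ i := by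
    have : Finset.range 2 ⊆ Finset.range n := by
      intro i hi; simp at hi ⊢; omega
    calc (1 : ℤ) + x = ∑ i ∈ Finset.range 2, (x : ℤ) ^ i := by simp [Finset.sum_range_succ]
      _ ≤ _ := Finset.sum_le_sum_of_subset_of_nonneg this (by intro i _ _; positivity)
  rcases odd_dvd_two_pow _ hodd b hdvd with h1 | h1
  · rw [h1] at hbig
    have : (2 : ℤ) ≤ x := by exact_mod_cast hx2
    linarith
  · rw [h1] at hbig
    have : (2 : ℤ) ≤ x := by exact_mod_cast hx2
    linarith

/-- if `x ≥ 2` is odd, `n` is odd and `x ^ n + 1` is a power of two then `n = 1`. -/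
theorem add_case (x n a : ℕ) (hx : Odd x) (hx2 : 2 ≤ x) (hn : Odd n) (h : 2 ^ a = x ^ n + 1) :
    n = 1 := by
  have hS := geom_sum_mul (-(x : ℤ)) n
  have hodd : Odd (∑ i ∈ Finset.range n, (-(x : ℤ)) ^ i) :=
    (odd_geom_iff (-x) (by simpa using (by exact_mod_cast hx : Odd (x : ℤ))) n).2 hn
  have h' : ((x : ℤ) ^ n + 1) = 2 ^ a := by
    have : ((2 ^ a : ℕ) : ℤ) = ((x ^ n + 1 : ℕ) : ℤ) := by rw [h]
    push_cast at this
    linarith
  rw [hn.neg_pow] at hS
  have hS' : (∑ i ∈ Finset.range n, (-(x : ℤ)) ^ i) * ((x : ℤ) + 1) = 2 ^ a := by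
    rw [← h']; linarith
  have hdvd : (∑ i ∈ Finset.range n, (-(x : ℤ)) ^ i) ∣ 2 ^ a := by
    rw [← hS']; exact dvd_mul_right _ _
  have hx2' : (2 : ℤ) ≤ x := by exact_mod_cast hx2
  rcases odd_dvd_two_pow _ hodd a hdvd with h1 | h1
  · rw [h1, ← h'] at hS'
    have h3 : (x : ℤ) ^ n = x := by linarith
    have h4 : x ^ n = x ^ 1 := by
      have : ((x ^ n : ℕ) : ℤ) = (x : ℤ) := by push_cast; exact h3
      rw [pow_one]; exact_mod_cast this
    exact Nat.pow_right_injective hx2 h4
  · rw [h1] at hS'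
    have : (0 : ℤ) < 2 ^ a := by positivity
    linarith

theorem two_pow_add_two (i j : ℕ) (h : 2 ^ j = 2 ^ i + 2) : i = 1 := by
  rcases i with _ | _ | i
  · exfalso
    rcases j with _ | _ | j
    · simp at h
    · simp at h
    · simp [pow_succ] at h; omega
  · rfl
  · exfalso
    rcases j with _ | _ | j
    · simp at h
    · simp [pow_succ] at h
    · simp [pow_succ] at h; omega

/-- Let p, q be primes and a, b positive integers with p^a = q^b + 1. Then either p = 2, b = 1, a is prime and q = 2^a − 1; or q = 2, a = 1, b is a power of 2 and p = 2^b + 1; or p^a = 9 and q^b = 8. -/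
theorem result (p q a b : ℕ) (hp : p.Prime) (hq : q.Prime) (ha : 1 ≤ a) (hb : 1 ≤ b) (h : p ^ a = q ^ b + 1) : (p = 2 ∧ b = 1 ∧ a.Prime ∧ q + 1 = 2 ^ a) ∨ (q = 2 ∧ a = 1 ∧ (∃ m : ℕ, b = 2 ^ m) ∧ p = 2 ^ b + 1) ∨ (p ^ a = 9 ∧ q ^ b = 8) := by
  rcases hq.eq_two_or_odd' with rfl | hqodd
  · -- q = 2
    right
    have hpodd : Odd p := by
      rcases hp.eq_two_or_odd' with rfl | h1
      · exfalso
        have h1 : Even (2 ^ a) := Nat.even_pow.2 ⟨even_two, by omega⟩
        have h2 : Even (2 ^ b) := Nat.even_pow.2 ⟨even_two, by omega⟩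
        rw [h] at h1
        rw [Nat.even_add_one] at h1
        exact h1 h2
      · exact h1
    rcases Nat.even_or_odd a with haeven | haodd
    · right
      obtain ⟨c, rfl⟩ := haeven
      have hc : 1 ≤ c := by omega
      have hpc : 2 ≤ p ^ c := by
        calc 2 ≤ p := hp.two_le
          _ = p ^ 1 := (pow_one p).symm
          _ ≤ p ^ c := Nat.pow_le_pow_right hp.pos hc
      have hfac : (p ^ c - 1) * (p ^ c + 1) = 2 ^ b := by
        have : p ^ (c + c) = p ^ c * p ^ c := pow_add _ _ _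
        rw [this] at h
        obtain ⟨y, hy⟩ : ∃ y, p ^ c = y + 1 := ⟨p ^ c - 1, by omega⟩
        rw [hy] at h ⊢
        simp only [Nat.add_sub_cancel]
        nlinarith
      obtain ⟨i, _, hi⟩ := (Nat.dvd_prime_pow Nat.prime_two).1 (Dvd.intro _ hfac)
      obtain ⟨j, _, hj⟩ := (Nat.dvd_prime_pow Nat.prime_two).1 (Dvd.intro_left _ hfac)
      have hij : 2 ^ j = 2 ^ i + 2 := by omega
      have hi1 := two_pow_add_two i j hij
      subst hi1
      have h3 : p ^ c = 3 := by omega
      have h9 : p ^ (c + c) = 9 := by rw [pow_add, h3]; norm_num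
      exact ⟨h9, by omega⟩
    · left
      have ha1 := sub_case p a b hpodd hp.two_le haodd h
      subst ha1
      rw [pow_one] at h
      refine ⟨rfl, rfl, ?_, h⟩
      exact Nat.pow_of_pow_add_prime (by norm_num) (by omega) (h ▸ hp)
  · -- q odd
    left
    have hp2 : p = 2 := by
      rcases hp.eq_two_or_odd' with rfl | h1
      · rfl
      · exfalso
        have h2 : Odd (p ^ a) := h1.pow
        have h3 : Odd (q ^ b) := hqodd.pow
        rw [h] at h2
        rw [Nat.odd_add_one] at h2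
        exact h2 h3
    subst hp2
    have hbodd : Odd b := by
      by_contra hbe
      rw [Nat.not_odd_iff_even] at hbe
      obtain ⟨c, rfl⟩ := hbe
      have h1 : Odd (q ^ c) := hqodd.pow
      obtain ⟨k, hk⟩ := h1
      rw [pow_add, hk] at h
      rcases a with _ | _ | a
      · omega
      · simp at h
        have : q ^ c = 1 := by
          rw [hk]; rcases h with h | h <;> omega
        have hc : c ≠ 0 := by omega
        have := (Nat.pow_eq_one.1 this)
        rcases this with h5 | h5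
        · exact hq.one_lt.ne' h5
        · exact hc h5
      · have : (2 * k + 1) * (2 * k + 1) + 1 = 4 * (k * k + k) + 2 := by ring
        rw [this] at h
        simp [pow_succ] at h
        omega
    have hb1 := add_case q b a hqodd hq.two_le hbodd h
    subst hb1
    rw [pow_one] at h
    refine ⟨rfl, rfl, ?_, h.symm⟩
    have ha1 : a ≠ 1 := by
      rintro rfl
      have := hq.two_le
      omega
    have hq' : (2 ^ a - 1).Prime := by
      have : 2 ^ a - 1 = q := by omega
      rw [this]; exact hq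
    exact (Nat.prime_of_pow_sub_one_prime ha1 hq').2

end Cfsg.Agent.S3784
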