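import Cfsg.Statements.S3785
import Cfsg.Agent.S0120
import Cfsg.Agent.Lib.Helper28.Cores
import Cfsg.Agent.Lib.Helper1.Cores
import Cfsg.Agent.Lib.Helper1.Hall
import Cfsg.Agent.Lib.Helper30.Coprime
import Cfsg.Agent.Lib.Helper14.PSeries

set_option autoImplicit false
set_option linter.style.haveILetI false
open Cfsg

namespace Cfsg.Agent.S3785

open Subgroup

/-- A `p'`-element centralizing all elements of order `p` of a normal `p`-subgroup `P`, `p` odd,
centralizes `P`. -/
theorem centralizes_of_odd {G : Type*} [Group G] [Finite G] {p : ℕ} [Fact p.Prime] (hp : p ≠ 2)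
    (P : Subgroup G) [P.Normal] (hP : IsPGroup p P) (y : G) (hy : (orderOf y).Coprime p)
    (h : ∀ x ∈ P, x ^ p = 1 → y * x = x * y) : ∀ x ∈ P, y * x = x * y := by
  have ha : Nat.Coprime (orderOf (MulAut.conjNormal y : MulAut P)) p :=
    Nat.Coprime.of_dvd_left (orderOf_map_dvd (MulAut.conjNormal (H := P)) y) hy
  have h1 := Cfsg.Agent.S0120.result hp hP (MulAut.conjNormal y : MulAut P) ha (by
    intro x hx
    apply Subtype.ext
    rw [MulAut.conjNormal_apply]
    have h2 : (x : G) ^ p = 1 := by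
      have := congrArg Subtype.val hx
      simpa using this
    rw [h x x.2 h2]
    group)
  intro x hx
  have h2 := congrArg (fun a : MulAut P => ((a ⟨x, hx⟩ : P) : G)) h1
  simp only [MulAut.conjNormal_apply, MulAut.one_apply] at h2
  calc y * x = (y * x * y⁻¹) * y := by group
    _ = x * y := by rw [h2]

/-- Let G be a finite solvable group whose Fitting subgroup F(G) has odd order. If an element g of G commutes with every element of prime order of F(G), then g ∈ F(G). -/
theorem result {G : Type*} [Group G] [Finite G] (hG : Group.IsSolvable G) (hodd : Odd (Nat.card (Cfsg.fittingSubgroup G))) (g : G) (hg : ∀ x ∈ Cfsg.fittingSubgroup G, (orderOf x).Prime → g * x = x * g) : g ∈ Cfsg.fittingSubgroup G := by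
  classical
  set F := fittingSubgroup G with hF
  haveI hFn : F.Normal := Cfsg.Agent.Lib.Helper28.fitting_normal
  set Ω : Set G := {x | x ∈ F ∧ (orderOf x).Prime} with hΩ
  set C := centralizer Ω with hC
  have hCn : C.Normal := by
    constructor
    intro c hc t
    rw [mem_centralizer_iff] at hc ⊢
    intro x hx
    have hx' : t⁻¹ * x * t ∈ Ω := by
      refine ⟨?_, ?_⟩
      · have := hFn.conj_mem x hx.1 t⁻¹
        rwa [inv_inv] at this
      · have : orderOf (t⁻¹ * x * t) = orderOf x := by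
          have := orderOf_injective (MulAut.conj t⁻¹).toMonoidHom (MulAut.conj t⁻¹).injective x
          simpa using this
        rw [this]; exact hx.2
    have h1 := hc _ hx'
    calc x * (t * c * t⁻¹) = t * ((t⁻¹ * x * t) * c) * t⁻¹ := by group
      _ = t * (c * (t⁻¹ * x * t)) * t⁻¹ := by rw [h1]
      _ = t * c * t⁻¹ * x := by group
  have hgC : g ∈ C := by
    rw [mem_centralizer_iff]
    intro x hx
    exact (hg x hx.1 hx.2).symm
  by_contra hgF
  have hCF : ¬ C ≤ F := fun h => hgF (h hgC)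
  set f := QuotientGroup.mk' F with hf
  have hfs : Function.Surjective f := QuotientGroup.mk'_surjective F
  have hker : f.ker = F := QuotientGroup.ker_mk' F
  have hCb : C.map f ≠ ⊥ := by
    intro h
    rw [Subgroup.map_eq_bot_iff, hker] at h
    exact hCF h
  haveI : (C.map f).Normal := hCn.map f hfs
  obtain ⟨Mb, hMbC, hMbn, hMb1, -, q, hq, hMbq⟩ :=
    Cfsg.Agent.Lib.Helper1.exists_normal_abelian_pgroup_le (C.map f) hCb inferInstance
  haveI : Fact q.Prime := ⟨hq⟩
  set M := Mb.comap f with hM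
  have hMn : M.Normal := hMbn.comap f
  have hFM : F ≤ M := by rw [← hker]; exact ker_le_comap f Mb
  have hMF : ¬ M ≤ F := by
    intro h
    apply hMb1
    rw [← map_comap_eq_self_of_surjective hfs Mb, Subgroup.map_eq_bot_iff, hker]
    exact h
  have hM1 : M ≤ F ⊔ (M ⊓ C) := by
    intro x hx
    obtain ⟨c, hc, hcx⟩ := hMbC hx
    have hcM : c ∈ M := by
      show f c ∈ Mb
      rw [hcx]; exact hx
    have hxc : x * c⁻¹ ∈ F := by
      rw [← hker, MonoidHom.mem_ker, map_mul, map_inv, hcx, mul_inv_cancel]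
    have : x = (x * c⁻¹) * c := by group
    rw [this]
    exact mul_mem ((le_sup_left : F ≤ F ⊔ (M ⊓ C)) hxc)
      ((le_sup_right : M ⊓ C ≤ F ⊔ (M ⊓ C)) ⟨hcM, hc⟩)
  obtain ⟨Q₁, hQ₁⟩ := Cfsg.Agent.Lib.Helper30.exists_isSylowIn q (M ⊓ C)
  have hM1' : M ⊓ C ≤ F ⊔ Q₁ := by
    rw [← relIndex_eq_one]
    have d1 : (F ⊔ Q₁).relIndex (M ⊓ C) ∣ F.relIndex (M ⊓ C) :=
      relIndex_dvd_of_le_left _ le_sup_left
    have d2 : (F ⊔ Q₁).relIndex (M ⊓ C) ∣ Q₁.relIndex (M ⊓ C) :=
      relIndex_dvd_of_le_left _ le_sup_right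
    obtain ⟨k, hk⟩ := IsPGroup.iff_card.1 hMbq
    have d3 : F.relIndex (M ⊓ C) ∣ q ^ k := by
      rw [← Cfsg.Agent.Lib.Helper14.card_map_mk', ← hk]
      apply card_dvd_of_le
      rw [map_le_iff_le_comap]
      exact inf_le_left
    obtain ⟨j, -, hj⟩ := (Nat.dvd_prime_pow hq).1 (d1.trans d3)
    rcases Nat.eq_zero_or_pos j with rfl | hjpos
    · simpa using hj
    · exfalso
      apply hQ₁.not_dvd
      refine dvd_trans ?_ d2
      rw [hj]
      exact dvd_pow_self q hjpos.ne'
  have hpF : ∀ p : Nat.Primes, pCore (p : ℕ) G ≤ F := by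
    intro p
    rw [hF, Cfsg.Agent.Lib.Helper1.fitting_eq_iSup_pCore]
    exact le_iSup (fun p : Nat.Primes => pCore (p : ℕ) G) p
  have hcent : ∀ p : Nat.Primes, (p : ℕ) ≠ q → Q₁ ≤ centralizer (pCore (p : ℕ) G : Set G) := by
    intro p hpq y hy
    haveI : Fact (p : ℕ).Prime := ⟨p.2⟩
    haveI : (pCore (p : ℕ) G).Normal := Cfsg.Agent.Lib.Helper1.pCore_normal _ _
    have hPp : IsPGroup (p : ℕ) (pCore (p : ℕ) G) := Cfsg.Agent.Lib.Helper1.pCore_isPGroup _ _
    rw [mem_centralizer_iff]
    by_cases hp2 : (p : ℕ) = 2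
    · -- the 2-core is trivial
      obtain ⟨k, hk⟩ := IsPGroup.iff_card.1 hPp
      have hd : Nat.card (pCore (p : ℕ) G) ∣ Nat.card F := card_dvd_of_le (hpF p)
      have hk0 : k = 0 := by
        by_contra hk0
        have : 2 ∣ Nat.card F := by
          refine dvd_trans ?_ hd
          rw [hk, hp2]
          exact dvd_pow_self 2 hk0
        exact (Nat.not_even_iff_odd.2 hodd) (even_iff_two_dvd.2 this)
      rw [hk0, pow_zero, card_eq_one] at hk
      intro x hx
      rw [SetLike.mem_coe, hk, mem_bot] at hx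
      rw [hx, one_mul, mul_one]
    · have hyC : y ∈ C := (hQ₁.le hy).2
      have hyord : (orderOf y).Coprime (p : ℕ) := by
        obtain ⟨k, hk⟩ := hQ₁.isPGroup ⟨y, hy⟩
        have hk' : y ^ q ^ k = 1 := by
          have := congrArg Subtype.val hk
          simpa using this
        have hd : orderOf y ∣ q ^ k := orderOf_dvd_of_pow_eq_one hk'
        apply Nat.Coprime.of_dvd_left hd
        apply Nat.Coprime.pow_left
        exact (Nat.coprime_primes hq p.2).2 (Ne.symm hpq)
      intro x hx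
      refine (centralizes_of_odd hp2 (pCore (p : ℕ) G) hPp y hyord ?_ x hx).symm
      intro z hz hzp
      by_cases hz1 : z = 1
      · rw [hz1, one_mul, mul_one]
      · have hzo : orderOf z = (p : ℕ) := orderOf_eq_prime hzp hz1
        rw [mem_centralizer_iff] at hyC
        exact (hyC z ⟨hpF p hz, by rw [hzo]; exact p.2⟩).symm
  haveI hqn : (pCore q G).Normal := Cfsg.Agent.Lib.Helper1.pCore_normal _ _
  have hqP : IsPGroup q (pCore q G) := Cfsg.Agent.Lib.Helper1.pCore_isPGroup _ _
  set B := pCore q G ⊔ Q₁ with hB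
  have hBq : IsPGroup q B := IsPGroup.to_sup_of_normal_left hqP hQ₁.isPGroup
  have hFB : F ≤ normalizer (B : Set G) := by
    rw [hF, Cfsg.Agent.Lib.Helper1.fitting_eq_iSup_pCore]
    apply iSup_le
    intro p
    by_cases hpq : (p : ℕ) = q
    · rw [hpq]
      exact (le_sup_left : pCore q G ≤ B).trans le_normalizer
    · haveI : Fact (p : ℕ).Prime := ⟨p.2⟩
      refine le_trans ?_ (centralizer_le_normalizer (B : Set G))
      rw [le_centralizer_iff]
      apply sup_le _ (hcent p hpq)
      intro x hx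
      rw [mem_centralizer_iff]
      intro z hz
      exact commute_of_normal_of_disjoint _ _ (Cfsg.Agent.Lib.Helper1.pCore_normal _ _) hqn
        (IsPGroup.disjoint_of_ne _ _ hpq _ _ (Cfsg.Agent.Lib.Helper1.pCore_isPGroup _ _) hqP) z x hz hx
  have hQB : Q₁ ≤ B := le_sup_right
  have hMB : M ≤ normalizer (B : Set G) :=
    hM1.trans (sup_le hFB (hM1'.trans (sup_le hFB (hQB.trans le_normalizer))))
  have hBM : B ≤ M := sup_le ((hpF ⟨q, hq⟩).trans hFM) (hQ₁.le.trans inf_le_left)
  have hBsub : B.IsSubnormal :=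
    IsSubnormal.step B M hBM hMn.isSubnormal ((normal_subgroupOf_iff_le_normalizer hBM).2 hMB)
  have hBle : B ≤ pCore q G := Cfsg.Agent.Lib.Helper28.subnormal_le_pCore hBsub hBq
  have hQF : Q₁ ≤ F := hQB.trans (hBle.trans (hpF ⟨q, hq⟩))
  exact hMF (hM1.trans (sup_le le_rfl (hM1'.trans (sup_le le_rfl hQF))))

end Cfsg.Agent.S3785
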