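import Cfsg.Statements.S3787
import Cfsg.Agent.Lib.Helper12.HHB.KeyQ
import Cfsg.Agent.Lib.Helper68.HHB2INV
import Cfsg.Agent.Lib.Helper68.HHB2GFB
import Cfsg.Agent.Lib.Helper16.HHB2WR

set_option autoImplicit false
set_option linter.style.haveILetI false
open Cfsg

namespace Cfsg.Agent.S3787

open Cfsg.Agent.Lib.Helper12.HHB Cfsg.Agent.Lib.Helper68.HHB Cfsg.Agent.Lib.Helper16.HHB

universe u

theorem keyW {X : Type u} [Group X] [Finite X] {p : ℕ} [hp : Fact p.Prime] (hp2 : p ≠ 2)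
    (hnf : ¬ ∃ k : ℕ, p = 2 ^ k + 1) (hX : Cfsg.IsPSolvable p X) (h0 : Cfsg.pPrimeCore p X = ⊥)
    (x : X) (hx : x ^ p ∈ Cfsg.pCore p X) (hxn : x ∉ Cfsg.pCore p X) :
    ∃ (Y : Type u) (_ : Group Y) (f : X →* Y) (K : Subgroup Y) (W : Type u) (_ : Group W) (π : K →* W),
      Function.Surjective f ∧ IsPGroup p K ∧ Function.Surjective π ∧ IsWr p W := by
  obtain ⟨t, x', q, hq, Q, u, a, ht, rfl, hpq, hQq, hxQ, hu, ha, hne⟩ :=
    keyQ hX h0 0 x (by simpa using hx) (by simpa using hxn)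
  obtain ⟨T, hT⟩ : ∃ T, T = Cfsg.pCore p X := ⟨_, rfl⟩
  rw [← hT] at hx hxn ht ha hne
  haveI hTn : T.Normal := hT ▸ Cfsg.Agent.Lib.Helper1.pCore_normal p X
  have hTp : IsPGroup p T := hT ▸ Cfsg.Agent.Lib.Helper1.pCore_isPGroup p X
  haveI := phi_normal T
  obtain ⟨f, hf, hker⟩ : ∃ f : X →* X ⧸ phi T, Function.Surjective f ∧ f.ker = phi T :=
    ⟨QuotientGroup.mk' _, QuotientGroup.mk'_surjective _, QuotientGroup.ker_mk' _⟩
  haveI : (T.map f).Normal := hTn.map f hf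
  have hx' : x' ^ p ∈ T := by
    have h1 : ((t * x') ^ p ∈ T ↔ x' ^ p ∈ T) := by
      rw [← QuotientGroup.eq_one_iff, ← QuotientGroup.eq_one_iff, QuotientGroup.mk_pow, QuotientGroup.mk_pow,
        QuotientGroup.mk_mul, (QuotientGroup.eq_one_iff t).2 ht, one_mul]
    exact h1.1 hx
  have hVc : ∀ a ∈ T.map f, ∀ b ∈ T.map f, a * b = b * a := by
    rintro _ ⟨s, hs, rfl⟩ _ ⟨t, ht, rfl⟩
    rw [← map_mul, ← map_mul, f.eq_iff, hker]
    have : (t * s)⁻¹ * (s * t) = s⁻¹ * t⁻¹ * s⁻¹⁻¹ * t⁻¹⁻¹ := by group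
    rw [this]
    exact comm_mem_phi T hTp _ _ (T.inv_mem hs) (T.inv_mem ht)
  have hVe : ∀ a ∈ T.map f, a ^ p = 1 := by
    rintro _ ⟨s, hs, rfl⟩
    rw [← map_pow, ← MonoidHom.mem_ker, hker]
    exact pow_mem_phi T hTp s hs
  have hxQ' : ∀ a ∈ Q.map f, f x' * a * (f x')⁻¹ ∈ Q.map f := by
    rintro _ ⟨s, hs, rfl⟩
    exact ⟨x' * s * x'⁻¹, hxQ s hs, by simp⟩
  have hxV : (f x') ^ p ∈ T.map f := ⟨x' ^ p, hx', by simp⟩
  have hne' : (f u * f x' ^ p ^ 0 * (f u)⁻¹ * (f x' ^ p ^ 0)⁻¹) * f a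
      ≠ f a * (f u * f x' ^ p ^ 0 * (f u)⁻¹ * (f x' ^ p ^ 0)⁻¹) := by
    intro h
    apply hne
    rw [← hker, MonoidHom.mem_ker]
    simp only [map_mul, map_inv, map_pow]
    rw [h]
    group
  have hexc : ¬ ∃ n₀ m : ℕ, 1 ≤ n₀ ∧ n₀ ≤ 0 + 1 ∧ 1 ≤ m ∧ p ^ n₀ - 1 = q ^ m ∧
      ¬ (∀ a ∈ Q.map f, ∀ b ∈ Q.map f, a * b = b * a) := by
    rintro ⟨n₀, m, h1, h2, hm, he, -⟩
    have hn₀ : n₀ = 1 := by omega
    subst hn₀
    rw [pow_one] at he
    have hodd : Odd p := hp.out.odd_of_ne_two hp2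
    have hev : 2 ∣ q ^ m := by
      rw [← he]
      obtain ⟨k, hk⟩ := hodd
      exact ⟨k, by omega⟩
    have hq2 : q = 2 := ((Nat.prime_dvd_prime_iff_eq Nat.prime_two hq.out).1
      (Nat.prime_two.dvd_of_dvd_pow hev)).symm
    apply hnf
    refine ⟨m, ?_⟩
    have := hp.out.one_lt
    rw [hq2] at he
    omega
  obtain ⟨v, hv, hN⟩ := gfb hpq (T.map f) hVc hVe (Q.map f) (hQq.map f) (f x') hxQ' 0
    (fun a ha => by
      have : f x' ^ p ^ (0 + 1) = f x' ^ p := by simp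
      rw [this]
      exact hVc _ hxV _ ha)
    (f u) (Subgroup.mem_map_of_mem f hu) (f a) (Subgroup.mem_map_of_mem f ha) hne' hexc
  have hN' : (v * f x') ^ p ≠ f x' ^ p := by simpa using hN
  obtain ⟨K, W, hW, π, hK, hπ, hwr⟩ := exists_wreath_section (T.map f) hVc hVe (f x') hxV v hv hN'
  refine ⟨_, _, f, K, W, hW, π, hf, ?_, hπ, hwr⟩
  have hz : IsPGroup p (Subgroup.zpowers (f x')) := by
    have h1 : f x' ^ p ^ 2 = 1 := by
      rw [pow_two, pow_mul]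
      exact hVe _ hxV
    rintro ⟨g, hg⟩
    obtain ⟨k, rfl⟩ := Subgroup.mem_zpowers_iff.1 hg
    refine ⟨2, Subtype.ext ?_⟩
    show (f x' ^ k) ^ p ^ 2 = 1
    rw [← zpow_natCast, ← zpow_mul, mul_comm, zpow_mul, zpow_natCast, h1, one_zpow]
  exact (IsPGroup.to_sup_of_normal_left (hTp.map f) hz).to_le hK

/-- Let G be a finite p-soluble group, p an odd prime not of the form 2^k + 1, and suppose the wreath product C_p ≀ C_p (of order p^(p+1)) is not involved in a Sylow p-subgroup of G: no section of a Sylow p-subgroup is isomorphic to it. Then G has p-length at most 1. -/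
theorem result {G : Type*} [Group G] [Finite G] {p : ℕ} [Fact p.Prime] (hp2 : p ≠ 2) (hnf : (¬ ∃ k : ℕ, p = 2 ^ k + 1)) (hG : Cfsg.IsPSolvable p G) (P : Sylow p G) (hwr : ∀ (W : Type) [Group W] [Finite W], (∃ (B : Subgroup W) (t : W), B.Normal ∧ IsMulCommutative B ∧ (∀ b ∈ B, b ^ p = 1) ∧ Nat.card B = p ^ p ∧ orderOf t = p ∧ t ∉ B ∧ Nat.card W = p ^ (p + 1) ∧ Nat.card ↥(B ⊓ Subgroup.centralizer ({t} : Set W)) = p) → ¬ Cfsg.Involves W ↥(P : Subgroup G)) : Cfsg.PLengthLE p 1 G := by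
  classical
  have hp : p.Prime := Fact.out
  have hs1 := QuotientGroup.mk'_surjective (Cfsg.pPrimeCore p G)
  have hG1 := Cfsg.Agent.Lib.Helper80.isPSolvable_of_surjective hp _ hs1 hG
  have hbot : Cfsg.pPrimeCore p (G ⧸ Cfsg.pPrimeCore p G) = ⊥ :=
    Cfsg.Agent.Lib.Helper80.pPrimeCore_quotient_eq_bot
  have hcop : (Nat.card ((G ⧸ Cfsg.pPrimeCore p G) ⧸ Cfsg.pCore p (G ⧸ Cfsg.pPrimeCore p G))).Coprime p := by
    rw [Nat.coprime_comm, Nat.Prime.coprime_iff_not_dvd hp]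
    intro hd
    obtain ⟨y, hy⟩ := exists_prime_orderOf_dvd_card' p hd
    obtain ⟨x, rfl⟩ := QuotientGroup.mk'_surjective _ y
    have hx1 : x ^ p ∈ Cfsg.pCore p (G ⧸ Cfsg.pPrimeCore p G) := by
      rw [← QuotientGroup.eq_one_iff]
      have := pow_orderOf_eq_one (QuotientGroup.mk' (Cfsg.pCore p (G ⧸ Cfsg.pPrimeCore p G)) x)
      rw [hy] at this
      exact this
    have hx2 : x ∉ Cfsg.pCore p (G ⧸ Cfsg.pPrimeCore p G) := by
      intro h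
      have h1 : QuotientGroup.mk' (Cfsg.pCore p (G ⧸ Cfsg.pPrimeCore p G)) x = 1 :=
        (QuotientGroup.eq_one_iff x).2 h
      rw [h1, orderOf_one] at hy
      exact hp.one_lt.ne hy
    obtain ⟨Y, hY, f, K, W, hW, π, hf, hK, hπ, hwrW⟩ := keyW hp2 hnf hG1 hbot x hx1 hx2
    obtain ⟨W₀, hW₀, hfin, hwr₀, hinv⟩ := involves_of_section P (f.comp (QuotientGroup.mk' (Cfsg.pPrimeCore p G)))
      (hf.comp hs1) K hK π hπ hwrW
    exact hwr W₀ hwr₀ hinv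
  have h3 := Cfsg.Agent.Lib.Helper66.pLengthLE_zero_of_coprime hcop
  have h4 := Cfsg.Agent.Lib.Helper66.pLengthLE_extension (Cfsg.pCore p (G ⧸ Cfsg.pPrimeCore p G))
    (Cfsg.Agent.S3783.plen_pgroup p (Cfsg.Agent.Lib.Helper1.pCore_isPGroup p _)) h3
  have h5 := Cfsg.Agent.Lib.Helper66.pLengthLE_extension (Cfsg.pPrimeCore p G)
    (Cfsg.Agent.Lib.Helper66.pLengthLE_zero_of_coprime (Cfsg.Agent.Lib.Helper1.pPrimeCore_coprime p G)) h4
  exact h5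

end Cfsg.Agent.S3787
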