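import Cfsg.Statements.S3789
import Cfsg.Agent.Lib.Helper12.HHB.KeyD2
import Cfsg.Agent.Lib.Helper12.HHB.LQ
import Cfsg.Agent.Lib.Helper68.HH3GQ
import Cfsg.Agent.Lib.Helper68.HH3Z2
import Cfsg.Agent.Lib.Helper68.HH3DS

set_option autoImplicit false
set_option linter.style.haveILetI false
open Cfsg

namespace Cfsg.Agent.S3789

open Cfsg.Agent.Lib.Helper12.HHB Cfsg.Agent.Lib.Helper68.HHB

universe u

theorem conj_eq_of_mul {Y : Type*} [Group Y] (V : Subgroup Y) [hV : V.Normal] (hVc : ∀ a ∈ V, ∀ b ∈ V, a * b = b * a)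
    (z g w : Y) (hz : z ∈ V) (hw : w ∈ V) : (z * g) * w * (z * g)⁻¹ = g * w * g⁻¹ := by
  have h1 : g * w * g⁻¹ ∈ V := hV.conj_mem w hw g
  have h2 := hVc z hz _ h1
  calc (z * g) * w * (z * g)⁻¹ = (z * (g * w * g⁻¹)) * z⁻¹ := by group
    _ = ((g * w * g⁻¹) * z) * z⁻¹ := by rw [h2]
    _ = g * w * g⁻¹ := by group

open scoped commutatorElement in
theorem metab_le_pCore {X : Type u} [Group X] [Finite X] {p : ℕ} [hp : Fact p.Prime] (hp2 : p ≠ 2)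
    (hX : Cfsg.IsPSolvable p X) (h0 : Cfsg.pPrimeCore p X = ⊥)
    (P : Subgroup X) (hTP : Cfsg.pCore p X ≤ P) (B : Subgroup X) (hB : IsPGroup p B)
    (hBn : ∀ g ∈ P, ∀ b ∈ B, g * b * g⁻¹ ∈ B)
    (hmet : ∀ a ∈ ⁅B, B⁆, ∀ a' ∈ ⁅B, B⁆, a * a' = a' * a) : ⁅B, B⁆ ≤ Cfsg.pCore p X := by
  by_contra hcon
  obtain ⟨T, hT⟩ : ∃ T, T = Cfsg.pCore p X := ⟨_, rfl⟩
  obtain ⟨D₁, hD₁p, hD₁E, hED₁, hkey⟩ := keyD2 hX h0 B hB
  rw [← hT] at hcon hTP hD₁E hED₁ hkey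
  haveI hTn : T.Normal := hT ▸ Cfsg.Agent.Lib.Helper1.pCore_normal p X
  have hTp : IsPGroup p T := hT ▸ Cfsg.Agent.Lib.Helper1.pCore_isPGroup p X
  -- a central commutator modulo T
  obtain ⟨b₀, hb₀, b₀', hb₀', hc₀T, hc₀cen⟩ : ∃ b₀ ∈ B, ∃ b₀' ∈ B, b₀ * b₀' * b₀⁻¹ * b₀'⁻¹ ∉ T ∧
      ∀ d ∈ B, QuotientGroup.mk' T ((b₀ * b₀' * b₀⁻¹ * b₀'⁻¹) * d) = QuotientGroup.mk' T (d * (b₀ * b₀' * b₀⁻¹ * b₀'⁻¹)) := by
    have hna : ∃ x y : ↥(B.map (QuotientGroup.mk' T)), x * y ≠ y * x := by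
      by_contra hab
      push Not at hab
      apply hcon
      rw [Subgroup.commutator_le]
      intro x hx y hy
      have h1 := hab ⟨_, Subgroup.mem_map_of_mem _ hx⟩ ⟨_, Subgroup.mem_map_of_mem _ hy⟩
      have h2 : QuotientGroup.mk' T x * QuotientGroup.mk' T y = QuotientGroup.mk' T y * QuotientGroup.mk' T x :=
        congrArg Subtype.val h1
      rw [← QuotientGroup.eq_one_iff]
      show QuotientGroup.mk' T ⁅x, y⁆ = 1
      rw [commutatorElement_def, map_mul, map_mul, map_mul, map_inv, map_inv, h2]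
      group
    obtain ⟨⟨_, b₀, hb₀, rfl⟩, ⟨_, b₀', hb₀', rfl⟩, hne, hcen⟩ :=
      exists_central_commutator (hB.map (QuotientGroup.mk' T)) hna
    refine ⟨b₀, hb₀, b₀', hb₀', ?_, ?_⟩
    · intro h
      apply hne
      apply Subtype.ext
      show QuotientGroup.mk' T b₀ * QuotientGroup.mk' T b₀' * (QuotientGroup.mk' T b₀)⁻¹ * (QuotientGroup.mk' T b₀')⁻¹ = 1
      rw [← map_inv, ← map_inv, ← map_mul, ← map_mul, ← map_mul]
      exact (QuotientGroup.eq_one_iff _).2 h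
    · intro d hd
      have h1 := congrArg Subtype.val (hcen ⟨_, Subgroup.mem_map_of_mem _ hd⟩)
      have h2 : QuotientGroup.mk' T b₀ * QuotientGroup.mk' T b₀' * (QuotientGroup.mk' T b₀)⁻¹ * (QuotientGroup.mk' T b₀')⁻¹
          * QuotientGroup.mk' T d = QuotientGroup.mk' T d * (QuotientGroup.mk' T b₀ * QuotientGroup.mk' T b₀'
            * (QuotientGroup.mk' T b₀)⁻¹ * (QuotientGroup.mk' T b₀')⁻¹) := h1
      simp only [map_mul, map_inv]
      exact h2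
  obtain ⟨c₀, hc₀⟩ : ∃ c₀, c₀ = b₀ * b₀' * b₀⁻¹ * b₀'⁻¹ := ⟨_, rfl⟩
  rw [← hc₀] at hc₀T hc₀cen
  have hc₀A : c₀ ∈ ⁅B, B⁆ := by
    rw [hc₀, ← commutatorElement_def]
    exact Subgroup.commutator_mem_commutator hb₀ hb₀'
  obtain ⟨t, ht, b₁, hb₁, hbt⟩ := hED₁ b₀ hb₀
  obtain ⟨t', ht', b₁', hb₁', hbt'⟩ := hED₁ b₀' hb₀'
  obtain ⟨c₁, hc₁⟩ : ∃ c₁, c₁ = b₁ * b₁' * b₁⁻¹ * b₁'⁻¹ := ⟨_, rfl⟩
  have hmkT : ∀ s ∈ T, ∀ g : X, QuotientGroup.mk' T (s * g) = QuotientGroup.mk' T g := by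
    intro s hs g
    rw [map_mul, QuotientGroup.mk'_apply T s, (QuotientGroup.eq_one_iff s).2 hs, one_mul]
  have hmkc : QuotientGroup.mk' T c₁ = QuotientGroup.mk' T c₀ := by
    rw [hc₁, hc₀]
    simp only [map_mul, map_inv]
    rw [hbt, hbt', hmkT t ht, hmkT t' ht']
  have hc₁D : c₁ ∈ D₁ := by
    rw [hc₁]
    exact D₁.mul_mem (D₁.mul_mem (D₁.mul_mem hb₁ hb₁') (D₁.inv_mem hb₁)) (D₁.inv_mem hb₁')
  have hc₁T : c₁ ∉ T := by
    intro h
    apply hc₀T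
    rw [← QuotientGroup.eq_one_iff]
    show QuotientGroup.mk' T c₀ = 1
    rw [← hmkc]
    exact (QuotientGroup.eq_one_iff _).2 h
  -- c₁ = z * c₀ with z ∈ T
  obtain ⟨z, hz, hzc⟩ : ∃ z ∈ T, c₁ = z * c₀ := by
    refine ⟨c₁ * c₀⁻¹, ?_, by group⟩
    rw [← QuotientGroup.eq_one_iff]
    show QuotientGroup.mk' T (c₁ * c₀⁻¹) = 1
    rw [map_mul, map_inv, hmkc, mul_inv_cancel]
  obtain ⟨q, hq, Q, u, a, hpq, hQq, hDQ, hu, ha, hne⟩ := hkey c₁ hc₁D hc₁T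
  haveI := phi_normal T
  obtain ⟨f, hf, hker⟩ : ∃ f : X →* X ⧸ phi T, Function.Surjective f ∧ f.ker = phi T :=
    ⟨QuotientGroup.mk' _, QuotientGroup.mk'_surjective _, QuotientGroup.ker_mk' _⟩
  haveI : (T.map f).Normal := hTn.map f hf
  have hVc : ∀ a ∈ T.map f, ∀ b ∈ T.map f, a * b = b * a := by
    rintro _ ⟨s, hs, rfl⟩ _ ⟨t, ht, rfl⟩
    rw [← map_mul, ← map_mul, f.eq_iff, hker]
    have : (t * s)⁻¹ * (s * t) = s⁻¹ * t⁻¹ * s⁻¹⁻¹ * t⁻¹⁻¹ := by group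
    rw [this]
    exact comm_mem_phi T hTp _ _ (T.inv_mem hs) (T.inv_mem ht)
  have hVe : ∀ a ∈ T.map f, a ^ p = 1 := by
    rintro _ ⟨s, hs, rfl⟩
    rw [← map_pow, ← MonoidHom.mem_ker, hker]
    exact pow_mem_phi T hTp s hs
  -- conjugation on V only depends on the coset of T
  have hconj : ∀ s ∈ T, ∀ g : X, ∀ w ∈ T.map f, f (s * g) * w * (f (s * g))⁻¹ = f g * w * (f g)⁻¹ := by
    intro s hs g w hw
    rw [map_mul]
    exact conj_eq_of_mul (T.map f) hVc (f s) (f g) w (Subgroup.mem_map_of_mem f hs) hw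
  -- [e, s] ∈ B ⊓ T
  have hcomB : ∀ e ∈ B, ∀ s ∈ T, e * s * e⁻¹ * s⁻¹ ∈ B := by
    intro e he s hs
    have : e * s * e⁻¹ * s⁻¹ = e * (s * e⁻¹ * s⁻¹) := by group
    rw [this]
    exact B.mul_mem he (hBn s (hTP hs) _ (B.inv_mem he))
  have hcomT : ∀ e : X, ∀ s ∈ T, e * s * e⁻¹ * s⁻¹ ∈ T := by
    intro e s hs
    exact T.mul_mem (hTn.conj_mem s hs e) (T.inv_mem hs)
  have hAn : ∀ g ∈ P, ∀ x ∈ ⁅B, B⁆, g * x * g⁻¹ ∈ ⁅B, B⁆ := by
    intro g hg x hx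
    have hmap : B.map (MulAut.conj g).toMonoidHom ≤ B := by
      rintro _ ⟨y, hy, rfl⟩
      exact hBn g hg y hy
    have : g * x * g⁻¹ ∈ (⁅B, B⁆).map (MulAut.conj g).toMonoidHom := ⟨x, hx, rfl⟩
    rw [Subgroup.map_commutator] at this
    exact Subgroup.commutator_mono hmap hmap this
  refine gq_of (fun K _ _ _ W _ _ _ Q D b b' c h => lq hpq hp2 Q D b b' c h) (T.map f) hVc hVe (Q.map f) (hQq.map f) (D₁.map f) (hD₁p.map f) ?_ (f b₁) (f b₁') (f c₁)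
    (Subgroup.mem_map_of_mem f hb₁) (Subgroup.mem_map_of_mem f hb₁') (by rw [hc₁]; simp) ?_
    (f u) (Subgroup.mem_map_of_mem f hu) (f a) (Subgroup.mem_map_of_mem f ha) ?_ ?_ ?_
  · rintro _ ⟨d, hd, rfl⟩ _ ⟨g, hg, rfl⟩
    exact ⟨d * g * d⁻¹, hDQ d hd g hg, by simp⟩
  · -- hcen
    rintro _ ⟨d, hd, rfl⟩ w hw
    obtain ⟨s, hs, e, he, rfl⟩ := hD₁E d hd
    have h1 : QuotientGroup.mk' T (c₁ * (s * e)) = QuotientGroup.mk' T ((s * e) * c₁) := by
      rw [map_mul _ c₁, map_mul _ (s * e), hmkc, hmkT s hs, ← map_mul, ← map_mul, hc₀cen e he]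
    obtain ⟨y, hy, hyc⟩ : ∃ y ∈ T, c₁ * (s * e) = y * ((s * e) * c₁) := by
      refine ⟨c₁ * (s * e) * ((s * e) * c₁)⁻¹, ?_, by group⟩
      rw [← QuotientGroup.eq_one_iff]
      show QuotientGroup.mk' T (c₁ * (s * e) * ((s * e) * c₁)⁻¹) = 1
      rw [map_mul, map_inv, h1, mul_inv_cancel]
    rw [← map_mul, ← map_mul, hyc]
    exact hconj y hy _ w hw
  · -- hne
    intro h
    apply hne
    rw [← hker, MonoidHom.mem_ker]
    simp only [map_mul, map_inv] at h ⊢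
    rw [h]
    group
  · -- h1
    rintro _ ⟨d, hd, rfl⟩ _ ⟨s, hs, rfl⟩
    obtain ⟨s', hs', e, he, rfl⟩ := hD₁E d hd
    have e1 : f (s' * e) * f s * (f (s' * e))⁻¹ * (f s)⁻¹ = f (e * s * e⁻¹ * s⁻¹) := by
      rw [hconj s' hs' e _ (Subgroup.mem_map_of_mem f hs)]
      simp
    rw [e1]
    have hs1T := hcomT e s hs
    have hs1B := hcomB e he s hs
    obtain ⟨s1, hs1⟩ : ∃ s1, s1 = e * s * e⁻¹ * s⁻¹ := ⟨_, rfl⟩
    rw [← hs1] at hs1T hs1B ⊢
    have e2 : f (s' * e) * f s1 * (f (s' * e))⁻¹ * (f s1)⁻¹ = f (e * s1 * e⁻¹ * s1⁻¹) := by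
      rw [hconj s' hs' e _ (Subgroup.mem_map_of_mem f hs1T)]
      simp
    rw [e2]
    have hs2T := hcomT e s1 hs1T
    have hs2A : e * s1 * e⁻¹ * s1⁻¹ ∈ ⁅B, B⁆ := by
      rw [← commutatorElement_def]
      exact Subgroup.commutator_mem_commutator he hs1B
    rw [hzc, hconj z hz c₀ _ (Subgroup.mem_map_of_mem f hs2T), ← map_inv, ← map_mul, ← map_mul,
      hmet c₀ hc₀A _ hs2A]
    congr 1
    group
  · -- h2
    rintro _ ⟨s, hs, rfl⟩
    have e1 : f c₁ * f s * (f c₁)⁻¹ * (f s)⁻¹ = f (c₀ * s * c₀⁻¹ * s⁻¹) := by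
      rw [hzc, hconj z hz c₀ _ (Subgroup.mem_map_of_mem f hs)]
      simp
    rw [e1]
    have hs1T := hcomT c₀ s hs
    have hs1A : c₀ * s * c₀⁻¹ * s⁻¹ ∈ ⁅B, B⁆ := by
      have : c₀ * s * c₀⁻¹ * s⁻¹ = c₀ * (s * c₀⁻¹ * s⁻¹) := by group
      rw [this]
      exact Subgroup.mul_mem _ hc₀A (hAn s (hTP hs) _ (Subgroup.inv_mem _ hc₀A))
    rw [hzc, hconj z hz c₀ _ (Subgroup.mem_map_of_mem f hs1T), ← map_inv, ← map_mul, ← map_mul,
      hmet c₀ hc₀A _ hs1A]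
    congr 1
    group

/-- all `p`-subgroups have derived length at most `d` -/
def DL (p d : ℕ) (G : Type*) [Group G] : Prop := ∀ R : Subgroup G, IsPGroup p R → ds R d = ⊥

theorem dl_of_surj {G G' : Type*} [Group G] [Finite G] [Group G'] {p : ℕ} [Fact p.Prime] (f : G →* G')
    (hf : Function.Surjective f) {d : ℕ} (h : DL p d G) : DL p d G' := by
  intro R' hR'
  obtain ⟨R, hR, hmap, -⟩ := Cfsg.Agent.Lib.Helper14.exists_isPGroup_map_eq_normalizer f hf R' hR'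
  rw [← hmap, ds_map, h R hR, Subgroup.map_bot]

open scoped commutatorElement in
open Cfsg.Agent.Lib.Helper1 Cfsg.Agent.Lib.Helper66 in
theorem main {p : ℕ} [hp : Fact p.Prime] (hp2 : p ≠ 2) (d : ℕ) : ∀ (G : Type u) [Group G] [Finite G],
    Cfsg.IsPSolvable p G → DL p d G → Cfsg.PLengthLE p d G := by
  induction d with
  | zero =>
    intro G _ _ _ hdl
    apply pLengthLE_zero_of_coprime
    rw [Nat.coprime_comm, Nat.Prime.coprime_iff_not_dvd hp.out]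
    intro hd
    obtain ⟨x, hx⟩ := exists_prime_orderOf_dvd_card' p hd
    have hz : IsPGroup p (Subgroup.zpowers x) := by
      rw [IsPGroup.iff_card]
      exact ⟨1, by rw [Nat.card_zpowers, hx, pow_one]⟩
    have h1 : Subgroup.zpowers x = ⊥ := hdl _ hz
    rw [Subgroup.zpowers_eq_bot] at h1
    rw [h1, orderOf_one] at hx
    exact hp.out.one_lt.ne hx
  | succ d ih =>
    intro G _ _ hG hdl
    have hs1 := QuotientGroup.mk'_surjective (Cfsg.pPrimeCore p G)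
    have hG1 := Cfsg.Agent.Lib.Helper80.isPSolvable_of_surjective hp.out _ hs1 hG
    have hdl1 := dl_of_surj _ hs1 hdl
    have hbot : Cfsg.pPrimeCore p (G ⧸ Cfsg.pPrimeCore p G) = ⊥ :=
      Cfsg.Agent.Lib.Helper80.pPrimeCore_quotient_eq_bot
    have hs2 := QuotientGroup.mk'_surjective (Cfsg.pCore p (G ⧸ Cfsg.pPrimeCore p G))
    have hG2 := Cfsg.Agent.Lib.Helper80.isPSolvable_of_surjective hp.out _ hs2 hG1
    have hdl2 : DL p d ((G ⧸ Cfsg.pPrimeCore p G) ⧸ Cfsg.pCore p (G ⧸ Cfsg.pPrimeCore p G)) := by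
      intro R' hR'
      obtain ⟨R, hR, hmap, -⟩ := Cfsg.Agent.Lib.Helper14.exists_isPGroup_map_eq_normalizer _ hs2 R' hR'
      obtain ⟨T, hT⟩ : ∃ T, T = Cfsg.pCore p (G ⧸ Cfsg.pPrimeCore p G) := ⟨_, rfl⟩
      haveI hTn : T.Normal := hT ▸ pCore_normal p _
      have hTp : IsPGroup p T := hT ▸ pCore_isPGroup p _
      obtain ⟨P, hP⟩ : ∃ P, P = R ⊔ T := ⟨_, rfl⟩
      have hPp : IsPGroup p P := hP ▸ IsPGroup.to_sup_of_normal_right hR hTp
      have hTP : T ≤ P := hP ▸ le_sup_right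
      have hRP : R ≤ P := hP ▸ le_sup_left
      have hPd : ds P (d + 1) = ⊥ := hdl1 P hPp
      have hle : ds P d ≤ T := by
        cases d with
        | zero =>
          -- P is abelian
          have hab : ⁅P, P⁆ = ⊥ := hPd
          have hc : P ≤ Subgroup.centralizer (T : Set _) := by
            rw [Subgroup.commutator_eq_bot_iff_le_centralizer] at hab
            exact hab.trans (Subgroup.centralizer_le hTP)
          exact hc.trans (hT ▸ Cfsg.Agent.Lib.Helper80.centralizer_pCore_le hG1 hbot)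
        | succ d =>
          have h1 : ⁅ds P (d + 1), ds P (d + 1)⁆ = ⊥ := hPd
          rw [hT]
          apply metab_le_pCore hp2 hG1 hbot P (hT ▸ hTP) (ds P d) (hPp.to_le (ds_le P d))
            (fun g hg b hb => ds_conj_mem P d g hg b hb)
          intro a ha a' ha'
          rw [Subgroup.commutator_eq_bot_iff_le_centralizer] at h1
          exact ((Subgroup.mem_centralizer_iff.1 (h1 ha')) a ha)
      rw [← hmap, ds_map, eq_bot_iff]
      calc (ds R d).map _ ≤ T.map _ := Subgroup.map_mono ((ds_mono hRP d).trans hle)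
        _ = ⊥ := by
          rw [Subgroup.map_eq_bot_iff, QuotientGroup.ker_mk', hT]
    have h3 := ih _ hG2 hdl2
    have h4 := pLengthLE_extension (Cfsg.pCore p (G ⧸ Cfsg.pPrimeCore p G))
      (Cfsg.Agent.S3783.plen_pgroup p (pCore_isPGroup p _)) h3
    have h5 := pLengthLE_extension (Cfsg.pPrimeCore p G)
      (pLengthLE_zero_of_coprime (pPrimeCore_coprime p G)) h4
    have e : 0 + (1 + d) = d + 1 := by ring
    rw [e] at h5
    exact h5

/-- Let p be an odd prime and G a finite p-soluble group whose Sylow p-subgroups have derived length at most d. Then G has p-length at most d. -/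
theorem result {G : Type*} [Group G] [Finite G] {p : ℕ} [Fact p.Prime] (hp : p ≠ 2) (hG : Cfsg.IsPSolvable p G) (d : ℕ) (hd : ∀ P : Sylow p G, derivedSeries ↥(P : Subgroup G) d = ⊥) : Cfsg.PLengthLE p d G := by
  apply main hp d G hG
  intro R hR
  obtain ⟨P, hP⟩ := hR.exists_le_sylow
  rw [eq_bot_iff]
  calc ds R d ≤ ds (P : Subgroup G) d := ds_mono hP d
    _ = ⊥ := by rw [ds_eq_map, hd P, Subgroup.map_bot]

end Cfsg.Agent.S3789
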