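import Cfsg.Statements.S3790
import Cfsg.Agent.Lib.Helper66.PLength

set_option autoImplicit false
set_option linter.style.haveILetI false
open Cfsg

namespace Cfsg.Agent.S3790

open Cfsg.Agent.Lib.Helper66 Cfsg.Agent.Lib.Helper14 Subgroup

universe u

theorem pLengthLE_one_of_card {G : Type*} [Group G] [Finite G] {p : ℕ} [Fact p.Prime] {m : ℕ}
    (h : Nat.card G = p ^ m) : PLengthLE p 1 G := by
  rw [pLengthLE_iff, eq_top_iff]
  refine le_trans ?_ (ups_le_succ 2)
  apply le_ups_succ_of_odd (j := 1) (X := ⊥) (m := m) (by decide) inferInstance bot_le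
  rw [relIndex_bot_left, card_top, h]

theorem step {G : Type*} [Group G] [Finite G] {p : ℕ} [Fact p.Prime] {X Y : Subgroup G}
    [X.Normal] (hXY : X ≤ Y) {a b : ℕ} (hX : PLengthLE p a X)
    (hQ : PLengthLE p b (Y ⧸ X.subgroupOf Y)) : PLengthLE p (a + b) Y :=
  pLengthLE_extension (X.subgroupOf Y)
    (pLengthLE_of_equiv (subgroupOfEquivOfLe hXY).symm hX) hQ

theorem aux (p : ℕ) [hp : Fact p.Prime] : ∀ (r : ℕ) (G : Type u) [Group G] [Finite G],
    Group.IsSolvable G → ∀ (q : Fin r → ℕ), (∀ i, (q i).Prime ∧ q i ≠ p) →
    (∀ s : ℕ, s.Prime → s ∣ Nat.card G → s ≠ p → ∃ i, q i = s) → ∀ (l : Fin r → ℕ),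
    (∀ i, Cfsg.PLengthLE (q i) (l i) G) → Cfsg.PLengthLE p (∏ i, (1 + l i)) G := by
  intro r
  induction r with
  | zero =>
    intro G _ _ _ q _ hcover l _
    rw [Finset.univ_eq_empty, Finset.prod_empty]
    apply pLengthLE_one_of_card (m := (Nat.card G).primeFactorsList.length)
    apply Nat.eq_prime_pow_of_unique_prime_dvd Nat.card_pos.ne'
    intro s hs hsd
    by_contra hne
    obtain ⟨i, -⟩ := hcover s hs hsd hne
    exact i.elim0
  | succ r ih =>
    intro G _ _ hG q hq hcover l hl
    set t := q (Fin.last r) with ht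
    haveI : Fact t.Prime := ⟨(hq _).1⟩
    set m := ∏ i : Fin r, (1 + l i.castSucc) with hm
    have evenStep : ∀ (j a : ℕ), Even j → PLengthLE p a (ups t G j) →
        PLengthLE p (a + m) (ups t G (j + 1)) := by
      intro j a hj ha
      apply step (ups_le_succ j) ha
      have hcardQ : Nat.card (↥(ups t G (j + 1)) ⧸ (ups t G j).subgroupOf (ups t G (j + 1)))
          = (ups t G j).relIndex (ups t G (j + 1)) := rfl
      apply ih _ inferInstance (fun i => q i.castSucc) (fun i => hq _) _ (fun i => l i.castSucc)
      · intro i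
        haveI : Fact (q i.castSucc).Prime := ⟨(hq _).1⟩
        exact pLengthLE_of_surjective _ (QuotientGroup.mk'_surjective _)
          (pLengthLE_subgroup _ (hl i.castSucc))
      · intro s hs hsd hsp
        have h1 : s ∣ Nat.card G :=
          hsd.trans ((card_quotient_dvd_card _).trans (card_subgroup_dvd_card _))
        obtain ⟨i, hi⟩ := hcover s hs h1 hsp
        rcases Fin.eq_castSucc_or_eq_last i with ⟨i', rfl⟩ | rfl
        · exact ⟨i', hi⟩
        · exfalso
          rw [hcardQ, ← hi] at hsd
          have h2 := ups_relIndex_even (p := t) (G := G) hj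
          have h3 := Nat.dvd_gcd hsd (dvd_refl t)
          rw [h2] at h3
          exact (hq (Fin.last r)).1.one_lt.ne' (Nat.dvd_one.1 h3)
    have oddStep : ∀ (j a : ℕ), ¬ Even j → PLengthLE p a (ups t G j) →
        PLengthLE p a (ups t G (j + 1)) := by
      intro j a hj ha
      have := step (b := 0) (ups_le_succ j) ha (by
        apply pLengthLE_zero_of_coprime
        have hcardQ : Nat.card (↥(ups t G (j + 1)) ⧸ (ups t G j).subgroupOf (ups t G (j + 1)))
            = (ups t G j).relIndex (ups t G (j + 1)) := rfl
        obtain ⟨e, he⟩ := ups_relIndex_odd (p := t) (G := G) hj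
        rw [hcardQ, he]
        apply Nat.Coprime.pow_left
        exact (Nat.coprime_primes (hq _).1 hp.out).2 (hq _).2)
      simpa using this
    have claim : ∀ i : ℕ, PLengthLE p (m * i) (ups t G (2 * i)) := by
      intro i
      induction i with
      | zero =>
        apply pLengthLE_zero_of_coprime
        have : Nat.card (ups t G (2 * 0)) = 1 := by
          show Nat.card (⊥ : Subgroup G) = 1
          exact card_bot
        rw [this]; exact Nat.coprime_one_left p
      | succ i ihi =>
        have h1 := evenStep (2 * i) _ (even_two_mul i) ihi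
        have h2 := oddStep (2 * i + 1) _ (by simp) h1
        have e : m * (i + 1) = m * i + m := by ring
        rw [e]
        exact h2
    have h1 := evenStep (2 * l (Fin.last r)) _ (even_two_mul _) (claim _)
    have htop : ups t G (2 * l (Fin.last r) + 1) = ⊤ := hl (Fin.last r)
    have h2 := pLengthLE_of_equiv ((MulEquiv.subgroupCongr htop).trans topEquiv) h1
    rw [Fin.prod_univ_castSucc]
    have e : m * (1 + l (Fin.last r)) = m * l (Fin.last r) + m := by ring
    rw [← hm, e]
    exact h2

/-- Let G be a finite solvable group and p a prime. Suppose p₁, …, p_r are distinct primes, all different from p, that include every prime dividing the order of G other than p, and that G has p_i-length at most l_i for each i. Then G has p-length at most the product of the numbers 1 + l_i. -/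
theorem result {G : Type*} [Group G] [Finite G] (hG : Group.IsSolvable G) (p : ℕ) [Fact p.Prime] (r : ℕ) (q : Fin r → ℕ) (hq : ∀ i, (q i).Prime ∧ q i ≠ p) (hinj : Function.Injective q) (hcover : ∀ s : ℕ, s.Prime → s ∣ Nat.card G → s ≠ p → ∃ i, q i = s) (l : Fin r → ℕ) (hl : ∀ i, Cfsg.PLengthLE (q i) (l i) G) : Cfsg.PLengthLE p (Finset.univ.prod fun i => 1 + l i) G := by
  exact aux p r G hG q hq hcover l hl

end Cfsg.Agent.S3790
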