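import Cfsg.Statements.S3791
import Cfsg.Agent.Lib.Helper66.PLength

set_option autoImplicit false
set_option linter.style.haveILetI false
open Cfsg

namespace Cfsg.Agent.S3791

open Cfsg.Agent.Lib.Helper66 Cfsg.Agent.Lib.Helper14 Subgroup

universe u

/-- The derived series of a subgroup, computed in the ambient group. -/
def dsA {G : Type*} [Group G] (K : Subgroup G) : ℕ → Subgroup G
  | 0 => K
  | n + 1 => ⁅dsA K n, dsA K n⁆

section dsA

variable {G : Type*} [Group G] {G' : Type*} [Group G']

theorem dsA_zero (K : Subgroup G) : dsA K 0 = K := rfl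

theorem dsA_succ (K : Subgroup G) (n : ℕ) : dsA K (n + 1) = ⁅dsA K n, dsA K n⁆ := rfl

theorem dsA_mono {K L : Subgroup G} (h : K ≤ L) (n : ℕ) : dsA K n ≤ dsA L n := by
  induction n with
  | zero => exact h
  | succ n ih => exact commutator_mono ih ih

theorem map_dsA (f : G →* G') (K : Subgroup G) (n : ℕ) : (dsA K n).map f = dsA (K.map f) n := by
  induction n with
  | zero => rfl
  | succ n ih => rw [dsA_succ, dsA_succ, map_commutator, ih]

theorem derivedSeries_add (a b : ℕ) : derivedSeries G (a + b) = dsA (derivedSeries G a) b := by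
  induction b with
  | zero => rfl
  | succ b ih => rw [← add_assoc, derivedSeries_succ, ih, dsA_succ]

theorem map_subtype_derivedSeries (K : Subgroup G) (n : ℕ) :
    (derivedSeries K n).map K.subtype = dsA K n := by
  induction n with
  | zero => rw [derivedSeries_zero, dsA_zero, ← MonoidHom.range_eq_map, range_subtype]
  | succ n ih => rw [derivedSeries_succ, dsA_succ, map_commutator, ih]

end dsA

theorem aux (r : ℕ) (q : Fin r → ℕ) (hq : ∀ i, (q i).Prime) (d : Fin r → ℕ) :
    ∀ (n : ℕ) (G : Type u) [Group G] [Finite G] (l : Fin r → ℕ), ∑ i, l i = n →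
    (∀ s : ℕ, s.Prime → s ∣ Nat.card G → ∃ i, q i = s) →
    (∀ i, ∀ S : Sylow (q i) G, derivedSeries ↥(S : Subgroup G) (d i) = ⊥) →
    (∀ i, Cfsg.PLengthLE (q i) (l i) G) →
    derivedSeries G (∑ i, d i * l i) = ⊥ := by
  intro n
  induction n using Nat.strong_induction_on with
  | _ n ih =>
  intro G _ _ l hn hcover hd hl
  classical
  have key : ∀ i, derivedSeries G (∑ i, d i * l i) ≤ ups (q i) G 1 := by
    intro i
    haveI : Fact (q i).Prime := ⟨hq i⟩
    rcases Nat.eq_zero_or_eq_succ_pred (l i) with h0 | hk
    · have := hl i
      rw [h0, pLengthLE_iff] at this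
      rw [show (1 : ℕ) = 2 * 0 + 1 from rfl, this]
      exact le_top
    · set k := (l i).pred with hkdef
      set l' : Fin r → ℕ := Function.update l i k with hl'
      have hl_eq : ∀ j, l j = l' j + if j = i then 1 else 0 := by
        intro j
        by_cases h : j = i
        · subst h; simp [hl', hk]
        · simp [hl', h]
      have hsum1 : ∑ j, l j = ∑ j, l' j + 1 := by
        rw [Finset.sum_congr rfl (fun j _ => hl_eq j), Finset.sum_add_distrib]
        simp
      have hsum2 : ∑ j, d j * l j = ∑ j, d j * l' j + d i := by
        rw [Finset.sum_congr rfl (fun j _ => by rw [hl_eq j, mul_add]), Finset.sum_add_distrib]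
        simp
      set T := ups (q i) G 2 with hT
      have hsurj := QuotientGroup.mk'_surjective T
      have h1 : derivedSeries (G ⧸ T) (∑ j, d j * l' j) = ⊥ := by
        apply ih (∑ j, l' j) (by omega) (G ⧸ T) l' rfl
        · intro s hs hsd
          exact hcover s hs (hsd.trans (card_quotient_dvd_card T))
        · intro j Sb
          haveI : Fact (q j).Prime := ⟨hq j⟩
          obtain ⟨S, rfl⟩ := Sylow.mapSurjective_surjective hsurj (q j) Sb
          have h2 := map_derivedSeries_eq
            ((QuotientGroup.mk' T).subgroupMap_surjective (S : Subgroup G)) (d j)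
          rw [hd j S, Subgroup.map_bot] at h2
          exact h2.symm
        · intro j
          haveI : Fact (q j).Prime := ⟨hq j⟩
          by_cases h : j = i
          · subst h
            have h3 := hl j
            rw [hk] at h3
            have h4 : l' j = k := by simp [hl']
            rw [h4]
            exact pLengthLE_quotient_ups_two h3
          · have h4 : l' j = l j := by simp [hl', h]
            rw [h4]
            exact pLengthLE_of_surjective _ hsurj (hl j)
      have h2 : derivedSeries G (∑ j, d j * l' j) ≤ T := by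
        have := map_derivedSeries_eq hsurj (∑ j, d j * l' j)
        rw [h1, Subgroup.map_eq_bot_iff, QuotientGroup.ker_mk'] at this
        exact this
      rw [hsum2, derivedSeries_add]
      refine (dsA_mono h2 (d i)).trans ?_
      -- the `d i`-th derived subgroup of `T` lies in `O_{p'}(G)`
      obtain ⟨S⟩ : Nonempty (Sylow (q i) G) := inferInstance
      set R := ups (q i) G 1 with hR
      have hsurjR := QuotientGroup.mk'_surjective R
      have h3 : T.map (QuotientGroup.mk' R) ≤ (S : Subgroup G).map (QuotientGroup.mk' R) := by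
        have h4 := map_upperPSeries_even_succ_succ (q i) G 0
        have h5 := pCore_le_sylow (S.mapSurjective hsurjR)
        intro x hx
        have hx' : x ∈ Cfsg.pCore (q i) (G ⧸ R) := by
          rw [← h4]; exact hx
        exact h5 hx'
      have h4 : dsA (S : Subgroup G) (d i) = ⊥ := by
        rw [← map_subtype_derivedSeries, hd i S, Subgroup.map_bot]
      have h5 : (dsA T (d i)).map (QuotientGroup.mk' R) ≤ ⊥ := by
        rw [map_dsA]
        refine (dsA_mono h3 (d i)).trans ?_
        rw [← map_dsA, h4, Subgroup.map_bot]
      rw [le_bot_iff, Subgroup.map_eq_bot_iff, QuotientGroup.ker_mk'] at h5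
      exact h5
  by_contra hne
  set D := derivedSeries G (∑ i, d i * l i) with hD
  have hcard : Nat.card D ≠ 1 := by
    intro h; exact hne (card_eq_one.1 h)
  obtain ⟨s, hs, hsd⟩ := Nat.exists_prime_and_dvd hcard
  obtain ⟨i, rfl⟩ := hcover s hs (hsd.trans (card_subgroup_dvd_card D))
  have h1 := ups_relIndex_even (p := q i) (G := G) (j := 0) (by simp)
  rw [ups_zero, relIndex_bot_left] at h1
  have h2 : q i ∣ Nat.card (ups (q i) G (0 + 1)) := hsd.trans (card_dvd_of_le (key i))
  have h3 := Nat.dvd_gcd h2 (dvd_refl (q i))
  rw [h1] at h3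
  exact hs.one_lt.ne' (Nat.dvd_one.1 h3)

/-- The Hall–Higman bound on derived length: let G be a finite solvable group, let p₁, …, p_r be distinct primes that include every prime dividing the order of G, and suppose that for each i the Sylow p_i-subgroups of G have derived length at most d_i and G has p_i-length at most l_i. Then G has derived length at most Σ d_i l_i. -/
theorem result {G : Type*} [Group G] [Finite G] (hG : Group.IsSolvable G) (r : ℕ) (q : Fin r → ℕ) (hq : ∀ i, (q i).Prime) (hinj : Function.Injective q) (hcover : ∀ s : ℕ, s.Prime → s ∣ Nat.card G → ∃ i, q i = s) (d l : Fin r → ℕ) (hd : ∀ i, ∀ P : Subgroup G, (haveI := Fact.mk (hq i); ∃ S : Sylow (q i) G, (S : Subgroup G) = P) → derivedSeries ↥P (d i) = ⊥) (hl : ∀ i, Cfsg.PLengthLE (q i) (l i) G) : derivedSeries G (Finset.univ.sum fun i => d i * l i) = ⊥ := by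
  exact aux r q hq d _ G l rfl hcover (fun i S => hd i S ⟨S, rfl⟩) hl

end Cfsg.Agent.S3791
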