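import Cfsg.Statements.S3796
import Cfsg.Agent.Lib.Helper66.WardAmbient

set_option autoImplicit false
set_option linter.style.haveILetI false
open Cfsg

namespace Cfsg.Agent.S3796

open Cfsg.Agent.Lib.Helper66 in
/-- Ward's Theorem: let G be a finite solvable group and A an elementary abelian group of automorphisms of G of order p² (p a prime) with no non-identity common fixed point. Then G has Fitting height at most 2: G has Fitting height at most m when there is a chain of normal subgroups 1 = F₀ ≤ F₁ ≤ ⋯ ≤ F_m = G with each F_{i+1}/F_i nilpotent. -/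
theorem result {G : Type*} [Group G] [Finite G] (hG : Group.IsSolvable G) {p : ℕ} (hp : p.Prime) (A : Subgroup (MulAut G)) (hA : Cfsg.IsElementaryAbelian p A) (hcard : Nat.card A = p ^ 2) (hfpf : ∀ g : G, (∀ a ∈ A, a g = g) → g = 1) : ∃ F : Fin (2 + 1) → Subgroup G, F 0 = ⊥ ∧ F (Fin.last 2) = ⊤ ∧ Monotone F ∧ (∀ i, (F i).Normal) ∧ ∀ i : Fin 2, ∃ k : ℕ, (F i.succ).lowerCentralSeries k ≤ F i.castSucc := by
  haveI : Fact p.Prime := ⟨hp⟩
  haveI : Finite A := Nat.finite_of_card_ne_zero (by rw [hcard]; exact pow_ne_zero 2 hp.ne_zero)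
  -- `p` does not divide `|G|`
  have hApg : IsPGroup p A := IsPGroup.of_card hcard
  have hpG : ¬ p ∣ Nat.card G := by
    have h1 := hApg.card_modEq_card_fixedPoints G
    have h2 : MulAction.fixedPoints A G = {1} := by
      ext g
      constructor
      · intro hg
        exact hfpf g (fun a ha => hg ⟨a, ha⟩)
      · rintro rfl a
        exact map_one a.1
    have h5 : Nat.card ({1} : Set G) = 1 := by simp
    rw [h2, h5] at h1
    intro hd
    have h3 : Nat.card G ≡ 0 [MOD p] := (Nat.modEq_zero_iff_dvd).2 hd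
    have h4 : 1 ≡ 0 [MOD p] := h1.symm.trans h3
    exact hp.one_lt.ne' (Nat.dvd_one.1 ((Nat.modEq_zero_iff_dvd).1 h4))
  obtain ⟨iG, hiG⟩ : ∃ iG : G →* G ⋊[A.subtype] A, iG = SemidirectProduct.inl := ⟨_, rfl⟩
  obtain ⟨iA, hiA⟩ : ∃ iA : A →* G ⋊[A.subtype] A, iA = SemidirectProduct.inr := ⟨_, rfl⟩
  have hiGinj : Function.Injective iG := hiG ▸ SemidirectProduct.inl_injective
  have hiAinj : Function.Injective iA := hiA ▸ SemidirectProduct.inr_injective
  have hconj : ∀ (a : A) (g : G), iA a * iG g = iG (a.1 g) * iA a := by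
    intro a g
    rw [hiA, hiG]
    have := SemidirectProduct.inl_aut (φ := A.subtype) a g
    rw [Subgroup.subtype_apply] at this
    rw [this, map_inv, inv_mul_cancel_right]
  have hcG : Nat.card iG.range = Nat.card G :=
    (Nat.card_congr (MonoidHom.ofInjective hiGinj).toEquiv).symm
  have hcA : Nat.card iA.range = Nat.card A :=
    (Nat.card_congr (MonoidHom.ofInjective hiAinj).toEquiv).symm
  have hW : WardData iG.range iA.range p :=
    { hp := hp
      Gn := by
        rw [hiG, SemidirectProduct.range_inl_eq_ker_rightHom]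
        infer_instance
      sup := by
        rw [eq_top_iff]
        intro x _
        rw [← SemidirectProduct.inl_left_mul_inr_right x]
        exact mul_mem (Subgroup.mem_sup_left ⟨x.left, by rw [hiG]⟩)
          (Subgroup.mem_sup_right ⟨x.right, by rw [hiA]⟩)
      comm := by
        rintro _ ⟨a, rfl⟩ _ ⟨b, rfl⟩
        rw [← map_mul, ← map_mul, hA.1.is_comm.comm a b]
      exp := by
        rintro _ ⟨a, rfl⟩
        rw [← map_pow]
        have : a ^ p = 1 := Subtype.ext (hA.2 a.1 a.2)
        rw [this, map_one]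
      card := hcA.trans hcard
      cop := by
        rw [hcA, hcG, hcard]
        exact Nat.Coprime.pow_left 2 ((Nat.Prime.coprime_iff_not_dvd hp).2 hpG)
      sol := Group.isSolvable_of_surjective iG.rangeRestrict_surjective
      fix := by
        rintro _ ⟨g, rfl⟩ hfix
        have : g = 1 := by
          apply hfpf
          intro a ha
          have h1 := hfix (iA ⟨a, ha⟩) ⟨_, rfl⟩
          rw [hconj] at h1
          exact hiGinj (mul_right_cancel h1)
        rw [this, map_one] }
  haveI : Finite (G ⋊[A.subtype] A) := Finite.of_equiv _ SemidirectProduct.equivProd.symm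
  obtain ⟨D, hDG, hDn, ⟨k₁, hk₁⟩, ⟨k₂, hk₂⟩⟩ := ward_ambient _ _ _ _ p hW rfl
  refine ⟨![⊥, D.comap iG, ⊤], rfl, rfl, ?_, ?_, ?_⟩
  · rw [Fin.monotone_iff_le_succ]
    intro i
    fin_cases i
    · exact bot_le
    · exact le_top
  · intro i
    fin_cases i
    · exact (inferInstance : (⊥ : Subgroup G).Normal)
    · exact (inferInstance : (D.comap iG).Normal)
    · exact (inferInstance : (⊤ : Subgroup G).Normal)
  · intro i
    fin_cases i
    · refine ⟨k₁, ?_⟩
      change (D.comap iG).lowerCentralSeries k₁ ≤ ⊥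
      rw [le_bot_iff, ← Subgroup.map_eq_bot_iff_of_injective _ hiGinj,
        Subgroup.map_lowerCentralSeries, Subgroup.map_comap_eq_self hDG, hk₁]
    · refine ⟨k₂, ?_⟩
      change (⊤ : Subgroup G).lowerCentralSeries k₂ ≤ D.comap iG
      rw [← Subgroup.map_le_iff_le_comap, Subgroup.map_lowerCentralSeries,
        ← MonoidHom.range_eq_map]
      exact hk₂

end Cfsg.Agent.S3796
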