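import Cfsg.Statements.S3797
import Cfsg.Agent.S3798
import Cfsg.Agent.Lib.Helper66.OneClassC
import Cfsg.Agent.Lib.Helper66.Homocyc

set_option autoImplicit false
set_option linter.style.haveILetI false
open Cfsg

namespace Cfsg.Agent.S3797

/-- Let G be a finite solvable group of even order whose Sylow 2-subgroups contain more than one involution, and suppose all involutions of G are conjugate. Then G has 2-length at most 1, and a Sylow 2-subgroup S of G is either homocyclic (a direct product of cyclic groups of one common order) or a non-abelian 2-group with more than one involution admitting a solvable group of automorphisms transitive on its involutions. -/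
theorem result {G : Type*} [Group G] [Finite G] (hG : Group.IsSolvable G) (heven : Even (Nat.card G)) (S : Sylow 2 G) (htwo : ∃ x y : G, x ∈ (S : Subgroup G) ∧ y ∈ (S : Subgroup G) ∧ x ≠ y ∧ x ≠ 1 ∧ x ^ 2 = 1 ∧ y ≠ 1 ∧ y ^ 2 = 1) (hconj : ∀ x y : G, x ≠ 1 → x ^ 2 = 1 → y ≠ 1 → y ^ 2 = 1 → IsConj x y) : Cfsg.PLengthLE 2 1 G ∧ ((∃ m r : ℕ, Nonempty (↥(S : Subgroup G) ≃* (Fin r → Multiplicative (ZMod (2 ^ m))))) ∨ (¬ IsMulCommutative (S : Subgroup G) ∧ ∃ Y : Subgroup (MulAut ↥(S : Subgroup G)), Group.IsSolvable Y ∧ ∀ x y : ↥(S : Subgroup G), x ≠ 1 → x ^ 2 = 1 → y ≠ 1 → y ^ 2 = 1 → ∃ a ∈ Y, a x = y)) := by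
  haveI hp : Fact (Nat.Prime 2) := ⟨Nat.prime_two⟩
  haveI hNn : (Cfsg.pPrimeCore 2 G).Normal := Cfsg.Agent.Lib.Helper1.pPrimeCore_normal 2 G
  have hNc : (Nat.card (Cfsg.pPrimeCore 2 G)).Coprime 2 := Cfsg.Agent.Lib.Helper1.pPrimeCore_coprime 2 G
  have hXs : Group.IsSolvable (G ⧸ Cfsg.pPrimeCore 2 G) :=
    Group.isSolvable_of_surjective (QuotientGroup.mk'_surjective _)
  have hSN : (S : Subgroup G) ⊓ Cfsg.pPrimeCore 2 G = ⊥ :=
    Cfsg.Agent.Lib.Helper66.inf_eq_bot_of_pgroup_coprime S.2 hNc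
  have hkill : ∀ x ∈ (S : Subgroup G), QuotientGroup.mk' (Cfsg.pPrimeCore 2 G) x = 1 → x = 1 := by
    intro x hx h1
    have h3 : x ∈ (S : Subgroup G) ⊓ Cfsg.pPrimeCore 2 G := ⟨hx, (QuotientGroup.eq_one_iff x).1 h1⟩
    rwa [hSN, Subgroup.mem_bot] at h3
  have hne1 : ∀ x : G, orderOf x = 2 → x ≠ 1 := by
    rintro x hx rfl
    rw [orderOf_one] at hx
    omega
  have hord : ∀ x : G, orderOf x = 2 → x ^ 2 = 1 := by
    intro x hx
    rw [← hx]; exact pow_orderOf_eq_one x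
  have hH : ∀ x y : G ⧸ Cfsg.pPrimeCore 2 G, orderOf x = 2 → orderOf y = 2 → IsConj x y := by
    intro x y hx hy
    obtain ⟨x', hx', rfl⟩ := Cfsg.Agent.S3798.lift_order _ hNc x hx
    obtain ⟨y', hy', rfl⟩ := Cfsg.Agent.S3798.lift_order _ hNc y hy
    exact (QuotientGroup.mk' (Cfsg.pPrimeCore 2 G)).map_isConj
      (hconj x' y' (hne1 x' hx') (hord x' hx') (hne1 y' hy') (hord y' hy'))
  have hinv : ∀ x ∈ (S : Subgroup G), x ≠ 1 → x ^ 2 = 1 →
      orderOf (QuotientGroup.mk' (Cfsg.pPrimeCore 2 G) x) = 2 := by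
    intro x hx hx1 hx2
    apply orderOf_eq_prime
    · rw [← map_pow, hx2, map_one]
    · intro h
      exact hx1 (hkill x hx h)
  obtain ⟨hidx, hcen⟩ := Cfsg.Agent.Lib.Helper66.one_class_core hXs
    Cfsg.Agent.Lib.Helper80.pPrimeCore_quotient_eq_bot hH
    (by
      obtain ⟨x, y, hx, hy, hxy, hx1, hx2, hy1, hy2⟩ := htwo
      refine ⟨QuotientGroup.mk' _ x, QuotientGroup.mk' _ y, ?_, hinv x hx hx1 hx2, hinv y hy hy1 hy2⟩
      intro h
      apply hxy
      have h1 : x * y⁻¹ = 1 := by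
        apply hkill _ (mul_mem hx (inv_mem hy))
        rw [map_mul, map_inv, h, mul_inv_cancel]
      exact mul_inv_eq_one.1 h1)
  refine ⟨?_, ?_⟩
  · have h1 := Cfsg.Agent.Lib.Helper66.pLengthLE_extension (p := 2) (Cfsg.pPrimeCore 2 G) (a := 0) (b := 1)
      (Cfsg.Agent.Lib.Helper66.pLengthLE_zero_of_coprime hNc)
      (Cfsg.Agent.S3798.plen_of_index 2 hidx)
    simpa using h1
  · -- the image of `S` lies in `O₂`
    haveI hPn : (Cfsg.pCore 2 (G ⧸ Cfsg.pPrimeCore 2 G)).Normal := Cfsg.Agent.Lib.Helper1.pCore_normal 2 _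
    have hSP : ∀ s ∈ (S : Subgroup G),
        QuotientGroup.mk' (Cfsg.pPrimeCore 2 G) s ∈ Cfsg.pCore 2 (G ⧸ Cfsg.pPrimeCore 2 G) := by
      intro s hs
      rw [← QuotientGroup.eq_one_iff, ← orderOf_eq_one_iff]
      obtain ⟨j, hj⟩ := S.2 ⟨s, hs⟩
      have hj' : s ^ 2 ^ j = 1 := by simpa using congrArg Subtype.val hj
      have h1 : orderOf ((QuotientGroup.mk' (Cfsg.pPrimeCore 2 G) s : G ⧸ Cfsg.pPrimeCore 2 G) :
          (G ⧸ Cfsg.pPrimeCore 2 G) ⧸ Cfsg.pCore 2 (G ⧸ Cfsg.pPrimeCore 2 G)) ∣ 2 ^ j := by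
        apply orderOf_dvd_of_pow_eq_one
        rw [← QuotientGroup.mk_pow, ← map_pow, hj', map_one, QuotientGroup.mk_one]
      have h2 : orderOf ((QuotientGroup.mk' (Cfsg.pPrimeCore 2 G) s : G ⧸ Cfsg.pPrimeCore 2 G) :
          (G ⧸ Cfsg.pPrimeCore 2 G) ⧸ Cfsg.pCore 2 (G ⧸ Cfsg.pPrimeCore 2 G)) ∣
          (Cfsg.pCore 2 (G ⧸ Cfsg.pPrimeCore 2 G)).index := by
        rw [Subgroup.index_eq_card]; exact orderOf_dvd_natCard _
      have h3 : Nat.Coprime (2 ^ j) (Cfsg.pCore 2 (G ⧸ Cfsg.pPrimeCore 2 G)).index :=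
        Nat.Coprime.pow_left j ((Nat.Prime.coprime_iff_not_dvd Nat.prime_two).2 hidx)
      exact Nat.eq_one_of_dvd_coprimes h3 h1 h2
    have hSc : ∀ x ∈ (S : Subgroup G), x ≠ 1 → x ^ 2 = 1 →
        x ∈ Subgroup.centralizer ((S : Subgroup G) : Set G) := by
      intro x hx hx1 hx2
      rw [Subgroup.mem_centralizer_iff]
      intro s hs
      have h1 := Subgroup.mem_centralizer_iff.1 (hcen _ (hinv x hx hx1 hx2)) _ (hSP s hs)
      have h2 : s * x * (x * s)⁻¹ = 1 := by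
        apply hkill _ (mul_mem (mul_mem hs hx) (inv_mem (mul_mem hx hs)))
        rw [map_mul, map_inv, map_mul, map_mul, h1, mul_inv_cancel]
      exact mul_inv_eq_one.1 h2
    have htr : ∀ x y : ↥(S : Subgroup G), x ≠ 1 → x ^ 2 = 1 → y ≠ 1 → y ^ 2 = 1 →
        ∃ a ∈ (S : Subgroup G).normalizerMonoidHom.range, a x = y := by
      intro x y hx1 hx2 hy1 hy2
      have hx1' : (x : G) ≠ 1 := fun h => hx1 (Subtype.ext h)
      have hy1' : (y : G) ≠ 1 := fun h => hy1 (Subtype.ext h)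
      have hx2' : (x : G) ^ 2 = 1 := by simpa using congrArg Subtype.val hx2
      have hy2' : (y : G) ^ 2 = 1 := by simpa using congrArg Subtype.val hy2
      obtain ⟨c, hc⟩ := isConj_iff.1 (hconj x y hx1' hx2' hy1' hy2')
      have hc' : c⁻¹⁻¹ * (x : G) * c⁻¹ = y := by rw [inv_inv]; exact hc
      obtain ⟨n, hn, hn'⟩ := S.conj_eq_normalizer_conj_of_mem_centralizer (x : G) c⁻¹
        (hSc x x.2 hx1' hx2') (by rw [hc']; exact hSc y y.2 hy1' hy2')
      refine ⟨_, ⟨⟨n⁻¹, inv_mem hn⟩, rfl⟩, ?_⟩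
      apply Subtype.ext
      rw [hc'] at hn'
      rw [hn']
      change n⁻¹ * (x : G) * n⁻¹⁻¹ = _
      rw [inv_inv]
    by_cases hcomm : IsMulCommutative (S : Subgroup G)
    · left
      apply Cfsg.Agent.Lib.Helper66.homocyclic_of_transitive (fun a b => hcomm.is_comm.comm a b) S.2
      intro x y hx1 hx2 hy1 hy2
      obtain ⟨a, -, ha⟩ := htr x y hx1 hx2 hy1 hy2
      exact ⟨a, ha⟩
    · right
      refine ⟨hcomm, (S : Subgroup G).normalizerMonoidHom.range, ?_, htr⟩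
      exact Group.isSolvable_of_surjective (S : Subgroup G).normalizerMonoidHom.rangeRestrict_surjective

end Cfsg.Agent.S3797
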