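import Cfsg.Statements.S3799
-- import your own Cfsg.Agent.* helpers here
import Cfsg.Agent.Lib.Helper67.Heisenberg

set_option autoImplicit false
open Cfsg

namespace Cfsg.Agent.S3799

/-- For every odd prime p and every n ≥ 1 there is an extraspecial p-group of order p^(1+2n) and exponent p; concretely, the general linear group of degree n + 2 over the field with p elements contains such a subgroup. -/
theorem result (p : ℕ) [Fact p.Prime] (hp : p ≠ 2) (n : ℕ) (hn : 1 ≤ n) : ∃ E : Subgroup (Matrix.GeneralLinearGroup (Fin (n + 2)) (ZMod p)), Cfsg.IsExtraspecial p ↥E ∧ Nat.card E = p ^ (1 + 2 * n) ∧ ∀ x ∈ E, x ^ p = 1 := by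
  classical
  haveI : Nonempty (Fin n) := ⟨⟨0, hn⟩⟩
  have hinj : Function.Injective
      (Cfsg.Agent.Lib.Helper67.Heis.toGL : Cfsg.Agent.Lib.Helper67.Heis (Fin n) (ZMod p) →* _) :=
    Cfsg.Agent.Lib.Helper67.Heis.toGL_injective
  refine ⟨(Cfsg.Agent.Lib.Helper67.Heis.toGL :
    Cfsg.Agent.Lib.Helper67.Heis (Fin n) (ZMod p) →* _).range, ?_, ?_, ?_⟩
  · exact Cfsg.Agent.Lib.Helper67.isExtraspecial_of_mulEquiv (MonoidHom.ofInjective hinj)
      (Cfsg.Agent.Lib.Helper67.Heis.isExtraspecial hp)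
  · rw [← Nat.card_congr (MonoidHom.ofInjective hinj).toEquiv, Cfsg.Agent.Lib.Helper67.Heis.card_eq,
      Nat.card_zmod, Fintype.card_fin]
  · rintro _ ⟨x, rfl⟩
    rw [← map_pow, Cfsg.Agent.Lib.Helper67.Heis.pow_prime_eq_one hp, map_one]

end Cfsg.Agent.S3799
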