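import Cfsg.Statements.S3950
-- import your own Cfsg.Agent.* helpers here
import Cfsg.Agent.Lib.Helper41.SchurHeis
import Cfsg.Agent.Lib.Helper41.SchurDihedral

set_option autoImplicit false
open Cfsg

namespace Cfsg.Agent.S3950

open Cfsg.Agent.Lib.Helper41 Subgroup
open scoped commutatorElement

lemma exists_surj_of_not_cyclic {G : Type*} [CommGroup G] [Finite G] (h : ¬ IsCyclic G) :
    ∃ p : ℕ, p.Prime ∧ ∃ θ : G →* Multiplicative (ZMod p × ZMod p), Function.Surjective θ := by
  classical
  obtain ⟨ι, _, n, hn, ⟨e⟩⟩ := CommGroup.equiv_prod_multiplicative_zmod_of_finite G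
  by_cases hcop : Pairwise (Function.onFun Nat.Coprime n)
  · exfalso
    apply h
    let e2 : Multiplicative (ZMod (∏ i, n i)) ≃* ((i : ι) → Multiplicative (ZMod (n i))) :=
      (AddEquiv.toMultiplicative (ZMod.prodEquivPi n hcop).toAddEquiv).trans
        (MulEquiv.piMultiplicative _)
    exact isCyclic_of_surjective (e2.trans e.symm) (e2.trans e.symm).surjective
  · rw [Pairwise] at hcop
    push Not at hcop
    obtain ⟨i, j, hij, hc⟩ := hcop
    obtain ⟨p, hp, hpi, hpj⟩ := Nat.Prime.not_coprime_iff_dvd.mp hc
    refine ⟨p, hp, ?_⟩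
    let fi : Multiplicative (ZMod (n i)) →* Multiplicative (ZMod p) :=
      AddMonoidHom.toMultiplicative (ZMod.castHom hpi (ZMod p)).toAddMonoidHom
    let fj : Multiplicative (ZMod (n j)) →* Multiplicative (ZMod p) :=
      AddMonoidHom.toMultiplicative (ZMod.castHom hpj (ZMod p)).toAddMonoidHom
    have hfi : Function.Surjective fi := fun q => by
      obtain ⟨x, hx⟩ := ZMod.castHom_surjective hpi q.toAdd
      exact ⟨Multiplicative.ofAdd x, by
        change Multiplicative.ofAdd (ZMod.castHom hpi (ZMod p) x) = q
        rw [hx]; rfl⟩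
    have hfj : Function.Surjective fj := fun q => by
      obtain ⟨x, hx⟩ := ZMod.castHom_surjective hpj q.toAdd
      exact ⟨Multiplicative.ofAdd x, by
        change Multiplicative.ofAdd (ZMod.castHom hpj (ZMod p) x) = q
        rw [hx]; rfl⟩
    let pr : ((k : ι) → Multiplicative (ZMod (n k))) →*
        Multiplicative (ZMod p) × Multiplicative (ZMod p) :=
      (fi.comp (Pi.evalMonoidHom _ i)).prod (fj.comp (Pi.evalMonoidHom _ j))
    have hpr : Function.Surjective pr := by
      rintro ⟨u, v⟩
      obtain ⟨x, rfl⟩ := hfi u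
      obtain ⟨y, rfl⟩ := hfj v
      let w : (k : ι) → Multiplicative (ZMod (n k)) := Function.update (Function.update 1 i x) j y
      have hwi : w i = x := by
        simp only [w]
        rw [Function.update_of_ne hij, Function.update_self]
      have hwj : w j = y := by
        simp only [w]
        rw [Function.update_self]
      refine ⟨w, ?_⟩
      apply Prod.ext
      · change fi (w i) = fi x
        rw [hwi]
      · change fj (w j) = fj y
        rw [hwj]
    let e3 : Multiplicative (ZMod p) × Multiplicative (ZMod p) ≃* Multiplicative (ZMod p × ZMod p) :=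
      (MulEquiv.prodMultiplicative _ _).symm
    exact ⟨(e3.toMonoidHom.comp pr).comp e.toMonoidHom,
      (e3.surjective.comp hpr).comp e.surjective⟩

/-- A finite abelian group has trivial Schur multiplier if and only if it is cyclic. -/
theorem result {G : Type*} [CommGroup G] [Finite G] : Cfsg.HasCyclicSchurMultiplier G 1 ↔ IsCyclic G := by
  constructor
  · intro hM
    by_contra hcyc
    obtain ⟨p, hp, θ, hθ⟩ := exists_surj_of_not_cyclic hcyc
    have hp0 : NeZero p := ⟨hp.ne_zero⟩
    obtain ⟨φ, hφ⟩ := hM.2 (pb θ (Heis.proj (R := ZMod p))) (pbFst θ Heis.proj)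
      (stem_pullback_comm θ hθ _ Heis.proj_stem)
    have e := (kerPbFstEquiv θ (Heis.proj (R := ZMod p))).trans Heis.kerEquiv
    have h1 : Nat.card (pbFst θ (Heis.proj (R := ZMod p))).ker = p := by
      rw [Nat.card_congr e.toEquiv]; simp
    have h2 : Nat.card (pbFst θ (Heis.proj (R := ZMod p))).ker ≤
        Nat.card (Multiplicative (ZMod 1)) := Nat.card_le_card_of_surjective φ hφ
    rw [h1] at h2
    have h3 : Nat.card (Multiplicative (ZMod 1)) = 1 := by simp
    have := hp.one_lt
    omega
  · intro hcyc
    refine hasCyclicSchurMultiplier_one_of_card_le fun Γ _ _ σ hσ => ?_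
    obtain ⟨g, hg⟩ := hcyc.exists_generator
    obtain ⟨a, rfl⟩ := hσ.1 g
    have hk : closure ({a} : Set Γ) = ⊤ := by
      apply closure_eq_top_of_stem σ hσ
      rw [Set.image_singleton, eq_top_iff]
      intro x _
      rw [← zpowers_eq_closure]; exact hg x
    have h1 : commutator Γ ≤ ⊥ := by
      refine commutator_le_of_generators _ _ hk ?_
      intro x hx y hy
      have hx' : x = a := hx
      have hy' : y = a := hy
      rw [hx', hy', commutatorElement_self]; exact one_mem _
    have h2 : σ.ker = ⊥ := eq_bot_iff.mpr (hσ.2.2.trans h1)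
    rw [h2]; simp

end Cfsg.Agent.S3950
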