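import Cfsg.Statements.S3951
-- import your own Cfsg.Agent.* helpers here
import Cfsg.Agent.Lib.Helper41.SchurHeis

set_option autoImplicit false
open Cfsg

namespace Cfsg.Agent.S3951

open Cfsg.Agent.Lib.Helper41 Subgroup
open scoped commutatorElement

lemma stem_comm_two_gen_card_le {Γ : Type*} {G : Type*} [Group Γ] [Finite Γ] [CommGroup G]
    (σ : Γ →* G) (hσ : IsStemExtension σ) (a b : Γ) (hgen : closure {σ a, σ b} = ⊤) (n : ℕ)
    (hn : 0 < n) (hb : σ b ^ n = 1) : Nat.card σ.ker ≤ n := by
  have hc : ⁅a, b⁆ ∈ center Γ := by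
    apply hσ.2.1
    rw [MonoidHom.mem_ker, map_commutatorElement, commutatorElement_eq_one_iff_mul_comm, mul_comm]
  have hk : closure ({a, b} : Set Γ) = ⊤ := by
    apply closure_eq_top_of_stem σ hσ
    rw [Set.image_pair]; exact hgen
  have hnorm : (zpowers ⁅a, b⁆).Normal :=
    normal_of_le_center _ (by rw [zpowers_le]; exact hc)
  have h1 : σ.ker ≤ zpowers ⁅a, b⁆ := by
    refine hσ.2.2.trans (commutator_le_of_generators _ _ hk ?_)
    intro x hx y hy
    have hx' : x = a ∨ x = b := hx
    have hy' : y = a ∨ y = b := hy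
    rcases hx' with h | h <;> rcases hy' with h' | h' <;> rw [h, h']
    · rw [commutatorElement_self]; exact one_mem _
    · exact mem_zpowers _
    · rw [← commutatorElement_inv a b]; exact (zpowers ⁅a, b⁆).inv_mem (mem_zpowers _)
    · rw [commutatorElement_self]; exact one_mem _
  have h2 : ⁅a, b⁆ ^ n = 1 := by
    have hbn : b ^ n ∈ center Γ := by
      apply hσ.2.1
      rw [MonoidHom.mem_ker, map_pow, hb]
    have h3 : a * b * a⁻¹ = ⁅a, b⁆ * b := by rw [commutatorElement_def]; group
    have h4 : a * b ^ n * a⁻¹ = ⁅a, b⁆ ^ n * b ^ n := by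
      rw [← conj_pow, h3]
      exact (Commute.mul_pow (mem_center_iff.mp hc b).symm n)
    have h5 : a * b ^ n * a⁻¹ = b ^ n := by
      rw [mem_center_iff.mp hbn a]; group
    rw [h5] at h4
    exact (mul_eq_right.mp h4.symm)
  calc Nat.card σ.ker ≤ Nat.card (zpowers ⁅a, b⁆) := Subgroup.card_le_of_le h1
    _ = orderOf ⁅a, b⁆ := Nat.card_zpowers _
    _ ≤ n := orderOf_le_of_pow_eq_one hn h2

/-- For positive integers `m` and `n` with `n` dividing `m`, the Schur multiplier of the abelian group `ZMod m × ZMod n` (written multiplicatively) is cyclic of order `n`. In particular the elementary abelian group of order `p ^ 2` has multiplier of order `p`. -/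
theorem result (m n : ℕ) [NeZero m] [NeZero n] (hnm : n ∣ m) : Cfsg.HasCyclicSchurMultiplier (Multiplicative (ZMod m × ZMod n)) n := by
  let θ : Multiplicative (ZMod m × ZMod n) →* Multiplicative (ZMod n × ZMod n) :=
    AddMonoidHom.toMultiplicative
      ((ZMod.castHom hnm (ZMod n)).toAddMonoidHom.prodMap (AddMonoidHom.id (ZMod n)))
  have hθ : Function.Surjective θ := by
    intro q
    obtain ⟨i, hi⟩ := ZMod.castHom_surjective hnm q.toAdd.1
    exact ⟨Multiplicative.ofAdd (i, q.toAdd.2), by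
      change Multiplicative.ofAdd (ZMod.castHom hnm (ZMod n) i, q.toAdd.2) = q
      rw [hi]; rfl⟩
  refine hasSchurMultiplier_of_card_le (pb θ (Heis.proj (R := ZMod n))) (pbFst θ Heis.proj)
    (stem_pullback_comm θ hθ _ Heis.proj_stem)
    ((kerPbFstEquiv θ Heis.proj).trans Heis.kerEquiv) ?_
  intro Γ _ _ σ hσ
  have hcard : Nat.card (Multiplicative (ZMod n)) = n := by simp
  rw [hcard]
  obtain ⟨a, ha⟩ := hσ.1 (Multiplicative.ofAdd (1, 0))
  obtain ⟨b, hb⟩ := hσ.1 (Multiplicative.ofAdd (0, 1))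
  refine stem_comm_two_gen_card_le σ hσ a b ?_ n (Nat.pos_of_ne_zero (NeZero.ne n)) ?_
  · rw [ha, hb, eq_top_iff]
    intro x _
    have h1 : x = (Multiplicative.ofAdd ((1 : ZMod m), (0 : ZMod n))) ^ (x.toAdd.1.val) *
        (Multiplicative.ofAdd ((0 : ZMod m), (1 : ZMod n))) ^ (x.toAdd.2.val) := by
      rw [← ofAdd_nsmul, ← ofAdd_nsmul, ← ofAdd_add]
      apply Multiplicative.toAdd.injective
      apply Prod.ext <;> simp
    rw [h1]
    exact mul_mem (pow_mem (subset_closure (by simp)) _) (pow_mem (subset_closure (by simp)) _)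
  · rw [hb, ← ofAdd_nsmul]
    apply Multiplicative.toAdd.injective
    apply Prod.ext <;> simp

end Cfsg.Agent.S3951
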