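import Cfsg.Statements.S3952
import Cfsg.Agent.Lib.Helper79.Central
import Cfsg.Agent.Lib.Helper20.CharOrth
import Cfsg.Agent.S0145
import Cfsg.Agent.S0136

set_option autoImplicit false
open Cfsg

namespace Cfsg.Agent.S3952

open Cfsg.Agent.Lib.Helper79
open scoped ComplexConjugate

noncomputable def om {Γ : Type*} [Group Γ] (χ : IrrCharacter Γ) (z : Γ) : ℂ := χ.1 z / χ.1 1

theorem om_one {Γ : Type*} [Group Γ] (χ : IrrCharacter Γ) : om χ 1 = 1 :=
  div_self (IsIrrCharacter.one_ne_zero χ.2)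

theorem om_mul {Γ : Type*} [Group Γ] (χ : IrrCharacter Γ) (z : Γ) {w : Γ} (hw : w ∈ Subgroup.center Γ) :
    om χ (z * w) = om χ z * om χ w := by
  have h1 := IsIrrCharacter.one_ne_zero χ.2
  unfold om
  rw [IsIrrCharacter.mul_central χ.2 w hw z]
  field_simp

theorem om_pow {Γ : Type*} [Group Γ] (χ : IrrCharacter Γ) {z : Γ} (hz : z ∈ Subgroup.center Γ) (n : ℕ) :
    om χ (z ^ n) = om χ z ^ n := by
  induction n with
  | zero => simp [om_one]
  | succ n ih => rw [pow_succ, pow_succ, om_mul χ _ hz, ih]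

theorem eq_om {Γ : Type*} [Group Γ] (χ : IrrCharacter Γ) (z : Γ) : χ.1 z = χ.1 1 * om χ z := by
  have h1 := IsIrrCharacter.one_ne_zero χ.2
  unfold om
  field_simp

theorem om_pow_deg {Γ : Type*} [Group Γ] (χ : IrrCharacter Γ) (n : ℕ) (hn : χ.1 1 = n) {z : Γ}
    (hz : z ∈ Subgroup.center Γ) (hz' : z ∈ commutator Γ) : om χ z ^ n = 1 := by
  have h1 := IsIrrCharacter.one_ne_zero χ.2
  obtain ⟨d, ρ, hρ, hχ⟩ := χ.2
  obtain ⟨c, hc⟩ := schur_scalar ρ (ρ z) (by
    intro g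
    have : z * g = g * z := (Subgroup.mem_center_iff.mp hz g).symm
    show ρ z * ρ g = ρ g * ρ z
    rw [← map_mul, ← map_mul, this])
  have e1 : ρ.character z = c * ρ.character 1 := by
    simp only [Representation.character, hc, map_smul, map_one, smul_eq_mul]
    rfl
  have hom : om χ z = c := by
    unfold om
    rw [← hχ, e1]
    rw [← hχ] at h1
    field_simp
  have hd : d = n := by
    have : χ.1 1 = (d : ℂ) := by rw [← hχ, Representation.char_one]; simp
    rw [hn] at this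
    exact_mod_cast this.symm
  let δ : Γ →* ℂ := LinearMap.det.comp ρ
  have hδ : δ.toHomUnits z = 1 := by
    have hle : commutator Γ ≤ δ.toHomUnits.ker := Abelianization.commutator_subset_ker _
    exact hle hz'
  have hδ' : δ z = 1 := by
    have := congrArg Units.val hδ
    simpa using this
  have hdet : δ z = c ^ d := by
    show LinearMap.det (ρ z) = _
    rw [hc, LinearMap.det_smul, LinearMap.det_id, mul_one]
    simp
  rw [hom, ← hd, ← hdet, hδ']

theorem sum_mult {Z : Type*} [Group Z] [Fintype Z] (μ : Z → ℂ) (hμ : ∀ a b, μ (a * b) = μ a * μ b)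
    (z₂ : Z) (h : μ z₂ ≠ 1) : ∑ z : Z, μ z = 0 := by
  have h1 : ∑ z : Z, μ z = μ z₂ * ∑ z : Z, μ z := by
    rw [Finset.mul_sum]
    rw [← Fintype.sum_equiv (Equiv.mulLeft z₂) (fun z => μ (z₂ * z)) μ (fun z => rfl)]
    exact Finset.sum_congr rfl (fun z _ => hμ z₂ z)
  have h2 : (1 - μ z₂) * ∑ z : Z, μ z = 0 := by
    rw [sub_mul, one_mul, ← h1, sub_self]
  rcases mul_eq_zero.mp h2 with h3 | h3
  · exact absurd (sub_eq_zero.mp h3).symm h
  · exact h3

theorem deg_nat {Γ : Type*} [Group Γ] (χ : IrrCharacter Γ) : ∃ n : ℕ, χ.1 1 = n := by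
  obtain ⟨d, ρ, hρ, hχ⟩ := χ.2
  exact ⟨d, by rw [← hχ, Representation.char_one]; simp⟩

theorem core {Γ : Type*} [Group Γ] [Finite Γ] (Z : Subgroup Γ) (hZc : Z ≤ Subgroup.center Γ)
    (hZd : Z ≤ commutator Γ) (z₀ : Γ) (hz₀ : z₀ ∈ Z) (p k : ℕ) (hp : p.Prime)
    (ho : orderOf z₀ = p ^ k) : p ^ (2 * k) ∣ Z.index := by
  classical
  rcases Nat.eq_zero_or_pos k with rfl | hk
  · simp
  obtain ⟨j, rfl⟩ : ∃ j, k = j + 1 := ⟨k - 1, by omega⟩
  have : Finite (IrrCharacter Γ) := Cfsg.Agent.Lib.Helper20.finite_irrCharacter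
  have := Fintype.ofFinite (IrrCharacter Γ)
  have := Fintype.ofFinite Z
  have hz1 : z₀ ^ p ^ j ≠ 1 := by
    intro h
    have := orderOf_dvd_of_pow_eq_one h
    rw [ho] at this
    have := (Nat.pow_dvd_pow_iff_le_right hp.one_lt).mp this
    omega
  obtain ⟨χ₀, hχ₀⟩ : ∃ χ₀ : IrrCharacter Γ, χ₀.1 (z₀ ^ p ^ j) ≠ χ₀.1 1 := by
    by_contra hall
    push Not at hall
    have := (Cfsg.Agent.S0136.result (z₀ ^ p ^ j) 1).mpr hall
    exact hz1 (isConj_one_left.mp this)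
  obtain ⟨lam, hlam⟩ : ∃ lam : Γ → ℂ, lam = om χ₀ := ⟨_, rfl⟩
  have hz₀c : z₀ ∈ Subgroup.center Γ := hZc hz₀
  have hlam1 : lam (z₀ ^ p ^ j) ≠ 1 := by
    rw [hlam]
    intro h
    apply hχ₀
    rw [eq_om, h, mul_one]
  have hord : orderOf (lam z₀) = p ^ (j + 1) := by
    have : Fact p.Prime := ⟨hp⟩
    apply orderOf_eq_prime_pow
    · rw [hlam, ← om_pow χ₀ hz₀c, ← hlam]; exact hlam1
    · rw [hlam, ← om_pow χ₀ hz₀c, ← ho, pow_orderOf_eq_one, om_one]
  let X : Finset (IrrCharacter Γ) := Finset.univ.filter (fun χ => ∀ z : Z, om χ z = lam z)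
  choose d hd using (deg_nat : ∀ χ : IrrCharacter Γ, ∃ n : ℕ, χ.1 1 = n)
  have hdiv : ∀ χ ∈ X, p ^ (j + 1) ∣ d χ := by
    intro χ hχ
    have h1 : om χ z₀ = lam z₀ := (Finset.mem_filter.mp hχ).2 ⟨z₀, hz₀⟩
    have h2 := om_pow_deg χ (d χ) (hd χ) hz₀c (hZd hz₀)
    rw [h1] at h2
    rw [← hord]; exact orderOf_dvd_of_pow_eq_one h2
  have hS : ∀ z : Γ, ∑ χ : IrrCharacter Γ, χ.1 z * conj (χ.1 1) = if z = 1 then (Nat.card Γ : ℂ) else 0 := by
    intro z
    rw [← finsum_eq_sum_of_fintype]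
    split_ifs with hz
    · subst hz
      rw [(Cfsg.Agent.S0145.result (1 : Γ) 1).1 (IsConj.refl 1)]
      have : Subgroup.centralizer ({1} : Set Γ) = ⊤ := by
        rw [eq_top_iff]; intro g _
        rw [Subgroup.mem_centralizer_singleton_iff]; simp
      rw [this, Subgroup.card_top]
    · apply (Cfsg.Agent.S0145.result z 1).2
      intro h
      exact hz (isConj_one_left.mp h)
  have hlaminv : ∀ z : Z, lam (z : Γ) * lam ((z : Γ)⁻¹) = 1 := by
    intro z
    rw [hlam, ← om_mul χ₀ _ (hZc (inv_mem z.2)), mul_inv_cancel, om_one]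
  have hinner : ∀ χ : IrrCharacter Γ, ∑ z : Z, om χ z * lam ((z : Γ)⁻¹) =
      if χ ∈ X then (Nat.card Z : ℂ) else 0 := by
    intro χ
    split_ifs with hχ
    · have h1 : ∀ z : Z, om χ z * lam ((z : Γ)⁻¹) = 1 := by
        intro z
        rw [(Finset.mem_filter.mp hχ).2 z, hlaminv]
      simp only [h1, Finset.sum_const, Finset.card_univ, nsmul_eq_mul, mul_one, Nat.card_eq_fintype_card]
    · have h1 : ∃ z : Z, om χ z ≠ lam z := by
        by_contra hall
        push Not at hall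
        exact hχ (Finset.mem_filter.mpr ⟨Finset.mem_univ _, hall⟩)
      obtain ⟨z₂, hz₂⟩ := h1
      apply sum_mult (fun z : Z => om χ z * lam ((z : Γ)⁻¹)) _ z₂
      · intro h
        apply hz₂
        have h2 := hlaminv z₂
        calc om χ z₂ = om χ z₂ * (lam (z₂ : Γ) * lam ((z₂ : Γ)⁻¹)) := by rw [h2, mul_one]
          _ = (om χ z₂ * lam ((z₂ : Γ)⁻¹)) * lam (z₂ : Γ) := by ring
          _ = lam z₂ := by rw [h, one_mul]
      · intro a b
        simp only [Subgroup.coe_mul, mul_inv_rev]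
        rw [om_mul χ _ (hZc b.2), hlam, om_mul χ₀ _ (hZc (inv_mem a.2))]
        ring
  have hT1 : ∑ z : Z, lam ((z : Γ)⁻¹) * ∑ χ : IrrCharacter Γ, χ.1 z * conj (χ.1 1) = (Nat.card Γ : ℂ) := by
    rw [Finset.sum_eq_single (1 : Z)]
    · rw [hS]; simp [hlam, om_one]
    · intro z _ hz
      rw [hS, if_neg (by intro h; exact hz (Subtype.ext h)), mul_zero]
    · intro h; exact absurd (Finset.mem_univ _) h
  have hT2 : ∑ z : Z, lam ((z : Γ)⁻¹) * ∑ χ : IrrCharacter Γ, χ.1 z * conj (χ.1 1) =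
      ∑ χ ∈ X, ((d χ : ℂ) ^ 2 * (Nat.card Z : ℂ)) := by
    simp only [Finset.mul_sum]
    rw [Finset.sum_comm]
    have h1 : ∀ χ : IrrCharacter Γ, ∑ z : Z, lam ((z : Γ)⁻¹) * (χ.1 z * conj (χ.1 1)) =
        (d χ : ℂ) ^ 2 * ∑ z : Z, om χ z * lam ((z : Γ)⁻¹) := by
      intro χ
      rw [Finset.mul_sum]
      apply Finset.sum_congr rfl
      intro z _
      rw [eq_om χ z, hd χ, Complex.conj_natCast]
      ring
    simp only [h1, hinner]
    rw [Finset.sum_filter]
    apply Finset.sum_congr rfl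
    intro χ _
    by_cases hχ : χ ∈ X
    · have : ∀ z : Z, om χ z = lam z := (Finset.mem_filter.mp hχ).2
      rw [if_pos hχ, if_pos this]
    · have : ¬ ∀ z : Z, om χ z = lam z := fun h => hχ (Finset.mem_filter.mpr ⟨Finset.mem_univ _, h⟩)
      rw [if_neg hχ, if_neg this, mul_zero]
  have hnat : (∑ χ ∈ X, (d χ) ^ 2) * Nat.card Z = Nat.card Γ := by
    have : ((∑ χ ∈ X, (d χ) ^ 2) * Nat.card Z : ℕ) = ((Nat.card Γ : ℕ) : ℂ) := by
      rw [← hT1, hT2]
      push_cast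
      rw [Finset.sum_mul]
    exact_mod_cast this
  have hidx : Z.index = ∑ χ ∈ X, (d χ) ^ 2 := by
    have h1 := Z.card_mul_index
    rw [← hnat, mul_comm] at h1
    exact Nat.eq_of_mul_eq_mul_right Nat.card_pos h1
  rw [hidx]
  apply Finset.dvd_sum
  intro χ hχ
  rw [mul_comm, pow_mul]
  exact pow_dvd_pow_of_dvd (hdiv χ hχ) 2

/-- If `A` is the Schur multiplier of the finite group `Q`, then the square of the exponent of `A` divides the order of `Q`. -/
theorem result {Q : Type*} [Group Q] [Finite Q] {A : Type*} [CommGroup A] (hA : Cfsg.HasSchurMultiplier Q A) : Monoid.exponent A ^ 2 ∣ Nat.card Q := by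
  obtain ⟨⟨Γ, _, _, σ, ⟨hsurj, hc, hd⟩, ⟨e⟩⟩, -⟩ := hA
  have hidx : σ.ker.index = Nat.card Q := by
    rw [Subgroup.index_ker, MonoidHom.range_eq_top.mpr hsurj, Subgroup.card_top]
  have hexp : Monoid.exponent A = Monoid.exponent σ.ker := (Monoid.exponent_eq_of_mulEquiv e).symm
  rw [hexp, ← hidx]
  have hne : Monoid.exponent σ.ker ≠ 0 := (Monoid.exponent_pos.mpr (Monoid.ExponentExists.of_finite)).ne'
  have : IsMulCommutative σ.ker := ⟨⟨fun a b => Subtype.ext ((Subgroup.mem_center_iff.mp (hc b.2) a))⟩⟩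
  rw [Nat.dvd_iff_prime_pow_dvd_dvd]
  intro p k hp hpk
  open scoped IsMulCommutative in
  obtain ⟨g, hg⟩ := Monoid.exists_orderOf_eq_exponent (G := σ.ker) (Monoid.ExponentExists.of_finite)
  obtain ⟨v, hv⟩ : ∃ v, v = (Monoid.exponent σ.ker).factorization p := ⟨_, rfl⟩
  have hpv : p ^ v ∣ orderOf g := by
    rw [hg, hv]; exact Nat.ordProj_dvd _ _
  have hz : orderOf (g ^ (orderOf g / p ^ v)) = p ^ v :=
    orderOf_pow_orderOf_div (by rw [hg]; exact hne) hpv
  have hz' : orderOf ((g ^ (orderOf g / p ^ v) : σ.ker) : Γ) = p ^ v := by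
    rw [Subgroup.orderOf_coe]; exact hz
  have hcore := core σ.ker hc hd _ (g ^ (orderOf g / p ^ v) : σ.ker).2 p v hp hz'
  have hk : k ≤ 2 * v := by
    have h1 := (hp.pow_dvd_iff_le_factorization (pow_ne_zero 2 hne)).mp hpk
    rw [Nat.factorization_pow] at h1
    simpa [hv] using h1
  exact (pow_dvd_pow p hk).trans hcore

end Cfsg.Agent.S3952
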