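import Cfsg.Statements.S3954
-- import your own Cfsg.Agent.* helpers here
import Cfsg.Agent.Lib.Helper41.SchurTransfer

set_option autoImplicit false
open Cfsg

namespace Cfsg.Agent.S3954

open Cfsg.Agent.Lib.Helper41 Subgroup
open scoped commutatorElement

/-- Let `U` be a subgroup of index `m` in the finite group `G`, let `A` be the Schur multiplier of `G` and `B` that of `U`. Then the subgroup of `m`-th powers of `A` is isomorphic to a subgroup of `B`. -/
theorem result {G : Type*} [Group G] [Finite G] (U : Subgroup G) {A B : Type*} [CommGroup A] [CommGroup B] (hA : Cfsg.HasSchurMultiplier G A) (hB : Cfsg.HasSchurMultiplier U B) : ∃ C : Subgroup B, Nonempty ((powMonoidHom U.index : A →* A).range ≃* C) := by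
  have hBf := hsm_finite hB
  obtain ⟨⟨Γ, _, _, σ, hσ, ⟨e⟩⟩, -⟩ := hA
  let Uh : Subgroup Γ := U.comap σ
  let σU : Uh →* U := σ.subgroupComap U
  have hσU : Function.Surjective σU := σ.subgroupComap_surjective_of_surjective U hσ.1
  have hker : ∀ x : Uh, x ∈ σU.ker ↔ (x : Γ) ∈ σ.ker := by
    intro x
    rw [MonoidHom.mem_ker, MonoidHom.mem_ker]
    constructor
    · intro h; exact congrArg Subtype.val h
    · intro h; exact Subtype.ext h
  have hc : σU.ker ≤ center Uh := by
    intro x hx
    have h1 : (x : Γ) ∈ center Γ := hσ.2.1 ((hker x).mp hx)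
    rw [mem_center_iff]
    intro y
    exact Subtype.ext (mem_center_iff.mp h1 y)
  obtain ⟨φ, hφ⟩ := hsm_surj_of_central hB σU hσU hc
  obtain ⟨j, hj⟩ := exists_injective_of_surjective φ hφ
  have hidx : Uh.index = U.index := Subgroup.index_comap_of_surjective U hσ.1
  have hle : σ.ker ≤ Uh := by
    intro z hz
    change σ z ∈ U
    rw [MonoidHom.mem_ker.mp hz]; exact one_mem _
  let ι : σ.ker →* Uh := Subgroup.inclusion hle
  let R : Subgroup A := (powMonoidHom U.index : A →* A).range
  have hmem : ∀ y : R, ι (e.symm y) ∈ σU.ker ⊓ commutator Uh := by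
    rintro ⟨y, a, rfl⟩
    refine ⟨(hker _).mpr (e.symm _).2, ?_⟩
    obtain ⟨h1, h2⟩ := pow_index_mem_commutator Uh (e.symm a : Γ) (hσ.2.1 (e.symm a).2)
      (hσ.2.2 (e.symm a).2)
    have : ι (e.symm ((powMonoidHom U.index : A →* A) a)) = ⟨(e.symm a : Γ) ^ Uh.index, h1⟩ := by
      apply Subtype.ext
      change ((e.symm (a ^ U.index) : σ.ker) : Γ) = (e.symm a : Γ) ^ Uh.index
      rw [map_pow, hidx]; rfl
    rw [this]; exact h2
  let ψ : R →* (σU.ker ⊓ commutator Uh : Subgroup Uh) :=
    ((ι.comp e.symm.toMonoidHom).comp R.subtype).codRestrict _ hmem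
  have hψ : Function.Injective ψ := by
    intro x y h
    have h1 : ι (e.symm x) = ι (e.symm y) := congrArg Subtype.val h
    exact Subtype.ext (e.symm.injective (Subgroup.inclusion_injective hle h1))
  exact ⟨(j.comp ψ).range, ⟨MonoidHom.ofInjective (hj.comp hψ)⟩⟩

end Cfsg.Agent.S3954
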