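import Cfsg.Statements.S3957
-- import your own Cfsg.Agent.* helpers here
import Cfsg.Agent.Lib.Helper41.SchurMore

set_option autoImplicit false
universe u v
open Cfsg

namespace Cfsg.Agent.S3957

open Cfsg.Agent.Lib.Helper41 Subgroup

/-- Let `Q` be a finite group with Schur multiplier `A` and let `τ : Δ →* Q` be a finite stem extension, `Δ` in the universe of `Q`. Then there is a finite stem extension `σ : Γ →* Q` with kernel isomorphic to `A` (a Schur covering group) and a surjective homomorphism `β : Γ →* Δ` with `τ ∘ β = σ`. -/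
theorem result {Q : Type u} [Group Q] [Finite Q] {A : Type v} [CommGroup A] (hA : Cfsg.HasSchurMultiplier Q A) {Δ : Type u} [Group Δ] [Finite Δ] (τ : Δ →* Q) (hτ : Cfsg.IsStemExtension τ) : ∃ (Γ : Type u) (_ : Group Γ) (_ : Finite Γ) (σ : Γ →* Q), Cfsg.IsStemExtension σ ∧ Nonempty (σ.ker ≃* A) ∧ ∃ β : Γ →* Δ, Function.Surjective β ∧ τ.comp β = σ := by
  obtain ⟨f, hf⟩ := exists_ce_lift (canPres Q) τ hτ.1 hτ.2.1
  have hπ := canPres_surjective Q
  have hf' : ∀ e, τ (f e) = ceProj (canPres Q) e := fun e => by rw [← hf]; rfl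
  have hfs := ce_lift_surjective_of_stem (canPres Q) hπ τ hτ f hf
  have hL : f.ker ≤ (ceProj (canPres Q)).ker := by
    intro x hx
    rw [MonoidHom.mem_ker] at hx ⊢
    rw [← hf', hx, map_one]
  have hLM : (ceProj (canPres Q)).ker ≤ f.ker ⊔ mult (canPres Q) := by
    intro x hx
    have h1 : f x ∈ τ.ker := by
      rw [MonoidHom.mem_ker, hf']; exact hx
    obtain ⟨m, hm, hmx⟩ := ce_lift_mult (canPres Q) hπ τ hτ.2.1 f hf (f x) ⟨h1, hτ.2.2 h1⟩
    have : x = (x * m⁻¹) * m := by group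
    rw [this]
    refine Subgroup.mul_mem_sup ?_ hm
    rw [MonoidHom.mem_ker, map_mul, map_inv, hmx, mul_inv_cancel]
  obtain ⟨S, hn, hS, hSL, hfin, hstem, ⟨e⟩⟩ := exists_cover_le (canPres Q) hπ f.ker hL hLM
  obtain ⟨e'⟩ := hsm_equiv_mult hA (canPres Q) hπ
  refine ⟨CE (canPres Q) ⧸ S, inferInstance, hfin, QuotientGroup.lift S (ceProj (canPres Q)) hS,
    hstem, ⟨e.trans e'.symm⟩, QuotientGroup.lift S f (fun x hx => hSL hx), ?_, ?_⟩
  · intro d
    obtain ⟨x, rfl⟩ := hfs d
    exact ⟨QuotientGroup.mk x, rfl⟩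
  · refine MonoidHom.ext fun x => ?_
    induction x using QuotientGroup.induction_on with
    | H y => exact hf' y

end Cfsg.Agent.S3957
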