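import Cfsg.Statements.S3958
-- import your own Cfsg.Agent.* helpers here
import Cfsg.Agent.Lib.Helper41.SchurPullback

set_option autoImplicit false
universe u v
open Cfsg

namespace Cfsg.Agent.S3958

open Cfsg.Agent.Lib.Helper41 Subgroup

/-- Let `σ : Γ →* Q` be a finite stem extension of the finite group `Q` with `Γ` of trivial Schur multiplier. Then `σ` is a Schur covering group of `Q`: for every finite stem extension `τ : Δ →* Q` with `Δ` in the same universe as `Q`, the kernel of `τ` is a homomorphic image of the kernel of `σ`. -/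
theorem result {Q : Type u} [Group Q] [Finite Q] {Γ : Type v} [Group Γ] [Finite Γ] (σ : Γ →* Q) (hσ : Cfsg.IsStemExtension σ) (hΓ : Cfsg.HasCyclicSchurMultiplier Γ 1) (Δ : Type u) [Group Δ] [Finite Δ] (τ : Δ →* Q) (hτ : Cfsg.IsStemExtension τ) : ∃ π : σ.ker →* τ.ker, Function.Surjective π := by
  obtain ⟨φ, hφ⟩ := hsm_surj_of_central hΓ (pbFst σ τ) (pbFst_surjective σ τ hτ.1)
    (ker_pbFst_le_center σ τ hτ.2.1)
  have htriv : ∀ x : pb σ τ, x ∈ (pbFst σ τ).ker → x ∈ commutator (pb σ τ) → x = 1 := by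
    intro x h1 h2
    obtain ⟨a, ha⟩ := hφ ⟨x, h1, h2⟩
    have : a = 1 := Subsingleton.elim _ _
    rw [this, map_one] at ha
    exact (congrArg Subtype.val ha).symm
  let W : Subgroup (pb σ τ) := commutator (pb σ τ) ⊓ (σ.comp (pbFst σ τ)).ker
  let a : W →* σ.ker := ((pbFst σ τ).comp W.subtype).codRestrict _ (fun w => w.2.2)
  let b : W →* τ.ker := ((pbSnd σ τ).comp W.subtype).codRestrict _ (fun w => by
    have h : σ (pbFst σ τ w) = 1 := w.2.2
    rw [pb_comm] at h
    exact h)
  have ha : Function.Bijective a := by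
    constructor
    · rw [injective_iff_map_eq_one]
      intro w hw
      have h1 : (w : pb σ τ) ∈ (pbFst σ τ).ker := congrArg Subtype.val hw
      exact Subtype.ext (htriv w h1 w.2.1)
    · rintro ⟨g, hg⟩
      obtain ⟨x, hx, rfl⟩ := exists_mem_commutator_of_surjective (pbFst σ τ)
        (pbFst_surjective σ τ hτ.1) (hσ.2.2 hg)
      exact ⟨⟨x, hx, hg⟩, rfl⟩
  have hb : Function.Surjective b := by
    rintro ⟨d, hd⟩
    obtain ⟨x, hx, rfl⟩ := exists_mem_commutator_of_surjective (pbSnd σ τ)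
      (pbSnd_surjective σ τ hσ.1) (hτ.2.2 hd)
    refine ⟨⟨x, hx, ?_⟩, rfl⟩
    change σ (pbFst σ τ x) = 1
    rw [pb_comm]
    exact hd
  exact ⟨b.comp (MulEquiv.ofBijective a ha).symm.toMonoidHom,
    hb.comp (MulEquiv.ofBijective a ha).symm.surjective⟩

end Cfsg.Agent.S3958
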