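import Cfsg.Statements.S3960
-- import your own Cfsg.Agent.* helpers here
import Cfsg.Agent.Lib.Helper41.SchurPerfect

set_option autoImplicit false
universe u
open Cfsg

namespace Cfsg.Agent.S3960

open Cfsg.Agent.Lib.Helper41 Subgroup
open scoped commutatorElement

/-- A finite perfect group `Q` has a universal central extension: a finite perfect group `G` in the universe of `Q` and a surjective homomorphism `π : G →* Q` with central kernel such that for every group `X` in that universe and every surjective homomorphism `ξ : X →* Q` with central kernel there is exactly one homomorphism `η : G →* X` with `ξ ∘ η = π`. -/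
theorem result {Q : Type u} [Group Q] [Finite Q] (hQ : Group.IsPerfect Q) : ∃ (G : Type u) (_ : Group G) (_ : Finite G) (π : G →* Q), Group.IsPerfect G ∧ Function.Surjective π ∧ π.ker ≤ Subgroup.center G ∧ ∀ (X : Type u) [Group X] (ξ : X →* Q), Function.Surjective ξ → ξ.ker ≤ Subgroup.center X → ∃! η : G →* X, ξ.comp η = π := by
  have hQ' : commutator Q = ⊤ := hQ.commutator_eq_top
  have hπ := canPres_surjective Q
  set E := CE (canPres Q) with hE
  set ρ := ceProj (canPres Q) with hρ
  have hρs : Function.Surjective ρ := ceProj_surjective _ hπ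
  have hρc : ρ.ker ≤ center E := ker_ceProj_le_center _
  let H : Subgroup E := commutator E
  let πG : H →* Q := ρ.comp H.subtype
  have hsurj : Function.Surjective πG := by
    intro q
    obtain ⟨e, he, rfl⟩ := exists_mem_commutator_of_surjective ρ hρs
      (show q ∈ commutator Q from hQ' ▸ mem_top _)
    exact ⟨⟨e, he⟩, rfl⟩
  have hsup : H ⊔ ρ.ker = ⊤ := by
    rw [eq_top_iff]
    intro x _
    obtain ⟨y, hy⟩ := hsurj (ρ x)
    have : x = y.1 * (y.1⁻¹ * x) := by group
    rw [this]
    refine Subgroup.mul_mem_sup y.2 ?_
    rw [MonoidHom.mem_ker, map_mul, map_inv]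
    have hy' : ρ y.1 = ρ x := hy
    rw [hy', inv_mul_cancel]
  have hperf : Group.IsPerfect H := by
    rw [Subgroup.isPerfect_iff]
    exact le_antisymm (Subgroup.commutator_le_left _ _)
      (commutator_le_of_sup_central H ρ.ker hρc hsup)
  refine ⟨H, inferInstance, finite_commutator_ce _, πG, hperf, hsurj, ?_, ?_⟩
  · intro x hx
    have h1 : x.1 ∈ center E := hρc hx
    rw [mem_center_iff]
    intro y
    exact Subtype.ext (mem_center_iff.mp h1 y.1)
  · intro X _ ξ hξ hξc
    obtain ⟨f, hf⟩ := exists_ce_lift (canPres Q) ξ hξ hξc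
    refine ⟨f.comp H.subtype, ?_, ?_⟩
    · change ξ.comp (f.comp H.subtype) = ρ.comp H.subtype
      rw [← MonoidHom.comp_assoc, hf]
    · intro η hη
      apply hom_eq_of_perfect hperf.commutator_eq_top ξ hξc
      rw [hη, ← MonoidHom.comp_assoc, hf]

end Cfsg.Agent.S3960
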