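import Cfsg.Statements.S3961
-- import your own Cfsg.Agent.* helpers here
import Cfsg.Agent.Lib.Helper41.SchurPerfect

set_option autoImplicit false
universe u v
open Cfsg

namespace Cfsg.Agent.S3961

open Cfsg.Agent.Lib.Helper41 Subgroup
open scoped commutatorElement

/-- Let `π : G →* Q` be a surjective homomorphism with central kernel from a finite perfect group `G` (a perfect cover of `Q`). Then `π` is universal, in the sense that every surjective homomorphism `ξ : X →* Q` with central kernel from a group `X` in the universe of `G` admits a homomorphism `η : G →* X` with `ξ ∘ η = π`, if and only if `G` has trivial Schur multiplier. -/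
theorem result {G : Type u} {Q : Type v} [Group G] [Group Q] [Finite G] (hG : Group.IsPerfect G) (π : G →* Q) (hπ : Function.Surjective π) (hker : π.ker ≤ Subgroup.center G) : (∀ (X : Type u) [Group X] (ξ : X →* Q), Function.Surjective ξ → ξ.ker ≤ Subgroup.center X → ∃ η : G →* X, ξ.comp η = π) ↔ Cfsg.HasCyclicSchurMultiplier G 1 := by
  have hG' : commutator G = ⊤ := hG.commutator_eq_top
  constructor
  · intro huniv
    refine ⟨⟨G, inferInstance, inferInstance, MonoidHom.id G, ⟨fun g => ⟨g, rfl⟩, ?_, ?_⟩, ?_⟩, ?_⟩
    · intro x hx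
      have : x = 1 := hx
      rw [this]; exact one_mem _
    · intro x hx
      have : x = 1 := hx
      rw [this]; exact one_mem _
    · have h1 : Subsingleton (MonoidHom.id G).ker := ⟨fun a b => Subtype.ext (a.2.trans b.2.symm)⟩
      have : Unique (MonoidHom.id G).ker := ⟨⟨1⟩, fun a => Subsingleton.elim _ _⟩
      exact ⟨MulEquiv.ofUnique⟩
    · intro Γ _ _ σ hσ
      have hΓ : commutator Γ = ⊤ := perfect_of_stem σ hσ hG'
      have hc : (π.comp σ).ker ≤ center Γ := by
        intro x hx
        have hx' : σ x ∈ center G := hker hx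
        apply mem_center_of_perfect hΓ
        intro a
        apply hσ.2.1
        rw [MonoidHom.mem_ker]
        simp only [map_mul, map_inv]
        rw [← mem_center_iff.mp hx' (σ a)]
        group
      obtain ⟨η, hη⟩ := huniv Γ (π.comp σ) (hπ.comp hσ.1) hc
      have hid : σ.comp η = MonoidHom.id G := by
        apply hom_eq_of_perfect hG' π hker
        rw [← MonoidHom.comp_assoc, hη]; rfl
      have hid' : ∀ g, σ (η g) = g := fun g => DFunLike.congr_fun hid g
      have hsup : η.range ⊔ σ.ker = ⊤ := by
        rw [eq_top_iff]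
        intro x _
        have : x = η (σ x) * ((η (σ x))⁻¹ * x) := by group
        rw [this]
        refine Subgroup.mul_mem_sup ⟨_, rfl⟩ ?_
        rw [MonoidHom.mem_ker, map_mul, map_inv, hid', inv_mul_cancel]
      have hle : commutator Γ ≤ η.range :=
        (commutator_le_of_sup_central η.range σ.ker hσ.2.1 hsup).trans
          (Subgroup.commutator_le_self _)
      refine ⟨1, ?_⟩
      rintro ⟨k, hk⟩
      obtain ⟨g, rfl⟩ := hle (hσ.2.2 hk)
      have hg : g = 1 := by rw [← hid' g]; exact hk
      refine ⟨1, Subtype.ext ?_⟩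
      simp [hg]
  · intro hM X _ ξ hξ hξc
    obtain ⟨φ, hφ⟩ := hsm_surj_of_central hM (pbFst π ξ) (pbFst_surjective π ξ hξ)
      (ker_pbFst_le_center π ξ hξc)
    have htriv : ∀ x : pb π ξ, x ∈ (pbFst π ξ).ker → x ∈ commutator (pb π ξ) → x = 1 := by
      intro x h1 h2
      obtain ⟨a, ha⟩ := hφ ⟨x, h1, h2⟩
      have : a = 1 := Subsingleton.elim _ _
      rw [this, map_one] at ha
      exact (congrArg Subtype.val ha).symm
    let c : commutator (pb π ξ) →* G := (pbFst π ξ).comp (commutator (pb π ξ)).subtype
    have hc : Function.Bijective c := by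
      constructor
      · rw [injective_iff_map_eq_one]
        intro w hw
        exact Subtype.ext (htriv w hw w.2)
      · intro g
        obtain ⟨x, hx, rfl⟩ := exists_mem_commutator_of_surjective (pbFst π ξ)
          (pbFst_surjective π ξ hξ) (show g ∈ commutator G from hG' ▸ mem_top _)
        exact ⟨⟨x, hx⟩, rfl⟩
    let e := MulEquiv.ofBijective c hc
    refine ⟨((pbSnd π ξ).comp (commutator (pb π ξ)).subtype).comp e.symm.toMonoidHom, ?_⟩
    refine MonoidHom.ext fun g => ?_
    change ξ (pbSnd π ξ (e.symm g : pb π ξ)) = π g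
    rw [← pb_comm]
    have : pbFst π ξ (e.symm g : pb π ξ) = e (e.symm g) := rfl
    rw [this, MulEquiv.apply_symm_apply]

end Cfsg.Agent.S3961
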