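import Cfsg.Statements.S3964
-- import your own Cfsg.Agent.* helpers here
import Cfsg.Agent.Lib.Helper41.SchurDihedral

set_option autoImplicit false
open Cfsg

namespace Cfsg.Agent.S3964

open Cfsg.Agent.Lib.Helper41 Subgroup
open scoped commutatorElement

/-- For odd `n` the dihedral group of order `2 n` has trivial Schur multiplier. -/
theorem result (n : ℕ) (hn : Odd n) : Cfsg.HasCyclicSchurMultiplier (DihedralGroup n) 1 := by
  have hn0 : NeZero n := ⟨by rintro rfl; simp at hn⟩
  refine hasCyclicSchurMultiplier_one_of_card_le fun Γ _ _ σ hσ =>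
    dihedral_stem_card_le n n 1 (by simp) one_pos ?_ σ hσ
  intro k hk
  have hcop : IsCoprime (n : ℤ) 2 := by
    rw [Int.isCoprime_iff_gcd_eq_one]
    have := Nat.Coprime.symm (Nat.coprime_two_left.mpr hn)
    simpa [Int.gcd] using this
  exact hcop.dvd_of_dvd_mul_left hk

end Cfsg.Agent.S3964
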