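import Cfsg.Statements.S3966
-- import your own Cfsg.Agent.* helpers here
import Cfsg.Agent.Lib.Helper41.SchurDihedral

set_option autoImplicit false
open Cfsg

namespace Cfsg.Agent.S3966

open Cfsg.Agent.Lib.Helper41 Subgroup
open scoped commutatorElement

open QuaternionGroup DihedralGroup

/-- reduction `ZMod (2n) → ZMod n` -/
noncomputable def red (n : ℕ) : ZMod (2 * n) →+* ZMod n := ZMod.castHom (Dvd.intro_left 2 rfl) (ZMod n)

lemma red_n (n : ℕ) : red n (n : ZMod (2 * n)) = 0 := by
  rw [map_natCast, ZMod.natCast_self]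

/-- the underlying map -/
noncomputable def toFun (n : ℕ) : QuaternionGroup n → DihedralGroup n
  | a i => r (red n i)
  | xa i => sr (red n i)

/-- the covering homomorphism -/
noncomputable def cov (n : ℕ) : QuaternionGroup n →* DihedralGroup n :=
  MonoidHom.mk' (toFun n) (by
    rintro (i | i) (j | j) <;> simp [toFun])

lemma red_eq_zero (n : ℕ) [NeZero n] (i : ZMod (2 * n)) (h : red n i = 0) : i = 0 ∨ i = n := by
  have h1 : ((i.val : ℕ) : ZMod n) = 0 := by
    have : red n i = ((i.val : ℕ) : ZMod n) := by
      conv_lhs => rw [← ZMod.natCast_zmod_val i]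
      rw [map_natCast]
    rw [← this, h]
  rw [ZMod.natCast_eq_zero_iff] at h1
  obtain ⟨k, hk⟩ := h1
  have hlt : i.val < 2 * n := ZMod.val_lt i
  have hn : 0 < n := Nat.pos_of_ne_zero (NeZero.ne n)
  have hk2 : k < 2 := by
    by_contra hcon
    rw [not_lt] at hcon
    have : 2 * n ≤ n * k := by rw [mul_comm]; exact Nat.mul_le_mul_left n hcon
    omega
  have hi : i = ((i.val : ℕ) : ZMod (2 * n)) := (ZMod.natCast_zmod_val i).symm
  interval_cases k
  · left; rw [hi, hk]; simp
  · right; rw [hi, hk]; simp

lemma mem_ker_cov (n : ℕ) [NeZero n] (x : QuaternionGroup n) :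
    x ∈ (cov n).ker ↔ x = 1 ∨ x = a n := by
  constructor
  · intro hx
    have hx' : toFun n x = 1 := hx
    cases x with
    | a i =>
      have : red n i = 0 := by
        have h2 : (r (red n i) : DihedralGroup n) = r 0 := hx'
        exact DihedralGroup.r.inj h2
      rcases red_eq_zero n i this with h | h
      · left; rw [h]; rfl
      · right; rw [h]
    | xa i =>
      have h2 : (sr (red n i) : DihedralGroup n) = r 0 := hx'
      cases h2
  · rintro (rfl | rfl)
    · exact one_mem _
    · change (r (red n n) : DihedralGroup n) = 1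
      rw [red_n]; rfl

/-- For even `n ≥ 2` the dicyclic group of order `4 n` is a stem extension of the dihedral group of order `2 n` with kernel of order `2`: there is a surjective homomorphism `QuaternionGroup n →* DihedralGroup n` whose kernel is central, lies in the commutator subgroup and has two elements. Together with the order of the multiplier this exhibits the dicyclic group as a Schur covering group of the dihedral group. -/
theorem result (n : ℕ) [NeZero n] (hn : Even n) : ∃ σ : QuaternionGroup n →* DihedralGroup n, Cfsg.IsStemExtension σ ∧ Nat.card σ.ker = 2 := by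
  obtain ⟨m, hm⟩ := hn
  have h2n : ((n : ZMod (2 * n)) + n) = 0 := by
    have : ((2 * n : ℕ) : ZMod (2 * n)) = 0 := ZMod.natCast_self _
    rw [← this]; push_cast; ring
  refine ⟨cov n, ⟨?_, ?_, ?_⟩, ?_⟩
  · have hs : Function.Surjective (red n) := ZMod.castHom_surjective _
    rintro (i | i)
    · obtain ⟨j, rfl⟩ := hs i
      exact ⟨a j, rfl⟩
    · obtain ⟨j, rfl⟩ := hs i
      exact ⟨xa j, rfl⟩
  · intro x hx
    rcases (mem_ker_cov n x).mp hx with rfl | rfl
    · exact one_mem _
    · rw [mem_center_iff]
      rintro (j | j)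
      · simp [add_comm]
      · simp only [xa_mul_a, a_mul_xa]
        congr 1
        have : (n : ZMod (2 * n)) = -n := eq_neg_of_add_eq_zero_left h2n
        rw [sub_eq_add_neg, ← this]
  · intro x hx
    rcases (mem_ker_cov n x).mp hx with rfl | rfl
    · exact one_mem _
    · have h1 : (a (n : ZMod (2 * n)) : QuaternionGroup n) = ⁅(xa 0 : QuaternionGroup n), a (-(m : ZMod (2 * n)))⁆ := by
        rw [commutatorElement_def, eq_mul_inv_iff_mul_eq, eq_mul_inv_iff_mul_eq]
        simp only [xa_mul_a, a_mul_a, a_mul_xa]
        congr 1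
        rw [hm]; push_cast; ring
      rw [h1]
      exact Subgroup.commutator_mem_commutator (mem_top _) (mem_top _)
  · rw [Nat.card_eq_two_iff]
    have hne : (a (n : ZMod (2 * n)) : QuaternionGroup n) ≠ 1 := by
      intro h
      have h3 : (n : ZMod (2 * n)) = 0 := QuaternionGroup.a.inj h
      rw [ZMod.natCast_eq_zero_iff] at h3
      have hn0 : 0 < n := Nat.pos_of_ne_zero (NeZero.ne n)
      have := Nat.le_of_dvd hn0 h3
      omega
    refine ⟨⟨1, one_mem _⟩, ⟨a n, (mem_ker_cov n _).mpr (Or.inr rfl)⟩, ?_, ?_⟩
    · intro h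
      exact hne (congrArg Subtype.val h).symm
    · ext ⟨x, hx⟩
      simp only [Set.mem_insert_iff, Set.mem_singleton_iff, Set.mem_univ, iff_true, Subtype.mk.injEq]
      exact (mem_ker_cov n x).mp hx

end Cfsg.Agent.S3966
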