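import Cfsg.Statements.S3965
-- import your own Cfsg.Agent.* helpers here
import Cfsg.Agent.Lib.Helper41.SchurDihedral
import Cfsg.Agent.S3966

set_option autoImplicit false
open Cfsg

namespace Cfsg.Agent.S3965

open Cfsg.Agent.Lib.Helper41 Subgroup
open scoped commutatorElement

/-- For even `n ≥ 2` the dihedral group of order `2 n` has Schur multiplier cyclic of order `2`. -/
theorem result (n : ℕ) [NeZero n] (hn : Even n) : Cfsg.HasCyclicSchurMultiplier (DihedralGroup n) 2 := by
  obtain ⟨σ₀, h₀, hcard⟩ := Cfsg.Agent.S3966.result n hn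
  have hp : Fact (Nat.Prime 2) := ⟨Nat.prime_two⟩
  have e : σ₀.ker ≃* Multiplicative (ZMod 2) :=
    mulEquivOfPrimeCardEq (p := 2) hcard (by simp)
  obtain ⟨m, hm⟩ := hn
  refine hasSchurMultiplier_of_card_le (QuaternionGroup n) σ₀ h₀ e ?_
  intro Γ _ _ σ hσ
  have h2 : Nat.card (Multiplicative (ZMod 2)) = 2 := by simp
  rw [h2]
  refine dihedral_stem_card_le n m 2 (by omega) two_pos ?_ σ hσ
  intro k hk
  rw [hm] at hk
  push_cast at hk
  rw [← two_mul] at hk
  exact (mul_dvd_mul_iff_left (by norm_num)).mp hk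

end Cfsg.Agent.S3965
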