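import Cfsg.Statements.S3968
import Cfsg.Agent.Lib.Helper82.LinCount
import Cfsg.Agent.Lib.Helper79.Central
import Cfsg.Agent.Lib.Helper20.CharOrth
import Cfsg.Agent.S0142
import Cfsg.Agent.S0138
import Cfsg.Agent.S0135
import Cfsg.Agent.S0189

set_option autoImplicit false
open Cfsg
open scoped commutatorElement

namespace Cfsg.Agent.S3968

theorem sum_apply {H : Type*} [Group H] (l : Multiset (IrrCharacter H)) (x : H) :
    (l.map Subtype.val).sum x = (l.map (fun θ : IrrCharacter H => θ.1 x)).sum := by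
  induction l using Multiset.induction_on with
  | empty => simp
  | cons a s ih => simp [ih]

theorem deg_spec {H : Type*} [Group H] [Finite H] (θ : IrrCharacter H) :
    ∃ d : ℕ, θ.1 1 = d ∧ 0 < d ∧ d ∣ Nat.card H := by
  obtain ⟨m, σ, hσ, hθ⟩ := θ.2
  refine ⟨m, ?_, ?_, ?_⟩
  · rw [← hθ, Representation.char_one]; simp
  · have h := Cfsg.Agent.Lib.Helper79.IsIrrCharacter.one_ne_zero θ.2
    rw [← hθ, Representation.char_one] at h
    simp at h
    omega
  · have := Cfsg.Agent.S0135.result σ
    simpa using this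

theorem sum_deg {H : Type*} [Group H] [Finite H] (l : Multiset (IrrCharacter H)) :
    ∃ N : ℕ, (l.map (fun θ : IrrCharacter H => θ.1 1)).sum = N ∧ (N = 0 → l = 0) := by
  induction l using Multiset.induction_on with
  | empty => exact ⟨0, by simp, fun _ => rfl⟩
  | cons a s ih =>
    obtain ⟨N, hN, _⟩ := ih
    obtain ⟨d, hd, hd0, _⟩ := deg_spec a
    refine ⟨d + N, by simp [hN, hd], fun h => by omega⟩

/-- Let `p` be a prime and `G` a finite group with a faithful irreducible complex character of degree `p` (so `G` is an irreducible linear group in `p` variables). If `p ^ 2` divides the order of `G`, then the centre of `G` is nontrivial. -/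
theorem result {G : Type*} [Group G] [Finite G] (p : ℕ) (hp : p.Prime) (χ : Cfsg.IrrCharacter G) (hdeg : χ.1 1 = p) (hfaith : ∀ g : G, χ.1 g = χ.1 1 → g = 1) (hdiv : p ^ 2 ∣ Nat.card G) : Subgroup.center G ≠ ⊥ := by
  intro hZ
  have : Fact p.Prime := ⟨hp⟩
  obtain ⟨n, ρ, hρ, hχ⟩ := χ.2
  have hn : Module.finrank ℂ (Fin n → ℂ) = p := by
    have h1 : χ.1 1 = (Module.finrank ℂ (Fin n → ℂ) : ℂ) := by rw [← hχ, Representation.char_one]
    rw [hdeg] at h1
    exact_mod_cast h1.symm
  let P : Sylow p G := default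
  have hp0 : (p : ℂ) ≠ 0 := by exact_mod_cast hp.ne_zero
  have hvanZ : ∀ z ∈ P, (∀ y ∈ P, y * z = z * y) → z ≠ 1 → χ.1 z = 0 := by
    intro z hz hcomm hz1
    have hle : (P : Subgroup G) ≤ Subgroup.centralizer ({z} : Set G) := by
      intro y hy
      rw [Subgroup.mem_centralizer_singleton_iff]
      exact hcomm y hy
    have hcop : Nat.Coprime (Module.finrank ℂ (Fin n → ℂ)) (Subgroup.centralizer ({z} : Set G)).index := by
      rw [hn, Nat.Prime.coprime_iff_not_dvd hp]
      intro hd
      exact P.not_dvd_index (hd.trans (Subgroup.index_dvd_of_le hle))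
    rcases Cfsg.Agent.S0142.result ρ z hcop with h0 | h1
    · rw [← hχ]; exact h0
    · exfalso
      obtain ⟨ω, hω⟩ := (Cfsg.Agent.S0138.result ρ z).mp h1
      apply hz1
      have hzc : z ∈ Subgroup.center G := by
        rw [Subgroup.mem_center_iff]
        intro g
        have h2 : ρ (z * g) = ρ (g * z) := by
          rw [map_mul, map_mul, hω]
          ext v
          simp
        have h3 : ρ (z * g * (g * z)⁻¹) = ρ 1 := by
          rw [map_mul, h2, ← map_mul, mul_inv_cancel]
        have h4 : χ.1 (z * g * (g * z)⁻¹) = χ.1 1 := by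
          rw [← hχ]
          simp only [Representation.character, h3]
        have h5 := hfaith _ h4
        exact (mul_inv_eq_one.mp h5).symm
      rw [hZ] at hzc
      exact Subgroup.mem_bot.mp hzc
  have hcardP : p ^ 2 ∣ Nat.card (P : Subgroup G) := P.pow_dvd_card_of_pow_dvd_card hdiv
  have hψ : IsCharacter (P : Subgroup G) (fun x : (P : Subgroup G) => χ.1 x) :=
    Cfsg.Agent.Lib.Helper20.isCharacter_restrict
      (Cfsg.Agent.Lib.Helper20.isCharacter_of_isIrrCharacter χ.2) _
  obtain ⟨l, hl⟩ := Cfsg.Agent.Lib.Helper20.exists_multiset_of_isCharacter hψ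
  have hlx : ∀ x : (P : Subgroup G), χ.1 x = (l.map (fun θ : IrrCharacter (P : Subgroup G) => θ.1 x)).sum := by
    intro x
    rw [← sum_apply, ← hl]
  by_cases hlin : ∀ θ ∈ l, θ.1 1 = 1
  · -- P is abelian
    have hcomm : ∀ c ∈ commutator (P : Subgroup G), c = 1 := by
      intro c hc
      have h1 : χ.1 (c : G) = χ.1 1 := by
        have h2 := hlx c
        have h3 := hlx 1
        rw [h2]
        simp only [Subgroup.coe_one] at h3
        rw [h3]
        congr 1
        apply Multiset.map_congr rfl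
        intro θ hθ
        exact (Cfsg.Agent.Lib.Helper82.isIrr_linear_iff θ.2).mp (hlin θ hθ) c hc
      exact Subtype.ext (hfaith _ h1)
    have hab : ∀ y ∈ P, ∀ z ∈ P, y * z = z * y := by
      intro y hy z hz
      have h1 : (⁅(⟨y, hy⟩ : (P : Subgroup G)), ⟨z, hz⟩⁆) ∈ commutator (P : Subgroup G) :=
        Subgroup.commutator_mem_commutator (Subgroup.mem_top _) (Subgroup.mem_top _)
      have h2 := congrArg Subtype.val (hcomm _ h1)
      simp only [commutatorElement_def, Subgroup.coe_mul, Subgroup.coe_inv, Subgroup.coe_one] at h2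
      calc y * z = (y * z * y⁻¹ * z⁻¹) * (z * y) := by group
        _ = z * y := by rw [h2, one_mul]
    obtain ⟨k, hk⟩ := Cfsg.Agent.S0189.result p P χ.1
      (Cfsg.Agent.Lib.Helper20.isCharacter_of_isIrrCharacter χ.2)
      (fun g hg hg1 => hvanZ g hg (fun y hy => hab y hy g hg) hg1)
    rw [hdeg] at hk
    have hk' : p = Nat.card (P : Subgroup G) * k := by exact_mod_cast hk
    have h1 : p ^ 2 ∣ p := hcardP.trans ⟨k, hk'⟩
    have h2 := Nat.le_of_dvd hp.pos h1
    have := hp.two_le
    nlinarith
  · push Not at hlin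
    obtain ⟨θ, hθl, hθ1⟩ := hlin
    obtain ⟨l', rfl⟩ := Multiset.exists_cons_of_mem hθl
    obtain ⟨d, hd, hd0, hdd⟩ := deg_spec θ
    obtain ⟨N, hN, hN0⟩ := sum_deg l'
    have hsum : (p : ℂ) = d + N := by
      have h3 := hlx 1
      simp only [Subgroup.coe_one, Multiset.map_cons, Multiset.sum_cons] at h3
      rw [hdeg, hN, hd] at h3
      exact h3
    have hsum' : p = d + N := by exact_mod_cast hsum
    have hd1 : d ≠ 1 := by
      rintro rfl
      apply hθ1
      rw [hd]; simp
    obtain ⟨e, he⟩ := IsPGroup.iff_card.mp P.2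
    rw [he] at hdd
    obtain ⟨j, _, hj⟩ := (Nat.dvd_prime_pow hp).mp hdd
    have hpd : p ≤ d := by
      rw [hj]
      rcases Nat.eq_zero_or_pos j with rfl | hjpos
      · simp at hj; exact absurd hj hd1
      · calc p = p ^ 1 := (pow_one p).symm
          _ ≤ p ^ j := Nat.pow_le_pow_right hp.pos hjpos
    have hl' : l' = 0 := hN0 (by omega)
    subst hl'
    have hirr : ∀ x : (P : Subgroup G), χ.1 x = θ.1 x := by
      intro x
      rw [hlx x]; simp
    have hnt : Nontrivial (P : Subgroup G) := by
      rw [← Finite.one_lt_card_iff_nontrivial]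
      have := Nat.le_of_dvd Nat.card_pos hcardP
      have := hp.two_le
      nlinarith
    have := P.2.center_nontrivial
    obtain ⟨⟨z, hzc⟩, hz1⟩ := exists_ne (1 : Subgroup.center (P : Subgroup G))
    have hz1' : (z : G) ≠ 1 := by
      intro h
      apply hz1
      ext
      simpa using h
    have hz0 : θ.1 z = 0 := by
      rw [← hirr]
      apply hvanZ _ z.2 _ hz1'
      intro y hy
      have := Subgroup.mem_center_iff.mp hzc ⟨y, hy⟩
      exact congrArg Subtype.val this
    have h1 := Cfsg.Agent.Lib.Helper79.IsIrrCharacter.mul_central θ.2 z hzc z⁻¹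
    rw [inv_mul_cancel, hz0, zero_div, zero_mul] at h1
    exact Cfsg.Agent.Lib.Helper79.IsIrrCharacter.one_ne_zero θ.2 h1

end Cfsg.Agent.S3968
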