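import Cfsg.Statements.S3969
import Cfsg.Agent.Lib.Helper77.CoprimeAut

set_option autoImplicit false
open Cfsg

namespace Cfsg.Agent.S3969

open scoped IsMulCommutative in
theorem card_frattini_quotient_le {Q : Type*} [Group Q] [Finite Q] {p : ℕ} [hp : Fact p.Prime]
    (hQ : IsPGroup p Q) : Nat.card (Q ⧸ frattini Q) ≤ p ^ Group.rank Q := by
  have : IsMulCommutative (Q ⧸ frattini Q) :=
    Subgroup.Normal.quotient_commutative_iff_commutator_le.mpr (Cfsg.Agent.Lib.Helper3.commutator_le_frattini hQ)
  have hpow : ∀ v : Q ⧸ frattini Q, v ^ p = 1 := by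
    intro v
    induction v using QuotientGroup.induction_on with
    | H a =>
    rw [← QuotientGroup.mk_pow, QuotientGroup.eq_one_iff]
    exact Cfsg.Agent.Lib.Helper3.pow_p_mem_frattini hQ a
  have h1 := card_dvd_exponent_pow_rank' (Q ⧸ frattini Q) hpow
  have h2 : Group.rank (Q ⧸ frattini Q) ≤ Group.rank Q :=
    Group.rank_le_of_surjective (QuotientGroup.mk' (frattini Q)) (QuotientGroup.mk'_surjective _)
  exact (Nat.le_of_dvd (pow_pos hp.out.pos _) h1).trans (Nat.pow_le_pow_right hp.out.pos h2)

theorem normalizer_le_centralizer {G : Type*} [Group G] [Finite G] (p : ℕ) [hp : Fact p.Prime] (P : Sylow p G)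
    (hab : IsMulCommutative (P : Subgroup G))
    (hcop : Nat.Coprime (Nat.card G) (∏ i ∈ Finset.Icc 1 (Group.rank (P : Subgroup G)), (p ^ i - 1))) :
    Subgroup.normalizer ((P : Subgroup G) : Set G) ≤ Subgroup.centralizer ((P : Subgroup G) : Set G) := by
  classical
  set φ := (P : Subgroup G).normalizerMonoidHom with hφ
  have hker : φ.ker = (Subgroup.centralizer ((P : Subgroup G) : Set G)).subgroupOf
      (Subgroup.normalizer ((P : Subgroup G) : Set G)) := Subgroup.normalizerMonoidHom_ker _
  have hPC : (P : Subgroup G) ≤ Subgroup.centralizer ((P : Subgroup G) : Set G) := by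
    intro x hx
    rw [Subgroup.mem_centralizer_iff]
    intro y hy
    have := hab.is_comm.comm ⟨y, hy⟩ ⟨x, hx⟩
    exact congrArg Subtype.val this
  have hcardA : Nat.card φ.range ∣ (P : Subgroup G).index := by
    rw [← Subgroup.index_ker, hker]
    have h1 : (Subgroup.centralizer ((P : Subgroup G) : Set G)).relIndex
      (Subgroup.normalizer ((P : Subgroup G) : Set G)) ∣ (P : Subgroup G).relIndex
      (Subgroup.normalizer ((P : Subgroup G) : Set G)) :=
      Subgroup.relIndex_dvd_of_le_left _ hPC
    exact h1.trans (Subgroup.relIndex_dvd_index_of_le Subgroup.le_normalizer)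
  have hA : Nat.card φ.range = 1 := by
    by_contra hne
    obtain ⟨r, hr, hrd⟩ := Nat.exists_prime_and_dvd hne
    haveI : Fact r.Prime := ⟨hr⟩
    obtain ⟨β, hβ⟩ := exists_prime_orderOf_dvd_card' (G := φ.range) r hrd
    have hrp : r ≠ p := by
      rintro rfl
      exact P.not_dvd_index (hrd.trans hcardA)
    have hrG : r ∣ Nat.card G := (hrd.trans hcardA).trans (Subgroup.index_dvd_card _)
    have hβ' : orderOf (β : MulAut (P : Subgroup G)) = r := by
      rw [Subgroup.orderOf_coe]; exact hβ
    have hR : IsPGroup r (Subgroup.zpowers (β : MulAut (P : Subgroup G))) := by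
      apply IsPGroup.of_card (n := 1)
      rw [Nat.card_zpowers, hβ', pow_one]
    have key := Cfsg.Agent.Lib.Helper77.aut_trivial_of_card_frattini_quotient (p := p) (r := r) P.2
      (Subgroup.zpowers (β : MulAut (P : Subgroup G))) hR hrp (Group.rank (P : Subgroup G))
      (card_frattini_quotient_le P.2) (by
        intro i hi1 hi2 hdvd
        have h1 : p ^ i - 1 ∣ ∏ i ∈ Finset.Icc 1 (Group.rank (P : Subgroup G)), (p ^ i - 1) :=
          Finset.dvd_prod_of_mem _ (Finset.mem_Icc.mpr ⟨hi1, hi2⟩)
        have h2 := Nat.dvd_gcd hrG (hdvd.trans h1)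
        rw [hcop] at h2
        exact hr.one_lt.ne' (Nat.dvd_one.mp h2))
      β (Subgroup.mem_zpowers _)
    rw [key, orderOf_one] at hβ'
    exact hr.one_lt.ne hβ'
  have hkt : φ.ker = ⊤ := by
    rw [← Subgroup.index_eq_one, Subgroup.index_ker, hA]
  rw [hker, Subgroup.subgroupOf_eq_top] at hkt
  exact hkt

/-- Let `P` be an abelian Sylow `p`-subgroup of the finite group `G`, generated by `d` elements (`d` its minimal number of generators). If the order of `G` is coprime to `(p - 1)(p ^ 2 - 1) ⋯ (p ^ d - 1)`, then `G` has a normal `p`-complement. (The classical statement needs only the largest number of cyclic factors of `P` of equal order in place of `d`; the form here follows from it.) -/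
theorem result {G : Type*} [Group G] [Finite G] (p : ℕ) [Fact p.Prime] (P : Sylow p G) (hab : IsMulCommutative (P : Subgroup G)) (hcop : Nat.Coprime (Nat.card G) (∏ i ∈ Finset.Icc 1 (Group.rank (P : Subgroup G)), (p ^ i - 1))) : Cfsg.HasNormalPComplement p G := by
  have h := normalizer_le_centralizer p P hab hcop
  exact ⟨P, _, inferInstance, MonoidHom.ker_transferSylow_isComplement' P h⟩

end Cfsg.Agent.S3969
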