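import Cfsg.Statements.S3970
import Cfsg.Agent.S3969

set_option autoImplicit false
open Cfsg

namespace Cfsg.Agent.S3970

theorem rank_le_one_of_card_le {Q : Type*} [Group Q] [Finite Q] (p : ℕ) (hp : p.Prime)
    (h : Nat.card Q ∣ p) : Group.rank Q ≤ 1 := by
  classical
  have : IsCyclic Q := by
    rcases (Nat.dvd_prime hp).mp h with h1 | h1
    · have : Subsingleton Q := Finite.card_le_one_iff_subsingleton.mp h1.le
      infer_instance
    · have : Fact p.Prime := ⟨hp⟩
      exact isCyclic_of_prime_card h1
  obtain ⟨g, hg⟩ := IsCyclic.exists_generator (α := Q)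
  have : Subgroup.closure (({g} : Finset Q) : Set Q) = ⊤ := by
    rw [Finset.coe_singleton, ← Subgroup.zpowers_eq_closure, eq_top_iff]
    intro x _
    exact hg x
  simpa using Group.rank_le this

theorem aux (n : ℕ) : ∀ {G : Type*} [Group G] [Finite G], Nat.card G = n → (∀ p : ℕ, p.Prime → p ∣ Nat.card G → (∃ q : ℕ, q.Prime ∧ q ∣ Nat.card G ∧ p < q) → ∀ P : Sylow p G, IsMulCommutative (P : Subgroup G) ∧ Group.rank (P : Subgroup G) ≤ 2) → (¬ 12 ∣ Nat.card G) → Group.IsSolvable G := by
  induction n using Nat.strong_induction_on with
  | _ n ih =>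
  intro G _ _ hn h h12
  by_cases hn1 : n = 1
  · have : Subsingleton G := Finite.card_le_one_iff_subsingleton.mp (by omega)
    infer_instance
  obtain ⟨p, hpdef⟩ : ∃ p, p = n.minFac := ⟨_, rfl⟩
  have hp : p.Prime := hpdef ▸ Nat.minFac_prime hn1
  have : Fact p.Prime := ⟨hp⟩
  have hpn : p ∣ Nat.card G := by rw [hn, hpdef]; exact Nat.minFac_dvd n
  have hmin : ∀ r : ℕ, r.Prime → r ∣ Nat.card G → p ≤ r := by
    intro r hr hrd
    rw [hpdef]
    exact Nat.minFac_le_of_dvd hr.two_le (hn ▸ hrd)
  by_cases hq : ∃ q : ℕ, q.Prime ∧ q ∣ Nat.card G ∧ p < q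
  · let P : Sylow p G := default
    obtain ⟨hab, hrank⟩ := h p hp hpn hq P
    have hcop : Nat.Coprime (Nat.card G) (∏ i ∈ Finset.Icc 1 (Group.rank (P : Subgroup G)), (p ^ i - 1)) := by
      apply Nat.Coprime.prod_right
      intro i hi
      rw [Finset.mem_Icc] at hi
      have hc1 : Nat.Coprime (Nat.card G) (p - 1) := by
        apply Nat.Coprime.symm
        apply Nat.coprime_of_dvd
        intro r hr hr1 hr2
        have h1 := hmin r hr hr2
        have h3 := hp.two_le
        have h2 := Nat.le_of_dvd (by omega) hr1
        omega
      have hi12 : i = 1 ∨ i = 2 := by omega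
      rcases hi12 with rfl | rfl
      · rw [pow_one]; exact hc1
      · have hfac : p ^ 2 - 1 = (p - 1) * (p + 1) := by
          obtain ⟨k, hk⟩ : ∃ k, p = k + 1 := ⟨p - 1, by have := hp.two_le; omega⟩
          rw [hk]
          simp only [Nat.add_sub_cancel]
          have : (k + 1) ^ 2 = k * (k + 1 + 1) + 1 := by ring
          omega
        rw [hfac]
        apply Nat.Coprime.mul_right hc1
        apply Nat.Coprime.symm
        apply Nat.coprime_of_dvd
        intro r hr hr1 hr2
        have h1 := hmin r hr hr2
        obtain ⟨k, hk⟩ := hr1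
        have hk0 : k ≠ 0 := by rintro rfl; omega
        have hk1 : k = 1 := by
          by_contra hk1
          have : 2 ≤ k := by omega
          have : 2 * r ≤ r * k := by nlinarith
          have := hp.two_le
          omega
        rw [hk1, mul_one] at hk
        have hp2 : p = 2 := by
          rcases hp.eq_two_or_odd' with h2 | hodd
          · exact h2
          · exfalso
            have heven : Even r := by rw [← hk]; exact hodd.add_one
            have : r = 2 := (Nat.Prime.even_iff hr).mp heven
            have := hp.two_le
            omega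
        have hr3 : r = 3 := by omega
        have h4 : 4 ∣ Nat.card (P : Subgroup G) := by
          obtain ⟨e, he⟩ := IsPGroup.iff_card.mp P.2
          rw [he, hp2]
          have he2 : 2 ≤ e := by
            by_contra hlt
            have hle : e ≤ 1 := by omega
            have hd : Nat.card (P : Subgroup G) ∣ p := by
              rw [he]
              calc p ^ e ∣ p ^ 1 := pow_dvd_pow p hle
                _ = p := pow_one p
            have := rank_le_one_of_card_le p hp hd
            omega
          calc 4 = 2 ^ 2 := by norm_num
            _ ∣ 2 ^ e := pow_dvd_pow 2 he2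
        have h4' : 4 ∣ Nat.card G := h4.trans (Subgroup.card_subgroup_dvd_card _)
        have h3' : 3 ∣ Nat.card G := hr3 ▸ hr2
        apply h12
        have : Nat.Coprime 4 3 := by norm_num
        exact this.mul_dvd_of_dvd_of_dvd h4' h3'
    obtain ⟨P', N, hN, hcompl⟩ := Cfsg.Agent.S3969.result p P hab hcop
    have hcard : Nat.card N * Nat.card (P' : Subgroup G) = Nat.card G := hcompl.card_mul_card
    obtain ⟨e, he⟩ := IsPGroup.iff_card.mp P'.2
    have hP'1 : 1 < Nat.card (P' : Subgroup G) := by
      have : p ∣ Nat.card (P' : Subgroup G) := by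
        rw [P'.card_eq_multiplicity]
        apply dvd_pow_self
        exact (Nat.Prime.factorization_pos_of_dvd hp Nat.card_pos.ne' hpn).ne'
      exact lt_of_lt_of_le hp.one_lt (Nat.le_of_dvd Nat.card_pos this)
    have hNlt : Nat.card N < n := by
      rw [← hn, ← hcard]
      have : 0 < Nat.card N := Nat.card_pos
      nlinarith
    have hNdvd : Nat.card N ∣ Nat.card G := Subgroup.card_subgroup_dvd_card N
    have hNp : ¬ p ∣ Nat.card N := by
      rw [← hcompl.index_eq_card]
      exact P'.not_dvd_index
    have hNsolv : Group.IsSolvable N := by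
      apply ih (Nat.card N) hNlt rfl
      · intro r hr hrN hqN R
        have : Fact r.Prime := ⟨hr⟩
        have hrp : r ≠ p := by rintro rfl; exact hNp hrN
        have hfact : (Nat.card G).factorization r = (Nat.card N).factorization r := by
          rw [← hcard, he, Nat.factorization_mul Nat.card_pos.ne' (pow_pos hp.pos e).ne',
            Nat.Prime.factorization_pow hp]
          simp [hrp.symm]
        have hcardR : Nat.card ((R : Subgroup N).map N.subtype) = r ^ (Nat.card G).factorization r := by
          rw [Subgroup.card_map_of_injective N.subtype_injective, R.card_eq_multiplicity, hfact]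
        obtain ⟨q, hq1, hq2, hq3⟩ := hqN
        obtain ⟨h1, h2⟩ := h r hr (hrN.trans hNdvd) ⟨q, hq1, hq2.trans hNdvd, hq3⟩ (Sylow.ofCard _ hcardR)
        rw [Sylow.coe_ofCard] at h1 h2
        let ε : (R : Subgroup N) ≃* ((R : Subgroup N).map N.subtype) :=
          Subgroup.equivMapOfInjective _ _ N.subtype_injective
        refine ⟨⟨⟨fun a b => ?_⟩⟩, ?_⟩
        · apply ε.injective
          rw [map_mul, map_mul]
          exact h1.is_comm.comm _ _
        · rw [Group.rank_congr ε]
          exact h2
      · intro hd
        exact h12 (hd.trans hNdvd)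
    have hQ : Group.IsSolvable (G ⧸ N) := by
      have : IsPGroup p (G ⧸ N) := by
        apply IsPGroup.of_card (n := e)
        rw [← he, ← hcompl.symm.index_eq_card]
        rfl
      have := this.isNilpotent
      infer_instance
    exact (Group.isSolvable_iff_subgroup_quotient N).mpr ⟨hNsolv, hQ⟩
  · have hpg : IsPGroup p G := by
      have : ∃ k, Nat.card G = p ^ k := by
        refine ⟨(Nat.card G).primeFactorsList.length, ?_⟩
        apply Nat.eq_prime_pow_of_unique_prime_dvd Nat.card_pos.ne'
        intro r hr hrd
        by_contra hne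
        exact hq ⟨r, hr, hrd, lt_of_le_of_ne (hmin r hr hrd) (Ne.symm hne)⟩
      obtain ⟨k, hk⟩ := this
      exact IsPGroup.of_card hk
    have := hpg.isNilpotent
    infer_instance

/-- Let `G` be a finite group such that for every prime `p` dividing its order, other than the largest such prime, the Sylow `p`-subgroups are abelian and generated by at most two elements, and suppose `12` does not divide the order of `G`. Then `G` is solvable. In particular a group of cube-free order not divisible by `12` is solvable. -/
theorem result {G : Type*} [Group G] [Finite G] (h : ∀ p : ℕ, p.Prime → p ∣ Nat.card G → (∃ q : ℕ, q.Prime ∧ q ∣ Nat.card G ∧ p < q) → ∀ P : Sylow p G, IsMulCommutative (P : Subgroup G) ∧ Group.rank (P : Subgroup G) ≤ 2) (h12 : ¬ 12 ∣ Nat.card G) : Group.IsSolvable G := by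
  exact aux _ rfl h h12

end Cfsg.Agent.S3970
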