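import Cfsg.Statements.S3971
import Cfsg.Agent.S0071
import Cfsg.Agent.Lib.Helper11.TwoGenAut

set_option autoImplicit false
open Cfsg

namespace Cfsg.Agent.S3971

open Cfsg.Agent.Lib.Helper11

/-- Let `G` be a finite group of order `2 ^ a * n` with `n` odd and not divisible by `3`, and suppose `G` has an element of order `2 ^ (a - 1)` (so a Sylow `2`-subgroup has a cyclic subgroup of index at most `2`). Then `G` has a normal subgroup of order `n`. -/
theorem result {G : Type*} [Group G] [Finite G] (a n : ℕ) (hG : Nat.card G = 2 ^ a * n) (hn : Odd n) (h3 : ¬ 3 ∣ n) (hx : ∃ x : G, orderOf x = 2 ^ (a - 1)) : ∃ N : Subgroup G, N.Normal ∧ Nat.card N = n := by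
  obtain ⟨x, hx⟩ := hx
  have hZ : IsPGroup 2 (Subgroup.zpowers x) :=
    IsPGroup.of_card (n := a - 1) (by rw [Nat.card_zpowers, hx])
  obtain ⟨P, hZP⟩ := hZ.exists_le_sylow
  have hn2 : Nat.Coprime 2 n := (Nat.coprime_two_left).2 hn
  have hPc : Nat.card (P : Subgroup G) = 2 ^ a := by
    rw [P.card_eq_multiplicity, hG]
    congr 1
    rw [Nat.factorization_mul (by positivity) (by rintro rfl; simp at hn)]
    simp [Nat.factorization_eq_zero_of_not_dvd (fun h => by
      have := Nat.Coprime.eq_one_of_dvd hn2 h; omega : ¬ 2 ∣ n), Nat.prime_two.factorization_self]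
  have key : ∃ N : Subgroup G, N.Normal ∧ N.IsComplement' (P : Subgroup G) := by
    rw [Cfsg.Agent.S0071.result P]
    intro Q hQP g hgN hg2
    have hQ2 : IsPGroup 2 Q := P.isPGroup'.to_le hQP
    -- cyclic subgroup of index at most two
    have hidx : ((Subgroup.zpowers x).subgroupOf Q).index ≤ 2 := by
      have h1 : (Subgroup.zpowers x).relIndex Q ≤ (Subgroup.zpowers x).relIndex (P : Subgroup G) :=
        Subgroup.relIndex_le_of_le_right hQP Subgroup.index_ne_zero_of_finite
      have h2 : (Subgroup.zpowers x).relIndex (P : Subgroup G) ≤ 2 := by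
        have h4 := ((Subgroup.zpowers x).subgroupOf (P : Subgroup G)).card_mul_index
        rw [Nat.card_congr (Subgroup.subgroupOfEquivOfLe hZP).toEquiv, Nat.card_zpowers, hx, hPc] at h4
        change 2 ^ (a - 1) * (Subgroup.zpowers x).relIndex (P : Subgroup G) = 2 ^ a at h4
        have h5 : 2 ^ a ≤ 2 ^ (a - 1) * 2 := by
          rw [← pow_succ]; exact Nat.pow_le_pow_right (by norm_num) (by omega)
        rw [← h4] at h5
        exact Nat.le_of_mul_le_mul_left h5 (by positivity)
      exact h1.trans h2
    have hcyc : IsCyclic ((Subgroup.zpowers x).subgroupOf Q) := by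
      let f : (Subgroup.zpowers x).subgroupOf Q →* Subgroup.zpowers x :=
        { toFun := fun y => ⟨(y : Q), y.2⟩
          map_one' := rfl
          map_mul' := fun _ _ => rfl }
      have hf : Function.Injective f := by
        intro y z hyz
        have := congrArg (fun w : Subgroup.zpowers x => (w : G)) hyz
        exact Subtype.ext (Subtype.ext this)
      exact isCyclic_of_injective f hf
    obtain ⟨u, v, huv⟩ := exists_two_gen_of_cyclic_index_le_two _ hidx
    have hord : (orderOf (Q.normalizerMonoidHom ⟨g, hgN⟩)).Coprime 6 := by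
      have h8 : orderOf (Q.normalizerMonoidHom ⟨g, hgN⟩) ∣ orderOf g := by
        have := orderOf_map_dvd Q.normalizerMonoidHom (⟨g, hgN⟩ : Subgroup.normalizer (Q : Set G))
        rwa [Subgroup.orderOf_mk] at this
      apply Nat.Coprime.coprime_dvd_left h8
      have h9 : orderOf g ∣ 2 ^ a * n := hG ▸ orderOf_dvd_natCard g
      have h10 : orderOf g ∣ n := (Nat.Coprime.dvd_of_dvd_mul_left (hg2.pow_right a) h9)
      have h11 : (orderOf g).Coprime 3 := by
        apply Nat.Coprime.coprime_dvd_left h10
        exact ((Nat.Prime.coprime_iff_not_dvd Nat.prime_three).2 h3).symm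
      exact Nat.Coprime.mul_right hg2 h11
    have h5 := aut_eq_one_of_two_gen hQ2 u v huv _ hord
    have h6 : (⟨g, hgN⟩ : Subgroup.normalizer (Q : Set G)) ∈ Q.normalizerMonoidHom.ker := h5
    rw [Subgroup.normalizerMonoidHom_ker, Subgroup.mem_subgroupOf] at h6
    exact h6
  obtain ⟨N, hN, hc⟩ := key
  refine ⟨N, hN, ?_⟩
  have h7 := hc.card_mul_card
  rw [hPc, hG, mul_comm] at h7
  exact Nat.eq_of_mul_eq_mul_left (by positivity) h7

end Cfsg.Agent.S3971
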