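import Cfsg.Statements.S3972
-- import your own Cfsg.Agent.* helpers here
import Cfsg.Agent.Lib.Helper63.SchurTransfer
import Cfsg.Agent.Lib.Helper63.SchurRing3

set_option autoImplicit false
open Cfsg

namespace Cfsg.Agent.S3972


open MulAction
open scoped Pointwise

/-- In a group, if `g` has order `p ^ m` and a subgroup contains a non-trivial power of `g`, it
contains `g ^ p ^ (m - 1)`. -/
theorem pow_mem_of_pow_mem {Γ : Type*} [Group Γ] {p m : ℕ} (hp : p.Prime) (g : Γ)
    (hg : orderOf g = p ^ m) (K : Subgroup Γ) (k : ℕ) (hk : g ^ k ∈ K) (hk1 : g ^ k ≠ 1) :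
    g ^ (p ^ (m - 1)) ∈ K := by
  have hd : g ^ (Nat.gcd k (p ^ m)) ∈ K := by
    have h1 : (g ^ (Nat.gcd k (p ^ m)) : Γ) = g ^ ((Nat.gcd k (p ^ m) : ℕ) : ℤ) := by
      rw [zpow_natCast]
    rw [h1, Nat.gcd_eq_gcd_ab, zpow_add, zpow_mul, zpow_mul, zpow_natCast, zpow_natCast]
    have h2 : g ^ (p ^ m) = 1 := by rw [← hg]; exact pow_orderOf_eq_one g
    rw [h2, one_zpow, mul_one]
    exact K.zpow_mem hk _
  obtain ⟨a, ha, hda⟩ := (Nat.dvd_prime_pow hp).1 (Nat.gcd_dvd_right k (p ^ m))
  have ham : a ≠ m := by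
    rintro rfl
    apply hk1
    have : p ^ a ∣ k := by rw [← hda]; exact Nat.gcd_dvd_left _ _
    rw [← hg] at this
    exact orderOf_dvd_iff_pow_eq_one.1 this
  have e : p ^ (m - 1) = p ^ a * p ^ (m - 1 - a) := by
    rw [← pow_add]; congr 1; omega
  rw [e, pow_mul, ← hda]
  exact K.pow_mem hd _

/-- A permutation of order `p ^ m` of `p ^ m` points generates a regular group. -/
theorem regular_of_order {Ω : Type*} [Fintype Ω] [DecidableEq Ω] {p m : ℕ} (hp : p.Prime)
    (hm : 1 ≤ m) (hΩ : Fintype.card Ω = p ^ m) (G : Subgroup (Equiv.Perm Ω)) (g : G)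
    (hg : orderOf g = p ^ m) :
    IsPretransitive ↥(Subgroup.zpowers g) Ω ∧ ∀ a : Ω, stabilizer ↥(Subgroup.zpowers g) a = ⊥ := by
  classical
  obtain ⟨ω, hω⟩ : ∃ ω : Ω, period g ω = p ^ m := by
    by_contra hcon
    push Not at hcon
    have h1 : g ^ (p ^ (m - 1)) = 1 := by
      apply Subtype.ext
      ext ω
      have hdvd : period g ω ∣ p ^ m := by rw [← hg]; exact period_dvd_orderOf g ω
      obtain ⟨a, ha, hpa⟩ := (Nat.dvd_prime_pow hp).1 hdvd
      have ham : a ≠ m := by
        rintro rfl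
        exact hcon ω hpa
      have : period g ω ∣ p ^ (m - 1) := by
        rw [hpa]; exact pow_dvd_pow p (by omega)
      exact pow_smul_eq_iff_period_dvd.2 this
    have h2 := orderOf_dvd_of_pow_eq_one h1
    rw [hg] at h2
    have h3 := Nat.le_of_dvd (pow_pos hp.pos _) h2
    have h4 : p ^ (m - 1) < p ^ m := Nat.pow_lt_pow_right hp.one_lt (by omega)
    omega
  have horb : orbit ↥(Subgroup.zpowers g) ω = Set.univ := by
    have h1 : Fintype.card (orbit ↥(Subgroup.zpowers g) ω) = p ^ m := by
      rw [← minimalPeriod_eq_card, ← period_eq_minimalPeriod, hω]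
    rw [← Set.toFinset_inj, Set.toFinset_univ]
    apply Finset.eq_univ_of_card
    rw [Set.toFinset_card, h1, hΩ]
  have htr : IsPretransitive ↥(Subgroup.zpowers g) Ω := by
    constructor
    intro a b
    have ha : a ∈ orbit ↥(Subgroup.zpowers g) ω := by rw [horb]; trivial
    have hb : b ∈ orbit ↥(Subgroup.zpowers g) ω := by rw [horb]; trivial
    obtain ⟨c₁, rfl⟩ := ha
    obtain ⟨c₂, rfl⟩ := hb
    exact ⟨c₂ * c₁⁻¹, by simp [mul_smul]⟩
  refine ⟨htr, fun a => ?_⟩
  have h1 := card_orbit_mul_card_stabilizer_eq_card_group ↥(Subgroup.zpowers g) a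
  have h2 : Fintype.card (orbit ↥(Subgroup.zpowers g) a) = p ^ m := by
    rw [← hΩ, ← Set.toFinset_card]
    have : orbit ↥(Subgroup.zpowers g) a = Set.univ := orbit_eq_univ _ a
    simp [this]
  have h3 : Fintype.card ↥(Subgroup.zpowers g) = p ^ m := by
    rw [Fintype.card_zpowers, hg]
  rw [h2, h3] at h1
  have h4 : Fintype.card (stabilizer ↥(Subgroup.zpowers g) a) = 1 := by
    have hpos : 0 < p ^ m := pow_pos hp.pos _
    exact Nat.eq_of_mul_eq_mul_left hpos (by rw [h1, mul_one])
  rw [← Subgroup.card_eq_one, Nat.card_eq_fintype_card, h4]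

/-- Let `p` be a prime, `m ≥ 2`, and `G` a transitive but not doubly transitive permutation group on `p ^ m` points containing a permutation of order `p ^ m` (necessarily a full cycle). Then `G` is imprimitive, and the normal closure in `G` of the `p ^ (m - 1)`-th power of that permutation is an intransitive normal subgroup. -/
theorem result {Ω : Type*} [Fintype Ω] [DecidableEq Ω] (p m : ℕ) (hp : p.Prime) (hm : 2 ≤ m) (hΩ : Fintype.card Ω = p ^ m) (G : Subgroup (Equiv.Perm Ω)) (htr : MulAction.IsPretransitive G Ω) (h2 : ¬ MulAction.IsMultiplyPretransitive G Ω 2) (g : G) (hg : orderOf g = p ^ m) : ¬ MulAction.IsPreprimitive G Ω ∧ ¬ MulAction.IsPretransitive (Subgroup.normalClosure ({g ^ (p ^ (m - 1))} : Set G)) Ω := by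
  classical
  haveI := Fact.mk hp
  have hreg := regular_of_order hp (by omega) hΩ G g hg
  have hnp : ¬ MulAction.IsPreprimitive G Ω := by
    intro hprim
    apply h2
    haveI : Nonempty Ω := by
      apply Fintype.card_pos_iff.1
      rw [hΩ]; exact pow_pos hp.pos _
    obtain ⟨N, hN, e, hNcard, htransl⟩ := Lib.Helper63.exists_zmod_model (Subgroup.zpowers g)
      inferInstance hreg
    have hT := Lib.Helper63.transport_hasTranslations e _ htransl
    have hprim' := Lib.Helper63.transport_isPreprimitive e hprim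
    apply Lib.Helper63.two_pretransitive_of_transport e 0 htr
    rw [Nat.card_eq_fintype_card, hΩ] at hNcard
    have hcardZ : Fintype.card (ZMod N) = N := ZMod.card N
    obtain ⟨z₀, hz₀⟩ := exists_prime_addOrderOf_dvd_card (G := ZMod N) p
      (by rw [hcardZ, hNcard]; exact dvd_pow_self p (by omega))
    apply Lib.Helper63.wielandt_cyclic_sylow hT hprim' p
      (IsAddCyclic.card_nsmul_eq_zero_le hp.pos) z₀ _ _ 1
    · rw [nsmul_eq_mul, mul_one]
      intro h
      have h' : N ∣ p := (ZMod.natCast_eq_zero_iff p N).1 h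
      rw [hNcard] at h'
      have h3 := Nat.le_of_dvd hp.pos h'
      have h4 : p ^ 1 < p ^ m := Nat.pow_lt_pow_right hp.one_lt (by omega)
      rw [pow_one] at h4
      omega
    · intro h
      rw [h, addOrderOf_zero] at hz₀
      exact hp.one_lt.ne hz₀
    · rw [← hz₀]
      exact addOrderOf_nsmul_eq_zero z₀
  refine ⟨hnp, ?_⟩
  -- a non-trivial block
  obtain ⟨B, hB, hBnt⟩ : ∃ B : Set Ω, MulAction.IsBlock G B ∧ ¬ MulAction.IsTrivialBlock B := by
    by_contra hcon
    push Not at hcon
    exact hnp ⟨fun {B} hB => hcon B hB⟩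
  have hBns : ¬ B.Subsingleton := fun h => hBnt (Or.inl h)
  have hBnu : B ≠ Set.univ := fun h => hBnt (Or.inr h)
  let K : Subgroup G :=
    { carrier := {h | ∀ k : G, h • (k • B) = k • B}
      one_mem' := fun k => one_smul _ _
      mul_mem' := by
        intro a b ha hb k
        rw [mul_smul, hb k, ha k]
      inv_mem' := by
        intro a ha k
        rw [inv_smul_eq_iff, ha k] }
  have hKn : K.Normal := by
    constructor
    intro h hh x k
    have := hh (x⁻¹ * k)
    rw [mul_smul, mul_smul, ← mul_smul x⁻¹ k B, this, mul_smul, smul_inv_smul]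
  have hyK : g ^ (p ^ (m - 1)) ∈ K := by
    intro k
    have hB' : MulAction.IsBlock G (k • B) := hB.translate k
    have hns : ¬ (k • B).Subsingleton := by
      intro h
      apply hBns
      intro a ha b hb
      have := h (Set.smul_mem_smul_set ha) (Set.smul_mem_smul_set hb)
      exact smul_left_cancel k this
    rw [Set.not_subsingleton_iff] at hns
    obtain ⟨a, ha, b, hb, hab⟩ := hns
    obtain ⟨⟨c, hc⟩, hcab⟩ := hreg.1.exists_smul_eq a b
    rw [← mem_powers_iff_mem_zpowers] at hc
    obtain ⟨j, rfl⟩ := hc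
    have hcab' : (g ^ j) • a = b := hcab
    have h1 : g ^ j ∈ MulAction.stabilizer G (k • B) := by
      rw [MulAction.mem_stabilizer_iff]
      apply hB'.smul_eq_of_mem ha
      rw [hcab']; exact hb
    have h2 : g ^ j ≠ 1 := by
      intro h
      rw [h, one_smul] at hcab'
      exact hab hcab'
    exact pow_mem_of_pow_mem hp g hg _ j h1 h2
  have hle : Subgroup.normalClosure ({g ^ (p ^ (m - 1))} : Set G) ≤ K := by
    apply Subgroup.normalClosure_le_normal
    rw [Set.singleton_subset_iff]
    exact hyK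
  intro htrN
  rw [Set.not_subsingleton_iff] at hBns
  obtain ⟨a, ha, _⟩ := hBns
  obtain ⟨c, hc⟩ : ∃ c, c ∉ B := by
    by_contra hcon
    push Not at hcon
    exact hBnu (Set.eq_univ_of_forall hcon)
  obtain ⟨⟨n, hn⟩, hnac⟩ := htrN.exists_smul_eq a c
  have := hle hn 1
  rw [one_smul] at this
  apply hc
  rw [← this]
  exact ⟨a, ha, hnac⟩

end Cfsg.Agent.S3972
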