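import Cfsg.Statements.S3973
-- import your own Cfsg.Agent.* helpers here
import Cfsg.Agent.Lib.Helper41.SchurRank

set_option autoImplicit false
open Cfsg

namespace Cfsg.Agent.S3973

open Cfsg.Agent.Lib.Helper41 Subgroup
open scoped commutatorElement

/-- If a finite group is presented by `n` generators and a finite set of `r` relators, then its Schur multiplier can be generated by `r - n` elements. In particular a finite group with a presentation having as many relators as generators has trivial Schur multiplier. -/
theorem result (n : ℕ) (rels : Finset (FreeGroup (Fin n))) [Finite (PresentedGroup (rels : Set (FreeGroup (Fin n))))] {A : Type*} [CommGroup A] [Finite A] (hA : Cfsg.HasSchurMultiplier (PresentedGroup (rels : Set (FreeGroup (Fin n)))) A) : Group.rank A ≤ rels.card - n := by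
  classical
  obtain ⟨e⟩ := hsm_equiv_mult hA (PresentedGroup.mk (rels : Set (FreeGroup (Fin n))))
    (PresentedGroup.mk_surjective _)
  have h1 := rank_mult_le (PresentedGroup.mk (rels : Set (FreeGroup (Fin n))))
    (fun i : rels => i.1) (by
      ext x
      rw [MonoidHom.mem_ker, PresentedGroup.mk_eq_one_iff]
      simp)
  have h2 : Group.rank A ≤ Group.rank (mult (PresentedGroup.mk (rels : Set (FreeGroup (Fin n))))) :=
    Group.rank_le_of_surjective e.symm.toMonoidHom e.symm.surjective
  simpa using h2.trans h1

end Cfsg.Agent.S3973
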