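import Cfsg.Statements.S3976
import Mathlib
import Cfsg.Agent.Lib.Helper70.Wielandt
-- import your own Cfsg.Agent.* helpers here

set_option autoImplicit false
open Cfsg

namespace Cfsg.Agent.S3976

open scoped Pointwise in
/-- Subgroups of a given order, as a sub-action of the conjugation action. -/
def subgroupsOfCard (G : Type*) [Group G] (k : ℕ) : SubMulAction (ConjAct G) (Subgroup G) where
  carrier := {H | Nat.card H = k}
  smul_mem' g H hH := by
    change Nat.card (g • H : Subgroup G) = k
    rw [← Nat.card_congr (Subgroup.equivSMul g H).toEquiv]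
    exact hH

open scoped Pointwise in
theorem aux {G : Type*} [Group G] [Finite G] (p m s : ℕ) (hp : p.Prime) (hG : Nat.card G = p ^ m)
    (hs : s ≤ m) : Nat.card {H : Subgroup G // H.Normal ∧ Nat.card H = p ^ s} ≡ 1 [MOD p] := by
  have : Fact p.Prime := ⟨hp⟩
  have hGp : IsPGroup p (ConjAct G) := IsPGroup.of_card (n := m) hG
  have h1 := Cfsg.Agent.Lib.Helper70.card_subgroups_prime_pow_modEq_one (G := G) p s hp
    (by rw [hG]; exact pow_dvd_pow p hs)
  have h2 := hGp.card_modEq_card_fixedPoints (subgroupsOfCard G (p ^ s))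
  have e : MulAction.fixedPoints (ConjAct G) (subgroupsOfCard G (p ^ s)) ≃
      {H : Subgroup G // H.Normal ∧ Nat.card H = p ^ s} :=
    { toFun := fun H => ⟨H.1.1, by
        refine ⟨⟨fun n hn g => ?_⟩, H.1.2⟩
        have h3 : (ConjAct.toConjAct g • H.1 : subgroupsOfCard G (p ^ s)) = H.1 := H.2 _
        have h4 : ConjAct.toConjAct g • (H.1.1 : Subgroup G) = H.1.1 := congrArg Subtype.val h3
        rw [← h4]
        exact ⟨n, hn, rfl⟩⟩
      invFun := fun H => ⟨⟨H.1, H.2.2⟩, fun g => Subtype.ext (H.2.1.conjAct g)⟩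
      left_inv := fun H => rfl
      right_inv := fun H => rfl }
  rw [← Nat.card_congr e]
  exact h2.symm.trans h1

/-- Let `p` be a prime and `G` a group of order `p ^ m`. For every `s ≤ m` the number of normal subgroups of `G` of order `p ^ s` is congruent to `1` modulo `p`. -/
theorem result {G : Type*} [Group G] [Finite G] (p m s : ℕ) (hp : p.Prime) (hG : Nat.card G = p ^ m) (hs : s ≤ m) : Nat.card {H : Subgroup G // H.Normal ∧ Nat.card H = p ^ s} ≡ 1 [MOD p] := by
  exact aux p m s hp hG hs

end Cfsg.Agent.S3976
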