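import Cfsg.Statements.S3978
-- import your own Cfsg.Agent.* helpers here
import Cfsg.Agent.Lib.Helper41.SchurMono
import Cfsg.Agent.Lib.Helper41.SchurDihedral

set_option autoImplicit false
open Cfsg

namespace Cfsg.Agent.S3978

open Cfsg.Agent.Lib.Helper41 Subgroup
open scoped commutatorElement

/-- A finite group `Q` has trivial Schur multiplier if and only if, for every `n`, every homomorphism from `Q` to the projective general linear group (the quotient of `GL n ℂ` by its centre) lifts to a homomorphism into `GL n ℂ`. -/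
theorem result {Q : Type*} [Group Q] [Finite Q] : Cfsg.HasCyclicSchurMultiplier Q 1 ↔ ∀ (n : ℕ) (γ : Q →* (GL (Fin n) ℂ ⧸ Subgroup.center (GL (Fin n) ℂ))), ∃ ρ : Q →* GL (Fin n) ℂ, (QuotientGroup.mk' (Subgroup.center (GL (Fin n) ℂ))).comp ρ = γ := by
  have h1 : Subsingleton (MonoidHom.id Q).ker := ⟨fun a b => Subtype.ext (a.2.trans b.2.symm)⟩
  have h2 : Unique (MonoidHom.id Q).ker := ⟨⟨1⟩, fun a => Subsingleton.elim _ _⟩
  have hid : IsStemExtension (MonoidHom.id Q) := by
    refine ⟨fun g => ⟨g, rfl⟩, ?_, ?_⟩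
    · intro x hx
      have : x = 1 := hx
      rw [this]; exact one_mem _
    · intro x hx
      have : x = 1 := hx
      rw [this]; exact one_mem _
  constructor
  · intro hA n γ
    exact exists_lift_of_cover hA (MonoidHom.id Q) hid ⟨MulEquiv.ofUnique⟩ (center_GL_divisible n) γ
  · intro hlift
    apply hasCyclicSchurMultiplier_one_of_card_le
    intro Γ _ _ σ hσ
    obtain ⟨π, hπ⟩ := surj_ker_of_lift (MonoidHom.id Q) hid hlift σ hσ
    have := Nat.card_le_card_of_surjective π hπ
    simpa using this

end Cfsg.Agent.S3978
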