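import Cfsg.Statements.S3980
-- import your own Cfsg.Agent.* helpers here
import Cfsg.Agent.Lib.Helper41.SchurProd
import Cfsg.Agent.S3959

set_option autoImplicit false
universe u v w
open Cfsg

namespace Cfsg.Agent.S3980

open Cfsg.Agent.Lib.Helper41 Subgroup
open scoped commutatorElement TensorProduct

/-- Let `Q₁` and `Q₂` be finite groups whose commutator quotients have coprime orders, with Schur multipliers `A` and `B`. Then the Schur multiplier of `Q₁ × Q₂` is isomorphic to `A × B`. -/
theorem result {Q₁ : Type u} {Q₂ : Type v} [Group Q₁] [Group Q₂] [Finite Q₁] [Finite Q₂] {A B : Type w} [CommGroup A] [CommGroup B] (hA : Cfsg.HasSchurMultiplier Q₁ A) (hB : Cfsg.HasSchurMultiplier Q₂ B) (hcop : Nat.Coprime (Nat.card (Abelianization Q₁)) (Nat.card (Abelianization Q₂))) : Cfsg.HasSchurMultiplier (Q₁ × Q₂) (A × B) := by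
  have h := Cfsg.Agent.S3959.result hA hB
  have hsub : Subsingleton (AbT Q₁ Q₂) := by
    have hz : ∀ t : AbT Q₁ Q₂, t = 0 := by
      intro t
      induction t using TensorProduct.induction_on with
      | zero => rfl
      | tmul m n =>
        have h1 : (Nat.card (Abelianization Q₁) : ℤ) • m = 0 := by
          rw [natCast_zsmul]
          exact card_nsmul_eq_zero' (G := Additive (Abelianization Q₁))
        have h2 : (Nat.card (Abelianization Q₂) : ℤ) • n = 0 := by
          rw [natCast_zsmul]
          exact card_nsmul_eq_zero' (G := Additive (Abelianization Q₂))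
        have hc : IsCoprime (Nat.card (Abelianization Q₁) : ℤ) (Nat.card (Abelianization Q₂) : ℤ) :=
          Nat.isCoprime_iff_coprime.mpr hcop
        obtain ⟨a, b, hab⟩ := hc
        have : m ⊗ₜ[ℤ] n = (a * (Nat.card (Abelianization Q₁) : ℤ) +
            b * (Nat.card (Abelianization Q₂) : ℤ)) • (m ⊗ₜ[ℤ] n) := by rw [hab, one_smul]
        have e1 : (Nat.card (Abelianization Q₁) : ℤ) • (m ⊗ₜ[ℤ] n) = 0 := by
          rw [TensorProduct.smul_tmul', h1, TensorProduct.zero_tmul]
        have e2 : (Nat.card (Abelianization Q₂) : ℤ) • (m ⊗ₜ[ℤ] n) = 0 := by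
          rw [← TensorProduct.tmul_smul, h2, TensorProduct.tmul_zero]
        rw [this, add_smul, mul_smul, mul_smul, e1, e2]
        simp
      | add x y hx hy => rw [hx, hy, add_zero]
    exact ⟨fun x y => by rw [hz x, hz y]⟩
  have : Unique (Multiplicative (AbT Q₁ Q₂)) := ⟨⟨1⟩, fun a => Subsingleton.elim _ _⟩
  exact hsm_of_mulEquiv h ((MulEquiv.refl A).prodCongr MulEquiv.prodUnique)

end Cfsg.Agent.S3980
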