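import Cfsg.Statements.S3992
import Cfsg.Agent.Lib.Helper64.CPGroup2
import Cfsg.Agent.S0144

set_option autoImplicit false
open Cfsg

namespace Cfsg.Agent.S3992

/-- Let G be a finite non-solvable group in which every element has prime-power order, and let R be its largest solvable normal subgroup. Then R is a p-group for some prime p; G/R has a non-abelian simple normal subgroup contained in every nontrivial normal subgroup of G/R (its unique minimal normal subgroup); and the order of every solvable subgroup of G has at most two prime divisors. -/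
theorem result {G : Type*} [Group G] [Finite G] (hns : ¬ Group.IsSolvable G) (hpp : ∀ g : G, g ≠ 1 → IsPrimePow (orderOf g))
    (R : Subgroup G) [R.Normal] (hRs : Group.IsSolvable ↥R) (hRmax : ∀ N : Subgroup G, N.Normal → Group.IsSolvable ↥N → N ≤ R) :
    (∃ p : ℕ, p.Prime ∧ IsPGroup p ↥R) ∧
      (∃ M : Subgroup (G ⧸ R), M.Normal ∧ IsSimpleGroup ↥M ∧ ¬ IsMulCommutative ↥M ∧
        ∀ N : Subgroup (G ⧸ R), N.Normal → N ≠ ⊥ → M ≤ N) ∧
      ∀ H : Subgroup G, Group.IsSolvable ↥H → (Nat.card ↥H).primeFactors.card ≤ 2 := by
  have hG : Cfsg.Agent.Lib.Helper64.NoMixed G := by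
    intro p q hp hq hpq g hg
    have hg1 : g ≠ 1 := by
      intro h
      rw [h, orderOf_one] at hg
      have := hp.one_lt
      have := hq.one_lt
      nlinarith
    have := hpp g hg1
    rw [hg] at this
    exact Cfsg.Agent.Lib.Helper64.not_isPrimePow_mul hp hq hpq this
  refine ⟨?_, ?_, ?_⟩
  · by_cases hR : R = ⊥
    · exact ⟨2, Nat.prime_two, by rw [hR]; exact IsPGroup.of_bot⟩
    · obtain ⟨q, hq, hqR⟩ := Cfsg.Agent.Lib.Helper64.exists_prime_dvd_card_of_ne_bot hR
      refine ⟨q, hq, (Cfsg.Agent.Lib.Helper64.solvable_of_unique_prime hq ?_).1⟩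
      intro p hp hpR
      by_contra hpq
      by_cases ht : ∃ t : ℕ, t.Prime ∧ t ∣ Nat.card G ∧ t ≠ p ∧ t ≠ q
      · obtain ⟨t, ht, htG, htp, htq⟩ := ht
        rcases Cfsg.Agent.Lib.Helper64.solvable_normal_adj _ R inferInstance hRs rfl p q t hp hq ht
          hpq htp.symm htq.symm hpR hqR htG with ⟨x, hx⟩ | ⟨x, hx⟩ | ⟨x, hx⟩
        · exact hG p q hp hq hpq x hx
        · exact hG p t hp ht htp.symm x hx
        · exact hG q t hq ht htq.symm x hx
      · push Not at ht
        apply hns
        have hpf : (Nat.card G).primeFactors = {p, q} := by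
          ext t
          simp only [Nat.mem_primeFactors, Finset.mem_insert, Finset.mem_singleton]
          constructor
          · rintro ⟨h1, h2, _⟩
            by_contra hcon
            push Not at hcon
            exact hcon.2 (ht t h1 h2 hcon.1)
          · rintro (rfl | rfl)
            · exact ⟨hp, hpR.trans (Subgroup.card_subgroup_dvd_card R), Nat.card_pos.ne'⟩
            · exact ⟨hq, hqR.trans (Subgroup.card_subgroup_dvd_card R), Nat.card_pos.ne'⟩
        have hfac := Nat.prod_factorization_pow_eq_self (n := Nat.card G) Nat.card_pos.ne'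
        rw [Finsupp.prod, Nat.support_factorization, hpf, Finset.prod_pair hpq] at hfac
        exact Cfsg.Agent.S0144.result p q _ _ hp hq hfac.symm
  · have hXm : Cfsg.Agent.Lib.Helper64.NoMixed (G ⧸ R) := by
      intro p q hp hq hpq x hx
      obtain ⟨g, rfl⟩ := QuotientGroup.mk'_surjective R x
      have hdvd : p * q ∣ orderOf g := by
        rw [← hx]; exact orderOf_map_dvd _ g
      exact hG p q hp hq hpq _ (orderOf_pow_orderOf_div (orderOf_pos g).ne' hdvd)
    have hXnt : Nontrivial (G ⧸ R) := by
      by_contra hcon
      rw [not_nontrivial_iff_subsingleton] at hcon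
      apply hns
      have hRt : R = ⊤ := by
        rw [eq_top_iff]
        intro g _
        rw [← QuotientGroup.eq_one_iff]
        exact Subsingleton.elim _ _
      subst hRt
      exact Group.isSolvable_of_surjective (f := (⊤ : Subgroup G).subtype)
        (fun g => ⟨⟨g, trivial⟩, rfl⟩)
    have hrad : ∀ N : Subgroup (G ⧸ R), N.Normal → Group.IsSolvable N → N = ⊥ := by
      intro N hNn hNs
      have hRN : R ≤ N.comap (QuotientGroup.mk' R) := by
        intro r hr
        rw [Subgroup.mem_comap]
        have : QuotientGroup.mk' R r = 1 := (QuotientGroup.eq_one_iff r).mpr hr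
        rw [this]; exact N.one_mem
      have hsol : Group.IsSolvable (N.comap (QuotientGroup.mk' R)) := by
        apply Group.isSolvable_of_ker_le_range (Subgroup.inclusion hRN)
          ((QuotientGroup.mk' R).subgroupComap N)
        intro x hx
        rw [MonoidHom.mem_ker] at hx
        have h1 : QuotientGroup.mk' R (x : G) = 1 := congrArg Subtype.val hx
        have h2 : (x : G) ∈ R := (QuotientGroup.eq_one_iff _).mp h1
        exact ⟨⟨x, h2⟩, rfl⟩
      have hle := hRmax _ inferInstance hsol
      rw [eq_bot_iff]
      intro x hx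
      obtain ⟨g, rfl⟩ := QuotientGroup.mk'_surjective R x
      rw [Subgroup.mem_bot]
      exact (QuotientGroup.eq_one_iff g).mpr (hle hx)
    exact Cfsg.Agent.Lib.Helper64.exists_simple_socle hXm hrad
  · intro H hH
    exact Cfsg.Agent.Lib.Helper64.card_primeFactors_le_two_of_solvable hH (hG.subgroup H)

end Cfsg.Agent.S3992
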