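import Cfsg.Statements.S3995
import Cfsg.Agent.Lib.Helper70.Frobenius
import Cfsg.Agent.S0016
-- import your own Cfsg.Agent.* helpers here

set_option autoImplicit false
open Cfsg

namespace Cfsg.Agent.S3995

universe u

open Finset

/-- number of elements of order `m` -/
noncomputable def sc (G : Type*) [Group G] (m : ℕ) : ℕ := Nat.card {g : G // orderOf g = m}

theorem card_pow_eq_sum (G : Type*) [Group G] [Finite G] (k : ℕ) (hk : k ≠ 0) :
    Nat.card {x : G // x ^ k = 1} = ∑ d ∈ k.divisors, sc G d := by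
  classical
  have := Fintype.ofFinite G
  have h := sum_card_orderOf_eq_card_pow_eq_one (G := G) hk
  rw [Nat.card_eq_fintype_card, Fintype.card_subtype, ← h]
  apply Finset.sum_congr rfl
  intro d _
  rw [sc, Nat.card_eq_fintype_card, Fintype.card_subtype]

theorem dvd_sum_sc (G : Type u) [Group G] [Finite G] (k : ℕ) (hk : k ∣ Nat.card G) :
    k ∣ ∑ d ∈ k.divisors, sc G d := by
  have hk0 : k ≠ 0 := by
    rintro rfl
    exact Nat.card_pos.ne' (Nat.eq_zero_of_zero_dvd hk)
  rw [← card_pow_eq_sum G k hk0]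
  exact Cfsg.Agent.Lib.Helper70.frobenius_dvd k hk

theorem sum_divisors_prime_mul (g : ℕ → ℕ) (r k : ℕ) (hr : r.Prime) (hk : k ≠ 0) (hrk : ¬ r ∣ k) :
    ∑ d ∈ (r * k).divisors, g d = ∑ d ∈ k.divisors, g d + ∑ d ∈ k.divisors, g (r * d) := by
  have h1 : (r * k).divisors = k.divisors ∪ k.divisors.image (r * ·) := by
    ext d
    simp only [Nat.mem_divisors, mem_union, mem_image]
    constructor
    · rintro ⟨hd, -⟩
      by_cases hrd : r ∣ d
      · obtain ⟨d', rfl⟩ := hrd
        right
        exact ⟨d', ⟨Nat.dvd_of_mul_dvd_mul_left hr.pos hd, hk⟩, rfl⟩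
      · left
        exact ⟨(Nat.Coprime.dvd_mul_left ((Nat.Prime.coprime_iff_not_dvd hr).mpr hrd).symm).mp hd, hk⟩
    · rintro (⟨hd, -⟩ | ⟨d', ⟨hd', -⟩, rfl⟩)
      · exact ⟨hd.mul_left r, mul_ne_zero hr.ne_zero hk⟩
      · exact ⟨Nat.mul_dvd_mul_left r hd', mul_ne_zero hr.ne_zero hk⟩
  have h2 : Disjoint k.divisors (k.divisors.image (r * ·)) := by
    rw [Finset.disjoint_left]
    intro d hd hd'
    simp only [Nat.mem_divisors, mem_image] at hd hd'
    obtain ⟨d', -, rfl⟩ := hd'
    exact hrk ((Dvd.intro _ rfl).trans hd.1)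
  rw [h1, Finset.sum_union h2, Finset.sum_image]
  intro a _ b _ hab
  exact Nat.eq_of_mul_eq_mul_left hr.pos hab

theorem exists_small_model (S : Type u) [Group S] [Finite S] :
    ∃ (P : Type) (_ : Group P) (_ : Finite P), Nonempty (S ≃* P) := by
  let e : S ≃ {i : ℕ // i < Nat.card S} := (Finite.equivFin S).trans Fin.equivSubtype
  let _ : Group {i : ℕ // i < Nat.card S} := e.symm.group
  exact ⟨{i : ℕ // i < Nat.card S}, inferInstance, inferInstance, ⟨(e.symm.mulEquiv).symm⟩⟩

theorem exists_orderOf_eq_of_dvd {G : Type*} [Group G] [Finite G] (g : G) (d : ℕ)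
    (hd : d ∣ orderOf g) : ∃ h : G, orderOf h = d := by
  obtain ⟨c, hc⟩ := hd
  have ho : 0 < orderOf g := orderOf_pos g
  have hc0 : c ≠ 0 := by
    rintro rfl
    omega
  refine ⟨g ^ c, ?_⟩
  rw [orderOf_pow_of_dvd hc0 (Dvd.intro_left _ hc.symm), hc, Nat.mul_div_cancel _ (Nat.pos_of_ne_zero hc0)]


theorem exponent_eq_prime {P : Type*} [Group P] [Nontrivial P] {p : ℕ} (hp : p.Prime)
    (h : ∀ x : P, x ^ p = 1) : Monoid.exponent P = p := by
  have h1 : Monoid.exponent P ∣ p := Monoid.exponent_dvd_of_forall_pow_eq_one h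
  rcases (Nat.dvd_prime hp).mp h1 with h2 | h2
  · have : Subsingleton P := Monoid.exp_eq_one_iff.mp h2
    exact absurd ‹Nontrivial P› (not_nontrivial_iff_subsingleton.mpr this)
  · exact h2

theorem pow_prime_eq_one_of_no_sq {G : Type*} [Group G] [Finite G] {p : ℕ} (hp : p.Prime)
    (hno : ¬ ∃ g : G, orderOf g = p ^ 2) (g : G) (j : ℕ) (hg : orderOf g = p ^ j) : g ^ p = 1 := by
  have hj : j ≤ 1 := by
    by_contra hlt
    exact hno (exists_orderOf_eq_of_dvd g (p ^ 2) (by rw [hg]; exact pow_dvd_pow p (by omega)))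
  apply orderOf_dvd_iff_pow_eq_one.mp
  rw [hg]
  calc p ^ j ∣ p ^ 1 := pow_dvd_pow p hj
    _ = p := pow_one p

/-- internal direct product of a central subgroup and a subgroup -/
theorem equiv_prod_of_central {G : Type*} [Group G] [Finite G] (Z S : Subgroup G)
    (hZ : Z ≤ Subgroup.center G) (hdisj : Z ⊓ S = ⊥) (hcard : Nat.card Z * Nat.card S = Nat.card G) :
    Nonempty (G ≃* Z × S) := by
  let φ : Z × S →* G := MonoidHom.noncommCoprod Z.subtype S.subtype
    (fun a b => ((Subgroup.mem_center_iff.mp (hZ a.2)) b).symm)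
  have hinj : Function.Injective φ := by
    rw [injective_iff_map_eq_one]
    rintro ⟨a, b⟩ hab
    have h1 : (a : G) * b = 1 := hab
    have h2 : (a : G) = (b : G)⁻¹ := eq_inv_of_mul_eq_one_left h1
    have h3 : (a : G) ∈ Z ⊓ S := ⟨a.2, by rw [SetLike.mem_coe, h2]; exact S.inv_mem b.2⟩
    rw [hdisj, Subgroup.mem_bot] at h3
    have h4 : (b : G) = 1 := by rw [h3, one_mul] at h1; exact h1
    exact Prod.ext (Subtype.ext h3) (Subtype.ext h4)
  have hbij : Function.Bijective φ := by
    rw [Nat.bijective_iff_injective_and_card]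
    exact ⟨hinj, by rw [Nat.card_prod, hcard]⟩
  exact ⟨(MulEquiv.ofBijective φ hbij).symm⟩


theorem main {G : Type u} [Group G] [Finite G] (n : ℕ) (hn : n ≠ 1) (h : ((fun m : ℕ => Nat.card {g : G // orderOf g = m}) '' Set.range (orderOf : G → ℕ)) = {1, n}) :
    (∃ p : ℕ, p.Prime ∧ IsPGroup p G ∧ 3 ≤ Nat.card G ∧ Monoid.exponent G = p) ∨
      Nonempty (G ≃* QuaternionGroup 2) ∨ (IsCyclic G ∧ Nat.card G = 4) ∨
      (∃ (p : ℕ) (P : Type) (_ : Group P) (_ : Finite P), p.Prime ∧ p ≠ 2 ∧ IsPGroup p P ∧ Monoid.exponent P = p ∧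
        Nonempty (G ≃* Multiplicative (ZMod 2) × P)) := by
  classical
  set N := Nat.card G with hN
  have hNpos : 0 < N := Nat.card_pos
  have hmemimg : ∀ g : G, sc G (orderOf g) = 1 ∨ sc G (orderOf g) = n := by
    intro g
    have h1 : sc G (orderOf g) ∈ ((fun m : ℕ => Nat.card {g : G // orderOf g = m}) ''
        Set.range (orderOf : G → ℕ)) := ⟨orderOf g, ⟨g, rfl⟩, rfl⟩
    rw [h] at h1
    simpa using h1
  have hzero : ∀ m, (¬ ∃ g : G, orderOf g = m) → sc G m = 0 := by
    intro m hm
    rw [sc, Nat.card_eq_zero]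
    left
    exact ⟨fun x => hm ⟨x.1, x.2⟩⟩
  have hpos : ∀ g : G, 0 < sc G (orderOf g) := by
    intro g
    have : Nonempty {x : G // orderOf x = orderOf g} := ⟨⟨g, rfl⟩⟩
    exact Nat.card_pos
  obtain ⟨g0, hg0⟩ : ∃ g : G, sc G (orderOf g) = n := by
    have h1 : n ∈ ((fun m : ℕ => Nat.card {g : G // orderOf g = m}) ''
        Set.range (orderOf : G → ℕ)) := by rw [h]; simp
    obtain ⟨m, ⟨g, rfl⟩, hm⟩ := h1
    exact ⟨g, hm⟩
  have hn2 : 2 ≤ n := by
    have := hpos g0
    omega
  have h3 : ∀ g : G, 3 ≤ orderOf g → sc G (orderOf g) = n ∧ Even n := by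
    intro g hg
    have he : Even (Nat.totient (orderOf g)) := Nat.totient_even (by omega)
    have hd : Nat.totient (orderOf g) ∣ sc G (orderOf g) :=
      Cfsg.Agent.Lib.Helper70.totient_dvd_card_orderOf _
    rcases hmemimg g with h1 | h1
    · rw [h1] at hd
      rw [Nat.dvd_one.mp hd] at he
      exact absurd he (by decide)
    · exact ⟨h1, by rw [h1] at hd; exact he.trans_dvd hd⟩
  have hval : ∀ m, 3 ≤ m → sc G m = 0 ∨ sc G m = n := by
    intro m hm
    by_cases hex : ∃ g : G, orderOf g = m
    · obtain ⟨g, rfl⟩ := hex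
      exact Or.inr (h3 g hm).1
    · exact Or.inl (hzero m hex)
  have hs1 : sc G 1 = 1 :=
    Nat.card_eq_one_iff_exists.mpr ⟨⟨1, orderOf_one⟩, fun x => Subtype.ext (orderOf_eq_one_iff.mp x.2)⟩
  have cauchy : ∀ p : ℕ, p.Prime → p ∣ N → ∃ g : G, orderOf g = p := by
    intro p hp hpN
    have : Fact p.Prime := ⟨hp⟩
    exact exists_prime_orderOf_dvd_card' p hpN
  have stepA : ∀ p : ℕ, p.Prime → p ∣ N → p ∣ 1 + sc G p := by
    intro p hp hpN
    have h1 := dvd_sum_sc G p hpN
    rwa [hp.divisors, Finset.sum_pair hp.one_lt.ne, hs1] at h1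
  have hodd : ∀ p : ℕ, p.Prime → p ≠ 2 → p ∣ N → sc G p = n ∧ p ∣ 1 + n ∧ Even n := by
    intro p hp hp2 hpN
    obtain ⟨g, hg⟩ := cauchy p hp hpN
    have hp3 : 3 ≤ p := by
      have := hp.two_le
      omega
    have h1 := h3 g (by rw [hg]; exact hp3)
    rw [hg] at h1
    have h2 := stepA p hp hpN
    rw [h1.1] at h2
    exact ⟨h1.1, h2, h1.2⟩
  have key1 : ∀ p : ℕ, p.Prime → p ∣ 1 + n → ¬ p ∣ n := by
    intro p hp h1 h2
    exact hp.one_lt.ne' (Nat.dvd_one.mp ((Nat.dvd_add_left h2).mp h1))
  have stepB : ∀ p : ℕ, p.Prime → p ≠ 2 → ¬ ∃ g : G, orderOf g = p ^ 2 := by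
    rintro p hp hp2 ⟨g, hg⟩
    have hp2N : p ^ 2 ∣ N := hg ▸ orderOf_dvd_natCard g
    have hpN : p ∣ N := (dvd_pow_self p (by norm_num)).trans hp2N
    obtain ⟨h1, h2, -⟩ := hodd p hp hp2 hpN
    have h4 := dvd_sum_sc G (p ^ 2) hp2N
    rw [Nat.sum_divisors_prime_pow hp] at h4
    simp only [Finset.sum_range_succ, Finset.sum_range_zero, pow_zero, pow_one, zero_add] at h4
    have h5 : sc G (p ^ 2) = n := by
      have := (h3 g (by rw [hg]; nlinarith [hp.two_le])).1
      rwa [hg] at this
    rw [hs1, h1, h5] at h4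
    have h6 : p ∣ 1 + n + n := (dvd_pow_self p (by norm_num)).trans h4
    exact key1 p hp h2 ((Nat.dvd_add_right h2).mp h6)
  have stepC : ∀ p q : ℕ, p.Prime → q.Prime → p ≠ 2 → q ≠ 2 → p ≠ q → p ∣ N → q ∣ N → False := by
    intro p q hp hq hp2 hq2 hpq hpN hqN
    obtain ⟨h1, h2, -⟩ := hodd p hp hp2 hpN
    obtain ⟨h1', -, -⟩ := hodd q hq hq2 hqN
    have hcop : Nat.Coprime p q := (Nat.coprime_primes hp hq).mpr hpq
    have h4 := dvd_sum_sc G (p * q) (hcop.mul_dvd_of_dvd_of_dvd hpN hqN)
    rw [sum_divisors_prime_mul (sc G) p q hp hq.ne_zero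
      (fun hd => hpq ((Nat.prime_dvd_prime_iff_eq hp hq).mp hd)), hq.divisors,
      Finset.sum_pair hq.one_lt.ne, Finset.sum_pair hq.one_lt.ne, hs1, mul_one, h1, h1'] at h4
    have h5 : p ∣ 1 + n + (n + sc G (p * q)) := (Dvd.intro _ rfl).trans h4
    have h6 : p ∣ n + sc G (p * q) := (Nat.dvd_add_right h2).mp h5
    rcases hval (p * q) (by nlinarith [hp.two_le, hq.two_le]) with h7 | h7
    · rw [h7, add_zero] at h6
      exact key1 p hp h2 h6
    · rw [h7, ← two_mul] at h6
      rcases (Nat.Prime.dvd_mul hp).mp h6 with h8 | h8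
      · exact hp2 ((Nat.prime_dvd_prime_iff_eq hp Nat.prime_two).mp h8)
      · exact key1 p hp h2 h8
  have hg0ne : orderOf g0 ≠ 1 := by
    intro h1
    rw [h1, hs1] at hg0
    exact hn hg0.symm
  have hnt : Nontrivial G := by
    refine ⟨⟨g0, 1, ?_⟩⟩
    intro h1
    exact hg0ne (by rw [h1, orderOf_one])
  by_cases hoddp : ∃ p : ℕ, p.Prime ∧ p ≠ 2 ∧ p ∣ N
  · obtain ⟨p, hp, hp2, hpN⟩ := hoddp
    have : Fact p.Prime := ⟨hp⟩
    obtain ⟨hsp, hp1n, hneven⟩ := hodd p hp hp2 hpN
    have honly : ∀ q : ℕ, q.Prime → q ∣ N → q = 2 ∨ q = p := by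
      intro q hq hqN
      by_contra hcon
      push Not at hcon
      exact stepC p q hp hq hp2 hcon.1 (Ne.symm hcon.2) hpN hqN
    have hp3 : 3 ≤ p := by
      have := hp.two_le
      omega
    by_cases h2N : 2 ∣ N
    · -- `G = Z₂ × P`
      right; right; right
      obtain ⟨z, hz⟩ := cauchy 2 Nat.prime_two h2N
      have hs2 : sc G 2 = 1 := by
        have h1 := stepA 2 Nat.prime_two h2N
        have h2 := hmemimg z
        rw [hz] at h2
        rcases h2 with h2 | h2
        · exact h2
        · rw [h2] at h1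
          obtain ⟨t, ht⟩ := hneven
          omega
      have hcop2 : Nat.Coprime 2 p := (Nat.coprime_primes Nat.prime_two hp).mpr (Ne.symm hp2)
      have hs2p : sc G (2 * p) = n := by
        have h4 := dvd_sum_sc G (2 * p) (hcop2.mul_dvd_of_dvd_of_dvd h2N hpN)
        rw [sum_divisors_prime_mul (sc G) 2 p Nat.prime_two hp.ne_zero
          (fun hd => hp2 ((Nat.prime_dvd_prime_iff_eq Nat.prime_two hp).mp hd).symm), hp.divisors,
          Finset.sum_pair hp.one_lt.ne, Finset.sum_pair hp.one_lt.ne, hs1, mul_one, hsp, hs2] at h4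
        have h5 : p ∣ 1 + n + (1 + sc G (2 * p)) := (Dvd.intro_left _ rfl).trans h4
        have h6 : p ∣ 1 + sc G (2 * p) := (Nat.dvd_add_right hp1n).mp h5
        rcases hval (2 * p) (by omega) with h7 | h7
        · rw [h7, add_zero] at h6
          exact absurd (Nat.dvd_one.mp h6) hp.one_lt.ne'
        · exact h7
      have hno4 : ¬ ∃ g : G, orderOf g = 4 := by
        rintro ⟨g, hg⟩
        have h4N : 4 ∣ N := hg ▸ orderOf_dvd_natCard g
        have hs4 : sc G 4 = n := by
          have := (h3 g (by rw [hg]; norm_num)).1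
          rwa [hg] at this
        have hcop4 : Nat.Coprime p 4 := by
          have : Nat.Coprime p (2 ^ 2) := (hcop2.symm).pow_right 2
          simpa using this
        have h4 := dvd_sum_sc G (p * 4) (hcop4.mul_dvd_of_dvd_of_dvd hpN h4N)
        have hnd : ¬ p ∣ 4 := by
          intro hd
          have : p ∣ 2 ^ 2 := by simpa using hd
          exact hp2 ((Nat.prime_dvd_prime_iff_eq hp Nat.prime_two).mp (hp.dvd_of_dvd_pow this))
        rw [sum_divisors_prime_mul (sc G) p 4 hp (by norm_num) hnd,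
          show (4 : ℕ) = 2 ^ 2 by norm_num, Nat.sum_divisors_prime_pow Nat.prime_two,
          Nat.sum_divisors_prime_pow Nat.prime_two] at h4
        simp only [Finset.sum_range_succ, Finset.sum_range_zero, pow_zero, pow_one, zero_add,
          mul_one] at h4
        rw [show (2 : ℕ) ^ 2 = 4 by norm_num, hs1, hs2, hs4, hsp, mul_comm p 2, hs2p] at h4
        have h5 : p ∣ 1 + 1 + n + (n + n + sc G (p * 4)) := (Dvd.intro _ rfl).trans h4
        rcases hval (p * 4) (by omega) with h7 | h7
        · rw [h7] at h5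
          have h6 : p ∣ 3 * (1 + n) := Dvd.dvd.mul_left hp1n 3
          have h8 : 3 * (1 + n) = (1 + 1 + n + (n + n + 0)) + 1 := by ring
          rw [h8] at h6
          exact absurd (Nat.dvd_one.mp ((Nat.dvd_add_right h5).mp h6)) hp.one_lt.ne'
        · rw [h7] at h5
          have h6 : p ∣ 4 * (1 + n) := Dvd.dvd.mul_left hp1n 4
          have h8 : 4 * (1 + n) = (1 + 1 + n + (n + n + n)) + 2 := by ring
          rw [h8] at h6
          exact hp2 ((Nat.prime_dvd_prime_iff_eq hp Nat.prime_two).mp ((Nat.dvd_add_right h5).mp h6))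
      have h4N : ¬ 4 ∣ N := by
        intro h4N
        have h4 := dvd_sum_sc G 4 h4N
        rw [show (4 : ℕ) = 2 ^ 2 by norm_num, Nat.sum_divisors_prime_pow Nat.prime_two] at h4
        simp only [Finset.sum_range_succ, Finset.sum_range_zero, pow_zero, pow_one, zero_add] at h4
        rw [show (2 : ℕ) ^ 2 = 4 by norm_num, hs1, hs2, hzero 4 hno4] at h4
        omega
      obtain ⟨S⟩ : Nonempty (Sylow p G) := inferInstance
      have hSidx : (S : Subgroup G).index = 2 := by
        have hmul := (S : Subgroup G).card_mul_index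
        obtain ⟨b, hb⟩ := IsPGroup.iff_card.mp S.2
        have hidxN : (S : Subgroup G).index ∣ N := Subgroup.index_dvd_card _
        have h2idx : 2 ∣ (S : Subgroup G).index := by
          rw [← hN, hb] at hmul
          rw [← hmul] at h2N
          exact (Nat.Coprime.dvd_mul_left (hcop2.pow_right b)).mp h2N
        obtain ⟨m', hm'⟩ := h2idx
        by_cases hm1 : m' = 1
        · rw [hm', hm1]
        · exfalso
          obtain ⟨r, hr, hrm⟩ := Nat.exists_prime_and_dvd hm1
          have hridx : r ∣ (S : Subgroup G).index := hm' ▸ hrm.mul_left 2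
          rcases honly r hr (hridx.trans hidxN) with rfl | rfl
          · apply h4N
            obtain ⟨c, hc⟩ := hrm
            exact dvd_trans ⟨c, by rw [hm', hc]; ring⟩ hidxN
          · exact S.not_dvd_index hridx
      have hzc : z ∈ Subgroup.center G := by
        rw [Subgroup.mem_center_iff]
        intro g
        have h1 : orderOf (g * z * g⁻¹) = 2 := by
          have : g * z * g⁻¹ = MulAut.conj g z := rfl
          rw [this, MulEquiv.orderOf_eq, hz]
        have h2 : Subsingleton {x : G // orderOf x = 2} :=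
          (Nat.card_eq_one_iff_unique.mp hs2).1
        have h5 : (⟨g * z * g⁻¹, h1⟩ : {x : G // orderOf x = 2}) = ⟨z, hz⟩ := Subsingleton.elim _ _
        have h6 : g * z * g⁻¹ = z := congrArg Subtype.val h5
        calc g * z = g * z * g⁻¹ * g := by group
          _ = z * g := by rw [h6]
      have hZcard : Nat.card (Subgroup.zpowers z) = 2 := by rw [Nat.card_zpowers, hz]
      obtain ⟨b, hb⟩ := IsPGroup.iff_card.mp S.2
      have hdisj : Subgroup.zpowers z ⊓ (S : Subgroup G) = ⊥ :=
        (Subgroup.disjoint_of_coprime_natCard (by rw [hZcard, hb]; exact hcop2.pow_right b)).eq_bot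
      obtain ⟨e1⟩ := equiv_prod_of_central (Subgroup.zpowers z) (S : Subgroup G)
        (by rw [Subgroup.zpowers_le]; exact hzc) hdisj
        (by rw [hZcard, mul_comm, ← hSidx]; exact (S : Subgroup G).card_mul_index)
      obtain ⟨P, hPg, hPf, ⟨e2⟩⟩ := exists_small_model (S : Subgroup G)
      have e3 : Subgroup.zpowers z ≃* Multiplicative (ZMod 2) :=
        mulEquivOfPrimeCardEq (p := 2) hZcard (by simp)
      have hSexp : ∀ x : (S : Subgroup G), x ^ p = 1 := by
        intro x
        obtain ⟨j, hj⟩ := (IsPGroup.iff_orderOf.mp S.2) x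
        rw [← Subgroup.orderOf_coe] at hj
        exact Subtype.ext (pow_prime_eq_one_of_no_sq hp (stepB p hp hp2) (x : G) j hj)
      have hPexp : ∀ x : P, x ^ p = 1 := by
        intro x
        have := hSexp (e2.symm x)
        rw [← map_pow] at this
        exact (MulEquiv.map_eq_one_iff e2.symm).mp this
      have hPnt : Nontrivial P := by
        have h1 : p ∣ Nat.card (S : Subgroup G) := by
          have hmul := (S : Subgroup G).card_mul_index
          rw [hSidx, ← hN] at hmul
          rw [← hmul] at hpN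
          exact (Nat.Coprime.dvd_mul_right hcop2.symm).mp hpN
        have h2 : 1 < Nat.card P := by
          rw [← Nat.card_congr e2.toEquiv]
          exact lt_of_lt_of_le hp.one_lt (Nat.le_of_dvd Nat.card_pos h1)
        exact Finite.one_lt_card_iff_nontrivial.mp h2
      exact ⟨p, P, hPg, hPf, hp, hp2, S.2.of_equiv e2, exponent_eq_prime hp hPexp,
        ⟨e1.trans (MulEquiv.prodCongr e3 e2)⟩⟩
    · -- `p`-group of exponent `p`
      left
      have hNpow : N = p ^ N.primeFactorsList.length :=
        Nat.eq_prime_pow_of_unique_prime_dvd hNpos.ne' (fun {q} hq hqN => by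
          rcases honly q hq hqN with rfl | rfl
          · exact absurd hqN h2N
          · rfl)
      have hG : IsPGroup p G := IsPGroup.of_card hNpow
      refine ⟨p, hp, hG, le_trans hp3 (Nat.le_of_dvd hNpos hpN), exponent_eq_prime hp ?_⟩
      intro x
      obtain ⟨j, hj⟩ := (IsPGroup.iff_orderOf.mp hG) x
      exact pow_prime_eq_one_of_no_sq hp (stepB p hp hp2) x j hj
  · -- `2`-groups
    push Not at hoddp
    have hNpow : N = 2 ^ N.primeFactorsList.length :=
      Nat.eq_prime_pow_of_unique_prime_dvd hNpos.ne' (fun {q} hq hqN => by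
        by_contra hq2
        exact hoddp q hq hq2 hqN)
    have hG : IsPGroup 2 G := IsPGroup.of_card hNpow
    have h2N : 2 ∣ N := by
      rcases hG.card_eq_or_dvd with h1 | h1
      · have : Subsingleton G := (Nat.card_eq_one_iff_unique.mp h1).1
        exact absurd hnt (not_nontrivial_iff_subsingleton.mpr this)
      · exact h1
    obtain ⟨z, hz⟩ := cauchy 2 Nat.prime_two h2N
    have hA2 := stepA 2 Nat.prime_two h2N
    have hz2 := hmemimg z
    rw [hz] at hz2
    by_cases hs2 : sc G 2 = 1
    · -- unique involution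
      right
      have huniq : ∀ H K : Subgroup G, Nat.card H = 2 → Nat.card K = 2 → H = K := by
        have hsub : Subsingleton {x : G // orderOf x = 2} := (Nat.card_eq_one_iff_unique.mp hs2).1
        have hgen : ∀ H : Subgroup G, Nat.card H = 2 → H = Subgroup.zpowers z := by
          intro H hH
          obtain ⟨x, hx⟩ := exists_prime_orderOf_dvd_card' (G := H) 2 (by rw [hH])
          have hx' : orderOf (x : G) = 2 := by rw [Subgroup.orderOf_coe, hx]
          have h5 : (⟨(x : G), hx'⟩ : {x : G // orderOf x = 2}) = ⟨z, hz⟩ := Subsingleton.elim _ _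
          have h6 : (x : G) = z := congrArg Subtype.val h5
          symm
          apply Subgroup.eq_of_le_of_card_ge
          · rw [Subgroup.zpowers_le, ← h6]; exact x.2
          · rw [Nat.card_zpowers, hz, hH]
        intro H K hH hK
        rw [hgen H hH, hgen K hK]
      obtain ⟨g4, hg4⟩ : ∃ g : G, orderOf g = 4 := by
        obtain ⟨j, hj⟩ := (IsPGroup.iff_orderOf.mp hG) g0
        have hj2 : 2 ≤ j := by
          by_contra hlt
          have hj01 : j = 0 ∨ j = 1 := by omega
          rcases hj01 with rfl | rfl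
          · exact hg0ne (by rw [hj, pow_zero])
          · rw [hj, pow_one, hs2] at hg0
            exact hn hg0.symm
        exact exists_orderOf_eq_of_dvd g0 4 (by
          rw [hj, show (4 : ℕ) = 2 ^ 2 by norm_num]; exact pow_dvd_pow 2 hj2)
      have h4N : 4 ∣ N := hg4 ▸ orderOf_dvd_natCard g4
      have hs4 : sc G 4 = n := by
        have := (h3 g4 (by rw [hg4]; norm_num)).1
        rwa [hg4] at this
      have hf4 : 4 ∣ 1 + 1 + n := by
        have h4 := dvd_sum_sc G 4 h4N
        rw [show (4 : ℕ) = 2 ^ 2 by norm_num, Nat.sum_divisors_prime_pow Nat.prime_two] at h4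
        simp only [Finset.sum_range_succ, Finset.sum_range_zero, pow_zero, pow_one, zero_add] at h4
        rwa [show (2 : ℕ) ^ 2 = 4 by norm_num, hs1, hs2, hs4] at h4
      have hno8 : ¬ ∃ g : G, orderOf g = 8 := by
        rintro ⟨g, hg⟩
        have h8N : 8 ∣ N := hg ▸ orderOf_dvd_natCard g
        have hs8 : sc G 8 = n := by
          have := (h3 g (by rw [hg]; norm_num)).1
          rwa [hg] at this
        have h4 := dvd_sum_sc G 8 h8N
        rw [show (8 : ℕ) = 2 ^ 3 by norm_num, Nat.sum_divisors_prime_pow Nat.prime_two] at h4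
        simp only [Finset.sum_range_succ, Finset.sum_range_zero, pow_zero, pow_one, zero_add] at h4
        rw [show (2 : ℕ) ^ 2 = 4 by norm_num, show (2 : ℕ) ^ 3 = 8 by norm_num, hs1, hs2, hs4, hs8] at h4
        omega
      rcases Cfsg.Agent.S0016.result 2 hG huniq with hc | ⟨-, k, ⟨e⟩⟩
      · right; left
        refine ⟨hc, ?_⟩
        obtain ⟨g, hg⟩ := hc.exists_generator
        have h1 : orderOf g = N := orderOf_eq_card_of_forall_mem_zpowers hg
        have h2 : N.primeFactorsList.length ≤ 2 := by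
          by_contra hlt
          apply hno8
          apply exists_orderOf_eq_of_dvd g 8
          rw [h1, hNpow, show (8 : ℕ) = 2 ^ 3 by norm_num]
          exact pow_dvd_pow 2 (by omega)
        have h5 : N ∣ 4 := by
          rw [hNpow, show (4 : ℕ) = 2 ^ 2 by norm_num]
          exact pow_dvd_pow 2 h2
        exact Nat.dvd_antisymm h5 h4N
      · have hk : k ≤ 1 := by
          by_contra hlt
          apply hno8
          apply exists_orderOf_eq_of_dvd (e.symm (QuaternionGroup.a 1)) 8
          rw [MulEquiv.orderOf_eq, QuaternionGroup.orderOf_a_one, ← pow_succ',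
            show (8 : ℕ) = 2 ^ 3 by norm_num]
          exact pow_dvd_pow 2 (by omega)
        interval_cases k
        · right; left
          have : IsCyclic (QuaternionGroup (2 ^ 0)) := QuaternionGroup.quaternionGroup_one_isCyclic
          refine ⟨e.isCyclic.mpr this, ?_⟩
          rw [hN, Nat.card_congr e.toEquiv, Nat.card_eq_fintype_card, QuaternionGroup.card]
          norm_num
        · exact Or.inl ⟨e⟩
    · -- exponent 2
      left
      have hs2n : sc G 2 = n := hz2.resolve_left hs2
      rw [hs2n] at hA2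
      have hexp : ∀ x : G, x ^ 2 = 1 := by
        intro x
        have hx : orderOf x ≤ 2 := by
          by_contra hlt
          obtain ⟨t, ht⟩ := (h3 x (by omega)).2
          omega
        have hx0 : 0 < orderOf x := orderOf_pos x
        apply orderOf_dvd_iff_pow_eq_one.mp
        interval_cases (orderOf x) <;> norm_num
      refine ⟨2, Nat.prime_two, hG, ?_, exponent_eq_prime Nat.prime_two hexp⟩
      have h1 := card_pow_eq_sum G 2 (by norm_num)
      rw [Nat.prime_two.divisors, Finset.sum_pair (by norm_num), hs1, hs2n] at h1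
      have h2 : Nat.card {x : G // x ^ 2 = 1} ≤ Nat.card G :=
        Nat.card_le_card_of_injective Subtype.val Subtype.val_injective
      omega

/-- Let G be a finite group such that the numbers of elements of each order that occurs in G (the numbers #{g : o(g) = m}, m ranging over the element orders of G) take exactly two values, 1 and some n ≠ 1. Then either G is a p-group of exponent p and order at least 3 for some prime p, or G is the quaternion group of order 8, or G is cyclic of order 4, or G ≅ Z₂ × P for a p-group P of exponent p with p an odd prime. -/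
theorem result {G : Type*} [Group G] [Finite G] (n : ℕ) (hn : n ≠ 1) (h : ((fun m : ℕ => Nat.card {g : G // orderOf g = m}) '' Set.range (orderOf : G → ℕ)) = {1, n}) :
    (∃ p : ℕ, p.Prime ∧ IsPGroup p G ∧ 3 ≤ Nat.card G ∧ Monoid.exponent G = p) ∨
      Nonempty (G ≃* QuaternionGroup 2) ∨ (IsCyclic G ∧ Nat.card G = 4) ∨
      (∃ (p : ℕ) (P : Type) (_ : Group P) (_ : Finite P), p.Prime ∧ p ≠ 2 ∧ IsPGroup p P ∧ Monoid.exponent P = p ∧
        Nonempty (G ≃* Multiplicative (ZMod 2) × P)) := by
  exact main n hn h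

end Cfsg.Agent.S3995
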