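import Cfsg.Statements.S3997
import Mathlib
-- import your own Cfsg.Agent.* helpers here

set_option autoImplicit false
open Cfsg

namespace Cfsg.Agent.S3997

theorem mem_of_normal_sylow {G : Type*} [Group G] [Finite G] {p : ℕ} [Fact p.Prime] (P : Sylow p G)
    (hP : (P : Subgroup G).Normal) {x : G} {k : ℕ} (hx : orderOf x = p ^ k) : x ∈ (P : Subgroup G) := by
  have hz : IsPGroup p (Subgroup.zpowers x) := by
    apply IsPGroup.of_card (n := k)
    rw [Nat.card_zpowers, hx]
  obtain ⟨Q, hQ⟩ := hz.exists_le_sylow
  have := Sylow.unique_of_normal P hP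
  have : Q = P := Subsingleton.elim _ _
  rw [← this]
  exact hQ (Subgroup.mem_zpowers x)

/-- Let G and H be finite groups with the same order type: for every m they have the same number of elements of order m. If G is nilpotent then so is H. -/
theorem result {G H : Type*} [Group G] [Finite G] [Group H] [Finite H] (hT : (∀ m : ℕ, Nat.card {g : G // orderOf g = m} = Nat.card {h : H // orderOf h = m})) (hG : Group.IsNilpotent G) :
    Group.IsNilpotent H := by
  classical
  -- an order preserving bijection
  have e1 : ∀ m : ℕ, Nonempty ({g : G // orderOf g = m} ≃ {h : H // orderOf h = m}) := fun m =>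
    Finite.card_eq.mp (hT m)
  let e : G ≃ H := (Equiv.sigmaFiberEquiv (orderOf : G → ℕ)).symm.trans
    ((Equiv.sigmaCongrRight fun m => (e1 m).some).trans (Equiv.sigmaFiberEquiv (orderOf : H → ℕ)))
  have he : ∀ g : G, orderOf (e g) = orderOf g := by
    intro g
    exact ((e1 (orderOf g)).some ⟨g, rfl⟩).2
  have hcard : Nat.card G = Nat.card H := Nat.card_congr e
  refine (Group.isNilpotent_of_finite_tfae.out 0 3 rfl rfl).mpr ?_
  intro p hp P
  have := hp
  obtain ⟨S⟩ : Nonempty (Sylow p G) := inferInstance
  have hS : (S : Subgroup G).Normal := (Group.isNilpotent_of_finite_tfae.out 0 3 rfl rfl).mp hG p hp S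
  -- the set of p-elements of H
  have hsub : (P : Set H) ⊆ e '' (S : Set G) := by
    intro h hh
    obtain ⟨k, hk⟩ := (IsPGroup.iff_orderOf.mp P.2) ⟨h, hh⟩
    rw [Subgroup.orderOf_mk] at hk
    refine ⟨e.symm h, ?_, by simp⟩
    apply mem_of_normal_sylow S hS (k := k)
    rw [← he, Equiv.apply_symm_apply, hk]
  have hcardeq : (e '' (S : Set G)).ncard = (P : Set H).ncard := by
    rw [Set.ncard_image_of_injective _ e.injective]
    change Nat.card (S : Subgroup G) = Nat.card (P : Subgroup H)
    rw [Sylow.card_eq_multiplicity, Sylow.card_eq_multiplicity, hcard]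
  have hEq : (P : Set H) = e '' (S : Set G) :=
    Set.eq_of_subset_of_ncard_le hsub hcardeq.le (Set.toFinite _)
  constructor
  intro n hn g
  have hn' : n ∈ (P : Set H) := hn
  obtain ⟨k, hk⟩ := (IsPGroup.iff_orderOf.mp P.2) ⟨n, hn⟩
  rw [Subgroup.orderOf_mk] at hk
  have : g * n * g⁻¹ ∈ (P : Set H) := by
    rw [hEq]
    refine ⟨e.symm (g * n * g⁻¹), ?_, by simp⟩
    apply mem_of_normal_sylow S hS (k := k)
    rw [← he, Equiv.apply_symm_apply, ← hk]
    have := (MulAut.conj g).orderOf_eq n
    simpa [MulAut.conj_apply] using this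
  exact this

end Cfsg.Agent.S3997
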