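import Cfsg.Statements.S4002
import Cfsg.Agent.Lib.Helper64.PrimeGraph

set_option autoImplicit false
open Cfsg

namespace Cfsg.Agent.S4002

theorem three_primes (n : ℕ) (hn : 7 ≤ n) :
    ∃ p q r : ℕ, p.Prime ∧ q.Prime ∧ r.Prime ∧ p < q ∧ q < r ∧ r ≤ n ∧ n < p * q := by
  by_cases h1 : n ≤ 14
  · exact ⟨3, 5, 7, by norm_num, by norm_num, by norm_num, by norm_num, by norm_num, hn, by omega⟩
  by_cases h2 : n ≤ 34
  · exact ⟨5, 7, 11, by norm_num, by norm_num, by norm_num, by norm_num, by norm_num, by omega,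
      by omega⟩
  obtain ⟨r, hr, hr1, hr2⟩ := Nat.exists_prime_lt_and_le_two_mul (n / 2) (by omega)
  obtain ⟨q, hq, hq1, hq2⟩ := Nat.exists_prime_lt_and_le_two_mul (n / 2 / 2) (by omega)
  obtain ⟨p, hp, hp1, hp2⟩ := Nat.exists_prime_lt_and_le_two_mul (n / 2 / 2 / 2) (by omega)
  refine ⟨p, q, r, hp, hq, hr, by omega, by omega, by omega, ?_⟩
  have e1 : n ≤ 8 * (n / 2 / 2 / 2) + 7 := by omega
  have e2 : 4 ≤ n / 2 / 2 / 2 := by omega
  have e3 : 2 * (n / 2 / 2 / 2) + 1 ≤ q := by omega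
  have e4 : n / 2 / 2 / 2 + 1 ≤ p := by omega
  generalize n / 2 / 2 / 2 = a at *
  have : (a + 1) * (2 * a + 1) ≤ p * q := Nat.mul_le_mul e4 e3
  nlinarith

/-- If the set of element orders of a finite group G is {1, 2, …, n} with n ≥ 7, then G is not solvable. -/
theorem result {G : Type*} [Group G] [Finite G] (n : ℕ) (hn : 7 ≤ n) (h : Set.range (orderOf : G → ℕ) = {k : ℕ | 1 ≤ k ∧ k ≤ n}) : ¬ Group.IsSolvable G := by
  intro hG
  obtain ⟨p, q, r, hp, hq, hr, hpq, hqr, hrn, hbig⟩ := three_primes n hn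
  have hmem : ∀ k, 1 ≤ k → k ≤ n → ∃ g : G, orderOf g = k := by
    intro k h1 h2
    have : k ∈ Set.range (orderOf : G → ℕ) := by rw [h]; exact ⟨h1, h2⟩
    exact this
  have hdvd : ∀ k, 1 ≤ k → k ≤ n → k ∣ Nat.card G := by
    intro k h1 h2
    obtain ⟨g, hg⟩ := hmem k h1 h2
    rw [← hg]; exact orderOf_dvd_natCard g
  have hle : ∀ g : G, orderOf g ≤ n := by
    intro g
    have : orderOf g ∈ Set.range (orderOf : G → ℕ) := ⟨g, rfl⟩
    rw [h] at this
    exact this.2
  have hsol : Group.IsSolvable ↥(⊤ : Subgroup G) :=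
    Group.isSolvable_of_isSolvable_injective (Subgroup.subtype_injective ⊤)
  have hp1 := hp.one_lt
  have hq1 := hq.one_lt
  rcases Cfsg.Agent.Lib.Helper64.solvable_normal_adj _ (⊤ : Subgroup G) inferInstance hsol rfl p q r
    hp hq hr (by omega) (by omega) (by omega)
    (by rw [Subgroup.card_top]; exact hdvd p (by omega) (by omega))
    (by rw [Subgroup.card_top]; exact hdvd q (by omega) (by omega))
    (hdvd r (by omega) hrn) with ⟨x, hx⟩ | ⟨x, hx⟩ | ⟨x, hx⟩
  · have := hle x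
    rw [hx] at this
    omega
  · have := hle x
    rw [hx] at this
    have : p * q < p * r := Nat.mul_lt_mul_of_pos_left hqr (by omega)
    omega
  · have := hle x
    rw [hx] at this
    have h1 : p * q < q * r := by
      calc p * q < q * q := Nat.mul_lt_mul_of_pos_right hpq (by omega)
        _ < q * r := Nat.mul_lt_mul_of_pos_left hqr (by omega)
    omega

end Cfsg.Agent.S4002
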