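import Cfsg.Statements.S4005
import Mathlib
-- import your own Cfsg.Agent.* helpers here

set_option autoImplicit false
open Cfsg

namespace Cfsg.Agent.S4005

theorem klein_collapse {G : Type*} [Group G] (s a b : G) (hs : s * s = 1) (ha : a * a = 1)
    (hb : b * b = 1) (hab : a * b = b * a)
    (h1 : s * a * s = a * s * a) (h2 : s * b * s = b * s * b)
    (h3 : s * (a * b) * s = (a * b) * s * (a * b)) : s = b := by
  have e1 : s * (a * b) * s = b * s * a := by
    calc s * (a * b) * s = (s * a * s) * (s * b * s) := by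
          simp only [mul_assoc]; rw [← mul_assoc s s, hs, one_mul]
      _ = (a * s * a) * (b * s * b) := by rw [h1, h2]
      _ = a * (s * (a * b) * s) * b := by simp only [mul_assoc]
      _ = a * ((a * b) * s * (a * b)) * b := by rw [h3]
      _ = (a * a) * b * s * a * (b * b) := by simp only [mul_assoc]
      _ = b * s * a := by rw [ha, hb, one_mul, mul_one]
  have e2 : a * s * b = s := by
    have : (a * b) * s * (a * b) = b * s * a := h3.symm.trans e1
    calc a * s * b = (a * (b * b)) * s * ((a * a) * b) := by rw [ha, hb, mul_one, one_mul]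
      _ = b * ((a * b) * s * (a * b)) * a := by
          rw [show a * (b * b) = b * (a * b) by rw [← mul_assoc, ← mul_assoc, hab, mul_assoc b a b, hab, ← mul_assoc],
            show a * a * b = a * b * a by rw [mul_assoc, mul_assoc, hab]]
          simp only [mul_assoc]
      _ = b * (b * s * a) * a := by rw [this]
      _ = (b * b) * s * (a * a) := by simp only [mul_assoc]
      _ = s := by rw [ha, hb, one_mul, mul_one]
  have e3 : s * a * s = b := by
    calc s * a * s = s * (a * s * b) * b := by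
          simp only [mul_assoc]; rw [hb, mul_one]
      _ = s * s * b := by rw [e2]
      _ = b := by rw [hs, one_mul]
  calc s = a * (a * s * a) * a := by
        simp only [mul_assoc]; rw [ha, mul_one, ← mul_assoc, ha, one_mul]
    _ = a * b * a := by rw [← h1, e3]
    _ = b := by rw [hab, mul_assoc, ha, mul_one]

theorem inv_eq_self_of_sq {G : Type*} [Group G] {x : G} (hx : x ^ 2 = 1) : x⁻¹ = x := by
  rw [inv_eq_iff_mul_eq_one, ← sq, hx]

theorem commute_of_sq {G : Type*} [Group G] {x y : G} (hx : x ^ 2 = 1) (hy : y ^ 2 = 1)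
    (hxy : (x * y) ^ 2 = 1) : Commute x y := by
  have h1 := inv_eq_self_of_sq hxy
  rw [mul_inv_rev, inv_eq_self_of_sq hx, inv_eq_self_of_sq hy] at h1
  exact h1.symm

theorem braid {G : Type*} [Group G] {s v : G} (hs : s ^ 2 = 1) (hv : v ^ 2 = 1)
    (h : (s * v) ^ 3 = 1) : s * v * s = v * s * v := by
  have h1 : (s * v * s) * (v * s * v) = 1 := by
    rw [← h, pow_succ, pow_succ, pow_one]; simp only [mul_assoc]
  have h2 := eq_inv_of_mul_eq_one_left h1
  rw [h2, mul_inv_rev, mul_inv_rev, inv_eq_self_of_sq hs, inv_eq_self_of_sq hv, mul_assoc]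

section
variable {G : Type*} [Group G]
  (H1 : ∀ g : G, g ^ 2 = 1 ∨ g ^ 3 = 1)
  (H2 : ∀ t g : G, Commute t g → t ^ 2 = 1 → t ≠ 1 → g ^ 3 = 1 → g = 1)
include H1 H2

theorem sq_of_commute {t g : G} (ht : t ^ 2 = 1) (ht1 : t ≠ 1) (h : Commute t g) : g ^ 2 = 1 := by
  rcases H1 g with h2 | h3
  · exact h2
  · rw [H2 t g h ht ht1 h3, one_pow]

theorem commute_in_centralizer {t x y : G} (ht : t ^ 2 = 1) (ht1 : t ≠ 1) (hx : Commute t x)
    (hy : Commute t y) : Commute x y :=
  commute_of_sq (sq_of_commute H1 H2 ht ht1 hx) (sq_of_commute H1 H2 ht ht1 hy)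
    (sq_of_commute H1 H2 ht ht1 (hx.mul_right hy))

theorem commute_some {a b : G} (ha : a ^ 2 = 1) (hb : b ^ 2 = 1) (hc : Commute a b) {s : G}
    (hs : s ^ 2 = 1) : Commute s a ∨ Commute s b ∨ Commute s (a * b) := by
  by_contra hcon
  push Not at hcon
  obtain ⟨h1, h2, h3⟩ := hcon
  have hab2 : (a * b) ^ 2 = 1 := by rw [hc.mul_pow, ha, hb, one_mul]
  have key : ∀ v : G, v ^ 2 = 1 → ¬ Commute s v → s * v * s = v * s * v := by
    intro v hv hn
    apply braid hs hv
    rcases H1 (s * v) with h | h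
    · exact absurd (commute_of_sq hs hv h) hn
    · exact h
  have := klein_collapse s a b (by rw [← sq, hs]) (by rw [← sq, ha]) (by rw [← sq, hb]) hc.eq
    (key a ha h1) (key b hb h2) (key _ hab2 h3)
  exact h2 (this ▸ Commute.refl _)

theorem commute_invols {a b : G} (ha : a ^ 2 = 1) (ha1 : a ≠ 1) (hb : b ^ 2 = 1) (hb1 : b ≠ 1)
    (hab : a ≠ b) (hc : Commute a b) {s s' : G} (hs : s ^ 2 = 1) (hs' : s' ^ 2 = 1) :
    Commute s s' := by
  have hab2 : (a * b) ^ 2 = 1 := by rw [hc.mul_pow, ha, hb, one_mul]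
  have hab1 : a * b ≠ 1 := by
    intro h
    apply hab
    rw [← inv_eq_self_of_sq hb]
    exact eq_inv_of_mul_eq_one_left h
  -- the three involutions of the four-group, pairwise commuting
  have hV : ∀ v v' : G, (v = a ∨ v = b ∨ v = a * b) → (v' = a ∨ v' = b ∨ v' = a * b) →
      Commute v v' := by
    rintro v v' (rfl | rfl | rfl) (rfl | rfl | rfl)
    · exact Commute.refl _
    · exact hc
    · exact (Commute.refl _).mul_right hc
    · exact hc.symm
    · exact Commute.refl _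
    · exact hc.symm.mul_right (Commute.refl _)
    · exact (Commute.refl _).mul_left hc.symm
    · exact hc.mul_left (Commute.refl _)
    · exact Commute.refl _
  have hVi : ∀ v : G, (v = a ∨ v = b ∨ v = a * b) → v ^ 2 = 1 ∧ v ≠ 1 := by
    rintro v (rfl | rfl | rfl)
    · exact ⟨ha, ha1⟩
    · exact ⟨hb, hb1⟩
    · exact ⟨hab2, hab1⟩
  obtain ⟨v, hv, hsv⟩ : ∃ v, (v = a ∨ v = b ∨ v = a * b) ∧ Commute s v := by
    rcases commute_some H1 H2 ha hb hc hs with h | h | h
    · exact ⟨a, Or.inl rfl, h⟩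
    · exact ⟨b, Or.inr (Or.inl rfl), h⟩
    · exact ⟨a * b, Or.inr (Or.inr rfl), h⟩
  obtain ⟨v', hv', hsv'⟩ : ∃ v, (v = a ∨ v = b ∨ v = a * b) ∧ Commute s' v := by
    rcases commute_some H1 H2 ha hb hc hs' with h | h | h
    · exact ⟨a, Or.inl rfl, h⟩
    · exact ⟨b, Or.inr (Or.inl rfl), h⟩
    · exact ⟨a * b, Or.inr (Or.inr rfl), h⟩
  have h1 : Commute s v' :=
    commute_in_centralizer H1 H2 (hVi v hv).1 (hVi v hv).2 hsv.symm (hV v v' hv hv')
  exact commute_in_centralizer H1 H2 (hVi v' hv').1 (hVi v' hv').2 h1.symm hsv'.symm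

end

section
variable {G : Type*} [Group G]
  (H1 : ∀ g : G, g ^ 2 = 1 ∨ g ^ 3 = 1)

/-- The subgroup of all elements of square one, when these commute pairwise. -/
def sqSubgroup (hcomm : ∀ s s' : G, s ^ 2 = 1 → s' ^ 2 = 1 → Commute s s') : Subgroup G where
  carrier := {g | g ^ 2 = 1}
  one_mem' := one_pow 2
  mul_mem' := by
    intro x y hx hy
    change (x * y) ^ 2 = 1
    rw [(hcomm x y hx hy).mul_pow, hx, hy, one_mul]
  inv_mem' := by
    intro x hx
    change (x⁻¹) ^ 2 = 1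
    rw [inv_pow, hx, inv_one]

theorem mem_sqSubgroup (hcomm : ∀ s s' : G, s ^ 2 = 1 → s' ^ 2 = 1 → Commute s s') {g : G} :
    g ∈ sqSubgroup hcomm ↔ g ^ 2 = 1 := Iff.rfl

theorem sqSubgroup_normal (hcomm : ∀ s s' : G, s ^ 2 = 1 → s' ^ 2 = 1 → Commute s s') :
    (sqSubgroup hcomm).Normal := by
  constructor
  intro n hn g
  rw [mem_sqSubgroup] at hn ⊢
  rw [conj_pow, hn]; simp

include H1 in
theorem star (hcomm : ∀ s s' : G, s ^ 2 = 1 → s' ^ 2 = 1 → Commute s s') {g u : G}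
    (hg : g ^ 2 ≠ 1) (hu : u ^ 2 = 1) : g⁻¹ * u * g = u * (g * u * g⁻¹) := by
  have hg3 : g ^ 3 = 1 := (H1 g).resolve_left hg
  have hug : (u * g) ^ 2 ≠ 1 := by
    intro h
    apply hg
    have h1 : u * g ∈ sqSubgroup hcomm := h
    have h2 : u ∈ sqSubgroup hcomm := hu
    have h3 : u⁻¹ * (u * g) ∈ sqSubgroup hcomm := Subgroup.mul_mem _ (Subgroup.inv_mem _ h2) h1
    rwa [inv_mul_cancel_left] at h3
  have hug3 : (u * g) ^ 3 = 1 := (H1 (u * g)).resolve_left hug
  have hginv : g⁻¹ = g ^ 2 := by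
    rw [inv_eq_iff_mul_eq_one, ← pow_succ', hg3]
  have hcj : (g * u * g⁻¹) ^ 2 = 1 := by rw [conj_pow, hu]; simp
  have hprod : (u * (g * u * g⁻¹)) ^ 2 = 1 := by
    rw [(hcomm _ _ hu hcj).mul_pow, hu, hcj, one_mul]
  have h1 : (u * (g * u * g⁻¹)) * (g⁻¹ * u * g) = 1 := by
    calc (u * (g * u * g⁻¹)) * (g⁻¹ * u * g) = (u * g) * u * (g⁻¹ * g⁻¹) * u * g := by
          simp only [mul_assoc]
      _ = (u * g) * u * g * u * g := by
          rw [show g⁻¹ * g⁻¹ = g by
            rw [hginv, ← pow_add]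
            calc g ^ (2 + 2) = g ^ 3 * g := by rw [← pow_succ]
              _ = g := by rw [hg3, one_mul]]
      _ = (u * g) ^ 3 := by
          rw [pow_succ, pow_succ, pow_one]; simp only [mul_assoc]
      _ = 1 := hug3
  have h2 := eq_inv_of_mul_eq_one_right h1
  rw [h2, inv_eq_self_of_sq hprod]

include H1 in
theorem three_cosets (hcomm : ∀ s s' : G, s ^ 2 = 1 → s' ^ 2 = 1 → Commute s s') {v : G}
    (hv : v ^ 2 = 1) (hv1 : v ≠ 1) {z w : G} (hz : z ^ 2 ≠ 1) (hw : w ^ 2 ≠ 1)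
    (hzw : (z * w) ^ 2 ≠ 1) (hzw' : (z⁻¹ * w) ^ 2 ≠ 1) : False := by
  have cj : ∀ g u : G, u ^ 2 = 1 → (g * u * g⁻¹) ^ 2 = 1 := by
    intro g u hu
    rw [conj_pow, hu]; simp
  set A := w * v * w⁻¹ with hA
  set B := z * v * z⁻¹ with hB
  set C := w * B * w⁻¹ with hC
  set D := z * A * z⁻¹ with hD
  have hA2 : A ^ 2 = 1 := cj w v hv
  have hB2 : B ^ 2 = 1 := cj z v hv
  have e1 : (z * w)⁻¹ * v * (z * w) = v * D := by
    rw [star H1 hcomm hzw hv, hD, hA]
    simp only [mul_inv_rev, mul_assoc]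
  have e2 : z⁻¹ * v * z = v * B := star H1 hcomm hz hv
  have e3 : w⁻¹ * v * w = v * A := star H1 hcomm hw hv
  have e4 : w⁻¹ * B * w = B * C := star H1 hcomm hw hB2
  have e5 : (z * w)⁻¹ * v * (z * w) = v * A * (B * C) := by
    calc (z * w)⁻¹ * v * (z * w) = w⁻¹ * (z⁻¹ * v * z) * w := by
          simp only [mul_inv_rev, mul_assoc]
      _ = w⁻¹ * (v * B) * w := by rw [e2]
      _ = (w⁻¹ * v * w) * (w⁻¹ * B * w) := by simp only [mul_assoc, mul_inv_cancel_left]
      _ = v * A * (B * C) := by rw [e3, e4]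
  have e6 : D = A * (B * C) := by
    have := e1.symm.trans e5
    rw [mul_assoc] at this
    exact mul_left_cancel this
  have e7 : z⁻¹ * A * z = A * D := star H1 hcomm hz hA2
  have e8 : (z⁻¹ * w)⁻¹ * v * (z⁻¹ * w) = v * (A * D) := by
    rw [star H1 hcomm hzw' hv, ← e7, hA]
    simp only [mul_inv_rev, inv_inv, mul_assoc]
  have e9 : (z⁻¹ * w)⁻¹ * v * (z⁻¹ * w) = B * C := by
    rw [← e4, hB]
    simp only [mul_inv_rev, inv_inv, mul_assoc]
  have e10 : v * (B * C) = B * C := by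
    have := e8.symm.trans e9
    rw [e6, ← mul_assoc A A, ← sq, hA2, one_mul] at this
    exact this
  exact hv1 (mul_eq_right.mp e10)

include H1 in
theorem index_sqSubgroup (hcomm : ∀ s s' : G, s ^ 2 = 1 → s' ^ 2 = 1 → Commute s s') {v : G}
    (hv : v ^ 2 = 1) (hv1 : v ≠ 1) {z : G} (hz : z ^ 2 ≠ 1) : (sqSubgroup hcomm).index = 3 := by
  have hN : (sqSubgroup hcomm).Normal := sqSubgroup_normal hcomm
  set N := sqSubgroup hcomm with hNdef
  have hz3 : z ^ 3 = 1 := (H1 z).resolve_left hz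
  have hzb1 : (z : G ⧸ N) ≠ 1 := by
    intro h
    exact hz ((QuotientGroup.eq_one_iff z).mp h)
  have hzb3 : (z : G ⧸ N) ^ 3 = 1 := by
    rw [← QuotientGroup.mk_pow, hz3]; rfl
  have : Fact (Nat.Prime 3) := ⟨Nat.prime_three⟩
  have hord : orderOf (z : G ⧸ N) = 3 := orderOf_eq_prime hzb3 hzb1
  have htop : Subgroup.zpowers (z : G ⧸ N) = ⊤ := by
    rw [eq_top_iff]
    intro wb _
    obtain ⟨w, rfl⟩ := QuotientGroup.mk_surjective wb
    by_cases hw : w ^ 2 = 1
    · have : (w : G ⧸ N) = 1 := (QuotientGroup.eq_one_iff w).mpr hw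
      rw [this]; exact Subgroup.one_mem _
    by_cases hzw : (z * w) ^ 2 = 1
    · have h1 : ((z * w : G) : G ⧸ N) = 1 := (QuotientGroup.eq_one_iff _).mpr hzw
      rw [QuotientGroup.mk_mul] at h1
      rw [eq_inv_of_mul_eq_one_right h1]
      exact Subgroup.inv_mem _ (Subgroup.mem_zpowers _)
    by_cases hzw' : (z⁻¹ * w) ^ 2 = 1
    · have h1 : ((z⁻¹ * w : G) : G ⧸ N) = 1 := (QuotientGroup.eq_one_iff _).mpr hzw'
      rw [QuotientGroup.mk_mul, QuotientGroup.mk_inv, inv_mul_eq_one] at h1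
      rw [← h1]
      exact Subgroup.mem_zpowers _
    exact (three_cosets H1 hcomm hv hv1 hz hw hzw hzw').elim
  rw [Subgroup.index_eq_card, ← Subgroup.card_top, ← htop, Nat.card_zpowers, hord]

include H1 in
theorem caseB [Finite G]
    (hB : ∀ a b : G, a ^ 2 = 1 → a ≠ 1 → b ^ 2 = 1 → b ≠ 1 → Commute a b → a = b)
    {t : G} (ht : t ^ 2 = 1) (ht1 : t ≠ 1) :
    ∃ N : Subgroup G, N.Normal ∧ Cfsg.IsElementaryAbelian 3 N ∧ N.index = 2 := by
  have : Fact (Nat.Prime 2) := ⟨Nat.prime_two⟩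
  obtain ⟨P⟩ : Nonempty (Sylow 2 G) := inferInstance
  have hPsq : ∀ x ∈ (P : Subgroup G), x ^ 2 = 1 := by
    intro x hx
    rcases H1 x with h | h
    · exact h
    · obtain ⟨k, hk⟩ := (IsPGroup.iff_orderOf.mp P.2) ⟨x, hx⟩
      rw [Subgroup.orderOf_mk] at hk
      have h1 : orderOf x ∣ 3 := orderOf_dvd_of_pow_eq_one h
      rw [hk] at h1
      have h2 : Nat.Coprime (2 ^ k) 3 := Nat.Coprime.pow_left k (by norm_num)
      have h3 : 2 ^ k = 1 := Nat.Coprime.eq_one_of_dvd h2 h1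
      rw [h3, orderOf_eq_one_iff] at hk
      rw [hk, one_pow]
  have hPuniq : ∀ x ∈ (P : Subgroup G), ∀ y ∈ (P : Subgroup G), x ≠ 1 → y ≠ 1 → x = y := by
    intro x hx y hy hx1 hy1
    exact hB x y (hPsq x hx) hx1 (hPsq y hy) hy1
      (commute_of_sq (hPsq x hx) (hPsq y hy) (hPsq _ (Subgroup.mul_mem _ hx hy)))
  have h2G : 2 ∣ Nat.card G := by
    have : orderOf t = 2 := orderOf_eq_prime ht ht1
    rw [← this]; exact orderOf_dvd_natCard t
  have hPne : (P : Subgroup G) ≠ ⊥ := P.ne_bot_of_dvd_card h2G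
  obtain ⟨⟨t0, ht0P⟩, ht0'⟩ := Subgroup.ne_bot_iff_exists_ne_one.mp hPne
  have ht01 : t0 ≠ 1 := fun h => ht0' (Subtype.ext h)
  have hPcard : Nat.card (P : Subgroup G) = 2 := by
    have h1 : (P : Subgroup G) = Subgroup.zpowers t0 := by
      apply le_antisymm
      · intro x hx
        by_cases hx1 : x = 1
        · rw [hx1]; exact Subgroup.one_mem _
        · rw [hPuniq x hx t0 ht0P hx1 ht01]; exact Subgroup.mem_zpowers _
      · rw [Subgroup.zpowers_le]; exact ht0P
    rw [h1, Nat.card_zpowers]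
    exact orderOf_eq_prime (hPsq t0 ht0P) ht01
  have hNC : Subgroup.normalizer ((P : Subgroup G) : Set G) ≤
      Subgroup.centralizer ((P : Subgroup G) : Set G) := by
    intro g hg
    rw [Subgroup.mem_centralizer_iff]
    intro x hx
    by_cases hx1 : x = 1
    · rw [hx1]; simp
    · have h1 : g * x * g⁻¹ ∈ (P : Subgroup G) := (Subgroup.mem_normalizer_iff.mp hg x).mp hx
      have h2 : g * x * g⁻¹ ≠ 1 := by
        intro h
        apply hx1
        have := congrArg (fun w => g⁻¹ * w * g) h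
        simpa [mul_assoc] using this
      have h3 := hPuniq _ h1 x hx h2 hx1
      rw [mul_inv_eq_iff_eq_mul] at h3
      exact h3.symm
  have hcompl := MonoidHom.ker_transferSylow_isComplement' P hNC
  set K := (MonoidHom.transferSylow P hNC).ker with hK
  have hKidx : K.index = 2 := by rw [hcompl.symm.index_eq_card, hPcard]
  have hKodd : ¬ 2 ∣ Nat.card K := MonoidHom.not_dvd_card_ker_transferSylow P hNC
  have hK3 : ∀ k ∈ K, k ^ 3 = 1 := by
    intro k hk
    rcases H1 k with h | h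
    · by_cases hk1 : k = 1
      · rw [hk1, one_pow]
      · exfalso
        apply hKodd
        have h1 : orderOf (⟨k, hk⟩ : K) = 2 := by
          rw [Subgroup.orderOf_mk]; exact orderOf_eq_prime h hk1
        rw [← h1]; exact orderOf_dvd_natCard _
    · exact h
  have ht0K : t0 ∉ K := by
    intro h
    have h1 := hK3 t0 h
    have h2 := hPsq t0 ht0P
    apply ht01
    calc t0 = t0 ^ 3 * (t0 ^ 2)⁻¹ := by group
      _ = 1 := by rw [h1, h2]; simp
  have hinv : ∀ k ∈ K, t0 * k * t0 = k⁻¹ := by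
    intro k hk
    have h1 : t0 * k ∉ K := by
      intro h
      apply ht0K
      have := K.mul_mem h (K.inv_mem hk)
      rwa [mul_inv_cancel_right] at this
    have h2 : (t0 * k) ^ 2 = 1 := by
      rcases H1 (t0 * k) with h | h
      · exact h
      · exfalso
        apply h1
        have h3 : (t0 * k) ^ 2 ∈ K := Subgroup.sq_mem_of_index_two hKidx _
        have h4 : ∀ g : G, g = g ^ 3 * (g ^ 2)⁻¹ := fun g => by group
        have h4 := h4 (t0 * k)
        rw [h4, h, one_mul]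
        exact K.inv_mem h3
    rw [sq] at h2
    rw [eq_inv_iff_mul_eq_one, mul_assoc, mul_assoc, ← mul_assoc t0 k, ← mul_assoc] 
    simpa [mul_assoc] using h2
  refine ⟨K, inferInstance, ⟨⟨⟨fun x y => ?_⟩⟩, hK3⟩, hKidx⟩
  apply Subtype.ext
  obtain ⟨x, hx⟩ := x
  obtain ⟨y, hy⟩ := y
  change x * y = y * x
  have h1 := hinv (x * y) (K.mul_mem hx hy)
  have h2 : t0 * (x * y) * t0 = (t0 * x * t0) * (t0 * y * t0) := by
    have : t0 * t0 = 1 := by rw [← sq]; exact hPsq t0 ht0P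
    simp only [mul_assoc]
    rw [← mul_assoc t0 t0, this, one_mul]
  rw [h2, hinv x hx, hinv y hy, ← mul_inv_rev, inv_inj] at h1
  exact h1.symm

end

/-- A finite group whose set of element orders is exactly {1, 2, 3} has either a normal elementary abelian 3-subgroup of index 2 or a normal elementary abelian 2-subgroup of index 3. -/
theorem result {G : Type*} [Group G] [Finite G] (h : Set.range (orderOf : G → ℕ) = {k : ℕ | 1 ≤ k ∧ k ≤ 3}) :
    (∃ N : Subgroup G, N.Normal ∧ Cfsg.IsElementaryAbelian 3 N ∧ N.index = 2) ∨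
      (∃ N : Subgroup G, N.Normal ∧ Cfsg.IsElementaryAbelian 2 N ∧ N.index = 3) := by
  have hord : ∀ g : G, orderOf g = 1 ∨ orderOf g = 2 ∨ orderOf g = 3 := by
    intro g
    have : orderOf g ∈ Set.range (orderOf : G → ℕ) := ⟨g, rfl⟩
    rw [h] at this
    obtain ⟨h1, h2⟩ := this
    omega
  have H1 : ∀ g : G, g ^ 2 = 1 ∨ g ^ 3 = 1 := by
    intro g
    rcases hord g with h1 | h1 | h1
    · left; rw [orderOf_eq_one_iff.mp h1, one_pow]
    · left; rw [← h1]; exact pow_orderOf_eq_one g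
    · right; rw [← h1]; exact pow_orderOf_eq_one g
  have H2 : ∀ t g : G, Commute t g → t ^ 2 = 1 → t ≠ 1 → g ^ 3 = 1 → g = 1 := by
    intro t g hc ht ht1 hg
    by_contra hg1
    have : Fact (Nat.Prime 2) := ⟨Nat.prime_two⟩
    have : Fact (Nat.Prime 3) := ⟨Nat.prime_three⟩
    have h2 : orderOf t = 2 := orderOf_eq_prime ht ht1
    have h3 : orderOf g = 3 := orderOf_eq_prime hg hg1
    have h6 := hc.orderOf_mul_eq_mul_orderOf_of_coprime (by rw [h2, h3]; norm_num)
    rw [h2, h3] at h6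
    rcases hord (t * g) with h' | h' | h' <;> omega
  obtain ⟨t, ht⟩ : ∃ t : G, orderOf t = 2 := by
    have : (2 : ℕ) ∈ Set.range (orderOf : G → ℕ) := by rw [h]; exact ⟨by norm_num, by norm_num⟩
    exact this
  obtain ⟨z, hz⟩ : ∃ z : G, orderOf z = 3 := by
    have : (3 : ℕ) ∈ Set.range (orderOf : G → ℕ) := by rw [h]; exact ⟨by norm_num, by norm_num⟩
    exact this
  have ht2 : t ^ 2 = 1 := by rw [← ht]; exact pow_orderOf_eq_one t
  have ht1 : t ≠ 1 := by
    rintro rfl
    simp at ht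
  have hz2 : z ^ 2 ≠ 1 := by
    intro h'
    have := orderOf_dvd_of_pow_eq_one h'
    rw [hz] at this
    norm_num at this
  by_cases hA : ∃ a b : G, a ^ 2 = 1 ∧ a ≠ 1 ∧ b ^ 2 = 1 ∧ b ≠ 1 ∧ Commute a b ∧ a ≠ b
  · right
    obtain ⟨a, b, ha, ha1, hb, hb1, hc, hab⟩ := hA
    have hcomm : ∀ s s' : G, s ^ 2 = 1 → s' ^ 2 = 1 → Commute s s' := fun s s' hs hs' =>
      commute_invols H1 H2 ha ha1 hb hb1 hab hc hs hs'
    refine ⟨sqSubgroup hcomm, sqSubgroup_normal hcomm, ⟨⟨⟨fun x y => ?_⟩⟩, fun x hx => hx⟩,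
      index_sqSubgroup H1 hcomm ha ha1 hz2⟩
    exact Subtype.ext (hcomm x.1 y.1 x.2 y.2)
  · left
    apply caseB H1 _ ht2 ht1
    intro a b ha ha1 hb hb1 hc
    by_contra hab
    exact hA ⟨a, b, ha, ha1, hb, hb1, hc, hab⟩

end Cfsg.Agent.S4005
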