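import Cfsg.Statements.S4198
import Mathlib

set_option autoImplicit false
open Cfsg

namespace Cfsg.Agent.S4198

open Equiv Equiv.Perm

/-- cycle types of degree `n` -/
abbrev CT (n : ℕ) : Type := {μ : Multiset ℕ // (∀ a ∈ μ, 2 ≤ a) ∧ μ.sum ≤ n}

def ctOf (n : ℕ) (σ : Perm (Fin n)) : CT n :=
  ⟨σ.cycleType, fun _ ha => two_le_of_mem_cycleType ha, by
    rw [sum_cycleType]
    exact (Finset.card_le_univ _).trans (by simp)⟩

theorem ctOf_surjective (n : ℕ) : Function.Surjective (ctOf n) := by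
  rintro ⟨μ, h1, h2⟩
  obtain ⟨g, hg⟩ := (exists_with_cycleType_iff (Fin n)).2 ⟨by simpa using h2, h1⟩
  exact ⟨g, Subtype.ext hg⟩

instance (n : ℕ) : Finite (CT n) := Finite.of_surjective (ctOf n) (ctOf_surjective n)

theorem card_conj (n : ℕ) : Nat.card (ConjClasses (Perm (Fin n))) = Nat.card (CT n) := by
  apply Nat.card_congr
  refine Equiv.ofBijective (Quotient.lift (ctOf n) ?_) ⟨?_, ?_⟩
  · intro a b hab
    exact Subtype.ext (show a.cycleType = b.cycleType from isConj_iff_cycleType_eq.1 hab)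
  · intro x y
    induction x using Quotient.inductionOn with | _ a => ?_
    induction y using Quotient.inductionOn with | _ b => ?_
    intro h
    apply Quotient.sound
    exact isConj_iff_cycleType_eq.2 (show a.cycleType = b.cycleType from congrArg Subtype.val h)
  · intro μ
    obtain ⟨g, hg⟩ := ctOf_surjective n μ
    exact ⟨⟦g⟧, hg⟩

theorem card_step (n : ℕ) : Nat.card (CT (n + 2)) ≤ Nat.card (CT (n + 1)) + Nat.card (CT n) := by
  classical
  have key : ∀ μ : CT (n + 2), ¬ μ.1.sum ≤ n + 1 → ∃ x, x ∈ μ.1 := by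
    intro μ h
    rcases Multiset.empty_or_exists_mem μ.1 with h0 | h0
    · rw [h0] at h; simp at h
    · exact h0
  have hsum : ∀ (μ : CT (n + 2)) (h : ¬ μ.1.sum ≤ n + 1),
      (key μ h).choose + (μ.1.erase (key μ h).choose).sum = n + 2 := by
    intro μ h
    rw [Multiset.sum_erase (key μ h).choose_spec]
    have := μ.2.2
    omega
  let f : CT (n + 2) → CT (n + 1) ⊕ CT n := fun μ =>
    if h : μ.1.sum ≤ n + 1 then Sum.inl ⟨μ.1, μ.2.1, h⟩
    else Sum.inr ⟨μ.1.erase (key μ h).choose, fun a ha => μ.2.1 a (Multiset.mem_of_mem_erase ha), by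
      have h1 := hsum μ h
      have h2 := μ.2.1 _ (key μ h).choose_spec
      omega⟩
  have hf : Function.Injective f := by
    intro μ ν e
    by_cases h : μ.1.sum ≤ n + 1 <;> by_cases h' : ν.1.sum ≤ n + 1
    · simp only [f, dif_pos h, dif_pos h'] at e
      have e' := Sum.inl.inj e
      exact Subtype.ext (Subtype.mk.inj e')
    · simp only [f, dif_pos h, dif_neg h'] at e
      exact absurd e (by simp)
    · simp only [f, dif_neg h, dif_pos h'] at e
      exact absurd e (by simp)
    · simp only [f, dif_neg h, dif_neg h'] at e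
      have e1 : μ.1.erase (key μ h).choose = ν.1.erase (key ν h').choose :=
        congrArg Subtype.val (Sum.inr.inj e)
      have h1 := hsum μ h
      have h2 := hsum ν h'
      rw [e1] at h1
      have h3 : (key μ h).choose = (key ν h').choose := by omega
      apply Subtype.ext
      rw [← Multiset.cons_erase (key μ h).choose_spec, ← Multiset.cons_erase (key ν h').choose_spec, e1, h3]
  calc Nat.card (CT (n + 2)) ≤ Nat.card (CT (n + 1) ⊕ CT n) := Nat.card_le_card_of_injective f hf
    _ = _ := Nat.card_sum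

theorem card_small (n : ℕ) (hn : n ≤ 1) : Nat.card (CT n) ≤ 1 := by
  rw [Finite.card_le_one_iff_subsingleton]
  have h0 : ∀ μ : CT n, μ.1 = 0 := by
    intro μ
    rcases Multiset.empty_or_exists_mem μ.1 with h0 | ⟨x, hx⟩
    · exact h0
    · have h1 := μ.2.1 x hx
      have h2 := Multiset.single_le_sum (fun _ _ => Nat.zero_le _) x hx
      have h3 := μ.2.2
      omega
  exact ⟨fun μ ν => Subtype.ext ((h0 μ).trans (h0 ν).symm)⟩

theorem card_le_fib : ∀ n : ℕ, Nat.card (CT n) ≤ Nat.fib (n + 1) ∧ Nat.card (CT (n + 1)) ≤ Nat.fib (n + 2)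
  | 0 => ⟨by simpa using card_small 0 (by norm_num), by simpa using card_small 1 le_rfl⟩
  | n + 1 => by
    obtain ⟨h1, h2⟩ := card_le_fib n
    refine ⟨h2, ?_⟩
    have h3 : Nat.card (CT (n + 1 + 1)) ≤ Nat.card (CT (n + 1)) + Nat.card (CT n) := card_step n
    have h4 : Nat.fib (n + 1 + 2) = Nat.fib (n + 1) + Nat.fib (n + 2) := Nat.fib_add_two
    omega

theorem fib_le : ∀ k : ℕ, Nat.fib (k + 6) ≤ 2 ^ (k + 3) ∧ Nat.fib (k + 7) ≤ 2 ^ (k + 4)
  | 0 => by decide
  | k + 1 => by
    obtain ⟨h1, h2⟩ := fib_le k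
    refine ⟨h2, ?_⟩
    have h4 : Nat.fib (k + 6 + 2) = Nat.fib (k + 6) + Nat.fib (k + 6 + 1) := Nat.fib_add_two
    have h5 : 2 ^ (k + 1 + 4) = 2 * 2 ^ (k + 4) := by ring
    have h6 : 2 ^ (k + 4) = 2 * 2 ^ (k + 3) := by ring
    have h7 : k + 1 + 7 = k + 6 + 2 := by ring
    rw [h7, h4, h5]
    have h8 : k + 6 + 1 = k + 7 := rfl
    rw [h8]
    omega

section alt

variable {n : ℕ}

local notation "A" => alternatingGroup (Fin n)

theorem conj_of_even {g h : A} (σ : Perm (Fin n)) (hσ : sign σ = 1) (e : σ * g.1 * σ⁻¹ = h.1) : IsConj g h := by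
  rw [isConj_iff]
  exact ⟨⟨σ, mem_alternatingGroup.2 hσ⟩, Subtype.ext e⟩

theorem L1 {g h : A} (e : g.1.cycleType = h.1.cycleType)
    (hc : ¬ Subgroup.centralizer {g.1} ≤ alternatingGroup (Fin n)) : IsConj g h := by
  obtain ⟨σ, hσ⟩ := isConj_iff.1 (isConj_iff_cycleType_eq.2 e)
  rw [SetLike.not_le_iff_exists] at hc
  obtain ⟨c, hc1, hc2⟩ := hc
  rw [mem_alternatingGroup] at hc2
  have hc3 : sign c = -1 := (Int.units_eq_one_or _).resolve_left hc2
  rw [Subgroup.mem_centralizer_singleton_iff] at hc1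
  rcases Int.units_eq_one_or (sign σ) with h1 | h1
  · exact conj_of_even σ h1 hσ
  · refine conj_of_even (σ * c) (by rw [map_mul, h1, hc3]; rfl) ?_
    rw [← hσ]
    have : c * g.1 * c⁻¹ = g.1 := by rw [hc1]; group
    calc σ * c * g.1 * (σ * c)⁻¹ = σ * (c * g.1 * c⁻¹) * σ⁻¹ := by group
      _ = σ * g.1 * σ⁻¹ := by rw [this]

theorem L2 {g0 g g' : A} (e : g0.1.cycleType = g.1.cycleType) (e' : g0.1.cycleType = g'.1.cycleType)
    (h : ¬ IsConj g0 g) (h' : ¬ IsConj g0 g') : IsConj g g' := by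
  obtain ⟨σ, hσ⟩ := isConj_iff.1 (isConj_iff_cycleType_eq.2 e)
  obtain ⟨τ, hτ⟩ := isConj_iff.1 (isConj_iff_cycleType_eq.2 e')
  have h1 : sign σ = -1 := (Int.units_eq_one_or _).resolve_left (fun h1 => h (conj_of_even σ h1 hσ))
  have h2 : sign τ = -1 := (Int.units_eq_one_or _).resolve_left (fun h1 => h' (conj_of_even τ h1 hτ))
  refine conj_of_even (τ * σ⁻¹) (by rw [map_mul, map_inv, h1, h2]; rfl) ?_
  rw [← hσ, ← hτ]
  group

/-- representative of a class -/
noncomputable def rep (C : ConjClasses A) : A := Quotient.out C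

theorem mk_rep (C : ConjClasses A) : ConjClasses.mk (rep C) = C := Quotient.out_eq C

theorem eq_iff_rep (C D : ConjClasses A) : C = D ↔ IsConj (rep C) (rep D) := by
  rw [← ConjClasses.mk_eq_mk_iff_isConj, mk_rep, mk_rep]

noncomputable def tp (C : ConjClasses A) : Multiset ℕ := (rep C).1.cycleType

open Classical in
noncomputable def c0 (l : Multiset ℕ) : ConjClasses A :=
  if h : ∃ C : ConjClasses A, tp C = l then h.choose else ConjClasses.mk 1

theorem tp_c0 (C : ConjClasses A) : tp (c0 (tp C) : ConjClasses A) = tp C := by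
  have h : ∃ D : ConjClasses A, tp D = tp C := ⟨C, rfl⟩
  rw [c0, dif_pos h]
  exact h.choose_spec

open Classical in
noncomputable def pick (l : Multiset ℕ) : ℕ := if h : ∃ x, x ∈ l then h.choose else 0

theorem pick_mem {l : Multiset ℕ} (h : ∃ x, x ∈ l) : pick l ∈ l := by
  rw [pick, dif_pos h]
  exact h.choose_spec

open Classical in
noncomputable def Psi (C : ConjClasses A) : Multiset ℕ :=
  if C = c0 (tp C) then tp C else (pick (tp C) - 1) ::ₘ (tp C).erase (pick (tp C))

theorem even_tp (C : ConjClasses A) : Even ((tp C).sum + (tp C).card) := by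
  have h := mem_alternatingGroup.1 (rep C).2
  rw [sign_of_cycleType] at h
  exact (neg_one_pow_eq_one_iff_even (by decide)).1 h

theorem bad_props (hn : 5 ≤ n) (C : ConjClasses A) (hC : C ≠ c0 (tp C)) :
    (∀ c ∈ tp C, Odd c) ∧ n ≤ (tp C).sum + 1 ∧ pick (tp C) ∈ tp C ∧ 3 ≤ pick (tp C) := by
  have h1 : Subgroup.centralizer {(rep C).1} ≤ alternatingGroup (Fin n) := by
    by_contra hcon
    apply hC
    rw [eq_iff_rep]
    exact L1 (tp_c0 C).symm hcon
  rw [centralizer_le_alternating_iff] at h1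
  obtain ⟨h2, h3, -⟩ := h1
  rw [Fintype.card_fin] at h3
  have h4 : ∃ x, x ∈ tp C := by
    rcases Multiset.empty_or_exists_mem (tp C) with h0 | h0
    · have : (rep C).1.cycleType = 0 := h0
      rw [this] at h3
      simp at h3
      omega
    · exact h0
  have h5 := pick_mem h4
  have h6 : 2 ≤ pick (tp C) := two_le_of_mem_cycleType h5
  have h7 : Odd (pick (tp C)) := h2 _ h5
  refine ⟨h2, h3, h5, ?_⟩
  rcases h7 with ⟨k, hk⟩
  omega

theorem tp_props (C : ConjClasses A) : (∀ a ∈ tp C, 2 ≤ a) ∧ (tp C).sum ≤ n := (ctOf n (rep C).1).2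

theorem Psi_props (hn : 5 ≤ n) (C : ConjClasses A) : (∀ a ∈ Psi C, 2 ≤ a) ∧ (Psi C).sum ≤ n := by
  by_cases hC : C = c0 (tp C)
  · rw [Psi, if_pos hC]
    exact tp_props C
  · rw [Psi, if_neg hC]
    obtain ⟨-, -, h5, h6⟩ := bad_props hn C hC
    constructor
    · intro a ha
      rcases Multiset.mem_cons.1 ha with rfl | ha
      · omega
      · exact (tp_props C).1 a (Multiset.mem_of_mem_erase ha)
    · rw [Multiset.sum_cons]
      have h7 := Multiset.sum_erase h5
      have h8 := (tp_props C).2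
      omega

theorem odd_bad (hn : 5 ≤ n) (C : ConjClasses A) (hC : C ≠ c0 (tp C)) :
    ¬ Even ((Psi C).sum + (Psi C).card) := by
  rw [Psi, if_neg hC]
  obtain ⟨-, -, h5, h6⟩ := bad_props hn C hC
  rw [Multiset.sum_cons, Multiset.card_cons, Multiset.card_erase_of_mem h5, Nat.pred_eq_sub_one]
  have h7 := Multiset.sum_erase h5
  have h8 := even_tp C
  have h9 : 0 < (tp C).card := Multiset.card_pos_iff_exists_mem.2 ⟨_, h5⟩
  intro h
  rw [Nat.even_iff] at h h8
  omega

theorem Psi_injective (hn : 5 ≤ n) : Function.Injective (Psi : ConjClasses A → Multiset ℕ) := by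
  intro C D e
  by_cases hC : C = c0 (tp C) <;> by_cases hD : D = c0 (tp D)
  · have e' := e
    rw [Psi, if_pos hC, Psi, if_pos hD] at e'
    rw [hC, hD, e']
  · exfalso
    apply odd_bad hn D hD
    rw [← e, Psi, if_pos hC]
    exact even_tp C
  · exfalso
    apply odd_bad hn C hC
    rw [e, Psi, if_pos hD]
    exact even_tp D
  · have e' := e
    rw [Psi, if_neg hC, Psi, if_neg hD] at e'
    obtain ⟨c1, -, c5, c6⟩ := bad_props hn C hC
    obtain ⟨d1, -, d5, d6⟩ := bad_props hn D hD
    have h1 : pick (tp C) - 1 = pick (tp D) - 1 := by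
      have h2 : pick (tp C) - 1 ∈ (pick (tp D) - 1) ::ₘ (tp D).erase (pick (tp D)) := by
        rw [← e']; exact Multiset.mem_cons_self _ _
      rcases Multiset.mem_cons.1 h2 with h3 | h3
      · exact h3
      · exfalso
        have h4 := d1 _ (Multiset.mem_of_mem_erase h3)
        have h5 := c1 _ c5
        rcases h4 with ⟨a, ha⟩
        rcases h5 with ⟨b, hb⟩
        omega
    rw [h1] at e'
    have h2 := (Multiset.cons_inj_right _).1 e'
    have h3 : pick (tp C) = pick (tp D) := by omega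
    have h4 : tp C = tp D := by
      rw [← Multiset.cons_erase c5, ← Multiset.cons_erase d5, h2, h3]
    rw [eq_iff_rep]
    have hC' : ¬ IsConj (rep (c0 (tp C) : ConjClasses A)) (rep C) := by
      intro h
      exact hC ((eq_iff_rep _ _).2 h).symm
    have hD' : ¬ IsConj (rep (c0 (tp C) : ConjClasses A)) (rep D) := by
      intro h
      apply hD
      rw [← h4]
      exact ((eq_iff_rep _ _).2 h).symm
    exact L2 (tp_c0 C) ((tp_c0 C).trans h4) hC' hD'

theorem Psi_ne (hn : 5 ≤ n) (C : ConjClasses A) : Psi C ≠ {2} := by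
  intro e
  by_cases hC : C = c0 (tp C)
  · have h := even_tp C
    rw [Psi, if_pos hC] at e
    rw [e] at h
    simp at h
    exact absurd h (by decide)
  · obtain ⟨-, c2, c5, c6⟩ := bad_props hn C hC
    rw [Psi, if_neg hC] at e
    have h1 := congrArg Multiset.sum e
    rw [Multiset.sum_cons, Multiset.sum_singleton] at h1
    have h7 := Multiset.sum_erase c5
    omega

theorem card_lt (hn : 5 ≤ n) : Nat.card (ConjClasses A) < Nat.card (CT n) := by
  classical
  have : Fintype (ConjClasses A) := Fintype.ofFinite _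
  have : Fintype (CT n) := Fintype.ofFinite _
  rw [Nat.card_eq_fintype_card, Nat.card_eq_fintype_card]
  apply Fintype.card_lt_of_injective_not_surjective (fun C : ConjClasses A => (⟨Psi C, Psi_props hn C⟩ : CT n))
  · intro C D e
    exact Psi_injective hn (congrArg Subtype.val e)
  · intro hs
    obtain ⟨C, hC⟩ := hs ⟨{2}, by simp, by simp; omega⟩
    exact Psi_ne hn C (congrArg Subtype.val hC)

end alt

/-- For n ≥ 5 the alternating group of degree n has strictly fewer conjugacy classes than the symmetric group of degree n, and the symmetric group of degree n (whose classes correspond to the partitions of n) has at most 2^(n−2) conjugacy classes. -/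
theorem result (n : ℕ) (hn : 5 ≤ n) : Nat.card (ConjClasses (alternatingGroup (Fin n))) < Nat.card (ConjClasses (Equiv.Perm (Fin n))) ∧ Nat.card (ConjClasses (Equiv.Perm (Fin n))) ≤ 2 ^ (n - 2) := by
  rw [card_conj]
  refine ⟨card_lt hn, ?_⟩
  obtain ⟨k, rfl⟩ : ∃ k, n = k + 5 := ⟨n - 5, by omega⟩
  exact (card_le_fib (k + 5)).1.trans (fib_le k).1

end Cfsg.Agent.S4198
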