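import Cfsg.Statements.S4200
-- import your own Cfsg.Agent.* helpers here
import Cfsg.Agent.Lib.Helper73.PiClasses
import Cfsg.Agent.Lib.Helper12.Card

set_option autoImplicit false
open Cfsg

namespace Cfsg.Agent.S4200

open Cfsg.Agent.Lib.Helper73
open scoped Pointwise
open Classical

theorem cN_eq_card_inf {X : Type*} [Group X] [Fintype X] (Y : Subgroup X) (x : X) :
    cN Y x = Nat.card (Y ⊓ Subgroup.centralizer ({x} : Set X) : Subgroup X) := by
  rw [cN, ← Fintype.card_subtype, ← Nat.card_eq_fintype_card]
  apply Nat.card_congr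
  apply Equiv.subtypeEquivRight
  intro n
  rw [Subgroup.mem_inf, Subgroup.mem_centralizer_singleton_iff]

theorem card_centralizer_le_mul {X : Type*} [Group X] [Fintype X] (Y : Subgroup X) (x : X) :
    Nat.card (Subgroup.centralizer ({x} : Set X)) ≤ Y.index * cN Y x := by
  have h1 := Cfsg.Agent.Lib.Helper12.card_mul_set_mul_card_inf Y (Subgroup.centralizer ({x} : Set X))
  rw [← cN_eq_card_inf] at h1
  have h2 : Nat.card ((Y : Set X) * (Subgroup.centralizer ({x} : Set X) : Set X) : Set X) ≤ Nat.card X :=
    Nat.card_le_card_of_injective _ Subtype.val_injective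
  rw [← Y.card_mul_index] at h2
  have hpos : 0 < Nat.card Y := Nat.card_pos
  have h3 : Nat.card Y * Nat.card (Subgroup.centralizer ({x} : Set X)) ≤
      Nat.card Y * (Y.index * cN Y x) := by
    rw [← h1, ← mul_assoc]
    exact Nat.mul_le_mul_right _ h2
  exact Nat.le_of_mul_le_mul_left h3 hpos

theorem card_centralizer_lt_mul {X : Type*} [Group X] [Fintype X] (Y : Subgroup X) (x z : X)
    (hz : z ∉ ((Y : Set X) * (Subgroup.centralizer ({x} : Set X) : Set X) : Set X)) :
    Nat.card (Subgroup.centralizer ({x} : Set X)) < Y.index * cN Y x := by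
  have h1 := Cfsg.Agent.Lib.Helper12.card_mul_set_mul_card_inf Y (Subgroup.centralizer ({x} : Set X))
  rw [← cN_eq_card_inf] at h1
  have h2 : Nat.card ((Y : Set X) * (Subgroup.centralizer ({x} : Set X) : Set X) : Set X) < Nat.card X := by
    rw [Nat.card_coe_set_eq, ← Set.ncard_univ]
    apply Set.ncard_lt_ncard _ (Set.toFinite _)
    rw [Set.ssubset_univ_iff]
    intro h
    apply hz
    rw [h]; trivial
  rw [← Y.card_mul_index] at h2
  have hpos : 0 < Nat.card Y := Nat.card_pos
  have hcpos : 0 < cN Y x := by
    rw [cN_eq_card_inf]; exact Nat.card_pos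
  have h3 : Nat.card Y * Nat.card (Subgroup.centralizer ({x} : Set X)) <
      Nat.card Y * (Y.index * cN Y x) := by
    rw [← h1, ← mul_assoc]
    exact Nat.mul_lt_mul_of_pos_right h2 hcpos
  exact Nat.lt_of_mul_lt_mul_left h3

theorem sum_card_centralizer {X : Type*} [Group X] [Fintype X] :
    ∑ x : X, Nat.card (Subgroup.centralizer ({x} : Set X)) = Nat.card X * Nat.card (ConjClasses X) := by
  have h := sum_card_centralizer_eq (X := X) (fun _ => True) (fun _ _ _ => trivial)
  simp only [if_true] at h
  rw [h]
  congr 1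
  exact Nat.card_congr (Equiv.subtypeUnivEquiv (fun C g _ => trivial))

theorem sum_swap {X : Type*} [Group X] [Fintype X] (Y : Subgroup X) :
    ∑ x : X, cN Y x = ∑ y : X, (if y ∈ Y then Nat.card (Subgroup.centralizer ({y} : Set X)) else 0) := by
  have h1 : ∀ x : X, cN Y x = ∑ y : X, (if (y ∈ Y ∧ y * x = x * y) then 1 else 0) := by
    intro x
    rw [cN, Finset.card_filter]
  have h2 : ∀ y : X, (if y ∈ Y then Nat.card (Subgroup.centralizer ({y} : Set X)) else 0) =
      ∑ x : X, (if (y ∈ Y ∧ y * x = x * y) then 1 else 0) := by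
    intro y
    by_cases hy : y ∈ Y
    · simp only [hy, if_true, true_and]
      rw [← Finset.card_filter, ← Fintype.card_subtype, ← Nat.card_eq_fintype_card]
      apply Nat.card_congr
      apply Equiv.subtypeEquivRight
      intro x
      rw [Subgroup.mem_centralizer_singleton_iff]
      exact eq_comm
    · simp [hy]
  simp only [h1, h2]
  exact Finset.sum_comm

theorem sum_subgroup {X : Type*} [Group X] [Fintype X] (Y : Subgroup X) :
    ∑ y : X, (if y ∈ Y then cN Y y else 0) = Nat.card Y * Nat.card (ConjClasses Y) := by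
  rw [← sum_card_centralizer (X := Y), ← Finset.sum_filter,
    Finset.sum_subtype (p := fun m : X => m ∈ Y) _ (fun x => by simp)]
  apply Finset.sum_congr rfl
  intro m _
  rw [card_centralizer_subgroup]

/-- Let Y be a subgroup of the finite group X, of index m. Then the numbers of conjugacy classes satisfy k(Y) ≤ m·k(X) and k(X) ≤ m·k(Y), and the second inequality is strict unless Y is normal in X. -/
theorem result {X : Type*} [Group X] [Finite X] (Y : Subgroup X) : Nat.card (ConjClasses Y) ≤ Y.index * Nat.card (ConjClasses X) ∧ Nat.card (ConjClasses X) ≤ Y.index * Nat.card (ConjClasses Y) ∧ (¬ Y.Normal → Nat.card (ConjClasses X) < Y.index * Nat.card (ConjClasses Y)) := by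
  have := Fintype.ofFinite X
  have hX := sum_card_centralizer (X := X)
  have hYpos : 0 < Nat.card Y := Nat.card_pos
  have hcard := Y.card_mul_index
  have hstep1 : Nat.card X * Nat.card (ConjClasses X) ≤
      Y.index * ∑ y : X, (if y ∈ Y then Nat.card (Subgroup.centralizer ({y} : Set X)) else 0) := by
    rw [← hX, ← sum_swap, Finset.mul_sum]
    exact Finset.sum_le_sum (fun x _ => card_centralizer_le_mul Y x)
  have hterm : ∀ y : X, (if y ∈ Y then Nat.card (Subgroup.centralizer ({y} : Set X)) else 0) ≤
      Y.index * (if y ∈ Y then cN Y y else 0) := by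
    intro y
    split_ifs
    · exact card_centralizer_le_mul Y y
    · simp
  refine ⟨?_, ?_, ?_⟩
  · -- commuting pairs of Y inject into those of X
    have h1 : Nat.card Y * Nat.card (ConjClasses Y) ≤ Nat.card X * Nat.card (ConjClasses X) := by
      rw [← sum_subgroup, ← hX]
      apply Finset.sum_le_sum
      intro y _
      split_ifs
      · rw [cN_eq_card_inf]
        exact Subgroup.card_le_of_le inf_le_right
      · exact Nat.zero_le _
    rw [← hcard, mul_assoc] at h1
    exact Nat.le_of_mul_le_mul_left h1 hYpos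
  · have h2 : ∑ y : X, (if y ∈ Y then Nat.card (Subgroup.centralizer ({y} : Set X)) else 0) ≤
        Y.index * (Nat.card Y * Nat.card (ConjClasses Y)) := by
      rw [← sum_subgroup, Finset.mul_sum]
      exact Finset.sum_le_sum (fun y _ => hterm y)
    have h3 := hstep1.trans (Nat.mul_le_mul_left _ h2)
    rw [← hcard] at h3
    have h4 : Nat.card Y * Y.index * Nat.card (ConjClasses X) ≤
        Nat.card Y * Y.index * (Y.index * Nat.card (ConjClasses Y)) := by
      calc _ ≤ Y.index * (Y.index * (Nat.card Y * Nat.card (ConjClasses Y))) := h3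
        _ = _ := by ring
    exact Nat.le_of_mul_le_mul_left h4 (Nat.mul_pos hYpos (Nat.pos_of_ne_zero Subgroup.index_ne_zero_of_finite))
  · intro hnn
    have hex : ∃ y ∈ Y, ∃ x : X, x * y * x⁻¹ ∉ Y := by
      by_contra hcon
      push Not at hcon
      exact hnn ⟨fun y hy x => hcon y hy x⟩
    obtain ⟨y0, hy0, x0, hx0⟩ := hex
    have hz : x0 ∉ ((Y : Set X) * (Subgroup.centralizer ({y0} : Set X) : Set X) : Set X) := by
      intro hmem
      obtain ⟨u, hu, c, hc, rfl⟩ := Set.mem_mul.mp hmem
      apply hx0
      have hc' := Subgroup.mem_centralizer_singleton_iff.mp hc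
      have : u * c * y0 * (u * c)⁻¹ = u * y0 * u⁻¹ := by
        calc u * c * y0 * (u * c)⁻¹ = u * (c * y0) * c⁻¹ * u⁻¹ := by group
          _ = u * (y0 * c) * c⁻¹ * u⁻¹ := by rw [hc']
          _ = u * y0 * u⁻¹ := by group
      rw [this]
      exact Y.mul_mem (Y.mul_mem hu hy0) (Y.inv_mem hu)
    have h2 : ∑ y : X, (if y ∈ Y then Nat.card (Subgroup.centralizer ({y} : Set X)) else 0) <
        Y.index * (Nat.card Y * Nat.card (ConjClasses Y)) := by
      rw [← sum_subgroup, Finset.mul_sum]
      apply Finset.sum_lt_sum (fun y _ => hterm y)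
      refine ⟨y0, Finset.mem_univ _, ?_⟩
      rw [if_pos hy0, if_pos hy0]
      exact card_centralizer_lt_mul Y y0 x0 hz
    have hipos : 0 < Y.index := Nat.pos_of_ne_zero Subgroup.index_ne_zero_of_finite
    have h3 := lt_of_le_of_lt hstep1 (Nat.mul_lt_mul_of_pos_left h2 hipos)
    rw [← hcard] at h3
    have h4 : Nat.card Y * Y.index * Nat.card (ConjClasses X) <
        Nat.card Y * Y.index * (Y.index * Nat.card (ConjClasses Y)) := by
      calc _ < Y.index * (Y.index * (Nat.card Y * Nat.card (ConjClasses Y))) := h3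
        _ = _ := by ring
    exact Nat.lt_of_mul_lt_mul_left h4

end Cfsg.Agent.S4200
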