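import Cfsg.Statements.S4203
-- import your own Cfsg.Agent.* helpers here
import Cfsg.Agent.S0144

set_option autoImplicit false
open Cfsg

namespace Cfsg.Agent.S4203

universe u

theorem index_modEq_one {G : Type u} [Group G] [Finite G] {p : ℕ} [Fact p.Prime] (P : Sylow p G)
    (M : Subgroup G) (hM : Subgroup.normalizer ((P : Subgroup G) : Set G) ≤ M) :
    M.index ≡ 1 [MOD p] := by
  have hPM : (P : Subgroup G) ≤ M := Subgroup.le_normalizer.trans hM
  have h1 : Nat.card (Sylow p G) = (Subgroup.normalizer ((P : Subgroup G) : Set G)).relIndex M * M.index := by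
    rw [Subgroup.relIndex_mul_index hM, Sylow.card_eq_index_normalizer P]
    rfl
  have h2 : Nat.card (Sylow p M) = (Subgroup.normalizer ((P : Subgroup G) : Set G)).relIndex M := by
    rw [Sylow.card_eq_index_normalizer (P.subtype hPM), Subgroup.relIndex]
    change (Subgroup.normalizer (((P : Subgroup G).subgroupOf M : Subgroup M) : Set M)).index = _
    congr 1
    have := Subgroup.comap_normalizer_eq_of_le_range (H := (P : Subgroup G)) (f := M.subtype)
      (by rwa [Subgroup.range_subtype])
    exact this.symm
  have h3 : Nat.card (Sylow p G) ≡ 1 [MOD p] := card_sylow_modEq_one p G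
  have h4 : Nat.card (Sylow p M) ≡ 1 [MOD p] := card_sylow_modEq_one p M
  rw [h1, ← h2] at h3
  have h5 : Nat.card (Sylow p M) * M.index ≡ 1 * M.index [MOD p] := Nat.ModEq.mul_right _ h4
  rw [one_mul] at h5
  exact h5.symm.trans h3

theorem eq_two_pow_mul_three_pow (n : ℕ) (hn : n ≠ 0) (h : ∀ q : ℕ, q.Prime → q ∣ n → q ≤ 3) :
    ∃ a b : ℕ, n = 2 ^ a * 3 ^ b := by
  obtain ⟨a, m, hm2, rfl⟩ := Nat.exists_eq_pow_mul_and_not_dvd hn 2 (by norm_num)
  have hm0 : m ≠ 0 := by rintro rfl; simp at hn
  obtain ⟨b, m', hm3, rfl⟩ := Nat.exists_eq_pow_mul_and_not_dvd hm0 3 (by norm_num)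
  refine ⟨a, b, ?_⟩
  have hm1 : m' = 1 := by
    by_contra hne
    obtain ⟨q, hq, hqd⟩ := Nat.exists_prime_and_dvd hne
    have hq3 := h q hq (Dvd.dvd.mul_left (Dvd.dvd.mul_left hqd _) _)
    have hq2 := hq.two_le
    interval_cases q
    · exact hm2 (Dvd.dvd.mul_left hqd _)
    · exact hm3 hqd
  rw [hm1, mul_one]

theorem main : ∀ (n : ℕ) (G : Type u) [Group G] [Finite G], Nat.card G = n →
    (∀ M : Subgroup G, IsCoatom M → ∃ p : ℕ, p.Prime ∧ (M.index = p ∨ M.index = p ^ 2)) →
    Group.IsSolvable G := by
  intro n
  induction n using Nat.strong_induction_on with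
  | _ n IH =>
  intro G _ _ hn h
  classical
  by_cases htriv : Nat.card G = 1
  · have : Subsingleton G := (Nat.card_eq_one_iff_unique.mp htriv).1
    infer_instance
  -- largest prime divisor
  have hne : (Nat.card G).primeFactors.Nonempty := by
    rw [Nat.nonempty_primeFactors]
    have : 0 < Nat.card G := Nat.card_pos
    omega
  set p := (Nat.card G).primeFactors.max' hne with hp_def
  have hpmem : p ∈ (Nat.card G).primeFactors := Finset.max'_mem _ _
  have hp : p.Prime := Nat.prime_of_mem_primeFactors hpmem
  have hpdvd : p ∣ Nat.card G := Nat.dvd_of_mem_primeFactors hpmem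
  have hpmax : ∀ q : ℕ, q.Prime → q ∣ Nat.card G → q ≤ p := by
    intro q hq hqd
    apply Finset.le_max'
    exact Nat.mem_primeFactors.mpr ⟨hq, hqd, Nat.card_pos.ne'⟩
  have := Fact.mk hp
  obtain ⟨P⟩ : Nonempty (Sylow p G) := inferInstance
  by_cases hPn : (P : Subgroup G).Normal
  · -- quotient
    have hPne : (P : Subgroup G) ≠ ⊥ := P.ne_bot_of_dvd_card hpdvd
    have hcardlt : Nat.card (G ⧸ (P : Subgroup G)) < n := by
      rw [← hn, ← (P : Subgroup G).card_mul_index, ← Subgroup.index]
      have h1 : 1 < Nat.card (P : Subgroup G) := (Subgroup.one_lt_card_iff_ne_bot _).mpr hPne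
      have h2 : 0 < (P : Subgroup G).index := Nat.pos_of_ne_zero Subgroup.index_ne_zero_of_finite
      nlinarith
    have hq : Group.IsSolvable (G ⧸ (P : Subgroup G)) := by
      apply IH _ hcardlt _ rfl
      intro M hM
      have h1 := Subgroup.isCoatom_comap_of_surjective (QuotientGroup.mk'_surjective (P : Subgroup G)) hM
      obtain ⟨q, hq, hqi⟩ := h _ h1
      rw [Subgroup.index_comap_of_surjective _ (QuotientGroup.mk'_surjective (P : Subgroup G))] at hqi
      exact ⟨q, hq, hqi⟩
    have hPs : Group.IsSolvable (P : Subgroup G) := by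
      have := P.isPGroup'.isNilpotent
      infer_instance
    exact Group.isSolvable_of_ker_le_range (P : Subgroup G).subtype (QuotientGroup.mk' (P : Subgroup G))
      (by rw [QuotientGroup.ker_mk', Subgroup.range_subtype])
  · have hNtop : Subgroup.normalizer ((P : Subgroup G) : Set G) ≠ ⊤ := by
      intro h1
      exact hPn (Subgroup.normalizer_eq_top_iff.mp h1)
    obtain ⟨M, hM, hNM⟩ := (eq_top_or_exists_le_coatom _).resolve_left hNtop
    have hmod := index_modEq_one P M hNM
    obtain ⟨q, hq, hqi⟩ := h M hM
    have hqdvd : q ∣ Nat.card G := by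
      have h1 : q ∣ M.index := by
        rcases hqi with h1 | h1
        · rw [h1]
        · rw [h1]; exact dvd_pow_self q (by norm_num)
      exact h1.trans M.index_dvd_card
    have hqp : q ≤ p := hpmax q hq hqdvd
    have hq2 := hq.two_le
    have hp3 : p ≤ 3 := by
      rcases hqi with h1 | h1
      · exfalso
        rw [h1] at hmod
        have h2 : p ∣ q - 1 := (Nat.modEq_iff_dvd' (by omega)).mp hmod.symm
        have h3 := Nat.le_of_dvd (by omega) h2
        omega
      · rw [h1] at hmod
        have h2 : p ∣ q ^ 2 - 1 := (Nat.modEq_iff_dvd' (by nlinarith)).mp hmod.symm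
        have h3 : q ^ 2 - 1 = (q - 1) * (q + 1) := by
          obtain ⟨k, rfl⟩ : ∃ k, q = k + 1 := ⟨q - 1, by omega⟩
          simp only [Nat.add_sub_cancel]
          have : (k + 1) ^ 2 = k * (k + 1 + 1) + 1 := by ring
          omega
        rw [h3] at h2
        rcases (Nat.Prime.dvd_mul hp).mp h2 with h4 | h4
        · exfalso
          have h5 := Nat.le_of_dvd (by omega) h4
          omega
        · have h5 := Nat.le_of_dvd (by omega) h4
          have hne : p ≠ q := by
            rintro rfl
            have h6 : p ∣ 1 := (Nat.dvd_add_right (dvd_refl p)).mp h4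
            have := Nat.le_of_dvd (by norm_num) h6
            omega
          have h6 : p = q + 1 := by omega
          -- consecutive primes
          rcases hq.eq_two_or_odd' with h7 | h7
          · omega
          · exfalso
            have h8 : Even p := by rw [h6]; exact h7.add_one
            have h9 : p = 2 := (Nat.Prime.even_iff hp).mp h8
            omega
    obtain ⟨a, b, hab⟩ := eq_two_pow_mul_three_pow (Nat.card G) Nat.card_pos.ne'
      (fun q hq hqd => (hpmax q hq hqd).trans hp3)
    exact Cfsg.Agent.S0144.result 2 3 a b Nat.prime_two Nat.prime_three hab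

/-- A finite group in which every maximal subgroup has index a prime or the square of a prime is solvable. -/
theorem result {G : Type*} [Group G] [Finite G] (h : ∀ M : Subgroup G, IsCoatom M → ∃ p : ℕ, p.Prime ∧ (M.index = p ∨ M.index = p ^ 2)) : Group.IsSolvable G := by
  exact main (Nat.card G) G rfl h

end Cfsg.Agent.S4203
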