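import Cfsg.Statements.S4204
-- import your own Cfsg.Agent.* helpers here
import Cfsg.Agent.Lib.Helper73.Commutator

set_option autoImplicit false
open Cfsg

namespace Cfsg.Agent.S4204

/-- shifted lower central series: `Γ 0 = ⊤`, `Γ (i+1) = γ_{i+1}`. -/
def Gam {G : Type*} [Group G] (H : Subgroup G) : ℕ → Subgroup G
  | 0 => ⊤
  | i + 1 => H.lowerCentralSeries i

instance Gam_normal {G : Type*} [Group G] (H : Subgroup G) [H.Normal] (i : ℕ) : (Gam H i).Normal := by
  cases i with
  | zero => exact (inferInstance : (⊤ : Subgroup G).Normal)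
  | succ i => exact Subgroup.lowerCentralSeries_normal H i

theorem Gam_comm_le {G : Type*} [Group G] (H : Subgroup G) [H.Normal] (i : ℕ) :
    ⁅Gam H i, H⁆ ≤ Gam H (i + 1) := by
  cases i with
  | zero => exact Subgroup.commutator_le_right _ _
  | succ i => exact le_rfl

/-- the join of the `Γ_i(H) ⊓ Γ_j(K)` with `i + j = n` -/
def Tn {G : Type*} [Group G] (H K : Subgroup G) (n : ℕ) : Subgroup G :=
  ⨆ ij : {ij : ℕ × ℕ // ij.1 + ij.2 = n}, Gam H ij.1.1 ⊓ Gam K ij.1.2

instance Tn_normal {G : Type*} [Group G] (H K : Subgroup G) [H.Normal] [K.Normal] (n : ℕ) :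
    (Tn H K n).Normal := by
  unfold Tn
  infer_instance

theorem le_Tn {G : Type*} [Group G] (H K : Subgroup G) (i j n : ℕ) (h : i + j = n) :
    Gam H i ⊓ Gam K j ≤ Tn H K n :=
  le_iSup (fun ij : {ij : ℕ × ℕ // ij.1 + ij.2 = n} => Gam H ij.1.1 ⊓ Gam K ij.1.2) ⟨(i, j), h⟩

theorem lcs_le_Tn {G : Type*} [Group G] (H K : Subgroup G) [H.Normal] [K.Normal] (n : ℕ) :
    (H ⊔ K).lowerCentralSeries n ≤ Tn H K (n + 1) := by
  induction n with
  | zero =>
    rw [Subgroup.lowerCentralSeries_zero]
    apply sup_le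
    · refine le_trans ?_ (le_Tn H K 1 0 1 rfl)
      simp [Gam]
    · refine le_trans ?_ (le_Tn H K 0 1 1 rfl)
      simp [Gam]
  | succ n ih =>
    rw [Subgroup.lowerCentralSeries_succ]
    refine le_trans (Subgroup.commutator_mono ih le_rfl) ?_
    unfold Tn
    apply Cfsg.Agent.Lib.Helper73.iSup_commutator_le (N := Tn H K (n + 1 + 1))
    rintro ⟨⟨i, j⟩, hij⟩
    simp only at hij ⊢
    apply Cfsg.Agent.Lib.Helper73.commutator_sup_le
    · refine le_trans ?_ (le_Tn H K (i + 1) j _ (by omega))
      apply le_inf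
      · exact le_trans (Subgroup.commutator_mono inf_le_left le_rfl) (Gam_comm_le H i)
      · exact le_trans (Subgroup.commutator_mono inf_le_right le_rfl) (Subgroup.commutator_le_left _ _)
    · refine le_trans ?_ (le_Tn H K i (j + 1) _ (by omega))
      apply le_inf
      · exact le_trans (Subgroup.commutator_mono inf_le_left le_rfl) (Subgroup.commutator_le_left _ _)
      · exact le_trans (Subgroup.commutator_mono inf_le_right le_rfl) (Gam_comm_le K j)

/-- If `H` and `K` are normal subgroups of a finite group with `H` nilpotent of class at most `c` and `K` nilpotent of class at most `d` (the terms with index `c`, respectively `d`, of their lower central series are trivial, indices starting at `0`), then `HK` is nilpotent of class at most `c + d`. -/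
theorem result {G : Type*} [Group G] [Finite G] (H K : Subgroup G) [H.Normal] [K.Normal] (c d : ℕ) (hH : H.lowerCentralSeries c = ⊥) (hK : K.lowerCentralSeries d = ⊥) : (H ⊔ K).lowerCentralSeries (c + d) = ⊥ := by
  rw [eq_bot_iff]
  refine le_trans (lcs_le_Tn H K (c + d)) ?_
  unfold Tn
  apply iSup_le
  rintro ⟨⟨i, j⟩, hij⟩
  simp only at hij ⊢
  by_cases hi : c + 1 ≤ i
  · obtain ⟨i', rfl⟩ : ∃ i', i = i' + 1 := ⟨i - 1, by omega⟩
    refine le_trans inf_le_left ?_
    rw [← hH]
    exact Subgroup.lowerCentralSeries_antitone H (by omega)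
  · obtain ⟨j', rfl⟩ : ∃ j', j = j' + 1 := ⟨j - 1, by omega⟩
    refine le_trans inf_le_right ?_
    rw [← hK]
    exact Subgroup.lowerCentralSeries_antitone K (by omega)

end Cfsg.Agent.S4204
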