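import Cfsg.Statements.S4205
-- import your own Cfsg.Agent.* helpers here

set_option autoImplicit false
open Cfsg

namespace Cfsg.Agent.S4205

open scoped commutatorElement

/-- In a finite group whose upper central series reaches the whole group at step `c` (nilpotent of class at most `c`), starting from any subgroup and taking normalizers `c` times reaches the whole group. -/
theorem result {G : Type*} [Group G] [Finite G] (c : ℕ) (hG : Subgroup.upperCentralSeries G c = ⊤) (H : Subgroup G) : (fun K : Subgroup G => Subgroup.normalizer (K : Set G))^[c] H = ⊤ := by
  have key : ∀ i : ℕ, Subgroup.upperCentralSeries G i ≤ (fun K : Subgroup G => Subgroup.normalizer (K : Set G))^[i] H := by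
    intro i
    induction i with
    | zero => simp
    | succ n ih =>
      rw [Function.iterate_succ_apply']
      intro z hz
      rw [Subgroup.mem_normalizer_iff]
      have h1 : ∀ (w : G), w ∈ Subgroup.upperCentralSeries G (n+1) → ∀ k, k ∈ (fun K : Subgroup G => Subgroup.normalizer (K : Set G))^[n] H → w * k * w⁻¹ ∈ (fun K : Subgroup G => Subgroup.normalizer (K : Set G))^[n] H := by
        intro w hw k hk
        have h2 : ⁅w, k⁆ ∈ Subgroup.upperCentralSeries G n := Subgroup.mem_upperCentralSeries_succ_iff.mp hw k
        have h3 := Subgroup.mul_mem _ (ih h2) hk
        rw [commutatorElement_def] at h3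
        simpa using h3
      intro k
      constructor
      · exact h1 z hz k
      · intro hk
        have := h1 z⁻¹ (Subgroup.inv_mem _ hz) _ hk
        simpa [mul_assoc] using this
  exact top_le_iff.mp (hG ▸ key c)

end Cfsg.Agent.S4205
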