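import Cfsg.Statements.S4207
-- import your own Cfsg.Agent.* helpers here
import Cfsg.Agent.S0014
import Cfsg.Agent.Lib.Helper73.AutTuples

set_option autoImplicit false
open Cfsg

namespace Cfsg.Agent.S4207

/-- Let `P` be a group of order `p^n` whose Frattini subgroup has index `p^r`. Then any group of automorphisms of `P` each of which induces the identity on the Frattini quotient has order dividing `p^(r(n-r))`; in particular it is a `p`-group. -/
theorem result {P : Type*} [Group P] [Finite P] {p n r : ℕ} [Fact p.Prime] (hP : Nat.card P = p ^ n) (hr : (frattini P).index = p ^ r) (A : Subgroup (MulAut P)) (hA : ∀ α ∈ A, ∀ x : P, α x * x⁻¹ ∈ frattini P) : Nat.card A ∣ p ^ (r * (n - r)) := by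
  classical
  have hPG : IsPGroup p P := IsPGroup.of_card hP
  have := Fintype.ofFinite P
  obtain ⟨T, -, hTcard, hTgen⟩ := (Cfsg.Agent.S0014.result p r hPG hr).1 Finset.univ (by simp)
  let e : T ≃ Fin r := T.equivFinOfCardEq hTcard
  let x : Fin r → P := fun i => (e.symm i : P)
  have hx : Subgroup.closure (Set.range x) = ⊤ := by
    rw [← hTgen]
    congr 1
    ext y
    constructor
    · rintro ⟨i, rfl⟩
      exact (e.symm i).2
    · intro hy
      exact ⟨e ⟨y, hy⟩, by simp [x]⟩
  let X : Set (Fin r → P) := {f | ∀ i, f i * (x i)⁻¹ ∈ frattini P}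
  have hdvd : Nat.card A ∣ Nat.card X := by
    apply Cfsg.Agent.Lib.Helper73.card_aut_dvd_card_tuples A X
    · intro α hα f hf i
      have h1 := hA α hα (f i)
      have h2 := Subgroup.mul_mem _ h1 (hf i)
      simpa [mul_assoc] using h2
    · intro f hf
      apply frattini_nongenerating
      rw [← top_le_iff, ← hx, Subgroup.closure_le]
      rintro _ ⟨i, rfl⟩
      have h1 : f i ∈ Subgroup.closure (Set.range f) ⊔ frattini P :=
        Subgroup.mem_sup_left (Subgroup.subset_closure ⟨i, rfl⟩)
      have h2 : (f i * (x i)⁻¹)⁻¹ ∈ Subgroup.closure (Set.range f) ⊔ frattini P :=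
        Subgroup.mem_sup_right (Subgroup.inv_mem _ (hf i))
      have h3 := Subgroup.mul_mem _ h2 h1
      simpa using h3
  have hXcard : Nat.card X = Nat.card (frattini P) ^ r := by
    have eX : X ≃ (Fin r → frattini P) :=
      { toFun := fun f i => ⟨f.1 i * (x i)⁻¹, f.2 i⟩
        invFun := fun u => ⟨fun i => (u i : P) * x i, fun i => by simp⟩
        left_inv := fun f => by ext i; simp
        right_inv := fun u => by ext i; simp }
    rw [Nat.card_congr eX, Nat.card_fun, Nat.card_eq_fintype_card (α := Fin r), Fintype.card_fin]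
  have hrn : r ≤ n := by
    have h1 : p ^ r ∣ p ^ n := by rw [← hr, ← hP]; exact Subgroup.index_dvd_card _
    exact (Nat.pow_dvd_pow_iff_le_right (Fact.out : p.Prime).one_lt).mp h1
  have hΦ : Nat.card (frattini P) = p ^ (n - r) := by
    have h1 := (frattini P).card_mul_index
    rw [hr, hP] at h1
    have h2 : p ^ n = p ^ (n - r) * p ^ r := by rw [← pow_add]; congr 1; omega
    rw [h2] at h1
    exact Nat.eq_of_mul_eq_mul_right (pow_pos (Fact.out : p.Prime).pos r) h1
  rw [hXcard, hΦ, ← pow_mul, mul_comm] at hdvd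
  exact hdvd

end Cfsg.Agent.S4207
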