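import Cfsg.Statements.S4208
-- import your own Cfsg.Agent.* helpers here
import Cfsg.Agent.S0012
import Cfsg.Agent.Lib.Helper73.AutTuples
import Cfsg.Agent.Lib.Helper73.GenTuples

set_option autoImplicit false
open Cfsg

namespace Cfsg.Agent.S4208

open scoped commutatorElement

/-- Let `P` be a group of order `p^n` whose Frattini subgroup has index `p^r`. Then the order of the automorphism group of `P` divides `p^(r(n-r)) · (p^r - 1)(p^r - p) ⋯ (p^r - p^(r-1))`. -/
theorem result {P : Type*} [Group P] [Finite P] {p n r : ℕ} [Fact p.Prime] (hP : Nat.card P = p ^ n) (hr : (frattini P).index = p ^ r) : Nat.card (MulAut P) ∣ p ^ (r * (n - r)) * ∏ i ∈ Finset.range r, (p ^ r - p ^ i) := by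
  classical
  have hPG : IsPGroup p P := IsPGroup.of_card hP
  obtain ⟨hcomm, hpow⟩ := Cfsg.Agent.S0012.result p hPG
  let Y : Set (Fin r → P) := {f | Subgroup.closure (Set.range f) = ⊤}
  have hdvd : Nat.card (⊤ : Subgroup (MulAut P)) ∣ Nat.card Y := by
    apply Cfsg.Agent.Lib.Helper73.card_aut_dvd_card_tuples ⊤ Y
    · intro α _ f hf
      have h1 : Set.range (fun i => α (f i)) = α.toMonoidHom '' Set.range f := by
        ext y
        constructor
        · rintro ⟨i, rfl⟩
          exact ⟨f i, ⟨i, rfl⟩, rfl⟩
        · rintro ⟨_, ⟨i, rfl⟩, rfl⟩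
          exact ⟨i, rfl⟩
      show Subgroup.closure (Set.range (fun i => α (f i))) = ⊤
      rw [h1, ← MonoidHom.map_closure, (show Subgroup.closure (Set.range f) = ⊤ from hf)]
      exact Subgroup.map_top_of_surjective _ α.surjective
    · intro f hf
      exact hf
  rw [Subgroup.card_top] at hdvd
  have hiff : ∀ f : Fin r → P, Subgroup.closure (Set.range f) = ⊤ ↔
      Subgroup.closure (Set.range (fun i => (f i : P ⧸ frattini P))) = ⊤ := by
    intro f
    have h1 : Set.range (fun i => (f i : P ⧸ frattini P)) = (QuotientGroup.mk' (frattini P)) '' Set.range f := by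
      ext y
      constructor
      · rintro ⟨i, rfl⟩
        exact ⟨f i, ⟨i, rfl⟩, rfl⟩
      · rintro ⟨_, ⟨i, rfl⟩, rfl⟩
        exact ⟨i, rfl⟩
    rw [h1, ← MonoidHom.map_closure]
    constructor
    · intro h
      rw [h]
      exact Subgroup.map_top_of_surjective _ (QuotientGroup.mk'_surjective _)
    · intro h
      apply frattini_nongenerating
      have h2 := congrArg (Subgroup.comap (QuotientGroup.mk' (frattini P))) h
      rw [Subgroup.comap_map_eq, QuotientGroup.ker_mk', Subgroup.comap_top] at h2
      exact h2
  have eY : Y ≃ {f : Fin r → P ⧸ frattini P // Subgroup.closure (Set.range f) = ⊤} × (Fin r → frattini P) :=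
    { toFun := fun f => (⟨fun i => (f.1 i : P ⧸ frattini P), (hiff f.1).mp f.2⟩,
        fun i => ⟨((f.1 i : P ⧸ frattini P)).out⁻¹ * f.1 i, by
          rw [← QuotientGroup.eq]; exact Quotient.out_eq' _⟩)
      invFun := fun z => ⟨fun i => (z.1.1 i).out * (z.2 i : P), by
        apply (hiff _).mpr
        have : (fun i => (((z.1.1 i).out * (z.2 i : P) : P) : P ⧸ frattini P)) = z.1.1 := by
          funext i
          rw [QuotientGroup.mk_mul_of_mem _ (z.2 i).2]
          exact Quotient.out_eq' _
        rw [this]
        exact z.1.2⟩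
      left_inv := fun f => by
        apply Subtype.ext
        funext i
        simp
      right_inv := fun z => by
        have h0 : ∀ i, (((z.1.1 i).out * (z.2 i : P) : P) : P ⧸ frattini P) = z.1.1 i := by
          intro i
          rw [QuotientGroup.mk_mul_of_mem _ (z.2 i).2]
          exact Quotient.out_eq' _
        apply Prod.ext
        · apply Subtype.ext
          funext i
          exact h0 i
        · funext i
          apply Subtype.ext
          simp only
          rw [h0 i]
          simp }
  have hQ : Nat.card {f : Fin r → P ⧸ frattini P // Subgroup.closure (Set.range f) = ⊤} =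
      ∏ i ∈ Finset.range r, (p ^ r - p ^ i) := by
    apply Cfsg.Agent.Lib.Helper73.card_gen_tuples p r
    · intro a b
      induction a using QuotientGroup.induction_on with
      | H a =>
      induction b using QuotientGroup.induction_on with
      | H b =>
      rw [← QuotientGroup.mk_mul, ← QuotientGroup.mk_mul, QuotientGroup.eq]
      have h1 : ⁅b⁻¹, a⁻¹⁆ ∈ commutator P := Subgroup.commutator_mem_commutator (Subgroup.mem_top _) (Subgroup.mem_top _)
      have h2 := hcomm h1
      rw [commutatorElement_def] at h2
      simpa [mul_assoc] using h2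
    · intro a
      induction a using QuotientGroup.induction_on with
      | H a =>
      rw [← QuotientGroup.mk_pow, QuotientGroup.eq_one_iff]
      exact hpow a
    · exact hr
  have hrn : r ≤ n := by
    have h1 : p ^ r ∣ p ^ n := by rw [← hr, ← hP]; exact Subgroup.index_dvd_card _
    exact (Nat.pow_dvd_pow_iff_le_right (Fact.out : p.Prime).one_lt).mp h1
  have hΦ : Nat.card (frattini P) = p ^ (n - r) := by
    have h1 := (frattini P).card_mul_index
    rw [hr, hP] at h1
    have h2 : p ^ n = p ^ (n - r) * p ^ r := by rw [← pow_add]; congr 1; omega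
    rw [h2] at h1
    exact Nat.eq_of_mul_eq_mul_right (pow_pos (Fact.out : p.Prime).pos r) h1
  rw [Nat.card_congr eY, Nat.card_prod, hQ, Nat.card_fun, Nat.card_eq_fintype_card (α := Fin r),
    Fintype.card_fin, hΦ, ← pow_mul, mul_comm, mul_comm (n - r) r] at hdvd
  exact hdvd

end Cfsg.Agent.S4208
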