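import Cfsg.Statements.S4211
import Cfsg.Agent.Lib.Helper59.QuatHom

set_option autoImplicit false
open Cfsg

namespace Cfsg.Agent.S4211

variable {G : Type*} [Group G]

theorem pow_mul_class_two (x y c : G) (hc : y * x = c * (x * y)) (hcy : Commute c y) (k : ℕ) :
    y ^ k * x = c ^ k * (x * y ^ k) := by
  induction k with
  | zero => simp
  | succ k ih =>
    have h1 : y * c ^ k = c ^ k * y := ((hcy.pow_left k).eq).symm
    calc y ^ (k + 1) * x = y * (y ^ k * x) := by rw [pow_succ']; group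
      _ = y * (c ^ k * (x * y ^ k)) := by rw [ih]
      _ = (y * c ^ k) * x * y ^ k := by group
      _ = c ^ k * (y * x) * y ^ k := by rw [h1]; group
      _ = c ^ k * (c * (x * y)) * y ^ k := by rw [hc]
      _ = c ^ (k + 1) * (x * y ^ (k + 1)) := by rw [pow_succ, pow_succ']; group

theorem mul_pow_class_two' (x y c : G) (hc : y * x = c * (x * y)) (hcx : Commute c x) (k : ℕ) :
    y * x ^ k = c ^ k * (x ^ k * y) := by
  induction k with
  | zero => simp
  | succ k ih =>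
    have h1 : x ^ k * c = c * x ^ k := ((hcx.pow_right k).eq).symm
    calc y * x ^ (k + 1) = (y * x ^ k) * x := by rw [pow_succ]; group
      _ = c ^ k * (x ^ k * y) * x := by rw [ih]
      _ = c ^ k * x ^ k * (y * x) := by group
      _ = c ^ k * x ^ k * (c * (x * y)) := by rw [hc]
      _ = c ^ k * (x ^ k * c) * x * y := by group
      _ = c ^ k * (c * x ^ k) * x * y := by rw [h1]
      _ = c ^ (k + 1) * (x ^ (k + 1) * y) := by rw [pow_succ, pow_succ]; group

theorem mul_pow_class_two (x y c : G) (hc : y * x = c * (x * y)) (hcx : Commute c x)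
    (hcy : Commute c y) (n : ℕ) :
    (x * y) ^ n = c ^ (n.choose 2) * (x ^ n * y ^ n) := by
  induction n with
  | zero => simp
  | succ n ih =>
    have e : (n + 1).choose 2 = n.choose 2 + n := by
      rw [Nat.choose_succ_succ' n 1, Nat.choose_one_right, add_comm]
    have h2 : x ^ n * c ^ n = c ^ n * x ^ n := ((hcx.pow_pow n n).eq).symm
    calc (x * y) ^ (n + 1) = (x * y) ^ n * (x * y) := pow_succ _ _
      _ = c ^ (n.choose 2) * (x ^ n * y ^ n) * (x * y) := by rw [ih]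
      _ = c ^ (n.choose 2) * x ^ n * (y ^ n * x) * y := by group
      _ = c ^ (n.choose 2) * x ^ n * (c ^ n * (x * y ^ n)) * y := by
          rw [pow_mul_class_two x y c hc hcy]
      _ = c ^ (n.choose 2) * (x ^ n * c ^ n) * x * y ^ n * y := by group
      _ = c ^ (n.choose 2) * (c ^ n * x ^ n) * x * y ^ n * y := by rw [h2]
      _ = c ^ ((n + 1).choose 2) * (x ^ (n + 1) * y ^ (n + 1)) := by
        rw [e, pow_add, pow_succ x, pow_succ y]; group

/-- An element of prime order `p` of `zpowers x`, where `x` has order `p * m`, generates the same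
subgroup as `x ^ m`. -/
theorem zpowers_eq_of_prime_order [Finite G] {p m : ℕ} (hp : p.Prime) (x c : G)
    (hx : orderOf x = p * m) (hcx : c ∈ Subgroup.zpowers x) (hc : orderOf c = p) :
    Subgroup.zpowers c = Subgroup.zpowers (x ^ m) := by
  have hm : 0 < m := by
    rcases Nat.eq_zero_or_pos m with h | h
    · rw [h, mul_zero] at hx
      exact absurd hx (orderOf_pos x).ne'
    · exact h
  obtain ⟨k, hk⟩ := (mem_powers_iff_mem_zpowers).mpr hcx
  have hk' : x ^ k = c := hk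
  have h1 : (x ^ k) ^ p = 1 := by rw [hk', ← hc]; exact pow_orderOf_eq_one _
  rw [← pow_mul] at h1
  have h2 : p * m ∣ k * p := by rw [← hx]; exact orderOf_dvd_of_pow_eq_one h1
  have h3 : m ∣ k := by
    rw [mul_comm k p] at h2
    exact Nat.dvd_of_mul_dvd_mul_left hp.pos h2
  obtain ⟨j, rfl⟩ := h3
  apply Subgroup.eq_of_le_of_card_ge
  · rw [Subgroup.zpowers_le, ← hk', pow_mul]
    exact Subgroup.pow_mem _ (Subgroup.mem_zpowers _) _
  · rw [Nat.card_zpowers, Nat.card_zpowers, hc, orderOf_pow' x hm.ne', hx,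
      Nat.gcd_eq_right (Dvd.intro_left p rfl), Nat.mul_div_cancel _ hm]

theorem arith_aux {p b' s i : ℕ} (hp : p.Prime)
    (h : ¬ p ∣ p ^ s * i * (p ^ b').choose 2) : p = 2 ∧ b' = 1 ∧ s = 0 := by
  have hs : s = 0 := by
    by_contra hs
    exact h (Dvd.dvd.mul_right (Dvd.dvd.mul_right (dvd_pow_self p hs) _) _)
  have hC : ¬ p ∣ (p ^ b').choose 2 := fun h' => h (Dvd.dvd.mul_left h' _)
  have hb : b' ≠ 0 := by
    rintro rfl
    apply hC
    simp
  obtain ⟨b, rfl⟩ := Nat.exists_eq_succ_of_ne_zero hb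
  have h2 : 2 * (p ^ (b + 1)).choose 2 = p ^ (b + 1) * (p ^ (b + 1) - 1) := by
    rw [Nat.choose_two_right]
    exact Nat.mul_div_cancel' (Nat.even_mul_pred_self _).two_dvd
  have hp2 : p = 2 := by
    by_contra hne
    have h3 : p ∣ 2 * (p ^ (b + 1)).choose 2 := by
      rw [h2]; exact Dvd.dvd.mul_right (dvd_pow_self p (Nat.succ_ne_zero b)) _
    rcases (Nat.Prime.dvd_mul hp).mp h3 with h4 | h4
    · exact hne ((Nat.prime_dvd_prime_iff_eq hp Nat.prime_two).mp h4)
    · exact hC h4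
  subst hp2
  refine ⟨rfl, ?_, hs⟩
  by_contra hb1
  have hb0 : b ≠ 0 := fun h0 => hb1 (by rw [h0])
  apply hC
  have h5 : (2 ^ (b + 1)).choose 2 = 2 ^ b * (2 ^ (b + 1) - 1) := by
    have : 2 * (2 ^ (b + 1)).choose 2 = 2 * (2 ^ b * (2 ^ (b + 1) - 1)) := by
      rw [h2, ← mul_assoc, ← pow_succ']
    exact Nat.eq_of_mul_eq_mul_left (by norm_num) this
  rw [h5]
  exact Dvd.dvd.mul_right (dvd_pow_self 2 hb0) _

theorem eq_of_mem_zpowers_of_orderOf_two (u v : G) (hu : orderOf u = 2) (hv : v ≠ 1)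
    (h : v ∈ Subgroup.zpowers u) : v = u := by
  have hu2 : u ^ (2 : ℤ) = 1 := by
    have := pow_orderOf_eq_one u
    rw [hu] at this
    exact_mod_cast this
  obtain ⟨k, hk⟩ := Subgroup.mem_zpowers_iff.mp h
  rcases Int.even_or_odd' k with ⟨j, rfl | rfl⟩
  · rw [zpow_mul, hu2, one_zpow] at hk
    exact absurd hk.symm hv
  · rw [zpow_add, zpow_mul, hu2, one_zpow, one_mul, zpow_one] at hk
    exact hk.symm

theorem key [Finite G] (hn : ∀ H : Subgroup G, H.Normal) (x y : G) (hxy : x * y ≠ y * x)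
    (hmin : ∀ x' y' : G, x' * y' ≠ y' * x' → orderOf x + orderOf y ≤ orderOf x' + orderOf y')
    (hle : orderOf y ≤ orderOf x) :
    orderOf x = 4 ∧ y * y = x ^ 2 ∧ y * x * y⁻¹ = x⁻¹ := by
  obtain ⟨c, hcdef⟩ : ∃ c : G, c = y * x * y⁻¹ * x⁻¹ := ⟨_, rfl⟩
  have hc : y * x = c * (x * y) := by rw [hcdef]; group
  have hcx : c ∈ Subgroup.zpowers x := by
    have h1 : y * x * y⁻¹ ∈ Subgroup.zpowers x := (hn _).conj_mem _ (Subgroup.mem_zpowers x) y
    rw [hcdef]
    exact Subgroup.mul_mem _ h1 (Subgroup.inv_mem _ (Subgroup.mem_zpowers x))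
  have hcy : c ∈ Subgroup.zpowers y := by
    have h1 : x * y⁻¹ * x⁻¹ ∈ Subgroup.zpowers y :=
      (hn _).conj_mem _ (Subgroup.inv_mem _ (Subgroup.mem_zpowers y)) x
    have h2 : c = y * (x * y⁻¹ * x⁻¹) := by rw [hcdef]; group
    rw [h2]
    exact Subgroup.mul_mem _ (Subgroup.mem_zpowers y) h1
  have hcomx : Commute c x := by
    obtain ⟨k, hk⟩ := Subgroup.mem_zpowers_iff.mp hcx
    rw [← hk]; exact (Commute.refl x).zpow_left k
  have hcomy : Commute c y := by
    obtain ⟨k, hk⟩ := Subgroup.mem_zpowers_iff.mp hcy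
    rw [← hk]; exact (Commute.refl y).zpow_left k
  have hc1 : c ≠ 1 := by
    intro h; rw [h, one_mul] at hc; exact hxy hc.symm
  have hqx : ∀ q : ℕ, q.Prime → q ∣ orderOf x → c ^ q = 1 := by
    intro q hq hdvd
    have h1 : orderOf (x ^ q) < orderOf x := by
      rw [orderOf_pow_of_dvd hq.ne_zero hdvd]
      exact Nat.div_lt_self (orderOf_pos x) hq.one_lt
    have h2 : x ^ q * y = y * x ^ q := by
      by_contra h
      have := hmin _ _ h
      omega
    have h3 := mul_pow_class_two' x y c hc hcomx q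
    rw [← h2] at h3
    exact mul_eq_right.mp h3.symm
  have hqy : ∀ q : ℕ, q.Prime → q ∣ orderOf y → c ^ q = 1 := by
    intro q hq hdvd
    have h1 : orderOf (y ^ q) < orderOf y := by
      rw [orderOf_pow_of_dvd hq.ne_zero hdvd]
      exact Nat.div_lt_self (orderOf_pos y) hq.one_lt
    have h2 : x * y ^ q = y ^ q * x := by
      by_contra h
      have := hmin _ _ h
      omega
    have h3 := pow_mul_class_two x y c hc hcomy q
    rw [← h2] at h3
    exact mul_eq_right.mp h3.symm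
  have hq : ∀ q : ℕ, q.Prime → c ^ q = 1 → q = orderOf c := by
    intro q hq h
    rcases (Nat.dvd_prime hq).mp (orderOf_dvd_of_pow_eq_one h) with h1 | h1
    · exact absurd (orderOf_eq_one_iff.mp h1) hc1
    · exact h1.symm
  have hx1 : orderOf x ≠ 1 := by
    intro h
    rw [orderOf_eq_one_iff] at h
    apply hxy; rw [h]; simp
  have hy1 : orderOf y ≠ 1 := by
    intro h
    rw [orderOf_eq_one_iff] at h
    apply hxy; rw [h]; simp
  obtain ⟨p, hpdef⟩ : ∃ p : ℕ, p = orderOf c := ⟨_, rfl⟩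
  rw [← hpdef] at hq
  have hp : p.Prime := by
    obtain ⟨q, hq1, hq2⟩ := Nat.exists_prime_and_dvd hx1
    rw [← hq q hq1 (hqx q hq1 hq2)]; exact hq1
  have hxa := Nat.eq_prime_pow_of_unique_prime_dvd (p := p) (orderOf_pos x).ne'
    (fun {d} hd hdv => hq d hd (hqx d hd hdv))
  have hyb := Nat.eq_prime_pow_of_unique_prime_dvd (p := p) (orderOf_pos y).ne'
    (fun {d} hd hdv => hq d hd (hqy d hd hdv))
  obtain ⟨a, ha⟩ : ∃ a : ℕ, a = (orderOf x).primeFactorsList.length := ⟨_, rfl⟩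
  obtain ⟨b, hb⟩ : ∃ b : ℕ, b = (orderOf y).primeFactorsList.length := ⟨_, rfl⟩
  rw [← ha] at hxa
  rw [← hb] at hyb
  have hba : b ≤ a := by
    rw [hxa, hyb] at hle
    exact (Nat.pow_le_pow_iff_right hp.one_lt).mp hle
  have hb0 : b ≠ 0 := by
    rintro rfl
    exact hy1 (by rw [hyb, pow_zero])
  obtain ⟨b', rfl⟩ := Nat.exists_eq_succ_of_ne_zero hb0
  obtain ⟨s, rfl⟩ := Nat.exists_eq_add_of_le hba
  obtain ⟨N, hN⟩ : ∃ N : ℕ, N = p ^ b' := ⟨_, rfl⟩
  obtain ⟨t, ht⟩ : ∃ t : ℕ, t = p ^ s := ⟨_, rfl⟩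
  have hN0 : 0 < N := by rw [hN]; exact pow_pos hp.pos _
  have hy' : orderOf y = p * N := by rw [hyb, hN, pow_succ']
  have hx' : orderOf x = p * (t * N) := by
    rw [hxa, hN, ht, Nat.succ_eq_add_one]; ring
  have zc1 := zpowers_eq_of_prime_order hp x c hx' hcx hpdef.symm
  have zc2 := zpowers_eq_of_prime_order hp y c hy' hcy hpdef.symm
  have hmem : (y ^ N)⁻¹ ∈ Subgroup.zpowers (x ^ (t * N)) := by
    rw [← zc1, zc2]
    exact Subgroup.inv_mem _ (Subgroup.mem_zpowers _)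
  obtain ⟨i, hi⟩ := (mem_powers_iff_mem_zpowers).mpr hmem
  have hi' : (x ^ (t * N)) ^ i = (y ^ N)⁻¹ := hi
  have hd := mul_pow_class_two' x y c hc hcomx (t * i)
  have hpow := mul_pow_class_two (x ^ (t * i)) y (c ^ (t * i)) hd (hcomx.pow_pow _ _)
    (hcomy.pow_left _) N
  have hXN : (x ^ (t * i)) ^ N * y ^ N = 1 := by
    have : (x ^ (t * i)) ^ N = (x ^ (t * N)) ^ i := by
      rw [← pow_mul, ← pow_mul]; congr 1; ring
    rw [this, hi', inv_mul_cancel]
  rw [hXN, mul_one, ← pow_mul] at hpow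
  have hnc : x * (x ^ (t * i) * y) ≠ (x ^ (t * i) * y) * x := by
    intro h
    apply hxy
    have h1 : x * x ^ (t * i) = x ^ (t * i) * x := ((Commute.refl x).pow_right _).eq
    rw [← mul_assoc, h1, mul_assoc, mul_assoc] at h
    exact mul_left_cancel h
  have hm := hmin _ _ hnc
  have hne : (x ^ (t * i) * y) ^ N ≠ 1 := by
    intro h
    have h1 := Nat.le_of_dvd hN0 (orderOf_dvd_of_pow_eq_one h)
    have h2 : N < p * N := by
      have := hp.one_lt
      nlinarith
    omega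
  have hnd : ¬ p ∣ p ^ s * i * (p ^ b').choose 2 := by
    intro h
    apply hne
    rw [hpow, ht, hN]
    apply orderOf_dvd_iff_pow_eq_one.mp
    rw [← hpdef]
    exact h
  obtain ⟨rfl, rfl, rfl⟩ := arith_aux hp hnd
  have hx4 : orderOf x = 4 := by rw [hxa]; norm_num
  have hy4 : orderOf y = 4 := by rw [hyb]; norm_num
  have hx2 : orderOf (x ^ 2) = 2 := by
    rw [orderOf_pow_of_dvd (by norm_num) (by rw [hx4]; norm_num), hx4]
  have hy2 : orderOf (y ^ 2) = 2 := by
    rw [orderOf_pow_of_dvd (by norm_num) (by rw [hy4]; norm_num), hy4]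
  have hcx2 : c = x ^ 2 := by
    apply eq_of_mem_zpowers_of_orderOf_two _ _ hx2 hc1
    have : Subgroup.zpowers c = Subgroup.zpowers (x ^ 2) := by
      rw [zc1, ht, hN]; norm_num
    rw [← this]; exact Subgroup.mem_zpowers c
  have hcy2 : c = y ^ 2 := by
    apply eq_of_mem_zpowers_of_orderOf_two _ _ hy2 hc1
    have : Subgroup.zpowers c = Subgroup.zpowers (y ^ 2) := by
      rw [zc2, hN]; norm_num
    rw [← this]; exact Subgroup.mem_zpowers c
  refine ⟨hx4, ?_, ?_⟩
  · rw [← pow_two, ← hcy2, hcx2]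
  · have h4 : x ^ 4 = 1 := by rw [← hx4]; exact pow_orderOf_eq_one x
    have h5 : y * x * y⁻¹ = c * x := by rw [hcdef]; group
    rw [h5, hcx2, eq_inv_iff_mul_eq_one, ← pow_succ, ← pow_succ]
    exact h4

theorem exists_pair [Finite G] (hn : ∀ H : Subgroup G, H.Normal)
    (h : ∃ x y : G, x * y ≠ y * x) :
    ∃ x y : G, orderOf x = 4 ∧ y * y = x ^ 2 ∧ y * x * y⁻¹ = x⁻¹ := by
  classical
  obtain ⟨x0, y0, h0⟩ := h
  have hex : ∃ n, ∃ x y : G, x * y ≠ y * x ∧ orderOf x + orderOf y = n :=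
    ⟨_, x0, y0, h0, rfl⟩
  obtain ⟨x, y, hxy, hn'⟩ := Nat.find_spec hex
  have hmin : ∀ x' y' : G, x' * y' ≠ y' * x' →
      orderOf x + orderOf y ≤ orderOf x' + orderOf y' := fun x' y' h => by
    rw [hn']; exact Nat.find_min' hex ⟨x', y', h, rfl⟩
  rcases le_total (orderOf y) (orderOf x) with hle | hle
  · exact ⟨x, y, key hn x y hxy hmin hle⟩
  · exact ⟨y, x, key hn y x hxy.symm
      (fun x' y' h => by rw [add_comm]; exact hmin x' y' h) hle⟩

theorem conj_eq_or_inv [Finite G] (hn : ∀ H : Subgroup G, H.Normal) (u g : G)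
    (hu : orderOf u = 4) : g * u * g⁻¹ = u ∨ g * u * g⁻¹ = u⁻¹ := by
  have u4 : u ^ 4 = 1 := by rw [← hu]; exact pow_orderOf_eq_one u
  have u2 : u ^ 2 ≠ 1 := pow_ne_one_of_lt_orderOf (by norm_num) (by rw [hu]; norm_num)
  have h1 : g * u * g⁻¹ ∈ Subgroup.zpowers u := (hn _).conj_mem _ (Subgroup.mem_zpowers u) g
  obtain ⟨k, hk⟩ := (mem_powers_iff_mem_zpowers).mpr h1
  have hk' : u ^ k = g * u * g⁻¹ := hk
  rw [pow_eq_pow_mod k u4] at hk'
  have hlt : k % 4 < 4 := Nat.mod_lt _ (by norm_num)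
  have hsq : (g * u * g⁻¹) ^ 2 ≠ 1 := by
    rw [conj_pow]
    intro h
    exact u2 (conj_eq_one_iff.mp h)
  interval_cases (k % 4)
  · exfalso; apply hsq; rw [← hk']; simp
  · left; rw [← hk', pow_one]
  · exfalso; apply hsq; rw [← hk', ← pow_mul]; exact u4
  · right; rw [← hk']; exact eq_inv_of_mul_eq_one_left (by rw [← pow_succ]; exact u4)

/-- The elements of exponent dividing `n` of an abelian subgroup. -/
def torsionIn (C : Subgroup G) (hC : ∀ a ∈ C, ∀ b ∈ C, a * b = b * a) (n : ℕ) : Subgroup G where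
  carrier := {g | g ∈ C ∧ g ^ n = 1}
  mul_mem' := fun {a b} ha hb => ⟨C.mul_mem ha.1 hb.1, by
    rw [(show Commute a b from hC a ha.1 b hb.1).mul_pow, ha.2, hb.2, one_mul]⟩
  one_mem' := ⟨C.one_mem, one_pow _⟩
  inv_mem' := fun {a} ha => ⟨C.inv_mem ha.1, by rw [inv_pow, ha.2, inv_one]⟩

theorem mem_torsionIn (C : Subgroup G) (hC : ∀ a ∈ C, ∀ b ∈ C, a * b = b * a) (n : ℕ) (g : G) :
    g ∈ torsionIn C hC n ↔ g ∈ C ∧ g ^ n = 1 := Iff.rfl

theorem eq_one_of_sq_of_odd_pow (g : G) (m : ℕ) (hm : Odd m) (h2 : g ^ 2 = 1) (hgm : g ^ m = 1) :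
    g = 1 := by
  obtain ⟨r, rfl⟩ := hm
  rw [pow_succ, pow_mul, h2, one_pow, one_mul] at hgm
  exact hgm

/-- A finite non-abelian group in which every subgroup is normal is the internal direct product of a subgroup isomorphic to the quaternion group of order `8`, an elementary abelian `2`-subgroup and an abelian subgroup of odd order. -/
theorem result {G : Type*} [Group G] [Finite G] (hna : ¬ IsMulCommutative G) (hn : ∀ H : Subgroup G, H.Normal) : ∃ Q E A : Subgroup G, Nonempty (Q ≃* QuaternionGroup 2) ∧ Cfsg.IsElementaryAbelian 2 E ∧ IsMulCommutative A ∧ Odd (Nat.card A) ∧ E ⊓ A = ⊥ ∧ Q ⊓ (E ⊔ A) = ⊥ ∧ Q ⊔ (E ⊔ A) = ⊤ := by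
  classical
  have hex : ∃ x y : G, x * y ≠ y * x := by
    by_contra h
    push Not at h
    exact hna ⟨⟨h⟩⟩
  obtain ⟨x, y, hx4, hyy, hconj⟩ := exists_pair hn hex
  have x4 : x ^ 4 = 1 := by rw [← hx4]; exact pow_orderOf_eq_one x
  have x2 : x ^ 2 ≠ 1 := pow_ne_one_of_lt_orderOf (by norm_num) (by rw [hx4]; norm_num)
  have y2 : y ^ 2 = x ^ 2 := by rw [pow_two, hyy]
  have y4 : y ^ 4 = 1 := by
    rw [show 4 = 2 * 2 from rfl, pow_mul, y2, ← pow_mul]; exact x4
  have hy4 : orderOf y = 4 := by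
    have : Fact (Nat.Prime 2) := ⟨Nat.prime_two⟩
    exact orderOf_eq_prime_pow (p := 2) (n := 1) (by rw [pow_one, y2]; exact x2) (by simpa using y4)
  have hxy : x * y ≠ y * x := by
    intro h
    rw [← h, mul_inv_cancel_right] at hconj
    apply x2
    rw [pow_two]
    nth_rewrite 1 [hconj]
    exact inv_mul_cancel x
  have hconj' : x * y * x⁻¹ = y⁻¹ := by
    have h1 : y * x = x⁻¹ * y := by
      rw [← hconj]; group
    have h2 : x * y = y * x⁻¹ := by
      have : x * (y * x) * x⁻¹ = x * (x⁻¹ * y) * x⁻¹ := by rw [h1]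
      simpa [mul_assoc] using this
    have h3 : x⁻¹ * x⁻¹ = y⁻¹ * y⁻¹ := by
      rw [← mul_inv_rev, ← mul_inv_rev, hyy, pow_two]
    rw [h2, mul_assoc, h3, mul_inv_cancel_left]
  obtain ⟨C, hCdef⟩ : ∃ C : Subgroup G, C = Subgroup.centralizer ({x, y} : Set G) := ⟨_, rfl⟩
  have hCx : ∀ g ∈ C, x * g = g * x := by
    intro g hg
    rw [hCdef, Subgroup.mem_centralizer_iff] at hg
    exact hg x (by simp)
  have hCy : ∀ g ∈ C, y * g = g * y := by
    intro g hg
    rw [hCdef, Subgroup.mem_centralizer_iff] at hg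
    exact hg y (by simp)
  have hCmem : ∀ g, x * g = g * x → y * g = g * y → g ∈ C := by
    intro g h1 h2
    rw [hCdef, Subgroup.mem_centralizer_iff]
    intro h hh
    rcases hh with rfl | rfl
    · exact h1
    · exact h2
  have y3 : y ^ 3 = y⁻¹ := eq_inv_of_mul_eq_one_left (by rw [← pow_succ]; exact y4)
  have hB : ∀ g ∈ C, g ^ 4 = 1 → g ^ 2 = 1 := by
    intro g hg g4
    by_contra g2
    have hgy : Commute g y := (hCy g hg).symm
    have h1 : x * (g * y) * x⁻¹ ∈ Subgroup.zpowers (g * y) :=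
      (hn _).conj_mem _ (Subgroup.mem_zpowers _) x
    have h2 : x * (g * y) * x⁻¹ = g * y⁻¹ := by
      rw [← mul_assoc, hCx g hg, mul_assoc, mul_assoc, ← mul_assoc x y, hconj']
    rw [h2] at h1
    obtain ⟨k, hk⟩ := (mem_powers_iff_mem_zpowers).mpr h1
    have hk' : (g * y) ^ k = g * y⁻¹ := hk
    have h4 : (g * y) ^ 4 = 1 := by rw [hgy.mul_pow, g4, y4, one_mul]
    rw [pow_eq_pow_mod k h4, hgy.mul_pow] at hk'
    have hlt : k % 4 < 4 := Nat.mod_lt _ (by norm_num)
    have hgney : g ≠ y := by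
      rintro rfl
      exact hxy (hCx _ hg)
    interval_cases (k % 4)
    · apply hgney
      rw [pow_zero, pow_zero, one_mul] at hk'
      exact mul_inv_eq_one.mp hk'.symm
    · rw [pow_one, pow_one] at hk'
      have h5 : y = y⁻¹ := mul_left_cancel hk'
      apply x2
      rw [← y2, pow_two]
      nth_rewrite 1 [h5]
      exact inv_mul_cancel y
    · apply hgney
      rw [pow_two g, mul_assoc] at hk'
      have h5 : g * y ^ 2 = y⁻¹ := mul_left_cancel hk'
      have h6 : g * y ^ 3 = y * y ^ 3 := by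
        rw [← pow_succ' y 3, y4, pow_succ y 2, ← mul_assoc, h5, inv_mul_cancel]
      exact mul_right_cancel h6
    · rw [y3] at hk'
      have h5 : g ^ 3 = g := mul_right_cancel hk'
      apply g2
      rw [pow_succ] at h5
      exact mul_eq_right.mp h5
  have hCcomm : ∀ a ∈ C, ∀ b ∈ C, a * b = b * a := by
    by_contra h
    push Not at h
    obtain ⟨a, ha, b, hb, hab⟩ := h
    have hnC : ∀ H : Subgroup C, H.Normal := fun H => by
      have := (hn (H.map C.subtype)).comap C.subtype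
      rwa [Subgroup.comap_map_eq_self_of_injective C.subtype_injective] at this
    obtain ⟨u, v, hu4, -, -⟩ := exists_pair hnC
      ⟨⟨a, ha⟩, ⟨b, hb⟩, fun h => hab (congrArg Subtype.val h)⟩
    have hu4' : orderOf (u : G) = 4 := by rw [Subgroup.orderOf_coe]; exact hu4
    have := hB u u.2 (by rw [← hu4']; exact pow_orderOf_eq_one _)
    exact pow_ne_one_of_lt_orderOf (by norm_num) (by rw [hu4']; norm_num) this
  have hyx : y ∉ Subgroup.zpowers x := by
    intro h
    obtain ⟨k, hk⟩ := Subgroup.mem_zpowers_iff.mp h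
    apply hxy
    rw [← hk]
    exact ((Commute.refl x).zpow_right k).eq
  obtain ⟨F, hFinj, hFa, hFxa⟩ :=
    Cfsg.Agent.Lib.Helper59.exists_quaternion_hom 2 x y (by rw [hx4]) hyy hconj hyx
  have xQ : x ∈ F.range := ⟨QuaternionGroup.a 1, by have := hFa 1; simpa using this⟩
  have yQ : y ∈ F.range := ⟨QuaternionGroup.xa 0, by have := hFxa 0; simpa using this⟩
  have hA1 : ∀ g : G, ∃ q ∈ F.range, (g * q) * x * (g * q)⁻¹ = x := by
    intro g
    rcases conj_eq_or_inv hn x g hx4 with h | h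
    · exact ⟨1, one_mem _, by simpa using h⟩
    · refine ⟨y, yQ, ?_⟩
      have h1 : g * y * x * (g * y)⁻¹ = g * (y * x * y⁻¹) * g⁻¹ := by group
      have h' : g * x⁻¹ * g⁻¹ = (g * x * g⁻¹)⁻¹ := by group
      rw [h1, hconj, h', h, inv_inv]
  have hA2 : ∀ g : G, g * x * g⁻¹ = x → ∃ q ∈ F.range, g * q ∈ C := by
    intro g hg
    have hgx : x * g = g * x := (mul_inv_eq_iff_eq_mul.mp hg).symm
    rcases conj_eq_or_inv hn y g hy4 with h | h
    · refine ⟨1, one_mem _, ?_⟩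
      rw [mul_one]
      exact hCmem g hgx (mul_inv_eq_iff_eq_mul.mp h).symm
    · refine ⟨x, xQ, hCmem _ ?_ ?_⟩
      · rw [← mul_assoc, hgx]
      · have h1 : g * x * y * (g * x)⁻¹ = g * (x * y * x⁻¹) * g⁻¹ := by group
        have h' : g * y⁻¹ * g⁻¹ = (g * y * g⁻¹)⁻¹ := by group
        have h2 : g * x * y * (g * x)⁻¹ = y := by rw [h1, hconj', h', h, inv_inv]
        exact (mul_inv_eq_iff_eq_mul.mp h2).symm
  have hA : ∀ g : G, ∃ q ∈ F.range, g * q ∈ C := by
    intro g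
    obtain ⟨q1, hq1, h1⟩ := hA1 g
    obtain ⟨q2, hq2, h2⟩ := hA2 _ h1
    exact ⟨q1 * q2, mul_mem hq1 hq2, by rw [← mul_assoc]; exact h2⟩
  obtain ⟨k, m, hm, hcard⟩ := Nat.exists_eq_two_pow_mul_odd (Nat.card_pos (α := G)).ne'
  have h2pow : ∀ k : ℕ, ∀ g ∈ C, g ^ (2 ^ (k + 1)) = 1 → g ^ 2 = 1 := by
    intro k
    induction k with
    | zero => intro g _ h; simpa using h
    | succ k ih =>
      intro g hg h
      apply ih g hg
      have h1 : (g ^ (2 ^ k)) ^ 4 = 1 := by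
        rw [← pow_mul, ← h]; congr 1; ring
      have h2 := hB _ (C.pow_mem hg _) h1
      rw [← pow_mul, ← pow_succ] at h2
      exact h2
  have h2m : ∀ g ∈ C, (g ^ m) ^ 2 = 1 := by
    intro g hg
    apply h2pow k _ (C.pow_mem hg _)
    rw [← pow_mul, pow_succ, ← mul_assoc, mul_comm m, ← hcard, pow_mul, pow_card_eq_one', one_pow]
  obtain ⟨E₁, hE₁⟩ : ∃ E₁ : Subgroup G, E₁ = torsionIn C hCcomm 2 := ⟨_, rfl⟩
  obtain ⟨A, hAdef⟩ : ∃ A : Subgroup G, A = torsionIn C hCcomm m := ⟨_, rfl⟩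
  have memE₁ : ∀ g, g ∈ E₁ ↔ g ∈ C ∧ g ^ 2 = 1 := fun g => by rw [hE₁]; exact Iff.rfl
  have memA : ∀ g, g ∈ A ↔ g ∈ C ∧ g ^ m = 1 := fun g => by rw [hAdef]; exact Iff.rfl
  have hcC : x ^ 2 ∈ C := by
    apply hCmem
    · exact ((Commute.refl x).pow_right 2).eq
    · rw [← y2]; exact ((Commute.refl y).pow_right 2).eq
  have hcE₁ : x ^ 2 ∈ E₁ := (memE₁ _).mpr ⟨hcC, by rw [← pow_mul]; exact x4⟩
  obtain ⟨E, hE⟩ := (Set.toFinite {E : Subgroup G | E ≤ E₁ ∧ x ^ 2 ∉ E}).exists_maximal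
    ⟨⊥, bot_le, by rw [Subgroup.mem_bot]; exact x2⟩
  have hEle : E ≤ E₁ := hE.prop.1
  have hEc : x ^ 2 ∉ E := hE.prop.2
  have hEor : ∀ e ∈ E₁, e ∈ E ∨ e * x ^ 2 ∈ E := by
    intro e he
    by_contra hcon
    push Not at hcon
    obtain ⟨h1, h2⟩ := hcon
    have hlt : ¬ (E ⊔ Subgroup.zpowers e ≤ E₁ ∧ x ^ 2 ∉ E ⊔ Subgroup.zpowers e) := by
      intro h
      have := hE.eq_of_le h le_sup_left
      apply h1
      rw [this]
      exact (le_sup_right : Subgroup.zpowers e ≤ _) (Subgroup.mem_zpowers e)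
    have hle : E ⊔ Subgroup.zpowers e ≤ E₁ :=
      sup_le hEle (by rw [Subgroup.zpowers_le]; exact he)
    have hcm : x ^ 2 ∈ E ⊔ Subgroup.zpowers e := by
      by_contra h; exact hlt ⟨hle, h⟩
    have := hn (Subgroup.zpowers e)
    obtain ⟨u, hu, z, hz, huz⟩ := Subgroup.mem_sup_of_normal_right.mp hcm
    have he1 : e ≠ 1 := by
      rintro rfl
      exact h1 E.one_mem
    have he2 : e ^ 2 = 1 := ((memE₁ e).mp he).2
    have hoe : orderOf e = 2 := orderOf_eq_prime he2 he1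
    by_cases hz1 : z = 1
    · rw [hz1, mul_one] at huz
      exact hEc (huz ▸ hu)
    · have hze := eq_of_mem_zpowers_of_orderOf_two e z hoe hz1 hz
      apply h2
      rw [← huz, hze, hCcomm u ((memE₁ u).mp (hEle hu)).1 e ((memE₁ e).mp he).1, ← mul_assoc,
        ← pow_two, he2, one_mul]
      exact hu
  refine ⟨F.range, E, A, ⟨(MonoidHom.ofInjective hFinj).symm⟩,
    ⟨⟨⟨fun a b => Subtype.ext (hCcomm _ ((memE₁ _).mp (hEle a.2)).1 _
      ((memE₁ _).mp (hEle b.2)).1)⟩⟩, fun a ha => ((memE₁ _).mp (hEle ha)).2⟩,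
    ⟨⟨fun a b => Subtype.ext (hCcomm _ ((memA _).mp a.2).1 _ ((memA _).mp b.2).1)⟩⟩,
    ?_, ?_, ?_, ?_⟩
  · by_contra hodd
    rw [Nat.not_odd_iff_even] at hodd
    have : Fact (Nat.Prime 2) := ⟨Nat.prime_two⟩
    obtain ⟨a, ha⟩ := exists_prime_orderOf_dvd_card' (G := A) 2 hodd.two_dvd
    have h1 : orderOf (a : G) = 2 := by rw [Subgroup.orderOf_coe]; exact ha
    have h2 : (a : G) ^ 2 = 1 := by rw [← h1]; exact pow_orderOf_eq_one _
    have h3 := eq_one_of_sq_of_odd_pow (a : G) m hm h2 ((memA _).mp a.2).2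
    rw [h3, orderOf_one] at h1
    norm_num at h1
  · rw [eq_bot_iff]
    intro g hg
    rw [Subgroup.mem_bot]
    exact eq_one_of_sq_of_odd_pow g m hm ((memE₁ _).mp (hEle hg.1)).2 ((memA _).mp hg.2).2
  · rw [eq_bot_iff]
    intro g hg
    obtain ⟨hgQ, hgEA⟩ := hg
    have := hn A
    obtain ⟨e, he, a, ha, hea⟩ := Subgroup.mem_sup_of_normal_right.mp hgEA
    have hgC : g ∈ C := by
      rw [← hea]; exact C.mul_mem ((memE₁ _).mp (hEle he)).1 ((memA _).mp ha).1
    have hg1c : g = 1 ∨ g = x ^ 2 := by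
      obtain ⟨q, rfl⟩ := hgQ
      rcases q with i | i
      · obtain ⟨k, rfl⟩ := ZMod.intCast_surjective i
        rw [hFa] at hgC ⊢
        rcases Int.even_or_odd' k with ⟨j, rfl | rfl⟩
        · have e1 : x ^ (2 * j) = (x ^ 2) ^ j := by
            rw [zpow_mul]; norm_cast
          rw [e1]
          rcases Int.even_or_odd' j with ⟨l, rfl | rfl⟩
          · left
            rw [zpow_mul]
            have : (x ^ 2) ^ (2 : ℤ) = 1 := by
              have : (x ^ 2) ^ 2 = 1 := by rw [← pow_mul]; exact x4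
              exact_mod_cast this
            rw [this, one_zpow]
          · right
            have : (x ^ 2) ^ (2 : ℤ) = 1 := by
              have : (x ^ 2) ^ 2 = 1 := by rw [← pow_mul]; exact x4
              exact_mod_cast this
            rw [zpow_add, zpow_mul, this, one_zpow, one_mul, zpow_one]
        · exfalso
          have e1 : x ^ (2 * j + 1) = (x ^ 2) ^ j * x := by
            rw [zpow_add, zpow_mul, zpow_one]; norm_cast
          have hxC : x ∈ C := by
            have : x = ((x ^ 2) ^ j)⁻¹ * x ^ (2 * j + 1) := by rw [e1]; group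
            rw [this]
            exact C.mul_mem (C.inv_mem (C.zpow_mem hcC _)) hgC
          exact hxy (hCy x hxC).symm
      · exfalso
        obtain ⟨k, rfl⟩ := ZMod.intCast_surjective i
        rw [hFxa] at hgC
        have h1 := hCx _ hgC
        have h2 : x ^ k * x = x * x ^ k := ((Commute.refl x).zpow_left k).eq
        rw [mul_assoc, h2, ← mul_assoc, ← mul_assoc] at h1
        exact hxy (mul_right_cancel h1)
    rcases hg1c with h | h
    · exact h
    · exfalso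
      have ha2 : a ^ 2 = 1 := by
        have h1 : a = e⁻¹ * x ^ 2 := by rw [← h, ← hea]; group
        have hmem : a ∈ E₁ := by rw [h1]; exact E₁.mul_mem (E₁.inv_mem (hEle he)) hcE₁
        exact ((memE₁ _).mp hmem).2
      have ha1 := eq_one_of_sq_of_odd_pow a m hm ha2 ((memA _).mp ha).2
      rw [ha1, mul_one] at hea
      apply hEc; rw [← h, ← hea]; exact he
  · rw [eq_top_iff]
    intro g _
    obtain ⟨q, hq, hgq⟩ := hA g
    obtain ⟨r, hr⟩ := hm
    have hQT : F.range ≤ F.range ⊔ (E ⊔ A) := le_sup_left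
    have hET : E ≤ F.range ⊔ (E ⊔ A) := le_trans le_sup_left le_sup_right
    have hAT : A ≤ F.range ⊔ (E ⊔ A) := le_trans le_sup_right le_sup_right
    have hw1 : (g * q) ^ m ∈ E₁ := (memE₁ _).mpr ⟨C.pow_mem hgq _, h2m _ hgq⟩
    have hw2 : ((g * q) ^ (2 * r))⁻¹ ∈ A := by
      refine (memA _).mpr ⟨C.inv_mem (C.pow_mem hgq _), ?_⟩
      rw [inv_pow, ← pow_mul, mul_comm (2 * r) m, ← mul_assoc, pow_mul, pow_mul, h2m _ hgq,
        one_pow, inv_one]
    have hw : g * q = (g * q) ^ m * ((g * q) ^ (2 * r))⁻¹ := by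
      rw [hr, pow_succ', mul_inv_cancel_right]
    have hw1T : (g * q) ^ m ∈ F.range ⊔ (E ⊔ A) := by
      rcases hEor _ hw1 with h | h
      · exact hET h
      · have : (g * q) ^ m = (g * q) ^ m * x ^ 2 * (x ^ 2)⁻¹ := by group
        rw [this]
        exact mul_mem (hET h) (inv_mem (hQT (pow_mem xQ 2)))
    have hg : g = (g * q) * q⁻¹ := by group
    rw [hg, hw]
    exact mul_mem (mul_mem hw1T (hAT hw2)) (inv_mem (hQT hq))

end Cfsg.Agent.S4211
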