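import Cfsg.Statements.S4212
import Mathlib
import Cfsg.Agent.Lib.Helper70.Frobenius
-- import your own Cfsg.Agent.* helpers here

set_option autoImplicit false
open Cfsg

namespace Cfsg.Agent.S4212

universe u
open Cfsg.Agent.Lib.Helper70 MulAction

theorem T1 {G : Type u} [Group G] [Finite G] (c : G) (hc : ∀ g : G, Commute c g) (n : ℕ)
    (hn : n.Coprime (orderOf c)) : Nat.gcd n (Nat.card G) ∣ Nat.card {x : G // x ^ n = c} := by
  obtain ⟨j, hj⟩ := exists_pow_eq_self_of_coprime hn
  have hj' : (c ^ j) ^ n = c := by rw [← pow_mul, mul_comm, pow_mul, hj]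
  have hcc : ∀ g : G, Commute g (c ^ j) := fun g => ((hc g).pow_left j).symm
  have e : {x : G // x ^ n = c} ≃ {x : G // x ^ n = 1} :=
    { toFun := fun x => ⟨x.1 * (c ^ j)⁻¹, by
        rw [((hcc x.1).inv_right).mul_pow, x.2, inv_pow, hj', mul_inv_cancel]⟩
      invFun := fun x => ⟨x.1 * c ^ j, by
        rw [(hcc x.1).mul_pow, x.2, hj', one_mul]⟩
      left_inv := fun x => by simp
      right_inv := fun x => by simp }
  rw [Nat.card_congr e]
  exact frobenius_gcd_dvd n

theorem orderOf_of_pow_prime_pow {G : Type*} [Group G] [Finite G] {y c : G} {p e : ℕ} (hp : p.Prime)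
    (hy : y ^ (p ^ e) = c) (hpc : p ∣ orderOf c) : orderOf y = p ^ e * orderOf c := by
  have h1 : orderOf c = orderOf y / Nat.gcd (orderOf y) (p ^ e) := by rw [← hy, orderOf_pow]
  have hg : Nat.gcd (orderOf y) (p ^ e) ∣ orderOf y := Nat.gcd_dvd_left _ _
  obtain ⟨j, hj, hj'⟩ := (Nat.dvd_prime_pow hp).mp (Nat.gcd_dvd_right (orderOf y) (p ^ e))
  have h2 : orderOf y = p ^ j * orderOf c := by
    rw [h1, hj', ← hj', Nat.mul_div_cancel' hg]
  rcases Nat.lt_or_ge j e with hlt | hge
  · exfalso
    obtain ⟨t, ht⟩ := hpc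
    have h3 : p ^ (j + 1) ∣ Nat.gcd (orderOf y) (p ^ e) := by
      apply Nat.dvd_gcd
      · rw [h2, ht, pow_succ]; exact ⟨t, by ring⟩
      · exact pow_dvd_pow p hlt
    rw [hj'] at h3
    have := (Nat.pow_dvd_pow_iff_le_right hp.one_lt).mp h3
    omega
  · have : j = e := le_antisymm hj hge
    rw [h2, this]

theorem T2 {G : Type u} [Group G] [Finite G] (c : G) (p e : ℕ) (hp : p.Prime)
    (hpc : p ∣ orderOf c) : p ^ e ∣ Nat.card {x : G // x ^ (p ^ e) = c} := by
  classical
  have : Fintype (Subgroup G) := Fintype.ofFinite _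
  let f : {x : G // x ^ (p ^ e) = c} → Subgroup G := fun x => Subgroup.zpowers x.1
  rw [Nat.card_congr (Equiv.sigmaFiberEquiv f).symm, Nat.card_sigma]
  apply Finset.dvd_sum
  intro X _
  by_cases hX : Nonempty {x : {x : G // x ^ (p ^ e) = c} // f x = X}
  · obtain ⟨⟨⟨x, hx⟩, hxX⟩⟩ := hX
    have hxX' : Subgroup.zpowers x = X := hxX
    have hxmem : x ∈ X := hxX'.le (Subgroup.mem_zpowers x)
    have hcard : Nat.card X = p ^ e * orderOf c := by
      rw [← hxX', Nat.card_zpowers, orderOf_of_pow_prime_pow hp hx hpc]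
    have hcomm : ∀ a b : X, a * b = b * a := by
      rw [← hxX']
      intro a b
      exact (IsCyclic.commGroup (α := Subgroup.zpowers x)).mul_comm a b
    have e1 : {x : {x : G // x ^ (p ^ e) = c} // f x = X} ≃ {u : X // u ^ (p ^ e) = 1} :=
      { toFun := fun y => ⟨⟨y.1.1, by
            have h : Subgroup.zpowers y.1.1 = X := y.2
            exact h.le (Subgroup.mem_zpowers (y.1.1 : G))⟩ * ⟨x, hxmem⟩⁻¹, by
          have hc' : Commute (⟨y.1.1, by
            have h : Subgroup.zpowers y.1.1 = X := y.2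
            exact h.le (Subgroup.mem_zpowers (y.1.1 : G))⟩ : X) (⟨x, hxmem⟩⁻¹ : X) := hcomm _ _
          rw [hc'.mul_pow]
          apply Subtype.ext
          simp [y.1.2, hx]⟩
        invFun := fun u => ⟨⟨(u.1 : G) * x, by
            have hc' : Commute (u.1 : X) (⟨x, hxmem⟩ : X) := hcomm _ _
            have hc'' : Commute (u.1 : G) x := congrArg Subtype.val hc'.eq
            rw [hc''.mul_pow, hx]
            have := congrArg Subtype.val u.2
            simp only [Subgroup.coe_pow, Subgroup.coe_one] at this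
            rw [this, one_mul]⟩, by
          have hc' : Commute (u.1 : X) (⟨x, hxmem⟩ : X) := hcomm _ _
          have hc'' : Commute (u.1 : G) x := congrArg Subtype.val hc'.eq
          have hpow : ((u.1 : G) * x) ^ (p ^ e) = c := by
            rw [hc''.mul_pow, hx]
            have := congrArg Subtype.val u.2
            simp only [Subgroup.coe_pow, Subgroup.coe_one] at this
            rw [this, one_mul]
          change Subgroup.zpowers ((u.1 : G) * x) = X
          apply Subgroup.eq_of_le_of_card_ge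
          · rw [Subgroup.zpowers_le]; exact X.mul_mem u.1.2 hxmem
          · rw [Nat.card_zpowers, orderOf_of_pow_prime_pow hp hpow hpc, hcard]⟩
        left_inv := fun y => by
          apply Subtype.ext; apply Subtype.ext; simp
        right_inv := fun u => by
          apply Subtype.ext; apply Subtype.ext; simp }
    rw [Nat.card_congr e1]
    have h1 := frobenius_dvd (G := X) (p ^ e) (by rw [hcard]; exact dvd_mul_right _ _)
    exact h1
  · rw [not_nonempty_iff] at hX
    simp

theorem commute_of_pow_eq {G : Type u} [Group G] {x c : G} {n : ℕ} (h : x ^ n = c) :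
    x * c = c * x := by
  subst h
  exact ((Commute.refl x).pow_right n).eq

theorem card_pow_eq_centralizer {G : Type u} [Group G] (c : G) (n : ℕ) :
    Nat.card {x : G // x ^ n = c} =
      Nat.card {x : Subgroup.centralizer ({c} : Set G) //
        x ^ n = ⟨c, Subgroup.mem_centralizer_singleton_iff.mpr rfl⟩} := by
  apply Nat.card_congr
  exact
    { toFun := fun x => ⟨⟨x.1, Subgroup.mem_centralizer_singleton_iff.mpr (commute_of_pow_eq x.2)⟩,
        Subtype.ext x.2⟩
      invFun := fun x => ⟨x.1.1, congrArg Subtype.val x.2⟩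
      left_inv := fun x => rfl
      right_inv := fun x => rfl }

theorem central_in_centralizer {G : Type u} [Group G] (c : G)
    (g : Subgroup.centralizer ({c} : Set G)) :
    Commute (⟨c, Subgroup.mem_centralizer_singleton_iff.mpr rfl⟩ :
      Subgroup.centralizer ({c} : Set G)) g := by
  apply Subtype.ext
  exact (Subgroup.mem_centralizer_singleton_iff.mp g.2).symm

theorem T3 {G : Type u} [Group G] [Finite G] (c : G) (hc : ∀ g : G, Commute c g) (p e : ℕ)
    (hp : p.Prime) : Nat.gcd (p ^ e) (Nat.card G) ∣ Nat.card {x : G // x ^ (p ^ e) = c} := by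
  by_cases hpc : p ∣ orderOf c
  · exact (Nat.gcd_dvd_left _ _).trans (T2 c p e hp hpc)
  · exact T1 c hc _ (((Nat.Prime.coprime_iff_not_dvd hp).mpr hpc).pow_left e)

theorem T4 {G : Type u} [Group G] [Finite G] (c : G) (p e : ℕ) (hp : p.Prime) :
    Nat.gcd (p ^ e) (Nat.card (Subgroup.centralizer ({c} : Set G))) ∣
      Nat.card {x : G // x ^ (p ^ e) = c} := by
  rw [card_pow_eq_centralizer]
  exact T3 _ (central_in_centralizer c) p e hp

theorem card_pow_eq_conj {G : Type u} [Group G] (g y : G) (n : ℕ) :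
    Nat.card {x : G // x ^ n = g * y * g⁻¹} = Nat.card {x : G // x ^ n = y} := by
  apply Nat.card_congr
  exact
    { toFun := fun x => ⟨g⁻¹ * x.1 * g, by
        have := conj_pow (a := g⁻¹) (b := x.1) (i := n)
        rw [inv_inv] at this
        rw [this, x.2]; group⟩
      invFun := fun x => ⟨g * x.1 * g⁻¹, by rw [conj_pow, x.2]⟩
      left_inv := fun x => by apply Subtype.ext; simp [mul_assoc]
      right_inv := fun x => by apply Subtype.ext; simp [mul_assoc] }

theorem T5 {G : Type u} [Group G] [Finite G] (c : G) (hc : ∀ g : G, Commute c g) (n : ℕ)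
    (hn : n ≠ 0) : Nat.gcd n (Nat.card G) ∣ Nat.card {x : G // x ^ n = c} := by
  classical
  rw [Nat.dvd_iff_prime_pow_dvd_dvd]
  intro p k hp hpk
  have hpkn : p ^ k ∣ n := hpk.trans (Nat.gcd_dvd_left _ _)
  have hpkG : p ^ k ∣ Nat.card G := hpk.trans (Nat.gcd_dvd_right _ _)
  obtain ⟨e, n2, hpn2, rfl⟩ := Nat.exists_eq_pow_mul_and_not_dvd hn p hp.ne_one
  have hke : p ^ k ∣ p ^ e :=
    (((Nat.Prime.coprime_iff_not_dvd hp).mpr hpn2).pow_left k).dvd_of_dvd_mul_right hpkn
  have hQ : ∀ g y : G, y ^ n2 = c → (g * y * g⁻¹) ^ n2 = c := by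
    intro g y hy
    rw [conj_pow, hy, ← (hc g).eq, mul_inv_cancel_right]
  let Y := conjSub (fun y : G => y ^ n2 = c) hQ
  have : Fintype Y := Fintype.ofFinite _
  let e1 : {x : G // x ^ (p ^ e * n2) = c} ≃ Σ y : Y, {x : G // x ^ (p ^ e) = (y : G)} :=
    { toFun := fun x => ⟨⟨x.1 ^ (p ^ e), by
          change (x.1 ^ (p ^ e)) ^ n2 = c
          rw [← pow_mul]; exact x.2⟩, ⟨x.1, rfl⟩⟩
      invFun := fun w => ⟨w.2.1, by
          rw [pow_mul, w.2.2]; exact w.1.2⟩
      left_inv := fun x => rfl
      right_inv := fun w => by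
        obtain ⟨⟨y, hy⟩, ⟨x, hx⟩⟩ := w
        exact Sigma.subtype_ext (Subtype.ext hx) rfl }
  rw [Nat.card_congr e1, Nat.card_sigma]
  apply dvd_sum_of_orbit (G := ConjAct G)
  · intro g y
    exact card_pow_eq_conj (ConjAct.ofConjAct g) (y : G) (p ^ e)
  · intro y
    have h1 : Nat.card (orbit (ConjAct G) y) = (Subgroup.centralizer ({(y : G)} : Set G)).index := by
      rw [Nat.card_coe_set_eq, ← index_stabilizer, SubMulAction.stabilizer_of_subMul,
        ConjAct.stabilizer_eq_centralizer]
      rfl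
    rw [h1]
    have h2 := T4 (y : G) p e hp
    have h3 : p ^ k ∣ (Subgroup.centralizer ({(y : G)} : Set G)).index *
        Nat.gcd (p ^ e) (Nat.card (Subgroup.centralizer ({(y : G)} : Set G))) := by
      rw [← Nat.gcd_mul_left]
      apply Nat.dvd_gcd (Dvd.dvd.mul_left hke _)
      rw [mul_comm, Subgroup.card_mul_index]
      exact hpkG
    exact h3.trans (Nat.mul_dvd_mul_left _ h2)

theorem T6 {G : Type u} [Group G] [Finite G] (c : G) (n : ℕ) (hn : n ≠ 0) :
    Nat.gcd n (Nat.card (Subgroup.centralizer ({c} : Set G))) ∣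
      Nat.card {x : G // x ^ n = c} := by
  rw [card_pow_eq_centralizer]
  exact T5 _ (central_in_centralizer c) n hn

theorem T7 {G : Type u} [Group G] [Finite G] (c : G) (n : ℕ) :
    Nat.gcd (Nat.card {y : G // IsConj c y} * n) (Nat.card G) ∣
      Nat.card {x : G // IsConj c (x ^ n)} := by
  classical
  rcases Nat.eq_zero_or_pos n with rfl | hn
  · simp only [mul_zero, Nat.gcd_zero_left, pow_zero]
    by_cases h : IsConj c 1
    · have : Nat.card {x : G // IsConj c 1} = Nat.card G :=
        Nat.card_congr (Equiv.subtypeUnivEquiv (fun _ => h))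
      rw [this]
    · have : IsEmpty {x : G // IsConj c 1} := ⟨fun x => h x.2⟩
      rw [Nat.card_of_isEmpty (α := {x : G // IsConj c 1})]
      exact dvd_zero _
  have : Fintype {y : G // IsConj c y} := Fintype.ofFinite _
  let e1 : {x : G // IsConj c (x ^ n)} ≃ Σ y : {y : G // IsConj c y}, {x : G // x ^ n = (y : G)} :=
    { toFun := fun x => ⟨⟨x.1 ^ n, x.2⟩, ⟨x.1, rfl⟩⟩
      invFun := fun w => ⟨w.2.1, by rw [w.2.2]; exact w.1.2⟩
      left_inv := fun x => rfl
      right_inv := fun w => by
        obtain ⟨⟨y, hy⟩, ⟨x, hx⟩⟩ := w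
        exact Sigma.subtype_ext (Subtype.ext hx) rfl }
  have hfib : ∀ y : {y : G // IsConj c y},
      Nat.card {x : G // x ^ n = (y : G)} = Nat.card {x : G // x ^ n = c} := by
    rintro ⟨y, hy⟩
    obtain ⟨g, rfl⟩ := isConj_iff.mp hy
    exact card_pow_eq_conj g c n
  rw [Nat.card_congr e1, Nat.card_sigma, Finset.sum_congr rfl (fun y _ => hfib y), Finset.sum_const,
    Finset.card_univ, smul_eq_mul, ← Nat.card_eq_fintype_card]
  have hh : Nat.card {y : G // IsConj c y} = (Subgroup.centralizer ({c} : Set G)).index := by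
    have h1 : (Subgroup.centralizer ({c} : Set G)).index = (orbit (ConjAct G) c).ncard := by
      rw [← index_stabilizer, ConjAct.stabilizer_eq_centralizer]
      rfl
    rw [h1, ← Nat.card_coe_set_eq]
    apply Nat.card_congr
    apply Equiv.subtypeEquivRight
    intro y
    rw [ConjAct.mem_orbit_conjAct, isConj_comm]
  rw [hh]
  have hG : Nat.card G = (Subgroup.centralizer ({c} : Set G)).index *
      Nat.card (Subgroup.centralizer ({c} : Set G)) := by
    rw [mul_comm, Subgroup.card_mul_index]
  rw [hG, Nat.gcd_mul_left]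
  exact Nat.mul_dvd_mul_left _ (T6 c n hn.ne')

/-- Let `G` be a finite group of order `g`, `c` an element whose conjugacy class has `h` elements, and `n` a natural number. Then the number of elements `x` of `G` with `x^n` conjugate to `c` is a multiple of `gcd(hn, g)`. -/
theorem result {G : Type*} [Group G] [Finite G] (c : G) (n : ℕ) : Nat.gcd (Nat.card {y : G // IsConj c y} * n) (Nat.card G) ∣ Nat.card {x : G // IsConj c (x ^ n)} := by
  exact T7 c n

end Cfsg.Agent.S4212
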