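import Cfsg.Statements.S4214
import Mathlib
import Cfsg.Agent.Lib.Helper1.Hall
import Cfsg.Agent.Lib.Helper13.Basic
import Cfsg.Agent.Lib.Helper12.CoreFree
import Cfsg.Agent.S0043

set_option autoImplicit false
open Cfsg

namespace Cfsg.Agent.S4214

open scoped Pointwise
open Subgroup

variable {G : Type*} [Group G]

/-- conjugation action of `S` on a subgroup `A` it normalizes -/
@[reducible] def conjAct (S A : Subgroup G) (h : S ≤ normalizer (A : Set G)) : MulAction S A where
  smul s a := ⟨s * a * s⁻¹, (mem_normalizer_iff.mp (h s.2) a).mp a.2⟩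
  one_smul a := by apply Subtype.ext; change (1 : G) * a * (1 : G)⁻¹ = a; simp
  mul_smul s t a := by
    apply Subtype.ext
    change ((s : G) * t) * a * ((s : G) * t)⁻¹ = s * (t * a * (t : G)⁻¹) * (s : G)⁻¹
    group

theorem card_modEq_fix [Finite G] {r : ℕ} [Fact r.Prime] (S A : Subgroup G)
    (h : S ≤ normalizer (A : Set G)) (hS : IsPGroup r S) :
    Nat.card A ≡ Nat.card (A ⊓ centralizer (S : Set G) : Subgroup G) [MOD r] := by
  let _ := conjAct S A h
  have h1 := hS.card_modEq_card_fixedPoints A
  have e : MulAction.fixedPoints S A ≃ (A ⊓ centralizer (S : Set G) : Subgroup G) :=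
    { toFun := fun a => ⟨a.1.1, a.1.2, by
        change (a.1 : G) ∈ centralizer (S : Set G)
        rw [mem_centralizer_iff]
        intro s hs
        have h2 : (⟨s, hs⟩ : S) • a.1 = a.1 := a.2 ⟨s, hs⟩
        have h3 : s * (a.1 : G) * s⁻¹ = a.1 := congrArg Subtype.val h2
        calc s * (a.1 : G) = (s * a.1 * s⁻¹) * s := by group
          _ = a.1 * s := by rw [h3]⟩
      invFun := fun x => ⟨⟨x.1, x.2.1⟩, by
        intro s
        apply Subtype.ext
        change (s : G) * x.1 * (s : G)⁻¹ = x.1
        have := mem_centralizer_iff.mp x.2.2 s s.2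
        rw [this]; group⟩
      left_inv := fun a => rfl
      right_inv := fun x => rfl }
  rwa [Nat.card_congr e] at h1

theorem lemD [Finite G] (H : Subgroup G) (hs : Group.IsSolvable H) (hH : H ≠ ⊥) :
    ∃ (M S : Subgroup G) (r : ℕ), r.Prime ∧ M < H ∧ H ≤ normalizer (M : Set G) ∧ S ≤ H ∧
      IsPGroup r S ∧ r ∣ Nat.card H ∧ M ⊔ S = H := by
  have hnt : Nontrivial H := (Subgroup.nontrivial_iff_ne_bot H).mpr hH
  have hlt : commutator H < ⊤ := Group.IsSolvable.commutator_lt_top_of_nontrivial H
  obtain ⟨M₀, hM₀, hle⟩ := (eq_top_or_exists_le_coatom (commutator H)).resolve_left hlt.ne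
  have hn : M₀.Normal := by
    constructor
    intro m hm g
    have h1 : g * m * g⁻¹ * m⁻¹ ∈ commutator H :=
      Subgroup.commutator_mem_commutator (mem_top g) (mem_top m)
    have := M₀.mul_mem (hle h1) hm
    simpa using this
  have hidx : M₀.index ≠ 1 := fun h => hM₀.1 (index_eq_one.mp h)
  obtain ⟨r, hr, hrd⟩ := Nat.exists_prime_and_dvd hidx
  have : Fact r.Prime := ⟨hr⟩
  obtain ⟨S₀⟩ : Nonempty (Sylow r H) := inferInstance
  have hS₀ : ¬ (S₀ : Subgroup H) ≤ M₀ := by
    intro h
    exact S₀.not_dvd_index (hrd.trans (index_dvd_of_le h))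
  have hsup : M₀ ⊔ (S₀ : Subgroup H) = ⊤ := by
    apply hM₀.2
    refine lt_of_le_of_ne le_sup_left ?_
    intro h
    apply hS₀
    rw [h]; exact le_sup_right
  refine ⟨M₀.map H.subtype, (S₀ : Subgroup H).map H.subtype, r, hr, ?_, ?_, map_subtype_le _,
    S₀.2.map _, hrd.trans (index_dvd_card M₀), ?_⟩
  · refine lt_of_le_of_ne (map_subtype_le _) ?_
    intro h
    apply hM₀.1
    rw [eq_top_iff]
    intro x _
    have : (x : G) ∈ M₀.map H.subtype := by rw [h]; exact x.2
    obtain ⟨y, hy, hxy⟩ := this
    have : y = x := Subtype.ext hxy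
    rwa [← this]
  · intro g hg
    rw [mem_normalizer_iff]
    intro x
    constructor
    · rintro ⟨y, hy, rfl⟩
      exact ⟨⟨g, hg⟩ * y * ⟨g, hg⟩⁻¹, hn.conj_mem y hy _, rfl⟩
    · rintro ⟨y, hy, hxy⟩
      refine ⟨⟨g, hg⟩⁻¹ * y * ⟨g, hg⟩, ?_, ?_⟩
      · have := hn.conj_mem y hy ⟨g, hg⟩⁻¹
        simpa using this
      · change g⁻¹ * (y : G) * g = x
        have : (y : G) = g * x * g⁻¹ := hxy
        rw [this]; group
  · rw [← Subgroup.map_sup, hsup, ← MonoidHom.range_eq_map, range_subtype]

theorem card_mul_relIndex' {H K : Subgroup G} (h : H ≤ K) :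
    Nat.card H * H.relIndex K = Nat.card K := by
  have := relIndex_mul_relIndex ⊥ H K bot_le h
  simpa [relIndex_bot_left] using this

theorem card_lt' [Finite G] {H K : Subgroup G} (h : H < K) : Nat.card H < Nat.card K :=
  lt_of_le_of_ne (card_le_of_le h.le) (fun e => h.ne (eq_of_le_of_card_ge h.le e.ge))

theorem centralizer_sup' (M S : Subgroup G) :
    centralizer ((M ⊔ S : Subgroup G) : Set G) = centralizer (M : Set G) ⊓ centralizer (S : Set G) := by
  apply le_antisymm
  · exact le_inf (centralizer_le (show (M : Set G) ⊆ ((M ⊔ S : Subgroup G) : Set G) from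
      (le_sup_left : M ≤ M ⊔ S))) (centralizer_le (show (S : Set G) ⊆ ((M ⊔ S : Subgroup G) : Set G) from
      (le_sup_right : S ≤ M ⊔ S)))
  · rw [le_centralizer_iff, sup_le_iff]
    constructor
    · rw [← le_centralizer_iff]; exact inf_le_left
    · rw [← le_centralizer_iff]; exact inf_le_right

theorem normalizer_le_centralizer' (M : Subgroup G) :
    normalizer (M : Set G) ≤ normalizer (centralizer (M : Set G) : Set G) := by
  have key : ∀ g ∈ normalizer (M : Set G), ∀ x ∈ centralizer (M : Set G),
      g * x * g⁻¹ ∈ centralizer (M : Set G) := by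
    intro g hg x hx
    rw [mem_centralizer_iff]
    intro y hy
    have hy' : g⁻¹ * y * g ∈ M := by
      have := (mem_normalizer_iff.mp (inv_mem hg) y).mp hy
      simpa using this
    have h1 := mem_centralizer_iff.mp hx _ hy'
    calc y * (g * x * g⁻¹) = g * ((g⁻¹ * y * g) * x) * g⁻¹ := by group
      _ = g * (x * (g⁻¹ * y * g)) * g⁻¹ := by rw [h1]
      _ = g * x * g⁻¹ * y := by group
  intro g hg
  rw [mem_normalizer_iff]
  intro x
  constructor
  · exact key g hg x
  · intro hx
    have := key g⁻¹ (inv_mem hg) _ hx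
    simpa [mul_assoc] using this

theorem lemC [Finite G] [Group.IsSolvable G] (N : Subgroup G) [N.Normal] (p a : ℕ) (hp : p.Prime)
    (hN : Nat.card N = p ^ a) : ∀ (c : ℕ) (H : Subgroup G), Nat.card H = c →
    (Nat.card H).Coprime p → ∃ l : List ℕ, (centralizer (H : Set G)).relIndex N = l.prod ∧
      ∀ x ∈ l, (∃ e : ℕ, x = p ^ e) ∧ x ∣ Nat.card N ∧
        ∃ r : ℕ, r.Prime ∧ r ∣ Nat.card H ∧ x ≡ 1 [MOD r] := by
  intro c
  induction c using Nat.strong_induction_on with
  | _ c ih =>
    intro H hc hcop
    by_cases hH : H = ⊥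
    · refine ⟨[], ?_, by simp⟩
      subst hH
      simp only [List.prod_nil, relIndex_eq_one]
      intro x _
      rw [mem_centralizer_iff]
      intro y hy
      have : y = 1 := hy
      rw [this]; simp
    · obtain ⟨M, S, r, hr, hMH, hnorm, hSH, hS, hrH, hsup⟩ := lemD H inferInstance hH
      have : Fact r.Prime := ⟨hr⟩
      have hMc : Nat.card M < c := by
        rw [← hc]
        exact card_lt' hMH
      have hMd : Nat.card M ∣ Nat.card H := card_dvd_of_le hMH.le
      obtain ⟨l, hl, hgood⟩ := ih _ hMc M rfl (Nat.Coprime.coprime_dvd_left hMd hcop)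
      let A : Subgroup G := N ⊓ centralizer (M : Set G)
      have hAS : S ≤ normalizer (A : Set G) := by
        intro s hs
        have h1 : s ∈ normalizer (centralizer (M : Set G) : Set G) :=
          normalizer_le_centralizer' M (hnorm (hSH hs))
        rw [mem_normalizer_iff] at h1 ⊢
        intro x
        constructor
        · intro hx
          exact ⟨‹N.Normal›.conj_mem x hx.1 s, (h1 x).mp hx.2⟩
        · intro hx
          refine ⟨?_, (h1 x).mpr hx.2⟩
          have := ‹N.Normal›.conj_mem _ hx.1 s⁻¹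
          simpa [mul_assoc] using this
      have hmod := card_modEq_fix S A hAS hS
      have hAe : A ⊓ centralizer (S : Set G) = N ⊓ centralizer (H : Set G) := by
        rw [← hsup, centralizer_sup', inf_assoc]
      rw [hAe] at hmod
      let x := (N ⊓ centralizer (H : Set G)).relIndex A
      have hle1 : N ⊓ centralizer (H : Set G) ≤ A := inf_le_inf_left _ (centralizer_le hMH.le)
      have hxc : Nat.card (N ⊓ centralizer (H : Set G) : Subgroup G) * x = Nat.card A :=
        card_mul_relIndex' hle1
      have hmul : x * A.relIndex N = (N ⊓ centralizer (H : Set G)).relIndex N :=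
        relIndex_mul_relIndex _ _ _ hle1 inf_le_left
      have hAN : Nat.card A ∣ Nat.card N := card_dvd_of_le inf_le_left
      have hxN : x ∣ Nat.card N := (Dvd.intro_left _ hxc).trans hAN
      have hrp : r ≠ p := by
        rintro rfl
        exact hr.one_lt.ne' (hcop.symm.eq_one_of_dvd hrH)
      have hBN : Nat.card (N ⊓ centralizer (H : Set G) : Subgroup G) ∣ p ^ a := by
        rw [← hN]; exact card_dvd_of_le inf_le_left
      have hBr : Nat.gcd r (Nat.card (N ⊓ centralizer (H : Set G) : Subgroup G)) = 1 := by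
        have h1 : (p ^ a).Coprime r := Nat.Coprime.pow_left a ((Nat.coprime_primes hp hr).mpr hrp.symm)
        exact (Nat.Coprime.coprime_dvd_left hBN h1).symm
      have hx1 : x ≡ 1 [MOD r] := by
        apply Nat.ModEq.cancel_left_of_coprime hBr
        rw [hxc, mul_one]; exact hmod
      refine ⟨x :: l, ?_, ?_⟩
      · rw [List.prod_cons, ← hl, ← inf_relIndex_left N (centralizer (H : Set G)), ← hmul,
          inf_relIndex_left]
      · intro y hy
        rcases List.mem_cons.mp hy with rfl | hy
        · refine ⟨?_, hxN, r, hr, hrH, hx1⟩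
          rw [hN] at hxN
          obtain ⟨e, -, he⟩ := (Nat.dvd_prime_pow hp).mp hxN
          exact ⟨e, he⟩
        · obtain ⟨h1, h2, r', hr', hr'M, h3⟩ := hgood y hy
          exact ⟨h1, h2, r', hr', hr'M.trans hMd, h3⟩

open Cfsg.Agent.Lib.Helper1 Cfsg.Agent.Lib.Helper12 in
theorem count_eq [Finite G] [Group.IsSolvable G] (m n : ℕ) (hG : Nat.card G = m * n)
    (hmn : m.Coprime n) (H : Subgroup G) (hH : Nat.card H = m) :
    Nat.card {K : Subgroup G // Nat.card K = m} = (normalizer (H : Set G)).index := by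
  let act : MulAction G {K : Subgroup G // Nat.card K = m} :=
    { smul := fun g K => ⟨MulAut.conj g • K.1, by rw [Cfsg.Agent.Lib.Helper12.card_conj_smul]; exact K.2⟩
      one_smul := fun K => by
        apply Subtype.ext; change MulAut.conj 1 • K.1 = K.1; simp
      mul_smul := fun g h K => by
        apply Subtype.ext
        change MulAut.conj (g * h) • K.1 = MulAut.conj g • MulAut.conj h • K.1
        rw [map_mul, mul_smul] }
  have : MulAction.IsPretransitive G {K : Subgroup G // Nat.card K = m} := ⟨fun K L => by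
    obtain ⟨g, hg⟩ := hall_conj m n hG hmn K.1 L.1 K.2 L.2
    exact ⟨g, Subtype.ext hg⟩⟩
  have h1 := MulAction.index_stabilizer_of_transitive G (⟨H, hH⟩ : {K : Subgroup G // Nat.card K = m})
  rw [← h1]
  congr 1
  ext g
  rw [MulAction.mem_stabilizer_iff, mem_normalizer_iff_smul]
  constructor
  · intro h; exact congrArg Subtype.val h
  · intro h; exact Subtype.ext h

theorem relIndex_sup_normal [Finite G] (X N : Subgroup G) [N.Normal] :
    X.relIndex (X ⊔ N) = X.relIndex N := by
  have h1 : Nat.card N * N.relIndex (X ⊔ N) = Nat.card (X ⊔ N : Subgroup G) :=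
    card_mul_relIndex' le_sup_right
  have h2 : N.relIndex (X ⊔ N) = N.relIndex X := relIndex_sup_right X N
  have h3 : Nat.card (N ⊓ X : Subgroup G) * N.relIndex X = Nat.card X := by
    have := card_mul_relIndex' (inf_le_right : N ⊓ X ≤ X)
    rwa [inf_relIndex_right] at this
  have h4 : Nat.card X * X.relIndex (X ⊔ N) = Nat.card (X ⊔ N : Subgroup G) :=
    card_mul_relIndex' le_sup_left
  have h5 : Nat.card (N ⊓ X : Subgroup G) * X.relIndex N = Nat.card N := by
    have := card_mul_relIndex' (inf_le_left : N ⊓ X ≤ N)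
    rwa [inf_relIndex_left] at this
  have hpos : 0 < Nat.card X := Nat.card_pos
  apply Nat.eq_of_mul_eq_mul_left hpos
  rw [h4, ← h1, h2, ← h5, ← h3]
  ring

theorem map_conj_smul {G' : Type*} [Group G'] (f : G →* G') (g : G) (H : Subgroup G) :
    (MulAut.conj g • H).map f = MulAut.conj (f g) • H.map f := by
  change (H.map (MulAut.conj g).toMonoidHom).map f = (H.map f).map (MulAut.conj (f g)).toMonoidHom
  rw [Subgroup.map_map, Subgroup.map_map]
  congr 1
  ext x
  simp

open Cfsg.Agent.Lib.Helper1 Cfsg.Agent.Lib.Helper12 in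
theorem comap_normalizer_map [Finite G] (N : Subgroup G) [N.Normal] [IsMulCommutative N]
    (H : Subgroup G) (hcop : (Nat.card H).Coprime (Nat.card N)) :
    (normalizer ((H.map (QuotientGroup.mk' N) : Subgroup (G ⧸ N)) : Set (G ⧸ N))).comap
      (QuotientGroup.mk' N) = normalizer (H : Set G) ⊔ N := by
  apply le_antisymm
  · intro g hg
    rw [mem_comap, mem_normalizer_iff_smul, ← map_conj_smul] at hg
    obtain ⟨a, ha, hconj⟩ := sz_abelian_conj_of_map_eq N (H := MulAut.conj g • H) (K := H)
      (by rw [Cfsg.Agent.Lib.Helper12.card_conj_smul]; exact hcop) hcop hg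
    have h1 : a * g ∈ normalizer (H : Set G) := by
      rw [mem_normalizer_iff_smul, map_mul, mul_smul]; exact hconj
    have : g = a⁻¹ * (a * g) := by group
    rw [this]
    exact mul_mem (mem_sup_right (inv_mem ha)) (mem_sup_left h1)
  · rw [sup_le_iff]
    constructor
    · rw [← map_le_iff_le_comap]
      exact le_normalizer_map _
    · intro x hx
      rw [mem_comap]
      have : QuotientGroup.mk' N x = 1 := (QuotientGroup.eq_one_iff x).mpr hx
      rw [this]; exact one_mem _

theorem normalizer_inf_eq (N H : Subgroup G) [N.Normal] (hbot : H ⊓ N = ⊥) :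
    normalizer (H : Set G) ⊓ N = centralizer (H : Set G) ⊓ N := by
  apply le_antisymm
  · rintro x ⟨hx, hxN⟩
    refine ⟨?_, hxN⟩
    change x ∈ normalizer (H : Set G) at hx
    change x ∈ N at hxN
    change x ∈ centralizer (H : Set G)
    rw [mem_centralizer_iff]
    intro h hh
    have h1 : x * h * x⁻¹ * h⁻¹ ∈ H := mul_mem ((mem_normalizer_iff.mp hx h).mp hh) (inv_mem hh)
    have h2 : x * h * x⁻¹ * h⁻¹ ∈ N := by
      have := mul_mem hxN (‹N.Normal›.conj_mem _ (inv_mem hxN) h)
      simpa [mul_assoc] using this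
    have h3 : x * h * x⁻¹ * h⁻¹ ∈ H ⊓ N := ⟨h1, h2⟩
    rw [hbot, mem_bot] at h3
    calc h * x = (x * h * x⁻¹ * h⁻¹)⁻¹ * (x * h) := by group
      _ = x * h := by rw [h3]; simp
  · exact inf_le_inf_right _ (centralizer_le_normalizer _)

def Good (G : Type*) [Group G] (m x : ℕ) : Prop :=
  (∃ q e : ℕ, q.Prime ∧ x = q ^ e) ∧ (∃ K L : Subgroup G, K.Normal ∧ L.Normal ∧ K < L ∧
    (∀ M : Subgroup G, M.Normal → K ≤ M → M ≤ L → M = K ∨ M = L) ∧ x ∣ K.relIndex L) ∧
    (∃ q : ℕ, q.Prime ∧ q ∣ m ∧ x ≡ 1 [MOD q])

theorem Good.lift (N : Subgroup G) [N.Normal] {m' m x : ℕ} (hm : m' ∣ m) (h : Good (G ⧸ N) m' x) :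
    Good G m x := by
  obtain ⟨h1, ⟨K, L, hK, hL, hKL, hmax, hx⟩, q, hq, hqm, hxq⟩ := h
  have hsurj := QuotientGroup.mk'_surjective N
  refine ⟨h1, ⟨K.comap (QuotientGroup.mk' N), L.comap (QuotientGroup.mk' N), hK.comap _,
    hL.comap _, ?_, ?_, ?_⟩, q, hq, hqm.trans hm, hxq⟩
  · exact (comap_lt_comap_of_surjective hsurj).mpr hKL
  · intro M hM hKM hML
    have hNM : N ≤ M := by
      refine le_trans ?_ hKM
      intro y hy
      rw [mem_comap]
      have : QuotientGroup.mk' N y = 1 := (QuotientGroup.eq_one_iff y).mpr hy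
      rw [this]; exact one_mem _
    have hMM : (M.map (QuotientGroup.mk' N)).comap (QuotientGroup.mk' N) = M :=
      comap_map_eq_self (by rw [QuotientGroup.ker_mk']; exact hNM)
    have h2 : K ≤ M.map (QuotientGroup.mk' N) := by
      rw [← map_comap_eq_self_of_surjective hsurj K]; exact map_mono hKM
    have h3 : M.map (QuotientGroup.mk' N) ≤ L := by
      rw [← map_comap_eq_self_of_surjective hsurj L]; exact map_mono hML
    rcases hmax _ (hM.map _ hsurj) h2 h3 with h | h
    · left; rw [← hMM, h]
    · right; rw [← hMM, h]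
  · rw [relIndex_comap, map_comap_eq_self_of_surjective hsurj]; exact hx

universe u

open Cfsg.Agent.Lib.Helper1 in
theorem main : ∀ (c : ℕ) (G : Type u) [Group G] [Finite G] [Group.IsSolvable G], Nat.card G = c →
    ∀ m n : ℕ, Nat.card G = m * n → m.Coprime n →
    ∃ l : List ℕ, Nat.card {H : Subgroup G // Nat.card H = m} = l.prod ∧ ∀ x ∈ l, Good G m x := by
  intro c
  induction c using Nat.strong_induction_on with
  | _ c ih =>
    intro G _ _ _ hc m n hG hmn
    rcases subsingleton_or_nontrivial G with hsub | hnt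
    · refine ⟨[], ?_, by simp⟩
      have h1 : Nat.card G = 1 := Nat.card_eq_one_iff_unique.mpr ⟨hsub, ⟨1⟩⟩
      have hm : m = 1 := by
        rw [h1] at hG
        exact Nat.eq_one_of_mul_eq_one_right hG.symm
      rw [List.prod_nil, Nat.card_eq_one_iff_unique]
      refine ⟨⟨fun a b => Subtype.ext (Subsingleton.elim _ _)⟩, ⟨⟨⊥, by simp [hm]⟩⟩⟩
    · obtain ⟨N, hNn, hNb, -, hmin⟩ :=
        Cfsg.Agent.Lib.Helper13.exists_minimal_normal_le (⊤ : Subgroup G) top_ne_bot
      obtain ⟨hNc, p, hp, hexp⟩ := Cfsg.Agent.S0043.result N hNb hmin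
      have : Fact p.Prime := ⟨hp⟩
      have hNp : IsPGroup p N := fun x => ⟨1, by
        apply Subtype.ext
        simpa using hexp x x.2⟩
      obtain ⟨a, ha⟩ := IsPGroup.iff_card.mp hNp
      have hN1 : 1 < Nat.card N := by
        have : Nontrivial N := (Subgroup.nontrivial_iff_ne_bot N).mpr hNb
        exact Finite.one_lt_card
      have hcq : Nat.card (G ⧸ N) * Nat.card N = Nat.card G :=
        (card_eq_card_quotient_mul_card_subgroup N).symm
      have hqpos : 0 < Nat.card (G ⧸ N) := Nat.card_pos
      have hlt : Nat.card (G ⧸ N) < c := by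
        rw [← hc, ← hcq]
        nlinarith
      have hsurj := QuotientGroup.mk'_surjective N
      have hmpos : 0 < m := by
        rcases Nat.eq_zero_or_pos m with h | h
        · rw [h, zero_mul] at hG
          exact absurd hG Nat.card_pos.ne'
        · exact h
      by_cases hpm : p ∣ m
      · -- N lies in a Hall subgroup
        have hpn : (Nat.card N).Coprime n := by
          rw [ha]
          apply Nat.Coprime.pow_left
          exact Nat.Coprime.coprime_dvd_left hpm hmn
        obtain ⟨H, hH, hNH⟩ := hall_dominance m n hG hmn N hpn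
        let Hb : Subgroup (G ⧸ N) := H.map (QuotientGroup.mk' N)
        have hidx : H.index = n := by
          have := H.card_mul_index
          rw [hH, hG] at this
          exact Nat.eq_of_mul_eq_mul_left hmpos this
        have hidxb : Hb.index = n := by
          rw [← hidx]
          exact index_map_eq H hsurj (by rw [QuotientGroup.ker_mk']; exact hNH)
        have hGb : Nat.card (G ⧸ N) = Nat.card Hb * n := by
          rw [← hidxb]; exact Hb.card_mul_index.symm
        have hdvd : Nat.card Hb ∣ m := by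
          rw [← hH]; exact card_map_dvd _ _
        obtain ⟨l, hl, hgood⟩ := ih _ hlt (G ⧸ N) rfl (Nat.card Hb) n hGb
          (Nat.Coprime.coprime_dvd_left hdvd hmn)
        refine ⟨l, ?_, fun x hx => (hgood x hx).lift N hdvd⟩
        rw [← hl, count_eq m n hG hmn H hH, count_eq (Nat.card Hb) n hGb
          (Nat.Coprime.coprime_dvd_left hdvd hmn) Hb rfl,
          ← index_comap_of_surjective _ hsurj, comap_normalizer_eq_of_surjective _ hsurj,
          comap_map_eq_self (by rw [QuotientGroup.ker_mk']; exact hNH)]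
      · have hcop : m.Coprime (Nat.card N) := by
          rw [ha]
          apply Nat.Coprime.pow_right
          exact ((Nat.Prime.coprime_iff_not_dvd hp).mpr hpm).symm
        obtain ⟨H, hH⟩ := hall_exists m n hG hmn
        have hcopH : (Nat.card H).Coprime (Nat.card N) := by rw [hH]; exact hcop
        have hbot : H ⊓ N = ⊥ := (disjoint_of_coprime_natCard hcopH).eq_bot
        let Hb : Subgroup (G ⧸ N) := H.map (QuotientGroup.mk' N)
        have hHb : Nat.card Hb = m := by
          have h1 := relIndex_ker (K := H) (QuotientGroup.mk' N)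
          rw [QuotientGroup.ker_mk', ← inf_relIndex_right, inf_comm, hbot, relIndex_bot_left] at h1
          rw [← hH, h1]
        have hidx : H.index = n := by
          have := H.card_mul_index
          rw [hH, hG] at this
          exact Nat.eq_of_mul_eq_mul_left hmpos this
        have hdvd : Hb.index ∣ n := by
          rw [← hidx]; exact index_map_dvd H hsurj
        have hGb : Nat.card (G ⧸ N) = m * Hb.index := by
          rw [← hHb]; exact Hb.card_mul_index.symm
        have hcop' : m.Coprime Hb.index := Nat.Coprime.coprime_dvd_right hdvd hmn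
        obtain ⟨l, hl, hgood⟩ := ih _ hlt (G ⧸ N) rfl m Hb.index hGb hcop'
        obtain ⟨l₂, hl₂, hgood₂⟩ := lemC N p a hp ha _ H rfl (by
          rw [hH]; exact ((Nat.Prime.coprime_iff_not_dvd hp).mpr hpm).symm)
        refine ⟨l ++ l₂, ?_, ?_⟩
        · rw [List.prod_append, ← hl, ← hl₂, count_eq m n hG hmn H hH,
            count_eq m Hb.index hGb hcop' Hb hHb, ← index_comap_of_surjective _ hsurj,
            comap_normalizer_map N H hcopH, ← inf_relIndex_right (centralizer (H : Set G)) N,
            ← normalizer_inf_eq N H hbot, inf_relIndex_right, ← relIndex_sup_normal, mul_comm]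
          exact (relIndex_mul_index le_sup_left).symm
        · intro x hx
          rcases List.mem_append.mp hx with hx | hx
          · exact (hgood x hx).lift N dvd_rfl
          · obtain ⟨⟨e, he⟩, hxN, r, hr, hrH, hx1⟩ := hgood₂ x hx
            refine ⟨⟨p, e, hp, he⟩, ⟨⊥, N, inferInstance, hNn, bot_lt_iff_ne_bot.mpr hNb, ?_, ?_⟩,
              r, hr, hH ▸ hrH, hx1⟩
            · intro M hM _ hMN
              exact hmin M hM hMN
            · rw [relIndex_bot_left]; exact hxN

/-- Let `G` be a finite solvable group of order `mn` with `gcd(m, n) = 1`. Then the number of subgroups of order `m` is a product of natural numbers each of which is a power of a prime, divides the order of some chief factor of `G` (a quotient `L/K` of normal subgroups `K < L` of `G` with no normal subgroup of `G` strictly between them), and is congruent to `1` modulo some prime divisor of `m`. -/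
theorem result {G : Type*} [Group G] [Finite G] [Group.IsSolvable G] (m n : ℕ) (hG : Nat.card G = m * n) (hmn : Nat.Coprime m n) : ∃ (k : ℕ) (f : Fin k → ℕ), Nat.card {H : Subgroup G // Nat.card H = m} = ∏ i, f i ∧ ∀ i, (∃ q e : ℕ, q.Prime ∧ f i = q ^ e) ∧ (∃ K L : Subgroup G, K.Normal ∧ L.Normal ∧ K < L ∧ (∀ M : Subgroup G, M.Normal → K ≤ M → M ≤ L → M = K ∨ M = L) ∧ f i ∣ K.relIndex L) ∧ (∃ q : ℕ, q.Prime ∧ q ∣ m ∧ f i ≡ 1 [MOD q]) := by
  obtain ⟨l, hl, hgood⟩ := main _ G rfl m n hG hmn
  refine ⟨l.length, l.get, ?_, fun i => hgood _ (List.get_mem l i)⟩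
  rw [hl, ← List.prod_ofFn, List.ofFn_get]

end Cfsg.Agent.S4214
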