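import Cfsg.Statements.S4217
-- import your own Cfsg.Agent.* helpers here

set_option autoImplicit false
open Cfsg

namespace Cfsg.Agent.S4217

open scoped IsMulCommutative

section
variable {G : Type*} [Group G] (A : Subgroup G) [A.Normal]

/-- crossed homomorphisms `G → A`. -/
def IsCrossed (β : G → A) : Prop :=
  ∀ g h : G, β (g * h) = β g * MulAut.conjNormal g (β h)

/-- there is a crossed homomorphism restricting to the `m`-th power map on `A`. -/
def HasPow (m : ℤ) : Prop :=
  ∃ β : G → A, IsCrossed A β ∧ ∀ a : A, β (a : G) = a ^ m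

variable [IsMulCommutative A]

theorem HasPow.add {m n : ℤ} (hm : HasPow A m) (hn : HasPow A n) : HasPow A (m + n) := by
  obtain ⟨β₁, h1, h1'⟩ := hm
  obtain ⟨β₂, h2, h2'⟩ := hn
  refine ⟨fun g => β₁ g * β₂ g, fun g h => ?_, fun a => ?_⟩
  · simp only [h1 g h, h2 g h, map_mul]
    exact mul_mul_mul_comm _ _ _ _
  · simp only [h1' a, h2' a, zpow_add]

theorem HasPow.mul {m : ℤ} (hm : HasPow A m) (k : ℤ) : HasPow A (m * k) := by
  obtain ⟨β, h1, h1'⟩ := hm
  refine ⟨fun g => β g ^ k, fun g h => ?_, fun a => ?_⟩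
  · simp only [h1 g h, map_zpow, mul_zpow]
  · simp only [h1' a, zpow_mul]

omit [IsMulCommutative A] in
theorem exists_complement_of_hasPow_one (h : HasPow A 1) : ∃ K : Subgroup G, K.IsComplement' A := by
  obtain ⟨β, hβ, hβ'⟩ := h
  have h1 : β 1 = 1 := by
    have := hβ 1 1
    simpa using this
  let K : Subgroup G :=
    { carrier := {g | β g = 1}
      mul_mem' := by
        intro g h hg hh
        have hg' : β g = 1 := hg
        have hh' : β h = 1 := hh
        show β (g * h) = 1
        rw [hβ, hg', hh', map_one, one_mul]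
      one_mem' := h1
      inv_mem' := by
        intro g hg
        have hg' : β g = 1 := hg
        show β g⁻¹ = 1
        have := hβ g g⁻¹
        rw [mul_inv_cancel, h1, hg', one_mul] at this
        have h2 : MulAut.conjNormal g (β g⁻¹) = MulAut.conjNormal g 1 := by rw [← this, map_one]
        exact (MulAut.conjNormal g).injective h2 }
  have hK : ∀ g, g ∈ K ↔ β g = 1 := fun g => Iff.rfl
  refine ⟨K, Subgroup.isComplement'_of_disjoint_and_mul_eq_univ ?_ ?_⟩
  · rw [Subgroup.disjoint_def]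
    intro x hxK hxA
    have := hβ' ⟨x, hxA⟩
    rw [zpow_one] at this
    have h3 : β x = 1 := hxK
    have h4 : (⟨x, hxA⟩ : A) = 1 := by rw [← this]; exact h3
    exact congrArg Subtype.val h4
  · rw [Set.eq_univ_iff_forall]
    intro g
    set a : A := β g with ha
    have hk : (a : G)⁻¹ * g ∈ K := by
      rw [hK]
      have h5 := hβ ((a⁻¹ : A) : G) g
      rw [hβ', zpow_one, ← ha] at h5
      have h6 : MulAut.conjNormal ((a⁻¹ : A) : G) a = a := by
        apply Subtype.ext
        rw [MulAut.conjNormal_apply]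
        simp
      rw [h6, inv_mul_cancel] at h5
      simpa using h5
    refine ⟨(a : G)⁻¹ * g, hk, ((a : G)⁻¹ * g)⁻¹ * (a : G) * ((a : G)⁻¹ * g), ?_, by group⟩
    have := (inferInstance : A.Normal).conj_mem (a : G) a.2 ((a : G)⁻¹ * g)⁻¹
    simpa using this

theorem hasPow_index [Finite G] (U K : Subgroup G) (hKA : K ⊓ A = ⊥) (hsup : K ⊔ A = U) :
    HasPow A (U.index : ℤ) := by
  classical
  have hAU : A ≤ U := hsup ▸ le_sup_right
  have hex : ∀ u ∈ U, ∃ a : A, (a : G)⁻¹ * u ∈ K := by
    intro u hu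
    rw [← hsup] at hu
    obtain ⟨y, hy, z, hz, rfl⟩ := Subgroup.mem_sup_of_normal_right.mp hu
    refine ⟨⟨y * z * y⁻¹, (inferInstance : A.Normal).conj_mem z hz y⟩, ?_⟩
    have : (y * z * y⁻¹)⁻¹ * (y * z) = y := by group
    show (y * z * y⁻¹)⁻¹ * (y * z) ∈ K
    rw [this]
    exact hy
  let π : G → A := fun u => if h : u ∈ U then Classical.choose (hex u h) else 1
  have hπ : ∀ u ∈ U, ((π u : A) : G)⁻¹ * u ∈ K := by
    intro u hu
    simp only [π, dif_pos hu]
    exact Classical.choose_spec (hex u hu)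
  have huniq : ∀ (u : G) (a a' : A), (a : G)⁻¹ * u ∈ K → (a' : G)⁻¹ * u ∈ K → a = a' := by
    intro u a a' h1 h2
    have h3 : (a : G)⁻¹ * (a' : G) ∈ K := by
      have := K.mul_mem h1 (K.inv_mem h2)
      simpa [mul_assoc] using this
    have h4 : (a : G)⁻¹ * (a' : G) ∈ K ⊓ A := ⟨h3, A.mul_mem (A.inv_mem a.2) a'.2⟩
    rw [hKA, Subgroup.mem_bot] at h4
    apply Subtype.ext
    exact (inv_mul_eq_one.mp h4)
  have hπmul : ∀ u ∈ U, ∀ u' ∈ U, π (u * u') = π u * MulAut.conjNormal u (π u') := by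
    intro u hu u' hu'
    apply huniq (u * u') _ _ (hπ _ (U.mul_mem hu hu'))
    have hcomm := mul_comm (MulAut.conjNormal u (π u')) (π u)⁻¹
    have hcomm' := congrArg (fun t : A => (t : G)) hcomm
    simp only [Subgroup.coe_mul, MulAut.conjNormal_apply, Subgroup.coe_inv] at hcomm'
    have h1 := K.mul_mem (hπ u hu) (hπ u' hu')
    have h2 : ((π u * MulAut.conjNormal u (π u') : A) : G)⁻¹ * (u * u') =
        ((π u : A) : G)⁻¹ * u * (((π u' : A) : G)⁻¹ * u') := by
      simp only [Subgroup.coe_mul, MulAut.conjNormal_apply]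
      have h3 : (((π u : A) : G) * (u * ((π u' : A) : G) * u⁻¹))⁻¹ =
          (u * ((π u' : A) : G) * u⁻¹)⁻¹ * ((π u : A) : G)⁻¹ := by group
      have h4 : (u * ((π u' : A) : G) * u⁻¹)⁻¹ * ((π u : A) : G)⁻¹ =
          ((π u : A) : G)⁻¹ * (u * ((π u' : A) : G) * u⁻¹)⁻¹ := by
        have := congrArg (fun t => (u * ((π u' : A) : G) * u⁻¹)⁻¹ * t *
          (u * ((π u' : A) : G) * u⁻¹)⁻¹) hcomm'
        simpa [mul_assoc] using this.symm
      rw [h3, h4]
      group
    rw [h2]
    exact h1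
  have hπA : ∀ a : A, π (a : G) = a := by
    intro a
    apply huniq (a : G) _ _ (hπ _ (hAU a.2))
    simp
  have : Fintype (G ⧸ U) := Fintype.ofFinite _
  have hmemU : ∀ (g : G) (q : G ⧸ U), ((g • q).out)⁻¹ * g * q.out ∈ U := by
    intro g q
    rw [mul_assoc, ← QuotientGroup.eq, QuotientGroup.out_eq']
    conv_lhs => rw [← QuotientGroup.out_eq' q]
    rfl
  let β : G → A := fun g => ∏ q : G ⧸ U,
    MulAut.conjNormal ((g • q).out) (π (((g • q).out)⁻¹ * g * q.out))
  refine ⟨β, fun g h => ?_, fun a => ?_⟩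
  · have hterm : ∀ q : G ⧸ U,
        MulAut.conjNormal (((g * h) • q).out) (π ((((g * h) • q).out)⁻¹ * (g * h) * q.out)) =
        MulAut.conjNormal ((g • (h • q)).out) (π (((g • (h • q)).out)⁻¹ * g * (h • q).out)) *
        MulAut.conjNormal g
          (MulAut.conjNormal ((h • q).out) (π (((h • q).out)⁻¹ * h * q.out))) := by
      intro q
      rw [mul_smul]
      have h1 : ((g • h • q).out)⁻¹ * (g * h) * q.out =
          (((g • (h • q)).out)⁻¹ * g * (h • q).out) * (((h • q).out)⁻¹ * h * q.out) := by group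
      rw [h1, hπmul _ (hmemU g (h • q)) _ (hmemU h q), map_mul]
      congr 1
      apply Subtype.ext
      simp only [MulAut.conjNormal_apply]
      group
    show ∏ q : G ⧸ U, _ = (∏ q : G ⧸ U, _) * MulAut.conjNormal g (∏ q : G ⧸ U, _)
    rw [map_prod, Finset.prod_congr rfl (fun q _ => hterm q), Finset.prod_mul_distrib]
    congr 1
    exact Equiv.prod_comp (MulAction.toPerm h) (fun q : G ⧸ U =>
      MulAut.conjNormal ((g • q).out) (π (((g • q).out)⁻¹ * g * q.out)))
  · have hfix : ∀ q : G ⧸ U, (a : G) • q = q := by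
      intro q
      conv_lhs => rw [← QuotientGroup.out_eq' q]
      conv_rhs => rw [← QuotientGroup.out_eq' q]
      rw [MulAction.Quotient.smul_mk, eq_comm, QuotientGroup.eq]
      apply hAU
      have := (inferInstance : A.Normal).conj_mem (a : G) a.2 (q.out)⁻¹
      simpa [mul_assoc] using this
    have hterm : ∀ q : G ⧸ U,
        MulAut.conjNormal (((a : G) • q).out) (π ((((a : G) • q).out)⁻¹ * (a : G) * q.out)) = a := by
      intro q
      rw [hfix q]
      have hmem : (q.out)⁻¹ * (a : G) * q.out ∈ A := by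
        have := (inferInstance : A.Normal).conj_mem (a : G) a.2 (q.out)⁻¹
        simpa using this
      have := hπA ⟨_, hmem⟩
      simp only at this
      rw [this]
      apply Subtype.ext
      rw [MulAut.conjNormal_apply]
      group
    show ∏ q : G ⧸ U, _ = a ^ (U.index : ℤ)
    rw [Finset.prod_congr rfl (fun q _ => hterm q), Finset.prod_const, Finset.card_univ,
      zpow_natCast, Subgroup.index_eq_card, Nat.card_eq_fintype_card]

end

/-- Let `A` be an abelian normal subgroup of the finite group `G`. Then `A` has a complement in `G` if and only if, for every prime `p` dividing the index of `A`, there are a Sylow `p`-subgroup `S` of `G/A` and a subgroup `K` of `G` with `K ∩ A = 1` and `KA` equal to the preimage of `S` (that is, `A` has a complement in the preimage of a Sylow `p`-subgroup of `G/A`). -/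
theorem result {G : Type*} [Group G] [Finite G] (A : Subgroup G) [A.Normal] (hA : IsMulCommutative A) : (∃ K : Subgroup G, K.IsComplement' A) ↔ ∀ p : ℕ, p.Prime → p ∣ A.index → ∃ (S : Sylow p (G ⧸ A)) (K : Subgroup G), K ⊓ A = ⊥ ∧ K ⊔ A = (S : Subgroup (G ⧸ A)).comap (QuotientGroup.mk' A) := by
  constructor
  · rintro ⟨K, hK⟩ p hp _
    have : Fact p.Prime := ⟨hp⟩
    obtain ⟨S⟩ : Nonempty (Sylow p (G ⧸ A)) := inferInstance
    have hAU : A ≤ (S : Subgroup (G ⧸ A)).comap (QuotientGroup.mk' A) := by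
      intro a ha
      rw [Subgroup.mem_comap]
      have : QuotientGroup.mk' A a = 1 := by
        rw [QuotientGroup.mk'_apply, QuotientGroup.eq_one_iff]; exact ha
      rw [this]
      exact Subgroup.one_mem _
    refine ⟨S, K ⊓ (S : Subgroup (G ⧸ A)).comap (QuotientGroup.mk' A), ?_, ?_⟩
    · rw [eq_bot_iff, ← disjoint_iff.mp hK.disjoint]
      exact inf_le_inf_right _ inf_le_left
    · apply le_antisymm (sup_le inf_le_right hAU)
      intro u hu
      have hu' : u ∈ K ⊔ A := by rw [hK.sup_eq_top]; trivial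
      obtain ⟨k, hk, a, ha, rfl⟩ := Subgroup.mem_sup_of_normal_right.mp hu'
      have hkU : k ∈ (S : Subgroup (G ⧸ A)).comap (QuotientGroup.mk' A) := by
        have := Subgroup.mul_mem _ hu (Subgroup.inv_mem _ (hAU ha))
        simpa using this
      exact Subgroup.mul_mem _ ((le_sup_left : K ⊓ _ ≤ _) ⟨hk, hkU⟩) ((le_sup_right : A ≤ _) ha)
  · intro h
    by_cases hidx : A.index = 1
    · rw [Subgroup.index_eq_one] at hidx
      exact ⟨⊥, hidx ▸ Subgroup.isComplement'_bot_top⟩
    apply exists_complement_of_hasPow_one A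
    have hprime : ∀ p : ℕ, p.Prime → p ∣ A.index → ∃ n : ℕ, 0 < n ∧ n ∣ A.index ∧ ¬ p ∣ n ∧
        HasPow A (n : ℤ) := by
      intro p hp hpd
      have : Fact p.Prime := ⟨hp⟩
      obtain ⟨S, K, hKA, hsup⟩ := h p hp hpd
      have hi : ((S : Subgroup (G ⧸ A)).comap (QuotientGroup.mk' A)).index =
          (S : Subgroup (G ⧸ A)).index :=
        Subgroup.index_comap_of_surjective _ (QuotientGroup.mk'_surjective A)
      refine ⟨(S : Subgroup (G ⧸ A)).index, Nat.pos_of_ne_zero Subgroup.index_ne_zero_of_finite,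
        ?_, S.not_dvd_index, ?_⟩
      · rw [Subgroup.index_eq_card A]
        exact Subgroup.index_dvd_card _
      · rw [← hi]
        exact hasPow_index A _ K hKA hsup
    obtain ⟨p₀, hp₀, hp₀d⟩ := Nat.exists_prime_and_dvd hidx
    have hex : ∃ d : ℕ, 0 < d ∧ HasPow A (d : ℤ) := by
      obtain ⟨n, hn, -, -, hR⟩ := hprime p₀ hp₀ hp₀d
      exact ⟨n, hn, hR⟩
    classical
    have hmin : ∀ m, m < Nat.find hex → ¬ (0 < m ∧ HasPow A (m : ℤ)) :=
      fun m hm => Nat.find_min hex hm
    obtain ⟨hdpos, hdR⟩ := Nat.find_spec hex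
    set d := Nat.find hex with hd
    have hdvd : ∀ m : ℕ, HasPow A (m : ℤ) → d ∣ m := by
      intro m hm
      have h1 : HasPow A ((m % d : ℕ) : ℤ) := by
        have h2 : ((m % d : ℕ) : ℤ) = (m : ℤ) + (d : ℤ) * (-((m : ℤ) / (d : ℤ))) := by
          rw [Int.natCast_mod, Int.emod_def]; ring
        rw [h2]
        exact hm.add A (hdR.mul A _)
      by_contra hnd
      have h3 : 0 < m % d := Nat.pos_of_ne_zero (fun h0 => hnd (Nat.dvd_of_mod_eq_zero h0))
      exact hmin (m % d) (Nat.mod_lt _ hdpos) ⟨h3, h1⟩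
    have hd1 : d = 1 := by
      by_contra hne
      obtain ⟨q, hq, hqd⟩ := Nat.exists_prime_and_dvd hne
      obtain ⟨n₀, -, hn₀, -, hR₀⟩ := hprime p₀ hp₀ hp₀d
      have hqA : q ∣ A.index := dvd_trans hqd (dvd_trans (hdvd n₀ hR₀) hn₀)
      obtain ⟨n, -, -, hqn, hR⟩ := hprime q hq hqA
      exact hqn (dvd_trans hqd (hdvd n hR))
    rw [hd1] at hdR
    simpa using hdR

end Cfsg.Agent.S4217
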