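import Cfsg.Statements.S4218
-- import your own Cfsg.Agent.* helpers here
import Cfsg.Agent.Lib.Helper14.PConstrained
import Cfsg.Agent.Lib.Helper77.CoprimeAut

set_option autoImplicit false
open Cfsg

namespace Cfsg.Agent.S4218


open Cfsg.Agent.Lib.Helper14 Cfsg.Agent.Lib.Helper77
open scoped commutatorElement

theorem key {H : Type*} [Group H] [Finite H] {p : ℕ} [hp : Fact p.Prime] (P : Subgroup H)
    [hPn : P.Normal] (hP : IsPGroup p P) (hC : Subgroup.centralizer (P : Set H) ≤ P)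
    (hmax : ∀ N : Subgroup H, N.Normal → IsPGroup p N → N ≤ P) (g : H)
    (hg : ∀ x ∈ P, g * x * g⁻¹ * x⁻¹ ∈ (frattini P).map P.subtype) : g ∈ P := by
  set Φ : Subgroup H := (frattini P).map P.subtype with hΦ
  have hΦn : Φ.Normal := ConjAct.normal_of_characteristic_of_normal
  have hmapn : (P.map (QuotientGroup.mk' Φ)).Normal :=
    hPn.map _ (QuotientGroup.mk'_surjective Φ)
  set C : Subgroup H := (Subgroup.centralizer
    ((P.map (QuotientGroup.mk' Φ) : Subgroup (H ⧸ Φ)) : Set (H ⧸ Φ))).comap (QuotientGroup.mk' Φ)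
    with hCdef
  have hCn : C.Normal := inferInstance
  have hgC : g ∈ C := by
    rw [hCdef, Subgroup.mem_comap, Subgroup.mem_centralizer_iff]
    rintro _ ⟨x, hx, rfl⟩
    have h1 : QuotientGroup.mk' Φ (g * x * g⁻¹ * x⁻¹) = 1 := (QuotientGroup.eq_one_iff _).2 (hg x hx)
    rw [map_mul, map_mul, map_mul, map_inv, map_inv, mul_inv_eq_one, mul_inv_eq_iff_eq_mul] at h1
    exact h1.symm
  have hb : ∀ c ∈ C, ∀ q ∈ P, q⁻¹ * (c * q * c⁻¹) ∈ Φ := by
    intro c hc q hq
    rw [hCdef, Subgroup.mem_comap, Subgroup.mem_centralizer_iff] at hc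
    have h1 := hc _ ⟨q, hq, rfl⟩
    rw [← QuotientGroup.eq_one_iff]
    change QuotientGroup.mk' Φ (q⁻¹ * (c * q * c⁻¹)) = 1
    rw [map_mul, map_mul, map_mul, map_inv, map_inv, ← h1]
    group
  have hCp : IsPGroup p C := by
    have hprime : ∀ {r : ℕ}, r.Prime → r ∣ Nat.card C → r = p := by
      intro r hr hrd
      have : Fact r.Prime := ⟨hr⟩
      by_contra hne
      obtain ⟨c, hc⟩ := exists_prime_orderOf_dvd_card' r hrd
      have hco : orderOf (c : H) = r := by rw [Subgroup.orderOf_coe, hc]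
      set β : MulAut P := MulAut.conjNormal (c : H) with hβ
      have hR : IsPGroup r (Subgroup.zpowers β) := by
        have h1 : IsPGroup r (Subgroup.zpowers (c : H)) :=
          IsPGroup.of_card (n := 1) (by rw [Nat.card_zpowers, hco, pow_one])
        have h2 := h1.map (MulAut.conjNormal (H := P))
        rwa [MonoidHom.map_zpowers] at h2
      have htriv : ∀ β' ∈ Subgroup.zpowers β, ∀ q : P, q⁻¹ * β' q ∈ frattini P := by
        intro β' hβ' q
        obtain ⟨i, rfl⟩ := Subgroup.mem_zpowers_iff.1 hβ'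
        have h1 := hb ((c : H) ^ i) (C.zpow_mem c.2 i) q q.2
        obtain ⟨f, hf, hfe⟩ := h1
        have : f = q⁻¹ * (β ^ i) q := by
          apply Subtype.ext
          rw [hβ, ← map_zpow, Subgroup.coe_mul, Subgroup.coe_inv, MulAut.conjNormal_apply]
          exact hfe
        rw [← this]
        exact hf
      have h1 := aut_trivial_of_trivial_on_frattini_quotient hP _ hR hne htriv β
        (Subgroup.mem_zpowers β)
      have hcc : (c : H) ∈ Subgroup.centralizer (P : Set H) := by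
        rw [Subgroup.mem_centralizer_iff]
        intro q hq
        have h2 : β ⟨q, hq⟩ = ⟨q, hq⟩ := by rw [h1]; rfl
        have h3 : (c : H) * q * (c : H)⁻¹ = q := by
          have := congrArg Subtype.val h2
          simpa [hβ] using this
        rw [mul_inv_eq_iff_eq_mul] at h3
        exact h3.symm
      obtain ⟨k, hk⟩ := hP ⟨c, hC hcc⟩
      have hk' : (c : H) ^ p ^ k = 1 := by simpa using congrArg Subtype.val hk
      have h4 : r ∣ p ^ k := hco ▸ orderOf_dvd_of_pow_eq_one hk'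
      exact hne ((Nat.prime_dvd_prime_iff_eq hr hp.out).1 (hr.dvd_of_dvd_pow h4))
    exact IsPGroup.of_card (Nat.eq_prime_pow_of_unique_prime_dvd Nat.card_pos.ne' hprime)
  exact hmax C hCn hCp hgC

/-- Let `G` be a finite `p`-solvable group, `N₀ = O_{p'}(G)`, `P₁ = O_{p',p}(G)`, and let `F ≤ P₁` be the preimage of the Frattini subgroup of `P₁/N₀`. Then an element `g` of `G` induces the identity on `P₁/F` by conjugation (that is, `g x g⁻¹ x⁻¹ ∈ F` for all `x ∈ P₁`) if and only if `g ∈ P₁`: the group `G/P₁` acts faithfully on `P₁/F`. -/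
theorem result {G : Type*} [Group G] [Finite G] {p : ℕ} [Fact p.Prime] (hG : Cfsg.IsPSolvable p G) (g : G) : (∀ x ∈ Cfsg.pPrimePCore p G, g * x * g⁻¹ * x⁻¹ ∈ ((frattini (↥(Cfsg.pPrimePCore p G) ⧸ (Cfsg.pPrimeCore p G).subgroupOf (Cfsg.pPrimePCore p G))).comap (QuotientGroup.mk' ((Cfsg.pPrimeCore p G).subgroupOf (Cfsg.pPrimePCore p G)))).map (Cfsg.pPrimePCore p G).subtype) ↔ g ∈ Cfsg.pPrimePCore p G := by
  set N0 := Cfsg.pPrimeCore p G with hN0
  set P1 := Cfsg.pPrimePCore p G with hP1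
  set P := Cfsg.pCore p (G ⧸ N0) with hP
  have hPn : P.Normal := Subgroup.sSup_normal _ (fun _ hH => hH.1)
  have hPp : IsPGroup p P := isPGroup_pCore
  let ψ : ↥P1 →* ↥P := ((QuotientGroup.mk' N0).comp P1.subtype).codRestrict P (fun x => x.2)
  have hψ : ∀ x ∈ N0.subgroupOf P1, ψ x = 1 := by
    intro x hx
    apply Subtype.ext
    exact (QuotientGroup.eq_one_iff (x : G)).2 hx
  let l : (↥P1 ⧸ N0.subgroupOf P1) →* ↥P := QuotientGroup.lift (N0.subgroupOf P1) ψ hψ
  have hlmk : ∀ x : ↥P1, l (QuotientGroup.mk' _ x) = ψ x := fun x => rfl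
  have hlinj : Function.Injective l := by
    rw [injective_iff_map_eq_one]
    intro y hy
    obtain ⟨x, rfl⟩ := QuotientGroup.mk'_surjective _ y
    rw [hlmk] at hy
    have h1 : QuotientGroup.mk' N0 (x : G) = 1 := congrArg Subtype.val hy
    exact (QuotientGroup.eq_one_iff x).2 ((QuotientGroup.eq_one_iff (x : G)).1 h1)
  have hlsurj : Function.Surjective l := by
    rintro ⟨y, hy⟩
    obtain ⟨x, rfl⟩ := QuotientGroup.mk'_surjective _ y
    exact ⟨QuotientGroup.mk' _ ⟨x, hy⟩, rfl⟩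
  have hRp : IsPGroup p (↥P1 ⧸ N0.subgroupOf P1) := hPp.of_injective l hlinj
  constructor
  · intro h
    change QuotientGroup.mk' N0 g ∈ P
    apply key P hPp
      (centralizer_pCore_le_of_isPSolvable (IsPSolvable.quotient hG _) pPrimeCore_quotient_pPrimeCore)
      (fun N hN hp => le_pCore hN hp)
    intro y hy
    obtain ⟨x, rfl⟩ := QuotientGroup.mk'_surjective _ y
    obtain ⟨z, hz, hze⟩ := h x hy
    rw [SetLike.mem_coe, Subgroup.mem_comap] at hz
    have h1 := frattini_le_comap_frattini_of_surjective hlsurj hz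
    rw [Subgroup.mem_comap, hlmk] at h1
    refine ⟨ψ z, h1, ?_⟩
    change QuotientGroup.mk' N0 (P1.subtype z) = _
    rw [hze]
    simp
  · intro hg x hx
    refine ⟨⟨g, hg⟩ * ⟨x, hx⟩ * ⟨g, hg⟩⁻¹ * ⟨x, hx⟩⁻¹, ?_, rfl⟩
    rw [SetLike.mem_coe, Subgroup.mem_comap]
    apply Cfsg.Agent.Lib.Helper3.commutator_le_frattini hRp
    rw [map_mul, map_mul, map_mul, map_inv, map_inv, ← commutatorElement_def, commutator_def]
    exact Subgroup.commutator_mem_commutator (Subgroup.mem_top _) (Subgroup.mem_top _)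

end Cfsg.Agent.S4218
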