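import Cfsg.Statements.S4220
-- import your own Cfsg.Agent.* helpers here
import Cfsg.Agent.Lib.Helper63.H572.Main

set_option autoImplicit false
open Cfsg

namespace Cfsg.Agent.S4220

/-- Let `n = kp + r` with `p` prime, `1 ≤ k < p` and `r > k`, excluding the case `k = 1, r = 2`. Then a permutation group of degree `n` that is `(r + 1)`-fold transitive contains the alternating group. -/
theorem result {α : Type*} [Fintype α] [DecidableEq α] (G : Subgroup (Equiv.Perm α)) {k p r : ℕ} (hp : p.Prime) (hn : Fintype.card α = k * p + r) (hk : 1 ≤ k) (hpk : k < p) (hrk : k < r) (hex : ¬ (k = 1 ∧ r = 2)) (hG : MulAction.IsMultiplyPretransitive G α (r + 1)) : alternatingGroup α ≤ G := by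
  have hr : 3 ≤ r := by
    by_contra h
    apply hex
    omega
  exact Lib.Helper63.H572.main k α G p r hp hn hk hpk hrk hr hG

end Cfsg.Agent.S4220
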