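import Cfsg.Statements.S4222
-- import your own Cfsg.Agent.* helpers here

set_option autoImplicit false
open Cfsg

namespace Cfsg.Agent.S4222

/-- If a normal subgroup `N` of a finite group is complete (its centre is trivial and every automorphism of `N` is inner), then the group is the internal direct product of `N` and the centralizer of `N`: the centralizer is a complement to `N`. -/
theorem result {T : Type*} [Group T] [Finite T] (N : Subgroup T) [N.Normal] (hz : Subgroup.center ↥N = ⊥) (ha : Function.Surjective (MulAut.conj : ↥N →* MulAut ↥N)) : (Subgroup.centralizer (N : Set T)).IsComplement' N := by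
  apply Subgroup.isComplement'_of_disjoint_and_mul_eq_univ
  · rw [Subgroup.disjoint_def]
    intro x hxC hxN
    have hc : (⟨x, hxN⟩ : N) ∈ Subgroup.center ↥N := by
      rw [Subgroup.mem_center_iff]
      intro y
      apply Subtype.ext
      exact (Subgroup.mem_centralizer_iff.mp hxC) y y.2
    rw [hz, Subgroup.mem_bot] at hc
    exact congrArg Subtype.val hc
  · rw [Set.eq_univ_iff_forall]
    intro t
    obtain ⟨n, hn⟩ := ha (MulAut.conjNormal t)
    have hn' : ∀ y : N, (n : T) * y * (n : T)⁻¹ = t * y * t⁻¹ := by
      intro y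
      have := congrArg (fun f : MulAut N => ((f y : N) : T)) hn
      simpa using this
    refine ⟨t * (n : T)⁻¹, ?_, n, n.2, by group⟩
    rw [SetLike.mem_coe, Subgroup.mem_centralizer_iff]
    intro y hy
    have h1 := hn' (n⁻¹ * ⟨y, hy⟩ * n)
    simp only [Subgroup.coe_mul, Subgroup.coe_inv] at h1
    have h2 : y = t * ((n : T)⁻¹ * y * n) * t⁻¹ := by
      rw [← h1]; group
    calc y * (t * (n : T)⁻¹) = (t * ((n : T)⁻¹ * y * n) * t⁻¹) * (t * (n : T)⁻¹) := by rw [← h2]
      _ = t * (n : T)⁻¹ * y := by group

end Cfsg.Agent.S4222
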