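import Cfsg.Statements.S4223
import Mathlib

set_option autoImplicit false
open Cfsg

namespace Cfsg.Agent.S4223

universe u v w

/-- directly indecomposable -/
def Indec (X : Type*) [Group X] : Prop :=
  ∀ H K : Subgroup X, H.Normal → K.Normal → H ⊓ K = ⊥ → H ⊔ K = ⊤ → H = ⊥ ∨ K = ⊥

theorem exists_idem {X : Type*} [Finite X] (f : X → X) :
    ∃ k, 0 < k ∧ ∀ x, f^[k] (f^[k] x) = f^[k] x := by
  obtain ⟨i, j, hij, h⟩ : ∃ i j : ℕ, i < j ∧ f^[i] = f^[j] := by
    obtain ⟨i, j, hne, h⟩ := Finite.exists_ne_map_eq_of_infinite (fun n : ℕ => f^[n])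
    rcases Nat.lt_or_gt_of_ne hne with hlt | hlt
    · exact ⟨i, j, hlt, h⟩
    · exact ⟨j, i, hlt, h.symm⟩
  obtain ⟨d, hd, rfl⟩ : ∃ d, 0 < d ∧ j = i + d := ⟨j - i, by omega, by omega⟩
  have hper : ∀ n, i ≤ n → f^[n + d] = f^[n] := by
    intro n hn
    obtain ⟨r, rfl⟩ := Nat.exists_eq_add_of_le hn
    rw [show i + r + d = r + (i + d) by ring, Function.iterate_add, ← h, ← Function.iterate_add,
      add_comm]
  have hper2 : ∀ t n, i ≤ n → f^[n + t * d] = f^[n] := by
    intro t
    induction t with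
    | zero => intro n _; simp
    | succ t ih =>
      intro n hn
      rw [show n + (t + 1) * d = (n + t * d) + d by ring, hper _ (by omega), ih n hn]
  refine ⟨(i + 1) * d, Nat.mul_pos (by omega) hd, fun x => ?_⟩
  rw [← Function.iterate_add_apply]
  apply congrFun
  apply hper2
  calc i ≤ (i + 1) * 1 := by omega
    _ ≤ (i + 1) * d := Nat.mul_le_mul_left _ hd

theorem fitting {H : Type*} [Group H] [Finite H] (hH : Indec H) (φ : H →* H)
    (hφ : ∀ g h, φ (g * h * g⁻¹) = g * φ h * g⁻¹) :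
    Function.Injective φ ∨ ∃ k, ∀ h, φ^[k] h = 1 := by
  obtain ⟨k, hk, hidem⟩ := exists_idem (φ : H → H)
  let θ : H →* H := MonoidHom.mk' (φ^[k]) (fun a b => iterate_map_mul φ k a b)
  have hθapp : ∀ h, θ h = φ^[k] h := fun h => rfl
  have hθθ : ∀ h, θ (θ h) = θ h := fun h => hidem h
  have hiter : ∀ (n : ℕ) (g h : H), φ^[n] (g * h * g⁻¹) = g * φ^[n] h * g⁻¹ := by
    intro n g h
    induction n with
    | zero => rfl
    | succ n ih => rw [Function.iterate_succ_apply', ih, hφ, Function.iterate_succ_apply']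
  have hrn : θ.range.Normal := by
    constructor
    rintro _ ⟨y, rfl⟩ g
    exact ⟨g * y * g⁻¹, by rw [hθapp, hθapp, hiter]⟩
  have hinf : θ.ker ⊓ θ.range = ⊥ := by
    rw [eq_bot_iff]
    rintro x ⟨hx1, ⟨y, rfl⟩⟩
    have h1 : θ (θ y) = 1 := hx1
    rw [hθθ] at h1
    rw [Subgroup.mem_bot, h1]
  have hsup : θ.ker ⊔ θ.range = ⊤ := by
    rw [eq_top_iff]
    intro h _
    have h1 : h * (θ h)⁻¹ ∈ θ.ker := by
      rw [MonoidHom.mem_ker, map_mul, map_inv, hθθ, mul_inv_cancel]
    have h2 : h = h * (θ h)⁻¹ * θ h := by group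
    rw [h2]
    exact Subgroup.mul_mem_sup h1 ⟨h, rfl⟩
  rcases hH θ.ker θ.range inferInstance hrn hinf hsup with h | h
  · left
    have hinj : Function.Injective θ := (MonoidHom.ker_eq_bot_iff θ).mp h
    intro a b hab
    apply hinj
    rw [hθapp, hθapp]
    obtain ⟨k', rfl⟩ : ∃ k', k = k' + 1 := ⟨k - 1, by omega⟩
    rw [Function.iterate_succ_apply, Function.iterate_succ_apply, hab]
  · right
    refine ⟨k, fun x => ?_⟩
    have : θ x ∈ θ.range := ⟨x, rfl⟩
    rw [h, Subgroup.mem_bot] at this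
    rw [← hθapp, this]

theorem prodEquiv {N : Type*} [Group N] (A B : Subgroup N) (hA : A.Normal) (hB : B.Normal)
    (hd : A ⊓ B = ⊥) (hs : ∀ n : N, ∃ a ∈ A, ∃ b ∈ B, n = a * b) :
    ∃ ι : A × B ≃* N, ∀ (a : A) (b : B), ι (a, b) = a * b := by
  have comm : ∀ (a : A) (b : B), Commute (A.subtype a) (B.subtype b) := fun a b =>
    Subgroup.commute_of_normal_of_disjoint A B hA hB (disjoint_iff.mpr hd) a b a.2 b.2
  let F : A × B →* N := MonoidHom.noncommCoprod A.subtype B.subtype comm
  have hF : ∀ (a : A) (b : B), F (a, b) = a * b := fun a b => rfl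
  have hbij : Function.Bijective F := by
    constructor
    · rw [injective_iff_map_eq_one]
      rintro ⟨a, b⟩ hab
      rw [hF] at hab
      have h1 : (a : N) = (b : N)⁻¹ := eq_inv_of_mul_eq_one_left hab
      have h2 : (a : N) ∈ A ⊓ B := Subgroup.mem_inf.mpr ⟨a.2, h1 ▸ B.inv_mem b.2⟩
      rw [hd, Subgroup.mem_bot] at h2
      have h3 : (b : N) = 1 := by rw [h2, one_mul] at hab; exact hab
      exact Prod.ext (Subtype.ext h2) (Subtype.ext h3)
    · intro n
      obtain ⟨a, ha, b, hb, rfl⟩ := hs n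
      exact ⟨(⟨a, ha⟩, ⟨b, hb⟩), rfl⟩
  exact ⟨MulEquiv.ofBijective F hbij, fun a b => rfl⟩

theorem cancel_of_inj {H H' M M' : Type*} [Group H] [Group H'] [Group M] [Group M']
    [Finite H] [Finite H'] [Finite M] [Finite M'] (e : H × H' ≃* M × M')
    (hβ : ∀ m : M, (e.symm (m, 1)).1 = 1 → m = 1) (hcard : Nat.card H = Nat.card M) :
    Nonempty (H' ≃* M') := by
  let γ : H' →* M' := (MonoidHom.snd M M').comp (e.toMonoidHom.comp (MonoidHom.inr H H'))
  have hγ : ∀ h', γ h' = (e (1, h')).2 := fun h' => rfl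
  have hinj : Function.Injective γ := by
    rw [injective_iff_map_eq_one]
    intro h' hh
    rw [hγ] at hh
    have h1 : e (1, h') = ((e (1, h')).1, 1) := Prod.ext rfl hh
    have h2 : e.symm ((e (1, h')).1, 1) = (1, h') := by rw [← h1, e.symm_apply_apply]
    have h3 : (e (1, h')).1 = 1 := hβ _ (by rw [h2])
    rw [h3] at h1
    have h4 : e (1, h') = 1 := h1
    have h5 : ((1 : H), h') = 1 := by
      rw [← e.symm_apply_apply (1, h'), h4, map_one]
    exact (Prod.ext_iff.mp h5).2
  have hc : Nat.card H' = Nat.card M' := by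
    have h1 := Nat.card_congr e.toEquiv
    rw [Nat.card_prod, Nat.card_prod, hcard] at h1
    exact Nat.eq_of_mul_eq_mul_left Nat.card_pos h1
  exact ⟨MulEquiv.ofBijective γ ((Nat.bijective_iff_injective_and_card γ).mpr ⟨hinj, hc⟩)⟩

theorem exchange {H H' K K' : Type*} [Group H] [Group H'] [Group K] [Group K']
    [Finite H] [Finite H'] [Finite K] [Finite K'] (hH : Indec H) [Nontrivial H] (hK : Indec K)
    (e : H × H' ≃* K × K') :
    (Nonempty (H ≃* K) ∧ Nonempty (H' ≃* K')) ∨
    ∃ L : Subgroup K', Nonempty (H × L ≃* K') ∧ Nonempty (H' ≃* K × L) := by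
  let α : H →* K := (MonoidHom.fst K K').comp (e.toMonoidHom.comp (MonoidHom.inl H H'))
  let α' : H →* K' := (MonoidHom.snd K K').comp (e.toMonoidHom.comp (MonoidHom.inl H H'))
  let β : K →* H := (MonoidHom.fst H H').comp (e.symm.toMonoidHom.comp (MonoidHom.inl K K'))
  let β' : K' →* H := (MonoidHom.fst H H').comp (e.symm.toMonoidHom.comp (MonoidHom.inr K K'))
  have hα : ∀ h, e (h, 1) = (α h, α' h) := fun h => rfl
  have hβ : ∀ k, β k = (e.symm (k, 1)).1 := fun _ => rfl
  have hβ' : ∀ k, β' k = (e.symm (1, k)).1 := fun _ => rfl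
  have hsum : ∀ h, β (α h) * β' (α' h) = h := by
    intro h
    have : e.symm (α h, 1) * e.symm (1, α' h) = (h, 1) := by
      rw [← map_mul, Prod.mk_mul_mk, mul_one, one_mul, ← hα, e.symm_apply_apply]
    exact congrArg Prod.fst this
  have hcomm : ∀ k k', β k * β' k' = β' k' * β k := by
    intro k k'
    have : e.symm (k, 1) * e.symm (1, k') = e.symm (1, k') * e.symm (k, 1) := by
      rw [← map_mul, ← map_mul]; simp
    exact congrArg Prod.fst this
  -- conjugation formulas
  have hconjα : ∀ (k : K) (h : H), α (β k * h * (β k)⁻¹) = k * α h * k⁻¹ := by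
    intro k h
    have h1 : e.symm (k, 1) * (h, 1) * (e.symm (k, 1))⁻¹ = (β k * h * (β k)⁻¹, 1) := by
      apply Prod.ext
      · rfl
      · simp
    have h2 : e (β k * h * (β k)⁻¹, 1) = (k, 1) * e (h, 1) * (k, 1)⁻¹ := by
      rw [← h1, map_mul, map_mul, map_inv, e.apply_symm_apply]
    have h3 := congrArg Prod.fst h2
    rw [hα, hα] at h3
    exact h3
  have hconjα' : ∀ (k : K') (h : H), α' (β' k * h * (β' k)⁻¹) = k * α' h * k⁻¹ := by
    intro k h
    have h1 : e.symm (1, k) * (h, 1) * (e.symm (1, k))⁻¹ = (β' k * h * (β' k)⁻¹, 1) := by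
      apply Prod.ext
      · rfl
      · simp
    have h2 : e (β' k * h * (β' k)⁻¹, 1) = (1, k) * e (h, 1) * (1, k)⁻¹ := by
      rw [← h1, map_mul, map_mul, map_inv, e.apply_symm_apply]
    have h3 := congrArg Prod.snd h2
    rw [hα, hα] at h3
    exact h3
  let φ : H →* H := β.comp α
  have hφ : ∀ h, φ h = β (α h) := fun _ => rfl
  have hφn : ∀ g h, φ (g * h * g⁻¹) = g * φ h * g⁻¹ := by
    intro g h
    rw [map_mul, map_mul, map_inv]
    conv_rhs => rw [← hsum g]
    rw [hφ, hφ]
    have hc := hcomm (α h) (α' g)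
    calc β (α g) * β (α h) * (β (α g))⁻¹
        = β (α g) * (β (α h) * β' (α' g)) * (β' (α' g))⁻¹ * (β (α g))⁻¹ := by group
      _ = β (α g) * (β' (α' g) * β (α h)) * (β' (α' g))⁻¹ * (β (α g))⁻¹ := by rw [hc]
      _ = β (α g) * β' (α' g) * β (α h) * (β (α g) * β' (α' g))⁻¹ := by group
  rcases fitting hH φ hφn with hinj | ⟨k, hk⟩
  · left
    have hsurj : Function.Surjective φ := Finite.injective_iff_surjective.mp hinj
    have hαinj : Function.Injective α := fun a b hab => hinj (by rw [hφ, hφ, hab])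
    have hrn : α.range.Normal := by
      constructor
      rintro _ ⟨h, rfl⟩ k
      exact ⟨_, hconjα k h⟩
    have hinf : α.range ⊓ β.ker = ⊥ := by
      rw [eq_bot_iff]
      rintro _ ⟨⟨h, rfl⟩, hx⟩
      have h1 : φ h = 1 := hx
      have h2 : h = 1 := hinj (by rw [h1, map_one])
      rw [Subgroup.mem_bot, h2, map_one]
    have hsup : α.range ⊔ β.ker = ⊤ := by
      rw [eq_top_iff]
      intro k _
      obtain ⟨h, hh⟩ := hsurj (β k)
      have h1 : (α h)⁻¹ * k ∈ β.ker := by
        rw [MonoidHom.mem_ker, map_mul, map_inv, ← hφ, hh, inv_mul_cancel]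
      have h2 : k = α h * ((α h)⁻¹ * k) := by group
      rw [h2]
      exact Subgroup.mul_mem_sup ⟨h, rfl⟩ h1
    rcases hK α.range β.ker hrn inferInstance hinf hsup with hb | hb
    · exfalso
      obtain ⟨x, hx⟩ := exists_ne (1 : H)
      apply hx
      apply hαinj
      have : α x ∈ α.range := ⟨x, rfl⟩
      rw [hb, Subgroup.mem_bot] at this
      rw [this, map_one]
    · rw [hb, sup_bot_eq] at hsup
      have hαbij : Function.Bijective α := ⟨hαinj, MonoidHom.range_eq_top.mp hsup⟩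
      refine ⟨⟨MulEquiv.ofBijective α hαbij⟩, ?_⟩
      apply cancel_of_inj e
      · intro m hm
        have : m ∈ β.ker := hm
        rwa [hb, Subgroup.mem_bot] at this
      · exact Nat.card_congr (Equiv.ofBijective α hαbij)
  · right
    let ψ : H →* H := β'.comp α'
    have hψ : ∀ h, ψ h = β' (α' h) := fun _ => rfl
    have hψinj : Function.Injective ψ := by
      rw [injective_iff_map_eq_one]
      intro h hh
      have h1 : φ h = h := by
        have := hsum h
        rw [← hψ, hh, mul_one] at this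
        exact this
      have h2 : ∀ n, φ^[n] h = h := by
        intro n
        induction n with
        | zero => rfl
        | succ n ih => rw [Function.iterate_succ_apply', ih, h1]
      rw [← h2 k, hk]
    have hψsurj : Function.Surjective ψ := Finite.injective_iff_surjective.mp hψinj
    have hα'inj : Function.Injective α' := fun a b hab => hψinj (by rw [hψ, hψ, hab])
    have hrn : α'.range.Normal := by
      constructor
      rintro _ ⟨h, rfl⟩ k
      exact ⟨_, hconjα' k h⟩
    have hinf : α'.range ⊓ β'.ker = ⊥ := by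
      rw [eq_bot_iff]
      rintro _ ⟨⟨h, rfl⟩, hx⟩
      have h1 : ψ h = 1 := hx
      have h2 : h = 1 := hψinj (by rw [h1, map_one])
      rw [Subgroup.mem_bot, h2, map_one]
    have hs : ∀ n : K', ∃ a ∈ α'.range, ∃ b ∈ β'.ker, n = a * b := by
      intro k
      obtain ⟨h, hh⟩ := hψsurj (β' k)
      refine ⟨α' h, ⟨h, rfl⟩, (α' h)⁻¹ * k, ?_, by group⟩
      rw [MonoidHom.mem_ker, map_mul, map_inv, ← hψ, hh, inv_mul_cancel]
    obtain ⟨ι, hι⟩ := prodEquiv α'.range β'.ker hrn inferInstance hinf hs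
    refine ⟨β'.ker, ⟨(MulEquiv.prodCongr (MonoidHom.ofInjective hα'inj) (MulEquiv.refl _)).trans ι⟩, ?_⟩
    let iso3 : α'.range × (K × β'.ker) ≃* K × K' :=
      { toFun := fun x => (x.2.1, ι (x.1, x.2.2))
        invFun := fun y => ((ι.symm y.2).1, (y.1, (ι.symm y.2).2))
        left_inv := fun x => by simp
        right_inv := fun y => by simp
        map_mul' := fun x y => by
          apply Prod.ext
          · rfl
          · show ι (x.1 * y.1, x.2.2 * y.2.2) = ι (x.1, x.2.2) * ι (y.1, y.2.2)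
            rw [← map_mul]; rfl }
    apply cancel_of_inj (e.trans iso3.symm)
    · rintro ⟨_, h, rfl⟩ hm
      have h1 : (e.trans iso3.symm).symm ((⟨α' h, ⟨h, rfl⟩⟩ : α'.range), (1 : K × β'.ker))
          = e.symm (1, α' h) := by
        show e.symm (iso3 _) = _
        congr 1
        apply Prod.ext
        · rfl
        · show ι (_, 1) = _
          rw [hι]; simp
      rw [h1] at hm
      have h2 : ψ h = 1 := hm
      have h3 : h = 1 := hψinj (by rw [h2, map_one])
      apply Subtype.ext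
      show α' h = 1
      rw [h3, map_one]
    · exact Nat.card_congr (MonoidHom.ofInjective hα'inj).toEquiv

theorem splitAt {κ : Type*} (B : κ → Type*) [∀ j, Group (B j)] (j : κ) :
    Nonempty ((∀ j, B j) ≃* B j × ∀ i : {i // i ≠ j}, B i) := by
  classical
  exact ⟨{ Equiv.piSplitAt j B with map_mul' := fun f g => rfl }⟩

def reindex {κ : Type*} (B : κ → Type*) [∀ j, Group (B j)] (a b : κ) (hab : a ≠ b) :
    (∀ i : {i : {i : κ // i ≠ a} // i ≠ ⟨b, hab.symm⟩}, B i.1.1) ≃*
      (∀ i : {i : {i : κ // i ≠ b} // i ≠ ⟨a, hab⟩}, B i.1.1) where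
  toFun F i := F ⟨⟨i.1.1, fun h => i.2 (Subtype.ext h)⟩, fun h => i.1.2 (congrArg Subtype.val h)⟩
  invFun F i := F ⟨⟨i.1.1, fun h => i.2 (Subtype.ext h)⟩, fun h => i.1.2 (congrArg Subtype.val h)⟩
  left_inv F := rfl
  right_inv F := rfl
  map_mul' F F' := rfl

theorem card_ne {κ : Type*} [Finite κ] (j : κ) : Nat.card {i // i ≠ j} + 1 = Nat.card κ := by
  classical
  rw [← Nat.card_congr (Equiv.optionSubtypeNe j), Finite.card_option]

theorem ks1 (H : Type w) [Group H] [Finite H] (hH : Indec H) [Nontrivial H] :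
    ∀ (n : ℕ) (κ : Type) [Finite κ] (_ : Nat.card κ = n) (B : κ → Type v) [∀ j, Group (B j)]
      [∀ j, Finite (B j)] (_ : ∀ j, Indec (B j)) (H' : Type v) [Group H'] [Finite H']
      (_ : H × H' ≃* ∀ j, B j),
      ∃ j, Nonempty (H ≃* B j) ∧ Nonempty (H' ≃* ∀ i : {i // i ≠ j}, B i) := by
  intro n
  induction n with
  | zero =>
    intro κ _ hκ B _ _ hB H' _ _ e
    exfalso
    have hempty : IsEmpty κ := (Finite.card_eq_zero_iff).mp hκ
    obtain ⟨x, hx⟩ := exists_ne (1 : H)
    apply hx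
    have h1 : e (x, 1) = e 1 := Subsingleton.elim _ _
    exact (Prod.ext_iff.mp (e.injective h1)).1
  | succ n ih =>
    intro κ _ hκ B _ _ hB H' _ _ e
    have hne : Nonempty κ := by
      by_contra hcon
      rw [not_nonempty_iff] at hcon
      rw [Finite.card_eq_zero_iff.mpr hcon] at hκ
      omega
    obtain ⟨j1⟩ := hne
    obtain ⟨s⟩ := splitAt B j1
    rcases exchange hH (hB j1) (e.trans s) with ⟨h1, h2⟩ | ⟨L, ⟨e1⟩, ⟨e2⟩⟩
    · exact ⟨j1, h1, h2⟩
    · have hcard : Nat.card {i // i ≠ j1} = n := by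
        have := card_ne j1
        omega
      obtain ⟨j', hj', ⟨e3⟩⟩ := ih {i // i ≠ j1} hcard (fun i => B i.1) (fun i => hB i.1) L e1
      refine ⟨j'.1, hj', ?_⟩
      have hne' : j1 ≠ j'.1 := fun h => j'.2 h.symm
      obtain ⟨s'⟩ := splitAt (fun i : {i // i ≠ j'.1} => B i.1) ⟨j1, hne'⟩
      have e4 : (∀ i : {i : {i : κ // i ≠ j1} // i ≠ j'}, B i.1.1) ≃*
          (∀ i : {i : {i : κ // i ≠ j'.1} // i ≠ ⟨j1, hne'⟩}, B i.1.1) := reindex B j1 j'.1 hne'
      exact ⟨e2.trans ((MulEquiv.prodCongr (MulEquiv.refl _) (e3.trans e4)).trans s'.symm)⟩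

theorem ks_general :
    ∀ (n : ℕ) (ι κ : Type) [Finite ι] [Finite κ] (_ : Nat.card ι = n)
      (A : ι → Type u) (B : κ → Type v) [∀ i, Group (A i)] [∀ j, Group (B j)]
      [∀ i, Finite (A i)] [∀ j, Finite (B j)]
      (_ : ∀ i, Nontrivial (A i) ∧ Indec (A i)) (_ : ∀ j, Nontrivial (B j) ∧ Indec (B j))
      (_ : (∀ i, A i) ≃* ∀ j, B j),
      ∃ σ : ι ≃ κ, ∀ i, Nonempty (A i ≃* B (σ i)) := by
  intro n
  induction n with
  | zero =>
    intro ι κ _ _ hι A B _ _ _ _ hA hB e
    have hempty : IsEmpty ι := (Finite.card_eq_zero_iff).mp hι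
    have hempty' : IsEmpty κ := by
      by_contra hcon
      rw [not_isEmpty_iff] at hcon
      obtain ⟨j⟩ := hcon
      classical
      have := (hB j).1
      obtain ⟨x, hx⟩ := exists_ne (1 : B j)
      apply hx
      have h1 : e.symm (Pi.mulSingle j x) = e.symm 1 := Subsingleton.elim _ _
      have h2 := e.symm.injective h1
      have h3 := congrFun h2 j
      simpa using h3
    exact ⟨Equiv.equivOfIsEmpty _ _, fun i => hempty.elim i⟩
  | succ n ih =>
    intro ι κ _ _ hι A B _ _ _ _ hA hB e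
    classical
    have hne : Nonempty ι := by
      by_contra hcon
      rw [not_nonempty_iff] at hcon
      rw [Finite.card_eq_zero_iff.mpr hcon] at hι
      omega
    obtain ⟨i0⟩ := hne
    obtain ⟨sA⟩ := splitAt A i0
    let e' : A i0 × (∀ i : {i // i ≠ i0}, A i) ≃* ∀ j, B j := sA.symm.trans e
    let F : (∀ i : {i // i ≠ i0}, A i) →* ∀ j, B j := e'.toMonoidHom.comp (MonoidHom.inr _ _)
    have hF : Function.Injective F := by
      intro a b hab
      have := e'.injective hab
      exact (Prod.ext_iff.mp this).2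
    let t : (∀ i : {i // i ≠ i0}, A i) ≃* F.range := MonoidHom.ofInjective hF
    have := (hA i0).1
    obtain ⟨j0, hj0, ⟨e5⟩⟩ := ks1 (A i0) (hA i0).2 (Nat.card κ) κ rfl B (fun j => (hB j).2) F.range
      ((MulEquiv.prodCongr (MulEquiv.refl _) t.symm).trans e')
    have hcard : Nat.card {i // i ≠ i0} = n := by
      have := card_ne i0
      omega
    obtain ⟨σ', hσ'⟩ := ih {i // i ≠ i0} {j // j ≠ j0} hcard (fun i => A i.1) (fun j => B j.1)
      (fun i => hA i.1) (fun j => hB j.1) (t.trans e5)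
    let σ : ι ≃ κ := (Equiv.optionSubtypeNe i0).symm.trans
      ((Equiv.optionCongr σ').trans (Equiv.optionSubtypeNe j0))
    refine ⟨σ, fun i => ?_⟩
    by_cases hi : i = i0
    · subst hi
      have : σ i = j0 := by simp [σ]
      rw [this]; exact hj0
    · have : σ i = (σ' ⟨i, hi⟩).1 := by simp [σ, hi]
      rw [this]; exact hσ' ⟨i, hi⟩

/-- If a finite group is isomorphic both to a direct product of `m` directly indecomposable nontrivial groups and to a direct product of `n` such groups (a group is directly indecomposable when it is not the internal direct product of two nontrivial normal subgroups), then `m = n` and the factors are isomorphic in pairs after a suitable matching. -/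
theorem result {m n : ℕ} {A : Fin m → Type*} {B : Fin n → Type*} [∀ i, Group (A i)] [∀ j, Group (B j)] [∀ i, Finite (A i)] [∀ j, Finite (B j)] (hA : ∀ i, Nontrivial (A i) ∧ ∀ H K : Subgroup (A i), H.Normal → K.Normal → H ⊓ K = ⊥ → H ⊔ K = ⊤ → H = ⊥ ∨ K = ⊥) (hB : ∀ j, Nontrivial (B j) ∧ ∀ H K : Subgroup (B j), H.Normal → K.Normal → H ⊓ K = ⊥ → H ⊔ K = ⊤ → H = ⊥ ∨ K = ⊥) (e : ((i : Fin m) → A i) ≃* ((j : Fin n) → B j)) : ∃ σ : Fin m ≃ Fin n, ∀ i, Nonempty (A i ≃* B (σ i)) :=
  ks_general (Nat.card (Fin m)) (Fin m) (Fin n) rfl A B hA hB e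

end Cfsg.Agent.S4223
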