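import Cfsg.Statements.S4227
-- import your own Cfsg.Agent.* helpers here
import Cfsg.Agent.S0017
import Cfsg.Agent.S0144
import Cfsg.Agent.Lib.Helper66.PLength
import Cfsg.Agent.Lib.Helper80.PSolv
import Cfsg.Agent.Lib.Helper1.Coprime2
import Cfsg.Agent.Lib.Helper1.Cores
import Cfsg.Agent.Lib.Helper3.PGroup

set_option autoImplicit false
open Cfsg

namespace Cfsg.Agent.S4227


theorem lemE {V : Type*} [CommGroup V] (h3 : ∀ v : V, v ^ 3 = 1) (ξ a b c : MulAut V)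
    (hN : ∀ v : V, v * ξ v * ξ (ξ v) = 1)
    (h1 : a * ξ = ξ * c) (h2 : a * (ξ * ξ) = ξ * ξ * b)
    (v : V) (ha : a v = v) (hb : b v = v⁻¹) (hc : c v = v⁻¹) : v = 1 := by
  have e1 := hN v
  have e2 := congrArg a e1
  have h1' : a (ξ v) = ξ (c v) := by
    have := congrArg (fun f : MulAut V => f v) h1
    simpa [MulAut.mul_apply] using this
  have h2' : a (ξ (ξ v)) = ξ (ξ (b v)) := by
    have := congrArg (fun f : MulAut V => f v) h2
    simpa [MulAut.mul_apply] using this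
  rw [map_mul, map_mul, map_one, ha, h1', h2', hb, hc, map_inv, map_inv] at e2
  have e3 : v * v = 1 := by
    calc v * v = (v * ξ v * ξ (ξ v)) * (v * (ξ v)⁻¹ * (ξ (ξ v))⁻¹) := by
          rw [mul_mul_mul_comm, mul_mul_mul_comm v (ξ v) v (ξ v)⁻¹, mul_inv_cancel,
            mul_inv_cancel, mul_one, mul_one]
      _ = 1 := by rw [e1, e2, one_mul]
  have e4 := h3 v
  rw [pow_succ, pow_two, e3, one_mul] at e4
  exact e4

theorem lemD {V : Type*} [CommGroup V] (h3 : ∀ v : V, v ^ 3 = 1) (ξ α : MulAut V)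
    (hξ : ξ * ξ * ξ = 1) (hα : α * α = 1)
    (hprod : α * (ξ * α * ξ⁻¹) * (ξ * (ξ * α * ξ⁻¹) * ξ⁻¹) = 1)
    (hN : ∀ v : V, v * ξ v * ξ (ξ v) = 1) : α = 1 := by
  set α₂ := ξ * α * ξ⁻¹ with hα₂
  set α₃ := ξ * α₂ * ξ⁻¹ with hα₃
  have i2 : α₂ * α₂ = 1 := by
    rw [hα₂]
    calc ξ * α * ξ⁻¹ * (ξ * α * ξ⁻¹) = ξ * (α * α) * ξ⁻¹ := by group
      _ = 1 := by rw [hα]; group
  have i3 : α₃ * α₃ = 1 := by
    rw [hα₃]
    calc ξ * α₂ * ξ⁻¹ * (ξ * α₂ * ξ⁻¹) = ξ * (α₂ * α₂) * ξ⁻¹ := by group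
      _ = 1 := by rw [i2]; group
  have r3 : α₃ = α * α₂ := by
    have : α * α₂ * α₃ * α₃ = α₃ := by rw [hprod, one_mul]
    rw [mul_assoc, i3, mul_one] at this
    exact this.symm
  have r3' : α₃ = α₂ * α := by
    have h1 : α₃⁻¹ = α₃ := inv_eq_of_mul_eq_one_left i3
    have h2 : α⁻¹ = α := inv_eq_of_mul_eq_one_left hα
    have h4 : α₂⁻¹ = α₂ := inv_eq_of_mul_eq_one_left i2
    rw [← h1, r3, mul_inv_rev, h2, h4]
  have c1 : α₂ * ξ = ξ * α := by rw [hα₂]; group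
  have c2 : α₃ * ξ = ξ * α₂ := by rw [hα₃]; group
  have hξi : ξ⁻¹ = ξ * ξ := by
    apply inv_eq_of_mul_eq_one_left
    exact hξ
  have c3 : α * ξ = ξ * α₃ := by
    rw [hα₃, hα₂]
    have : ξ * (ξ * (ξ * α * ξ⁻¹) * ξ⁻¹) = (ξ * ξ * ξ) * α * (ξ⁻¹ * ξ⁻¹) := by group
    rw [this, hξ, one_mul, hξi]
    have h5 : ξ * ξ * (ξ * ξ) = ξ := by
      calc ξ * ξ * (ξ * ξ) = (ξ * ξ * ξ) * ξ := by group
        _ = ξ := by rw [hξ, one_mul]
    rw [h5]
  by_contra hne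
  obtain ⟨u, hu⟩ : ∃ u : V, α u ≠ u := by
    by_contra hcon
    push Not at hcon
    exact hne (MulEquiv.ext hcon)
  have ap : ∀ (f g : MulAut V) (v : V), (f * g) v = f (g v) := fun _ _ _ => rfl
  have hαα : ∀ v : V, α (α v) = v := fun v => by rw [← ap, hα]; rfl
  have h22 : ∀ v : V, α₂ (α₂ v) = v := fun v => by rw [← ap, i2]; rfl
  have hcomm : ∀ v : V, α (α₂ v) = α₂ (α v) := fun v => by rw [← ap, ← ap, ← r3, ← r3']
  have h3a : ∀ v : V, α₃ v = α₂ (α v) := fun v => by rw [← ap, ← r3']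
  obtain ⟨w, hw1, hαw⟩ : ∃ w : V, w ≠ 1 ∧ α w = w⁻¹ := by
    refine ⟨u * (α u)⁻¹, ?_, ?_⟩
    · intro h
      apply hu
      rw [mul_inv_eq_one] at h
      exact h.symm
    · rw [map_mul, map_inv, hαα, mul_inv_rev, inv_inv]
  have hp : w * α₂ w = 1 := by
    apply lemE h3 ξ α₂ α₃ α hN c1
    · calc α₂ * (ξ * ξ) = (α₂ * ξ) * ξ := by group
        _ = ξ * (α * ξ) := by rw [c1]; group
        _ = ξ * ξ * α₃ := by rw [c3]; group
    · rw [map_mul, h22, mul_comm]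
    · rw [h3a, map_mul, hcomm, hαw, map_mul, map_inv, map_inv, h22, mul_inv, mul_comm]
    · rw [map_mul, hcomm, hαw, map_inv, mul_inv]
  have hm : w * (α₂ w)⁻¹ = 1 := by
    apply lemE h3 ξ α₃ α α₂ hN c2
    · calc α₃ * (ξ * ξ) = (α₃ * ξ) * ξ := by group
        _ = ξ * (α₂ * ξ) := by rw [c2]; group
        _ = ξ * ξ * α := by rw [c1]; group
    · rw [h3a, map_mul, map_inv, hcomm, hαw, map_mul, map_inv, map_inv, map_inv, h22, inv_inv,
        mul_comm]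
    · rw [map_mul, map_inv, hcomm, hαw, map_inv, mul_inv]
    · rw [map_mul, map_inv, h22, mul_inv, inv_inv, mul_comm]
  have hww : w * w = 1 := by
    calc w * w = (w * α₂ w) * (w * (α₂ w)⁻¹) := by
          rw [mul_mul_mul_comm, mul_inv_cancel, mul_one]
      _ = 1 := by rw [hp, hm, one_mul]
  have e4 := h3 w
  rw [pow_succ, pow_two, hww, one_mul] at e4
  exact hw1 e4

open Cfsg.Agent.Lib.Helper1 Cfsg.Agent.Lib.Helper66 in
theorem plen_of_index {X : Type*} [Group X] [Finite X] (p : ℕ) [hp : Fact p.Prime]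
    (h : ¬ p ∣ (Cfsg.pCore p X).index) : Cfsg.PLengthLE p 1 X := by
  rw [pLengthLE_iff, eq_top_iff]
  have hn : (Cfsg.pCore p X).Normal := pCore_normal p X
  have h2 : Cfsg.pCore p X ≤ ups p X 2 := by
    obtain ⟨m, hm⟩ := IsPGroup.iff_card.1 (pCore_isPGroup p X)
    apply le_ups_succ_of_odd (j := 1) (X := ⊥) (m := m) (by decide) hn bot_le
    rw [Subgroup.relIndex_bot_left, hm]
  apply le_ups_succ_of_even (j := 2) (X := Cfsg.pCore p X) (by decide) inferInstance h2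
  rw [Subgroup.relIndex_top_right]
  exact ((Nat.Prime.coprime_iff_not_dvd hp.out).2 h).symm

theorem sq_eq_one {X : Type*} [Group X] (h6 : ∀ x : X, x ^ 6 = 1) {x : X} {k : ℕ}
    (hx : x ^ (2 ^ k) = 1) : x ^ 2 = 1 := by
  have h1 : x ^ (Nat.gcd (2 ^ k) 6) = 1 := pow_gcd_eq_one.2 ⟨hx, h6 x⟩
  have h2 : Nat.gcd (2 ^ k) 6 ∣ 2 := by
    have h3 : Nat.Coprime (2 ^ k) 3 := Nat.Coprime.pow_left k (by decide)
    have h4 : Nat.gcd (2 ^ k) (2 * 3) = Nat.gcd (2 ^ k) 2 := Nat.Coprime.gcd_mul_right_cancel_right 2 h3.symm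
    have h5 : (6 : ℕ) = 2 * 3 := rfl
    rw [h5, h4]
    exact Nat.gcd_dvd_right _ _
  obtain ⟨c, hc⟩ := h2
  rw [hc, pow_mul, h1, one_pow]

theorem cube_eq_one {X : Type*} [Group X] (h6 : ∀ x : X, x ^ 6 = 1) {x : X} {k : ℕ}
    (hx : x ^ (3 ^ k) = 1) : x ^ 3 = 1 := by
  have h1 : x ^ (Nat.gcd (3 ^ k) 6) = 1 := pow_gcd_eq_one.2 ⟨hx, h6 x⟩
  have h2 : Nat.gcd (3 ^ k) 6 ∣ 3 := by
    have h3 : Nat.Coprime (3 ^ k) 2 := Nat.Coprime.pow_left k (by decide)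
    have h4 : Nat.gcd (3 ^ k) (3 * 2) = Nat.gcd (3 ^ k) 3 := Nat.Coprime.gcd_mul_right_cancel_right 3 h3.symm
    have h5 : (6 : ℕ) = 3 * 2 := rfl
    rw [h5, h4]
    exact Nat.gcd_dvd_right _ _
  obtain ⟨c, hc⟩ := h2
  rw [hc, pow_mul, h1, one_pow]

theorem eq_one_of_sq_cube {X : Type*} [Group X] {x : X} (h2 : x ^ 2 = 1) (h3 : x ^ 3 = 1) :
    x = 1 := by
  rw [pow_succ, h2, one_mul] at h3
  exact h3

theorem exp_quot {X : Type*} [Group X] (h6 : ∀ x : X, x ^ 6 = 1) (N : Subgroup X) [N.Normal] :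
    ∀ y : X ⧸ N, y ^ 6 = 1 := by
  intro y
  obtain ⟨x, rfl⟩ := QuotientGroup.mk'_surjective N y
  rw [← map_pow, h6, map_one]

theorem solv {X : Type*} [Group X] [Finite X] (h6 : ∀ x : X, x ^ 6 = 1) : Group.IsSolvable X := by
  have hpos : Nat.card X ≠ 0 := Nat.card_pos.ne'
  obtain ⟨a, m, hm2, hm⟩ := Nat.exists_eq_pow_mul_and_not_dvd hpos 2 (by decide)
  have hm0 : m ≠ 0 := by
    rintro rfl
    exact hm2 (dvd_zero 2)
  obtain ⟨b, m', hm3, hm'⟩ := Nat.exists_eq_pow_mul_and_not_dvd hm0 3 (by decide)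
  have hm1 : m' = 1 := by
    by_contra hne
    obtain ⟨r, hr, hrm⟩ := Nat.exists_prime_and_dvd hne
    haveI : Fact r.Prime := ⟨hr⟩
    have hrX : r ∣ Nat.card X := by
      rw [hm, hm']
      exact (hrm.mul_left _).mul_left _
    obtain ⟨x, hx⟩ := exists_prime_orderOf_dvd_card' r hrX
    have h1 : r ∣ 6 := hx ▸ orderOf_dvd_of_pow_eq_one (h6 x)
    have h2 : r ∣ 2 * 3 := h1
    rcases (Nat.Prime.dvd_mul hr).1 h2 with h | h
    · rw [(Nat.prime_dvd_prime_iff_eq hr Nat.prime_two).1 h] at hrm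
      apply hm2
      rw [hm']
      exact hrm.mul_left _
    · rw [(Nat.prime_dvd_prime_iff_eq hr Nat.prime_three).1 h] at hrm
      exact hm3 hrm
  rw [hm1, mul_one] at hm'
  rw [hm'] at hm
  exact Cfsg.Agent.S0144.result 2 3 a b Nat.prime_two Nat.prime_three hm

open Cfsg.Agent.Lib.Helper1 in
theorem B2 {X : Type*} [Group X] [Finite X] (h6 : ∀ x : X, x ^ 6 = 1)
    (hC : Subgroup.centralizer (Cfsg.pCore 2 X : Set X) ≤ Cfsg.pCore 2 X) :
    ¬ 2 ∣ (Cfsg.pCore 2 X).index := by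
  intro hdvd
  haveI : Fact (Nat.Prime 2) := ⟨Nat.prime_two⟩
  haveI hn : (Cfsg.pCore 2 X).Normal := pCore_normal 2 X
  have hP := pCore_isPGroup 2 X
  rw [Subgroup.index_eq_card] at hdvd
  obtain ⟨tb, htb⟩ := exists_prime_orderOf_dvd_card' 2 hdvd
  obtain ⟨g, rfl⟩ := QuotientGroup.mk'_surjective _ tb
  have ht2 : (g ^ 3) ^ 2 = 1 := by rw [← pow_mul]; exact h6 g
  have htP : g ^ 3 ∉ Cfsg.pCore 2 X := by
    intro hmem
    have h1 : (QuotientGroup.mk' (Cfsg.pCore 2 X) g) ^ 3 = 1 := by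
      rw [← map_pow]
      exact (QuotientGroup.eq_one_iff _).2 hmem
    have h2 := orderOf_dvd_of_pow_eq_one h1
    rw [htb] at h2
    exact absurd h2 (by decide)
  have htC : g ^ 3 ∉ Subgroup.centralizer (Cfsg.pCore 2 X : Set X) := fun h => htP (hC h)
  rw [Subgroup.mem_centralizer_iff] at htC
  push Not at htC
  obtain ⟨v, hv, hvt⟩ := htC
  set t := g ^ 3 with ht
  have hv2 : v ^ 2 = 1 := by
    obtain ⟨k, hk⟩ := hP ⟨v, hv⟩
    exact sq_eq_one h6 (k := k) (congrArg Subtype.val hk)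
  have hti : t⁻¹ = t := by
    apply inv_eq_of_mul_eq_one_left
    rw [← pow_two]; exact ht2
  have hw : v * (t * v * t⁻¹) ∈ Cfsg.pCore 2 X :=
    Subgroup.mul_mem _ hv (hn.conj_mem v hv t)
  have hw2 : (v * (t * v * t⁻¹)) ^ 2 = 1 := by
    obtain ⟨k, hk⟩ := hP ⟨_, hw⟩
    exact sq_eq_one h6 (k := k) (congrArg Subtype.val hk)
  have hw' : v * (t * v * t⁻¹) = (v * t) ^ 2 := by
    rw [hti, pow_two]; group
  have hw3 : (v * (t * v * t⁻¹)) ^ 3 = 1 := by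
    rw [hw', ← pow_mul]; exact h6 _
  have hw1 := eq_one_of_sq_cube hw2 hw3
  apply hvt
  have hvi : v⁻¹ = v := by
    apply inv_eq_of_mul_eq_one_left
    rw [← pow_two]; exact hv2
  have h5 : t * v * t⁻¹ = v := by
    have h6' := inv_eq_of_mul_eq_one_right hw1
    rw [← h6', hvi]
  calc v * t = (t * v * t⁻¹) * t := by rw [h5]
    _ = t * v := by group

open Cfsg.Agent.Lib.Helper1 in
open scoped commutatorElement in
theorem B3 {X : Type*} [Group X] [Finite X] [Group.IsSolvable X] (h6 : ∀ x : X, x ^ 6 = 1)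
    (hC : Subgroup.centralizer (Cfsg.pCore 3 X : Set X) ≤ Cfsg.pCore 3 X) :
    ¬ 3 ∣ (Cfsg.pCore 3 X).index := by
  intro hdvd
  haveI : Fact (Nat.Prime 2) := ⟨Nat.prime_two⟩
  haveI : Fact (Nat.Prime 3) := ⟨Nat.prime_three⟩
  obtain ⟨P, hPdef⟩ : ∃ P : Subgroup X, P = Cfsg.pCore 3 X := ⟨_, rfl⟩
  rw [← hPdef] at hC hdvd
  haveI hn : P.Normal := hPdef ▸ pCore_normal 3 X
  have hP : IsPGroup 3 P := hPdef ▸ pCore_isPGroup 3 X
  have hP3 : ∀ u ∈ P, u ^ 3 = 1 := by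
    intro u hu
    obtain ⟨k, hk⟩ := hP ⟨u, hu⟩
    exact cube_eq_one h6 (k := k) (congrArg Subtype.val hk)
  have hY6 := exp_quot h6 P
  have hY3 : Cfsg.pCore 3 (X ⧸ P) = ⊥ := by
    have hLn : ((Cfsg.pCore 3 (X ⧸ P)).comap (QuotientGroup.mk' P)).Normal :=
      (pCore_normal 3 _).comap _
    have hLp : IsPGroup 3 ((Cfsg.pCore 3 (X ⧸ P)).comap (QuotientGroup.mk' P)) := by
      rintro ⟨g, hg⟩
      refine ⟨2, Subtype.ext ?_⟩
      obtain ⟨k, hk⟩ := (pCore_isPGroup 3 (X ⧸ P)) ⟨_, hg⟩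
      have h1 : (QuotientGroup.mk' P g) ^ 3 = 1 :=
        cube_eq_one hY6 (k := k) (congrArg Subtype.val hk)
      rw [← map_pow] at h1
      have h2 := hP3 _ ((QuotientGroup.eq_one_iff _).1 h1)
      change g ^ (3 ^ 2) = 1
      rw [← h2, ← pow_mul]; rfl
    have hle : (Cfsg.pCore 3 (X ⧸ P)).comap (QuotientGroup.mk' P) ≤ P := by
      have := le_pCore hLn hLp
      rw [← hPdef] at this
      exact this
    rw [eq_bot_iff]
    intro y hy
    obtain ⟨g, rfl⟩ := QuotientGroup.mk'_surjective P y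
    exact (QuotientGroup.eq_one_iff g).2 (hle hy)
  have hY2 : Cfsg.pPrimeCore 2 (X ⧸ P) = ⊥ := by
    have hcop := pPrimeCore_coprime 2 (X ⧸ P)
    have hp : IsPGroup 3 (Cfsg.pPrimeCore 2 (X ⧸ P)) := by
      intro y
      refine ⟨1, ?_⟩
      have h1 : (y ^ 3) ^ 2 = 1 := by
        rw [← pow_mul]; exact Subtype.ext (hY6 y)
      have h2 : (y ^ 3) ^ (Nat.card (Cfsg.pPrimeCore 2 (X ⧸ P))) = 1 := pow_card_eq_one'
      have h3 := pow_gcd_eq_one.2 ⟨h2, h1⟩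
      rw [Nat.Coprime.gcd_eq_one hcop, pow_one] at h3
      rw [pow_one]; exact h3
    have := le_pCore (pPrimeCore_normal 2 _) hp
    rw [hY3] at this
    exact le_bot_iff.1 this
  have hCQ := Cfsg.Agent.S0017.result (G := X ⧸ P) 2 hY2
  obtain ⟨Q, hQdef⟩ : ∃ Q : Subgroup (X ⧸ P), Q = Cfsg.pCore 2 (X ⧸ P) := ⟨_, rfl⟩
  rw [← hQdef] at hCQ
  haveI hQn : Q.Normal := hQdef ▸ pCore_normal 2 _
  have hQp : IsPGroup 2 Q := hQdef ▸ pCore_isPGroup 2 _
  have hQ2 : ∀ a ∈ Q, a * a = 1 := by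
    intro a ha
    obtain ⟨k, hk⟩ := hQp ⟨a, ha⟩
    rw [← pow_two]
    exact sq_eq_one hY6 (k := k) (congrArg Subtype.val hk)
  rw [Subgroup.index_eq_card] at hdvd
  obtain ⟨xb, hxb⟩ := exists_prime_orderOf_dvd_card' 3 hdvd
  have hxb3 : xb ^ 3 = 1 := hxb ▸ pow_orderOf_eq_one xb
  have hxbQ : xb ∉ Q := by
    intro hmem
    have h1 := hQ2 xb hmem
    rw [← pow_two] at h1
    have h2 := orderOf_dvd_of_pow_eq_one h1
    rw [hxb] at h2
    exact absurd h2 (by decide)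
  have hxbC : xb ∉ Subgroup.centralizer (Q : Set (X ⧸ P)) := fun h => hxbQ (hCQ h)
  rw [Subgroup.mem_centralizer_iff] at hxbC
  push Not at hxbC
  obtain ⟨a, haQ, hax⟩ := hxbC
  have hbQ : xb * a * xb⁻¹ ∈ Q := hQn.conj_mem a haQ xb
  have hcQ : xb * (xb * a * xb⁻¹) * xb⁻¹ ∈ Q := hQn.conj_mem _ hbQ xb
  obtain ⟨b, hb⟩ : ∃ b, b = xb * a * xb⁻¹ := ⟨_, rfl⟩
  obtain ⟨c, hc⟩ : ∃ c, c = xb * b * xb⁻¹ := ⟨_, rfl⟩
  have hca : xb * c * xb⁻¹ = a := by
    rw [hc, hb]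
    have h33 : xb * xb * xb = 1 := by rw [← hxb3, pow_succ, pow_two]
    have : xb * (xb * (xb * a * xb⁻¹) * xb⁻¹) * xb⁻¹ = (xb * xb * xb) * a * (xb * xb * xb)⁻¹ := by
      group
    rw [this, h33]; group
  rw [← hb] at hbQ hcQ
  rw [← hc] at hcQ
  have hsb1 : a * b ≠ 1 := by
    intro h
    apply hax
    have h1 : b = a := by
      have h2 := hQ2 a haQ
      exact (mul_left_cancel (h.trans h2.symm))
    rw [hb] at h1
    calc a * xb = (xb * a * xb⁻¹) * xb := by rw [h1]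
      _ = xb * a := by group
  have hrel : (a * b) * (xb * (a * b) * xb⁻¹) * (xb * (xb * (a * b) * xb⁻¹) * xb⁻¹) = 1 := by
    have h1 : xb * (a * b) * xb⁻¹ = b * c := by
      rw [hc, hb]; group
    have h2 : xb * (b * c) * xb⁻¹ = c * a := by
      have : xb * (b * c) * xb⁻¹ = (xb * b * xb⁻¹) * (xb * c * xb⁻¹) := by group
      rw [this, hca, ← hc]
    rw [h1, h2]
    calc a * b * (b * c) * (c * a) = a * (b * b) * (c * c) * a := by group
      _ = 1 := by rw [hQ2 b hbQ, hQ2 c hcQ, mul_one, mul_one, hQ2 a haQ]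
  have hsbQ : a * b ∈ Q := Q.mul_mem haQ hbQ
  obtain ⟨sb, hsb⟩ : ∃ sb, sb = a * b := ⟨_, rfl⟩
  rw [← hsb] at hrel hsb1 hsbQ
  obtain ⟨gx, hgx⟩ := QuotientGroup.mk'_surjective P xb
  obtain ⟨gs, hgs⟩ := QuotientGroup.mk'_surjective P sb
  obtain ⟨x, hx⟩ : ∃ x, x = gx ^ 4 := ⟨_, rfl⟩
  obtain ⟨s, hs⟩ : ∃ s, s = gs ^ 3 := ⟨_, rfl⟩
  have hmx : QuotientGroup.mk' P x = xb := by
    rw [hx, map_pow, hgx, pow_succ, hxb3, one_mul]
  have hms : QuotientGroup.mk' P s = sb := by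
    rw [hs, map_pow, hgs, pow_succ, pow_two, hQ2 sb hsbQ, one_mul]
  have hx3 : x ^ 3 = 1 := by
    rw [hx, ← pow_mul]
    have : (4 * 3 : ℕ) = 6 * 2 := rfl
    rw [this, pow_mul, h6, one_pow]
  have hs2 : s * s = 1 := by
    rw [hs, ← pow_two, ← pow_mul]; exact h6 gs
  have heP : s * (x * s * x⁻¹) * (x * (x * s * x⁻¹) * x⁻¹) ∈ P := by
    rw [← QuotientGroup.eq_one_iff]
    have : ((s * (x * s * x⁻¹) * (x * (x * s * x⁻¹) * x⁻¹) : X) : X ⧸ P)
        = QuotientGroup.mk' P (s * (x * s * x⁻¹) * (x * (x * s * x⁻¹) * x⁻¹)) := rfl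
    rw [this]
    simp only [map_mul, map_inv, hmx, hms]
    exact hrel
  have hsP : s ∉ P := by
    intro h
    apply hsb1
    rw [← hms]
    exact (QuotientGroup.eq_one_iff s).2 h
  have hNorm : ∀ u ∈ P, u * (x * u * x⁻¹) * (x * (x * u * x⁻¹) * x⁻¹) = 1 := by
    intro u hu
    have hw : u * (x * u * x⁻¹) * (x * (x * u * x⁻¹) * x⁻¹) ∈ P :=
      P.mul_mem (P.mul_mem hu (hn.conj_mem u hu x)) (hn.conj_mem _ (hn.conj_mem u hu x) x)
    have hw' : u * (x * u * x⁻¹) * (x * (x * u * x⁻¹) * x⁻¹) = (u * x) ^ 3 := by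
      have h33 : x * x * x = 1 := by rw [← hx3, pow_succ, pow_two]
      have : u * (x * u * x⁻¹) * (x * (x * u * x⁻¹) * x⁻¹)
          = (u * x) * (u * x) * (u * x) * (x * x * x)⁻¹ := by group
      rw [this, h33, inv_one, mul_one, pow_succ, pow_two]
    apply eq_one_of_sq_cube _ (hP3 _ hw)
    rw [hw', ← pow_mul]; exact h6 _
  obtain ⟨Φ, hΦdef⟩ : ∃ Φ : Subgroup X, Φ = (frattini P).map P.subtype := ⟨_, rfl⟩
  haveI hΦn : Φ.Normal := by
    have h1 := normalizer_le_normalizer_map_of_characteristic P (frattini P)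
    rw [Subgroup.normalizer_eq_top, ← hΦdef] at h1
    exact Subgroup.normalizer_eq_top_iff.1 (top_le_iff.1 h1)
  have hcommΦ : ∀ u ∈ P, ∀ v ∈ P, u * v * u⁻¹ * v⁻¹ ∈ Φ := by
    intro u hu v hv
    have h1 : ⁅(⟨u, hu⟩ : P), ⟨v, hv⟩⁆ ∈ commutator P :=
      Subgroup.commutator_mem_commutator (Subgroup.mem_top _) (Subgroup.mem_top _)
    have h2 := Cfsg.Agent.Lib.Helper3.commutator_le_frattini hP h1
    rw [hΦdef]
    exact ⟨_, h2, rfl⟩
  obtain ⟨π, hπ⟩ : ∃ π : X →* X ⧸ Φ, π = QuotientGroup.mk' Φ := ⟨_, rfl⟩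
  have hπs : Function.Surjective π := hπ ▸ QuotientGroup.mk'_surjective Φ
  have hπ1 : ∀ g : X, π g = 1 ↔ g ∈ Φ := by
    intro g
    rw [hπ]
    exact QuotientGroup.eq_one_iff g
  have hVc : ∀ v w : ↥(P.map π), v * w = w * v := by
    rintro ⟨_, u, hu, rfl⟩ ⟨_, u', hu', rfl⟩
    apply Subtype.ext
    change π u * π u' = π u' * π u
    have h1 : π (u * u' * u⁻¹ * u'⁻¹) = 1 := (hπ1 _).2 (hcommΦ u hu u' hu')
    rw [map_mul, map_mul, map_mul, map_inv, map_inv] at h1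
    calc π u * π u' = (π u * π u' * (π u)⁻¹ * (π u')⁻¹) * (π u' * π u) := by group
      _ = _ := by rw [h1, one_mul]
  letI : CommGroup ↥(P.map π) := { (inferInstance : Group ↥(P.map π)) with mul_comm := hVc }
  haveI hVn : (P.map π).Normal := hn.map π hπs
  have hα1 : (MulAut.conjNormal (π s) : MulAut ↥(P.map π)) = 1 := by
    apply lemD (V := ↥(P.map π)) _ (MulAut.conjNormal (π x)) (MulAut.conjNormal (π s))
    · rw [← map_mul, ← map_mul, ← map_mul, ← map_mul]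
      have h33 : x * x * x = 1 := by rw [← hx3, pow_succ, pow_two]
      rw [h33, map_one, map_one]
    · rw [← map_mul, ← map_mul, hs2, map_one, map_one]
    · simp only [← map_mul, ← map_inv]
      apply MulEquiv.ext
      rintro ⟨_, u, hu, rfl⟩
      apply Subtype.ext
      rw [MulAut.conjNormal_apply]
      change π _ * π u * (π _)⁻¹ = π u
      have h1 := hcommΦ _ heP u hu
      rw [← hπ1, map_mul, map_mul, map_mul, map_inv, map_inv] at h1
      exact mul_inv_eq_one.1 h1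
    · rintro ⟨_, u, hu, rfl⟩
      apply Subtype.ext
      change π u * (MulAut.conjNormal (π x) (⟨π u, _⟩ : ↥(P.map π)) : X ⧸ Φ)
        * (MulAut.conjNormal (π x) (MulAut.conjNormal (π x) (⟨π u, _⟩ : ↥(P.map π))) : X ⧸ Φ) = 1
      rw [MulAut.conjNormal_apply, MulAut.conjNormal_apply]
      change π u * (π x * π u * (π x)⁻¹) * (π x * (π x * π u * (π x)⁻¹) * (π x)⁻¹) = 1
      simp only [← map_mul, ← map_inv]
      rw [hNorm u hu, map_one]
    · rintro ⟨_, u, hu, rfl⟩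
      apply Subtype.ext
      change (π u) ^ 3 = 1
      rw [← map_pow, hP3 u hu, map_one]
  have hsT : s ∈ (Subgroup.centralizer ((P.map π : Subgroup (X ⧸ Φ)) : Set (X ⧸ Φ))).comap π := by
    rw [Subgroup.mem_comap, Subgroup.mem_centralizer_iff]
    intro v hv
    have h1 := MulAut.conjNormal_apply (π s) (⟨v, hv⟩ : ↥(P.map π))
    rw [hα1] at h1
    have h2 : v = π s * v * (π s)⁻¹ := h1
    exact (mul_inv_eq_iff_eq_mul.1 h2.symm).symm
  have hcent : Subgroup.zpowers s ≤ Subgroup.centralizer (P : Set X) := by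
    apply coprime_trivial_on_frattini_quotient (Subgroup.zpowers s) P
    · rw [Subgroup.normalizer_eq_top]; exact le_top
    · have h1 : Nat.card (Subgroup.zpowers s) ∣ 2 := by
        rw [Nat.card_zpowers]
        apply orderOf_dvd_of_pow_eq_one
        rw [pow_two]; exact hs2
      obtain ⟨m, hm⟩ := IsPGroup.iff_card.1 hP
      have h2 : Nat.card (frattini P) ∣ 3 ^ m := hm ▸ Subgroup.card_subgroup_dvd_card _
      exact Nat.Coprime.of_dvd h1 h2 (Nat.Coprime.pow_right m (by decide))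
    · intro a ha k hk
      have haT := (Subgroup.zpowers_le.2 hsT) ha
      rw [Subgroup.mem_comap, Subgroup.mem_centralizer_iff] at haT
      have h1 := haT (π k) ⟨k, hk, rfl⟩
      rw [← hΦdef, ← hπ1, map_mul, map_mul, map_mul, map_inv, map_inv, ← h1]
      group
  exact hsP (hC (hcent (Subgroup.mem_zpowers s)))

/-- A finite group in which every element has order dividing `6` has `2`-length at most `1` and `3`-length at most `1`. -/
theorem result {G : Type*} [Group G] [Finite G] (h : ∀ x : G, x ^ 6 = 1) : Cfsg.PLengthLE 2 1 G ∧ Cfsg.PLengthLE 3 1 G := by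
  haveI : Fact (Nat.Prime 2) := ⟨Nat.prime_two⟩
  haveI : Fact (Nat.Prime 3) := ⟨Nat.prime_three⟩
  haveI hs : Group.IsSolvable G := solv h
  constructor
  · haveI : (Cfsg.pPrimeCore 2 G).Normal := Cfsg.Agent.Lib.Helper1.pPrimeCore_normal 2 G
    have h1 := Cfsg.Agent.Lib.Helper66.pLengthLE_extension (p := 2) (Cfsg.pPrimeCore 2 G) (a := 0) (b := 1)
      (Cfsg.Agent.Lib.Helper66.pLengthLE_zero_of_coprime
        (Cfsg.Agent.Lib.Helper1.pPrimeCore_coprime 2 G))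
      (plen_of_index 2 (B2 (exp_quot h _)
        (Cfsg.Agent.S0017.result 2 Cfsg.Agent.Lib.Helper80.pPrimeCore_quotient_eq_bot)))
    simpa using h1
  · haveI : (Cfsg.pPrimeCore 3 G).Normal := Cfsg.Agent.Lib.Helper1.pPrimeCore_normal 3 G
    have h1 := Cfsg.Agent.Lib.Helper66.pLengthLE_extension (p := 3) (Cfsg.pPrimeCore 3 G) (a := 0) (b := 1)
      (Cfsg.Agent.Lib.Helper66.pLengthLE_zero_of_coprime
        (Cfsg.Agent.Lib.Helper1.pPrimeCore_coprime 3 G))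
      (plen_of_index 3 (B3 (exp_quot h _)
        (Cfsg.Agent.S0017.result 3 Cfsg.Agent.Lib.Helper80.pPrimeCore_quotient_eq_bot)))
    simpa using h1

end Cfsg.Agent.S4227
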