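import Cfsg.Statements.S4276
import Cfsg.Agent.S4275
import Cfsg.Agent.Lib.Helper75.DesignArith

set_option autoImplicit false
open Cfsg

namespace Cfsg.Agent.S4276

/-- Let G be a doubly transitive group of permutations of a finite set Ω of size n, let o ∈ Ω, and let α be an automorphism of G of odd order. Suppose that the image under α of the stabilizer of o has an orbit on Ω whose length k is coprime to n. Then α is induced by conjugation by a permutation of Ω normalizing G, and k = 1 or k = n − 1. -/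
theorem result {Ω : Type*} [Fintype Ω] (G : Subgroup (Equiv.Perm Ω)) (h2 : MulAction.IsMultiplyPretransitive G Ω 2) (o : Ω) (α : MulAut G) (hα : Odd (orderOf α)) (ω : Ω) (hk : (Nat.card (MulAction.orbit ((MulAction.stabilizer G o).map α.toMonoidHom) ω)).Coprime (Fintype.card Ω)) : (∃ σ : Equiv.Perm Ω, σ ∈ Subgroup.normalizer (G : Set (Equiv.Perm Ω)) ∧ ∀ g : G, ((α g : G) : Equiv.Perm Ω) = σ * (g : Equiv.Perm Ω) * σ⁻¹) ∧ (Nat.card (MulAction.orbit ((MulAction.stabilizer G o).map α.toMonoidHom) ω) = 1 ∨ Nat.card (MulAction.orbit ((MulAction.stabilizer G o).map α.toMonoidHom) ω) = Fintype.card Ω - 1) := by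
  classical
  have htr : MulAction.IsPretransitive G Ω := MulAction.isPretransitive_of_is_two_pretransitive
  set K : Subgroup G := (MulAction.stabilizer G o).map α.toMonoidHom with hK
  set Δ : Set Ω := MulAction.orbit K ω with hΔ
  -- it suffices to determine the orbit length
  suffices hmain : Nat.card Δ = 1 ∨ Nat.card Δ = Fintype.card Ω - 1 by
    refine ⟨?_, hmain⟩
    apply (Cfsg.Agent.S4275.result G htr o α).2
    rcases hmain with h | h
    · refine ⟨ω, fun g hg => ?_⟩
      have hsub : Subsingleton Δ := (Nat.card_eq_one_iff_unique.1 h).1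
      have h1 : g • ω ∈ Δ := ⟨⟨g, hg⟩, rfl⟩
      have h2 : ω ∈ Δ := MulAction.mem_orbit_self ω
      exact congrArg Subtype.val (hsub.elim ⟨_, h1⟩ ⟨_, h2⟩)
    · have hc : Δᶜ.ncard = 1 := by
        rw [Set.ncard_compl, Nat.card_eq_fintype_card, ← Nat.card_coe_set_eq, h]
        have : 0 < Fintype.card Ω := Fintype.card_pos_iff.2 ⟨o⟩
        omega
      obtain ⟨ω', hω'⟩ := Set.ncard_eq_one.1 hc
      refine ⟨ω', fun g hg => ?_⟩
      have h1 : ω' ∉ Δ := by
        have : ω' ∈ Δᶜ := by rw [hω']; rfl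
        exact this
      have h2 : g • ω' ∈ Δᶜ := by
        intro h3
        apply h1
        have h4 : (⟨g, hg⟩ : K)⁻¹ • (g • ω') ∈ Δ := MulAction.mem_orbit_of_mem_orbit _ h3
        have h5 : (⟨g, hg⟩ : K)⁻¹ • (g • ω') = ω' := by
          change g⁻¹ • (g • ω') = ω'
          rw [inv_smul_smul]
        rwa [h5] at h4
      rw [hω'] at h2
      exact h2
  -- degenerate case
  by_cases hsub : Subsingleton Ω
  · left
    have : Subsingleton Δ := inferInstance
    have hne : Nonempty Δ := ⟨⟨ω, MulAction.mem_orbit_self ω⟩⟩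
    exact Nat.card_eq_one_iff_unique.2 ⟨this, hne⟩
  rw [not_subsingleton_iff_nontrivial] at hsub
  obtain ⟨x0, y0, hxy⟩ := hsub
  have h2' : ∀ {a b c d : Ω}, a ≠ b → c ≠ d → ∃ g : G, g • a = c ∧ g • b = d :=
    MulAction.is_two_pretransitive_iff.1 h2
  -- incidence
  let inc : Ω → Ω → Prop := fun x y => ∃ g : G, g • o = y ∧ (α g)⁻¹ • x ∈ Δ
  have hinc1 : ∀ (h : G) (x y : Ω), inc x y → inc (α h • x) (h • y) := by
    rintro h x y ⟨g, hg, hx⟩
    refine ⟨h * g, by rw [mul_smul, hg], ?_⟩
    rw [map_mul, mul_inv_rev, mul_smul, inv_smul_smul]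
    exact hx
  have hinc : ∀ (h : G) (x y : Ω), inc (α h • x) (h • y) ↔ inc x y := by
    intro h x y
    refine ⟨fun hh => ?_, hinc1 h x y⟩
    have := hinc1 h⁻¹ _ _ hh
    rwa [map_inv, inv_smul_smul, inv_smul_smul] at this
  let A : Matrix Ω Ω ℤ := fun x y => if inc x y then 1 else 0
  have hA : ∀ (h : G) (x y : Ω), A (α h • x) (h • y) = A x y := by
    intro h x y
    simp only [A, hinc]
  have hA01 : ∀ x y, A x y * A x y = A x y := by
    intro x y
    simp only [A]; split_ifs <;> simp
  have hA0 : ∀ x y, 0 ≤ A x y := by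
    intro x y
    simp only [A]; split_ifs <;> simp
  have hsum : ∀ (g : G) (f : Ω → ℤ), ∑ x, f (g • x) = ∑ x, f x := fun g f =>
    Equiv.sum_comp (MulAction.toPerm g) f
  set k : ℤ := (Nat.card Δ : ℤ) with hkdef
  -- column sums
  have hcolo : ∑ x, A x o = k := by
    have h1 : ∀ x, inc x o ↔ x ∈ Δ := by
      intro x
      constructor
      · rintro ⟨g, hg, hx⟩
        have hgK : α g ∈ K := ⟨g, hg, rfl⟩
        have := MulAction.mem_orbit_of_mem_orbit (⟨α g, hgK⟩ : K) hx
        have h5 : (⟨α g, hgK⟩ : K) • ((α g)⁻¹ • x) = x := by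
          change α g • ((α g)⁻¹ • x) = x
          rw [smul_inv_smul]
        rwa [h5] at this
      · intro hx
        exact ⟨1, one_smul _ _, by simpa using hx⟩
    simp only [A, h1]
    rw [Finset.sum_boole, hkdef, Nat.card_eq_fintype_card, Fintype.card_subtype]
  have hcol : ∀ y, ∑ x, A x y = k := by
    intro y
    obtain ⟨g, rfl⟩ := htr.exists_smul_eq o y
    rw [← hsum (α g) (fun x => A x (g • o))]
    simp only [hA]
    exact hcolo
  have hrow0 : ∀ x x', ∑ y, A x y = ∑ y, A x' y := by
    intro x x'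
    obtain ⟨g, rfl⟩ := htr.exists_smul_eq x x'
    rw [← hsum (α.symm g) (fun y => A (g • x) y)]
    refine Finset.sum_congr rfl fun y _ => ?_
    have := hA (α.symm g) x y
    rw [MulEquiv.apply_symm_apply] at this
    exact this.symm
  have hn0 : (Fintype.card Ω : ℤ) ≠ 0 := by
    have : 0 < Fintype.card Ω := Fintype.card_pos_iff.2 ⟨o⟩
    exact_mod_cast this.ne'
  have hrow : ∀ x, ∑ y, A x y = k := by
    intro x
    have h1 : ∑ x', ∑ y, A x' y = (Fintype.card Ω : ℤ) * ∑ y, A x y := by
      rw [Finset.sum_congr rfl (fun x' _ => hrow0 x' x)]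
      simp
    have h3 : ∑ x', ∑ y, A x' y = (Fintype.card Ω : ℤ) * k := by
      rw [Finset.sum_comm, Finset.sum_congr rfl (fun y _ => hcol y)]
      simp
    exact mul_left_cancel₀ hn0 (h1.symm.trans h3)
  -- invariant matrices
  have hinv : ∀ M : Ω → Ω → ℤ, (∀ (g : G) x y, M (g • x) (g • y) = M x y) →
      ∀ x y, M x y = if x = y then M x0 x0 else M x0 y0 := by
    intro M hM x y
    split_ifs with h
    · subst h
      obtain ⟨g, rfl⟩ := htr.exists_smul_eq x0 x
      exact hM g x0 x0
    · obtain ⟨g, rfl, rfl⟩ := h2' hxy h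
      exact hM g x0 y0
  set lam : ℤ := ∑ x, A x x0 * A x y0 with hlam
  have hAtA : ∀ y y', ∑ x, A x y * A x y' = if y = y' then (k - lam) + lam else lam := by
    intro y y'
    have := hinv (fun y y' => ∑ x, A x y * A x y') (by
      intro g y y'
      rw [← hsum (α g) (fun x => A x (g • y) * A x (g • y'))]
      simp only [hA]) y y'
    refine this.trans ?_
    simp only [hA01, hcol, sub_add_cancel, hlam]
  have hpow : ∀ (j : ℕ) (h : G) (x y : Ω), (A ^ j) ((α ^ j) h • x) (h • y) = (A ^ j) x y := by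
    intro j
    induction j with
    | zero =>
      intro h x y
      simp only [pow_zero, MulAut.one_apply, Matrix.one_apply, smul_left_cancel_iff]
    | succ j ih =>
      intro h x y
      rw [pow_succ, pow_succ, Matrix.mul_apply, Matrix.mul_apply, MulAut.mul_apply,
        ← hsum (α h) (fun z => (A ^ j) ((α ^ j) (α h) • x) z * A z (h • y))]
      refine Finset.sum_congr rfl fun z _ => ?_
      rw [ih, hA]
  have hAr := hinv (fun x y => (A ^ orderOf α) x y) (by
    intro g x y
    have := hpow (orderOf α) g x y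
    rwa [pow_orderOf_eq_one, MulAut.one_apply] at this)
  set b : ℤ := (A ^ orderOf α) x0 y0 with hb
  set a : ℤ := (A ^ orderOf α) x0 x0 - b with ha
  have hAr' : ∀ x y, (A ^ orderOf α) x y = if x = y then a + b else b := by
    intro x y
    rw [hAr x y, ha]
    simp
  obtain ⟨e1, e2, e3⟩ := Cfsg.Agent.Lib.Helper75.design_matrix A k (k - lam) lam a b (orderOf α)
    hcol hrow hAtA hAr' x0 y0 hxy
  have hcard2 : 2 ≤ Fintype.card Ω := by
    have : 1 < Fintype.card Ω := Fintype.one_lt_card_iff.2 ⟨x0, y0, hxy⟩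
    omega
  have hk1 : 1 ≤ Nat.card Δ := by
    have : Nonempty Δ := ⟨⟨ω, MulAction.mem_orbit_self ω⟩⟩
    exact Nat.one_le_iff_ne_zero.2 (Nat.card_pos).ne'
  have hkn : Nat.card Δ ≤ Fintype.card Ω := by
    rw [← Nat.card_eq_fintype_card]
    exact Nat.card_le_card_of_injective _ Subtype.val_injective
  have hfin := Cfsg.Agent.Lib.Helper75.design_arith (Fintype.card Ω : ℤ) k (k - lam) lam a b (orderOf α) hα
    (by exact_mod_cast hcard2) (by rw [hkdef]; exact_mod_cast hk1) (by rw [hkdef]; exact_mod_cast hkn)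
    (by rw [hkdef]; exact Nat.isCoprime_iff_coprime.2 hk)
    (Finset.sum_nonneg fun x _ => mul_nonneg (hA0 _ _) (hA0 _ _)) (by ring) e1 e2 e3
  rcases hfin with h | h
  · left
    rw [hkdef] at h
    exact_mod_cast h
  · right
    rw [hkdef] at h
    omega

end Cfsg.Agent.S4276
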