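import Cfsg.Statements.S4277
import Cfsg.Agent.Lib.Helper75.Pronormal2
import Cfsg.Agent.S0675
import Cfsg.Agent.S4290

set_option autoImplicit false
open Cfsg

namespace Cfsg.Agent.S4277

open Subgroup Equiv Cfsg.Agent.Lib.Helper75

section Perm
variable {Ω : Type*} [Fintype Ω] [DecidableEq Ω]

theorem mem_zpowers_of_commute (hΩ : (Fintype.card Ω).Prime) (τ : Perm Ω)
    (hτ : orderOf τ = Fintype.card Ω) (ρ : Perm Ω) (h : Commute ρ τ) : ρ ∈ zpowers τ := by
  have hc := Perm.isCycle_of_prime_order'' hΩ hτ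
  have hsupp : τ.support = Finset.univ := by
    apply Finset.eq_univ_of_card
    rw [← hc.orderOf, hτ]
  have hmove : ∀ x, τ x ≠ x := by
    intro x
    rw [← Perm.mem_support, hsupp]
    exact Finset.mem_univ x
  have hne : Nonempty Ω := by
    rw [← Fintype.card_pos_iff]
    exact hΩ.pos
  obtain ⟨ω⟩ := hne
  obtain ⟨i, hi⟩ := hc.exists_zpow_eq (hmove ω) (hmove (ρ ω))
  refine ⟨i, ?_⟩
  ext x
  obtain ⟨j, rfl⟩ := hc.exists_zpow_eq (hmove ω) (hmove x)
  have h1 : ρ ((τ ^ j) ω) = (τ ^ j) (ρ ω) := by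
    have := (h.zpow_right j).eq
    exact congrArg (fun σ : Perm Ω => σ ω) this
  change (τ ^ i) ((τ ^ j) ω) = ρ ((τ ^ j) ω)
  rw [h1, ← hi, ← Perm.mul_apply, ← Perm.mul_apply, ← zpow_add, ← zpow_add, add_comm]

theorem solvable_normalizer (hΩ : (Fintype.card Ω).Prime) (τ : Perm Ω)
    (hτ : orderOf τ = Fintype.card Ω) :
    Group.IsSolvable (normalizer ((zpowers τ : Subgroup (Perm Ω)) : Set (Perm Ω))) := by
  have h1 : Group.IsSolvable (MulAut (zpowers τ)) :=
    Group.isSolvable_of_isSolvable_injective (f := (IsCyclic.mulAutMulEquiv (zpowers τ)).toMonoidHom)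
      (IsCyclic.mulAutMulEquiv (zpowers τ)).injective
  have h2 : Group.IsSolvable (zpowers τ).normalizerMonoidHom.ker := by
    apply Group.isSolvable_of_comm
    rintro ⟨a, ha⟩ ⟨b, hb⟩
    rw [normalizerMonoidHom_ker, mem_subgroupOf, mem_centralizer_iff] at ha hb
    have ha' : (a : Perm Ω) ∈ zpowers τ :=
      mem_zpowers_of_commute hΩ τ hτ _ (ha τ (mem_zpowers τ)).symm
    have hb' : (b : Perm Ω) ∈ zpowers τ :=
      mem_zpowers_of_commute hΩ τ hτ _ (hb τ (mem_zpowers τ)).symm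
    obtain ⟨i, hi⟩ := ha'
    obtain ⟨j, hj⟩ := hb'
    apply Subtype.ext
    apply Subtype.ext
    change (a : Perm Ω) * b = b * a
    rw [← hi, ← hj]
    change τ ^ i * τ ^ j = τ ^ j * τ ^ i
    rw [← zpow_add, ← zpow_add, add_comm]
  exact Group.isSolvable_of_ker_le_range (zpowers τ).normalizerMonoidHom.ker.subtype
    (zpowers τ).normalizerMonoidHom (by simp)

omit [DecidableEq Ω] in
theorem not_sq_dvd_card (hΩ : (Fintype.card Ω).Prime) (Γ : Subgroup (Perm Ω)) :
    ¬ Fintype.card Ω * Fintype.card Ω ∣ Nat.card Γ := by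
  intro h
  have h1 : Nat.card Γ ∣ (Fintype.card Ω).factorial := by
    have := card_subgroup_dvd_card Γ
    rwa [Nat.card_perm, Nat.card_eq_fintype_card (α := Ω)] at this
  have h2 := h.trans h1
  obtain ⟨n, hn⟩ : ∃ n, Fintype.card Ω = n + 1 := ⟨Fintype.card Ω - 1, by have := hΩ.pos; omega⟩
  rw [hn] at h2 hΩ
  rw [Nat.factorial_succ] at h2
  have h3 : n + 1 ∣ n.factorial := Nat.dvd_of_mul_dvd_mul_left (Nat.succ_pos n) h2
  have := (hΩ.dvd_factorial).1 h3
  omega

theorem isPGroup_quotient_odd {𝒜 : Type*} [Group 𝒜] [Finite 𝒜] (O : Subgroup 𝒜) [O.Normal]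
    (hO : ∀ α : 𝒜, Odd (orderOf α) → α ∈ O) : IsPGroup 2 (𝒜 ⧸ O) := by
  intro x
  obtain ⟨α, rfl⟩ := QuotientGroup.mk'_surjective O x
  obtain ⟨k, m, hm, hkm⟩ := Nat.exists_eq_two_pow_mul_odd (orderOf_pos α).ne'
  refine ⟨k, ?_⟩
  rw [← map_pow, ← MonoidHom.mem_ker, QuotientGroup.ker_mk']
  apply hO
  have h1 : (α ^ 2 ^ k) ^ m = 1 := by rw [← pow_mul, ← hkm, pow_orderOf_eq_one]
  exact Odd.of_dvd_nat hm (orderOf_dvd_of_pow_eq_one h1)

theorem out_solvable (hΩ : (Fintype.card Ω).Prime) (Γ : Subgroup (Perm Ω))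
    [MulAction.IsPretransitive Γ Ω] (h2 : MulAction.IsMultiplyPretransitive Γ Ω 2) :
    Group.IsSolvable (Cfsg.Out Γ) := by
  have hp : Fact (Fintype.card Ω).Prime := ⟨hΩ⟩
  have hne : Nonempty Ω := by
    rw [← Fintype.card_pos_iff]
    exact hΩ.pos
  obtain ⟨o⟩ := hne
  have hidx : (MulAction.stabilizer Γ o).index = Fintype.card Ω := by
    rw [MulAction.index_stabilizer_of_transitive, Nat.card_eq_fintype_card]
  have hsq := not_sq_dvd_card hΩ Γ
  have hdvd : Fintype.card Ω ∣ Nat.card Γ := hidx ▸ index_dvd_card _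
  have hHall : (Nat.card (MulAction.stabilizer Γ o)).Coprime (MulAction.stabilizer Γ o).index := by
    rw [hidx, Nat.coprime_comm, hΩ.coprime_iff_not_dvd]
    intro h
    apply hsq
    rw [← card_mul_index (MulAction.stabilizer Γ o), hidx]
    exact Nat.mul_dvd_mul_right h _
  obtain ⟨τ0, hτ0⟩ := exists_prime_orderOf_dvd_card' (Fintype.card Ω) hdvd
  set τ : Perm Ω := (τ0 : Perm Ω) with hτdef
  have hτ : orderOf τ = Fintype.card Ω := by rw [hτdef, Subgroup.orderOf_coe, hτ0]
  have hPΓ : zpowers τ ≤ Γ := (zpowers_le).2 τ0.2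
  have hPcard : Nat.card (zpowers τ) = Fintype.card Ω := by rw [Nat.card_zpowers, hτ]
  have hPp : IsPGroup (Fintype.card Ω) (zpowers τ) := IsPGroup.of_card (n := 1) (by rw [hPcard, pow_one])
  have hPi : ¬ Fintype.card Ω ∣ (zpowers τ).relIndex Γ := by
    intro h
    apply hsq
    have h3 := relIndex_mul_relIndex ⊥ (zpowers τ) Γ bot_le hPΓ
    rw [relIndex_bot_left, relIndex_bot_left, hPcard] at h3
    rw [← h3]
    exact Nat.mul_dvd_mul_left _ h
  have hsolvN := solvable_normalizer hΩ τ hτ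
  set 𝒩 := normalizer (Γ : Set (Perm Ω)) with h𝒩
  let c : 𝒩 →* MulAut Γ := Γ.normalizerMonoidHom
  let q : MulAut Γ →* Cfsg.Out Γ := QuotientGroup.mk' (Cfsg.Inn Γ)
  let D : Subgroup (Perm Ω) := normalizer ((zpowers τ : Subgroup (Perm Ω)) : Set (Perm Ω)) ⊓ 𝒩
  have hD : Group.IsSolvable D :=
    Group.isSolvable_of_isSolvable_injective (f := inclusion (inf_le_left : D ≤ _))
      (inclusion_injective _)
  let f : D →* Cfsg.Out Γ := q.comp (c.comp (inclusion (inf_le_right : D ≤ 𝒩)))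
  let T : Set (MulAut Γ) := {α | Odd (orderOf α)}
  let O1 : Subgroup (MulAut Γ) := normalClosure T ⊔ Cfsg.Inn Γ
  have hO1n : O1.Normal := inferInstance
  have hfin : Finite (MulAut Γ) := inferInstance
  have hp2 : Fact (Nat.Prime 2) := ⟨Nat.prime_two⟩
  have hpg : IsPGroup 2 (MulAut Γ ⧸ O1) := isPGroup_quotient_odd O1 fun α hα =>
    mem_sup_left (subset_normalClosure hα)
  have hnil : Group.IsNilpotent (MulAut Γ ⧸ O1) := hpg.isNilpotent
  have hsolvQ : Group.IsSolvable (MulAut Γ ⧸ O1) := inferInstance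
  let g : Cfsg.Out Γ →* MulAut Γ ⧸ O1 :=
    QuotientGroup.map (Cfsg.Inn Γ) O1 (MonoidHom.id _) (by
      intro x hx
      exact mem_sup_right hx)
  -- odd order automorphisms land in the range of `f`
  have hodd : ∀ α : MulAut Γ, Odd (orderOf α) → q α ∈ f.range := by
    intro α hα
    obtain ⟨σ, hσ, hσα⟩ := Cfsg.Agent.S4290.result Γ h2 o hHall α hα
    have h3 : cj σ (zpowers τ) ≤ Γ := by
      have := cj_mono σ hPΓ
      rwa [cj_eq_self_iff.2 hσ] at this
    have h4 : ¬ Fintype.card Ω ∣ (cj σ (zpowers τ)).relIndex Γ := by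
      have := relIndex_map_map_of_injective (f := (MulAut.conj σ).toMonoidHom) (zpowers τ) Γ (MulAut.conj σ).injective
      have e : cj σ Γ = Γ := cj_eq_self_iff.2 hσ
      unfold cj at e
      rw [e] at this
      unfold cj
      rwa [this]
    obtain ⟨γ, hγ, hγe⟩ := exists_cj_eq_of_sylow_in hPΓ h3 hPp (hPp.map _) hPi h4
    rw [cj_eq_cj_iff] at hγe
    have hν𝒩 : γ⁻¹ * σ ∈ 𝒩 := mul_mem (inv_mem (le_normalizer hγ)) hσ
    refine ⟨⟨γ⁻¹ * σ, mem_inf.2 ⟨hγe, hν𝒩⟩⟩, ?_⟩
    change q (c ⟨γ⁻¹ * σ, hν𝒩⟩) = q α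
    rw [eq_comm, ← mul_inv_eq_one, ← map_inv, ← map_mul, ← MonoidHom.mem_ker, QuotientGroup.ker_mk']
    refine ⟨⟨γ, hγ⟩, ?_⟩
    rw [eq_mul_inv_iff_mul_eq]
    apply MulEquiv.ext
    intro x
    apply Subtype.ext
    change (γ * ((γ⁻¹ * σ) * x * (γ⁻¹ * σ)⁻¹) * γ⁻¹ : Perm Ω) = (α x : Γ)
    rw [hσα]
    group
  refine Group.isSolvable_of_ker_le_range f g ?_
  intro x hx
  obtain ⟨α, rfl⟩ := QuotientGroup.mk'_surjective (Cfsg.Inn Γ) x
  have hα : α ∈ O1 := by
    have : (QuotientGroup.mk' O1) α = 1 := hx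
    rwa [← MonoidHom.mem_ker, QuotientGroup.ker_mk'] at this
  have hle : O1 ≤ f.range.comap q := by
    refine sup_le ?_ ?_
    · unfold normalClosure
      rw [closure_le]
      intro β hβ
      rw [Group.mem_conjugatesOfSet_iff] at hβ
      obtain ⟨a, ha, hab⟩ := hβ
      obtain ⟨d, rfl⟩ := isConj_iff.1 hab
      apply hodd
      have : orderOf (d * a * d⁻¹) = orderOf a :=
        orderOf_injective (MulAut.conj d).toMonoidHom (MulAut.conj d).injective a
      rw [this]
      exact ha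
    · intro β hβ
      have : q β = 1 := by
        rw [← MonoidHom.mem_ker, QuotientGroup.ker_mk']; exact hβ
      rw [mem_comap, this]
      exact one_mem _
  exact hle hα

end Perm

theorem out_solvable_congr {G Γ : Type*} [Group G] [Group Γ] (e : G ≃* Γ)
    (h : Group.IsSolvable (Cfsg.Out Γ)) : Group.IsSolvable (Cfsg.Out G) := by
  have hmap : (Cfsg.Inn Γ).map ((MulAut.congr e.symm : MulAut Γ ≃* MulAut G) : MulAut Γ →* MulAut G)
      = Cfsg.Inn G := by
    ext α
    constructor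
    · rintro ⟨_, ⟨γ, rfl⟩, rfl⟩
      refine ⟨e.symm γ, ?_⟩
      apply MulEquiv.ext
      intro x
      simp [MulAut.congr]
    · rintro ⟨x, rfl⟩
      refine ⟨MulAut.conj (e x), ⟨e x, rfl⟩, ?_⟩
      apply MulEquiv.ext
      intro y
      simp [MulAut.congr]
  let E : Cfsg.Out Γ ≃* Cfsg.Out G := QuotientGroup.congr (Cfsg.Inn Γ) (Cfsg.Inn G)
    (MulAut.congr e.symm) hmap
  exact Group.isSolvable_of_surjective (f := E.toMonoidHom) E.surjective

/-- A case of the Schreier conjecture: if a finite simple group G has a subgroup of prime index, then the outer automorphism group of G is solvable. -/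
theorem result {G : Type*} [Group G] [Finite G] [IsSimpleGroup G] (H : Subgroup G) (hH : H.index.Prime) : Group.IsSolvable (Cfsg.Out G) := by
  classical
  by_cases hsol : Group.IsSolvable G
  · have hcomm := IsSimpleGroup.comm_iff_isSolvable.2 hsol
    let _ : CommGroup G := { (inferInstance : Group G) with mul_comm := hcomm }
    have hcyc : IsCyclic G := IsSimpleGroup.isCyclic
    have h1 : Group.IsSolvable (MulAut G) :=
      Group.isSolvable_of_isSolvable_injective (f := (IsCyclic.mulAutMulEquiv G).toMonoidHom)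
        (IsCyclic.mulAutMulEquiv G).injective
    infer_instance
  · have : Fintype (G ⧸ H) := Fintype.ofFinite _
    have hΩ : (Fintype.card (G ⧸ H)).Prime := by
      rw [← Nat.card_eq_fintype_card]; exact hH
    let φ : G →* Perm (G ⧸ H) := MulAction.toPermHom G (G ⧸ H)
    have hinj : Function.Injective φ := by
      rw [← MonoidHom.ker_eq_bot_iff]
      rcases IsSimpleGroup.eq_bot_or_eq_top_of_normal φ.ker inferInstance with h | h
      · exact h
      · exfalso
        have h1 : H.normalCore = ⊤ := by rw [normalCore_eq_ker]; exact h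
        have h2 : H = ⊤ := eq_top_iff.2 (h1 ▸ normalCore_le H)
        rw [h2, index_top] at hH
        exact Nat.not_prime_one hH
    let e : G ≃* φ.range := MonoidHom.ofInjective hinj
    have htr : MulAction.IsPretransitive φ.range (G ⧸ H) := by
      refine ⟨fun x y => ?_⟩
      obtain ⟨g, hg⟩ := MulAction.exists_smul_eq G x y
      exact ⟨⟨φ g, g, rfl⟩, hg⟩
    rcases Cfsg.Agent.S0675.result hΩ φ.range with h | h
    · exact absurd (Group.isSolvable_of_isSolvable_injective (f := e.toMonoidHom) e.injective) hsol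
    · exact out_solvable_congr e (out_solvable hΩ φ.range h)

end Cfsg.Agent.S4277
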