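import Cfsg.Statements.S4282
import Cfsg.Agent.Lib.Helper61.HHCrit
import Cfsg.Agent.Lib.Helper61.HHDimq

set_option autoImplicit false
open Cfsg

namespace Cfsg.Agent.S4282

open Cfsg.Agent.Lib.Helper61.HH Cfsg.Agent.Lib.Helper4.HHC Module

universe u v w


/-- a `q`-element of `⟨x⟩ Z(G)` (`x` a `p`-element) is central. -/
theorem mem_center_of_q {G : Type*} [Group G] (p q : ℕ) (hpq : p.Coprime q) (x g : G)
    (hx : IsPGroup p (Subgroup.zpowers x)) (hg : g ∈ Subgroup.zpowers x ⊔ Subgroup.center G)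
    (m : ℕ) (hgq : g ^ (q ^ m) = 1) : g ∈ Subgroup.center G := by
  have hg' : g ∈ (↑(Subgroup.zpowers x ⊔ Subgroup.center G) : Set G) := hg
  rw [Subgroup.mul_normal] at hg'
  obtain ⟨a, ha, b, hb, rfl⟩ := Set.mem_mul.mp hg'
  have hcomm : Commute a b := (Subgroup.mem_center_iff.mp hb a)
  obtain ⟨c, hc⟩ := hx ⟨a, ha⟩
  have hc' : a ^ (p ^ c) = 1 := by simpa using congrArg Subtype.val hc
  have h1 : a ^ (q ^ m) * b ^ (q ^ m) = 1 := by rw [← hcomm.mul_pow]; exact hgq
  have h2 : a ^ (q ^ m) ∈ Subgroup.center G := by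
    rw [eq_inv_of_mul_eq_one_left h1]
    exact (Subgroup.center G).inv_mem ((Subgroup.center G).pow_mem hb _)
  have hcop : (p ^ c).Coprime (q ^ m) := Nat.Coprime.pow _ _ hpq
  have h3 : a ∈ Subgroup.center G := by
    have hg1 : Nat.gcd (p ^ c) (q ^ m) = 1 := hcop
    have h4 : a ^ ((Nat.gcd (p ^ c) (q ^ m) : ℕ) : ℤ) = a := by rw [hg1]; simp
    rw [Nat.gcd_eq_gcd_ab, zpow_add, zpow_mul, zpow_mul, zpow_natCast, zpow_natCast, hc', one_zpow,
      one_mul] at h4
    rw [← h4]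
    exact (Subgroup.center G).zpow_mem h2 _
  exact (Subgroup.center G).mul_mem h3 hb

theorem result {G : Type*} [Group G] [Finite G] (p q : ℕ) [Fact p.Prime] [Fact q.Prime] (hpq : p ≠ q) (Q : Subgroup G) [Q.Normal] (hQ : IsPGroup q Q) (x : G) (hx : IsPGroup p (Subgroup.zpowers x)) (hgen : Q ⊔ Subgroup.zpowers x = ⊤) (hC : ∀ y ∈ Subgroup.zpowers x, y ≠ 1 → Subgroup.centralizer ({y} : Set G) = Subgroup.zpowers x ⊔ Subgroup.center G) {K : Type*} [Field K] [IsAlgClosed K] [CharP K p] {V : Type*} [AddCommGroup V] [Module K V] [FiniteDimensional K V] [Nontrivial V] (ρ : Representation K G V) (hfaith : Function.Injective ρ) (hirr : ∀ W : Submodule K V, (∀ g ∈ Q, Submodule.map (ρ g) W ≤ W) → W = ⊥ ∨ W = ⊤) (s : ℕ) (hs : (ρ x - 1) ^ s = 0) (hmin : ∀ k < s, (ρ x - 1) ^ k ≠ 0) : Nat.card (Subgroup.zpowers x) - 1 ≤ s ∧ s ≤ Nat.card (Subgroup.zpowers x) ∧ (s = Nat.card (Subgroup.zpowers x) - 1 → (∃ b : ℕ, Nat.card (Subgroup.zpowers x) - 1 = q ^ b) ∧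 ¬ IsMulCommutative Q) := by
  have hp : p.Prime := Fact.out
  have hq : q.Prime := Fact.out
  obtain ⟨k, hk⟩ := (IsPGroup.iff_card).mp hx
  have hord : orderOf x = p ^ k := by rw [← hk, Nat.card_zpowers]
  rw [hk]
  set T : Module.End K V := ρ x with hT
  have hTP : T ^ (p ^ k) = 1 := by rw [hT, ← map_pow, ← hord, pow_orderOf_eq_one, map_one]
  have hνN : (T - 1) ^ (p ^ k) = 0 := by rw [sub_one_pow_char, hTP, sub_self]
  have hsle : s ≤ p ^ k := by
    by_contra hcon
    exact hmin _ (not_le.mp hcon) hνN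
  have hs0 : s ≠ 0 := by
    intro h0
    rw [h0, pow_zero] at hs
    exact one_ne_zero hs
  rcases Nat.eq_zero_or_pos k with hk0 | hkpos
  · subst hk0
    simp only [pow_zero] at hsle ⊢
    refine ⟨by omega, hsle, fun h => ?_⟩
    omega
  let σ : Q →* Module.End K V := (ρ : G →* Module.End K V).comp Q.subtype
  have hσ : ∀ g : Q, σ g = ρ (g : G) := fun g => rfl
  have hIrr : Irr σ := by
    intro U hU
    apply hirr U
    intro g hg
    rintro _ ⟨y, hy, rfl⟩
    exact hU ⟨g, hg⟩ y hy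
  have hSch : Sch σ := sch_of_irr σ hIrr
  have hqK : (q : K) ≠ 0 := by
    intro h0
    have := (CharP.cast_eq_zero_iff K p q).mp h0
    exact hpq ((Nat.prime_dvd_prime_iff_eq hp hq).mp this)
  have hQK : (Nat.card Q : K) ≠ 0 := by
    obtain ⟨m, hm⟩ := (IsPGroup.iff_card).mp hQ
    rw [hm]; push_cast; exact pow_ne_zero _ hqK
  let θ : MulAut Q := MulAut.conjNormal x
  have hθpow : ∀ (j : ℕ) (g : Q), (((θ ^ j) g : Q) : G) = x ^ j * g * (x ^ j)⁻¹ := by
    intro j g
    have : θ ^ j = MulAut.conjNormal (x ^ j) := by rw [map_pow]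
    rw [this, MulAut.conjNormal_apply]
  have hθP : θ ^ (p ^ k) = 1 := by
    ext g
    rw [hθpow, ← hord, pow_orderOf_eq_one]; simp
  have hTρ : ∀ g, T * σ g = σ (θ g) * T := by
    intro g
    rw [hσ, hσ, hT, ← map_mul, ← map_mul]
    congr 1
    have := hθpow 1 g
    rw [pow_one, pow_one] at this
    rw [this]; group
  set y := x ^ (p ^ (k - 1)) with hy
  have hy1 : y ≠ 1 := by
    intro h1
    have := orderOf_dvd_of_pow_eq_one h1
    rw [hord] at this
    have h2 := (Nat.pow_dvd_pow_iff_le_right hp.one_lt).mp this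
    omega
  have hcentral_sc : ∀ g : Q, (g : G) ∈ Subgroup.center G → IsSc σ g := by
    intro g hg
    apply hSch
    intro h
    rw [hσ, hσ, ← map_mul, ← map_mul, Subgroup.mem_center_iff.mp hg]
  have hfree : ∀ g, σ ((θ ^ (p ^ (k - 1))) g) = σ g → IsSc σ g := by
    intro g hg
    rw [hσ, hσ] at hg
    have h1 := hfaith hg
    rw [hθpow, ← hy] at h1
    have h2 : (g : G) ∈ Subgroup.centralizer ({y} : Set G) := by
      rw [Subgroup.mem_centralizer_singleton_iff]
      calc (g : G) * y = (y * g * y⁻¹) * y := by rw [h1]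
        _ = y * g := by group
    rw [hC y (Subgroup.pow_mem _ (Subgroup.mem_zpowers x) _) hy1] at h2
    obtain ⟨m, hm⟩ := hQ g
    have hm' : (g : G) ^ (q ^ m) = 1 := by simpa using congrArg Subtype.val hm
    exact hcentral_sc g (mem_center_of_q p q ((Nat.coprime_primes hp hq).mpr hpq) x g hx h2 m hm')
  have hns : ∃ g, ¬ IsSc σ g := by
    by_contra hcon
    push Not at hcon
    obtain ⟨c, hc⟩ : ∃ c : K, T = c • (1 : Module.End K V) := by
      apply hSch
      intro g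
      obtain ⟨l, hl⟩ := hcon g
      rw [hl]; simp
    have h1 : (c - 1) ^ (p ^ k) = 0 := by
      have h2 : T - 1 = (c - 1) • (1 : Module.End K V) := by rw [hc, sub_smul, one_smul]
      rw [h2, smul_pow, one_pow] at hνN
      rcases smul_eq_zero.mp hνN with h3 | h3
      · exact h3
      · exact absurd h3 one_ne_zero
    have h2 : c = 1 := sub_eq_zero.mp (pow_eq_zero_iff (pow_pos hp.pos k).ne' |>.mp h1)
    have h3 : ρ x = ρ 1 := by rw [map_one, ← hT, hc, h2, one_smul]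
    have h4 := hfaith h3
    apply hy1
    rw [hy, h4, one_pow]
  obtain ⟨c1, c2⟩ := crit p σ hQK hSch θ T k hkpos hTP hθP hTρ hfree hns
  refine ⟨?_, hsle, ?_⟩
  · by_contra hcon
    apply c1
    have : p ^ k - 2 = s + (p ^ k - 2 - s) := by omega
    rw [this, pow_add, hs, zero_mul]
  · intro hs1
    rw [hs1] at hs
    have hfin := c2 hs
    obtain ⟨b, hb⟩ := dimq q hqK _ Q rfl hQ V σ hIrr
    refine ⟨⟨b, by rw [← hfin, hb]⟩, ?_⟩
    intro hab
    obtain ⟨g, hg⟩ := hns
    apply hg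
    apply hSch
    intro h
    rw [← map_mul, ← map_mul, hab.is_comm.comm]

end Cfsg.Agent.S4282
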