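import Cfsg.Statements.S4283
import Cfsg.Agent.Lib.Helper75.FrobTheory
import Cfsg.Agent.Lib.Helper75.FrobConstruct

set_option autoImplicit false
open Cfsg

namespace Cfsg.Agent.S4283

open Cfsg.Agent.Lib.Helper75
open scoped Pointwise

/-- Let G be a finite group with centre Z and let K, H be abelian subgroups of G containing Z such that G/Z is a Frobenius group with complement H/Z and kernel K/Z. Then the conjugacy class sizes of G are exactly 1, [G : K] and [G : H], and these two indices are coprime. (This is the converse half of the characterization of finite groups whose conjugacy class sizes are exactly 1, m and n with m and n coprime.) -/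
theorem result {G : Type*} [Group G] [Finite G] (K H : Subgroup G) (hZK : Subgroup.center G ≤ K) (hZH : Subgroup.center G ≤ H) (hK : IsMulCommutative K) (hH : IsMulCommutative H) (hFrob : Cfsg.IsFrobeniusComplement (H.map (QuotientGroup.mk' (Subgroup.center G)))) (hker : Cfsg.frobeniusKernel (H.map (QuotientGroup.mk' (Subgroup.center G))) = (K.map (QuotientGroup.mk' (Subgroup.center G)) : Set (G ⧸ Subgroup.center G))) : Set.range (fun x : G => (Subgroup.centralizer ({x} : Set G)).index) = ({1, K.index, H.index} : Set ℕ) ∧ K.index.Coprime H.index := by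
  classical
  set Z := Subgroup.center G with hZ
  set π := QuotientGroup.mk' Z with hπ
  have hπs : Function.Surjective π := QuotientGroup.mk'_surjective Z
  have hkerπ : π.ker = Z := QuotientGroup.ker_mk' Z
  obtain ⟨K', hK', hKn, hc, hKbot, -, hfpf⟩ := frobenius_kernel_data _ hFrob
  have hKK : K' = K.map π := SetLike.ext' (hK'.trans hker)
  subst hKK
  have hmemK : ∀ x : G, π x ∈ K.map π ↔ x ∈ K := by
    intro x
    rw [← Subgroup.mem_comap, Subgroup.comap_map_eq_self (by rw [hkerπ]; exact hZK)]
  have hmemH : ∀ x : G, π x ∈ H.map π ↔ x ∈ H := by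
    intro x
    rw [← Subgroup.mem_comap, Subgroup.comap_map_eq_self (by rw [hkerπ]; exact hZH)]
  have hπ1 : ∀ x : G, π x = 1 ↔ x ∈ Z := by
    intro x
    rw [← MonoidHom.mem_ker, hkerπ]
  have hcent : ∀ x g : G, g ∈ Subgroup.centralizer ({x} : Set G) ↔ g * x = x * g := by
    intro x g
    rw [Subgroup.mem_centralizer_singleton_iff]
  -- centralizers of noncentral elements of K
  have hCK : ∀ x ∈ K, x ∉ Z → Subgroup.centralizer ({x} : Set G) = K := by
    intro x hx hxZ
    apply le_antisymm
    · intro g hg
      rw [hcent] at hg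
      rw [← hmemK]
      by_contra hgK
      have hgK' : π g ∉ Cfsg.frobeniusKernel (H.map π) := by rw [hker]; exact hgK
      have hgK2 : ¬ (π g = 1 ∨ ∀ a, π g ∉ MulAut.conj a • H.map π) := hgK'
      push Not at hgK2
      obtain ⟨hg1, a, ha⟩ := hgK2
      rw [mem_conj_smul_iff] at ha
      have h1 : a⁻¹ * π g * a ≠ 1 := by
        intro h
        apply hg1
        have : π g = a * (a⁻¹ * π g * a) * a⁻¹ := by group
        rw [this, h]; group
      have h2 : a⁻¹ * π x * a ∈ K.map π := by
        have := hKn.conj_mem (π x) ((hmemK x).2 hx) a⁻¹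
        rwa [inv_inv] at this
      have h3 : (a⁻¹ * π g * a) * (a⁻¹ * π x * a) = (a⁻¹ * π x * a) * (a⁻¹ * π g * a) := by
        have : π g * π x = π x * π g := by rw [← map_mul, ← map_mul, hg]
        calc (a⁻¹ * π g * a) * (a⁻¹ * π x * a) = a⁻¹ * (π g * π x) * a := by group
          _ = a⁻¹ * (π x * π g) * a := by rw [this]
          _ = _ := by group
      have h4 := hfpf _ ha h1 _ h2 h3
      apply hxZ
      rw [← hπ1]
      have : π x = a * (a⁻¹ * π x * a) * a⁻¹ := by group
      rw [this, h4]; group
    · intro g hg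
      rw [hcent]
      have := hK.is_comm.comm ⟨g, hg⟩ ⟨x, hx⟩
      exact congrArg Subtype.val this
  -- centralizers of noncentral elements of H
  have hCH : ∀ y ∈ H, y ∉ Z → Subgroup.centralizer ({y} : Set G) = H := by
    intro y hy hyZ
    apply le_antisymm
    · intro g hg
      rw [hcent] at hg
      rw [← hmemH]
      by_contra hgH
      have h1 := hFrob.2.2 (π g) hgH
      have h2 : π y ∈ H.map π ⊓ MulAut.conj (π g) • H.map π := by
        refine Subgroup.mem_inf.2 ⟨(hmemH y).2 hy, ?_⟩
        rw [mem_conj_smul_iff]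
        have : (π g)⁻¹ * π y * π g = π y := by
          rw [mul_assoc, ← map_mul, ← hg, map_mul]; group
        rw [this]
        exact (hmemH y).2 hy
      rw [h1, Subgroup.mem_bot, hπ1] at h2
      exact hyZ h2
    · intro g hg
      rw [hcent]
      have := hH.is_comm.comm ⟨g, hg⟩ ⟨y, hy⟩
      exact congrArg Subtype.val this
  have hconj : ∀ b y : G, (Subgroup.centralizer ({b * y * b⁻¹} : Set G)).index =
      (Subgroup.centralizer ({y} : Set G)).index := by
    intro b y
    have : Subgroup.centralizer ({b * y * b⁻¹} : Set G) =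
        (Subgroup.centralizer ({y} : Set G)).map (MulAut.conj b).toMonoidHom := by
      ext g
      rw [hcent, Subgroup.mem_map_equiv, hcent]
      simp only [MulAut.conj_symm_apply]
      constructor
      · intro h
        calc b⁻¹ * g * b * y = b⁻¹ * (g * (b * y * b⁻¹)) * b := by group
          _ = b⁻¹ * ((b * y * b⁻¹) * g) * b := by rw [h]
          _ = _ := by group
      · intro h
        calc g * (b * y * b⁻¹) = b * (b⁻¹ * g * b * y) * b⁻¹ := by group
          _ = b * (y * (b⁻¹ * g * b)) * b⁻¹ := by rw [h]
          _ = _ := by group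
    rw [this]
    exact Subgroup.index_map_of_bijective (f := (MulAut.conj b).toMonoidHom) (MulAut.conj b).bijective _
  constructor
  · ext n
    simp only [Set.mem_range, Set.mem_insert_iff, Set.mem_singleton_iff]
    constructor
    · rintro ⟨x, rfl⟩
      by_cases hxZ : x ∈ Z
      · left
        rw [Subgroup.index_eq_one, eq_top_iff]
        intro g _
        rw [hcent]
        exact Subgroup.mem_center_iff.1 hxZ g
      · by_cases hxK : x ∈ K
        · right; left
          rw [hCK x hxK hxZ]
        · right; right
          have hxK' : π x ∉ Cfsg.frobeniusKernel (H.map π) := by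
            rw [hker]; exact fun h => hxK ((hmemK x).1 h)
          have hxK2 : ¬ (π x = 1 ∨ ∀ a, π x ∉ MulAut.conj a • H.map π) := hxK'
          push Not at hxK2
          obtain ⟨-, a, ha⟩ := hxK2
          obtain ⟨b, rfl⟩ := hπs a
          rw [mem_conj_smul_iff, ← map_inv, ← map_mul, ← map_mul, hmemH] at ha
          have hyZ : b⁻¹ * x * b ∉ Z := by
            intro h
            apply hxZ
            have h5 := (Subgroup.Normal.conj_mem inferInstance _ h b : b * (b⁻¹ * x * b) * b⁻¹ ∈ Z)
            have h6 : b * (b⁻¹ * x * b) * b⁻¹ = x := by group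
            rwa [h6] at h5
          have h7 : x = b * (b⁻¹ * x * b) * b⁻¹ := by group
          rw [h7, hconj, hCH _ ha hyZ]
    · rintro (rfl | rfl | rfl)
      · refine ⟨1, ?_⟩
        rw [Subgroup.index_eq_one, eq_top_iff]
        intro g _
        rw [hcent]; simp
      · obtain ⟨⟨k, hk⟩, hk1⟩ := Subgroup.ne_bot_iff_exists_ne_one.1 hKbot
        obtain ⟨x, rfl⟩ := hπs k
        refine ⟨x, ?_⟩
        rw [hCK x ((hmemK x).1 hk)]
        intro h
        exact hk1 (Subtype.ext ((hπ1 x).2 h))
      · obtain ⟨⟨k, hk⟩, hk1⟩ := Subgroup.ne_bot_iff_exists_ne_one.1 hFrob.1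
        obtain ⟨x, rfl⟩ := hπs k
        refine ⟨x, ?_⟩
        rw [hCH x ((hmemH x).1 hk)]
        intro h
        exact hk1 (Subtype.ext ((hπ1 x).2 h))
  · have e1 : K.index = (K.map π).index :=
      (Subgroup.index_map_eq _ hπs (by rw [hkerπ]; exact hZK)).symm
    have e2 : H.index = (H.map π).index :=
      (Subgroup.index_map_eq _ hπs (by rw [hkerπ]; exact hZH)).symm
    rw [e1, e2, hc.symm.index_eq_card]
    have h1 := (Cfsg.Agent.S0034.result _ hFrob).2
    have h2 : (H.map π).index ≡ 1 [MOD Nat.card (H.map π)] := h1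
    have h3 := h2.gcd_eq
    rw [Nat.gcd_one_left] at h3
    exact (Nat.coprime_comm).1 h3

end Cfsg.Agent.S4283
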