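import Cfsg.Statements.S4293
import Cfsg.Agent.Lib.Helper75.FrobConstruct

set_option autoImplicit false
open Cfsg

namespace Cfsg.Agent.S4293

theorem exists_good_prime {D : Type*} [DivisionRing D] (H : Subgroup Dˣ) [Finite H] :
    ∃ p : ℕ, p.Prime ∧ ¬ p ∣ Nat.card H ∧ ∀ r : ℤ, (p : ℤ) ∣ r - 1 → (r : D) ≠ 0 := by
  obtain ⟨c, hc⟩ := CharP.exists D
  rcases CharP.char_is_prime_or_zero D c with hcp | hc0
  · have : Fact c.Prime := ⟨hcp⟩
    refine ⟨c, hcp, ?_, ?_⟩
    · intro hdvd
      obtain ⟨h, hh⟩ := exists_prime_orderOf_dvd_card' (G := H) c hdvd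
      have h1 : (((h : Dˣ) : D)) ^ c = 1 := by
        have : h ^ c = 1 := by rw [← hh]; exact pow_orderOf_eq_one h
        have := congrArg (fun z : H => ((z : Dˣ) : D)) this
        simpa using this
      have h2 : (((h : Dˣ) : D) - 1) ^ c = 0 := by
        rw [sub_pow_char_of_commute c (Commute.one_right _), h1, one_pow, sub_self]
      have h3 : ((h : Dˣ) : D) = 1 := by
        have := pow_eq_zero_iff hcp.ne_zero |>.1 h2
        exact sub_eq_zero.1 this
      have h4 : h = 1 := by
        apply Subtype.ext
        apply Units.ext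
        simpa using h3
      rw [h4, orderOf_one] at hh
      exact hcp.one_lt.ne hh
    · intro r hr h0
      rw [CharP.intCast_eq_zero_iff D c] at h0
      have : (c : ℤ) ∣ 1 := by
        have := dvd_sub h0 hr
        simpa using this
      have : c ∣ 1 := by exact_mod_cast this
      exact hcp.one_lt.ne' (Nat.dvd_one.1 this)
  · subst hc0
    have : CharZero D := CharP.charP_to_charZero D
    obtain ⟨p, hp1, hp⟩ := Nat.exists_infinite_primes (Nat.card H + 1)
    refine ⟨p, hp, ?_, ?_⟩
    · intro hdvd
      have := Nat.le_of_dvd Nat.card_pos hdvd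
      omega
    · intro r hr h0
      have hr0 : r = 0 := by exact_mod_cast h0
      subst hr0
      have : (p : ℤ) ∣ 1 := by
        have := (dvd_neg).2 hr
        simpa using this
      have : p ∣ 1 := by exact_mod_cast this
      exact hp.one_lt.ne' (Nat.dvd_one.1 this)

/-- A nontrivial finite subgroup of the multiplicative group of a division ring occurs as a Frobenius complement of some finite Frobenius group. -/
theorem result {D : Type*} [DivisionRing D] (H : Subgroup Dˣ) [Finite H] (hH : H ≠ ⊥) :
    ∃ (L : Type) (_ : Group L) (_ : Finite L) (C : Subgroup L), Cfsg.IsFrobeniusComplement C ∧ Nonempty (H ≃* C) := by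
  classical
  obtain ⟨p, hp, hpH, hpD⟩ := exists_good_prime H
  have hnt : Nontrivial H := (Subgroup.nontrivial_iff_ne_bot H).2 hH
  let S : Submonoid D := H.toSubmonoid.map (Units.coeHom D)
  have hSfin : (S : Set D).Finite := by
    have : (S : Set D) = Set.range (fun h : H => ((h : Dˣ) : D)) := by
      ext x
      constructor
      · rintro ⟨u, hu, rfl⟩
        exact ⟨⟨u, hu⟩, rfl⟩
      · rintro ⟨h, rfl⟩
        exact ⟨h, h.2, rfl⟩
    rw [this]
    exact Set.finite_range _
  let R : Subalgebra ℤ D := Algebra.adjoin ℤ (S : Set D)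
  have hfg : (Subalgebra.toSubmodule R).FG := by
    rw [Algebra.adjoin_eq_span, Submonoid.closure_eq]
    exact Submodule.fg_span hSfin
  have hRfin : Module.Finite ℤ R := Module.Finite.iff_fg.2 hfg
  let I : Ideal R := Ideal.span {(p : R)}
  let ι : H →* R :=
    { toFun := fun h => ⟨((h : Dˣ) : D), Algebra.subset_adjoin ⟨h, h.2, rfl⟩⟩
      map_one' := by ext; simp
      map_mul' := fun a b => by ext; simp }
  have hpM : ∀ v : R ⧸ I, p • v = 0 := by
    intro v
    obtain ⟨a, rfl⟩ := Submodule.Quotient.mk_surjective I v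
    rw [← Submodule.Quotient.mk_smul, Submodule.Quotient.mk_eq_zero, nsmul_eq_mul']
    exact Ideal.mul_mem_left _ _ (Ideal.mem_span_singleton_self _)
  have hMfin : Finite (R ⧸ I) := by
    have h1 : Module.Finite ℤ (R ⧸ I) :=
      Module.Finite.of_surjective (I.mkQ.toAddMonoidHom.toIntLinearMap) (Submodule.Quotient.mk_surjective I)
    apply Module.finite_of_fg_torsion
    intro v
    refine ⟨⟨(p : ℤ), mem_nonZeroDivisors_of_ne_zero (by exact_mod_cast hp.ne_zero)⟩, ?_⟩
    have := hpM v
    change (p : ℤ) • v = 0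
    rw [natCast_zsmul]
    exact this
  have hMnt : Nontrivial (R ⧸ I) := by
    rw [Submodule.Quotient.nontrivial_iff]
    intro htop
    have h1 : (1 : R) ∈ I := by rw [htop]; trivial
    obtain ⟨y, hy⟩ := Ideal.mem_span_singleton'.1 h1
    obtain ⟨r, hr1, hr2⟩ := Submodule.exists_sub_one_mem_and_smul_eq_zero_of_fg_of_le_smul
      (Ideal.span {(p : ℤ)}) (⊤ : Submodule ℤ R) Module.Finite.fg_top (by
        intro x _
        have : x = (p : ℤ) • (x * y) := by
          rw [natCast_zsmul, nsmul_eq_mul', mul_assoc, hy, mul_one]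
        rw [this]
        exact Submodule.smul_mem_smul (Ideal.mem_span_singleton_self _) trivial)
    have h2 := hr2 1 trivial
    have h3 : (r : D) = 0 := by
      have := congrArg (fun z : R => (z : D)) h2
      simpa using this
    exact hpD r (Ideal.mem_span_singleton.1 hr1) h3
  obtain ⟨L, hL1, hL2, C, hC1, hC2, -⟩ := Cfsg.Agent.Lib.Helper75.exists_frobenius_of_module (M := R ⧸ I) ι (by
    intro h hh v hv
    have hι : ι h ≠ 1 := by
      intro h1
      apply hh
      apply Subtype.ext
      apply Units.ext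
      exact congrArg (fun z : R => (z : D)) h1
    have hsum : ∑ i ∈ Finset.range (orderOf h), (ι h) ^ i = 0 := by
      have h1 := geom_sum_mul (ι h) (orderOf h)
      rw [← map_pow, pow_orderOf_eq_one, map_one, sub_self] at h1
      rcases mul_eq_zero.1 h1 with h2 | h2
      · exact h2
      · exact absurd (sub_eq_zero.1 h2) hι
    have hpow : ∀ i : ℕ, (ι h) ^ i • v = v := by
      intro i
      induction i with
      | zero => simp
      | succ i ih => rw [pow_succ, mul_smul, hv, ih]
    have ho : orderOf h • v = 0 := by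
      have h1 : (∑ i ∈ Finset.range (orderOf h), (ι h) ^ i) • v = 0 := by rw [hsum, zero_smul]
      rw [Finset.sum_smul, Finset.sum_congr rfl (fun i _ => hpow i)] at h1
      simpa using h1
    have hcop : Nat.Coprime (orderOf h) p := by
      rw [Nat.coprime_comm, hp.coprime_iff_not_dvd]
      exact fun hd => hpH (hd.trans (orderOf_dvd_natCard h))
    have h1 : addOrderOf v ∣ orderOf h := addOrderOf_dvd_of_nsmul_eq_zero ho
    have h2 : addOrderOf v ∣ p := addOrderOf_dvd_of_nsmul_eq_zero (hpM v)
    have h3 : addOrderOf v = 1 := Nat.eq_one_of_dvd_coprimes hcop h1 h2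
    exact AddMonoid.addOrderOf_eq_one_iff.1 h3)
  exact ⟨L, hL1, hL2, C, hC1, hC2⟩

end Cfsg.Agent.S4293
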