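import Cfsg.Statements.S4295
import Cfsg.Agent.Lib.Helper75.FrobTheory
import Cfsg.Agent.Lib.Helper75.FrobConstruct
import Cfsg.Agent.Lib.Helper59.QuatHom

set_option autoImplicit false
open Cfsg

namespace Cfsg.Agent.S4295

open Cfsg.Agent.Lib.Helper75

theorem exists_quaternion_ring_hom {R : Type*} [Ring R] [Nontrivial R] (I J : R) (hI : I * I = -1)
    (hJ : J * J = -1) (hIJ : J * I = -(I * J)) (h2 : ∀ r : R, r + r = 0 → r = 0) :
    ∃ ι : QuaternionGroup 2 →* R, ι (QuaternionGroup.a 2) = -1 := by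
  let A : Rˣ := ⟨I, -I, by rw [mul_neg, hI, neg_neg], by rw [neg_mul, hI, neg_neg]⟩
  let B : Rˣ := ⟨J, -J, by rw [mul_neg, hJ, neg_neg], by rw [neg_mul, hJ, neg_neg]⟩
  have hne : (-1 : R) ≠ 1 := by
    intro h
    have : (1 : R) + 1 = 0 := by
      nth_rewrite 1 [← h]
      simp
    exact one_ne_zero (h2 1 this)
  have hA2 : A ^ 2 = -1 := by
    apply Units.ext
    rw [pow_two]
    exact hI
  have hA : orderOf A = 2 * 2 := by
    have := orderOf_eq_prime_pow (p := 2) (n := 1) (x := A) (by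
      rw [pow_one, hA2]
      intro h
      exact hne (congrArg Units.val h)) (by
      have : A ^ 2 ^ (1 + 1) = (A ^ 2) ^ 2 := by rw [← pow_mul]; norm_num
      rw [this, hA2]
      simp)
    rw [this]
    norm_num
  have hB : B * B = A ^ 2 := by
    rw [hA2]
    apply Units.ext
    exact hJ
  have hc : B * A * B⁻¹ = A⁻¹ := by
    rw [mul_inv_eq_iff_eq_mul]
    apply Units.ext
    change J * I = -I * J
    rw [hIJ, neg_mul]
  have hBA : B ∉ Subgroup.zpowers A := by
    rintro ⟨k, hk⟩
    have hcomm : A * B = B * A := by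
      rw [← hk]
      change A * A ^ k = A ^ k * A
      rw [← zpow_one_add, ← zpow_add_one, add_comm]
    have h3 : I * J = J * I := congrArg Units.val hcomm
    rw [hIJ] at h3
    have h4 : I * J = 0 := h2 _ (by nth_rewrite 1 [h3]; simp)
    have h5 : (I * I) * (J * J) = I * (I * J) * J := by noncomm_ring
    rw [h4, hI, hJ] at h5
    simp at h5
  obtain ⟨F, -, hFa, -⟩ := Cfsg.Agent.Lib.Helper59.exists_quaternion_hom 2 A B hA hB hc hBA
  refine ⟨(Units.coeHom R).comp F, ?_⟩
  have h6 := hFa 2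
  have h7 : ((2 : ℤ) : ZMod (2 * 2)) = 2 := by norm_cast
  rw [h7] at h6
  change ((F (QuaternionGroup.a 2) : Rˣ) : R) = -1
  rw [h6]
  have : A ^ (2 : ℤ) = A ^ 2 := by norm_cast
  rw [this, hA2]
  simp

theorem q8_sq (h : QuaternionGroup 2) (hh : h ≠ 1) :
    h = QuaternionGroup.a 2 ∨ h * h = QuaternionGroup.a 2 := by
  revert h
  decide

theorem zmod_odd_two_torsion (c : ℕ) (x : ZMod (2 * c + 1)) (hx : x + x = 0) : x = 0 := by
  have h : ((2 * c + 1 : ℕ) : ZMod (2 * c + 1)) = 0 := ZMod.natCast_self _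
  push_cast at h
  linear_combination h * x - (c : ZMod (2 * c + 1)) * hx

theorem construct (n : ℕ) (hn : Odd n) (hn1 : 1 < n) :
    ∃ (L : Type) (_ : Group L) (_ : Finite L) (H : Subgroup L), Cfsg.IsFrobeniusComplement H ∧
        Nonempty (H ≃* QuaternionGroup 2) ∧ Nat.card (Cfsg.frobeniusKernel H) = n * n := by
  obtain ⟨a, b, hab⟩ := exists_sq_add_sq_add_one n hn
  obtain ⟨c, rfl⟩ := hn
  have hab' : ((a : ZMod (2 * c + 1)) ^ 2 + (b : ZMod (2 * c + 1)) ^ 2 + 1) = 0 := by
    have := (ZMod.natCast_eq_zero_iff (a ^ 2 + b ^ 2 + 1) (2 * c + 1)).2 hab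
    push_cast at this
    exact this
  have hnt : Fact (1 < 2 * c + 1) := ⟨hn1⟩
  let I : Matrix (Fin 2) (Fin 2) (ZMod (2 * c + 1)) := !![(a : ZMod (2 * c + 1)), b; b, -a]
  let J : Matrix (Fin 2) (Fin 2) (ZMod (2 * c + 1)) := !![0, -1; 1, 0]
  have hI : I * I = -1 := by
    ext i j
    fin_cases i <;> fin_cases j <;> simp [I, Matrix.mul_apply, Fin.sum_univ_two] <;>
      first | ring1 | linear_combination hab'
  have hJ : J * J = -1 := by
    ext i j
    fin_cases i <;> fin_cases j <;> simp [J, Matrix.mul_apply, Fin.sum_univ_two]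
  have hIJ : J * I = -(I * J) := by
    ext i j
    fin_cases i <;> fin_cases j <;> simp [I, J, Matrix.mul_apply, Fin.sum_univ_two]
  obtain ⟨ι, hι⟩ := exists_quaternion_ring_hom I J hI hJ hIJ (by
    intro r hr
    ext i j
    exact zmod_odd_two_torsion c _ (congrFun (congrFun hr i) j))
  have hfpf : ∀ h : QuaternionGroup 2, h ≠ 1 → ∀ v : Fin 2 → ZMod (2 * c + 1), ι h • v = v → v = 0 := by
    intro h hh v hv
    have h1 : ι (QuaternionGroup.a 2) • v = v := by
      rcases q8_sq h hh with rfl | h2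
      · exact hv
      · rw [← h2, map_mul, mul_smul, hv, hv]
    rw [hι, neg_smul, one_smul] at h1
    funext i
    apply zmod_odd_two_torsion c
    have := congrFun h1 i
    simp only [Pi.neg_apply] at this
    linear_combination -this
  have : Nontrivial (QuaternionGroup 2) := ⟨⟨QuaternionGroup.a 2, 1, by decide⟩⟩
  obtain ⟨L, h1, h2, C, hC, ⟨e⟩, hcard⟩ := exists_frobenius_of_module ι hfpf
  refine ⟨L, h1, h2, C, hC, ⟨e.symm⟩, ?_⟩
  rw [hcard, Nat.card_fun, Nat.card_zmod, Nat.card_fin, pow_two]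

/-- For a natural number m the following are equivalent: (a) some finite group has a Frobenius complement isomorphic to the quaternion group of order 8 whose Frobenius kernel (the identity together with the elements lying in no conjugate of the complement) has exactly m elements; (b) m is an odd perfect square greater than 1. -/
theorem result (m : ℕ) :
    (∃ (L : Type) (_ : Group L) (_ : Finite L) (H : Subgroup L), Cfsg.IsFrobeniusComplement H ∧
        Nonempty (H ≃* QuaternionGroup 2) ∧ Nat.card (Cfsg.frobeniusKernel H) = m) ↔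
    (Odd m ∧ IsSquare m ∧ 1 < m) := by
  constructor
  · rintro ⟨L, _, _, H, hH, ⟨e⟩, rfl⟩
    obtain ⟨h1, h2⟩ := kernel_square_of_quaternion_hom H hH 2 1 rfl one_pos
      (H.subtype.comp e.symm.toMonoidHom)
      (fun x y hxy => e.symm.injective (Subtype.ext hxy)) (fun x => (e.symm x).2)
    refine ⟨h1, h2, ?_⟩
    rw [(Cfsg.Agent.S0034.result H hH).1]
    have h3 : H.index ≠ 1 := fun h => hH.2.1 (Subgroup.index_eq_one.1 h)
    have h4 : H.index ≠ 0 := Subgroup.index_ne_zero_of_finite
    omega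
  · rintro ⟨hodd, ⟨n, rfl⟩, h1⟩
    have hn : Odd n := (Nat.odd_mul.1 hodd).1
    have hn1 : 1 < n := by
      by_contra hcon
      have : n ≤ 1 := by omega
      have : n * n ≤ 1 * 1 := Nat.mul_le_mul this this
      omega
    exact construct n hn hn1

end Cfsg.Agent.S4295
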