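import Cfsg.Statements.S4296
import Cfsg.Agent.S0040
import Cfsg.Agent.Lib.Helper75.FrobTheory

set_option autoImplicit false
open Cfsg

namespace Cfsg.Agent.S4296

/-- Let H be a Frobenius complement in a finite group, and suppose some Sylow subgroup of H is not cyclic. Then the number of elements of the Frobenius kernel (the identity together with the elements lying in no conjugate of H) is an odd perfect square. -/
theorem result {L : Type*} [Group L] [Finite L] (H : Subgroup L) (hF : Cfsg.IsFrobeniusComplement H)
    (hZ : ∃ (p : ℕ) (_ : Fact p.Prime) (P : Sylow p H), ¬ IsCyclic P) :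
    Odd (Nat.card (Cfsg.frobeniusKernel H)) ∧ IsSquare (Nat.card (Cfsg.frobeniusKernel H)) := by
  obtain ⟨p, hp, P, hP⟩ := hZ
  obtain ⟨K, -, hKn, hc, hKbot, -, -⟩ := Cfsg.Agent.Lib.Helper75.frobenius_kernel_data H hF
  have hfpf := (Cfsg.Agent.S0039.result K H hc hKbot hF.1).1 hF
  rcases Cfsg.Agent.S0040.result K H hc hKbot hfpf p P with h | ⟨n, ⟨e⟩⟩
  · exact absurd h hP
  · rcases n with _ | m
    · exfalso
      apply hP
      have : IsCyclic (QuaternionGroup (2 ^ 0)) := QuaternionGroup.quaternionGroup_one_isCyclic
      exact isCyclic_of_surjective e.symm e.symm.surjective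
    · refine Cfsg.Agent.Lib.Helper75.kernel_square_of_quaternion_hom H hF (2 ^ (m + 1)) (2 ^ m)
        (pow_succ' 2 m) (by positivity)
        (H.subtype.comp ((P : Subgroup H).subtype.comp e.symm.toMonoidHom)) ?_ ?_
      · intro x y hxy
        exact e.symm.injective (Subtype.ext (Subtype.ext hxy))
      · intro x
        exact (((e.symm x : (P : Subgroup H)) : H)).2

end Cfsg.Agent.S4296
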