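import Cfsg.Statements.S4297
import Cfsg.Agent.S4293

set_option autoImplicit false
open Cfsg

namespace Cfsg.Agent.S4297

open Quaternion in
/-- the underlying map of the embedding of the dicyclic group in the Hamilton quaternions -/
noncomputable def emb (n : ℕ) [NeZero (2 * n)] : QuaternionGroup n → ℍ[ℝ]
  | QuaternionGroup.a i => ⟨(ZMod.toCircle i : ℂ).re, (ZMod.toCircle i : ℂ).im, 0, 0⟩
  | QuaternionGroup.xa i => ⟨0, 0, (ZMod.toCircle i : ℂ).re, -(ZMod.toCircle i : ℂ).im⟩

section
variable (n : ℕ) [NeZero (2 * n)]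

theorem c_add_re (i j : ZMod (2 * n)) : (ZMod.toCircle (i + j) : ℂ).re =
    (ZMod.toCircle i : ℂ).re * (ZMod.toCircle j : ℂ).re - (ZMod.toCircle i : ℂ).im * (ZMod.toCircle j : ℂ).im := by
  rw [AddChar.map_add_eq_mul, Circle.coe_mul, Complex.mul_re]

theorem c_add_im (i j : ZMod (2 * n)) : (ZMod.toCircle (i + j) : ℂ).im =
    (ZMod.toCircle i : ℂ).re * (ZMod.toCircle j : ℂ).im + (ZMod.toCircle i : ℂ).im * (ZMod.toCircle j : ℂ).re := by
  rw [AddChar.map_add_eq_mul, Circle.coe_mul, Complex.mul_im]

theorem c_neg_re (i : ZMod (2 * n)) : (ZMod.toCircle (-i) : ℂ).re = (ZMod.toCircle i : ℂ).re := by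
  rw [AddChar.map_neg_eq_inv, Circle.coe_inv_eq_conj, Complex.conj_re]

theorem c_neg_im (i : ZMod (2 * n)) : (ZMod.toCircle (-i) : ℂ).im = -(ZMod.toCircle i : ℂ).im := by
  rw [AddChar.map_neg_eq_inv, Circle.coe_inv_eq_conj, Complex.conj_im]

theorem c_n : (ZMod.toCircle ((n : ℕ) : ZMod (2 * n)) : ℂ) = -1 := by
  rw [ZMod.toCircle_natCast]
  have hn : (n : ℂ) ≠ 0 := by
    have : 2 * n ≠ 0 := NeZero.ne _
    have : n ≠ 0 := by omega
    exact_mod_cast this
  have : 2 * (Real.pi : ℂ) * Complex.I * (n : ℂ) / ((2 * n : ℕ) : ℂ) = Real.pi * Complex.I := by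
    push_cast
    field_simp
  rw [this, Complex.exp_pi_mul_I]

theorem emb_mul (x y : QuaternionGroup n) : emb n (x * y) = emb n x * emb n y := by
  have hn := c_n n
  have hnre : (ZMod.toCircle ((n : ℕ) : ZMod (2 * n)) : ℂ).re = -1 := by rw [hn]; simp
  have hnim : (ZMod.toCircle ((n : ℕ) : ZMod (2 * n)) : ℂ).im = 0 := by rw [hn]; simp
  rcases x with i | i <;> rcases y with j | j
  · rw [QuaternionGroup.a_mul_a]
    apply Quaternion.ext <;>
      simp only [Quaternion.re_mul, Quaternion.imI_mul, Quaternion.imJ_mul, Quaternion.imK_mul] <;>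
      simp only [emb, c_add_re, c_add_im] <;> ring
  · rw [QuaternionGroup.a_mul_xa, sub_eq_add_neg]
    apply Quaternion.ext <;>
      simp only [Quaternion.re_mul, Quaternion.imI_mul, Quaternion.imJ_mul, Quaternion.imK_mul] <;>
      simp only [emb, c_add_re, c_add_im, c_neg_re, c_neg_im] <;> ring
  · rw [QuaternionGroup.xa_mul_a]
    apply Quaternion.ext <;>
      simp only [Quaternion.re_mul, Quaternion.imI_mul, Quaternion.imJ_mul, Quaternion.imK_mul] <;>
      simp only [emb, c_add_re, c_add_im] <;> ring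
  · rw [QuaternionGroup.xa_mul_xa, sub_eq_add_neg]
    apply Quaternion.ext <;>
      simp only [Quaternion.re_mul, Quaternion.imI_mul, Quaternion.imJ_mul, Quaternion.imK_mul] <;>
      simp only [emb, c_add_re, c_add_im, c_neg_re, c_neg_im, hnre, hnim] <;> ring

theorem emb_injective : Function.Injective (emb n) := by
  intro x y hxy
  have hsq : ∀ i : ZMod (2 * n), (ZMod.toCircle i : ℂ).re * (ZMod.toCircle i : ℂ).re
      + (ZMod.toCircle i : ℂ).im * (ZMod.toCircle i : ℂ).im = 1 := by
    intro i
    have := Circle.normSq_coe (ZMod.toCircle i)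
    rwa [Complex.normSq_apply] at this
  rcases x with i | i <;> rcases y with j | j
  · have h1 := congrArg QuaternionAlgebra.re hxy
    have h2 := congrArg QuaternionAlgebra.imI hxy
    simp only [emb] at h1 h2
    have : ZMod.toCircle i = ZMod.toCircle j := by
      apply Circle.ext
      exact Complex.ext h1 h2
    rw [ZMod.injective_toCircle this]
  · exfalso
    have h1 := congrArg QuaternionAlgebra.re hxy
    have h2 := congrArg QuaternionAlgebra.imI hxy
    simp only [emb] at h1 h2
    have := hsq i
    rw [h1, h2] at this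
    simp at this
  · exfalso
    have h1 := congrArg QuaternionAlgebra.re hxy
    have h2 := congrArg QuaternionAlgebra.imI hxy
    simp only [emb] at h1 h2
    have := hsq j
    rw [← h1, ← h2] at this
    simp at this
  · have h1 := congrArg QuaternionAlgebra.imJ hxy
    have h2 := congrArg QuaternionAlgebra.imK hxy
    simp only [emb] at h1 h2
    have : ZMod.toCircle i = ZMod.toCircle j := by
      apply Circle.ext
      exact Complex.ext h1 (neg_injective h2)
    rw [ZMod.injective_toCircle this]

end

/-- For every n ≥ 2 the dicyclic group of order 4n (generated by an element a of order 2n and an element x with x² = aⁿ and x a x⁻¹ = a⁻¹) occurs as a Frobenius complement of some finite Frobenius group. -/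
theorem result (n : ℕ) (hn : 2 ≤ n) :
    ∃ (L : Type) (_ : Group L) (_ : Finite L) (H : Subgroup L), Cfsg.IsFrobeniusComplement H ∧ Nonempty (H ≃* QuaternionGroup n) := by
  classical
  have hn0 : NeZero n := ⟨by omega⟩
  have hn2 : NeZero (2 * n) := ⟨by omega⟩
  let f : QuaternionGroup n →* Quaternion ℝ :=
    { toFun := emb n
      map_one' := by
        rw [QuaternionGroup.one_def]
        apply Quaternion.ext <;> simp [emb, Quaternion.re_one, Quaternion.imI_one, Quaternion.imJ_one,
          Quaternion.imK_one]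
      map_mul' := emb_mul n }
  let F : QuaternionGroup n →* (Quaternion ℝ)ˣ := f.toHomUnits
  have hF : Function.Injective F := by
    intro x y hxy
    apply emb_injective n
    exact congrArg Units.val hxy
  have hfin : Finite F.range := Finite.of_equiv _ (MonoidHom.ofInjective hF).toEquiv
  have hne : F.range ≠ ⊥ := by
    rw [← Subgroup.nontrivial_iff_ne_bot]
    exact (MonoidHom.ofInjective hF).symm.toEquiv.nontrivial
  obtain ⟨L, h1, h2, H, hH, ⟨e⟩⟩ := Cfsg.Agent.S4293.result F.range hne
  exact ⟨L, h1, h2, H, hH, ⟨e.symm.trans (MonoidHom.ofInjective hF).symm⟩⟩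

end Cfsg.Agent.S4297
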