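import Cfsg.Statements.S4300
-- import your own Cfsg.Agent.* helpers here

set_option autoImplicit false
open Cfsg

namespace Cfsg.Agent.S4300

/-- Let G act faithfully and primitively on a set X, and suppose the stabilizer of some point is a simple group. Then either G is simple, or G has a normal subgroup, neither trivial nor the whole group, that acts regularly on X (transitively with trivial point stabilizers). -/
theorem result {G : Type*} [Group G] {X : Type*} [MulAction G X] [FaithfulSMul G X]
    (hprim : MulAction.IsPreprimitive G X) (x : X) (hsimple : IsSimpleGroup (MulAction.stabilizer G x)) :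
    IsSimpleGroup G ∨ ∃ N : Subgroup G, N.Normal ∧ N ≠ ⊥ ∧ N ≠ ⊤ ∧
      MulAction.IsPretransitive N X ∧ ∀ y : X, MulAction.stabilizer N y = ⊥ := by
  classical
  by_cases hS : IsSimpleGroup G
  · exact Or.inl hS
  right
  have hnt : Nontrivial G := by
    obtain ⟨a, b, hab⟩ := hsimple.toNontrivial
    exact ⟨a, b, fun h => hab (Subtype.ext h)⟩
  have : ∃ N : Subgroup G, N.Normal ∧ N ≠ ⊥ ∧ N ≠ ⊤ := by
    by_contra hcon
    push Not at hcon
    apply hS
    refine ⟨fun N hN => ?_⟩
    by_cases h : N = ⊥
    · exact Or.inl h
    · exact Or.inr (hcon N hN h)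
  obtain ⟨N, hN, hbot, htop⟩ := this
  have htrans : MulAction.IsPretransitive N X := by
    apply MulAction.IsQuasiPreprimitive.isPretransitive_of_normal (G := G)
    intro h
    apply hbot
    refine N.eq_bot_iff_forall.mpr fun n hn => ?_
    apply FaithfulSMul.eq_of_smul_eq_smul (α := X)
    intro y
    rw [one_smul]
    exact Set.eq_univ_iff_forall.mp h y ⟨n, hn⟩
  refine ⟨N, hN, hbot, htop, htrans, ?_⟩
  -- the intersection with the stabilizer of x
  have hnorm : (N.subgroupOf (MulAction.stabilizer G x)).Normal := inferInstance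
  have hx : ∀ n ∈ N, n • x = x → n = 1 := by
    rcases hsimple.eq_bot_or_eq_top_of_normal _ hnorm with h | h
    · intro n hn hnx
      have : (⟨n, hnx⟩ : MulAction.stabilizer G x) ∈ N.subgroupOf (MulAction.stabilizer G x) := by
        simpa [Subgroup.mem_subgroupOf] using hn
      rw [h, Subgroup.mem_bot] at this
      simpa using congrArg Subtype.val this
    · exfalso
      apply htop
      rw [Subgroup.subgroupOf_eq_top] at h
      rw [eq_top_iff]
      intro g _
      obtain ⟨n, hn⟩ := htrans.exists_smul_eq x (g • x)
      have h1 : (n : G)⁻¹ * g ∈ MulAction.stabilizer G x := by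
        rw [MulAction.mem_stabilizer_iff, mul_smul, inv_smul_eq_iff]
        exact hn.symm
      have h2 := N.mul_mem n.2 (h h1)
      simpa using h2
  intro y
  rw [Subgroup.eq_bot_iff_forall]
  rintro ⟨n, hn⟩ hny
  obtain ⟨k, hk⟩ := htrans.exists_smul_eq x y
  have hny' : n • y = y := hny
  have hk' : (k : G) • x = y := hk
  have h1 : ((k : G)⁻¹ * n * k) • x = x := by
    rw [mul_smul, mul_smul, hk', hny', inv_smul_eq_iff, hk']
  have h2 : (k : G)⁻¹ * n * k ∈ N := N.mul_mem (N.mul_mem (N.inv_mem k.2) hn) k.2
  have h3 := hx _ h2 h1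
  have h4 : n = 1 := by
    have : n = k * ((k : G)⁻¹ * n * k) * (k : G)⁻¹ := by group
    rw [this, h3]; group
  exact Subtype.ext h4

end Cfsg.Agent.S4300
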