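import Cfsg.Statements.S4301
import Cfsg.Agent.Lib.Helper54.Witt

set_option autoImplicit false
open Cfsg

namespace Cfsg.Agent.S4301

/-- One-point extension of a multiply transitive group. Let X be a set and G a group of permutations of Option X (the set X with one extra point ∗ = none) all of whose elements fix ∗, such that G is k-transitive on the points of X for some k ≥ 2, X having at least k points. Suppose a permutation h of Option X and an element g of G satisfy: h interchanges ∗ with a point x of X and fixes a point y of X; g interchanges x and y; (g h)³ and h² lie in G; and for every f in G fixing x, the product h f h lies in G and fixes x. Then an element of the group generated by G and h fixes ∗ exactly when it lies in G, and that group acts (k+1)-transitively on Option X. -/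
theorem result {X : Type*} (G : Subgroup (Equiv.Perm (Option X))) (hfix : ∀ f ∈ G, f none = none)
    (k : ℕ) (hk : 2 ≤ k) (hkX : Nonempty (Fin k ↪ X))
    (htrans : ∀ a b : Fin k ↪ X, ∃ f ∈ G, ∀ i, f (some (a i)) = some (b i))
    (h g : Equiv.Perm (Option X)) (hg : g ∈ G) (x y : X)
    (h1 : h none = some x) (h2 : h (some x) = none) (h3 : h (some y) = some y)
    (h4 : g (some x) = some y) (h5 : g (some y) = some x)
    (h6 : (g * h) ^ 3 ∈ G) (h7 : h ^ 2 ∈ G)
    (h8 : ∀ f ∈ G, f (some x) = some x → h * f * h ∈ G ∧ (h * f * h) (some x) = some x) :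
    (∀ f ∈ Subgroup.closure ((G : Set (Equiv.Perm (Option X))) ∪ {h}), f none = none ↔ f ∈ G) ∧
      MulAction.IsMultiplyPretransitive (Subgroup.closure ((G : Set (Equiv.Perm (Option X))) ∪ {h})) (Option X) (k + 1) := by
  classical
  have hcard : (k : ℕ∞) ≤ ENat.card X := by
    obtain ⟨e⟩ := hkX
    have := ENat.card_le_card_of_injective e.injective
    simpa using this
  have two : ∀ a b c d : X, a ≠ b → c ≠ d → ∃ f ∈ G, f (some a) = some c ∧ f (some b) = some d := by
    intro a b c d hab hcd
    let e1 : Fin 2 ↪ X := ⟨![a, b], by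
      intro i j hij
      fin_cases i <;> fin_cases j <;> simp_all⟩
    let e2 : Fin 2 ↪ X := ⟨![c, d], by
      intro i j hij
      fin_cases i <;> fin_cases j <;> simp_all⟩
    obtain ⟨E1, hE1⟩ := Fin.Embedding.restrictSurjective_of_le_ENatCard hk hcard e1
    obtain ⟨E2, hE2⟩ := Fin.Embedding.restrictSurjective_of_le_ENatCard hk hcard e2
    obtain ⟨f, hf, hfE⟩ := htrans E1 E2
    refine ⟨f, hf, ?_, ?_⟩
    · have h1 := DFunLike.congr_fun hE1 0
      have h2 := DFunLike.congr_fun hE2 0
      simp only [Function.Embedding.trans_apply] at h1 h2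
      have := hfE (Fin.castLEEmb hk 0)
      rw [h1, h2] at this
      exact this
    · have h1 := DFunLike.congr_fun hE1 1
      have h2 := DFunLike.congr_fun hE2 1
      simp only [Function.Embedding.trans_apply] at h1 h2
      have := hfE (Fin.castLEEmb hk 1)
      rw [h1, h2] at this
      exact this
  have hyx : y ≠ x := by
    rintro rfl
    rw [h2] at h3
    simp at h3
  have hh2x : (h ^ 2) (some x) = some x := by
    rw [pow_two, Equiv.Perm.mul_apply, h2, h1]
  have hdec := Cfsg.Agent.Lib.Helper54.Witt.perm_core G h g (some x) (some y) hg h5 (by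
      intro f hf hfx
      rcases hw : f⁻¹ (some x) with _ | w
      · exfalso
        have : f none = some x := by rw [← hw]; simp
        rw [hfix f hf] at this
        simp at this
      · have hwx : w ≠ x := by
          rintro rfl
          apply hfx
          have : f (f⁻¹ (some w)) = f (some w) := by rw [hw]
          simpa using this.symm
        obtain ⟨b, hb, hb1, hb2⟩ := two x w x y hwx.symm hyx.symm
        exact ⟨b, hb, hb1, hb2⟩) (by
      intro f hf hfx
      have e : h * f * h⁻¹ = (h * f * h) * (h ^ 2)⁻¹ := by group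
      have e2 : (h ^ 2)⁻¹ (some x) = some x := by
        rw [Equiv.Perm.inv_eq_iff_eq]; exact hh2x.symm
      rw [e]
      refine ⟨G.mul_mem (h8 f hf hfx).1 (G.inv_mem h7), ?_⟩
      rw [Equiv.Perm.mul_apply, e2]
      exact (h8 f hf hfx).2) h6 h7
  have hstab := Cfsg.Agent.Lib.Helper54.Witt.perm_core_stab G h none hfix (by rw [h1]; simp) hdec
  refine ⟨hstab, ?_⟩
  obtain ⟨K, hK⟩ : ∃ K, K = Subgroup.closure ((G : Set (Equiv.Perm (Option X))) ∪ {h}) := ⟨_, rfl⟩
  rw [← hK]
  have hGK : G ≤ K := by
    rw [hK]
    exact fun f hf => Subgroup.subset_closure (Or.inl hf)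
  have hhK : h ∈ K := by
    rw [hK]
    exact Subgroup.subset_closure (Or.inr rfl)
  have tr : ∀ z : Option X, ∃ f ∈ K, f z = none := by
    rintro (_ | w)
    · exact ⟨1, K.one_mem, rfl⟩
    · by_cases hwx : w = x
      · subst hwx
        exact ⟨h, hhK, h2⟩
      · obtain ⟨u, hu, hu1, -⟩ := two w x x w hwx (Ne.symm hwx)
        exact ⟨h * u, K.mul_mem hhK (hGK hu), by rw [Equiv.Perm.mul_apply, hu1, h2]⟩
  have norm : ∀ a : Fin (k + 1) ↪ Option X, ∃ f ∈ K, ∃ a' : Fin k ↪ X, f (a 0) = none ∧
      ∀ i : Fin k, f (a i.succ) = some (a' i) := by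
    intro a
    obtain ⟨f, hf, hf0⟩ := tr (a 0)
    have hex : ∀ i : Fin k, ∃ w, f (a i.succ) = some w := by
      intro i
      rcases hw : f (a i.succ) with _ | w
      · exfalso
        have := a.injective (f.injective (hw.trans hf0.symm))
        exact Fin.succ_ne_zero i this
      · exact ⟨w, rfl⟩
    choose a' ha' using hex
    refine ⟨f, hf, ⟨a', ?_⟩, hf0, ha'⟩
    intro i j hij
    have : f (a i.succ) = f (a j.succ) := by rw [ha', ha', hij]
    exact Fin.succ_injective _ (a.injective (f.injective this))
  rw [MulAction.isMultiplyPretransitive_iff]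
  intro a b
  obtain ⟨fa, hfa, a', ha0, ha'⟩ := norm a
  obtain ⟨fb, hfb, b', hb0, hb'⟩ := norm b
  obtain ⟨u, hu, hu'⟩ := htrans a' b'
  refine ⟨⟨fb⁻¹ * u * fa, K.mul_mem (K.mul_mem (K.inv_mem hfb) (hGK hu)) hfa⟩, ?_⟩
  ext1 i
  show (fb⁻¹ * u * fa) (a i) = b i
  rw [Equiv.Perm.mul_apply, Equiv.Perm.mul_apply, Equiv.Perm.inv_eq_iff_eq]
  refine Fin.cases ?_ (fun i => ?_) i
  · rw [ha0, hb0, hfix u hu]
  · rw [ha', hb', hu']

end Cfsg.Agent.S4301
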