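import Cfsg.Statements.S4309
-- import your own Cfsg.Agent.* helpers here

set_option autoImplicit false
open Cfsg

namespace Cfsg.Agent.S4309

theorem relIndex_dvd_index_of_normal_right {G : Type*} [Group G] [Finite G] (H A : Subgroup G) [A.Normal] :
    H.relIndex A ∣ H.index := by
  have h1 : (H ⊓ A).relIndex H * H.index = (H ⊓ A).index := Subgroup.relIndex_mul_index inf_le_left
  have h2 : (H ⊓ A).relIndex A * A.index = (H ⊓ A).index := Subgroup.relIndex_mul_index inf_le_right
  have h3 : A.relIndex (H ⊔ A) * (H ⊔ A).index = A.index := Subgroup.relIndex_mul_index le_sup_right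
  rw [Subgroup.inf_relIndex_left] at h1
  rw [Subgroup.inf_relIndex_right] at h2
  rw [Subgroup.relIndex_sup_right] at h3
  have h0 : A.relIndex H ≠ 0 := (A.subgroupOf H).index_ne_zero_of_finite
  refine ⟨(H ⊔ A).index, ?_⟩
  apply Nat.eq_of_mul_eq_mul_left (Nat.pos_of_ne_zero h0)
  rw [h1, ← h2, ← h3]
  ring

/-- Let `π` be a set of primes, `G` a finite group with a Hall `π`-subgroup `H` (every prime divisor of the order of `H` lies in `π` and no prime of `π` divides its index), and `A` a normal subgroup of `G`. Then `H ∩ A` is a Hall `π`-subgroup of `A` and the image of `H` in `G/A` is a Hall `π`-subgroup of `G/A`. -/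
theorem result {G : Type*} [Group G] [Finite G] (π : Set ℕ)
    (H A : Subgroup G) [A.Normal] (hH : Cfsg.IsPiHall π H) :
    Cfsg.IsPiHall π ((H ⊓ A).subgroupOf A) ∧ Cfsg.IsPiHall π (H.map (QuotientGroup.mk' A)) := by
  obtain ⟨h1, h2⟩ := hH
  refine ⟨⟨?_, ?_⟩, ⟨?_, ?_⟩⟩
  · intro p hp hdvd
    apply h1 p hp
    refine hdvd.trans ?_
    have : Nat.card ((H ⊓ A).subgroupOf A) = Nat.card (H ⊓ A : Subgroup G) :=
      Nat.card_congr (Subgroup.subgroupOfEquivOfLe inf_le_right).toEquiv
    rw [this]
    exact Subgroup.card_dvd_of_le inf_le_left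
  · intro p hp hpπ hdvd
    apply h2 p hp hpπ
    refine hdvd.trans ?_
    have : ((H ⊓ A).subgroupOf A).index = H.relIndex A := by
      rw [← Subgroup.inf_relIndex_right]; rfl
    rw [this]
    exact relIndex_dvd_index_of_normal_right H A
  · intro p hp hdvd
    exact h1 p hp (hdvd.trans (Subgroup.card_map_dvd H _))
  · intro p hp hpπ hdvd
    exact h2 p hp hpπ (hdvd.trans (Subgroup.index_map_dvd H (QuotientGroup.mk'_surjective A)))

end Cfsg.Agent.S4309
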