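import Cfsg.Statements.S4314
import Cfsg.Agent.Lib.Helper64.ClassSize

set_option autoImplicit false
open Cfsg

namespace Cfsg.Agent.S4314

open Cfsg.Agent.Lib.Helper64
open scoped commutatorElement

theorem key_le {G : Type*} [Group G] [Finite G]
    (h : ∀ x : G, (Subgroup.centralizer ({x} : Set G)).index = 1 ∨ ((Subgroup.centralizer ({x} : Set G)).index).Prime)
    {s t : G} (hc : Commute s t) (hcop : (orderOf s).Coprime (orderOf t))
    (ht : ((Subgroup.centralizer ({t} : Set G)).index).Prime) :
    Subgroup.centralizer ({s} : Set G) = Subgroup.centralizer ({t} : Set G) ∨ s ∈ Subgroup.center G := by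
  have h1 := centralizer_mul_of_coprime hc hcop
  have hle : Subgroup.centralizer ({s * t} : Set G) ≤ Subgroup.centralizer ({t} : Set G) := by
    rw [h1]; exact inf_le_right
  have hne : Subgroup.centralizer ({t} : Set G) ≠ ⊤ := by
    intro h2
    rw [h2, Subgroup.index_top] at ht
    exact Nat.not_prime_one ht
  have h3 : Subgroup.centralizer ({t} : Set G) ≤ Subgroup.centralizer ({s} : Set G) := by
    rcases h (s * t) with h2 | h2
    · rw [Subgroup.index_eq_one] at h2
      rw [h2] at hle
      exact absurd (top_le_iff.1 hle) hne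
    · rcases eq_or_eq_top_of_le_of_prime_index hle h2 with h4 | h4
      · rw [h4, h1]; exact inf_le_left
      · exact absurd h4 hne
  rcases eq_or_eq_top_of_le_of_prime_index h3 ht with h4 | h4
  · left; exact h4
  · right; exact centralizer_singleton_eq_top_iff.1 h4

theorem main_line {G : Type*} [Group G] [Finite G]
    (h : ∀ x : G, (Subgroup.centralizer ({x} : Set G)).index = 1 ∨ ((Subgroup.centralizer ({x} : Set G)).index).Prime)
    (q : ℕ) [hq : Fact q.Prime] (v : G) (hv : (orderOf v).Coprime q)
    (hvq : (Subgroup.centralizer ({v} : Set G)).index = q) :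
    ∃ p : ℕ, p.Prime ∧ (Subgroup.center G).index = p * q := by
  set M := Subgroup.centralizer ({v} : Set G) with hM
  obtain ⟨P⟩ : Nonempty (Sylow q G) := inferInstance
  have hPM : ¬ (P : Subgroup G) ≤ M := by
    intro hle
    have h1 : M.index ∣ (P : Subgroup G).index := Subgroup.index_dvd_of_le hle
    rw [hvq] at h1
    exact P.not_dvd_index h1
  obtain ⟨y, hyP, hyM⟩ := SetLike.not_le_iff_exists.1 hPM
  obtain ⟨k, hk⟩ : ∃ k, orderOf y = q ^ k := by
    obtain ⟨k, hk⟩ := P.2 ⟨y, hyP⟩
    have h1 : y ^ (q ^ k) = 1 := by
      have := congrArg Subtype.val hk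
      simpa using this
    obtain ⟨j, _, hj⟩ := (Nat.dvd_prime_pow hq.out).1 (orderOf_dvd_of_pow_eq_one h1)
    exact ⟨j, hj⟩
  set Y := Subgroup.centralizer ({y} : Set G) with hY
  have hvy : ¬ Commute v y := by
    intro hc
    apply hyM
    rw [hM, Subgroup.mem_centralizer_singleton_iff]
    exact hc.symm.eq
  have hYp : Y.index.Prime := by
    rcases h y with h1 | h1
    · exfalso
      rw [Subgroup.index_eq_one] at h1
      have : v ∈ Subgroup.centralizer ({y} : Set G) := h1 ▸ Subgroup.mem_top v
      rw [Subgroup.mem_centralizer_singleton_iff] at this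
      exact hvy this
    · exact h1
  have hMp : M.index.Prime := by rw [hvq]; exact hq.out
  have hinf : M ⊓ Y = Subgroup.center G := by
    apply le_antisymm
    · intro u hu
      obtain ⟨a, b, ha, hb, hab, ⟨j, hj⟩, hbq⟩ := exists_prime_decomp q u
      have hzu : Subgroup.zpowers u ≤ M ⊓ Y := by
        rw [Subgroup.zpowers_le]; exact hu
      obtain ⟨haM, haY⟩ := Subgroup.mem_inf.1 (hzu ha)
      obtain ⟨hbM, hbY⟩ := Subgroup.mem_inf.1 (hzu hb)
      rw [hM, Subgroup.mem_centralizer_singleton_iff] at haM hbM
      rw [hY, Subgroup.mem_centralizer_singleton_iff] at haY hbY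
      have hbc : b ∈ Subgroup.center G := by
        rcases key_le h (s := b) (t := y) hbY (by rw [hk]; exact Nat.Coprime.pow_right k hbq) hYp with h1 | h1
        · exfalso
          have : v ∈ Subgroup.centralizer ({b} : Set G) := by
            rw [Subgroup.mem_centralizer_singleton_iff]; exact hbM.symm
          rw [h1, Subgroup.mem_centralizer_singleton_iff] at this
          exact hvy this
        · exact h1
      have hac : a ∈ Subgroup.center G := by
        rcases key_le h (s := a) (t := v) haM (by rw [hj]; exact (Nat.Coprime.pow_right j hv).symm) hMp with h1 | h1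
        · exfalso
          have : y ∈ Subgroup.centralizer ({a} : Set G) := by
            rw [Subgroup.mem_centralizer_singleton_iff]; exact haY.symm
          rw [h1] at this
          exact hyM this
        · exact h1
      rw [← hab]
      exact Subgroup.mul_mem _ hac hbc
    · exact le_inf (Subgroup.center_le_centralizer _) (Subgroup.center_le_centralizer _)
  have hrel : M.relIndex Y = q := by
    apply le_antisymm
    · have h1 : M.relIndex Y ≤ M.relIndex ⊤ :=
        Subgroup.relIndex_le_of_le_right le_top (by rw [Subgroup.relIndex_top_right, hvq]; exact hq.out.ne_zero)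
      rwa [Subgroup.relIndex_top_right, hvq] at h1
    · have hne : M.relIndex Y ≠ 0 := by
        intro h0
        have := Subgroup.index_eq_zero_of_relIndex_eq_zero h0
        rw [hvq] at this
        exact hq.out.ne_zero this
      have hzy : Subgroup.zpowers y ≤ Y := by
        rw [Subgroup.zpowers_le, hY, Subgroup.mem_centralizer_singleton_iff]
      have h1 : M.relIndex (Subgroup.zpowers y) ≤ M.relIndex Y :=
        Subgroup.relIndex_le_of_le_right hzy hne
      have h2 : M.relIndex (Subgroup.zpowers y) ∣ q ^ k := by
        have := Subgroup.relIndex_dvd_card M (Subgroup.zpowers y)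
        rwa [Nat.card_zpowers, hk] at this
      obtain ⟨j, _, hj⟩ := (Nat.dvd_prime_pow hq.out).1 h2
      have hj0 : j ≠ 0 := by
        rintro rfl
        rw [pow_zero, Subgroup.relIndex_eq_one, Subgroup.zpowers_le] at hj
        exact hyM hj
      have h3 : q ≤ q ^ j := by
        calc q = q ^ 1 := (pow_one q).symm
          _ ≤ q ^ j := Nat.pow_le_pow_right hq.out.pos (Nat.one_le_iff_ne_zero.2 hj0)
      omega
  refine ⟨Y.index, hYp, ?_⟩
  rw [← hinf, ← Subgroup.relIndex_mul_index (inf_le_right : M ⊓ Y ≤ Y), Subgroup.inf_relIndex_right, hrel,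
    mul_comm]

theorem exists_coprime_elt {G : Type*} [Group G] [Finite G]
    (h : ∀ x : G, (Subgroup.centralizer ({x} : Set G)).index = 1 ∨ ((Subgroup.centralizer ({x} : Set G)).index).Prime)
    (q : ℕ) [hq : Fact q.Prime] (x : G)
    (hxq : (Subgroup.centralizer ({x} : Set G)).index = q)
    (hn : ¬ (Subgroup.centralizer ({x} : Set G)).Normal) :
    ∃ v : G, (orderOf v).Coprime q ∧
      Subgroup.centralizer ({v} : Set G) = Subgroup.centralizer ({x} : Set G) := by
  by_contra hcon
  push Not at hcon
  set M := Subgroup.centralizer ({x} : Set G) with hM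
  have hMp : M.index.Prime := by rw [hxq]; exact hq.out
  obtain ⟨a, b, ha, hb, hab, ⟨j, hj⟩, hbq⟩ := exists_prime_decomp q x
  have hcab : Commute a b := by
    obtain ⟨i, rfl⟩ := ha
    obtain ⟨l, rfl⟩ := hb
    exact (Commute.refl x).zpow_zpow i l
  have hbc : Subgroup.centralizer ({b} : Set G) = ⊤ := by
    rcases eq_or_eq_top_of_le_of_prime_index (centralizer_le_of_mem_zpowers hb) hMp with h1 | h1
    · exact absurd h1 (hcon b hbq)
    · exact h1
  have haM : Subgroup.centralizer ({a} : Set G) = M := by
    have h1 := centralizer_mul_of_coprime hcab (by rw [hj]; exact (Nat.Coprime.pow_right j hbq).symm)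
    rw [hab, hbc, inf_top_eq] at h1
    exact h1.symm
  apply hn
  apply normal_of_index_prime_of_pow_mem_center q M (Subgroup.center_le_centralizer _) hxq
  intro m hm
  obtain ⟨a', b', ha', hb', hab', ⟨j', hj'⟩, hbq'⟩ := exists_prime_decomp q m
  have hcab' : Commute a' b' := by
    obtain ⟨i, rfl⟩ := ha'
    obtain ⟨l, rfl⟩ := hb'
    exact (Commute.refl m).zpow_zpow i l
  have hb'M : b' ∈ M := (Subgroup.zpowers_le.2 hm) hb'
  rw [← haM, Subgroup.mem_centralizer_singleton_iff] at hb'M
  have hb'c : b' ∈ Subgroup.center G := by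
    rcases key_le h (s := b') (t := a) hb'M (by rw [hj]; exact Nat.Coprime.pow_right j hbq')
      (by rw [haM]; exact hMp) with h1 | h1
    · rw [haM] at h1
      exact absurd h1 (hcon b' hbq')
    · exact h1
  refine ⟨j', ?_⟩
  rw [← hab', hcab'.mul_pow, ← hj', pow_orderOf_eq_one, one_mul]
  exact Subgroup.pow_mem _ hb'c _


/-- Let `G` be a finite group every conjugacy class of which has size 1 or a prime. Then either `G` is nilpotent of class at most 2, or `G/Z(G)` is a non-abelian group of order `pq` for distinct primes `p, q` (a Frobenius group of order `pq`). -/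
theorem result {G : Type*} [Group G] [Finite G]
    (h : ∀ x : G, (Subgroup.centralizer ({x} : Set G)).index = 1 ∨ ((Subgroup.centralizer ({x} : Set G)).index).Prime) :
    Subgroup.upperCentralSeries G 2 = ⊤ ∨
      ∃ p q : ℕ, p.Prime ∧ q.Prime ∧ p ≠ q ∧ Nat.card (G ⧸ Subgroup.center G) = p * q ∧ ¬ IsMulCommutative (G ⧸ Subgroup.center G) := by
  classical
  by_cases hall : ∀ x : G, (Subgroup.centralizer ({x} : Set G)).Normal
  · left
    rw [eq_top_iff]
    intro x _
    rw [show (2 : ℕ) = 1 + 1 from rfl, Subgroup.mem_upperCentralSeries_succ_iff]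
    intro y
    rw [Subgroup.upperCentralSeries_one, Subgroup.mem_center_iff]
    intro w
    have hN := hall w
    have hcomm : IsMulCommutative (G ⧸ Subgroup.centralizer ({w} : Set G)) := by
      rcases h w with h1 | h1
      · have : Nat.card (G ⧸ Subgroup.centralizer ({w} : Set G)) = 1 := h1
        have hs : Subsingleton (G ⧸ Subgroup.centralizer ({w} : Set G)) :=
          (Nat.card_eq_one_iff_unique.1 this).1
        exact ⟨⟨fun a b => Subsingleton.elim _ _⟩⟩
      · have hf : Fact ((Subgroup.centralizer ({w} : Set G)).index).Prime := ⟨h1⟩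
        have hc : IsCyclic (G ⧸ Subgroup.centralizer ({w} : Set G)) :=
          isCyclic_of_prime_card (p := (Subgroup.centralizer ({w} : Set G)).index) rfl
        exact hc.isMulCommutative
    have hle := Subgroup.Normal.quotient_commutative_iff_commutator_le.1 hcomm
    have hmem : ⁅x, y⁆ ∈ Subgroup.centralizer ({w} : Set G) :=
      hle (Subgroup.commutator_mem_commutator (Subgroup.mem_top x) (Subgroup.mem_top y))
    rw [commutatorElement_def, Subgroup.mem_centralizer_singleton_iff] at hmem
    exact hmem.symm
  · right
    push Not at hall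
    obtain ⟨x, hx⟩ := hall
    have hxp : ((Subgroup.centralizer ({x} : Set G)).index).Prime := by
      rcases h x with h1 | h1
      · exfalso
        rw [Subgroup.index_eq_one] at h1
        apply hx
        rw [h1]
        infer_instance
      · exact h1
    set q := (Subgroup.centralizer ({x} : Set G)).index with hq
    have hqf : Fact q.Prime := ⟨hxp⟩
    obtain ⟨v, hv, hvx⟩ := exists_coprime_elt h q x rfl hx
    obtain ⟨p, hp, hpq⟩ := main_line h q v hv (by rw [hvx])
    have hnc : ¬ IsMulCommutative (G ⧸ Subgroup.center G) := by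
      intro hcomm
      have hle := Subgroup.Normal.quotient_commutative_iff_commutator_le.1 hcomm
      apply hx
      constructor
      intro m hm g
      have h1 : ⁅g, m⁆ ∈ Subgroup.centralizer ({x} : Set G) :=
        Subgroup.center_le_centralizer _
          (hle (Subgroup.commutator_mem_commutator (Subgroup.mem_top g) (Subgroup.mem_top m)))
      have h2 : g * m * g⁻¹ = ⁅g, m⁆ * m := by
        rw [commutatorElement_def]; group
      rw [h2]
      exact Subgroup.mul_mem _ h1 hm
    refine ⟨p, q, hp, hxp, ?_, hpq, hnc⟩
    intro hpq'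
    apply hnc
    have hcard : Nat.card (G ⧸ Subgroup.center G) = q ^ 2 := by
      rw [sq]; rw [hpq'] at hpq; exact hpq
    exact IsPGroup.isMulCommutative_of_card_eq_prime_sq hcard

end Cfsg.Agent.S4314
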