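import Cfsg.Statements.S4320
import Cfsg.Agent.Lib.Helper57.PIT3

set_option autoImplicit false
open Cfsg

namespace Cfsg.Agent.S4320

open Cfsg.Agent.Lib.Helper57.PIT

/-- The Principal Ideal Theorem of class field theory in its group-theoretic form: for every finite group `G`, the transfer homomorphism from `G` into the abelianization `G'/G''` of its derived subgroup `G'` is the trivial homomorphism. -/
theorem result {G : Type*} [Group G] [Finite G] :
    MonoidHom.transfer (Abelianization.of : ↥(commutator G) →* Abelianization ↥(commutator G)) =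
      (1 : G →* Abelianization ↥(commutator G)) := by
  classical
  ext g
  rw [MonoidHom.one_apply]
  let _ : Fintype (Abelianization G) := (commutator G).fintypeQuotientOfFiniteIndex
  obtain ⟨T⟩ : Nonempty (commutator G).LeftTransversal := ⟨default⟩
  rw [MonoidHom.transfer_def _ T g]
  obtain ⟨p, hpdef⟩ : ∃ p : G →* Abelianization G, p = Abelianization.of := ⟨_, rfl⟩
  have hp : Function.Surjective p := by
    rw [hpdef]; exact QuotientGroup.mk'_surjective _
  have hker : p.ker = commutator G := by rw [hpdef]; exact Abelianization.ker_of G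
  obtain ⟨s, hsdef⟩ : ∃ s : Abelianization G → G, s = fun q => (T.2.leftQuotientEquiv q : G) :=
    ⟨_, rfl⟩
  have hs : ∀ q, p (s q) = q := by
    intro q
    rw [hsdef, hpdef]
    exact Subgroup.IsComplement.quotientGroupMk_leftQuotientEquiv T.2 q
  obtain ⟨ψ, hψ⟩ : ∃ ψ : G → Abelianization ↥(commutator G),
      ∀ (x : G) (hx : x ∈ commutator G), ψ x = Abelianization.of ⟨x, hx⟩ :=
    ⟨fun x => if hx : x ∈ commutator G then Abelianization.of ⟨x, hx⟩ else 1,
      fun x hx => dif_pos hx⟩
  have hψmul : ∀ x y, x ∈ commutator G → y ∈ commutator G → ψ (x * y) = ψ x * ψ y := by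
    intro x y hx hy
    rw [hψ x hx, hψ y hy, hψ _ (mul_mem hx hy), ← map_mul]
    rfl
  have hmem : ∀ (g : G) (q : Abelianization G), (s q)⁻¹ * g * s ((p g)⁻¹ * q) ∈ commutator G := by
    intro g q
    rw [← hker, MonoidHom.mem_ker, map_mul, map_mul, map_inv, hs, hs]
    group
  have hF : ∀ (g h : G) (q : Abelianization G),
      (Additive.ofMul (ψ ((s q)⁻¹ * (g * h) * s ((p (g * h))⁻¹ * q))) :
        Additive (Abelianization ↥(commutator G))) =
      Additive.ofMul (ψ ((s q)⁻¹ * g * s ((p g)⁻¹ * q))) +
        Additive.ofMul (ψ ((s ((p g)⁻¹ * q))⁻¹ * h * s ((p h)⁻¹ * ((p g)⁻¹ * q)))) := by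
    intro g h q
    rw [← ofMul_mul, ← hψmul _ _ (hmem g q) (hmem h _)]
    congr 2
    rw [map_mul, mul_inv_rev, mul_assoc ((p h)⁻¹)]
    group
  have key := sum_eq_zero (A := Abelianization ↥(commutator G)) p hp hker.le
    (fun g q => (Additive.ofMul (ψ ((s q)⁻¹ * g * s ((p g)⁻¹ * q))) :
      Additive (Abelianization ↥(commutator G)))) (fun g h q => hF g h q) g
  have key2 : ∏ q : Abelianization G, ψ ((s q)⁻¹ * g * s ((p g)⁻¹ * q)) = 1 := by
    have h1 : (∑ q : Abelianization G, (Additive.ofMul (ψ ((s q)⁻¹ * g * s ((p g)⁻¹ * q))) :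
      Additive (Abelianization ↥(commutator G)))) = 0 := key
    rw [← ofMul_prod] at h1
    exact h1
  rw [← key2]
  unfold Subgroup.leftTransversals.diff
  refine Finset.prod_congr rfl (fun q _ => ?_)
  rw [← hψ]
  congr 1
  rw [Subgroup.smul_apply_eq_smul_apply_inv_smul, hsdef, smul_eq_mul, mul_assoc]
  congr 3
  rw [hpdef]
  induction q using QuotientGroup.induction_on with
  | H x => rfl

end Cfsg.Agent.S4320
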