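import Cfsg.Statements.S4321
import Cfsg.Agent.Lib.Helper84.PS.Main
-- import your own Cfsg.Agent.* helpers here

set_option autoImplicit false
open Cfsg
open Cfsg.Agent.Lib.Helper84.PS

namespace Cfsg.Agent.S4321


/-- Let `G` be a finite group and `p` a prime not dividing the order of the centre of `G`. Consider the primes dividing the size of some conjugacy class of a `p`-singular element (an element of order divisible by `p`), two of them adjacent when their product divides such a class size. Then any two distinct such primes are joined by a path with at most 3 edges (the graph is connected of diameter at most 3). -/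
theorem result {G : Type*} [Group G] [Finite G] (p : ℕ) [Fact p.Prime]
    (hZ : ¬ p ∣ Nat.card ↥(Subgroup.center G)) (r s : ℕ) (hr : (r.Prime ∧ ∃ x : G, p ∣ orderOf x ∧ r ∣ (Subgroup.centralizer ({x} : Set G)).index)) (hs : (s.Prime ∧ ∃ x : G, p ∣ orderOf x ∧ s ∣ (Subgroup.centralizer ({x} : Set G)).index)) (hrs : r ≠ s) :
    (∃ x : G, p ∣ orderOf x ∧ r * s ∣ (Subgroup.centralizer ({x} : Set G)).index) ∨ (∃ t : ℕ, (t.Prime ∧ ∃ x : G, p ∣ orderOf x ∧ t ∣ (Subgroup.centralizer ({x} : Set G)).index) ∧ t ≠ r ∧ t ≠ s ∧ (∃ x : G, p ∣ orderOf x ∧ r * t ∣ (Subgroup.centralizer ({x} : Set G)).index) ∧ (∃ x : G, p ∣ orderOf x ∧ t * s ∣ (Subgroup.centralizer ({x} : Set G)).index)) ∨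
      (∃ t u : ℕ, (t.Prime ∧ ∃ x : G, p ∣ orderOf x ∧ t ∣ (Subgroup.centralizer ({x} : Set G)).index) ∧ (u.Prime ∧ ∃ x : G, p ∣ orderOf x ∧ u ∣ (Subgroup.centralizer ({x} : Set G)).index) ∧ t ≠ r ∧ u ≠ s ∧ t ≠ u ∧ (∃ x : G, p ∣ orderOf x ∧ r * t ∣ (Subgroup.centralizer ({x} : Set G)).index) ∧ (∃ x : G, p ∣ orderOf x ∧ t * u ∣ (Subgroup.centralizer ({x} : Set G)).index) ∧ (∃ x : G, p ∣ orderOf x ∧ u * s ∣ (Subgroup.centralizer ({x} : Set G)).index)) := by
  obtain ⟨hrp, x, hx, hrx⟩ := hr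
  obtain ⟨hsp, y, hy, hsy⟩ := hs
  obtain ⟨u, hu1, hup, hux⟩ := exists_ppart x hx
  obtain ⟨v, hv1, hvp, hvy⟩ := exists_ppart y hy
  obtain ⟨t, q, ht, hq, htu, hqv, z, hz, htz, hqz⟩ := main_lemma p hZ u v hu1 hv1 hup hvp
  have htx : t ∣ (Subgroup.centralizer ({x} : Set G)).index := htu.trans hux
  have hqy : q ∣ (Subgroup.centralizer ({y} : Set G)).index := hqv.trans hvy
  have key : ∀ (a b : ℕ) (w : G), a.Prime → b.Prime → a ≠ b →
      a ∣ (Subgroup.centralizer ({w} : Set G)).index →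
      b ∣ (Subgroup.centralizer ({w} : Set G)).index →
      a * b ∣ (Subgroup.centralizer ({w} : Set G)).index := by
    intro a b w ha hb hab h1 h2
    exact ((Nat.coprime_primes ha hb).mpr hab).mul_dvd_of_dvd_of_dvd h1 h2
  by_cases h1 : t = r
  · subst h1
    by_cases h2 : q = s
    · subst h2
      exact Or.inl ⟨z, hz, key _ _ z hrp hsp hrs htz hqz⟩
    · by_cases h3 : q = t
      · subst h3
        exact Or.inl ⟨y, hy, key _ _ y hrp hsp hrs hqy hsy⟩
      · exact Or.inr (Or.inl ⟨q, ⟨hq, y, hy, hqy⟩, h3, h2,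
          ⟨z, hz, key _ _ z hrp hq (Ne.symm h3) htz hqz⟩, ⟨y, hy, key _ _ y hq hsp h2 hqy hsy⟩⟩)
  · by_cases h2 : t = s
    · subst h2
      exact Or.inl ⟨x, hx, key _ _ x hrp hsp hrs hrx htx⟩
    · by_cases h3 : q = s
      · subst h3
        exact Or.inr (Or.inl ⟨t, ⟨ht, x, hx, htx⟩, h1, h2,
          ⟨x, hx, key _ _ x hrp ht (Ne.symm h1) hrx htx⟩, ⟨z, hz, key _ _ z ht hsp h2 htz hqz⟩⟩)
      · by_cases h4 : q = t
        · subst h4
          exact Or.inr (Or.inl ⟨q, ⟨hq, x, hx, htx⟩, h1, h2,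
            ⟨x, hx, key _ _ x hrp hq (Ne.symm h1) hrx htx⟩, ⟨y, hy, key _ _ y hq hsp h2 hqy hsy⟩⟩)
        · exact Or.inr (Or.inr ⟨t, q, ⟨ht, x, hx, htx⟩, ⟨hq, y, hy, hqy⟩, h1, h3, Ne.symm h4,
            ⟨x, hx, key _ _ x hrp ht (Ne.symm h1) hrx htx⟩,
            ⟨z, hz, key _ _ z ht hq (Ne.symm h4) htz hqz⟩,
            ⟨y, hy, key _ _ y hq hsp h3 hqy hsy⟩⟩)

end Cfsg.Agent.S4321
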