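import Cfsg.Statements.S4416
-- import your own Cfsg.Agent.* helpers here
import Cfsg.Agent.Lib.Helper92.ES2Class

set_option autoImplicit false
open Cfsg

namespace Cfsg.Agent.S4416

open Cfsg.Agent.Lib.Helper92

theorem card_ne_two {E : Type*} [Group E] [Finite E] (hE : Cfsg.IsExtraspecial 2 E) :
    Nat.card E ≠ 2 := by
  intro h
  have h1 : Subgroup.center E = ⊤ := Subgroup.eq_top_of_card_eq _ (by rw [hE.2, h])
  have h2 : commutator E = ⊥ := (commutator_eq_bot_iff_center_eq_top E).2 h1
  have h3 := hE.2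
  rw [← hE.1.2.2, h2, Subgroup.card_bot] at h3
  omega

/-- Classification of extraspecial 2-groups in intrinsic form. An extraspecial 2-group has order 2^(2m+1) for some m ≥ 1, and the number of its elements squaring to the identity is either 2^(2m) + 2^m or 2^(2m) − 2^m; two extraspecial 2-groups of the same order with the same number of such elements are isomorphic. (The two cases are the central products of m dihedral groups of order 8, and of m − 1 dihedral groups with one quaternion group.) -/
theorem result (E : Type*) [Group E] [Finite E] (hE : Cfsg.IsExtraspecial 2 E) :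
    (∃ m : ℕ, 1 ≤ m ∧ Nat.card E = 2 ^ (2 * m + 1) ∧
      (Nat.card {x : E // x ^ 2 = 1} = 2 ^ (2 * m) + 2 ^ m ∨ Nat.card {x : E // x ^ 2 = 1} = 2 ^ (2 * m) - 2 ^ m)) ∧
    ∀ (E' : Type*) [Group E'] [Finite E'], Cfsg.IsExtraspecial 2 E' → Nat.card E' = Nat.card E →
      Nat.card {x : E' // x ^ 2 = 1} = Nat.card {x : E // x ^ 2 = 1} → Nonempty (E ≃* E') := by
  obtain ⟨z, h⟩ := ES2.exists_of hE.1.2.2.le hE.2
  constructor
  · obtain ⟨m, hm, hNN⟩ := ES2.count_aux _ E z h rfl
    refine ⟨m, ?_, hm, ?_⟩
    · by_contra hm0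
      have : m = 0 := by omega
      subst this
      exact card_ne_two hE (by rw [hm]; norm_num)
    · rcases hNN with h1 | ⟨-, h1⟩
      · left; exact h1
      · right
        have : Nat.card {x : E // x ^ 2 = 1} + 2 ^ m = 2 ^ (2 * m) := h1
        omega
  · intro E' _ _ hE' hcard hNN
    obtain ⟨z', h'⟩ := ES2.exists_of hE'.1.2.2.le hE'.2
    obtain ⟨F, -⟩ := ES2.iso_aux _ E E' z z' h h' rfl hcard hNN.symm
    exact ⟨F⟩

end Cfsg.Agent.S4416
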