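import Cfsg.Statements.S4421
-- import your own Cfsg.Agent.* helpers here

set_option autoImplicit false
open Cfsg

namespace Cfsg.Agent.S4421

theorem map_conj_mul {G : Type*} [Group G] (A : Subgroup G) (g h : G) :
    A.map (MulAut.conj (g * h)).toMonoidHom = (A.map (MulAut.conj h).toMonoidHom).map (MulAut.conj g).toMonoidHom := by
  rw [Subgroup.map_map]
  congr 1
  ext x
  simp [mul_assoc]

theorem map_conj_eq_self_iff {G : Type*} [Group G] [Finite G] (A : Subgroup G) (g : G) :
    A.map (MulAut.conj g).toMonoidHom = A ↔ g ∈ Subgroup.normalizer (A : Set G) := by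
  constructor
  · intro h
    rw [Subgroup.mem_normalizer_iff]
    intro x
    constructor
    · intro hx
      rw [← h]
      exact ⟨x, hx, by simp⟩
    · intro hx
      rw [← h] at hx
      obtain ⟨y, hy, hxy⟩ := hx
      simp at hxy
      rw [← hxy]; exact hy
  · intro h
    rw [Subgroup.mem_normalizer_iff] at h
    ext x
    constructor
    · rintro ⟨y, hy, rfl⟩
      simpa using (h y).1 hy
    · intro hx
      refine ⟨g⁻¹ * x * g, ?_, by simp [mul_assoc]⟩
      rw [SetLike.mem_coe, h]
      simpa [mul_assoc] using hx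

/-- A factorization of a normalizer from two-step control of fusion. Let `G` be a finite group and `A ≤ S ≤ H` subgroups of `G` such that: (i) `S` controls the `G`-fusion of `A` in the sense that every `G`-conjugate of `A` lying in `S` is an `S`-conjugate of `A`; (ii) `H` controls the `G`-fusion of `S` in the same sense; (iii) every conjugate of `S` by an element of the normalizer of `A` lies in `H`. Then `N_G(A) = N_H(A) · (N_G(S) ∩ N_G(A))`: every element of the normalizer of `A` is a product of an element of `H` normalizing `A` and an element normalizing both `S` and `A`. -/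
theorem result {G : Type*} [Group G] [Finite G] (A S H : Subgroup G)
    (hAS : A ≤ S) (hSH : S ≤ H)
    (h1 : ∀ g : G, A.map (MulAut.conj g).toMonoidHom ≤ S → ∃ s ∈ S, A.map (MulAut.conj g).toMonoidHom = A.map (MulAut.conj s).toMonoidHom)
    (h2 : ∀ g : G, S.map (MulAut.conj g).toMonoidHom ≤ H → ∃ y ∈ H, S.map (MulAut.conj g).toMonoidHom = S.map (MulAut.conj y).toMonoidHom)
    (h3 : ∀ x ∈ Subgroup.normalizer (A : Set G), S.map (MulAut.conj x).toMonoidHom ≤ H) :
    ∀ x ∈ Subgroup.normalizer (A : Set G), ∃ y ∈ H ⊓ Subgroup.normalizer (A : Set G),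
      ∃ z ∈ Subgroup.normalizer (S : Set G) ⊓ Subgroup.normalizer (A : Set G), x = y * z := by
  intro x hx
  -- S^x = S^y with y in H ; w = y⁻¹ x normalizes S
  obtain ⟨y, hyH, hy⟩ := h2 x (h3 x hx)
  have hw : y⁻¹ * x ∈ Subgroup.normalizer (S : Set G) := by
    rw [← map_conj_eq_self_iff, map_conj_mul, hy, ← map_conj_mul]
    simp
    ext t; simp
  -- A^{w} ≤ S
  have hAw : A.map (MulAut.conj (y⁻¹ * x)).toMonoidHom ≤ S := by
    calc A.map (MulAut.conj (y⁻¹ * x)).toMonoidHom ≤ S.map (MulAut.conj (y⁻¹ * x)).toMonoidHom := Subgroup.map_mono hAS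
      _ = S := (map_conj_eq_self_iff S _).2 hw
  obtain ⟨s, hsS, hs⟩ := h1 _ hAw
  -- z = s⁻¹ w normalizes A and S ; x = (y s) z
  have hzA : s⁻¹ * (y⁻¹ * x) ∈ Subgroup.normalizer (A : Set G) := by
    rw [← map_conj_eq_self_iff, map_conj_mul, hs, ← map_conj_mul]
    simp
    ext t; simp
  have hzS : s⁻¹ * (y⁻¹ * x) ∈ Subgroup.normalizer (S : Set G) :=
    mul_mem (inv_mem (Subgroup.le_normalizer hsS)) hw
  have hysA : y * s ∈ Subgroup.normalizer (A : Set G) := by
    have : y * s = x * (s⁻¹ * (y⁻¹ * x))⁻¹ := by group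
    rw [this]
    exact mul_mem hx (inv_mem hzA)
  exact ⟨y * s, ⟨mul_mem hyH (hSH hsS), hysA⟩, s⁻¹ * (y⁻¹ * x), ⟨hzS, hzA⟩, by group⟩

end Cfsg.Agent.S4421
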