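import Cfsg.Statements.S4422
-- import your own Cfsg.Agent.* helpers here

set_option autoImplicit false
open Cfsg

namespace Cfsg.Agent.S4422

theorem modEq_one_of_primes (e : ℕ) (m : ℕ) (hm0 : m ≠ 0)
    (h : ∀ r : ℕ, r.Prime → r ∣ m → r ≡ 1 [MOD e]) : m ≡ 1 [MOD e] := by
  induction m using Nat.recOnMul with
  | zero => exact absurd rfl hm0
  | one => rfl
  | prime p hp => exact h p hp dvd_rfl
  | mul a b ha hb =>
    have ha0 : a ≠ 0 := by rintro rfl; simp at hm0
    have hb0 : b ≠ 0 := by rintro rfl; simp at hm0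
    have h1 := ha ha0 (fun r hr hra => h r hr (Dvd.dvd.mul_right hra b))
    have h2 := hb hb0 (fun r hr hrb => h r hr (Dvd.dvd.mul_left hrb a))
    simpa using h1.mul h2

theorem prime_case (q e m : ℕ) (hq : 2 ≤ q) (he : 1 ≤ e)
    (hm : m ∣ q ^ e - 1) (hcop : ∀ i : ℕ, 1 ≤ i → i < e → Nat.Coprime m (q ^ i - 1))
    (r : ℕ) (hr : r.Prime) (hrm : r ∣ m) : r ≡ 1 [MOD e] := by
  have : Fact r.Prime := ⟨hr⟩
  have hpow : ∀ i : ℕ, 1 ≤ q ^ i := fun i => Nat.one_le_pow _ _ (by omega)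
  have key : ∀ i : ℕ, ((q : ZMod r) ^ i = 1 ↔ r ∣ q ^ i - 1) := by
    intro i
    rw [← (ZMod.natCast_eq_zero_iff (q ^ i - 1) r), Nat.cast_sub (hpow i)]
    simp [sub_eq_zero]
  have h1 : (q : ZMod r) ^ e = 1 := (key e).2 (hrm.trans hm)
  have hq0 : (q : ZMod r) ≠ 0 := by
    intro h0
    rw [h0, zero_pow (by omega)] at h1
    exact zero_ne_one h1
  have hdvd : orderOf (q : ZMod r) ∣ e := orderOf_dvd_of_pow_eq_one h1
  have hpos : 0 < orderOf (q : ZMod r) := Nat.pos_of_dvd_of_pos hdvd (by omega)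
  have hle : orderOf (q : ZMod r) ≤ e := Nat.le_of_dvd (by omega) hdvd
  have heq : orderOf (q : ZMod r) = e := by
    by_contra hne
    have hlt : orderOf (q : ZMod r) < e := lt_of_le_of_ne hle hne
    have h2 := hcop _ hpos hlt
    have h3 : r ∣ q ^ orderOf (q : ZMod r) - 1 := (key _).1 (pow_orderOf_eq_one _)
    have h4 : r ∣ 1 := by
      have := Nat.dvd_gcd hrm h3
      rwa [h2] at this
    exact hr.one_lt.ne' (Nat.dvd_one.1 h4)
  have h5 : e ∣ r - 1 := heq ▸ ZMod.orderOf_dvd_card_sub_one hq0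
  exact ((Nat.modEq_iff_dvd' hr.one_lt.le).2 h5).symm

/-- Primitive divisors of `q^e - 1` are congruent to 1 modulo `e`. Let `q ≥ 2` and `e ≥ 1` be natural numbers and let `m` be a divisor of `q^e - 1` that is coprime to `q^i - 1` for every `1 ≤ i < e` (so `m` divides the primitive part of `q^e - 1`, the largest such divisor). Then `m ≡ 1 (mod e)`. -/
theorem result (q e m : ℕ) (hq : 2 ≤ q) (he : 1 ≤ e)
    (hm : m ∣ q ^ e - 1) (hcop : ∀ i : ℕ, 1 ≤ i → i < e → Nat.Coprime m (q ^ i - 1)) :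
    m % e = 1 % e := by
  have hm0 : m ≠ 0 := by
    rintro rfl
    have h1 : q ^ e - 1 = 0 := by simpa using hm
    have h2 : 2 ^ 1 ≤ q ^ e := by
      calc 2 ^ 1 ≤ q ^ 1 := by simpa using hq
        _ ≤ q ^ e := Nat.pow_le_pow_right (by omega) he
    omega
  exact modEq_one_of_primes e m hm0 (fun r hr hrm => prime_case q e m hq he hm hcop r hr hrm)

end Cfsg.Agent.S4422
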