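import Cfsg.Statements.S4425
import Cfsg.Agent.Lib.Helper81.Integrality
import Cfsg.Agent.Lib.Helper78.DefectZero

set_option autoImplicit false
open Cfsg Cfsg.Agent.Lib.Helper81 Cfsg.Agent.Lib.Helper20

namespace Cfsg.Agent.S4425

/-- Let χ be an irreducible character of the finite group G, p a prime, p^a the p-part of the order of G and p^b the p-part of the degree χ(1). Let χ̃ be the class function equal to p^a · χ on p-regular elements and zero on p-singular elements. Then p^(−b) · χ̃ is a generalized character of G, while p^(−(b+1)) · χ̃ is not. -/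
theorem result {G : Type*} [Group G] [Finite G] (p : ℕ) [Fact p.Prime] (χ : Cfsg.IrrCharacter G) : Cfsg.IsGeneralizedCharacter G (fun x : G => if p ∣ orderOf x then (0 : ℂ) else ((p ^ ((Nat.card G).factorization p - (Cfsg.charDegree (χ : G → ℂ)).factorization p) : ℕ) : ℂ) * (χ : G → ℂ) x) ∧ ¬ Cfsg.IsGeneralizedCharacter G (fun x : G => if p ∣ orderOf x then (0 : ℂ) else ((p ^ (Nat.card G).factorization p : ℕ) : ℂ) / ((p ^ ((Cfsg.charDegree (χ : G → ℂ)).factorization p + 1) : ℕ) : ℂ) * (χ : G → ℂ) x) := by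
  classical
  have := Fintype.ofFinite G
  have : Finite (Cfsg.IrrCharacter G) := finite_irrCharacter
  have : Fintype (Cfsg.IrrCharacter G) := Fintype.ofFinite _
  have hp : p.Prime := Fact.out
  obtain ⟨M, hM⟩ := Cfsg.Agent.Lib.Helper78.exists_isPModular hp
  have hp0 : (p : ℂ) ≠ 0 := by exact_mod_cast hp.ne_zero
  constructor
  · rw [pRegularPart_smul_eq, pRegularPart_eq_sum_mC, Finset.smul_sum]
    apply Cfsg.Agent.Lib.Helper32.genChar_sum
    intro ψ _
    obtain ⟨k, hk⟩ := pow_nuDeg_dvd_nC hM ψ χ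
    rw [nC_symm hp] at hk
    have h1 : ((p ^ ((Nat.card G).factorization p - (Cfsg.charDegree (χ : G → ℂ)).factorization p) : ℕ) : ℂ)
        * mC p (χ : G → ℂ) (ψ : G → ℂ) = (k : ℂ) := by
      have h2 : (nC p χ ψ : ℂ) = ((p ^ nuDeg p χ : ℕ) : ℂ) * (k : ℂ) := by exact_mod_cast hk
      rw [nC_spec hp] at h2
      have h3 : (Nat.card G).factorization p
          = ((Nat.card G).factorization p - nuDeg p χ) + nuDeg p χ :=
        (Nat.sub_add_cancel (nuDeg_le_card χ)).symm
      rw [h3, pow_add] at h2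
      have hq : ((p ^ nuDeg p χ : ℕ) : ℂ) ≠ 0 := by exact_mod_cast pow_ne_zero _ hp.ne_zero
      apply mul_left_cancel₀ hq
      rw [← h2]
      simp only [nuDeg]
      push_cast
      ring
    rw [smul_smul, h1]
    exact Cfsg.Agent.Lib.Helper32.genChar_intCast_smul
      (Cfsg.Agent.Lib.Helper32.genChar_of_irr ψ.2) k
  · rintro ⟨α, β, hα, hβ, hη⟩
    obtain ⟨P⟩ : Nonempty (Sylow p G) := inferInstance
    obtain ⟨n₁, h₁⟩ := isCharacter_classInner_nat' (isCharacter_restrict hα (P : Subgroup G))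
      (isCharacter_one (G := (P : Subgroup G)))
    obtain ⟨n₂, h₂⟩ := isCharacter_classInner_nat' (isCharacter_restrict hβ (P : Subgroup G))
      (isCharacter_one (G := (P : Subgroup G)))
    rw [pRegularPart_smul_eq] at hη
    have h3 := sum_pGroup_pRegularPart hp (P : Subgroup G) P.2 (χ : G → ℂ)
    have h4 : ∀ x : G, ((p ^ (Nat.card G).factorization p : ℕ) : ℂ) /
        ((p ^ ((Cfsg.charDegree (χ : G → ℂ)).factorization p + 1) : ℕ) : ℂ) *
        Cfsg.pRegularPart p (χ : G → ℂ) x = α x - β x := fun x => congrFun hη x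
    have h5 : ((n₁ : ℂ) - n₂) = (Nat.card (P : Subgroup G) : ℂ)⁻¹ *
        (((p ^ (Nat.card G).factorization p : ℕ) : ℂ) /
        ((p ^ ((Cfsg.charDegree (χ : G → ℂ)).factorization p + 1) : ℕ) : ℂ) * (χ : G → ℂ) 1) := by
      rw [← h₁, ← h₂, ← h3, Finset.mul_sum]
      simp only [Cfsg.classInner, map_one, mul_one]
      rw [← mul_sub, ← Finset.sum_sub_distrib]
      congr 1
      apply Finset.sum_congr rfl; intro x _
      rw [h4]
    rw [P.card_eq_multiplicity, irr_one_eq] at h5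
    have hq : ((p ^ (Nat.card G).factorization p : ℕ) : ℂ) ≠ 0 := by
      exact_mod_cast pow_ne_zero _ hp.ne_zero
    have hq2 : ((p ^ ((Cfsg.charDegree (χ : G → ℂ)).factorization p + 1) : ℕ) : ℂ) ≠ 0 := by
      exact_mod_cast pow_ne_zero _ hp.ne_zero
    have h6 : ((Cfsg.charDegree (χ : G → ℂ) : ℤ) : ℂ)
        = (((p ^ ((Cfsg.charDegree (χ : G → ℂ)).factorization p + 1) : ℕ) : ℤ) * ((n₁ : ℤ) - n₂) : ℤ) := by
      push_cast
      push_cast at h5
      rw [h5]
      field_simp
    have h7 : (Cfsg.charDegree (χ : G → ℂ) : ℤ)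
        = ((p ^ ((Cfsg.charDegree (χ : G → ℂ)).factorization p + 1) : ℕ) : ℤ) * ((n₁ : ℤ) - n₂) := by
      exact_mod_cast h6
    have h8 : ((p ^ ((Cfsg.charDegree (χ : G → ℂ)).factorization p + 1) : ℕ) : ℤ)
        ∣ (Cfsg.charDegree (χ : G → ℂ) : ℤ) := ⟨_, h7⟩
    exact Nat.pow_succ_factorization_not_dvd (charDegree_ne_zero χ) hp (Int.natCast_dvd_natCast.1 h8)

end Cfsg.Agent.S4425
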