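import Cfsg.Statements.S4426
import Cfsg.Agent.Lib.Helper81.Integrality

set_option autoImplicit false
open Cfsg Cfsg.Agent.Lib.Helper81 Cfsg.Agent.Lib.Helper20

namespace Cfsg.Agent.S4426

/-- Let χ be an irreducible character in the p-block B of the finite group G (relative to a maximal ideal M of the algebraic integers containing p), let p^a be the p-part of the order of G, and let χ̃ be the class function equal to p^a · χ on p-regular elements and zero elsewhere. For ξ ∈ B the inner product [χ̃, ξ] is an integer. The following are equivalent: (a) χ has height zero in B; (b) for some ξ ∈ B the integer [χ̃, ξ] is nonzero and the exact power of p dividing it equals the exact power of p dividing ξ(1); (c) the same holds for every ξ ∈ B. -/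
theorem result {G : Type*} [Group G] [Fintype G] (p : ℕ) [Fact p.Prime] (M : Ideal Cfsg.AlgInt) (hM : Cfsg.IsPModular p M) (B : Set (Cfsg.IrrCharacter G)) (hB : Cfsg.IsPBlock M B) (χ : Cfsg.IrrCharacter G) (hχ : χ ∈ B) : (Cfsg.blockHeight p B (χ : G → ℂ) = 0 ↔ ∃ ξ ∈ B, ∃ n : ℤ, Cfsg.classInner (fun x : G => if p ∣ orderOf x then (0 : ℂ) else ((p ^ (Nat.card G).factorization p : ℕ) : ℂ) * (χ : G → ℂ) x) (ξ : G → ℂ) = (n : ℂ) ∧ n ≠ 0 ∧ padicValInt p n = (Cfsg.charDegree (ξ : G → ℂ)).factorization p) ∧ (Cfsg.blockHeight p B (χ : G → ℂ) = 0 ↔ ∀ ξ ∈ B, ∃ n : ℤ, Cfsg.classInner (fun x : G => if p ∣ orderOf x then (0 : ℂ) else ((p ^ (Nat.card G).factorization p : ℕ) : ℂ) * (χ : G → ℂ) x) (ξ : G → ℂ) = (n : ℂ) ∧ n ≠ 0 ∧ padicValInt p n = (Cfsg.charDegree (ξ : G → ℂ)).factorization p) := by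
  classical
  have hp : p.Prime := hM.1
  have hinner : ∀ ξ : Cfsg.IrrCharacter G, Cfsg.classInner (fun x : G => if p ∣ orderOf x then (0 : ℂ)
      else ((p ^ (Nat.card G).factorization p : ℕ) : ℂ) * (χ : G → ℂ) x) (ξ : G → ℂ)
      = (nC p χ ξ : ℂ) := by
    intro ξ
    rw [pRegularPart_smul_eq, classInner_smul_left, nC_spec hp]
    rfl
  have hval : ∀ n : ℤ, padicValInt p n = n.natAbs.factorization p := by
    intro n
    rw [Nat.factorization_def _ hp]; rfl
  have hfwd : Cfsg.blockHeight p B (χ : G → ℂ) = 0 → ∀ ξ ∈ B, ∃ n : ℤ,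
      Cfsg.classInner (fun x : G => if p ∣ orderOf x then (0 : ℂ)
        else ((p ^ (Nat.card G).factorization p : ℕ) : ℂ) * (χ : G → ℂ) x) (ξ : G → ℂ) = (n : ℂ) ∧
      n ≠ 0 ∧ padicValInt p n = (Cfsg.charDegree (ξ : G → ℂ)).factorization p := by
    intro h0 ξ hξ
    obtain ⟨h1, h2⟩ := nC_of_height_zero hM hB hχ hξ h0
    exact ⟨nC p χ ξ, hinner ξ, h1, by rw [hval, h2]; rfl⟩
  have hbwd : (∃ ξ ∈ B, ∃ n : ℤ,
      Cfsg.classInner (fun x : G => if p ∣ orderOf x then (0 : ℂ)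
        else ((p ^ (Nat.card G).factorization p : ℕ) : ℂ) * (χ : G → ℂ) x) (ξ : G → ℂ) = (n : ℂ) ∧
      n ≠ 0 ∧ padicValInt p n = (Cfsg.charDegree (ξ : G → ℂ)).factorization p) →
      Cfsg.blockHeight p B (χ : G → ℂ) = 0 := by
    rintro ⟨ξ, hξ, n, h1, h2, h3⟩
    by_contra h0
    rw [hinner ξ] at h1
    have h4 : nC p χ ξ = n := by exact_mod_cast h1
    have h5 := nC_of_height_pos hM hB hχ hξ h0 (h4 ▸ h2)
    rw [h4, ← hval, h3] at h5
    exact lt_irrefl _ h5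
  exact ⟨⟨fun h0 => ⟨χ, hχ, hfwd h0 χ hχ⟩, hbwd⟩,
    ⟨hfwd, fun h => hbwd ⟨χ, hχ, h χ hχ⟩⟩⟩

end Cfsg.Agent.S4426
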