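import Cfsg.Statements.S4427
import Cfsg.Agent.Lib.Helper19.ProjCount
import Cfsg.Agent.Lib.Helper78.DefectZero

set_option autoImplicit false
open Cfsg

namespace Cfsg.Agent.S4427

/-- Let G be a finite group of order p^a · q^b · r^c with p, q, r distinct primes, and suppose that G has exactly q^b · r^c elements of order not divisible by p. Then G has a normal p-complement: a normal subgroup of order q^b · r^c. -/
theorem result {G : Type*} [Group G] [Finite G] (p q r a b c : ℕ) (hp : p.Prime) (hq : q.Prime) (hr : r.Prime) (hpq : p ≠ q) (hpr : p ≠ r) (hqr : q ≠ r) (hG : Nat.card G = p ^ a * q ^ b * r ^ c) (hcount : Nat.card {g : G // ¬ p ∣ orderOf g} = q ^ b * r ^ c) : ∃ N : Subgroup G, N.Normal ∧ Nat.card N = q ^ b * r ^ c := by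
  classical
  have : Fintype G := Fintype.ofFinite G
  have : Fact p.Prime := ⟨hp⟩
  have : Fact q.Prime := ⟨hq⟩
  have : Fact r.Prime := ⟨hr⟩
  obtain ⟨M, hM⟩ := Cfsg.Agent.Lib.Helper78.exists_isPModular hp
  obtain ⟨Q⟩ : Nonempty (Sylow q G) := inferInstance
  obtain ⟨R⟩ : Nonempty (Sylow r G) := inferInstance
  have hpa : p ^ a ≠ 0 := pow_ne_zero _ hp.ne_zero
  have hqb : q ^ b ≠ 0 := pow_ne_zero _ hq.ne_zero
  have hrc : r ^ c ≠ 0 := pow_ne_zero _ hr.ne_zero
  have hQc : Nat.card (Q : Subgroup G) = q ^ b := by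
    rw [Sylow.card_eq_multiplicity, hG, Nat.factorization_mul (mul_ne_zero hpa hqb) hrc,
      Nat.factorization_mul hpa hqb, hp.factorization_pow, hq.factorization_pow,
      hr.factorization_pow]
    simp [Finsupp.single_apply, hpq, hqr.symm]
  have hRc : Nat.card (R : Subgroup G) = r ^ c := by
    rw [Sylow.card_eq_multiplicity, hG, Nat.factorization_mul (mul_ne_zero hpa hqb) hrc,
      Nat.factorization_mul hpa hqb, hp.factorization_pow, hq.factorization_pow,
      hr.factorization_pow]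
    simp [Finsupp.single_apply, hpr, hqr]
  have hQp : ¬ p ∣ Nat.card (Q : Subgroup G) := by
    rw [hQc]
    intro h
    exact hpq ((Nat.prime_dvd_prime_iff_eq hp hq).1 (hp.dvd_of_dvd_pow h))
  have hRp : ¬ p ∣ Nat.card (R : Subgroup G) := by
    rw [hRc]
    intro h
    exact hpr ((Nat.prime_dvd_prime_iff_eq hp hr).1 (hp.dvd_of_dvd_pow h))
  have hconj : ∀ g x : G, orderOf (x * g * x⁻¹) = orderOf g := fun g x =>
    orderOf_injective (MulAut.conj x).toMonoidHom (MulAut.conj x).injective g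
  have hQR : ∀ g x y : G, x * g * x⁻¹ ∈ (Q : Subgroup G) → y * g * y⁻¹ ∈ (R : Subgroup G) →
      g = 1 := by
    intro g x y hx hy
    have h1 : orderOf g ∣ q ^ b := by
      rw [← hconj g x, ← hQc]
      have := orderOf_dvd_natCard (⟨x * g * x⁻¹, hx⟩ : (Q : Subgroup G))
      rwa [Subgroup.orderOf_mk] at this
    have h2 : orderOf g ∣ r ^ c := by
      rw [← hconj g y, ← hRc]
      have := orderOf_dvd_natCard (⟨y * g * y⁻¹, hy⟩ : (R : Subgroup G))
      rwa [Subgroup.orderOf_mk] at this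
    have h3 : Nat.Coprime (q ^ b) (r ^ c) :=
      Nat.Coprime.pow _ _ ((Nat.coprime_primes hq hr).2 hqr)
    have h4 : orderOf g = 1 := Nat.eq_one_of_dvd_coprimes h3 h1 h2
    exact orderOf_eq_one_iff.1 h4
  obtain ⟨N, hN, hmem⟩ := Cfsg.Agent.Lib.Helper19.ProjChar.normal_of_count hM (Q : Subgroup G)
    (R : Subgroup G) hQp hRp hQR (p ^ a) (by rw [hQc, hRc, hG]) (by rw [hQc, hRc, hcount])
  refine ⟨N, hN, ?_⟩
  rw [← hcount]
  exact Nat.card_congr (Equiv.subtypeEquivRight hmem)

end Cfsg.Agent.S4427
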