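import Cfsg.Statements.S4428
import Cfsg.Agent.Lib.Helper20.HeightZero
import Cfsg.Agent.Lib.Helper20.CharCongr
open Cfsg.Agent.Lib.Helper20 Cfsg.Agent.Lib.Helper81 Cfsg.Agent.Lib.Helper21

set_option autoImplicit false
open Cfsg

namespace Cfsg.Agent.S4428

theorem aux {G : Type*} [Group G] [Finite G] (p : ℕ) [Fact p.Prime] (M : Ideal Cfsg.AlgInt) (hM : Cfsg.IsPModular p M) (B : Set (Cfsg.IrrCharacter G)) (hB : Cfsg.IsPBlock M B) (χ : Cfsg.IrrCharacter G) (hχ : χ ∈ B) (h0 : Cfsg.blockHeight p B (χ : G → ℂ) = 0) (x : G) (k : ℕ) (hk : orderOf x = p ^ k) (C : Subgroup G) (hCx : ∀ c ∈ C, x * c = c * x) (b : Set (Cfsg.IrrCharacter C)) (hb : Cfsg.IsInducedBlock M C b B) : ∃ y : C, ¬ p ∣ orderOf y ∧ Cfsg.blockPart b (fun c : C => (χ : G → ℂ) (x * (c : G))) y ≠ 0 := by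
  classical
  haveI : Fintype G := Fintype.ofFinite G
  haveI : Fintype C := Fintype.ofFinite C
  obtain ⟨hbB, _, hc⟩ := hb
  obtain ⟨ξ0, hξ0⟩ := isPBlock_nonempty hM hbB
  have hχc := isCharacter_of_isIrrCharacter χ.2
  have hzc := zreg_classFunction (p := p) (irr_classFunction χ)
  have hzR := zreg_memLocalRing (p := p) hM hχc
  have hU := omega_zreg_self_unit hM B hB χ hχ h0
  have h1 := omega_res_sub_omega hM C (ξ0 : C → ℂ) χ (fun g => hc ξ0 hξ0 χ hχ g) hzc hzR
  have h2 : ¬ Cfsg.MemLocalIdeal M (omega (ξ0 : C → ℂ) (fun h : C => zreg p (χ : G → ℂ) (h : G))) :=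
    not_memLocalIdeal_of_sub hM h1 hU
  set ϑ : C → ℂ := fun c : C => (χ : G → ℂ) (x * (c : G)) with hϑ
  -- the twisted class function
  set z' : C → ℂ := zreg p ϑ with hz'
  have hϑc : Cfsg.IsClassFunction C ϑ := by
    intro g h
    simp only [hϑ]
    have hx1 : (h : G) * x = x * (h : G) := (hCx h h.2).symm
    have h3 : x * ((h * g * h⁻¹ : C) : G) = (h : G) * (x * (g : G)) * (h : G)⁻¹ := by
      push_cast
      calc x * ((h : G) * (g : G) * (h : G)⁻¹) = (x * (h : G)) * (g : G) * (h : G)⁻¹ := by group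
        _ = ((h : G) * x) * (g : G) * (h : G)⁻¹ := by rw [hx1]
        _ = (h : G) * (x * (g : G)) * (h : G)⁻¹ := by group
    rw [h3, irr_classFunction χ]
  have hdiff : ∀ c : C, Cfsg.MemLocalIdeal M (z' c - zreg p (χ : G → ℂ) (c : G)) := by
    intro c
    by_cases hc' : p ∣ orderOf c
    · rw [hz', zreg_neg hc', zreg_neg (by rwa [Subgroup.orderOf_coe]), sub_zero]
      exact memLocalIdeal_zero hM
    · rw [hz', zreg_pos hc', zreg_pos (by rwa [Subgroup.orderOf_coe])]
      simp only [hϑ]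
      rw [← isCharacter_inv hχc, ← isCharacter_inv hχc]
      have hcomm : Commute x⁻¹ (c : G)⁻¹ := by
        have : Commute x (c : G) := hCx c c.2
        exact this.inv_inv
      have h4 : (x * (c : G))⁻¹ = x⁻¹ * (c : G)⁻¹ := by
        rw [mul_inv_rev]; exact hcomm.symm.eq
      rw [h4]
      apply isCharacter_mul_sub_memLocalIdeal hM hχc hcomm (k := k)
      · rw [inv_pow, ← hk, pow_orderOf_eq_one, inv_one]
      · rw [orderOf_inv, Subgroup.orderOf_coe]; exact hc'
  have h3 : ¬ Cfsg.MemLocalIdeal M (omega (ξ0 : C → ℂ) z') := by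
    apply not_memLocalIdeal_of_sub hM _ h2
    rw [← omega_sub]
    apply omega_memLocalIdeal hM ξ0
    · exact isClassFunction_sub (zreg_classFunction hϑc) (res_classFunction C hzc)
    · intro c; exact hdiff c
  have h4 : omega (ξ0 : C → ℂ) z' ≠ 0 := ne_zero_of_not_memLocalIdeal hM h3
  rw [hz', omega_zreg] at h4
  have h5 : Cfsg.classInner (Cfsg.pRegularPart p (ξ0 : C → ℂ)) ϑ ≠ 0 := right_ne_zero_of_mul h4
  by_contra hcon
  push Not at hcon
  apply h5
  have h6 : Cfsg.pRegularPart p (Cfsg.blockPart b ϑ) = 0 := by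
    funext y
    by_cases hy : p ∣ orderOf y
    · rw [pRegularPart_neg hy]; rfl
    · rw [pRegularPart_pos hy, hcon y hy]; rfl
  have h7 : Cfsg.classInner (Cfsg.pRegularPart p ϑ) (ξ0 : C → ℂ) = 0 := by
    rw [← classInner_blockPart b _ hξ0, blockPart_pRegularPart hM b hbB, h6, classInner_zero_left]
  have h8 : Cfsg.classInner (Cfsg.pRegularPart p (ξ0 : C → ℂ)) ϑ
      = (starRingEnd ℂ) (Cfsg.classInner (Cfsg.pRegularPart p ϑ) (ξ0 : C → ℂ)) := by
    rw [classInner_conj_symm]
    simp only [Cfsg.classInner]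
    congr 1
    apply Finset.sum_congr rfl
    intro y _
    by_cases hy : p ∣ orderOf y
    · rw [pRegularPart_neg hy, pRegularPart_neg hy]; simp
    · rw [pRegularPart_pos hy, pRegularPart_pos hy]
  rw [h8, h7, map_zero]


/-- Let χ be an irreducible character of height zero in the p-block B of the finite group G (relative to a maximal ideal M of the algebraic integers containing p). Let x be a p-element of G with centralizer C, and let b be a block of C that induces B. Form the class function ϑ(c) = χ(x c) on C and its b-part (the sum over ψ ∈ b of the inner product of ϑ with ψ, times ψ). Then the b-part of ϑ does not vanish identically on the p-regular elements of C. (Compare the second main Theorem, which gives vanishing when b does not induce B.) -/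
theorem result {G : Type*} [Group G] [Finite G] (p : ℕ) [Fact p.Prime] (M : Ideal Cfsg.AlgInt) (hM : Cfsg.IsPModular p M) (B : Set (Cfsg.IrrCharacter G)) (hB : Cfsg.IsPBlock M B) (χ : Cfsg.IrrCharacter G) (hχ : χ ∈ B) (h0 : Cfsg.blockHeight p B (χ : G → ℂ) = 0) (x : G) (hx : ∃ k : ℕ, orderOf x = p ^ k) (b : Set (Cfsg.IrrCharacter (Subgroup.centralizer ({x} : Set G)))) (hb : Cfsg.IsInducedBlock M (Subgroup.centralizer ({x} : Set G)) b B) : ∃ y : Subgroup.centralizer ({x} : Set G), ¬ p ∣ orderOf y ∧ Cfsg.blockPart b (fun c : Subgroup.centralizer ({x} : Set G) => (χ : G → ℂ) (x * (c : G))) y ≠ 0 := by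
  obtain ⟨k, hk⟩ := hx
  exact aux p M hM B hB χ hχ h0 x k hk (Subgroup.centralizer ({x} : Set G))
    (fun c hc => (Subgroup.mem_centralizer_iff.1 hc) x rfl) b hb

end Cfsg.Agent.S4428
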