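import Cfsg.Statements.S4429
import Cfsg.Agent.Lib.Helper20.M11Bridge
import Cfsg.Agent.Lib.Helper20.M11G7
import Cfsg.Agent.Lib.Helper20.M11G45
import Cfsg.Agent.Lib.Helper20.M11G69
import Cfsg.Agent.Lib.Helper20.M11G12
import Cfsg.Agent.Lib.Helper20.M11C5
import Cfsg.Agent.Lib.Helper9.M11N1
import Cfsg.Agent.Lib.Helper9.M11N3
import Cfsg.Agent.Lib.Helper9.M11N25
set_option linter.style.haveILetI false
open Cfsg.Agent.Lib.Helper20.M11 Cfsg.Agent.Lib.Helper9.M11 Cfsg.Agent.Lib.Helper80 Cfsg.Agent.Lib.Helper82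

set_option autoImplicit false
open Cfsg

namespace Cfsg.Agent.S4429

/-- Let G be a simple group of order 7920. Then G has exactly ten irreducible complex characters, and their degrees, listed with multiplicity, are 1, 10, 10, 10, 11, 16, 16, 44, 45, 55: for every natural number n, the number of irreducible characters of degree n is 1 if n ∈ {1, 11, 44, 45, 55}, 3 if n = 10, 2 if n = 16, and 0 otherwise. -/
theorem result {G : Type*} [Group G] [Finite G] [IsSimpleGroup G] (hG : Nat.card G = 7920) : Nat.card (Cfsg.IrrCharacter G) = 10 ∧ ∀ n : ℕ, Nat.card {χ : Cfsg.IrrCharacter G // Cfsg.charDegree (χ : G → ℂ) = n} = (if n = 1 ∨ n = 11 ∨ n = 44 ∨ n = 45 ∨ n = 55 then 1 else if n = 10 then 3 else if n = 16 then 2 else 0) := by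
  classical
  haveI := Fintype.ofFinite G
  haveI := Fintype.ofFinite (IrrCharacter G)
  haveI : Fact (Nat.Prime 11) := ⟨by norm_num⟩
  haveI : Fact (Nat.Prime 5) := ⟨by norm_num⟩
  set d : IrrCharacter G → ℕ := fun χ => charDegree (χ : G → ℂ) with hd
  have hb : Base d (Cfsg.Agent.Lib.Helper80.trivIrr G) := base_of_simple hG
  apply count_of_multiset d
  -- p = 11
  obtain ⟨M, hM⟩ := Cfsg.Agent.Lib.Helper78.exists_isPModular (p := 11) (by norm_num)
  obtain ⟨P⟩ : Nonempty (Sylow 11 G) := inferInstance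
  have hP : Nat.card P = 11 := by
    rw [Sylow.card_eq_multiplicity, hG]
    have : (7920 : ℕ).factorization 11 = 1 := by
      have h7920 : (7920 : ℕ) = 11 * 720 := by norm_num
      rw [h7920, Nat.factorization_mul (by norm_num) (by norm_num), Finsupp.add_apply,
        Nat.Prime.factorization_self (by norm_num),
        Nat.factorization_eq_zero_of_not_dvd (by norm_num)]
    rw [this, pow_one]
  obtain ⟨X, Y, s, ε, hB, hs, hval⟩ := bridge 11 M hM (by norm_num) P hP _ rfl
  obtain ⟨he, n, hn, hcard⟩ := sylow_arith 11 P hP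
  set e := (Subgroup.centralizer ((P : Subgroup G) : Set G)).relIndex
      (Subgroup.normalizer ((P : Subgroup G) : Set G)) with hedef
  have h0 : Cfsg.Agent.Lib.Helper80.trivIrr G ∈ X ∪ Y :=
    (hB _).1 (trivIrr_mem_principalBlock hM)
  -- the key lemma
  have hkey : (∃ i ∈ X, d i = 10) → ∀ y : G,
      y ∈ Subgroup.centralizer ((P : Subgroup G) : Set G) → ¬ 11 ∣ orderOf y → y = 1 := by
    rintro ⟨χ, hχX, hχ⟩ y hy hyp
    have hsχ : s χ = -1 := by
      have h1 := hs.congX χ hχX
      have h2 := hs.sgn χ hχX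
      rcases h2 with h2 | h2
      · rw [h2] at h1
        have : (d χ : ℤ) = 10 := by exact_mod_cast hχ
        rw [this] at h1
        exact absurd h1 (by decide)
      · exact h2
    have h3 := value_of_deg_pred 11 (P : Subgroup G) hP (χ : G → ℂ) (isIrr_isChar χ.2) hχ
      (fun x hx hx1 y hy hyp => by rw [hval χ hχX x hx hx1 y hy hyp, hsχ]; norm_num) y hy hyp
    apply eq_one_of_norm_eq χ (by show d χ ≠ 1; omega) y
    rw [h3]; simp
  have key : (∃ i ∈ X, d i = 10) → e = 5 := by
    intro h
    have hc := card_centralizer_of_regular 11 P hP (hkey h)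
    rw [hc, hG] at hcard
    have he' : e ∣ 10 := he
    have : e ≤ 10 := Nat.le_of_dvd (by norm_num) he'
    interval_cases e <;> omega
  obtain ⟨h10, hshape⟩ := num11 hb hs he h0 key
  have hreg11 := hkey h10
  have hout11 : ∀ i, i ∉ X ∪ Y → 11 ∣ d i := by
    intro χ hχ
    by_contra hnd
    exact hχ ((hB χ).1 (mem_principalBlock_of_not_dvd 11 M hM P hreg11 χ hnd))
  -- p = 5
  obtain ⟨M', hM'⟩ := Cfsg.Agent.Lib.Helper78.exists_isPModular (p := 5) (by norm_num)
  obtain ⟨Q⟩ : Nonempty (Sylow 5 G) := inferInstance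
  have hQ : Nat.card Q = 5 := by
    rw [Sylow.card_eq_multiplicity, hG]
    have : (7920 : ℕ).factorization 5 = 1 := by
      have h7920 : (7920 : ℕ) = 5 * 1584 := by norm_num
      rw [h7920, Nat.factorization_mul (by norm_num) (by norm_num), Finsupp.add_apply,
        Nat.Prime.factorization_self (by norm_num),
        Nat.factorization_eq_zero_of_not_dvd (by norm_num)]
    rw [this, pow_one]
  obtain ⟨X', Y', s', ε', hB', hs', hval'⟩ := bridge 5 M' hM' (by norm_num) Q hQ _ rfl
  obtain ⟨he5, n5, hn5, hcard5⟩ := sylow_arith 5 Q hQ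
  set e5 := (Subgroup.centralizer ((Q : Subgroup G) : Set G)).relIndex
      (Subgroup.normalizer ((Q : Subgroup G) : Set G)) with he5def
  have h0' : Cfsg.Agent.Lib.Helper80.trivIrr G ∈ X' ∪ Y' :=
    (hB' _).1 (trivIrr_mem_principalBlock hM')
  rcases hshape with hI | hII
  · -- case I
    exfalso
    obtain ⟨θ, hθ, hθ5⟩ : ∃ θ ∈ X ∪ Y, d θ = 5 := by
      have : (5 : ℕ) ∈ (X ∪ Y).val.map d := by rw [hI]; decide
      obtain ⟨θ, h1, h2⟩ := Multiset.mem_map.1 this
      exact ⟨θ, h1, h2⟩
    have hreg5 : ∀ y : G, y ∈ Subgroup.centralizer ((Q : Subgroup G) : Set G) →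
        ¬ 5 ∣ orderOf y → y = 1 := by
      intro y hy hyp
      apply eq_one_of_norm_eq θ (by show d θ ≠ 1; omega) y
      apply norm_of_deg_eq 5 (Q : Subgroup G) hQ (θ : G → ℂ) (isIrr_isChar θ.2) hθ5 _ y hy hyp
      intro x hx hx1 y hy hyp
      apply Cfsg.Agent.Lib.Helper78.vanish_of_defect_zero (p := 5) (by norm_num) θ (m := 1584)
      · rw [hG]; show 7920 = d θ * 1584; rw [hθ5]
      · norm_num
      · have hx5 : orderOf x = 5 := by
          have h4 : orderOf x ∣ 5 := by
            have := Subgroup.orderOf_dvd_natCard (Q : Subgroup G) hx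
            rwa [show Nat.card (Q : Subgroup G) = 5 from hQ] at this
          rcases (Nat.dvd_prime (by norm_num : Nat.Prime 5)).1 h4 with h5 | h5
          · exact absurd (orderOf_eq_one_iff.1 h5) hx1
          · exact h5
        have hcomm : Commute x y := (Subgroup.mem_centralizer_iff.1 hy) x hx
        have hcop : Nat.Coprime (orderOf x) (orderOf y) := by
          rw [hx5]
          exact (Nat.Prime.coprime_iff_not_dvd (by norm_num)).2 hyp
        rw [hcomm.orderOf_mul_eq_mul_orderOf_of_coprime hcop, hx5]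
        exact Dvd.intro _ rfl
    have hc := card_centralizer_of_regular 5 Q hQ hreg5
    rw [hc, hG] at hcard5
    have he5' : e5 = 4 := by
      have he' : e5 ∣ 4 := he5
      have : e5 ≤ 4 := Nat.le_of_dvd (by norm_num) he'
      interval_cases e5 <;> omega
    rw [he5'] at hs'
    exact num5_I hb hI hout11 hs' h0'
  · obtain ⟨he4, ⟨χ, hχX, hχ16⟩, hT⟩ := num5_II hb hII hout11 hs' he5 h0'
    have hreg5 := centralizer_five hG Q hQ he4 (no_commuting 11 P hP hreg11) χ hχ16 (by
      intro x hx hx1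
      have h1 := hval' χ hχX x hx hx1 1 (Subgroup.one_mem _) (by simp)
      rw [mul_one] at h1
      rcases hs'.sgn χ hχX with h2 | h2
      · left; rw [h1, h2]; norm_num
      · right; rw [h1, h2]; norm_num)
    have hout5 : ∀ i, i ∉ X' ∪ Y' → 5 ∣ d i := by
      intro χ hχ
      by_contra hnd
      exact hχ ((hB' χ).1 (mem_principalBlock_of_not_dvd 5 M' hM' Q hreg5 χ hnd))
    exact num_final hb hII hout11 hT hout5

end Cfsg.Agent.S4429
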