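import Cfsg.Statements.S4431
-- import your own Cfsg.Agent.* helpers here
import Mathlib
import Cfsg.Agent.Lib.Helper21.Induced
import Cfsg.Agent.Lib.Helper20.HeightZero

set_option autoImplicit false
open Cfsg
open Cfsg.Agent.Lib.Helper20 Cfsg.Agent.Lib.Helper81 Cfsg.Agent.Lib.Helper21

namespace Cfsg.Agent.S4431

/-- Let H be a subgroup of the finite group G and b a block of H whose induced block B₀ in G is defined (relative to a maximal ideal M of the algebraic integers containing p). Let χ be an irreducible character of G, ψ ∈ b, and let η be the class function on H equal to p^a · χ on the p-regular elements of H and zero elsewhere, p^a being the p-part of the order of H. Then (a) if χ ∉ B₀, the number [η, ψ]/ψ(1) lies in the local ideal at M; (b) if χ ∈ B₀ has height zero, it does not. -/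
theorem result {G : Type*} [Group G] [Fintype G] (p : ℕ) [Fact p.Prime] (M : Ideal Cfsg.AlgInt) (hM : Cfsg.IsPModular p M) (H : Subgroup G) [Fintype H] (b : Set (Cfsg.IrrCharacter H)) (B₀ : Set (Cfsg.IrrCharacter G)) (hind : Cfsg.IsInducedBlock M H b B₀) (χ : Cfsg.IrrCharacter G) (ψ : Cfsg.IrrCharacter H) (hψ : ψ ∈ b) : (χ ∉ B₀ → Cfsg.MemLocalIdeal M (Cfsg.classInner (fun h : H => if p ∣ orderOf h then (0 : ℂ) else ((p ^ (Nat.card H).factorization p : ℕ) : ℂ) * (χ : G → ℂ) h) (ψ : H → ℂ) / (ψ : H → ℂ) 1)) ∧ (χ ∈ B₀ → Cfsg.blockHeight p B₀ (χ : G → ℂ) = 0 → ¬ Cfsg.MemLocalIdeal M (Cfsg.classInner (fun h : H => if p ∣ orderOf h then (0 : ℂ) else ((p ^ (Nat.card H).factorization p : ℕ) : ℂ) * (χ : G → ℂ) h) (ψ : H → ℂ) / (ψ : H → ℂ) 1)) := by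
  classical
  set a := (Nat.card H).factorization p with ha
  set z := zreg p (χ : G → ℂ) with hz
  have hzc : IsClassFunction G z := zreg_classFunction (irr_classFunction χ)
  have hzR : ∀ g, MemLocalRing M (z g) :=
    fun g => zreg_memLocalRing hM (isCharacter_of_isIrrCharacter χ.2) g
  have hH : (Nat.card H : ℂ) ≠ 0 := by exact_mod_cast Nat.card_pos.ne'
  have hp0 : (p : ℂ) ≠ 0 := by exact_mod_cast hM.1.ne_zero
  have hχc := isCharacter_of_isIrrCharacter χ.2
  have hψc := isCharacter_of_isIrrCharacter ψ.2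
  -- the unit
  have h2 : p ^ a * (Nat.card H / p ^ a) = Nat.card H := Nat.ordProj_mul_ordCompl_eq_self _ p
  have h3 : ¬ p ∣ Nat.card H / p ^ a := Nat.not_dvd_ordCompl hM.1 Nat.card_pos.ne'
  set m := Nat.card H / p ^ a with hm
  have hmU : ¬ MemLocalIdeal M (m : ℂ) := by rwa [memLocalIdeal_natCast_iff hM]
  have hm0 : (m : ℂ) ≠ 0 := ne_zero_of_not_memLocalIdeal hM hmU
  have hE : classInner (fun h : H => if p ∣ orderOf h then (0 : ℂ)
        else ((p ^ a : ℕ) : ℂ) * (χ : G → ℂ) h) (ψ : H → ℂ) / (ψ : H → ℂ) 1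
      = (m : ℂ)⁻¹ * omega (ψ : H → ℂ) (fun h : H => z (h : G)) := by
    have hc : (Nat.card H : ℂ) = (p : ℂ) ^ a * (m : ℂ) := by
      rw [← h2]; push_cast; ring
    simp only [classInner, omega]
    rw [← Equiv.sum_comp (Equiv.inv H), hc, ← Finset.sum_div, mul_div_assoc, ← mul_div_assoc,
      ← mul_div_assoc]
    congr 1
    rw [Finset.mul_sum, Finset.mul_sum]
    apply Finset.sum_congr rfl
    intro h _
    simp only [Equiv.inv_apply, orderOf_inv]
    by_cases hh : p ∣ orderOf h
    · rw [if_pos hh, hz, zreg_neg (by rwa [Subgroup.orderOf_coe])]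
      simp
    · rw [if_neg hh, hz, zreg_pos (by rwa [Subgroup.orderOf_coe]), isCharacter_inv hψc,
        Subgroup.coe_inv, isCharacter_inv hχc, Complex.conj_conj]
      push_cast
      field_simp
  rw [hE]
  obtain ⟨χ', hχ'⟩ := isPBlock_nonempty hM hind.2.1
  constructor
  · intro hχ
    have key := omega_res_sub_omega_of_induced hM hind hψ hχ' hzc hzR
    rw [hz, omega_zreg_eq_zero hM (fun hs => hχ (by
      rw [isPBlock_eq_blockOf hM hind.2.1 hχ']; exact hs)), sub_zero] at key
    exact memLocalIdeal_mul_left hM (memLocalRing_inv (memLocalRing_natCast hM _) hmU) key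
  · intro hχ h0 hcon
    have key := omega_res_sub_omega_of_induced hM hind hψ hχ hzc hzR
    have hu := omega_zreg_self_unit hM B₀ hind.2.1 χ hχ h0
    apply hu
    have h5 : MemLocalIdeal M (omega (ψ : H → ℂ) (fun h : H => z (h : G))) := by
      have := memLocalIdeal_mul_left hM (memLocalRing_natCast hM m) hcon
      rwa [← mul_assoc, mul_inv_cancel₀ hm0, one_mul] at this
    have := memLocalIdeal_sub hM h5 key
    simpa using this

end Cfsg.Agent.S4431
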