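import Cfsg.Statements.S4446
import Cfsg.Agent.Lib.Helper77.GlaubSetup

set_option autoImplicit false
open Cfsg

namespace Cfsg.Agent.S4446

open Subgroup Cfsg.Agent.Lib.Helper77 Cfsg.Agent.Lib.Helper20 Cfsg.Agent.Lib.Helper19 Cfsg.Agent.Lib.Helper79

theorem sign_unique {C : Type*} [Group C] {β β' : C → ℂ} (hβ : IsIrrCharacter C β)
    (hβ' : IsIrrCharacter C β') {ε ε' : ℤ} (hε : ε = 1 ∨ ε = -1) (hε' : ε' = 1 ∨ ε' = -1)
    (h : ∀ c : C, (ε : ℂ) * β c = (ε' : ℂ) * β' c) : β = β' ∧ ε = ε' := by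
  obtain ⟨n, hn, h1⟩ := Cfsg.Agent.Lib.Helper32.irr_apply_one hβ
  obtain ⟨n', hn', h1'⟩ := Cfsg.Agent.Lib.Helper32.irr_apply_one hβ'
  have h0 := h 1
  rw [h1, h1'] at h0
  have h0' : ε * (n : ℤ) = ε' * (n' : ℤ) := by exact_mod_cast h0
  have hεε : ε = ε' := by
    rcases hε with rfl | rfl <;> rcases hε' with rfl | rfl
    · rfl
    · exfalso; omega
    · exfalso; omega
    · rfl
  refine ⟨?_, hεε⟩
  subst hεε
  funext c
  have hne : (ε : ℂ) ≠ 0 := by rcases hε with rfl | rfl <;> simp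
  exact mul_left_cancel₀ hne (h c)


/-- Let the finite group Γ be generated by a normal subgroup G and a cyclic subgroup S of coprime orders, C = G ⊓ C(S), and let χ be an S-invariant irreducible character of G with canonical extension χ̂ to Γ (the extension whose determinantal order is coprime to the order of S). Then there are exactly one irreducible character β of C and one sign ε such that χ̂(c s) = ε β(c) for every c ∈ C and every generator s of S; this β is a constituent of the restriction of χ to C; distinct S-invariant χ give distinct β; and every irreducible character of C arises in this way. -/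
theorem result {Γ : Type*} [Group Γ] [Fintype Γ] (G S : Subgroup Γ) [Fintype G] (hnorm : ∀ s ∈ S, ∀ g ∈ G, s * g * s⁻¹ ∈ G) (hcop : (Nat.card G).Coprime (Nat.card S)) (htop : G ⊔ S = ⊤) (hcyc : IsCyclic S) (C : Subgroup Γ) [Fintype C] (hC : C = G ⊓ Subgroup.centralizer (S : Set Γ)) (hCG : C ≤ G) : (∀ (χ : Cfsg.IrrCharacter G) (χh : Cfsg.IrrCharacter Γ), (∀ s ∈ S, ∀ g g' : G, (g' : Γ) = s * g * s⁻¹ → (χ : G → ℂ) g' = (χ : G → ℂ) g) → (∀ g : G, (χh : Γ → ℂ) g = (χ : G → ℂ) g) → (Cfsg.detOrder (χh : Γ → ℂ)).Coprime (Nat.card S) → (∃! βε : Cfsg.IrrCharacter C × ℤ, (βε.2 = 1 ∨ βε.2 = -1) ∧ ∀ c : C, ∀ s : Γ, Subgroup.zpowers s = S → (χh : Γ → ℂ) ((c : Γ) * s) = (βε.2 : ℂ) * (βε.1 : C → ℂ) c) ∧ ∀ β : Cfsg.IrrCharacter C, ∀ ε : ℤ, (ε = 1 ∨ ε = -1) → (∀ c : C, ∀ s : Γ, Subgroup.zpowers s = S → (χh : Γ → ℂ) ((c : Γ) * s) = (ε : ℂ) * (β : C → ℂ) c) → Cfsg.classInner (fun c : C => (χ : G →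 ℂ) ⟨c, hCG c.2⟩) (β : C → ℂ) ≠ 0) ∧ (∀ (χ χ' : Cfsg.IrrCharacter G) (χh χh' : Cfsg.IrrCharacter Γ), (∀ s ∈ S, ∀ g g' : G, (g' : Γ) = s * g * s⁻¹ → (χ : G → ℂ) g' = (χ : G → ℂ) g) → (∀ s ∈ S, ∀ g g' : G, (g' : Γ) = s * g * s⁻¹ → (χ' : G → ℂ) g' = (χ' : G → ℂ) g) → (∀ g : G, (χh : Γ → ℂ) g = (χ : G → ℂ) g) → (∀ g : G, (χh' : Γ → ℂ) g = (χ' : G → ℂ) g) → (Cfsg.detOrder (χh : Γ → ℂ)).Coprime (Nat.card S) → (Cfsg.detOrder (χh' : Γ → ℂ)).Coprime (Nat.card S) → ∀ β : Cfsg.IrrCharacter C, ∀ ε ε' : ℤ, (ε = 1 ∨ ε = -1) → (ε' = 1 ∨ ε' = -1) → (∀ c : C, ∀ s : Γ, Subgroup.zpowers s = S → (χh : Γ → ℂ) ((c : Γ) * s) = (ε : ℂ) * (β : C → ℂ) c) → (∀ c : C, ∀ s : Γ, Subgroup.zpowers s = S → (χh' : Γ → ℂ) ((c : Γ) * s) = (ε' : ℂ) * (β : C → ℂ) c) → χ = χ') ∧ (∀ β : Cfsg.IrrCharacter C, ∃ (χ : Cfsg.IrrCharacter G) (χh : Cfsg.IrrCharacter Γ) (ε : ℤ), (∀ s ∈ S, ∀ g g' : G, (g' : Γ) = s * g * s⁻¹ → (χ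 : G → ℂ) g' = (χ : G → ℂ) g) ∧ (∀ g : G, (χh : Γ → ℂ) g = (χ : G → ℂ) g) ∧ (Cfsg.detOrder (χh : Γ → ℂ)).Coprime (Nat.card S) ∧ (ε = 1 ∨ ε = -1) ∧ ∀ c : C, ∀ s : Γ, Subgroup.zpowers s = S → (χh : Γ → ℂ) ((c : Γ) * s) = (ε : ℂ) * (β : C → ℂ) c) := by
  classical
  obtain ⟨s₀, rfl⟩ := exists_zpowers_eq S hcyc
  have hGn : G.Normal := normal_of_norm_top G _ hnorm htop
  have hcop' : (orderOf s₀).Coprime (Nat.card G) := by
    rw [Nat.card_zpowers] at hcop; exact hcop.symm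
  have hC' : C = G ⊓ Subgroup.centralizer ({s₀} : Set Γ) := by
    rw [hC, centralizer_zpowers_eq]
  have hs₀n : s₀ ∈ Subgroup.normalizer (G : Set Γ) := by rw [normalizer_eq_top]; trivial
  have hne : ∀ ε : ℤ, (ε = 1 ∨ ε = -1) → (ε : ℂ) ≠ 0 := by
    rintro ε (rfl | rfl) <;> simp
  have hdet : ∀ χh : Cfsg.IrrCharacter Γ,
      (Cfsg.detOrder (χh : Γ → ℂ)).Coprime (Nat.card (zpowers s₀)) → detChar (χh : Γ → ℂ) s₀ = 1 := by
    intro χh h
    rw [Nat.card_zpowers] at h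
    exact (detChar_s_eq_one_iff G s₀ hcop' htop (isCharacter_of_isIrrCharacter χh.2)).1 h
  have hres : ∀ (χ : Cfsg.IrrCharacter G) (χh : Cfsg.IrrCharacter Γ),
      (∀ g : G, (χh : Γ → ℂ) g = (χ : G → ℂ) g) → (fun g : G => (χh : Γ → ℂ) g) = (χ : G → ℂ) :=
    fun χ χh h => funext h
  refine ⟨?_, ?_, ?_⟩
  · intro χ χh _ hext hdo
    have hr : IsIrrCharacter G (fun g : G => (χh : Γ → ℂ) g) := by rw [hres χ χh hext]; exact χ.2
    have hd := hdet χh hdo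
    constructor
    · obtain ⟨β, ε, hε, hval⟩ := tw_eq G s₀ hcop' htop C hC' χh.2 hr hd
      refine ⟨(β, ε), ⟨hε, fun c s hs => ?_⟩, ?_⟩
      · rw [tw_gen G s₀ hcop' htop C hC' χh.2 hr hd s hs c c.2]
        exact hval c
      · rintro ⟨β', ε'⟩ ⟨hε', hval'⟩
        have := sign_unique β'.2 β.2 hε' hε (fun c => by
          rw [← hval c]; exact (hval' c s₀ rfl).symm)
        exact Prod.ext (Subtype.ext this.1) this.2
    · intro β ε hε hval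
      have := tw_constituent G s₀ C hC' (isCharacter_of_isIrrCharacter χh.2) β.2 (hne ε hε)
        (fun c => hval c s₀ rfl)
      have e : (fun c : C => (χ : G → ℂ) ⟨c, hCG c.2⟩) = (fun c : C => (χh : Γ → ℂ) (c : Γ)) :=
        funext fun c => (hext ⟨c, hCG c.2⟩).symm
      rw [e]; exact this
  · intro χ χ' χh χh' _ _ hext hext' _ _ β ε ε' hε hε' hval hval'
    have hr : IsIrrCharacter G (fun g : G => (χh : Γ → ℂ) g) := by rw [hres χ χh hext]; exact χ.2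
    have hr' : IsIrrCharacter G (fun g : G => (χh' : Γ → ℂ) g) := by
      rw [hres χ' χh' hext']; exact χ'.2
    have := tw_inj G s₀ hcop' C hC' χh.2 χh'.2 hr hr' β.2 (hne ε hε) (hne ε' hε')
      (fun c => hval c s₀ rfl) (fun c => hval' c s₀ rfl)
    rw [hres χ χh hext, hres χ' χh' hext'] at this
    exact Subtype.ext this
  · intro β
    obtain ⟨χh, h1, h2, h3, ε, hε, hval⟩ := tw_surj G s₀ hcop' htop C hC' β
    refine ⟨⟨_, h2⟩, ⟨χh, h1⟩, ε, ?_, fun _ => rfl, ?_, hε, ?_⟩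
    · intro s _ g g' hg
      show χh g' = χh g
      rw [hg]
      exact isClassFunction_of_isCharacter (isCharacter_of_isIrrCharacter h1) g s
    · rw [Nat.card_zpowers]
      exact (detChar_s_eq_one_iff G s₀ hcop' htop (isCharacter_of_isIrrCharacter h1)).2 h3
    · intro c s hs
      show χh ((c : Γ) * s) = _
      rw [tw_gen G s₀ hcop' htop C hC' h1 h2 h3 s hs c c.2]
      exact hval c

end Cfsg.Agent.S4446
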