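import Cfsg.Statements.S4450
import Cfsg.Agent.Lib.Helper79.InvAboveTriple

set_option autoImplicit false
open Cfsg

namespace Cfsg.Agent.S4450

/-- Let N ≤ G be normal subgroups of the finite group Γ with the index of G in Γ coprime to the index of N in G, and Γ/G or G/N solvable. Then for every irreducible character ϑ of N invariant under conjugation by Γ, the induced character ϑ^G has an irreducible constituent invariant under conjugation by Γ. -/
theorem result {Γ : Type*} [Group Γ] [Fintype Γ] (G N : Subgroup Γ) [hG : G.Normal] [hN : N.Normal] [Fintype G] [Fintype N] (hNG : N ≤ G) (hcop : (G.index).Coprime (N.relIndex G)) (hsolv : Group.IsSolvable (Γ ⧸ G) ∨ Group.IsSolvable (G ⧸ N.subgroupOf G)) (θ : Cfsg.IrrCharacter N) (hinv : ∀ (x : Γ) (n : N), (θ : N → ℂ) ⟨x * n * x⁻¹, hN.conj_mem n n.2 x⟩ = (θ : N → ℂ) n) : ∃ χ : Cfsg.IrrCharacter G, Cfsg.classInner (fun n : N => (χ : G → ℂ) ⟨n, hNG n.2⟩) (θ : N → ℂ)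 ≠ 0 ∧ ∀ (x : Γ) (g : G), (χ : G → ℂ) ⟨x * g * x⁻¹, hG.conj_mem g g.2 x⟩ = (χ : G → ℂ) g := by
  have hinv' : Cfsg.Agent.Lib.Helper79.ConjInv ⊤ N θ.1 := by
    intro s _ n n' hn
    have : n' = ⟨s * n * s⁻¹, hN.conj_mem n n.2 s⟩ := Subtype.ext hn
    rw [this]
    exact hinv s n
  have key : ∃ χ : G → ℂ, Cfsg.IsIrrCharacter G χ ∧
      Cfsg.classInner (Cfsg.Agent.Lib.Helper79.resTo hNG χ) θ.1 ≠ 0 ∧
      Cfsg.Agent.Lib.Helper79.ConjInv ⊤ G χ := by
    rcases hsolv with h | h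
    · exact Cfsg.Agent.Lib.Helper79.exists_inv_over_of_lower_solvable G N hNG hcop h θ.1 θ.2 hinv'
    · exact Cfsg.Agent.Lib.Helper79.exists_inv_over_of_upper_solvable G N hNG hcop h θ.1 θ.2 hinv'
  obtain ⟨χ, hχ, h1, h2⟩ := key
  exact ⟨⟨χ, hχ⟩, h1, fun x g => h2 x (Subgroup.mem_top x) g _ rfl⟩

end Cfsg.Agent.S4450
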