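import Cfsg.Statements.S4451
import Cfsg.Agent.Lib.Helper31.CopCyc

set_option autoImplicit false
open Cfsg

namespace Cfsg.Agent.S4451
/-- Let the finite group Γ be generated by a normal subgroup G and a cyclic subgroup S of coprime orders such that every non-identity element of S has the same centraliser C = G ⊓ C(S) in G. Let χ be an S-invariant irreducible character of G, χ̂ its canonical extension to Γ (determinantal order coprime to the order of S), and β the irreducible character of C with χ̂(c s) = ε₀ β(c) for c ∈ C and generators s of S (ε₀ = ±1). Then there are a sign ε = ±1, which may differ from ε₀, and a linear character μ of S with μ² = 1, such that: (a) χ̂(c x) = ε β(c) μ(x) for all c ∈ C and all x ∈ S other than 1; (b) the restriction of χ to C equals |S|·ϑ + ε β for some character ϑ of C or ϑ = 0; (c) |S| divides χ(1) − ε β(1). -/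
theorem result {Γ : Type*} [Group Γ] [Fintype Γ] (G S : Subgroup Γ) [Fintype G] (hnorm : ∀ s ∈ S, ∀ g ∈ G, s * g * s⁻¹ ∈ G) (hcop : (Nat.card G).Coprime (Nat.card S)) (htop : G ⊔ S = ⊤) (hcyc : IsCyclic S) (C : Subgroup Γ) [Fintype C] (hC : C = G ⊓ Subgroup.centralizer (S : Set Γ)) (hCG : C ≤ G) (hfpf : ∀ x ∈ S, x ≠ 1 → G ⊓ Subgroup.centralizer ({x} : Set Γ) = C) (χ : Cfsg.IrrCharacter G) (hinv : (∀ s ∈ S, ∀ g g' : G, (g' : Γ) = s * g * s⁻¹ → (χ : G → ℂ) g' = (χ : G → ℂ) g)) (χh : Cfsg.IrrCharacter Γ) (hext : (∀ g : G, (χh : Γ → ℂ) g = (χ : G → ℂ) g)) (hdet : (Cfsg.detOrder (χh : Γ → ℂ)).Coprime (Nat.card S)) (β : Cfsg.IrrCharacter C) (ε₀ : ℤ) (hε₀ : ε₀ = 1 ∨ ε₀ = -1) (hβ : ∀ c : C, ∀ s : Γ, Subgroup.zpowers s = S → (χh : Γ → ℂ) ((c : Γ) * s) = (ε₀ : ℂ) * (β : C → ℂ) c) : ∃ ε : ℤ, (ε = 1 ∨ ε = -1) ∧ (∃ μ : S → ℂ, Cfsg.IsCharacter S μ ∧ μ 1 = 1 ∧ (∀ x : S, μ x * μ x =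 1) ∧ ∀ c : C, ∀ x : S, x ≠ 1 → (χh : Γ → ℂ) ((c : Γ) * x) = (ε : ℂ) * (β : C → ℂ) c * μ x) ∧ (∃ ϑ : C → ℂ, Cfsg.IsCharacter C ϑ ∧ (fun c : C => (χ : G → ℂ) ⟨c, hCG c.2⟩) = fun c => (Nat.card S : ℂ) * ϑ c + (ε : ℂ) * (β : C → ℂ) c) ∧ (Nat.card S : ℤ) ∣ (Cfsg.charDegree (χ : G → ℂ) : ℤ) - ε * (Cfsg.charDegree (β : C → ℂ) : ℤ) := by
  classical
  obtain ⟨s, rfl⟩ := Cfsg.Agent.Lib.Helper77.exists_zpowers_eq S hcyc
  have hdeg : ∀ (ε : ℤ) (ϑ : C → ℂ), Cfsg.IsCharacter C ϑ →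
      ((fun c : C => (χ : G → ℂ) ⟨c, hCG c.2⟩) =
        fun c => (Nat.card (Subgroup.zpowers s) : ℂ) * ϑ c + (ε : ℂ) * (β : C → ℂ) c) →
      (Nat.card (Subgroup.zpowers s) : ℤ) ∣
        (Cfsg.charDegree (χ : G → ℂ) : ℤ) - ε * (Cfsg.charDegree (β : C → ℂ) : ℤ) := by
    intro ε ϑ hϑ h
    have h1 := congrFun h 1
    have e1 : (χ : G → ℂ) ⟨((1 : C) : Γ), hCG (1 : C).2⟩ = (Cfsg.charDegree (χ : G → ℂ) : ℂ) :=
      Cfsg.Agent.Lib.Helper82.isChar_one_eq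
        (Cfsg.Agent.Lib.Helper20.isCharacter_of_isIrrCharacter χ.2)
    rw [e1, Cfsg.Agent.Lib.Helper82.isChar_one_eq hϑ, Cfsg.Agent.Lib.Helper82.isChar_one_eq
      (Cfsg.Agent.Lib.Helper20.isCharacter_of_isIrrCharacter β.2)] at h1
    refine ⟨(Cfsg.charDegree ϑ : ℤ), ?_⟩
    have h2 : ((Cfsg.charDegree (χ : G → ℂ) : ℤ) : ℂ) =
        (((Nat.card (Subgroup.zpowers s) : ℤ) * (Cfsg.charDegree ϑ : ℤ) +
          ε * (Cfsg.charDegree (β : C → ℂ) : ℤ) : ℤ) : ℂ) := by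
      push_cast
      exact h1
    have h3 := Int.cast_injective h2
    rw [h3]; ring
  by_cases hs1 : s = 1
  · subst hs1
    have hval : ∀ c : C, (χ : G → ℂ) ⟨c, hCG c.2⟩ = (ε₀ : ℂ) * (β : C → ℂ) c := by
      intro c
      rw [← hext ⟨c, hCG c.2⟩]
      have := hβ c 1 rfl
      simpa using this
    have hb : (fun c : C => (χ : G → ℂ) ⟨c, hCG c.2⟩) =
        fun c => (Nat.card (Subgroup.zpowers (1 : Γ)) : ℂ) * (0 : C → ℂ) c +
          (ε₀ : ℂ) * (β : C → ℂ) c := by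
      funext c
      rw [hval c]; simp
    refine ⟨ε₀, hε₀, ⟨fun _ => 1, Cfsg.Agent.Lib.Helper20.isCharacter_one, rfl, fun _ => by simp,
      ?_⟩, ⟨0, Cfsg.Agent.Lib.Helper20.isCharacter_zero, hb⟩,
      hdeg ε₀ 0 Cfsg.Agent.Lib.Helper20.isCharacter_zero hb⟩
    intro c x hx
    exfalso
    apply hx
    obtain ⟨k, hk⟩ := Subgroup.mem_zpowers_iff.1 x.2
    apply Subtype.ext
    rw [← hk]; simp
  · have hGn : G.Normal := Cfsg.Agent.Lib.Helper77.normal_of_norm_top G _ hnorm htop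
    have hr : Cfsg.IsIrrCharacter G (fun g : G => (χh : Γ → ℂ) g) := by
      have : (fun g : G => (χh : Γ → ℂ) g) = (χ : G → ℂ) := funext hext
      rw [this]; exact χ.2
    have hCs : ∀ c ∈ C, c * s = s * c := by
      intro c hc
      rw [hC] at hc
      exact ((Subgroup.mem_centralizer_iff.1 (Subgroup.mem_inf.1 hc).2) s
        (Subgroup.mem_zpowers s)).symm
    obtain ⟨ε, hε, hμ, ϑ, hϑ, hϑv⟩ := Cfsg.Agent.Lib.Helper31.copcyc_core G s hs1 hcop C hCs hfpf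
      χh.2 hr β.2 ε₀ hε₀ (fun c => hβ c s rfl)
    have hb : (fun c : C => (χ : G → ℂ) ⟨c, hCG c.2⟩) =
        fun c => (Nat.card (Subgroup.zpowers s) : ℂ) * ϑ c + (ε : ℂ) * (β : C → ℂ) c := by
      funext c
      rw [← hext ⟨c, hCG c.2⟩]
      exact hϑv c
    exact ⟨ε, hε, hμ, ⟨ϑ, hϑ, hb⟩, hdeg ε ϑ hϑ hb⟩

end Cfsg.Agent.S4451
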