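import Cfsg.Statements.S4454
import Cfsg.Agent.Lib.Helper4.FRamC

set_option autoImplicit false
open Cfsg

namespace Cfsg.Agent.S4454

/-- Let N ≤ G be normal subgroups of the finite group Γ with Γ/G cyclic and Γ/N a Frobenius group with kernel G/N: G ≠ Γ, N ≠ G, and no element of Γ outside G fixes a non-identity coset of N in G under conjugation. Let ϑ be an irreducible character of N invariant under conjugation by Γ and suppose ϑ is fully ramified in G: the character of G induced from ϑ equals e·χ for an irreducible character χ of G and a natural number e. Then the index of G in Γ divides e − 1 or e + 1. -/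
theorem result {Γ : Type*} [Group Γ] [Fintype Γ] (G N : Subgroup Γ) [hG : G.Normal] [hN : N.Normal] [Fintype G] [Fintype N] (hNG : N ≤ G) (hGlt : G ≠ ⊤) (hNlt : N ≠ G) (hcyc : IsCyclic (Γ ⧸ G)) (hfrob : ∀ x : Γ, x ∉ G → ∀ g : Γ, g ∈ G → x * g * x⁻¹ * g⁻¹ ∈ N → g ∈ N) (θ : Cfsg.IrrCharacter N) (hinv : ∀ (x : Γ) (n : N), (θ : N → ℂ) ⟨x * n * x⁻¹, hN.conj_mem n n.2 x⟩ = (θ : N → ℂ) n) (χ : Cfsg.IrrCharacter G) (e : ℕ) (hram : Cfsg.indFun (N.subgroupOf G) (fun n : N.subgroupOf G => (θ : N → ℂ) ⟨(n : G), n.2⟩) = fun g => (e : ℂ) * (χ : G → ℂ) g) : (G.index : ℤ) ∣ (e : ℤ) - 1 ∨ (G.index : ℤ) ∣ (e : ℤ) + 1 := by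
  classical
  have hχirr : Cfsg.IsIrrCharacter G (χ : G → ℂ) := χ.2
  have hχcl := Cfsg.Agent.Lib.Helper20.isClassFunction_of_isCharacter
    (Cfsg.Agent.Lib.Helper20.isCharacter_of_isIrrCharacter hχirr)
  set N' : Subgroup G := N.subgroupOf G with hN'
  have hN'n : N'.Normal := hN.subgroupOf G
  have : Fintype N' := Fintype.ofFinite N'
  set θ₀ : N' → ℂ := fun n => (θ : N → ℂ) ⟨(n : G), n.2⟩ with hθ₀
  have hθ₀irr : Cfsg.IsIrrCharacter N' θ₀ := by
    have : θ₀ = (θ : N → ℂ) ∘ (Subgroup.subgroupOfEquivOfLe hNG) := by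
      funext x; rfl
    rw [this]; exact Cfsg.Agent.Lib.Helper5.isIrrCharacter_comp_equiv _ θ.2
  have he : e ≠ 0 := by
    rintro rfl
    have h1 := congrFun hram 1
    rw [Cfsg.Agent.Lib.Helper19.indFun_apply_one] at h1
    simp only [Nat.cast_zero, zero_mul] at h1
    rcases mul_eq_zero.mp h1 with h2 | h2
    · have : N'.index ≠ 0 := Subgroup.index_ne_zero_of_finite
      exact this (by exact_mod_cast h2)
    · exact Cfsg.Agent.Lib.Helper19.irr_one_ne_zero hθ₀irr h2
  have heC : (e : ℂ) ≠ 0 := by exact_mod_cast he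
  -- multiplicity
  have hmult : Cfsg.classInner (fun n : N' => (χ : G → ℂ) n) θ₀ = e := by
    have h1 := Cfsg.Agent.Lib.Helper19.frobenius_reciprocity N' θ₀ (χ : G → ℂ) hχcl
    have h2 : (fun g => (e : ℂ) * (χ : G → ℂ) g) = (e : ℂ) • (χ : G → ℂ) := by
      funext g; rfl
    rw [hram, h2, Cfsg.Agent.Lib.Helper20.classInner_smul_left,
      Cfsg.Agent.Lib.Helper20.classInner_irr_self hχirr, mul_one] at h1
    rw [← Cfsg.Agent.Lib.Helper20.classInner_conj_symm, ← h1]
    simp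
  have hinv₀ : ∀ (g : G) (n : N'), θ₀ ⟨g * n * g⁻¹, hN'n.conj_mem (n : G) n.2 g⟩ = θ₀ n := by
    intro g n
    exact hinv g ⟨((n : G) : Γ), n.2⟩
  obtain ⟨e', -, hres, hinner⟩ := Cfsg.Agent.Lib.Helper79.restrict_eq_smul_of_invariant N' hχirr
    hθ₀irr (by rw [hmult]; exact heC) hinv₀
  have hee : e' = e := by
    rw [hmult] at hinner
    exact_mod_cast hinner.symm
  subst hee
  -- invariance of χ
  have hext : ∀ (x : Γ) (u : G), Cfsg.extendByZero N' θ₀ ((MulAut.conjNormal x : MulAut G) u)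
      = Cfsg.extendByZero N' θ₀ u := by
    intro x u
    by_cases hu : u ∈ N'
    · have hu' : (MulAut.conjNormal x : MulAut G) u ∈ N' := by
        rw [hN', Subgroup.mem_subgroupOf, MulAut.conjNormal_apply]
        exact hN.conj_mem _ (Subgroup.mem_subgroupOf.mp hu) x
      rw [Cfsg.Agent.Lib.Helper19.extendByZero_of_mem N' θ₀ hu,
        Cfsg.Agent.Lib.Helper19.extendByZero_of_mem N' θ₀ hu']
      have := hinv x ⟨(u : Γ), Subgroup.mem_subgroupOf.mp hu⟩
      simp only [hθ₀]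
      convert this using 2
      apply Subtype.ext
      simp [MulAut.conjNormal_apply]
    · have hu' : (MulAut.conjNormal x : MulAut G) u ∉ N' := by
        intro h
        apply hu
        rw [hN', Subgroup.mem_subgroupOf, MulAut.conjNormal_apply] at h
        have := hN.conj_mem _ h x⁻¹
        rw [hN', Subgroup.mem_subgroupOf]
        simpa [mul_assoc] using this
      rw [Cfsg.Agent.Lib.Helper19.extendByZero_of_not_mem N' θ₀ hu,
        Cfsg.Agent.Lib.Helper19.extendByZero_of_not_mem N' θ₀ hu']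
  have hinvχ : ∀ (x : Γ) (g : G), (χ : G → ℂ) ⟨x * g * x⁻¹, hG.conj_mem (g : Γ) g.2 x⟩
      = (χ : G → ℂ) g := by
    intro x g
    have h1 : Cfsg.indFun N' θ₀ ((MulAut.conjNormal x : MulAut G) g) = Cfsg.indFun N' θ₀ g := by
      rw [Cfsg.Agent.Lib.Helper19.indFun_apply, Cfsg.Agent.Lib.Helper19.indFun_apply]
      congr 1
      rw [← Equiv.sum_comp (MulAut.conjNormal x : MulAut G).toEquiv]
      apply Finset.sum_congr rfl
      intro t _
      rw [← hext x (t⁻¹ * g * t)]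
      simp
    rw [hram] at h1
    have h2 := mul_left_cancel₀ heC h1
    rw [← h2]
    congr 1
  obtain ⟨τ, hτ, hτv⟩ := Cfsg.Agent.Lib.Helper79.exists_irr_ext_of_cyclic G hcyc (χ : G → ℂ) hχirr
    hinvχ
  have hτG : Cfsg.IsIrrCharacter G (fun g : G => τ g) := by
    have : (fun g : G => τ g) = (χ : G → ℂ) := funext hτv
    rw [this]; exact hχirr
  have hτN : ∀ n : N, τ n = (e' : ℂ) * (θ : N → ℂ) n := by
    intro n
    have h1 := hτv ⟨(n : Γ), hNG n.2⟩
    have h2 := congrFun hres ⟨⟨(n : Γ), hNG n.2⟩, Subgroup.mem_subgroupOf.mpr n.2⟩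
    simp only [Pi.smul_apply, smul_eq_mul] at h2
    rw [show τ (n : Γ) = (χ : G → ℂ) ⟨(n : Γ), hNG n.2⟩ from h1, h2]
  exact Cfsg.Agent.Lib.Helper4.fram_core G N hNG hGlt hcyc hfrob θ.2 hinv hτ hτG e' hτN

end Cfsg.Agent.S4454
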