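import Cfsg.Statements.S4462
-- import your own Cfsg.Agent.* helpers here
import Cfsg.Agent.Lib.Helper51.Garrison

set_option autoImplicit false
open Cfsg

namespace Cfsg.Agent.S4462

/-- Let G be a finite solvable group with exactly n distinct irreducible character degrees. Then G has normal subgroups 1 = N₀ ≤ N₁ ≤ ⋯ ≤ Nₙ = G with every quotient N_{i+1}/N_i nilpotent (the nilpotent length of G is at most n). -/
theorem result {G : Type*} [Group G] [Finite G] (hsolv : Group.IsSolvable G) (n : ℕ) (hcd : Nat.card {d : ℕ // ∃ χ : Cfsg.IrrCharacter G, Cfsg.charDegree (χ : G → ℂ) = d} = n) : ∃ N : Fin (n + 1) → Subgroup G, N 0 = ⊥ ∧ N (Fin.last n) = ⊤ ∧ Monotone N ∧ (∀ i, (N i).Normal) ∧ ∀ i : Fin n, ∀ h : (N i.castSucc).subgroupOf (N i.succ) |>.Normal, Group.IsNilpotent (↥(N i.succ) ⧸ (N i.castSucc).subgroupOf (N i.succ)) := by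
  classical
  open Cfsg.Agent.Lib.Helper51.Garrison in
  refine ⟨fun i => (fitSer G i.1).1, rfl, fitSer_eq_top hsolv n hcd, ?_, fun i => (fitSer G i.1).2, ?_⟩
  · intro a b hab
    exact fitSer_mono hab
  · intro i h
    have hn : (fitSer G i.1).1.Normal := (fitSer G i.1).2
    exact quot_nilpotent (fitSer G i.1).1 h

end Cfsg.Agent.S4462
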