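import Cfsg.Statements.S4464
import Cfsg.Agent.Lib.Helper96.PermMult
import Cfsg.Agent.Lib.Helper5.DegHyp

set_option autoImplicit false
open Cfsg

namespace Cfsg.Agent.S4464

open Cfsg.Agent.Lib

/-- Orbits of the normaliser of `P` on the Sylow subgroups other than `{P}` have at least `p` points. -/
theorem orbit_ge {G : Type*} [Group G] [Finite G] {p : ℕ} [Fact p.Prime] (P Q : Sylow p G)
    (hne : Q ≠ P) : p ≤ Nat.card (MulAction.orbit (MulAction.stabilizer G P) Q) := by
  classical
  have hsub : MulAction.orbit (P : Subgroup G) Q ⊆ MulAction.orbit (MulAction.stabilizer G P) Q := by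
    rintro _ ⟨x, rfl⟩
    have hx : (x : G) ∈ MulAction.stabilizer G P := by
      rw [MulAction.mem_stabilizer_iff, Sylow.smul_eq_iff_mem_normalizer]
      exact Subgroup.le_normalizer x.2
    exact ⟨⟨x, hx⟩, rfl⟩
  have h1 : Nat.card (MulAction.orbit (P : Subgroup G) Q)
      ≤ Nat.card (MulAction.orbit (MulAction.stabilizer G P) Q) :=
    Nat.card_mono (Set.toFinite _) hsub
  obtain ⟨k, hk⟩ := P.2.card_orbit Q
  rcases Nat.eq_zero_or_pos k with rfl | hk0
  · exfalso
    rw [pow_zero] at hk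
    have hfix : Q ∈ MulAction.fixedPoints (P : Subgroup G) (Sylow p G) := by
      intro x
      have h2 : Subsingleton (MulAction.orbit (P : Subgroup G) Q) :=
        (Nat.card_eq_one_iff_unique.mp hk).1
      have := @Subsingleton.elim _ h2 ⟨x • Q, MulAction.mem_orbit _ _⟩ ⟨Q, MulAction.mem_orbit_self _⟩
      exact congrArg Subtype.val this
    rw [P.2.sylow_mem_fixedPoints_iff] at hfix
    exact hne (Sylow.ext (P.3 Q.2 hfix))
  · calc p = p ^ 1 := (pow_one p).symm
      _ ≤ p ^ k := Nat.pow_le_pow_right (Fact.out : p.Prime).pos hk0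
      _ = _ := hk.symm
      _ ≤ _ := h1

/-- Let p be a prime and G a finite group all of whose irreducible character degrees are less than p. Then G has a normal abelian Sylow p-subgroup. -/
theorem result {G : Type*} [Group G] [Finite G] (p : ℕ) (hp : p.Prime) (hb : ∀ χ : Cfsg.IrrCharacter G, Cfsg.charDegree (χ : G → ℂ) < p) : ∃ P : Subgroup G, P.Normal ∧ (∀ x ∈ P, ∀ y ∈ P, x * y = y * x) ∧ IsPGroup p P ∧ ¬ p ∣ P.index := by
  classical
  have := Fact.mk hp
  have := Fintype.ofFinite G
  have := Helper82.finite_irrCharacter (G := G)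
  have := Fintype.ofFinite (IrrCharacter G)
  have := Fintype.ofFinite (Sylow p G)
  obtain ⟨P⟩ : Nonempty (Sylow p G) := inferInstance
  obtain ⟨m, d, hm, hd, hdpos, hrank, hcard⟩ :=
    Helper96.perm_mult_data (G := G) (Ω := Sylow p G) P
  let χ1 : IrrCharacter G := ⟨fun _ => 1, Helper83.isIrr_trivial⟩
  have hm1 : m χ1 = 1 := by
    have h1 := hm χ1
    have h2 := Helper96.classInner_perm_one (G := G) (Ω := Sylow p G)
    have h3 : ((m χ1 : ℕ) : ℂ) = 1 := by rw [← h1]; exact h2
    exact_mod_cast h3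
  have hd1 : d χ1 = 1 := by
    have h1 := hd χ1
    have h3 : ((d χ1 : ℕ) : ℂ) = 1 := by rw [← h1]
    exact_mod_cast h3
  have hdlt : ∀ χ, d χ < p := by
    intro χ
    have h1 := Helper82.isChar_one_eq (Helper82.isIrr_isChar χ.2)
    rw [hd χ] at h1
    have h2 : d χ = charDegree (χ : G → ℂ) := by exact_mod_cast h1
    rw [h2]; exact hb χ
  -- the rank bound
  have := Fintype.ofFinite (MulAction.orbitRel.Quotient (MulAction.stabilizer G P) (Sylow p G))
  set r := Nat.card (MulAction.orbitRel.Quotient (MulAction.stabilizer G P) (Sylow p G)) with hr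
  have hsum := Helper96.card_eq_sum_orbits (Ω := Sylow p G) (MulAction.stabilizer G P)
  let ω0 : MulAction.orbitRel.Quotient (MulAction.stabilizer G P) (Sylow p G) :=
    Quotient.mk'' P
  have hge : ∀ ω : MulAction.orbitRel.Quotient (MulAction.stabilizer G P) (Sylow p G),
      ω ≠ ω0 → p ≤ Nat.card ω.orbit := by
    intro ω hω
    induction ω using Quotient.inductionOn' with
    | h Q =>
      rw [MulAction.orbitRel.Quotient.orbit_mk]
      apply orbit_ge
      rintro rfl
      exact hω rfl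
  have hbound : p * (r - 1) + 1 ≤ Fintype.card (Sylow p G) := by
    rw [hsum, ← Finset.add_sum_erase _ _ (Finset.mem_univ ω0)]
    have h1 : 1 ≤ Nat.card ω0.orbit := by
      have : Nonempty ω0.orbit := ⟨⟨P, by
        rw [MulAction.orbitRel.Quotient.orbit_mk]; exact MulAction.mem_orbit_self _⟩⟩
      exact Nat.card_pos
    have h2 : (Finset.univ.erase ω0).card • p ≤ ∑ ω ∈ Finset.univ.erase ω0, Nat.card ω.orbit :=
      Finset.card_nsmul_le_sum _ _ _ (fun ω hω => hge ω (Finset.ne_of_mem_erase hω))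
    rw [Finset.card_erase_of_mem (Finset.mem_univ _), Finset.card_univ, ← Nat.card_eq_fintype_card,
      ← hr, smul_eq_mul] at h2
    nlinarith [h1, h2, mul_comm p (r - 1)]
  -- character side
  have hA : Fintype.card (Sylow p G) = 1 + ∑ χ ∈ Finset.univ.erase χ1, m χ * d χ := by
    rw [hcard, ← Finset.add_sum_erase _ _ (Finset.mem_univ χ1), hm1, hd1]
  have hB : r = 1 + ∑ χ ∈ Finset.univ.erase χ1, m χ ^ 2 := by
    rw [hrank, ← Finset.add_sum_erase _ _ (Finset.mem_univ χ1), hm1]; norm_num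
  have hC : ∑ χ ∈ Finset.univ.erase χ1, m χ * d χ
      ≤ (p - 1) * ∑ χ ∈ Finset.univ.erase χ1, m χ ^ 2 := by
    rw [Finset.mul_sum]
    refine Finset.sum_le_sum fun χ _ => ?_
    have h1 : d χ ≤ p - 1 := Nat.le_sub_one_of_lt (hdlt χ)
    have h2 : m χ ≤ m χ ^ 2 := by nlinarith [Nat.zero_le (m χ), Nat.le_self_pow two_ne_zero (m χ)]
    calc m χ * d χ ≤ m χ ^ 2 * (p - 1) := Nat.mul_le_mul h2 h1
      _ = _ := mul_comm _ _
  have hone : Fintype.card (Sylow p G) = 1 := by
    set S := ∑ χ ∈ Finset.univ.erase χ1, m χ ^ 2 with hS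
    have h1 : r - 1 = S := by omega
    rw [h1] at hbound
    have h2 : p * S ≤ (p - 1) * S := by omega
    have h3 : S = 0 := by
      by_contra h0
      have hp1 : p - 1 < p := Nat.sub_lt hp.pos one_pos
      have := Nat.mul_lt_mul_of_pos_right hp1 (Nat.pos_of_ne_zero h0)
      omega
    rw [h3] at hC
    omega
  have hPn : (P : Subgroup G).Normal := by
    have h1 : Subsingleton (Sylow p G) := Fintype.card_le_one_iff_subsingleton.mp hone.le
    exact Sylow.normal_of_subsingleton P
  refine ⟨P, hPn, ?_, P.2, P.not_dvd_index⟩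
  have hlin : ∀ θ : IrrCharacter (P : Subgroup G), charDegree (θ : ↥(P : Subgroup G) → ℂ) = 1 := by
    intro θ
    obtain ⟨χ, hχ⟩ := Helper5.exists_irr_over_dvd (P : Subgroup G) θ
    have h1 : charDegree (θ : ↥(P : Subgroup G) → ℂ) ≤ charDegree (χ : G → ℂ) :=
      Nat.le_of_dvd (Helper82.isIrr_charDegree_pos χ.2) hχ
    have h2 : charDegree (θ : ↥(P : Subgroup G) → ℂ) ∣ Nat.card (P : Subgroup G) :=
      Helper82.isIrr_charDegree_dvd_card θ.2
    obtain ⟨n, hn⟩ := P.2.exists_card_eq
    rw [hn] at h2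
    obtain ⟨j, -, hj⟩ := (Nat.dvd_prime_pow hp).mp h2
    rcases Nat.eq_zero_or_pos j with rfl | hj0
    · simpa using hj
    · exfalso
      have h3 : p ≤ p ^ j := by
        calc p = p ^ 1 := (pow_one p).symm
          _ ≤ p ^ j := Nat.pow_le_pow_right hp.pos hj0
      have := hb χ
      omega
  intro x hx y hy
  have := Helper5.comm_of_all_linear hlin ⟨x, hx⟩ ⟨y, hy⟩
  exact congrArg Subtype.val this

end Cfsg.Agent.S4464
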