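import Cfsg.Statements.S4470
-- import your own Cfsg.Agent.* helpers here
import Cfsg.Agent.Lib.Helper98.Jordan

set_option autoImplicit false
open Cfsg

namespace Cfsg.Agent.S4470

/-- Let the finite group G have a faithful character of degree n. Then G has an abelian normal subgroup A such that every abelian subgroup H of G satisfies [H : H ⊓ A] ≤ 12^n. -/
theorem result {G : Type*} [Group G] [Finite G] (χ : G → ℂ) (hχ : Cfsg.IsCharacter G χ) (hfaith : ∀ g : G, χ g = χ 1 → g = 1) (n : ℕ) (hn : Cfsg.charDegree χ = n) : ∃ A : Subgroup G, A.Normal ∧ (∀ x ∈ A, ∀ y ∈ A, x * y = y * x) ∧ ∀ H : Subgroup G, (∀ x ∈ H, ∀ y ∈ H, x * y = y * x) → (A.subgroupOf H).index ≤ 12 ^ n := by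
  obtain ⟨m, ρ, rfl⟩ := hχ
  have hinj : Function.Injective ρ := by
    intro a b hab
    have h1 : ρ (a⁻¹ * b) = 1 := by
      rw [map_mul, ← hab, ← map_mul, inv_mul_cancel, map_one]
    have h2 : ρ.character (a⁻¹ * b) = ρ.character 1 := by
      unfold Representation.character
      rw [h1, map_one ρ]
    have h3 := hfaith _ h2
    exact (inv_mul_eq_one.mp h3)
  have hm : Module.finrank ℂ (Fin m → ℂ) = n := by
    rw [← hn]
    unfold Cfsg.charDegree
    rw [Representation.char_one]
    simp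
  obtain ⟨A, hA1, hA2, hA3⟩ := Cfsg.Agent.Lib.Helper98.Jordan.exists_abelian_normal ρ hinj
  rw [hm] at hA3
  exact ⟨A, hA1, hA2, hA3⟩

end Cfsg.Agent.S4470
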