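import Cfsg.Statements.S4476
import Cfsg.Agent.Lib.Helper78.FrobSchur3
import Cfsg.Agent.Lib.Helper20.CharCount
import Cfsg.Agent.Lib.Helper20.CharColumn

set_option autoImplicit false
open Cfsg

namespace Cfsg.Agent.S4476

/-- Let G be a finite group of even order g with exactly t involutions, and put α = (g − 1)/t (a rational number). Then (a) some non-identity element x of G has at most α² conjugates; and (b) some non-principal real-valued irreducible character of G has degree at most α. -/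
theorem result {G : Type*} [Group G] [Fintype G] (heven : Even (Nat.card G)) (t : ℕ) (ht : Nat.card {x : G // orderOf x = 2} = t) : (∃ x : G, x ≠ 1 ∧ ((Subgroup.centralizer ({x} : Set G)).index : ℚ) ≤ (((Nat.card G : ℚ) - 1) / t) ^ 2) ∧ ∃ χ : Cfsg.IrrCharacter G, (χ : G → ℂ) ≠ (fun _ => 1) ∧ (∀ g : G, ((χ : G → ℂ) g).im = 0) ∧ (Cfsg.charDegree (χ : G → ℂ) : ℚ) ≤ ((Nat.card G : ℚ) - 1) / t := by
  classical
  have hfin := Lib.Helper20.finite_irrCharacter (G := G)
  have := Fintype.ofFinite (Cfsg.IrrCharacter G)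
  have : Fact (Nat.Prime 2) := ⟨Nat.prime_two⟩
  have ht1 : 1 ≤ t := by
    obtain ⟨x, hx⟩ := exists_prime_orderOf_dvd_card' 2 heven.two_dvd
    rw [← ht]
    have : Nonempty {x : G // orderOf x = 2} := ⟨⟨x, hx⟩⟩
    exact Nat.card_pos
  have hN2 : 2 ≤ Nat.card G := Nat.le_of_dvd Nat.card_pos heven.two_dvd
  have hR := Lib.Helper78.fs_involutions_le (G := G)
  rw [ht] at hR
  have hsq := Lib.Helper82.sum_sq_charDegree (G := G)
  rw [← Finset.add_sum_erase _ _ (Finset.mem_univ (Lib.Helper82.trivIrr G))] at hsq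
  have hd1 : Cfsg.charDegree (Lib.Helper82.trivIrr G : G → ℂ) = 1 := Lib.Helper78.charDegree_triv
  rw [hd1] at hsq
  set R := Finset.univ.filter (fun χ : Cfsg.IrrCharacter G =>
        χ ≠ Lib.Helper82.trivIrr G ∧ ∀ g : G, ((χ : G → ℂ) g).im = 0) with hRdef
  set E := (Finset.univ : Finset (Cfsg.IrrCharacter G)).erase (Lib.Helper82.trivIrr G) with hEdef
  have hRE : R ⊆ E := by
    intro χ hχ
    simp only [hRdef, Finset.mem_filter, Finset.mem_univ, true_and] at hχ
    simp only [hEdef, Finset.mem_erase, Finset.mem_univ, and_true]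
    exact hχ.1
  have hsqQ : (∑ χ ∈ E, (Cfsg.charDegree (χ : G → ℂ) : ℚ) ^ 2) = (Nat.card G : ℚ) - 1 := by
    have : ((1 ^ 2 + ∑ χ ∈ E, Cfsg.charDegree (χ : G → ℂ) ^ 2 : ℕ) : ℚ) = (Nat.card G : ℚ) := by
      rw [hsq]
    push_cast at this
    linarith
  have hRQ : (t : ℚ) ≤ ∑ χ ∈ R, (Cfsg.charDegree (χ : G → ℂ) : ℚ) := by exact_mod_cast hR
  have htQ : (0 : ℚ) < t := by exact_mod_cast ht1
  have hNQ : (0 : ℚ) < (Nat.card G : ℚ) - 1 := by
    have : (2 : ℚ) ≤ (Nat.card G : ℚ) := by exact_mod_cast hN2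
    linarith
  set α : ℚ := ((Nat.card G : ℚ) - 1) / t with hα
  have hαpos : 0 < α := div_pos hNQ htQ
  have hαt : α * t = (Nat.card G : ℚ) - 1 := by
    rw [hα]; field_simp
  constructor
  · -- part (a)
    have hEQ : (t : ℚ) ≤ ∑ χ ∈ E, (Cfsg.charDegree (χ : G → ℂ) : ℚ) :=
      hRQ.trans (Finset.sum_le_sum_of_subset_of_nonneg hRE (fun _ _ _ => Nat.cast_nonneg _))
    have hCS := sq_sum_le_card_mul_sum_sq (s := E) (f := fun χ => (Cfsg.charDegree (χ : G → ℂ) : ℚ))
    rw [hsqQ] at hCS
    have ht2 : (t : ℚ) ^ 2 ≤ (E.card : ℚ) * ((Nat.card G : ℚ) - 1) :=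
      (pow_le_pow_left₀ htQ.le hEQ 2).trans hCS
    have hEcard : E.card + 1 = Nat.card (ConjClasses G) := by
      rw [← Lib.Helper20.card_irrCharacter, Nat.card_eq_fintype_card, hEdef,
        Finset.card_erase_of_mem (Finset.mem_univ _), Finset.card_univ]
      have : 0 < Fintype.card (Cfsg.IrrCharacter G) :=
        Fintype.card_pos_iff.2 ⟨Lib.Helper82.trivIrr G⟩
      omega
    by_contra hcon
    push Not at hcon
    have := Fintype.ofFinite (ConjClasses G)
    have hce := Group.sum_card_conj_classes_eq_card G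
    rw [finsum_eq_sum_of_fintype,
      ← Finset.add_sum_erase _ _ (Finset.mem_univ (ConjClasses.mk (1 : G)))] at hce
    have hone : (ConjClasses.mk (1 : G)).carrier.ncard = 1 := by
      have : (ConjClasses.mk (1 : G)).carrier = {1} := by
        ext y
        rw [ConjClasses.mem_carrier_iff_mk_eq, ConjClasses.mk_eq_mk_iff_isConj, Set.mem_singleton_iff,
          isConj_one_left]
      rw [this, Set.ncard_singleton]
    rw [hone] at hce
    set F := (Finset.univ : Finset (ConjClasses G)).erase (ConjClasses.mk (1 : G)) with hFdef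
    have hFcard : F.card = E.card := by
      have h1 : F.card + 1 = Nat.card (ConjClasses G) := by
        rw [Nat.card_eq_fintype_card, hFdef, Finset.card_erase_of_mem (Finset.mem_univ _),
          Finset.card_univ]
        have : 0 < Fintype.card (ConjClasses G) := Fintype.card_pos_iff.2 ⟨ConjClasses.mk 1⟩
        omega
      omega
    have hEpos : 0 < E.card := by
      rcases Nat.eq_zero_or_pos E.card with h | h
      · rw [h] at ht2
        have : (0 : ℚ) < (t : ℚ) ^ 2 := by positivity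
        simp at ht2
        linarith
      · exact h
    have hFne : F.Nonempty := Finset.card_pos.1 (by rw [hFcard]; exact hEpos)
    have hlt : ∀ C ∈ F, α ^ 2 < (C.carrier.ncard : ℚ) := by
      intro C hC
      obtain ⟨x, rfl⟩ := ConjClasses.exists_rep C
      have hx1 : x ≠ 1 := by
        rintro rfl
        simp [hFdef] at hC
      have h1 := hcon x hx1
      have h2 : (ConjClasses.mk x).carrier.ncard = (Subgroup.centralizer ({x} : Set G)).index := by
        rw [← Lib.Helper20.card_isConj_eq_index, ← Nat.card_coe_set_eq]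
        apply Nat.card_congr
        apply Equiv.subtypeEquivRight
        intro y
        rw [ConjClasses.mem_carrier_iff_mk_eq, ConjClasses.mk_eq_mk_iff_isConj, isConj_comm]
      rw [h2]
      exact h1
    have hsum := Finset.sum_lt_sum_of_nonempty hFne hlt
    rw [Finset.sum_const, nsmul_eq_mul, hFcard] at hsum
    have hceQ : (∑ C ∈ F, (C.carrier.ncard : ℚ)) = (Nat.card G : ℚ) - 1 := by
      have : ((1 + ∑ C ∈ F, C.carrier.ncard : ℕ) : ℚ) = (Nat.card G : ℚ) := by rw [hce]
      push_cast at this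
      linarith
    rw [hceQ] at hsum
    -- (E.card) α² < N - 1, and t² ≤ E.card (N-1)
    have h3 : (E.card : ℚ) * α ^ 2 * (t : ℚ) ^ 2 < ((Nat.card G : ℚ) - 1) * (t : ℚ) ^ 2 :=
      mul_lt_mul_of_pos_right hsum (by positivity)
    have h4 : (E.card : ℚ) * α ^ 2 * (t : ℚ) ^ 2 =
        ((E.card : ℚ) * ((Nat.card G : ℚ) - 1)) * ((Nat.card G : ℚ) - 1) := by
      rw [← hαt]; ring
    rw [h4] at h3
    have h5 : (t : ℚ) ^ 2 * ((Nat.card G : ℚ) - 1) ≤
        ((E.card : ℚ) * ((Nat.card G : ℚ) - 1)) * ((Nat.card G : ℚ) - 1) :=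
      mul_le_mul_of_nonneg_right ht2 hNQ.le
    linarith
  · -- part (b)
    by_contra hcon
    push Not at hcon
    have hRne : R.Nonempty := by
      by_contra hne
      rw [Finset.not_nonempty_iff_eq_empty] at hne
      rw [hne, Finset.sum_empty] at hRQ
      linarith
    have h1 : ∀ χ ∈ R, α * (Cfsg.charDegree (χ : G → ℂ) : ℚ) <
        (Cfsg.charDegree (χ : G → ℂ) : ℚ) ^ 2 := by
      intro χ hχ
      simp only [hRdef, Finset.mem_filter, Finset.mem_univ, true_and] at hχ
      have h2 := hcon χ (fun h => hχ.1 (Subtype.ext h)) hχ.2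
      have h3 : (0 : ℚ) < (Cfsg.charDegree (χ : G → ℂ) : ℚ) := hαpos.trans h2
      rw [pow_two]
      exact mul_lt_mul_of_pos_right h2 h3
    have h2 := Finset.sum_lt_sum_of_nonempty hRne h1
    rw [← Finset.mul_sum] at h2
    have h3 : (∑ χ ∈ R, (Cfsg.charDegree (χ : G → ℂ) : ℚ) ^ 2) ≤ (Nat.card G : ℚ) - 1 := by
      rw [← hsqQ]
      exact Finset.sum_le_sum_of_subset_of_nonneg hRE (fun _ _ _ => by positivity)
    have h4 : α * t ≤ α * ∑ χ ∈ R, (Cfsg.charDegree (χ : G → ℂ) : ℚ) :=
      mul_le_mul_of_nonneg_left hRQ hαpos.le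
    linarith

end Cfsg.Agent.S4476
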