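import Cfsg.Statements.S4477
import Cfsg.Agent.Lib.Helper78.AFT

set_option autoImplicit false
open Cfsg

namespace Cfsg.Agent.S4477

/-- Let G be a finite 2-group whose number of involutions is congruent to 1 modulo 4. Then G is cyclic or its commutator subgroup has index 4. -/
theorem result {G : Type*} [Group G] [Finite G] (hG : IsPGroup 2 G) (ht : Nat.card {x : G // orderOf x = 2} % 4 = 1) : IsCyclic G ∨ (commutator G).index = 4 := by
  classical
  have := Fintype.ofFinite G
  have hfin := Lib.Helper20.finite_irrCharacter (G := G)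
  have := Fintype.ofFinite (Cfsg.IrrCharacter G)
  by_cases hc : IsCyclic G
  · exact Or.inl hc
  right
  have h4 := Lib.Helper78.four_dvd_index_sqSub hG hc
  obtain ⟨n, hn⟩ := hG.exists_card_eq
  have hd : ∀ χ : Cfsg.IrrCharacter G, Cfsg.charDegree (χ : G → ℂ) = 1 ∨
      Cfsg.charDegree (χ : G → ℂ) = 2 ∨ 4 ∣ Cfsg.charDegree (χ : G → ℂ) := by
    intro χ
    have h1 := Lib.Helper82.isIrr_charDegree_dvd_card χ.2
    rw [hn] at h1
    obtain ⟨j, _, hj⟩ := (Nat.dvd_prime_pow Nat.prime_two).1 h1
    rcases j with _ | _ | j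
    · left; simpa using hj
    · right; left; simpa using hj
    · right; right; rw [hj]; exact ⟨2 ^ j, by ring⟩
  have hfs := Lib.Helper78.fs_mod_four hd
  have h8 := Lib.Helper78.card_mod_eight hd
  have hpar := Lib.Helper78.card_degree_parity (G := G) 2
  obtain ⟨j, hj⟩ := hG.index (commutator G)
  have hdvd : (Lib.Helper78.sqSub G).index ∣ (commutator G).index :=
    Subgroup.index_dvd_of_le Lib.Helper78.commutator_le_sqSub
  have h4' : 4 ∣ (commutator G).index := h4.trans hdvd
  rcases j with _ | _ | _ | j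
  · rw [hj] at h4'; omega
  · rw [hj] at h4'; omega
  · rw [hj]; norm_num
  · exfalso
    have h8a : 8 ∣ (commutator G).index := by rw [hj]; exact ⟨2 ^ j, by ring⟩
    have h8b : 8 ∣ Nat.card G := h8a.trans (Subgroup.index_dvd_card _)
    obtain ⟨a, ha⟩ := h4
    obtain ⟨b, hb⟩ := h8a
    obtain ⟨c, hc'⟩ := h8b
    rw [ha] at hfs
    rw [hb, hc'] at h8
    omega

end Cfsg.Agent.S4477
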