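import Cfsg.Statements.S4478
import Cfsg.Agent.Lib.Helper78.FrobSchur3
import Cfsg.Agent.Lib.Helper78.DefectZero
import Cfsg.Agent.Lib.Helper20.CharColumn

set_option autoImplicit false
open Cfsg

namespace Cfsg.Agent.S4478

theorem sum_odd_sq {G : Type*} [Group G] [Fintype G] (f : G → ℂ) :
    ∑ h ∈ Finset.univ.filter (fun h : G => Odd (orderOf h)), f (h * h) =
      ∑ h ∈ Finset.univ.filter (fun h : G => Odd (orderOf h)), f h := by
  have hord : ∀ h : G, Odd (orderOf h) → orderOf (h * h) = orderOf h := by
    intro h hh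
    rw [← pow_two, orderOf_pow]
    have : (orderOf h).gcd 2 = 1 := Nat.coprime_two_right.2 hh
    rw [this, Nat.div_one]
  have hpow : ∀ h : G, Odd (orderOf h) → h ^ (orderOf h + 1) = h := by
    intro h _
    rw [pow_succ, pow_orderOf_eq_one, one_mul]
  have hhalf : ∀ n : ℕ, Odd n → (n + 1) / 2 + (n + 1) / 2 = n + 1 := by
    intro n hn
    obtain ⟨k, rfl⟩ := hn
    omega
  apply Finset.sum_nbij' (fun h => h * h) (fun h => h ^ ((orderOf h + 1) / 2))
  · intro h hh
    simp only [Finset.mem_filter, Finset.mem_univ, true_and] at hh ⊢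
    rw [hord h hh]; exact hh
  · intro h hh
    simp only [Finset.mem_filter, Finset.mem_univ, true_and] at hh ⊢
    exact Odd.of_dvd_nat hh (orderOf_pow_dvd _)
  · intro h hh
    simp only [Finset.mem_filter, Finset.mem_univ, true_and] at hh
    rw [hord h hh, ← pow_two, ← pow_mul, two_mul, hhalf _ hh, hpow h hh]
  · intro h hh
    simp only [Finset.mem_filter, Finset.mem_univ, true_and] at hh
    rw [← pow_add, hhalf _ hh, hpow h hh]
  · intro h _
    rfl

/-- Let G be a finite group of even order and χ an irreducible character of G whose degree x is divisible by the full power of 2 dividing the order of G and, for every odd prime p such that G has an element of order 2p, by the full power of p dividing the order of G. Then all involutions of G are conjugate, the centralizer of every involution has order exactly x with x coprime to its index, and the Frobenius–Schur indicator of χ equals 1. -/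
theorem result {G : Type*} [Group G] [Fintype G] (heven : Even (Nat.card G)) (χ : Cfsg.IrrCharacter G) (h2 : 2 ^ (Nat.card G).factorization 2 ∣ Cfsg.charDegree (χ : G → ℂ)) (hp : ∀ p : ℕ, p.Prime → p ≠ 2 → (∃ g : G, orderOf g = 2 * p) → p ^ (Nat.card G).factorization p ∣ Cfsg.charDegree (χ : G → ℂ)) : (∀ s t : G, orderOf s = 2 → orderOf t = 2 → IsConj s t) ∧ (∀ s : G, orderOf s = 2 → Nat.card (Subgroup.centralizer ({s} : Set G)) = Cfsg.charDegree (χ : G → ℂ) ∧ (Nat.card (Subgroup.centralizer ({s} : Set G))).Coprime (Subgroup.centralizer ({s} : Set G)).index) ∧ (Nat.card G : ℂ)⁻¹ * ∑ g : G, (χ : G → ℂ) (g * g) = 1 := by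
  classical
  obtain ⟨m, hm⟩ := Lib.Helper82.isIrr_charDegree_dvd_card χ.2
  have hN0 : Nat.card G ≠ 0 := Nat.card_pos.ne'
  have hdpos := Lib.Helper82.isIrr_charDegree_pos χ.2
  set d := Cfsg.charDegree (χ : G → ℂ) with hd
  -- good primes
  have good : ∀ q : ℕ, q.Prime → q ^ (Nat.card G).factorization q ∣ d → ¬ q ∣ m := by
    intro q hq hqd hqm
    apply Nat.pow_succ_factorization_not_dvd hN0 hq
    rw [pow_succ]
    conv_rhs => rw [hm]
    exact Nat.mul_dvd_mul hqd hqm
  have vanish : ∀ q : ℕ, q.Prime → q ^ (Nat.card G).factorization q ∣ d → ∀ g : G, q ∣ orderOf g →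
      (χ : G → ℂ) g = 0 := fun q hq hqd g hg =>
    Lib.Helper78.vanish_of_defect_zero hq χ hm (good q hq hqd) hg
  have hd2 : 2 ∣ d := by
    have h1 : 1 ≤ (Nat.card G).factorization 2 :=
      (Nat.prime_two.pow_dvd_iff_le_factorization hN0).1 (by simpa using heven.two_dvd)
    exact (Dvd.intro_left (2 ^ ((Nat.card G).factorization 2 - 1))
      (by rw [← pow_succ, Nat.sub_add_cancel h1])).trans h2
  -- case C
  have caseC : ∀ h : G, ¬ Odd (orderOf h) → orderOf h ≠ 2 → (χ : G → ℂ) (h * h) = 0 := by
    intro h hodd hne2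
    rw [Nat.not_odd_iff_even] at hodd
    obtain ⟨k, hk⟩ := hodd.two_dvd
    have hk0 : k ≠ 0 := by
      rintro rfl
      exact (orderOf_pos h).ne' (by simpa using hk)
    have hk1 : k ≠ 1 := by
      rintro rfl
      exact hne2 (by simpa using hk)
    have hord : orderOf (h * h) = k := by
      rw [← pow_two, orderOf_pow_of_dvd two_ne_zero ⟨k, hk⟩, hk]
      simp
    obtain ⟨q, hq, hqk⟩ := Nat.exists_prime_and_dvd hk1
    by_cases hq2 : q = 2
    · subst hq2
      exact vanish 2 hq h2 _ (by rw [hord]; exact hqk)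
    · obtain ⟨j, hj⟩ := hqk
      have hj0 : j ≠ 0 := by
        rintro rfl
        exact hk0 (by simpa using hj)
      have h3 : orderOf (h ^ j) = 2 * q := by
        rw [orderOf_pow_of_dvd hj0 ⟨2 * q, by rw [hk, hj]; ring⟩, hk, hj]
        rw [show 2 * (q * j) = (2 * q) * j by ring]
        exact Nat.mul_div_cancel _ (Nat.pos_of_ne_zero hj0)
      exact vanish q hq (hp q hq hq2 ⟨_, h3⟩) _ (by rw [hord, hj]; exact Dvd.intro _ rfl)
  -- the sum of χ over G vanishes
  have hne : (χ : G → ℂ) ≠ (fun _ => 1) := by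
    intro h
    have h3 : d = 1 := by rw [hd, h]; exact Lib.Helper78.charDegree_triv
    rw [h3] at hd2
    omega
  have hsum0 : ∑ g : G, (χ : G → ℂ) g = 0 := by
    have h3 := Lib.Helper20.classInner_irr_ne χ.2 (Lib.Helper82.trivIrr G).2 hne
    unfold Cfsg.classInner at h3
    rcases mul_eq_zero.1 h3 with h4 | h4
    · exact absurd (inv_eq_zero.1 h4) Lib.Helper20.card_ne_zero_complex
    · simpa using h4
  have hsumA : ∑ h ∈ Finset.univ.filter (fun h : G => Odd (orderOf h)), (χ : G → ℂ) (h * h) = 0 := by
    rw [sum_odd_sq, ← hsum0, Finset.sum_filter]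
    apply Finset.sum_congr rfl
    intro g _
    split_ifs with hg
    · rfl
    · rw [Nat.not_odd_iff_even] at hg
      exact (vanish 2 Nat.prime_two h2 g hg.two_dvd).symm
  set I := Finset.univ.filter (fun h : G => orderOf h = 2) with hI
  have hsplit : ∀ h : G, (χ : G → ℂ) (h * h) =
      (if Odd (orderOf h) then (χ : G → ℂ) (h * h) else 0) + (if orderOf h = 2 then (d : ℂ) else 0) := by
    intro h
    by_cases h3 : Odd (orderOf h)
    · have h4 : orderOf h ≠ 2 := by
        intro h5; rw [h5] at h3; exact absurd h3 (by decide)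
      rw [if_pos h3, if_neg h4, add_zero]
    · by_cases h4 : orderOf h = 2
      · rw [if_neg h3, if_pos h4, zero_add, ← pow_two, ← h4, pow_orderOf_eq_one,
          Lib.Helper82.isChar_one_eq (Lib.Helper82.isIrr_isChar χ.2)]
      · rw [if_neg h3, if_neg h4, add_zero]
        exact caseC h h3 h4
  have htotal : ∑ h : G, (χ : G → ℂ) (h * h) = (I.card : ℂ) * d := by
    rw [Finset.sum_congr rfl (fun h _ => hsplit h), Finset.sum_add_distrib, ← Finset.sum_filter,
      hsumA, zero_add, ← Finset.sum_filter, Finset.sum_const, nsmul_eq_mul]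
  -- involutions exist
  have : Fact (Nat.Prime 2) := ⟨Nat.prime_two⟩
  obtain ⟨s₀, hs₀⟩ := exists_prime_orderOf_dvd_card' 2 heven.two_dvd
  have hIpos : 0 < I.card := Finset.card_pos.2 ⟨s₀, by simp [hI, hs₀]⟩
  have hnu : (Nat.card G : ℂ)⁻¹ * ∑ g : G, (χ : G → ℂ) (g * g) = 1 := by
    have h3 := (Lib.Helper78.fsNu_irr χ.2).1
    unfold Lib.Helper78.fsNu at h3
    rw [htotal] at h3 ⊢
    have hpos : (0 : ℝ) < (Nat.card G : ℝ)⁻¹ * ((I.card : ℝ) * d) := by
      have h4 : (0 : ℝ) < (Nat.card G : ℝ) := by exact_mod_cast Nat.card_pos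
      have h5 : (0 : ℝ) < (I.card : ℝ) := by exact_mod_cast hIpos
      have h6 : (0 : ℝ) < (d : ℝ) := by exact_mod_cast hdpos
      exact mul_pos (inv_pos.2 h4) (mul_pos h5 h6)
    have hcast : (Nat.card G : ℂ)⁻¹ * ((I.card : ℂ) * d) =
        (((Nat.card G : ℝ)⁻¹ * ((I.card : ℝ) * d) : ℝ) : ℂ) := by push_cast; rfl
    rw [hcast] at h3 ⊢
    rcases h3 with h4 | h4 | h4
    · have : (Nat.card G : ℝ)⁻¹ * ((I.card : ℝ) * d) = 0 := by exact_mod_cast h4
      linarith
    · exact h4
    · have : (Nat.card G : ℝ)⁻¹ * ((I.card : ℝ) * d) = -1 := by exact_mod_cast h4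
      linarith
  have hNtd : Nat.card G = I.card * d := by
    rw [htotal] at hnu
    have h3 : ((I.card : ℂ) * d) = (Nat.card G : ℂ) := by
      have h4 := Lib.Helper20.card_ne_zero_complex (G := G)
      field_simp at hnu
      exact hnu
    exact_mod_cast h3.symm
  -- centralizers of involutions
  have primeC : ∀ s : G, orderOf s = 2 → ∀ q : ℕ, q.Prime →
      q ∣ Nat.card (Subgroup.centralizer ({s} : Set G)) → q ^ (Nat.card G).factorization q ∣ d := by
    intro s hs q hq hqC
    by_cases hq2 : q = 2
    · subst hq2; exact h2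
    · have : Fact q.Prime := ⟨hq⟩
      obtain ⟨y, hy⟩ := exists_prime_orderOf_dvd_card' q hqC
      have hy' : orderOf (y : G) = q := by rw [Subgroup.orderOf_coe, hy]
      have hcomm : Commute s (y : G) := by
        have := Subgroup.mem_centralizer_singleton_iff.1 y.2
        exact this.symm
      apply hp q hq hq2
      refine ⟨s * y, ?_⟩
      rw [hcomm.orderOf_mul_eq_mul_orderOf_of_coprime, hs, hy']
      rw [hs, hy']
      exact (Nat.coprime_primes Nat.prime_two hq).2 (Ne.symm hq2)
  have cardC_dvd : ∀ s : G, orderOf s = 2 → Nat.card (Subgroup.centralizer ({s} : Set G)) ∣ d := by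
    intro s hs
    rw [← Nat.factorization_prime_le_iff_dvd Nat.card_pos.ne' hdpos.ne']
    intro q hq
    by_cases hqC : q ∣ Nat.card (Subgroup.centralizer ({s} : Set G))
    · have h3 := primeC s hs q hq hqC
      have h4 := (hq.pow_dvd_iff_le_factorization hdpos.ne').1 h3
      have h5 : (Nat.card (Subgroup.centralizer ({s} : Set G))).factorization q ≤
          (Nat.card G).factorization q :=
        (Nat.factorization_le_iff_dvd Nat.card_pos.ne' hN0).2 (Subgroup.card_subgroup_dvd_card _) q
      exact h5.trans h4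
    · rw [Nat.factorization_eq_zero_of_not_dvd hqC]
      exact Nat.zero_le _
  -- the class of an involution
  have classI : ∀ s : G, orderOf s = 2 →
      Finset.univ.filter (fun y : G => IsConj s y) = I ∧
        Nat.card (Subgroup.centralizer ({s} : Set G)) = d := by
    intro s hs
    have hsub : Finset.univ.filter (fun y : G => IsConj s y) ⊆ I := by
      intro y hy
      simp only [Finset.mem_filter, Finset.mem_univ, true_and, hI] at hy ⊢
      obtain ⟨c, rfl⟩ := isConj_iff.1 hy
      rw [← hs]
      exact (MulAut.conj c).orderOf_eq s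
    have hcard : (Finset.univ.filter (fun y : G => IsConj s y)).card =
        (Subgroup.centralizer ({s} : Set G)).index := by
      rw [← Lib.Helper20.card_isConj_eq_index, Nat.card_eq_fintype_card, Fintype.card_subtype]
    have h3 := Subgroup.card_mul_index (Subgroup.centralizer ({s} : Set G))
    rw [hNtd, ← hcard] at h3
    have h4 := Finset.card_le_card hsub
    have h5 := Nat.le_of_dvd hdpos (cardC_dvd s hs)
    have h6 : Nat.card (Subgroup.centralizer ({s} : Set G)) = d := by
      by_contra hne'
      have h7 : Nat.card (Subgroup.centralizer ({s} : Set G)) < d := lt_of_le_of_ne h5 hne'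
      have h8 : Nat.card (Subgroup.centralizer ({s} : Set G)) *
          (Finset.univ.filter (fun y : G => IsConj s y)).card < d * I.card :=
        Nat.mul_lt_mul_of_lt_of_le h7 h4 hIpos
      rw [h3, mul_comm] at h8
      exact lt_irrefl _ h8
    refine ⟨?_, h6⟩
    apply Finset.eq_of_subset_of_card_le hsub
    rw [h6, mul_comm] at h3
    exact (Nat.eq_of_mul_eq_mul_right hdpos h3).ge
  refine ⟨?_, ?_, hnu⟩
  · intro s t hs ht
    have h3 : t ∈ Finset.univ.filter (fun y : G => IsConj s y) := by
      rw [(classI s hs).1]; simp [hI, ht]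
    simpa using h3
  · intro s hs
    refine ⟨(classI s hs).2, ?_⟩
    apply Nat.coprime_of_dvd
    intro q hq hqC hqi
    have h3 := good q hq (primeC s hs q hq hqC)
    apply h3
    have h4 := Subgroup.card_mul_index (Subgroup.centralizer ({s} : Set G))
    rw [(classI s hs).2, hm] at h4
    rw [← Nat.eq_of_mul_eq_mul_left hdpos h4]
    exact hqi

end Cfsg.Agent.S4478
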