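import Cfsg.Statements.S4479
import Cfsg.Agent.Lib.Helper83.KleinBlock

set_option autoImplicit false
open Cfsg
open Cfsg.Agent.Lib.Helper83

namespace Cfsg.Agent.S4479

/-- An order formula from the principal 2-block. Let G be a finite group of order 4·g₀ with g₀ odd having no normal 2-complement (no normal subgroup of order g₀); let P be a Sylow 2-subgroup, J an involution of P, and fix a maximal ideal M of the algebraic integers containing 2. Suppose the principal 2-block consists of the principal character and three further distinct characters χ₁, χ₂, χ₃ of degrees x₁, x₂, x₃, with χ_i(J) = ε_i = ±1. Then, writing c(J) and c(P) for the orders of the centralizers of J and of P, the order of G equals 8·α·c(J)³/c(P)² with α = x₁x₂x₃ / ((x₁ + ε₁)(x₂ + ε₂)(x₃ + ε₃)). -/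
theorem result {G : Type*} [Group G] [Finite G] (M : Ideal Cfsg.AlgInt) (hM : Cfsg.IsPModular 2 M) (g₀ : ℕ) (hg₀ : Odd g₀) (hG : Nat.card G = 4 * g₀) (hnc : ¬ ∃ N : Subgroup G, N.Normal ∧ Nat.card N = g₀) (P : Sylow 2 G) (J : G) (hJ : J ∈ (P : Subgroup G)) (hJ2 : orderOf J = 2) (χ₁ χ₂ χ₃ : Cfsg.IrrCharacter G) (ε₁ ε₂ ε₃ : ℤ) (hB : Cfsg.principalBlock M G = {χ : Cfsg.IrrCharacter G | (χ : G → ℂ) = (fun _ => 1) ∨ χ = χ₁ ∨ χ = χ₂ ∨ χ = χ₃}) (hdist : (χ₁ : G → ℂ) ≠ (fun _ => 1) ∧ (χ₂ : G → ℂ) ≠ (fun _ => 1) ∧ (χ₃ : G → ℂ) ≠ (fun _ => 1) ∧ χ₁ ≠ χ₂ ∧ χ₁ ≠ χ₃ ∧ χ₂ ≠ χ₃) (hε : (ε₁ = 1 ∨ ε₁ = -1) ∧ (ε₂ = 1 ∨ ε₂ = -1) ∧ (ε₃ = 1 ∨ ε₃ = -1)) (hval : (χ₁ : G → ℂ) J = ε₁ ∧ (χ₂ : G → ℂ) J = ε₂ ∧ (χ₃ : G → ℂ) J = ε₃) : (Nat.card G : ℚ) = 8 * (((Cfsg.charDegree (χ₁ : G → ℂ) : ℚ) * Cfsg.charDegree (χ₂ : G → ℂ) * Cfsg.charDegree (χ₃ :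 G → ℂ)) / ((Cfsg.charDegree (χ₁ : G → ℂ) + ε₁) * (Cfsg.charDegree (χ₂ : G → ℂ) + ε₂) * (Cfsg.charDegree (χ₃ : G → ℂ) + ε₃))) * (Nat.card (Subgroup.centralizer ({J} : Set G)) : ℚ) ^ 3 / (Nat.card (Subgroup.centralizer ((P : Subgroup G) : Set G)) : ℚ) ^ 2 := by
  obtain ⟨R1, R2⟩ := klein_four_relations hM g₀ hg₀ hG hnc P J hJ hJ2 χ₁ χ₂ χ₃ ε₁ ε₂ ε₃ hB hdist
    hε hval
  have hpos : ∀ χ : IrrCharacter G, 0 < charDegree (χ : G → ℂ) :=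
    fun χ => Cfsg.Agent.Lib.Helper82.isIrr_charDegree_pos χ.2
  set x₁ := charDegree (χ₁ : G → ℂ) with hx₁
  set x₂ := charDegree (χ₂ : G → ℂ) with hx₂
  set x₃ := charDegree (χ₃ : G → ℂ) with hx₃
  set cP := Nat.card (Subgroup.centralizer ((P : Subgroup G) : Set G)) with hcP
  set cJ := Nat.card (Subgroup.centralizer ({J} : Set G)) with hcJ
  have h1 : (x₁ : ℚ) ≠ 0 := by exact_mod_cast (hpos χ₁).ne'
  have h2 : (x₂ : ℚ) ≠ 0 := by exact_mod_cast (hpos χ₂).ne'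
  have h3 : (x₃ : ℚ) ≠ 0 := by exact_mod_cast (hpos χ₃).ne'
  have hcP0 : (cP : ℚ) ≠ 0 := by
    have : 0 < cP := Nat.card_pos
    exact_mod_cast this.ne'
  have hcJ0 : (cJ : ℚ) ≠ 0 := by
    have : 0 < cJ := Nat.card_pos
    exact_mod_cast this.ne'
  have R1' : (1 : ℚ) + ε₁ * x₁ + ε₂ * x₂ + ε₃ * x₃ = 0 := by exact_mod_cast R1
  have c1 : (ε₁ : ℚ) * ε₁ = 1 := by rcases hε.1 with h | h <;> rw [h] <;> norm_num
  have c2 : (ε₂ : ℚ) * ε₂ = 1 := by rcases hε.2.1 with h | h <;> rw [h] <;> norm_num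
  have c3 : (ε₃ : ℚ) * ε₃ = 1 := by rcases hε.2.2 with h | h <;> rw [h] <;> norm_num
  have key : (1 + (ε₁ : ℚ) / x₁ + (ε₂ : ℚ) / x₂ + (ε₃ : ℚ) / x₃)
      = (((x₁ : ℚ) + ε₁) * ((x₂ : ℚ) + ε₂) * ((x₃ : ℚ) + ε₃)) / ((x₁ : ℚ) * x₂ * x₃) := by
    field_simp
    have e : (ε₁ : ℚ) * ε₂ * ε₃ * (1 + ε₁ * x₁ + ε₂ * x₂ + ε₃ * x₃)
        = ε₁ * ε₂ * ε₃ + (ε₁ * ε₁) * ε₂ * ε₃ * x₁ + ε₁ * (ε₂ * ε₂) * ε₃ * x₂
          + ε₁ * ε₂ * (ε₃ * ε₃) * x₃ := by ring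
    rw [R1', c1, c2, c3] at e
    linear_combination e
  rw [key] at R2
  have hprod : (((x₁ : ℚ) + ε₁) * ((x₂ : ℚ) + ε₂) * ((x₃ : ℚ) + ε₃)) ≠ 0 := by
    intro h0
    rw [h0] at R2
    simp at R2
    exact hcJ0 (by exact_mod_cast R2)
  have f1 : (x₁ : ℚ) + ε₁ ≠ 0 := left_ne_zero_of_mul (left_ne_zero_of_mul hprod)
  have f2 : (x₂ : ℚ) + ε₂ ≠ 0 := right_ne_zero_of_mul (left_ne_zero_of_mul hprod)
  have f3 : (x₃ : ℚ) + ε₃ ≠ 0 := right_ne_zero_of_mul hprod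
  field_simp
  field_simp at R2
  linear_combination R2

end Cfsg.Agent.S4479
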