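import Cfsg.Statements.S4480
import Cfsg.Agent.Lib.Helper83.KleinFS

set_option autoImplicit false
open Cfsg
open scoped ComplexConjugate
open Cfsg.Agent.Lib.Helper20 Cfsg.Agent.Lib.Helper51 Cfsg.Agent.Lib.Helper78 Cfsg.Agent.Lib.Helper83

namespace Cfsg.Agent.S4480

/-- Same setting as the Klein-four order formula: G of order 4·g₀ (g₀ odd) with no normal 2-complement, P a Sylow 2-subgroup, J an involution of P, M over 2, principal 2-block {1, χ₁, χ₂, χ₃} with χ_i(J) = ε_i = ±1. Suppose ε₁ε₂ε₃ = −1 and ε₃ = −1, and put q = x₃ = χ₃(1). Then there is a natural number m with 4·c(J) = m·c(P)·(q + 1), and the order of G equals (m³·c(P)/4)·(q³ − q)/2, that is 8·#G = m³·c(P)·(q³ − q). -/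
theorem result {G : Type*} [Group G] [Finite G] (M : Ideal Cfsg.AlgInt) (hM : Cfsg.IsPModular 2 M) (g₀ : ℕ) (hg₀ : Odd g₀) (hG : Nat.card G = 4 * g₀) (hnc : ¬ ∃ N : Subgroup G, N.Normal ∧ Nat.card N = g₀) (P : Sylow 2 G) (J : G) (hJ : J ∈ (P : Subgroup G)) (hJ2 : orderOf J = 2) (χ₁ χ₂ χ₃ : Cfsg.IrrCharacter G) (ε₁ ε₂ ε₃ : ℤ) (hB : Cfsg.principalBlock M G = {χ : Cfsg.IrrCharacter G | (χ : G → ℂ) = (fun _ => 1) ∨ χ = χ₁ ∨ χ = χ₂ ∨ χ = χ₃}) (hdist : (χ₁ : G → ℂ) ≠ (fun _ => 1) ∧ (χ₂ : G → ℂ) ≠ (fun _ => 1) ∧ (χ₃ : G → ℂ) ≠ (fun _ => 1) ∧ χ₁ ≠ χ₂ ∧ χ₁ ≠ χ₃ ∧ χ₂ ≠ χ₃) (hε : (ε₁ = 1 ∨ ε₁ = -1) ∧ (ε₂ = 1 ∨ ε₂ = -1) ∧ (ε₃ = 1 ∨ ε₃ = -1)) (hval : (χ₁ : G → ℂ) J = ε₁ ∧ (χ₂ : G → ℂ) J = ε₂ ∧ (χ₃ : G → ℂ) J = ε₃) (hprod : ε₁ * ε₂ * ε₃ = -1) (hε₃ : ε₃ = -1) : ∃ m : ℕ, 4 * Nat.card (Subgroup.centralizer ({J} : Set G)) = m * Nat.card (Subgroup.centralizer ((P : Subgroup G) : Set G)) *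 (Cfsg.charDegree (χ₃ : G → ℂ) + 1) ∧ 8 * Nat.card G = m ^ 3 * Nat.card (Subgroup.centralizer ((P : Subgroup G) : Set G)) * (Cfsg.charDegree (χ₃ : G → ℂ) ^ 3 - Cfsg.charDegree (χ₃ : G → ℂ)) := by
  classical
  have := Fintype.ofFinite G
  have : Finite (IrrCharacter G) := finite_irrCharacter
  have : Fintype (IrrCharacter G) := Fintype.ofFinite _
  obtain ⟨R1, R2⟩ := klein_four_relations hM g₀ hg₀ hG hnc P J hJ hJ2 χ₁ χ₂ χ₃ ε₁ ε₂ ε₃ hB hdist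
    hε hval
  obtain ⟨a₁, a₂, h⟩ := exists_kleinSetting g₀ hg₀ hG hnc P J hJ hJ2
  have hpos : ∀ χ : IrrCharacter G, 0 < charDegree (χ : G → ℂ) :=
    fun χ => Cfsg.Agent.Lib.Helper82.isIrr_charDegree_pos χ.2
  have hd : ∀ χ : IrrCharacter G, (χ : G → ℂ) 1 = (charDegree (χ : G → ℂ) : ℂ) :=
    fun χ => Cfsg.Agent.Lib.Helper82.isChar_one_eq (isCharacter_of_isIrrCharacter χ.2)
  have p1 := hpos χ₁
  have p2 := hpos χ₂
  have p3 := hpos χ₃
  -- the signs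
  have hε12 : ε₁ = 1 ∧ ε₂ = 1 := by
    rw [hε₃] at hprod R1
    rcases hε.1 with r1 | r1 <;> rcases hε.2.1 with r2 | r2 <;> rw [r1, r2] at hprod R1
    · exact ⟨r1, r2⟩
    · norm_num at hprod
    · norm_num at hprod
    · omega
  obtain ⟨r1, r2⟩ := hε12
  subst r1 r2 hε₃
  obtain ⟨v1, v2, v3⟩ := hval
  -- odd degrees
  have hodd : ∀ (χ : IrrCharacter G) (e : ℤ), (e = 1 ∨ e = -1) → (χ : G → ℂ) J = e →
      Odd (charDegree (χ : G → ℂ)) := by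
    intro χ e he hv
    obtain ⟨n, hn⟩ := irr_invol_parity χ hJ2
    rw [hd, hv] at hn
    have hn' : (charDegree (χ : G → ℂ) : ℤ) + e = 2 * (n : ℤ) := by exact_mod_cast hn
    rw [← Nat.not_even_iff_odd, Nat.even_iff]
    rcases he with rfl | rfl <;> omega
  have o1 := hodd χ₁ 1 (Or.inl rfl) v1
  have o2 := hodd χ₂ 1 (Or.inl rfl) v2
  have o3 := hodd χ₃ (-1) (Or.inr rfl) v3
  -- Frobenius-Schur
  have hfs := h.fs_rel hM
  rw [finsum_block_four hB hdist, fsNu_one, v1, v2, v3] at hfs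
  have e1 : (oneIrr G : G → ℂ) J = 1 := rfl
  rw [e1] at hfs
  have hnonreal : ∃ g : G, ((χ₁ : G → ℂ) g).im ≠ 0 := by
    rcases fsNu_of_odd χ₁ o1 with ⟨n1, -⟩ | ⟨-, hh⟩
    · exfalso
      rcases fsNu_of_odd χ₂ o2 with ⟨n2, -⟩ | ⟨n2, -⟩ <;>
        rcases fsNu_of_odd χ₃ o3 with ⟨n3, -⟩ | ⟨n3, -⟩ <;>
        rw [n1, n2, n3] at hfs <;> norm_num at hfs
    · exact hh
  -- the conjugate of χ₁ is χ₂
  have hmem1 : χ₁ ∈ principalBlock M G := by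
    rw [hB]; exact Or.inr (Or.inl rfl)
  have hconj := conjIrr_mem_principalBlock hmem1
  rw [hB] at hconj
  have hc2 : conjIrr χ₁ = χ₂ := by
    rcases hconj with hc | hc | hc | hc
    · exfalso
      apply hdist.1
      funext g
      have := congrFun hc g
      have h2 : conj ((χ₁ : G → ℂ) g) = 1 := this
      have h3 := congrArg conj h2
      rwa [Complex.conj_conj, map_one] at h3
    · exfalso
      obtain ⟨g, hg⟩ := hnonreal
      apply hg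
      have h2 : conj ((χ₁ : G → ℂ) g) = (χ₁ : G → ℂ) g := congrFun (congrArg Subtype.val hc) g
      exact Complex.conj_eq_iff_im.1 h2
    · exact hc
    · exfalso
      have h2 : conj ((χ₁ : G → ℂ) J) = (χ₃ : G → ℂ) J := congrFun (congrArg Subtype.val hc) J
      rw [v1, v3] at h2
      norm_num at h2
  have hx12 : charDegree (χ₂ : G → ℂ) = charDegree (χ₁ : G → ℂ) := by
    have h2 : conj ((χ₁ : G → ℂ) 1) = (χ₂ : G → ℂ) 1 := congrFun (congrArg Subtype.val hc2) 1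
    rw [hd, hd, Complex.conj_natCast] at h2
    exact_mod_cast h2.symm
  set x := charDegree (χ₁ : G → ℂ) with hx
  have hq : charDegree (χ₃ : G → ℂ) = 2 * x + 1 := by
    rw [hx12] at R1
    omega
  rw [hx12, hq] at R2
  rw [hq]
  set cP := Nat.card (Subgroup.centralizer ((P : Subgroup G) : Set G)) with hcP
  set cJ := Nat.card (Subgroup.centralizer ({J} : Set G)) with hcJ
  have hcP0 : 0 < cP := Nat.card_pos
  have hcJ0 : 0 < cJ := Nat.card_pos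
  apply klein_arith (Nat.card G) cJ cP x o1 hcP0 hcJ0
  · apply Subgroup.card_dvd_of_le
    apply Subgroup.centralizer_le
    rw [Set.singleton_subset_iff]
    exact hJ
  · exact Subgroup.card_subgroup_dvd_card _
  · have hx0 : (x : ℚ) ≠ 0 := by exact_mod_cast p1.ne'
    have hq0 : ((2 * x + 1 : ℕ) : ℚ) ≠ 0 := by positivity
    have R3 : (Nat.card G : ℚ) * ((x : ℚ) + 1) ^ 2 * (cP : ℚ) ^ 2
        = 4 * (cJ : ℚ) ^ 3 * x * (2 * x + 1) := by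
      push_cast at R2 hq0
      field_simp at R2
      linear_combination (1 / 2 : ℚ) * R2
    exact_mod_cast R3

end Cfsg.Agent.S4480
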