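import Cfsg.Statements.S4481
import Cfsg.Agent.Lib.Helper25.DihMain

set_option autoImplicit false
open Cfsg

namespace Cfsg.Agent.S4481

/-- The principal 2-block of a group with dihedral Sylow 2-subgroups. Let G be a finite group whose Sylow 2-subgroup P is dihedral of order 2^n ≥ 8, let σ be an element of P of order 2^(n−1), ζ a primitive 2^(n−1)-th root of unity, and M a maximal ideal of the algebraic integers containing 2. Then the principal 2-block consists of exactly 3 + 2^(n−2) irreducible characters, which can be labelled 1, χ₁, χ₂, χ₃ and χ^(j) for 1 ≤ j ≤ 2^(n−2) − 1 (all distinct), with signs δ₁, δ₂, δ₃ such that for 0 < λ < 2^(n−1): χ₁(σ^λ) = δ₁, χ₂(σ^λ) = δ₂(−1)^(λ+1), χ₃(σ^λ) = δ₃(−1)^(λ+1) and χ^(j)(σ^λ) = δ₁(ζ^(jλ) + ζ^(−jλ)); and for every element ρ of odd order and every j: 1 + δ₁χ₁(ρ) = −δ₂χ₂(ρ) − δ₃χ₃(ρ) = δ₁χ^(j)(ρ). -/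
theorem result {G : Type*} [Group G] [Finite G] (M : Ideal Cfsg.AlgInt) (hM : Cfsg.IsPModular 2 M) (n : ℕ) (hn : 3 ≤ n) (P : Sylow 2 G) (hP : Nonempty ((P : Subgroup G) ≃* DihedralGroup (2 ^ (n - 1)))) (σ : G) (hσ : σ ∈ (P : Subgroup G)) (hσo : orderOf σ = 2 ^ (n - 1)) (ζ : ℂ) (hζ : IsPrimitiveRoot ζ (2 ^ (n - 1))) : Nat.card (Cfsg.principalBlock M G) = 3 + 2 ^ (n - 2) ∧ ∃ (χ₁ χ₂ χ₃ : Cfsg.IrrCharacter G) (χ' : Fin (2 ^ (n - 2) - 1) → Cfsg.IrrCharacter G) (δ₁ δ₂ δ₃ : ℤ), (δ₁ = 1 ∨ δ₁ = -1) ∧ (δ₂ = 1 ∨ δ₂ = -1) ∧ (δ₃ = 1 ∨ δ₃ = -1) ∧ Function.Injective χ' ∧ (χ₁ : G → ℂ) ≠ (fun _ => 1) ∧ (χ₂ : G → ℂ) ≠ (fun _ => 1) ∧ (χ₃ : G → ℂ) ≠ (fun _ => 1) ∧ χ₁ ≠ χ₂ ∧ χ₁ ≠ χ₃ ∧ χ₂ ≠ χ₃ ∧ (∀ j, χ' j ≠ χ₁ ∧ χ' j ≠ χ₂ ∧ χ' j ≠ χ₃ ∧ (χ' j : G → ℂ) ≠ (fun _ => 1)) ∧ Cfsg.principalBlock M G = {χ : Cfsg.IrrCharacter G | (χ : G → ℂ) = (fun _ => 1) ∨ χ = χ₁ ∨ χ = χ₂ ∨ χ = χ₃ ∨ ∃ j, χ = χ' j}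 ∧ (∀ l : ℕ, 0 < l → l < 2 ^ (n - 1) → (χ₁ : G → ℂ) (σ ^ l) = δ₁ ∧ (χ₂ : G → ℂ) (σ ^ l) = δ₂ * (-1) ^ (l + 1) ∧ (χ₃ : G → ℂ) (σ ^ l) = δ₃ * (-1) ^ (l + 1) ∧ ∀ j : Fin (2 ^ (n - 2) - 1), (χ' j : G → ℂ) (σ ^ l) = δ₁ * (ζ ^ (((j : ℕ) + 1) * l) + (ζ ^ (((j : ℕ) + 1) * l))⁻¹)) ∧ ∀ ρ : G, Odd (orderOf ρ) → ∀ j : Fin (2 ^ (n - 2) - 1), 1 + δ₁ * (χ₁ : G → ℂ) ρ = -δ₂ * (χ₂ : G → ℂ) ρ - δ₃ * (χ₃ : G → ℂ) ρ ∧ 1 + δ₁ * (χ₁ : G → ℂ) ρ = δ₁ * (χ' j : G → ℂ) ρ := by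
  classical
  obtain ⟨e⟩ := hP
  have h3 : 3 ≤ 2 ^ (n - 1) := by
    calc 3 ≤ 2 ^ 2 := by norm_num
      _ ≤ 2 ^ (n - 1) := Nat.pow_le_pow_right (by norm_num) (by omega)
  obtain ⟨τ, D⟩ := Cfsg.Agent.Lib.Helper25.exists_dih (P : Subgroup G) P.2 (2 ^ (n - 1)) h3 e hσ hσo
  obtain ⟨x1, x2, x3, y, d1, d2, d3, hd1, hd2, hd3, t1, t2, t3, h12, h13, h23, hy, hyinj, hmem,
    hval, hodd⟩ := Cfsg.Agent.Lib.Helper25.dih_block hM hn ⟨e⟩ D hζ
  have htriv : ∀ χ : Cfsg.IrrCharacter G,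
      (χ : G → ℂ) = (fun _ => 1) ↔ χ = Cfsg.Agent.Lib.Helper80.trivIrr G := by
    intro χ
    constructor
    · intro h; exact Subtype.ext h
    · intro h; rw [h]; rfl
  have hpos : 0 < 2 ^ (n - 2) := by positivity
  obtain ⟨χ', hχ'⟩ : ∃ χ' : Fin (2 ^ (n - 2) - 1) → Cfsg.IrrCharacter G,
      χ' = fun (j : Fin (2 ^ (n - 2) - 1)) => y ((j : ℕ) + 1) := ⟨_, rfl⟩
  have hχ'j : ∀ j, χ' j = y ((j : ℕ) + 1) := by intro j; rw [hχ']
  have hjr : ∀ j : Fin (2 ^ (n - 2) - 1), (j : ℕ) + 1 < 2 ^ (n - 2) := by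
    intro j; have := j.2; omega
  have hinj : Function.Injective χ' := by
    intro i j hij
    rw [hχ'j, hχ'j] at hij
    have := hyinj _ _ (Nat.succ_pos _) (hjr i) (Nat.succ_pos _) (hjr j) hij
    exact Fin.ext (by omega)
  have hset : Cfsg.principalBlock M G = {χ : Cfsg.IrrCharacter G | (χ : G → ℂ) = (fun _ => 1) ∨
      χ = x1 ∨ χ = x2 ∨ χ = x3 ∨ ∃ j, χ = χ' j} := by
    ext χ
    rw [hmem χ, Set.mem_ofPred_eq, htriv]
    constructor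
    · rintro (h | h | h | h | ⟨j, hj, hj2, h⟩)
      · exact Or.inl h
      · exact Or.inr (Or.inl h)
      · exact Or.inr (Or.inr (Or.inl h))
      · exact Or.inr (Or.inr (Or.inr (Or.inl h)))
      · refine Or.inr (Or.inr (Or.inr (Or.inr ⟨⟨j - 1, by omega⟩, ?_⟩)))
        rw [hχ'j, h]
        congr 1
        show j = j - 1 + 1
        omega
    · rintro (h | h | h | h | ⟨j, h⟩)
      · exact Or.inl h
      · exact Or.inr (Or.inl h)
      · exact Or.inr (Or.inr (Or.inl h))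
      · exact Or.inr (Or.inr (Or.inr (Or.inl h)))
      · exact Or.inr (Or.inr (Or.inr (Or.inr ⟨(j : ℕ) + 1, Nat.succ_pos _, hjr j, by rw [h, hχ'j]⟩)))
  have hyj : ∀ j, χ' j ≠ Cfsg.Agent.Lib.Helper80.trivIrr G ∧ χ' j ≠ x1 ∧ χ' j ≠ x2 ∧ χ' j ≠ x3 := by
    intro j; rw [hχ'j]; exact hy _ (Nat.succ_pos _) (hjr j)
  refine ⟨?_, x1, x2, x3, χ', d1, d2, d3, hd1, hd2, hd3, hinj, fun h => t1 ((htriv _).1 h),
    fun h => t2 ((htriv _).1 h), fun h => t3 ((htriv _).1 h), h12, h13, h23, ?_, hset, ?_, ?_⟩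
  · have hF : Cfsg.principalBlock M G = ((insert (Cfsg.Agent.Lib.Helper80.trivIrr G) (insert x1
        (insert x2 (insert x3 (Finset.univ.image χ')))) : Finset (Cfsg.IrrCharacter G)) :
          Set (Cfsg.IrrCharacter G)) := by
      rw [hset]
      ext χ
      simp only [Set.mem_ofPred_eq, htriv, Finset.coe_insert, Finset.coe_image, Finset.coe_univ,
        Set.image_univ, Set.mem_insert_iff, Set.mem_range]
      constructor
      · rintro (h | h | h | h | ⟨j, h⟩)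
        · exact Or.inl h
        · exact Or.inr (Or.inl h)
        · exact Or.inr (Or.inr (Or.inl h))
        · exact Or.inr (Or.inr (Or.inr (Or.inl h)))
        · exact Or.inr (Or.inr (Or.inr (Or.inr ⟨j, h.symm⟩)))
      · rintro (h | h | h | h | ⟨j, h⟩)
        · exact Or.inl h
        · exact Or.inr (Or.inl h)
        · exact Or.inr (Or.inr (Or.inl h))
        · exact Or.inr (Or.inr (Or.inr (Or.inl h)))
        · exact Or.inr (Or.inr (Or.inr (Or.inr ⟨j, h.symm⟩)))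
    rw [Nat.card_coe_set_eq, hF, Set.ncard_coe_finset]
    have n3 : x3 ∉ Finset.univ.image χ' := by
      intro h
      obtain ⟨j, -, hj⟩ := Finset.mem_image.1 h
      exact (hyj j).2.2.2 hj
    have n2 : x2 ∉ insert x3 (Finset.univ.image χ') := by
      intro h
      rcases Finset.mem_insert.1 h with h | h
      · exact h23 h
      · obtain ⟨j, -, hj⟩ := Finset.mem_image.1 h
        exact (hyj j).2.2.1 hj
    have n1 : x1 ∉ insert x2 (insert x3 (Finset.univ.image χ')) := by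
      intro h
      rcases Finset.mem_insert.1 h with h | h
      · exact h12 h
      rcases Finset.mem_insert.1 h with h | h
      · exact h13 h
      · obtain ⟨j, -, hj⟩ := Finset.mem_image.1 h
        exact (hyj j).2.1 hj
    have n0 : Cfsg.Agent.Lib.Helper80.trivIrr G ∉
        insert x1 (insert x2 (insert x3 (Finset.univ.image χ'))) := by
      intro h
      rcases Finset.mem_insert.1 h with h | h
      · exact t1 h.symm
      rcases Finset.mem_insert.1 h with h | h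
      · exact t2 h.symm
      rcases Finset.mem_insert.1 h with h | h
      · exact t3 h.symm
      · obtain ⟨j, -, hj⟩ := Finset.mem_image.1 h
        exact (hyj j).1 hj
    rw [Finset.card_insert_of_notMem n0, Finset.card_insert_of_notMem n1,
      Finset.card_insert_of_notMem n2, Finset.card_insert_of_notMem n3,
      Finset.card_image_of_injective _ hinj, Finset.card_univ, Fintype.card_fin]
    omega
  · intro j
    exact ⟨(hyj j).2.1, (hyj j).2.2.1, (hyj j).2.2.2, fun h => (hyj j).1 ((htriv _).1 h)⟩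
  · intro l hl hlN
    obtain ⟨v1, v2, v3, v4⟩ := hval l hl hlN
    refine ⟨v1, v2, v3, fun j => ?_⟩
    rw [hχ'j]
    exact v4 _ (Nat.succ_pos _) (hjr j)
  · intro ρ hρ j
    obtain ⟨r1, r2⟩ := hodd ρ hρ
    have r3 := r2 _ (Nat.succ_pos _) (hjr j)
    rw [hχ'j]
    constructor
    · linear_combination r1
    · linear_combination r3

end Cfsg.Agent.S4481
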