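import Cfsg.Statements.S4483
import Cfsg.Agent.Lib.Helper78.OddInd

set_option autoImplicit false
open Cfsg
open scoped ComplexConjugate
open Cfsg.Agent.Lib.Helper20 Cfsg.Agent.Lib.Helper81 Cfsg.Agent.Lib.Helper78

namespace Cfsg.Agent.S4483

/-- Let G be a finite group of order 2^n·g₀ with g₀ odd, and M a maximal ideal of the algebraic integers containing 2. Every real-valued irreducible character of G of odd degree lies in the principal 2-block; consequently G has at most 2^(2n) real-valued irreducible characters of odd degree. -/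
theorem result {G : Type*} [Group G] [Finite G] (M : Ideal Cfsg.AlgInt) (hM : Cfsg.IsPModular 2 M) : (∀ χ : Cfsg.IrrCharacter G, (∀ g : G, ((χ : G → ℂ) g).im = 0) → Odd (Cfsg.charDegree (χ : G → ℂ)) → χ ∈ Cfsg.principalBlock M G) ∧ Nat.card {χ : Cfsg.IrrCharacter G // (∀ g : G, ((χ : G → ℂ) g).im = 0) ∧ Odd (Cfsg.charDegree (χ : G → ℂ))} ≤ 2 ^ (2 * (Nat.card G).factorization 2) := by
  classical
  have : Fintype G := Fintype.ofFinite G
  have : Finite (IrrCharacter G) := Cfsg.Agent.Lib.Helper20.finite_irrCharacter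
  have : Fintype (IrrCharacter G) := Fintype.ofFinite _
  have part1 : ∀ χ : Cfsg.IrrCharacter G, (∀ g : G, ((χ : G → ℂ) g).im = 0) →
      Odd (Cfsg.charDegree (χ : G → ℂ)) → χ ∈ Cfsg.principalBlock M G := by
    intro χ hreal hodd
    have hBc : ∀ ψ, ψ ∈ blockOf M (χ : G → ℂ) → conjIrr ψ ∈ blockOf M (χ : G → ℂ) := by
      intro ψ hψ
      have h1 : SameBlock M (χ : G → ℂ) (ψ : G → ℂ) := hψ
      have h2 := sameBlock_conjIrr h1
      rw [(conjIrr_eq_iff χ).2 hreal] at h2
      exact h2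
    have h1 := trivIrr_mem_of_self_conj hM _ ⟨χ, rfl⟩ hBc χ (mem_blockOf_self hM χ) hodd
    have h2 : SameBlock M (χ : G → ℂ) (Cfsg.Agent.Lib.Helper82.trivIrr G : G → ℂ) := h1
    exact sameBlock_symm h2
  refine ⟨part1, ?_⟩
  set n := (Nat.card G).factorization 2 with hn
  have hex : ∀ χ : IrrCharacter G, ∃ k : ℤ, (2 : ℂ) ^ n * classInner oddInd (χ : G → ℂ) = k :=
    fun χ => exists_int_alpha _ (isCharacter_of_isIrrCharacter χ.2)
  choose k hk using hex
  set c := (Finset.univ.filter (fun g : G => ¬ 2 ∣ orderOf g)).card with hc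
  have hcle : c ≤ Nat.card G := by
    rw [Nat.card_eq_fintype_card]; exact Finset.card_le_univ _
  have hG : (Nat.card G : ℂ) ≠ 0 := Cfsg.Agent.Lib.Helper20.card_ne_zero_complex
  have hsumC : (Nat.card G : ℂ) * ∑ χ : IrrCharacter G, ((k χ : ℤ) : ℂ) ^ 2 = (4 : ℂ) ^ n * c := by
    have h1 := sum_classInner_oddInd_sq (G := G)
    rw [classInner_oddInd_self] at h1
    have h2 : ∀ χ : IrrCharacter G, ((k χ : ℤ) : ℂ) ^ 2 = (4 : ℂ) ^ n *
        (classInner oddInd (χ : G → ℂ) * conj (classInner oddInd (χ : G → ℂ))) := by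
      intro χ
      have h3 : conj ((k χ : ℤ) : ℂ) = ((k χ : ℤ) : ℂ) := map_intCast _ _
      have h4 : ((k χ : ℤ) : ℂ) ^ 2 = ((k χ : ℤ) : ℂ) * conj ((k χ : ℤ) : ℂ) := by rw [h3, pow_two]
      rw [h4, ← hk χ, map_mul, map_pow]
      have h5 : conj (2 : ℂ) = 2 := Complex.conj_ofNat 2
      rw [h5, show (4 : ℂ) = 2 * 2 by norm_num, mul_pow]
      ring
    rw [Finset.sum_congr rfl (fun χ _ => h2 χ), ← Finset.mul_sum, h1]
    field_simp
    congr 2
  have hsumZ : (Nat.card G : ℤ) * ∑ χ : IrrCharacter G, (k χ) ^ 2 = 4 ^ n * (c : ℤ) := by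
    exact_mod_cast hsumC
  have hle : ∑ χ : IrrCharacter G, (k χ) ^ 2 ≤ 4 ^ n := by
    have hGpos : (0 : ℤ) < (Nat.card G : ℤ) := by exact_mod_cast Nat.card_pos
    have h1 : (Nat.card G : ℤ) * ∑ χ : IrrCharacter G, (k χ) ^ 2 ≤ (Nat.card G : ℤ) * 4 ^ n := by
      rw [hsumZ, mul_comm]
      apply mul_le_mul_of_nonneg_right _ (by positivity)
      exact_mod_cast hcle
    exact le_of_mul_le_mul_left h1 hGpos
  set P : IrrCharacter G → Prop := fun χ => (∀ g : G, ((χ : G → ℂ) g).im = 0) ∧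
    Odd (Cfsg.charDegree (χ : G → ℂ)) with hP
  have hcard : (Nat.card {χ : IrrCharacter G // P χ} : ℤ) ≤ ∑ χ : IrrCharacter G, (k χ) ^ 2 := by
    rw [Nat.card_eq_fintype_card, Fintype.card_subtype, Finset.card_eq_sum_ones]
    push_cast
    calc ∑ χ ∈ Finset.univ.filter P, (1 : ℤ) ≤ ∑ χ ∈ Finset.univ.filter P, (k χ) ^ 2 := by
          apply Finset.sum_le_sum
          intro χ hχ
          have hχP := (Finset.mem_filter.1 hχ).2
          have hne : k χ ≠ 0 := by
            intro h0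
            have h1 := hk χ
            rw [h0, Int.cast_zero] at h1
            rcases mul_eq_zero.1 h1 with h | h
            · exact absurd h (pow_ne_zero _ two_ne_zero)
            · exact classInner_oddInd_ne_zero hM χ (part1 χ hχP.1 hχP.2) h
          have : 0 < (k χ) ^ 2 := by positivity
          omega
      _ ≤ ∑ χ : IrrCharacter G, (k χ) ^ 2 := by
          apply Finset.sum_le_sum_of_subset_of_nonneg (Finset.filter_subset _ _)
          intro χ _ _
          positivity
  have hfin : (Nat.card {χ : IrrCharacter G // P χ} : ℤ) ≤ ((2 ^ (2 * n) : ℕ) : ℤ) := by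
    refine (hcard.trans hle).trans (le_of_eq ?_)
    push_cast
    rw [pow_mul]; norm_num
  exact_mod_cast hfin

end Cfsg.Agent.S4483
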