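import Cfsg.Statements.S4487
import Cfsg.Agent.Lib.Helper78.NilClass
import Cfsg.Agent.Lib.Helper80.Cores

set_option autoImplicit false
open Cfsg
open scoped ComplexConjugate
open Cfsg.Agent.Lib.Helper20 Cfsg.Agent.Lib.Helper81 Cfsg.Agent.Lib.Helper78

namespace Cfsg.Agent.S4487

/-- Let G be a finite group and p a prime such that G has no non-trivial normal subgroup of order prime to p and C_G(O_p(G)) ≤ O_p(G). Then G has a single p-block: any two irreducible characters lie in the same block relative to every maximal ideal M of the algebraic integers containing p. -/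
theorem result {G : Type*} [Group G] [Finite G] (p : ℕ) [Fact p.Prime] (M : Ideal Cfsg.AlgInt) (hM : Cfsg.IsPModular p M) (hcore : Cfsg.pPrimeCore p G = ⊥) (hconstr : Subgroup.centralizer ((Cfsg.pCore p G) : Set G) ≤ Cfsg.pCore p G) (χ ψ : Cfsg.IrrCharacter G) : Cfsg.SameBlock M (χ : G → ℂ) (ψ : G → ℂ) := by
  classical
  have : Fintype G := Fintype.ofFinite G
  obtain ⟨hn, hp⟩ := Cfsg.Agent.Lib.Helper80.pCore_spec (G := G) p
  have key : ∀ (θ : IrrCharacter G) (g : G), ¬ p ∣ orderOf g → g ≠ 1 →
      MemLocalIdeal M (centralChar (θ : G → ℂ) g) := by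
    intro θ g hg hg1
    apply centralChar_memLocalIdeal_of_not_centralizing hM (pCore p G) hp g _ θ
    intro x hx hxc
    have hxP := hconstr hxc
    obtain ⟨k, hk⟩ := hp ⟨x, hxP⟩
    have hk' : x ^ p ^ k = 1 := by
      have := congrArg Subtype.val hk
      simpa using this
    obtain ⟨c, hc⟩ := isConj_iff.1 hx
    have hord : orderOf x = orderOf g := by
      rw [← hc]; exact (MulAut.conj c).orderOf_eq g
    have hdvd : orderOf g ∣ p ^ k := by rw [← hord]; exact orderOf_dvd_of_pow_eq_one hk'
    obtain ⟨j, _, hj⟩ := (Nat.dvd_prime_pow Fact.out).1 hdvd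
    rcases Nat.eq_zero_or_pos j with rfl | hjpos
    · rw [pow_zero, orderOf_eq_one_iff] at hj
      exact hg1 hj
    · apply hg
      rw [hj]
      exact dvd_pow_self p hjpos.ne'
  set B := blockOf M (χ : G → ℂ) with hBdef
  have hB : IsPBlock M B := ⟨χ, rfl⟩
  have hχB : χ ∈ B := mem_blockOf_self hM χ
  set z : G → ℂ := blockCoeff B with hz
  set z' : G → ℂ := fun g => if g = 1 then 0 else z g with hz'
  have hz'cl : IsClassFunction G z' := by
    intro x h
    have h1 : h * x * h⁻¹ = 1 ↔ x = 1 := by
      constructor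
      · intro h1
        have : x = h⁻¹ * (h * x * h⁻¹) * h := by group
        rw [this, h1]; group
      · rintro rfl; group
    simp only [hz', h1]
    rw [show z (h * x * h⁻¹) = z x from blockCoeff_classFunction B x h]
  have h2 : ∀ θ : IrrCharacter G, MemLocalIdeal M (omega (θ : G → ℂ) z - z 1) := by
    intro θ
    have h10 := irr_one_ne_zero θ.2
    have h3 : omega (θ : G → ℂ) z - z 1 = omega (θ : G → ℂ) z' := by
      simp only [omega]
      rw [← Finset.add_sum_erase _ _ (Finset.mem_univ (1 : G)),
        ← Finset.add_sum_erase _ (fun g => z' g * (θ : G → ℂ) g / (θ : G → ℂ) 1)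
          (Finset.mem_univ (1 : G))]
      have h4 : ∀ g ∈ Finset.univ.erase (1 : G), z' g * (θ : G → ℂ) g / (θ : G → ℂ) 1
          = z g * (θ : G → ℂ) g / (θ : G → ℂ) 1 := by
        intro g hg
        simp only [hz', if_neg (Finset.ne_of_mem_erase hg)]
      rw [Finset.sum_congr rfl h4]
      simp only [hz', if_pos]
      field_simp
      ring
    rw [h3, omega_eq_sum_classes (irr_classFunction θ) hz'cl]
    apply memLocalIdeal_sum hM
    intro C _
    set g := Quotient.out C with hg
    by_cases hg1 : g = 1
    · simp only [hz', if_pos hg1, zero_mul]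
      exact memLocalIdeal_zero hM
    · simp only [hz', if_neg hg1]
      by_cases hgp : p ∣ orderOf g
      · have : z g = 0 := by
          have h5 := (bS_regular_singular hM B hB (x := 1) (y := g) (by
            rw [orderOf_one]; exact (Fact.out : p.Prime).one_lt.ne' ∘ Nat.dvd_one.1) hgp).1
          simp only [hz, blockCoeff]
          rw [bS] at h5
          rw [h5, mul_zero]
        rw [this, zero_mul]
        exact memLocalIdeal_zero hM
      · exact memLocalIdeal_mul_left hM (osima hM B hB g) (key θ g hgp hg1)
  show ψ ∈ B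
  by_contra hψ
  have h3 := h2 χ
  have h4 := h2 ψ
  rw [hz, omega_blockCoeff, if_pos hχB] at h3
  rw [hz, omega_blockCoeff, if_neg hψ] at h4
  have := memLocalIdeal_sub hM h3 h4
  apply not_memLocalIdeal_one hM
  convert this using 1
  ring

end Cfsg.Agent.S4487
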