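import Cfsg.Statements.S4489
import Cfsg.Agent.Lib.Helper84.PowOrb2
-- import your own Cfsg.Agent.* helpers here

set_option autoImplicit false
open Cfsg
open Cfsg.Agent.Lib.Helper84 Cfsg.Agent.Lib.Helper82 Cfsg.Agent.Lib.Helper5 Cfsg.Agent.Lib.Helper19

namespace Cfsg.Agent.S4489

universe u

theorem deg_eq {G : Type*} [Group G] [Finite G] {χ : G → ℂ} (hχ : IsCharacter G χ) {d : ℕ}
    (h : χ 1 = d) : charDegree χ = d := by
  have := isChar_one_eq hχ
  rw [h] at this
  exact_mod_cast this.symm

theorem arithA {q e t a a' : ℕ} (h1 : a ≤ a' * (q + 1) + 1)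
    (ih : q * a' ≤ e + q * (t + 1) * (e + 1)) :
    q * a ≤ ((q + 1) * (e + 1) - 1) + q * (t + 1) * ((q + 1) * (e + 1)) := by
  have h5 : (q + 1) * (e + 1) - 1 = (q + 1) * e + q := by
    apply Nat.sub_eq_of_eq_add
    ring
  rw [h5]
  have h2 : q * a ≤ q * (a' * (q + 1) + 1) := Nat.mul_le_mul_left _ h1
  have h4 : (q + 1) * (q * a') ≤ (q + 1) * (e + q * (t + 1) * (e + 1)) := Nat.mul_le_mul_left _ ih
  nlinarith

theorem arithB {q e t a : ℕ} (hq : 1 ≤ q) (ha : 0 < a)
    (ih : q * (a - 1) ≤ e + q * (t + 1 + 1) * (e + 1)) :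
    q * a ≤ ((q + 1) * (e + 1) - 1) + q * (t + 1) * ((q + 1) * (e + 1)) := by
  have h5 : (q + 1) * (e + 1) - 1 = (q + 1) * e + q := by
    apply Nat.sub_eq_of_eq_add
    ring
  rw [h5]
  obtain ⟨b, rfl⟩ : ∃ b, a = b + 1 := ⟨a - 1, by omega⟩
  simp only [Nat.add_sub_cancel] at ih
  have h6 : q * (t + 1) * (e + 1) ≤ q * (q * (t + 1) * (e + 1)) := Nat.le_mul_of_pos_left _ hq
  have h7 := Nat.zero_le (q * t * e)
  have h8 := Nat.zero_le (q * t)
  have h9 := Nat.zero_le (q * e)
  nlinarith

theorem arithT {q e t : ℕ} :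
    q * 1 ≤ ((q + 1) * (e + 1) - 1) + q * (t + 1) * ((q + 1) * (e + 1)) := by
  have h5 : (q + 1) * (e + 1) - 1 = (q + 1) * e + q := by
    apply Nat.sub_eq_of_eq_add
    ring
  rw [h5]
  nlinarith [Nat.zero_le ((q + 1) * e), Nat.zero_le (q * (t + 1) * ((q + 1) * (e + 1)))]

theorem main (p : ℕ) (hp : p.Prime) : ∀ (a : ℕ) (P : Type u) [Group P] [Finite P],
    Nat.card P = p ^ a → 0 < a →
    ∀ (χ : P → ℂ), IsIrrCharacter P χ → (∀ g, χ g = χ 1 → g = 1) → ∀ t : ℕ,
      (Orb p χ).ncard ≤ (p - 1) * p ^ t →
      (p - 1) * a ≤ (charDegree χ - 1) + (p - 1) * (t + 1) * charDegree χ := by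
  intro a
  induction a using Nat.strong_induction_on with
  | _ a ih =>
    intro P _ _ hP ha χ hχ hf t ht
    classical
    have := Fintype.ofFinite P
    have hpg : IsPGroup p P := IsPGroup.of_card hP
    have hχc := isIrr_isChar hχ
    by_cases h1 : χ 1 = 1
    · have hd : charDegree χ = 1 := deg_eq hχc (by rw [h1]; simp)
      have h2 := le_ncard_Orb_of_linear hp ha hP hχc h1 hf
      have h3 : p ^ (a - 1) * (p - 1) ≤ (p - 1) * p ^ t := h2.trans ht
      have h4 : p ^ (a - 1) ≤ p ^ t := by
        rw [mul_comm] at h3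
        exact Nat.le_of_mul_le_mul_left h3 (by have := hp.two_le; omega)
      have h5 : a - 1 ≤ t := (Nat.pow_le_pow_iff_right hp.one_lt).mp h4
      rw [hd]
      have h6 : a ≤ t + 1 := by omega
      calc (p - 1) * a ≤ (p - 1) * (t + 1) := Nat.mul_le_mul_left _ h6
        _ ≤ _ := by simp
    · obtain ⟨H, ψ, hHn, hHco, hidx, hψ, hind⟩ := exists_index_p_induced hp hP hχ h1
      have hψc := isIrr_isChar hψ
      have hcardH : Nat.card H = p ^ (a - 1) := by
        have h2 := H.card_mul_index
        rw [hidx, hP] at h2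
        obtain ⟨b, rfl⟩ : ∃ b, a = b + 1 := ⟨a - 1, by omega⟩
        rw [pow_succ] at h2
        simpa using Nat.eq_of_mul_eq_mul_right hp.pos h2
      have hpgH : IsPGroup p H := IsPGroup.of_card hcardH
      have hdeg : charDegree χ = p * charDegree ψ := by
        rw [← hind, charDegree_indFun H hψc, hidx]
      have hf'pos : 0 < charDegree ψ := by
        rcases Nat.eq_zero_or_pos (charDegree ψ) with h0 | h0
        · exfalso
          have h2 := isChar_one_eq hψc
          rw [h0] at h2
          exact isIrr_one_ne_zero hψ (by simpa using h2)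
        · exact h0
      obtain ⟨e, he⟩ : ∃ e, charDegree ψ = e + 1 := ⟨charDegree ψ - 1, by omega⟩
      obtain ⟨q, hq⟩ : ∃ q, p = q + 1 := ⟨p - 1, by have := hp.two_le; omega⟩
      have hq1 : 1 ≤ q := by have := hp.two_le; omega
      have hpq : p - 1 = q := by omega
      have hf2 : ∀ g, indFun H ψ g = indFun H ψ 1 → g = 1 := by rw [hind]; exact hf
      set K' : Subgroup H := charKer ψ hψc with hK'
      set K : Subgroup P := K'.map H.subtype with hK
      have hKmem : ∀ g : P, g ∈ K ↔ ∃ hg : g ∈ H, ψ ⟨g, hg⟩ = ψ 1 := by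
        intro g
        rw [hK, Subgroup.mem_map]
        constructor
        · rintro ⟨x, hx, rfl⟩
          exact ⟨x.2, hx⟩
        · rintro ⟨hg, h⟩
          exact ⟨⟨g, hg⟩, h, rfl⟩
      have hcore : ∀ g, (∀ x : P, x⁻¹ * g * x ∈ K) → g = 1 := fun g hg =>
        eq_one_of_forall_conj_mem_ker H hf2 g (fun x => (hKmem _).mp (hg x))
      have hHK : ∀ h ∈ H, ∀ k ∈ K, h⁻¹ * k * h ∈ K := by
        intro h hh k hk
        obtain ⟨hk1, hk2⟩ := (hKmem k).mp hk
        rw [hKmem]
        refine ⟨H.mul_mem (H.mul_mem (H.inv_mem hh) hk1) hh, ?_⟩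
        have h3 : (⟨h, hh⟩ : H)⁻¹ * ⟨k, hk1⟩ * (⟨h, hh⟩ : H)⁻¹⁻¹ ∈ K' :=
          (charKer_normal ψ hψc).conj_mem _ hk2 _
        rw [inv_inv] at h3
        exact h3
      have hidxbound := card_le_relIndex_pow H K hHK hcore
      have hrel : K.relIndex H = K'.index := by
        rw [Subgroup.relIndex, hK, Subgroup.subgroupOf,
          Subgroup.comap_map_eq_self_of_injective H.subtype_injective]
      have hmaps : ∀ φ ∈ Orb p ψ, indFun H φ ∈ Orb p χ := by
        rintro φ ⟨k, hk, rfl⟩
        exact ⟨k, hk, by rw [indFun_pw hpg H ψ hk, hind]⟩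
      have hirrO : ∀ φ ∈ Orb p ψ, IsIrrCharacter H φ := by
        rintro φ ⟨k, hk, rfl⟩
        exact Cfsg.Agent.Lib.Helper79.IsIrrCharacter.pow_coprime hψ k
          (by rw [hcardH]; exact hk.pow_right _)
      have hirrI : ∀ φ ∈ Orb p ψ, IsIrrCharacter P (indFun H φ) := by
        rintro φ ⟨k, hk, rfl⟩
        rw [indFun_pw hpg H ψ hk, hind]
        exact Cfsg.Agent.Lib.Helper79.IsIrrCharacter.pow_coprime hχ k
          (by rw [hP]; exact hk.pow_right _)
      rw [hdeg, he, hpq, hq]
      by_cases hinj : Set.InjOn (indFun H) (Orb p ψ)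
      · -- case A
        have hle : (Orb p ψ).ncard ≤ (Orb p χ).ncard :=
          Set.ncard_le_ncard_of_injOn _ hmaps hinj (Orb_finite p χ)
        obtain ⟨ψb, hψb, hψbv⟩ := isIrr_deflate hψ K' (fun x hx => hx)
        have hdvd : K'.index ∣ p ^ (a - 1) := by rw [← hcardH]; exact K'.index_dvd_card
        obtain ⟨a', ha'le, ha'⟩ := (Nat.dvd_prime_pow hp).mp hdvd
        rw [hrel, ha', hcardH, hidx, ← pow_mul] at hidxbound
        have hb : a - 1 ≤ a' * p := (Nat.pow_le_pow_iff_right hp.one_lt).mp hidxbound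
        rcases Nat.eq_zero_or_pos a' with h0 | h0
        · have : a = 1 := by rw [h0] at hb; omega
          rw [this]
          exact arithT
        · have hcardQ : Nat.card (H ⧸ K') = p ^ a' := ha'
          have hfb : ∀ g, ψb g = ψb 1 → g = 1 := by
            intro g hg
            obtain ⟨h, rfl⟩ := QuotientGroup.mk_surjective g
            have e1 : ψb 1 = ψ 1 := hψbv 1
            rw [hψbv, e1] at hg
            exact (QuotientGroup.eq_one_iff h).mpr hg
          have hOb : (Orb p ψb).ncard ≤ (Orb p ψ).ncard := by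
            apply Set.ncard_le_ncard_of_injOn (fun φ : H ⧸ K' → ℂ => fun h : H => φ (h : H ⧸ K')) _ _
              (Orb_finite p ψ)
            · rintro φ ⟨k, hk, rfl⟩
              refine ⟨k, hk, ?_⟩
              funext h
              show ψb ((h : H ⧸ K') ^ k) = ψ (h ^ k)
              rw [← hψbv]
              rfl
            · intro φ _ φ' _ hh
              funext g
              obtain ⟨h, rfl⟩ := QuotientGroup.mk_surjective g
              exact congrFun hh h
          have hdb : charDegree ψb = e + 1 := by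
            rw [← he]
            apply deg_eq (isIrr_isChar hψb)
            have e1 : ψb 1 = ψ 1 := hψbv 1
            rw [e1, isChar_one_eq hψc]
          have hih := ih a' (by omega) (H ⧸ K') hcardQ h0 ψb hψb hfb t ((hOb.trans hle).trans ht)
          rw [hdb, hpq] at hih
          simp only [Nat.add_sub_cancel] at hih
          apply arithA _ hih
          rw [hq] at hb
          omega
      · -- case B
        have hinj' : ∃ φ₁ ∈ Orb p ψ, ∃ φ₂ ∈ Orb p ψ, indFun H φ₁ = indFun H φ₂ ∧ φ₁ ≠ φ₂ := by
          by_contra hcon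
          apply hinj
          intro φ₁ h₁ φ₂ h₂ h12
          by_contra hne
          exact hcon ⟨φ₁, h₁, φ₂, h₂, h12, hne⟩
        obtain ⟨φ₁, h₁, φ₂, h₂, h12, hne⟩ := hinj'
        obtain ⟨y, hy⟩ := exists_conj_of_ind_eq hHn (hirrO φ₁ h₁) (hirrO φ₂ h₂) (hirrI φ₁ h₁) h12
        have hcl : ∀ φ ∈ Orb p ψ, IsClassFunction H φ := fun φ hφ =>
          isChar_isClassFunction (isIrr_isChar (hirrO φ hφ))
        have hyH : y ∉ H := by
          intro hyH
          apply hne
          have := cjF_mul_mem hHn (hcl φ₁ h₁) 1 y hyH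
          rw [mul_one, cjF_one] at this
          rw [hy, this]
        obtain ⟨k₁, hk₁, rfl⟩ := h₁
        obtain ⟨k₂, hk₂, rfl⟩ := h₂
        have hyK : ∀ n : H, ψ n = ψ 1 ↔ ψ ⟨y * n * y⁻¹, hHn.conj_mem n n.2 y⟩ = ψ 1 := by
          intro n
          rw [← pw_ker_iff hpgH hk₂ hψc n, ← pw_ker_iff hpgH hk₁ hψc ⟨y * n * y⁻¹, _⟩, hy,
            cjF_apply, cjF_apply]
          have e1 : (⟨y * ((1 : H) : P) * y⁻¹, hHn.conj_mem _ (1 : H).2 y⟩ : H) = 1 := by
            apply Subtype.ext
            simp
          rw [e1]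
        have hNtop : Subgroup.normalizer (K : Set P) = ⊤ := by
          apply hHco.2
          refine lt_of_le_of_ne ?_ ?_
          · intro h hh
            rw [Subgroup.mem_normalizer_iff]
            intro g
            constructor
            · intro hg
              have := hHK h⁻¹ (H.inv_mem hh) g hg
              rwa [inv_inv] at this
            · intro hg
              have := hHK h hh _ hg
              have e2 : h⁻¹ * (h * g * h⁻¹) * h = g := by group
              rwa [e2] at this
          · intro heq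
            apply hyH
            rw [heq, Subgroup.mem_normalizer_iff]
            intro g
            rw [hKmem, hKmem]
            constructor
            · rintro ⟨hg, hg2⟩
              exact ⟨hHn.conj_mem g hg y, (hyK ⟨g, hg⟩).mp hg2⟩
            · rintro ⟨hg, hg2⟩
              have hg' : g ∈ H := by
                have := hHn.conj_mem _ hg y⁻¹
                have e2 : y⁻¹ * (y * g * y⁻¹) * y⁻¹⁻¹ = g := by group
                rwa [e2] at this
              exact ⟨hg', (hyK ⟨g, hg'⟩).mpr hg2⟩
        have hfH : ∀ n : H, ψ n = ψ 1 → n = 1 := by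
          intro n hn
          apply Subtype.ext
          apply hcore
          intro x
          have hx : x⁻¹ ∈ Subgroup.normalizer (K : Set P) := by rw [hNtop]; trivial
          have := (Subgroup.mem_normalizer_iff.mp hx (n : P)).mp ((hKmem _).mpr ⟨n.2, hn⟩)
          rwa [inv_inv] at this
        -- the fibres
        have hOrbB : (Orb p ψ).ncard ≤ p * (Orb p χ).ncard := by
          have := Fintype.ofFinite (P ⧸ H)
          rw [Set.ncard_eq_toFinset_card _ (Orb_finite p ψ),
            Set.ncard_eq_toFinset_card _ (Orb_finite p χ)]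
          have h3 := Finset.card_le_mul_card_image (f := indFun H) (Orb_finite p ψ).toFinset p ?_
          · refine h3.trans (Nat.mul_le_mul_left _ (Finset.card_le_card ?_))
            intro b hb
            obtain ⟨φ, hφ, rfl⟩ := Finset.mem_image.mp hb
            rw [Set.Finite.mem_toFinset] at hφ ⊢
            exact hmaps φ hφ
          · intro b hb
            obtain ⟨φ₀, hφ₀, rfl⟩ := Finset.mem_image.mp hb
            rw [Set.Finite.mem_toFinset] at hφ₀
            have hsub : ((Orb_finite p ψ).toFinset.filter (fun x => indFun H x = indFun H φ₀)) ⊆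
                Finset.univ.image (fun c : P ⧸ H => cjF hHn φ₀ c.out) := by
              intro x hx
              rw [Finset.mem_filter, Set.Finite.mem_toFinset] at hx
              obtain ⟨z, hz⟩ := exists_conj_of_ind_eq hHn (hirrO φ₀ hφ₀) (hirrO x hx.1)
                (hirrI φ₀ hφ₀) hx.2.symm
              rw [Finset.mem_image]
              refine ⟨(z : P ⧸ H), Finset.mem_univ _, ?_⟩
              have h4 : ((z : P ⧸ H).out)⁻¹ * z ∈ H := by
                rw [← QuotientGroup.eq]
                exact QuotientGroup.out_eq' _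
              have h5 : z * ((z : P ⧸ H).out)⁻¹ ∈ H := by
                have := hHn.conj_mem _ h4 (z : P ⧸ H).out
                have e2 : (z : P ⧸ H).out * (((z : P ⧸ H).out)⁻¹ * z) * ((z : P ⧸ H).out)⁻¹ =
                    z * ((z : P ⧸ H).out)⁻¹ := by group
                rwa [e2] at this
              have h6 := cjF_mul_mem hHn (hcl φ₀ hφ₀) (z : P ⧸ H).out _ h5
              rw [inv_mul_cancel_right] at h6
              rw [hz, h6]
            refine (Finset.card_le_card hsub).trans (Finset.card_image_le.trans ?_)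
            rw [Finset.card_univ, ← Nat.card_eq_fintype_card]
            exact hidx.le
        rcases Nat.eq_zero_or_pos (a - 1) with h0 | h0
        · have : a = 1 := by omega
          rw [this]
          exact arithT
        · have hOrbB' : (Orb p ψ).ncard ≤ (p - 1) * p ^ (t + 1) := by
            refine hOrbB.trans ?_
            calc p * (Orb p χ).ncard ≤ p * ((p - 1) * p ^ t) := Nat.mul_le_mul_left _ ht
              _ = (p - 1) * p ^ (t + 1) := by ring
          have hih := ih (a - 1) (by omega) H hcardH h0 ψ hψ hfH (t + 1) hOrbB'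
          rw [he, hpq] at hih
          simp only [Nat.add_sub_cancel] at hih
          exact arithB hq1 ha hih


/-- Let P be a finite p-group of order p^a with a > 0, and χ a faithful irreducible character of P of degree f whose field of values ℚ(χ) has degree (p − 1)·p^t over ℚ. Then a ≤ (f − 1)/(p − 1) + (t + 1)·f; in integer form, (p − 1)·a ≤ (f − 1) + (p − 1)(t + 1)·f. -/
theorem result {P : Type*} [Group P] [Finite P] (p a : ℕ) (hp : p.Prime) (ha : 0 < a) (hP : Nat.card P = p ^ a) (χ : Cfsg.IrrCharacter P) (hfaith : ∀ g : P, (χ : P → ℂ) g = (χ : P → ℂ) 1 → g = 1) (f t : ℕ) (hf : Cfsg.charDegree (χ : P → ℂ) = f) (hfield : Module.finrank ℚ (IntermediateField.adjoin ℚ (Set.range (χ : P → ℂ))) = (p - 1) * p ^ t) : (p - 1) * a ≤ (f - 1) + (p - 1) * (t + 1) * f := by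
  have h := ncard_Orb_le_finrank hP (isIrr_isChar χ.2)
  rw [hfield] at h
  rw [← hf]
  exact main p hp a P hP ha χ χ.2 hfaith t h

end Cfsg.Agent.S4489
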