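import Cfsg.Statements.S4490
import Cfsg.Agent.Lib.Helper78.RealBlock
import Cfsg.Agent.Lib.Helper82.Codegree

set_option autoImplicit false
open Cfsg
open Cfsg.Agent.Lib.Helper20 Cfsg.Agent.Lib.Helper81 Cfsg.Agent.Lib.Helper21 Cfsg.Agent.Lib.Helper78

namespace Cfsg.Agent.S4490

/-- Let G be a finite group and M a maximal ideal of the algebraic integers containing 2. Every 2-block B of G whose defect groups are the Sylow 2-subgroups of G (a block of full defect) and which is not the principal block is different from its complex-conjugate block, the block formed by the complex conjugates of the members of B. -/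
theorem result {G : Type*} [Group G] [Finite G] (M : Ideal Cfsg.AlgInt) (hM : Cfsg.IsPModular 2 M) (B : Set (Cfsg.IrrCharacter G)) (hB : Cfsg.IsPBlock M B) (P : Sylow 2 G) (hfull : Cfsg.IsDefectGroup 2 M B (P : Subgroup G)) (hnp : B ≠ Cfsg.principalBlock M G) : {ψ : Cfsg.IrrCharacter G | ∃ χ ∈ B, (ψ : G → ℂ) = fun g => (starRingEnd ℂ) ((χ : G → ℂ) g)} ≠ B := by
  classical
  have : Fintype G := Fintype.ofFinite G
  intro heq
  have hBc : ∀ χ, χ ∈ B → conjIrr χ ∈ B := by
    intro χ hχ
    rw [← heq]
    exact ⟨χ, hχ, rfl⟩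
  have : Fact (Nat.Prime 2) := ⟨Nat.prime_two⟩
  have hcard : Nat.card (P : Subgroup G) = 2 ^ blockDefect 2 B :=
    card_defectGroup hM B hB _ hfull
  have hcard2 : Nat.card (P : Subgroup G) = 2 ^ (Nat.card G).factorization 2 :=
    P.card_eq_multiplicity
  have hd : (Nat.card G).factorization 2 = blockDefect 2 B := by
    rw [hcard] at hcard2
    exact (Nat.pow_right_injective (le_refl 2) hcard2).symm
  obtain ⟨χ₀, hχ₀, h1, _⟩ := exists_height_zero 2 B (isPBlock_nonempty hM hB)
  rw [blockDefect, ← h1] at hd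
  have hdvd := Cfsg.Agent.Lib.Helper82.isIrr_charDegree_dvd_card χ₀.2
  have hpos := Cfsg.Agent.Lib.Helper82.isIrr_charDegree_pos χ₀.2
  have hle : (charDegree (χ₀ : G → ℂ)).factorization 2 ≤ (Nat.card G).factorization 2 :=
    (Nat.factorization_le_iff_dvd hpos.ne' Nat.card_pos.ne').2 hdvd 2
  have h0 : (charDegree (χ₀ : G → ℂ)).factorization 2 = 0 := by omega
  have hodd : Odd (charDegree (χ₀ : G → ℂ)) := by
    rw [← Nat.not_even_iff_odd, even_iff_two_dvd]
    intro h2
    have := (Nat.prime_two.dvd_iff_one_le_factorization hpos.ne').1 h2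
    omega
  have htriv := trivIrr_mem_of_self_conj hM B hB hBc χ₀ hχ₀ hodd
  have h9 : B = blockOf M (Cfsg.Agent.Lib.Helper82.trivIrr G : G → ℂ) := isPBlock_eq_blockOf hM hB htriv
  exact hnp h9

end Cfsg.Agent.S4490
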