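import Cfsg.Statements.S4495
import Cfsg.Agent.Lib.Helper78.SelfCent2

set_option autoImplicit false
open Cfsg

namespace Cfsg.Agent.S4495

/-- Let the finite group G contain an element x of prime order p with C_G(x) = ⟨x⟩, and let t be the number of conjugacy classes of elements of order p. If t ≠ p − 1 then the commutator subgroup has index at most (p − 1)/t; if t = p − 1 it has index exactly p. -/
theorem result {G : Type*} [Group G] [Finite G] (p : ℕ) (hp : p.Prime) (x : G) (hx : orderOf x = p) (hC : Subgroup.centralizer ({x} : Set G) = Subgroup.zpowers x) (t : ℕ) (ht : Nat.card {C : ConjClasses G // ∃ g ∈ C.carrier, orderOf g = p} = t) : (t ≠ p - 1 → (commutator G).index * t ≤ p - 1) ∧ (t = p - 1 → (commutator G).index = p) := by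
  have hcount := Lib.Helper78.sc_card_classes hp hx hC
  rw [ht] at hcount
  have hp1 : 0 < p - 1 := Nat.sub_pos_of_lt hp.one_lt
  have hdvd := Lib.Helper78.sc_index_commutator_dvd hp hx hC
  have hcompl := Lib.Helper78.sc_exists_normal_complement hp hx hC
  generalize (Subgroup.zpowers x).relIndex
        (Subgroup.normalizer ((Subgroup.zpowers x : Subgroup G) : Set G)) = q at hcount hdvd hcompl
  constructor
  · intro hne
    have hq : q ≠ 1 := by
      intro h
      rw [h, mul_one] at hcount
      exact hne hcount
    have hq0 : 0 < q := by
      rcases Nat.eq_zero_or_pos q with h | h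
      · rw [h, mul_zero] at hcount; omega
      · exact h
    calc (commutator G).index * t ≤ q * t := Nat.mul_le_mul_right t (Nat.le_of_dvd hq0 (hdvd hq))
      _ = p - 1 := by rw [mul_comm, hcount]
  · intro heq
    have hq : q = 1 := by
      rw [heq] at hcount
      exact Nat.eq_of_mul_eq_mul_left hp1 (by rw [hcount, mul_one])
    obtain ⟨K, _, _, hK, hle⟩ := hcompl hq
    have hS : ¬ p ∣ Nat.card (commutator G) := fun h => hK (h.trans (Subgroup.card_dvd_of_le hle))
    exact (Lib.Helper78.sc_index_commutator_eq hp hx hC hS).1

end Cfsg.Agent.S4495
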