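import Cfsg.Statements.S4498
import Cfsg.Agent.Lib.Helper81.BlockProj
import Cfsg.Agent.Lib.Helper82.Ortho

set_option autoImplicit false
open Cfsg
open scoped ComplexConjugate
open Cfsg.Agent.Lib.Helper20 Cfsg.Agent.Lib.Helper81 Cfsg.Agent.Lib.Helper82

namespace Cfsg.Agent.S4498

/-- Let p and q be distinct primes dividing the order of the finite group G, and suppose G has no element of order p·q. Fix maximal ideals M_p over p and M_q over q of the algebraic integers. Then the principal p-block and the principal q-block of G have a non-principal irreducible character in common. -/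
theorem result {G : Type*} [Group G] [Finite G] (p q : ℕ) [Fact p.Prime] [Fact q.Prime] (hpq : p ≠ q) (hp : p ∣ Nat.card G) (hq : q ∣ Nat.card G) (hno : ∀ g : G, orderOf g ≠ p * q) (Mp Mq : Ideal Cfsg.AlgInt) (hMp : Cfsg.IsPModular p Mp) (hMq : Cfsg.IsPModular q Mq) : ∃ χ : Cfsg.IrrCharacter G, (χ : G → ℂ) ≠ (fun _ => 1) ∧ χ ∈ Cfsg.principalBlock Mp G ∧ χ ∈ Cfsg.principalBlock Mq G := by
  classical
  have : Fintype G := Fintype.ofFinite G
  have : Finite (IrrCharacter G) := Lib.Helper20.finite_irrCharacter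
  have : Fintype (IrrCharacter G) := Fintype.ofFinite _
  have hG : (Nat.card G : ℂ) ≠ 0 := card_ne_zero_complex
  obtain ⟨x, hx⟩ := exists_prime_orderOf_dvd_card' p hp
  obtain ⟨y, hy⟩ := exists_prime_orderOf_dvd_card' q hq
  set Bp := principalBlock Mp G with hBp
  set Bq := principalBlock Mq G with hBq
  have hBpB : IsPBlock Mp Bp := ⟨trivIrr G, rfl⟩
  have hBqB : IsPBlock Mq Bq := ⟨trivIrr G, rfl⟩
  have h1p : trivIrr G ∈ Bp := mem_blockOf_self hMp (trivIrr G)
  have h1q : trivIrr G ∈ Bq := mem_blockOf_self hMq (trivIrr G)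
  -- the key vanishing
  have hkey : ∀ g : G, bS Bq y g * bS Bp g x = 0 := by
    intro g
    by_cases hg : q ∣ orderOf g
    · -- g is q-singular so p-regular
      have hgp : ¬ p ∣ orderOf g := by
        intro hpg
        have hdvd : p * q ∣ orderOf g :=
          Nat.Coprime.mul_dvd_of_dvd_of_dvd ((Nat.coprime_primes Fact.out Fact.out).2 hpq) hpg hg
        obtain ⟨k, hk⟩ := hdvd
        apply hno (g ^ k)
        have hpos : 0 < orderOf g := orderOf_pos g
        have hk0 : k ≠ 0 := by rintro rfl; rw [mul_zero] at hk; omega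
        rw [orderOf_pow_of_dvd hk0 ⟨p * q, by rw [hk]; ring⟩, hk]
        exact Nat.mul_div_cancel _ (Nat.pos_of_ne_zero hk0)
      rw [(bS_regular_singular hMp Bp hBpB hgp (by rw [hx])).1, mul_zero]
    · rw [(bS_regular_singular hMq Bq hBqB hg (by rw [hy])).2, zero_mul]
  have hsum : ∑ g : G, bS Bq y g * bS Bp g x = 0 := Finset.sum_eq_zero (fun g _ => hkey g)
  have hexp : ∑ g : G, bS Bq y g * bS Bp g x
      = (Nat.card G : ℂ) * ∑ χ : IrrCharacter G,
          if χ ∈ Bp ∧ χ ∈ Bq then (χ : G → ℂ) y * conj ((χ : G → ℂ) x) else 0 := by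
    have horth : ∀ χ ψ : IrrCharacter G, ∑ g : G, (ψ : G → ℂ) g * conj ((χ : G → ℂ) g)
        = if ψ = χ then (Nat.card G : ℂ) else 0 := by
      intro χ ψ
      have h := classInner_irr ψ.2 χ.2
      rw [classInner] at h
      split_ifs with hψχ
      · rw [if_pos (congrArg Subtype.val hψχ)] at h
        field_simp at h
        exact h
      · rw [if_neg (fun h' => hψχ (Subtype.ext h'))] at h
        rcases mul_eq_zero.1 h with h | h
        · exact absurd (inv_eq_zero.1 h) hG
        · exact h
    simp only [bS, finsum_mem_irr, Finset.sum_mul_sum]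
    rw [Finset.sum_comm, Finset.mul_sum]
    apply Finset.sum_congr rfl; intro χ _
    rw [Finset.sum_comm]
    have : ∀ ψ : IrrCharacter G, ∑ g : G, (if χ ∈ Bq then (χ : G → ℂ) y * conj ((χ : G → ℂ) g) else 0)
        * (if ψ ∈ Bp then (ψ : G → ℂ) g * conj ((ψ : G → ℂ) x) else 0)
        = if ψ = χ then (Nat.card G : ℂ) * (if χ ∈ Bp ∧ χ ∈ Bq then
            (χ : G → ℂ) y * conj ((χ : G → ℂ) x) else 0) else 0 := by
      intro ψ
      by_cases h1 : χ ∈ Bq
      · by_cases h2 : ψ ∈ Bp
        · simp only [if_pos h1, if_pos h2]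
          have : ∀ g : G, (χ : G → ℂ) y * conj ((χ : G → ℂ) g) * ((ψ : G → ℂ) g * conj ((ψ : G → ℂ) x))
              = ((χ : G → ℂ) y * conj ((ψ : G → ℂ) x)) * ((ψ : G → ℂ) g * conj ((χ : G → ℂ) g)) := by
            intro g; ring
          rw [Finset.sum_congr rfl (fun g _ => this g), ← Finset.mul_sum, horth]
          split_ifs with h3 h4 h4
          · subst h3; ring
          · subst h3; exact absurd ⟨h2, h1⟩ h4
          · simp
        · simp only [if_neg h2, mul_zero, Finset.sum_const_zero]
          split_ifs with h3 h4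
          · subst h3; exact absurd h4.1 h2
          · simp
          · rfl
      · simp only [if_neg h1, zero_mul, Finset.sum_const_zero]
        split_ifs with h3 h4
        · exact absurd h4.2 h1
        · simp
        · rfl
    rw [Finset.sum_congr rfl (fun ψ _ => this ψ)]
    simp
  by_contra hcon
  push Not at hcon
  rw [hexp, Finset.sum_eq_single (trivIrr G)] at hsum
  · rw [if_pos ⟨h1p, h1q⟩] at hsum
    simp at hsum
  · intro χ _ hne
    rw [if_neg]
    rintro ⟨h1, h2⟩
    by_cases hχ : (χ : G → ℂ) = fun _ => 1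
    · exact hne (Subtype.ext hχ)
    · exact hcon χ hχ h1 h2
  · intro h; exact absurd (Finset.mem_univ _) h

end Cfsg.Agent.S4498
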