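import Cfsg.Statements.S4500
-- import your own Cfsg.Agent.* helpers here
import Cfsg.Agent.Lib.Helper51.PrimePowerDeg
import Cfsg.Agent.Lib.Helper81.PosHeight

set_option autoImplicit false
open Cfsg

namespace Cfsg.Agent.S4500

open Cfsg.Agent.Lib.Helper51 Cfsg.Agent.Lib.Helper81 in
theorem pick {G : Type*} [Group G] [Finite G] (s t : ℕ) (hs : s.Prime) (ht : t.Prime)
    (hsG : s ∣ Nat.card G) : ∃ M : Ideal Cfsg.AlgInt, Cfsg.IsPModular s M ∧
      ∃ χ ∈ Cfsg.principalBlock M G, χ ≠ oneIrr G ∧ ¬ t ∣ Cfsg.charDegree (χ : G → ℂ) := by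
  obtain ⟨M, hM⟩ := Cfsg.Agent.Lib.Helper78.exists_isPModular hs
  have : Fact s.Prime := ⟨hs⟩
  obtain ⟨g, hg⟩ := exists_prime_orderOf_dvd_card' s hsG
  obtain ⟨χ, h1, h2, h3, -⟩ := exists_principal_not_dvd hM g (hg ▸ dvd_rfl) t ht
  exact ⟨M, hM, χ, h1, h2, h3⟩

open Cfsg.Agent.Lib.Helper51 Cfsg.Agent.Lib.Helper81 in
theorem core {G : Type*} [Group G] [Finite G] [Nontrivial G] (p q r a b c : ℕ) (hp : p.Prime)
    (hq : q.Prime) (hr : r.Prime) (hpq : p ≠ q) (hpr : p ≠ r) (ha : a ≤ 2)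
    (hG : Nat.card G = p ^ a * q ^ b * r ^ c) :
    ∃ χ : Cfsg.IrrCharacter G, (χ : G → ℂ) ≠ (fun _ => 1) ∧
      ∃ k : ℕ, Cfsg.charDegree (χ : G → ℂ) = q ^ k := by
  classical
  have := Fintype.ofFinite G
  have hne : ∀ χ : Cfsg.IrrCharacter G, χ ≠ oneIrr G → (χ : G → ℂ) ≠ (fun _ => 1) := by
    intro χ h h'
    exact h (Subtype.ext h')
  have hdv : ∀ χ : Cfsg.IrrCharacter G, Cfsg.charDegree (χ : G → ℂ) ∣ p ^ a * q ^ b * r ^ c := by
    intro χ
    rw [← hG]; exact Cfsg.Agent.Lib.Helper82.isIrr_charDegree_dvd_card χ.2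
  by_cases ha0 : a = 0
  · subst ha0
    by_cases hc0 : c = 0
    · subst hc0
      have hb0 : b ≠ 0 := by
        rintro rfl
        have h1 : 1 < Nat.card G := Finite.one_lt_card
        rw [hG] at h1
        simp at h1
      obtain ⟨M, hM, χ, -, h2, -⟩ := pick (G := G) q r hq hr
        (by rw [hG]; simpa using dvd_pow_self q hb0)
      refine ⟨χ, hne χ h2, ?_⟩
      have h3 := hdv χ
      simp only [pow_zero, one_mul, mul_one] at h3
      obtain ⟨k, -, hk⟩ := (Nat.dvd_prime_pow hq).1 h3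
      exact ⟨k, hk⟩
    · obtain ⟨M, hM, χ, -, h2, h4⟩ := pick (G := G) r r hr hr
        (by rw [hG]; exact (dvd_pow_self r hc0).mul_left _)
      refine ⟨χ, hne χ h2, ?_⟩
      have h3 := hdv χ
      simp only [pow_zero, one_mul] at h3
      have hc2 : Nat.Coprime (Cfsg.charDegree (χ : G → ℂ)) (r ^ c) :=
        Nat.Coprime.pow_right c ((Nat.Prime.coprime_iff_not_dvd hr).2 h4).symm
      obtain ⟨k, -, hk⟩ := (Nat.dvd_prime_pow hq).1 (hc2.dvd_of_dvd_mul_right h3)
      exact ⟨k, hk⟩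
  · obtain ⟨M, hM, χ, hB, h2, h4⟩ := pick (G := G) p r hp hr
      (by rw [hG]; exact ((dvd_pow_self p ha0).mul_right _).mul_right _)
    refine ⟨χ, hne χ h2, ?_⟩
    have h3 := hdv χ
    have hc2 : Nat.Coprime (Cfsg.charDegree (χ : G → ℂ)) (r ^ c) :=
      Nat.Coprime.pow_right c ((Nat.Prime.coprime_iff_not_dvd hr).2 h4).symm
    have h5 := hc2.dvd_of_dvd_mul_right h3
    have hPB := Cfsg.Agent.S0936.isPBlock_principal (G := G) M
    have hmin : minDeg p (Cfsg.principalBlock M G) = 0 := by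
      have h6 := minDeg_le (p := p) (oneIrr_mem (G := G) hM)
      have h7 : nuDeg p (oneIrr G) = 0 := by
        have h8 : Cfsg.charDegree ((oneIrr G : Cfsg.IrrCharacter G) : G → ℂ) = 1 := by
          have := irr_one_eq (oneIrr G)
          have h9 : ((oneIrr G : Cfsg.IrrCharacter G) : G → ℂ) 1 = 1 := rfl
          rw [h9] at this
          exact_mod_cast this.symm
        simp [nuDeg, h8]
      omega
    have hfac : (Nat.card G).factorization p = a := by
      rw [hG, Nat.factorization_mul (by positivity [hp.pos, hq.pos]) (pow_ne_zero _ hr.ne_zero),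
        Nat.factorization_mul (pow_ne_zero _ hp.ne_zero) (pow_ne_zero _ hq.ne_zero),
        hp.factorization_pow, hq.factorization_pow, hr.factorization_pow]
      simp [hpq.symm, hpr.symm]
    have hh := blockHeight_add (p := p) hB
    have hd := blockDefect_add (p := p) (B := Cfsg.principalBlock M G) ⟨χ, hB⟩
    have hnu : nuDeg p χ = 0 := by
      by_contra hnu
      have h0 : Cfsg.blockHeight p (Cfsg.principalBlock M G) (χ : G → ℂ) ≠ 0 := by omega
      have := height_add_two_le hM hPB hB h0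
      omega
    have hpd : ¬ p ∣ Cfsg.charDegree (χ : G → ℂ) := by
      intro hpd
      have := hp.factorization_pos_of_dvd (charDegree_ne_zero χ) hpd
      simp only [nuDeg] at hnu
      omega
    have hc3 : Nat.Coprime (Cfsg.charDegree (χ : G → ℂ)) (p ^ a) :=
      Nat.Coprime.pow_right a ((Nat.Prime.coprime_iff_not_dvd hp).2 hpd).symm
    obtain ⟨k, -, hk⟩ := (Nat.dvd_prime_pow hq).1 (hc3.dvd_of_dvd_mul_left h5)
    exact ⟨k, hk⟩

/-- Let G be a non-trivial finite group of order p^a · q^b · r^c with p, q, r distinct primes and a ≤ 2. Then G has a non-principal irreducible character whose degree is a power of q, and a non-principal irreducible character whose degree is a power of r; the power may be the zeroth, so a non-principal linear character serves for both. -/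
theorem result {G : Type*} [Group G] [Finite G] [Nontrivial G] (p q r a b c : ℕ) (hp : p.Prime) (hq : q.Prime) (hr : r.Prime) (hpq : p ≠ q) (hpr : p ≠ r) (hqr : q ≠ r) (ha : a ≤ 2) (hG : Nat.card G = p ^ a * q ^ b * r ^ c) : (∃ χ : Cfsg.IrrCharacter G, (χ : G → ℂ) ≠ (fun _ => 1) ∧ ∃ k : ℕ, Cfsg.charDegree (χ : G → ℂ) = q ^ k) ∧ ∃ χ : Cfsg.IrrCharacter G, (χ : G → ℂ) ≠ (fun _ => 1) ∧ ∃ k : ℕ, Cfsg.charDegree (χ : G → ℂ) = r ^ k := by
  exact ⟨core p q r a b c hp hq hr hpq hpr ha hG,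
    core p r q a c b hp hr hq hpr hpq ha (by rw [hG]; ring)⟩

end Cfsg.Agent.S4500
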