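import Cfsg.Statements.S4502
import Cfsg.Agent.Lib.Helper78.McKayOneC

set_option autoImplicit false
open Cfsg

namespace Cfsg.Agent.S4502

/-- Let G be a finite group whose order is divisible by the prime p exactly once, and let P be a Sylow p-subgroup. Then the number of irreducible characters of G of degree not divisible by p equals the number of conjugacy classes of the normalizer of P. -/
theorem result {G : Type*} [Group G] [Finite G] (p : ℕ) [Fact p.Prime] (hdiv : p ∣ Nat.card G) (hsq : ¬ p ^ 2 ∣ Nat.card G) (P : Sylow p G) : Nat.card {χ : Cfsg.IrrCharacter G // ¬ p ∣ Cfsg.charDegree (χ : G → ℂ)} = Nat.card (ConjClasses (Subgroup.normalizer ((P : Subgroup G) : Set G))) := by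
  classical
  have hp : p.Prime := Fact.out
  obtain ⟨M, hM⟩ := Cfsg.Agent.Lib.Helper78.exists_isPModular hp
  have : Fintype G := Fintype.ofFinite G
  have hfac : (Nat.card G).factorization p = 1 := by
    apply le_antisymm
    · by_contra hlt
      exact hsq ((hp.pow_dvd_iff_le_factorization Nat.card_pos.ne').2 (by omega))
    · exact (hp.dvd_iff_one_le_factorization Nat.card_pos.ne').1 hdiv
  have hP : Nat.card P = p := by
    have h4 : Nat.card (P : Subgroup G) = p ^ (Nat.card G).factorization p :=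
      P.card_eq_multiplicity
    rw [hfac, pow_one] at h4
    exact h4
  rw [← Cfsg.Agent.Lib.Helper20.card_irrCharacter
    (G := Subgroup.normalizer ((P : Subgroup G) : Set G))]
  have : Finite (IrrCharacter G) := Cfsg.Agent.Lib.Helper20.finite_irrCharacter
  have : Finite (IrrCharacter (Subgroup.normalizer ((P : Subgroup G) : Set G))) :=
    Cfsg.Agent.Lib.Helper20.finite_irrCharacter
  apply Cfsg.Agent.Lib.Helper78.card_eq_of_fiber_rel
    (fun χ : {χ : Cfsg.IrrCharacter G // ¬ p ∣ Cfsg.charDegree (χ : G → ℂ)} =>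
      blockOf M (χ.1 : G → ℂ))
    (fun ξ : IrrCharacter (Subgroup.normalizer ((P : Subgroup G) : Set G)) =>
      blockOf M (ξ : Subgroup.normalizer ((P : Subgroup G) : Set G) → ℂ))
    (fun B β => IsInducedBlock M (Subgroup.normalizer ((P : Subgroup G) : Set G)) β B)
  · intro χ
    have hBP := Cfsg.Agent.Lib.Helper78.isDefectGroup_of_not_dvd_degree hM P hP χ.1 χ.2
    obtain ⟨β, hβ, -, hind⟩ := Cfsg.Agent.Lib.Helper21.exists_block_normalizer hM
      (P : Subgroup G) P.2 _ ⟨χ.1, rfl⟩ hBP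
    obtain ⟨ξ, hξ⟩ := Cfsg.Agent.Lib.Helper81.isPBlock_nonempty hM hβ
    have h1 := Cfsg.Agent.Lib.Helper81.isPBlock_eq_blockOf hM hβ hξ
    exact ⟨ξ, h1 ▸ hind⟩
  · intro ξ
    obtain ⟨B, hind⟩ := Cfsg.Agent.S0919.result p M hM (P : Subgroup G)
      (Subgroup.normalizer ((P : Subgroup G) : Set G)) P.2 Subgroup.le_normalizer
      (Subgroup.centralizer_le_normalizer _) le_rfl
      (blockOf M (ξ : Subgroup.normalizer ((P : Subgroup G) : Set G) → ℂ)) ⟨ξ, rfl⟩
    have hBP := Cfsg.Agent.Lib.Helper21.isDefectGroup_of_induced_normalizer hM (P : Subgroup G)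
      P.2 hind (Cfsg.Agent.Lib.Helper78.isDefectGroup_normalizer hM P hP ⟨ξ, rfl⟩)
    obtain ⟨χ, hχ⟩ := Cfsg.Agent.Lib.Helper81.isPBlock_nonempty hM hind.2.1
    have h1 := Cfsg.Agent.Lib.Helper81.isPBlock_eq_blockOf hM hind.2.1 hχ
    exact ⟨⟨χ, Cfsg.Agent.Lib.Helper78.not_dvd_degree_of_defectGroup hM P hP hind.2.1 hBP hχ⟩,
      h1 ▸ hind⟩
  · intro B β β' h h'
    exact Cfsg.Agent.Lib.Helper21.block_normalizer_unique hM (P : Subgroup G) P.2 h h'
      (Cfsg.Agent.Lib.Helper78.isDefectGroup_normalizer hM P hP h.1)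
  · intro B B' β h h'
    exact Cfsg.Agent.Lib.Helper21.isInducedBlock_unique hM h h'
  · intro χ ξ hR
    have hBP := Cfsg.Agent.Lib.Helper78.isDefectGroup_of_not_dvd_degree hM P hP χ.1 χ.2
    have key := Cfsg.Agent.Lib.Helper78.card_block_eq_card_correspondent p M hM P hP _ hBP _ hR
    have e1 : Nat.card {a' : {χ : Cfsg.IrrCharacter G // ¬ p ∣ Cfsg.charDegree (χ : G → ℂ)} //
        blockOf M (a'.1 : G → ℂ) = blockOf M (χ.1 : G → ℂ)}
        = Nat.card (blockOf M (χ.1 : G → ℂ)) := by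
      apply Nat.card_congr
      refine ⟨fun a' => ⟨a'.1.1, (Set.ext_iff.1 a'.2 a'.1.1).1
        (Cfsg.Agent.Lib.Helper81.mem_blockOf_self hM a'.1.1)⟩,
        fun ψ => ⟨⟨ψ.1, Cfsg.Agent.Lib.Helper78.not_dvd_degree_of_defectGroup hM P hP
          ⟨χ.1, rfl⟩ hBP ψ.2⟩, Cfsg.Agent.Lib.Helper81.blockOf_eq_of_mem hM ψ.2⟩,
        fun a' => rfl, fun ψ => rfl⟩
    have e2 : Nat.card {b' : IrrCharacter (Subgroup.normalizer ((P : Subgroup G) : Set G)) //
        blockOf M (b' : Subgroup.normalizer ((P : Subgroup G) : Set G) → ℂ)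
          = blockOf M (ξ : Subgroup.normalizer ((P : Subgroup G) : Set G) → ℂ)}
        = Nat.card (blockOf M (ξ : Subgroup.normalizer ((P : Subgroup G) : Set G) → ℂ)) := by
      apply Nat.card_congr
      refine ⟨fun a' => ⟨a'.1, (Set.ext_iff.1 a'.2 a'.1).1
        (Cfsg.Agent.Lib.Helper81.mem_blockOf_self hM a'.1)⟩,
        fun ψ => ⟨ψ.1, Cfsg.Agent.Lib.Helper81.blockOf_eq_of_mem hM ψ.2⟩,
        fun a' => rfl, fun ψ => rfl⟩
    rw [e1, e2, key]

end Cfsg.Agent.S4502
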