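import Cfsg.Statements.S4506
import Cfsg.Agent.Lib.Helper19.PConj

set_option autoImplicit false
open Cfsg

namespace Cfsg.Agent.S4506

/-- Let G be a finite group, p a prime, p^a the p-part of the order of G and g′ its p′-part. Call two irreducible characters p-conjugate when one is obtained from the other by applying a field automorphism of ℂ that fixes the g′-th roots of unity, and let r be the number of characters p-conjugate to the irreducible character χ (χ included). Then the exponent of p in r·χ(1) is at most a; and if p^a divides r·χ(1) then p^a already divides χ(1). -/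
theorem result {G : Type*} [Group G] [Finite G] (p : ℕ) (hp : p.Prime) (χ : Cfsg.IrrCharacter G) (r : ℕ) (hr : Nat.card {ψ : Cfsg.IrrCharacter G // ∃ σ : ℂ ≃+* ℂ, σ (Complex.exp (2 * Real.pi * Complex.I / ((Nat.card G / p ^ (Nat.card G).factorization p) : ℕ))) = Complex.exp (2 * Real.pi * Complex.I / ((Nat.card G / p ^ (Nat.card G).factorization p) : ℕ)) ∧ (ψ : G → ℂ) = fun g => σ ((χ : G → ℂ) g)} = r) : (r * Cfsg.charDegree (χ : G → ℂ)).factorization p ≤ (Nat.card G).factorization p ∧ (p ^ (Nat.card G).factorization p ∣ r * Cfsg.charDegree (χ : G → ℂ) → p ^ (Nat.card G).factorization p ∣ Cfsg.charDegree (χ : G → ℂ)) := by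
  classical
  haveI : Fintype G := Fintype.ofFinite G
  haveI : Finite (IrrCharacter G) := Cfsg.Agent.Lib.Helper20.finite_irrCharacter
  haveI : Fintype (IrrCharacter G) := Fintype.ofFinite _
  haveI : Fact p.Prime := ⟨hp⟩
  set a := (Nat.card G).factorization p with ha
  set g' := Nat.card G / p ^ a with hg'
  have hg'pos : 0 < g' := Nat.div_pos (Nat.le_of_dvd Nat.card_pos (Nat.ordProj_dvd _ _))
    (pow_pos hp.pos _)
  set ζ : ℂ := Complex.exp (2 * Real.pi * Complex.I / (g' : ℕ)) with hζ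
  have hprim : IsPrimitiveRoot ζ g' := Complex.isPrimitiveRoot_exp g' hg'pos.ne'
  let S : Finset (IrrCharacter G) := Finset.univ.filter
    (fun ψ => ∃ σ : ℂ ≃+* ℂ, σ ζ = ζ ∧ (ψ : G → ℂ) = fun g => σ ((χ : G → ℂ) g))
  have hrS : S.card = r := by
    rw [← hr, Nat.card_eq_fintype_card, Fintype.card_subtype]
  have hχc := Cfsg.Agent.Lib.Helper20.isCharacter_of_isIrrCharacter χ.2
  -- automorphisms fixing ζ fix the values on p-regular elements
  have hfix : ∀ σ : ℂ ≃+* ℂ, σ ζ = ζ → ∀ g : G, IsPRegular p g →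
      σ ((χ : G → ℂ) g) = (χ : G → ℂ) g := by
    intro σ hσ g hg
    have hz : ∀ z : ℂ, z ^ g' = 1 → (σ : ℂ →+* ℂ) z = z ^ 1 := by
      intro z hz
      haveI : NeZero g' := ⟨hg'pos.ne'⟩
      obtain ⟨i, _, rfl⟩ := hprim.eq_pow_of_pow_eq_one hz
      simp [hσ]
    have hgo : g ^ g' = 1 := by
      rw [← orderOf_dvd_iff_pow_eq_one]
      have h1 : orderOf g ∣ p ^ a * g' := by
        rw [hg', ha, Nat.ordProj_mul_ordCompl_eq_self]; exact orderOf_dvd_natCard g
      have h2 : (orderOf g).Coprime (p ^ a) :=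
        Nat.Coprime.pow_right _ ((Nat.Prime.coprime_iff_not_dvd hp).2 hg).symm
      exact h2.dvd_of_dvd_mul_left h1
    have := Cfsg.Agent.Lib.Helper79.IsCharacter.ringHom_apply hχc g' 1 hg'pos (σ : ℂ →+* ℂ) hz g hgo
    simpa using this
  have hS : ∀ ψ ∈ S, ∀ g : G, IsPRegular p g → (ψ : G → ℂ) g = (χ : G → ℂ) g := by
    intro ψ hψ g hg
    obtain ⟨σ, hσ, h⟩ := (Finset.mem_filter.1 hψ).2
    rw [h]; exact hfix σ hσ g hg
  have hχS : χ ∈ S := Finset.mem_filter.2 ⟨Finset.mem_univ _, RingEquiv.refl ℂ, rfl, rfl⟩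
  have hr0 : r ≠ 0 := by
    rw [← hrS]; exact (Finset.card_pos.2 ⟨χ, hχS⟩).ne'
  obtain ⟨M, hM⟩ := Cfsg.Agent.Lib.Helper78.exists_isPModular hp
  set n := Cfsg.Agent.Lib.Helper81.nC p χ χ with hn
  have hnpos : 0 < n := Cfsg.Agent.Lib.Helper78.nC_self_pos hp χ
  have hdvd : ((p ^ Cfsg.Agent.Lib.Helper81.nuDeg p χ : ℕ) : ℤ) ∣ n :=
    Cfsg.Agent.Lib.Helper81.pow_nuDeg_dvd_nC hM χ χ
  set ν := (charDegree (χ : G → ℂ)).factorization p with hν
  have hνe : Cfsg.Agent.Lib.Helper81.nuDeg p χ = ν := rfl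
  rw [hνe] at hdvd
  have hle1 : ((p ^ ν : ℕ) : ℤ) ≤ n := Int.le_of_dvd hnpos hdvd
  have hle2 : (r : ℤ) * n ≤ ((p ^ a : ℕ) : ℤ) := by
    rw [← hrS]; exact Cfsg.Agent.Lib.Helper19.card_mul_nC_le hp χ S hS
  have hd0 : charDegree (χ : G → ℂ) ≠ 0 := Cfsg.Agent.Lib.Helper81.charDegree_ne_zero χ
  have hfac : (r * charDegree (χ : G → ℂ)).factorization p = r.factorization p + ν := by
    rw [Nat.factorization_mul hr0 hd0]; rfl
  have hle3 : p ^ r.factorization p ≤ r := Nat.le_of_dvd (Nat.pos_of_ne_zero hr0) (Nat.ordProj_dvd _ _)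
  have hle4 : ((p ^ (r.factorization p + ν) : ℕ) : ℤ) ≤ (r : ℤ) * n := by
    rw [pow_add]; push_cast
    have h5 : ((p : ℤ) ^ r.factorization p) ≤ r := by exact_mod_cast hle3
    have h6 : ((p : ℤ) ^ ν) ≤ n := by exact_mod_cast hle1
    have h7 : (0 : ℤ) ≤ (p : ℤ) ^ ν := by positivity
    have h8 : (0 : ℤ) ≤ r := by positivity
    exact mul_le_mul h5 h6 h7 h8
  constructor
  · rw [hfac]
    have h9 : p ^ (r.factorization p + ν) ≤ p ^ a := by exact_mod_cast hle4.trans hle2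
    exact (Nat.pow_le_pow_iff_right hp.one_lt).1 h9
  · intro hdiv
    have h10 : a ≤ r.factorization p + ν := by
      rw [← hfac]
      exact (hp.pow_dvd_iff_le_factorization (Nat.mul_ne_zero hr0 hd0)).1 hdiv
    have h11 : ((p ^ a : ℕ) : ℤ) ≤ ((p ^ (r.factorization p + ν) : ℕ) : ℤ) := by
      exact_mod_cast Nat.pow_le_pow_right hp.pos h10
    have heq : (S.card : ℤ) * n = ((p ^ a : ℕ) : ℤ) := by
      rw [hrS]; exact le_antisymm hle2 (h11.trans hle4)
    have hzero := Cfsg.Agent.Lib.Helper19.nC_eq_zero_of_card_mul_eq hp χ S hS heq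
    -- Sylow subgroup
    obtain ⟨P⟩ : Nonempty (Sylow p G) := inferInstance
    haveI : Fintype (P : Subgroup G) := Fintype.ofFinite _
    have hPcard : Nat.card (P : Subgroup G) = p ^ a := P.card_eq_multiplicity
    obtain ⟨m, hm⟩ := Cfsg.Agent.Lib.Helper20.isCharacter_classInner_nat'
      (Cfsg.Agent.Lib.Helper20.isCharacter_restrict hχc (P : Subgroup G))
      (Cfsg.Agent.Lib.Helper20.isCharacter_one (G := (P : Subgroup G)))
    have hsum : ∑ x : (P : Subgroup G), (χ : G → ℂ) x = ((p ^ a : ℕ) : ℂ) * m := by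
      rw [← hm, ← hPcard]
      simp only [classInner, map_one, mul_one]
      have : (Nat.card (P : Subgroup G) : ℂ) ≠ 0 := by exact_mod_cast Nat.card_pos.ne'
      field_simp
    have hsumS : ∀ ψ ∈ S, ∑ x : (P : Subgroup G), (ψ : G → ℂ) x = ((p ^ a : ℕ) : ℂ) * m := by
      intro ψ hψ
      obtain ⟨σ, hσ, h⟩ := (Finset.mem_filter.1 hψ).2
      rw [h]
      simp only
      rw [← map_sum, hsum]
      simp
    have h12 := Cfsg.Agent.Lib.Helper81.sum_pGroup_pRegularPart hp (P : Subgroup G) P.2 (χ : G → ℂ)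
    rw [Cfsg.Agent.Lib.Helper81.pRegularPart_eq_sum_mC χ] at h12
    simp only [Finset.sum_apply, Pi.smul_apply, smul_eq_mul] at h12
    rw [Finset.sum_comm] at h12
    have hA0 : ((p ^ a : ℕ) : ℂ) ≠ 0 := by exact_mod_cast (pow_pos hp.pos _).ne'
    have hmC : ∀ ψ : IrrCharacter G, Cfsg.Agent.Lib.Helper81.mC p (χ : G → ℂ) (ψ : G → ℂ)
        = (Cfsg.Agent.Lib.Helper81.nC p χ ψ : ℂ) / ((p ^ a : ℕ) : ℂ) := by
      intro ψ
      rw [Cfsg.Agent.Lib.Helper81.nC_spec hp, ← ha]; field_simp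
    have h13 : ∀ ψ : IrrCharacter G,
        ∑ x : (P : Subgroup G), Cfsg.Agent.Lib.Helper81.mC p (χ : G → ℂ) (ψ : G → ℂ) * (ψ : G → ℂ) x
          = if ψ ∈ S then (n : ℂ) * m else 0 := by
      intro ψ
      rw [← Finset.mul_sum, hmC ψ]
      split_ifs with hψ
      · rw [hsumS ψ hψ, Cfsg.Agent.Lib.Helper19.nC_eq_of_agree hp χ ψ (hS ψ hψ), ← hn]
        field_simp
      · rw [hzero ψ hψ]; simp
    rw [Finset.sum_congr rfl (fun ψ _ => h13 ψ), Finset.sum_ite_mem, Finset.univ_inter,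
      Finset.sum_const, nsmul_eq_mul, Cfsg.Agent.Lib.Helper81.irr_one_eq] at h12
    have h14 : ((S.card : ℤ) * n * m : ℤ) = (charDegree (χ : G → ℂ) : ℤ) := by
      have : (((S.card : ℤ) * n * m : ℤ) : ℂ) = ((charDegree (χ : G → ℂ) : ℤ) : ℂ) := by
        push_cast; rw [← h12]; ring
      exact_mod_cast this
    rw [heq] at h14
    have h15 : p ^ a * m = charDegree (χ : G → ℂ) := by exact_mod_cast h14
    exact ⟨m, h15.symm⟩

end Cfsg.Agent.S4506
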