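import Cfsg.Statements.S4509
import Cfsg.Agent.Lib.Helper78.SelfCent4

set_option autoImplicit false
open Cfsg

namespace Cfsg.Agent.S4509

/-- Let the finite group G contain an element x of prime order p with C_G(x) = ⟨x⟩; let t be the number of conjugacy classes of elements of order p and 1 + n·p the number of subgroups of order p. Then G has a normal subgroup of order 1 + n·p if and only if either t = p − 1, or t < p − 1 and G″ ≠ G′. Moreover, if t = p − 1 then G′ has order 1 + n·p and G/G′ is cyclic of order p; and if t < p − 1 and G″ ≠ G′ then G″ has order 1 + n·p and G′ has order p·(1 + n·p). -/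
theorem result {G : Type*} [Group G] [Finite G] (p : ℕ) (hp : p.Prime) (x : G) (hx : orderOf x = p) (hC : Subgroup.centralizer ({x} : Set G) = Subgroup.zpowers x) (t : ℕ) (ht : Nat.card {C : ConjClasses G // ∃ g ∈ C.carrier, orderOf g = p} = t) (n : ℕ) (hn : Nat.card {H : Subgroup G // Nat.card H = p} = 1 + n * p) : ((∃ S : Subgroup G, S.Normal ∧ Nat.card S = 1 + n * p) ↔ (t = p - 1 ∨ (t < p - 1 ∧ derivedSeries G 2 ≠ derivedSeries G 1))) ∧ (t = p - 1 → Nat.card (commutator G) = 1 + n * p ∧ IsCyclic (G ⧸ commutator G) ∧ (commutator G).index = p) ∧ (t < p - 1 → derivedSeries G 2 ≠ derivedSeries G 1 → Nat.card (derivedSeries G 2) = 1 + n * p ∧ Nat.card (commutator G) = p * (1 + n * p)) := by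
  have hcount := Lib.Helper78.sc_card_classes hp hx hC
  rw [ht] at hcount
  have hp1 : 0 < p - 1 := Nat.sub_pos_of_lt hp.one_lt
  have hm := Lib.Helper78.sc_card_subgroups hp hx hC
  rw [hn] at hm
  have hNcard : p * (Subgroup.zpowers x).relIndex
      (Subgroup.normalizer ((Subgroup.zpowers x : Subgroup G) : Set G)) =
      Nat.card (Subgroup.normalizer ((Subgroup.zpowers x : Subgroup G) : Set G)) := by
    have h1 := Subgroup.relIndex_mul_relIndex ⊥ (Subgroup.zpowers x)
      (Subgroup.normalizer ((Subgroup.zpowers x : Subgroup G) : Set G)) bot_le Subgroup.le_normalizer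
    rwa [Subgroup.relIndex_bot_left, Subgroup.relIndex_bot_left, Nat.card_zpowers, hx] at h1
  have hGcard := Subgroup.card_mul_index
    (Subgroup.normalizer ((Subgroup.zpowers x : Subgroup G) : Set G))
  rw [← hNcard, ← hm] at hGcard
  have hmem := Lib.Helper78.sc_mem_commutator hp hx hC
  have hdvd := Lib.Helper78.sc_index_commutator_dvd hp hx hC
  have hcompl := Lib.Helper78.sc_exists_normal_complement hp hx hC
  have hpm : ¬ p ∣ 1 + n * p := by
    intro h
    have h2 : p ∣ 1 := (Nat.dvd_add_left (Dvd.intro_left n rfl)).1 h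
    exact hp.one_lt.ne' (Nat.dvd_one.1 h2)
  have part2 : t = p - 1 → Nat.card (commutator G) = 1 + n * p ∧ IsCyclic (G ⧸ commutator G) ∧
      (commutator G).index = p := by
    intro heq
    have hq : (Subgroup.zpowers x).relIndex
        (Subgroup.normalizer ((Subgroup.zpowers x : Subgroup G) : Set G)) = 1 := by
      rw [heq] at hcount
      exact Nat.eq_of_mul_eq_mul_left hp1 (by rw [hcount, mul_one])
    obtain ⟨K, _, _, hK, hle⟩ := hcompl hq
    have hS : ¬ p ∣ Nat.card (commutator G) := fun h => hK (h.trans (Subgroup.card_dvd_of_le hle))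
    obtain ⟨h1, h2⟩ := Lib.Helper78.sc_index_commutator_eq hp hx hC hS
    refine ⟨?_, ?_, h1⟩
    · have h3 := Subgroup.card_mul_index (commutator G)
      rw [h1, ← hGcard, hq, mul_one, mul_comm] at h3
      exact Nat.eq_of_mul_eq_mul_left hp.pos h3
    · exact isCyclic_iff_exists_zpowers_eq_top.2 ⟨_, h2.symm⟩
  have part3 : t < p - 1 → derivedSeries G 2 ≠ derivedSeries G 1 →
      Nat.card (derivedSeries G 2) = 1 + n * p ∧ Nat.card (commutator G) = p * (1 + n * p) := by
    intro hlt hne
    have hq : (Subgroup.zpowers x).relIndex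
        (Subgroup.normalizer ((Subgroup.zpowers x : Subgroup G) : Set G)) ≠ 1 := by
      intro h
      rw [h, mul_one] at hcount
      exact hlt.ne hcount
    have hxD := hmem hq
    have hne' : ⁅commutator G, commutator G⁆ ≠ commutator G := hne
    have h1 := Lib.Helper78.sc_second_derived_eq hp hx hC hxD hne'
    have h2 := Lib.Helper78.sc_card_commutator hp hx hC hxD
      (by rw [h1]; exact Lib.Helper78.sc_not_dvd_pPrimeCore hp)
    have h3 := Lib.Helper78.sc_card_dvd_index hp hx hC (Cfsg.pPrimeCore p G)
      (Lib.Helper78.sc_not_dvd_pPrimeCore hp)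
    rw [← hm] at h3
    have h4 := hdvd hq
    have h5 := Subgroup.card_mul_index (commutator G)
    rw [h2, h1, ← hGcard] at h5
    have h6 : Nat.card (derivedSeries G 2) = Nat.card (Cfsg.pPrimeCore p G) := by
      rw [← h1]; rfl
    rw [h2, h1, h6]
    obtain ⟨c, hc⟩ := h3
    obtain ⟨d, hd⟩ := h4
    have hapos : 0 < Nat.card (Cfsg.pPrimeCore p G) := Nat.card_pos
    have hbpos : 0 < (commutator G).index := Nat.pos_of_ne_zero (Subgroup.index_ne_zero_of_finite)
    generalize Nat.card (Cfsg.pPrimeCore p G) = a at *
    generalize (commutator G).index = b at *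
    generalize (Subgroup.zpowers x).relIndex
        (Subgroup.normalizer ((Subgroup.zpowers x : Subgroup G) : Set G)) = q at *
    rw [hc, hd] at h5
    have h7 : (p * a * b) * 1 = (p * a * b) * (c * d) := by
      rw [mul_one]
      calc p * a * b = p * (b * d) * (a * c) := h5
        _ = (p * a * b) * (c * d) := by ring
    have hpab : 0 < p * a * b := Nat.mul_pos (Nat.mul_pos hp.pos hapos) hbpos
    have h8 : 1 = c * d := Nat.eq_of_mul_eq_mul_left hpab h7
    have h9 : c = 1 := Nat.eq_one_of_mul_eq_one_right h8.symm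
    rw [hc, h9, mul_one]
    exact ⟨rfl, rfl⟩
  refine ⟨⟨?_, ?_⟩, part2, part3⟩
  · rintro ⟨S, hSn, hScard⟩
    have hpS : ¬ p ∣ Nat.card S := by rw [hScard]; exact hpm
    have hq0 : 0 < (Subgroup.zpowers x).relIndex
        (Subgroup.normalizer ((Subgroup.zpowers x : Subgroup G) : Set G)) := by
      rcases Nat.eq_zero_or_pos ((Subgroup.zpowers x).relIndex
        (Subgroup.normalizer ((Subgroup.zpowers x : Subgroup G) : Set G))) with h | h
      · rw [h, mul_zero] at hcount; omega
      · exact h
    have hle : t ≤ p - 1 := by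
      rw [← hcount]; exact Nat.le_mul_of_pos_right t hq0
    rcases hle.eq_or_lt with h | h
    · exact Or.inl h
    · right
      refine ⟨h, fun heq => ?_⟩
      have hq : (Subgroup.zpowers x).relIndex
          (Subgroup.normalizer ((Subgroup.zpowers x : Subgroup G) : Set G)) ≠ 1 := by
        intro h'
        rw [h', mul_one] at hcount
        exact h.ne hcount
      have hxD := hmem hq
      have h1 := Lib.Helper78.sc_index_normalizer_eq hp hx hC S hpS
      rw [← hm, hScard] at h1
      have h2 : (Subgroup.normalizer ((Subgroup.zpowers x : Subgroup G) : Set G) ⊔ S).index = 1 := by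
        have h3 : (1 + n * p) * 1 = (1 + n * p) *
            (Subgroup.normalizer ((Subgroup.zpowers x : Subgroup G) : Set G) ⊔ S).index := by
          rw [mul_one]; exact h1
        exact (Nat.eq_of_mul_eq_mul_left (by omega) h3).symm
      rw [Subgroup.index_eq_one] at h2
      have h3 := Lib.Helper78.sc_second_derived_le hC S h2
      have h4 : ⁅commutator G, commutator G⁆ = commutator G := heq
      rw [h4] at h3
      exact Lib.Helper78.sc_not_mem hp hx S hpS (h3 hxD)
  · rintro (h | ⟨h, hne⟩)
    · exact ⟨commutator G, inferInstance, (part2 h).1⟩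
    · exact ⟨derivedSeries G 2, derivedSeries_normal G 2, (part3 h hne).1⟩

end Cfsg.Agent.S4509
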