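import Cfsg.Statements.S4510
import Cfsg.Agent.Lib.Helper21.DefectCard

set_option autoImplicit false
open Cfsg
open Cfsg.Agent.Lib.Helper20 Cfsg.Agent.Lib.Helper81 Cfsg.Agent.Lib.Helper21

namespace Cfsg.Agent.S4510

/-- Let G be a finite group, p a prime, M a maximal ideal of the algebraic integers containing p, and call the defect of a conjugacy class the exponent of p in the order of the centralizer of its elements. Two irreducible characters lying in p-blocks of defect exactly d lie in the same block if and only if their central characters (class size times χ(x)/χ(1)) agree modulo the local ideal at M at every p-regular element x whose class has defect exactly d. -/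
theorem result {G : Type*} [Group G] [Finite G] (p : ℕ) [Fact p.Prime] (M : Ideal Cfsg.AlgInt) (hM : Cfsg.IsPModular p M) (d : ℕ) (χ ψ : Cfsg.IrrCharacter G) (hχ : Cfsg.blockDefect p (Cfsg.blockOf M (χ : G → ℂ)) = d) (hψ : Cfsg.blockDefect p (Cfsg.blockOf M (ψ : G → ℂ)) = d) : Cfsg.SameBlock M (χ : G → ℂ) (ψ : G → ℂ) ↔ ∀ x : G, ¬ p ∣ orderOf x → (Nat.card (Subgroup.centralizer ({x} : Set G))).factorization p = d → Cfsg.MemLocalIdeal M (Cfsg.centralChar (χ : G → ℂ) x - Cfsg.centralChar (ψ : G → ℂ) x) := by
  classical
  have : Fintype G := Fintype.ofFinite G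
  have : Fintype (ConjClasses G) := Fintype.ofFinite _
  refine ⟨fun h x _ _ => h x, fun h => ?_⟩
  set B := blockOf M (χ : G → ℂ) with hBdef
  set B' := blockOf M (ψ : G → ℂ) with hB'def
  have hB : IsPBlock M B := ⟨χ, rfl⟩
  have hB' : IsPBlock M B' := ⟨ψ, rfl⟩
  have hχB : χ ∈ B := mem_blockOf_self hM χ
  have hψB' : ψ ∈ B' := mem_blockOf_self hM ψ
  show ψ ∈ B
  by_contra hψ
  have h1 : omega (χ : G → ℂ) (blockCoeff B) - omega (ψ : G → ℂ) (blockCoeff B) = 1 := by
    rw [omega_blockCoeff, omega_blockCoeff, if_pos hχB, if_neg hψ, sub_zero]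
  apply not_memLocalIdeal_one hM
  rw [← h1, omega_eq_sum_classes (irr_classFunction χ) (blockCoeff_classFunction B),
    omega_eq_sum_classes (irr_classFunction ψ) (blockCoeff_classFunction B),
    ← Finset.sum_sub_distrib]
  apply memLocalIdeal_sum hM
  intro C _
  rw [← mul_sub]
  set g := Quotient.out C with hg
  by_cases hreg : p ∣ orderOf g
  · rw [blockCoeff_eq_zero_of_singular hM B hB hreg, zero_mul]
    exact memLocalIdeal_zero hM
  · by_cases ha : MemLocalIdeal M (blockCoeff B g)
    · exact memLocalIdeal_mul_right hM ha (memLocalRing_sub hM (centralChar_memLocalRing hM _ _)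
        (centralChar_memLocalRing hM _ _))
    · apply memLocalIdeal_mul_left hM (osima hM B hB _)
      have hle := factorization_centralizer_le_blockDefect hM B hB _ ha
      rw [hχ] at hle
      rcases hle.eq_or_lt with heq | hlt
      · exact h g hreg heq
      · apply memLocalIdeal_sub hM
        · by_contra hunit
          have := blockDefect_le_factorization_centralizer hM B hB g
            (centralChar_unit_of_exists hM B hB _ ⟨χ, hχB, hunit⟩)
          omega
        · by_contra hunit
          have := blockDefect_le_factorization_centralizer hM B' hB' g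
            (centralChar_unit_of_exists hM B' hB' _ ⟨ψ, hψB', hunit⟩)
          omega

end Cfsg.Agent.S4510
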