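import Cfsg.Statements.S4512
import Cfsg.Agent.Lib.Helper78.KminusL
import Cfsg.Agent.Lib.Helper78.KleinSylow
import Cfsg.Agent.Lib.Helper78.DefectTwo
import Cfsg.Agent.Lib.Helper42.PrincipalRank

set_option autoImplicit false
open Cfsg

namespace Cfsg.Agent.S4512

/-- If G is a finite group with a Sylow 2-subgroup that is a Klein four-group and a single conjugacy class of involutions, then its principal 2-block (relative to a maximal ideal M of the algebraic integers containing 2) has 2-regular rank 3: the restrictions of its irreducible characters to the elements of odd order span a space of dimension 3 (it has three irreducible Brauer characters). -/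
theorem result {G : Type*} [Group G] [Finite G] (M : Ideal Cfsg.AlgInt) (hM : Cfsg.IsPModular 2 M) (P : Sylow 2 G)
    (hP : Nat.card P = 4) (hexp : ∀ x : P, x * x = 1)
    (hone : ∀ s t : G, orderOf s = 2 → orderOf t = 2 → IsConj s t) :
    Cfsg.blockRank 2 (Cfsg.principalBlock M G) = 3 := by
  classical
  have : Fintype G := Fintype.ofFinite G
  have : Fact (Nat.Prime 2) := ⟨Nat.prime_two⟩
  have hfin : ∀ x : G, Finite (Cfsg.IrrCharacter (Subgroup.centralizer ({x} : Set G))) :=
    fun x => Cfsg.Agent.Lib.Helper20.finite_irrCharacter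
  have hfs : ∀ x : G, Fintype (Set (Cfsg.IrrCharacter (Subgroup.centralizer ({x} : Set G)))) :=
    fun x => Fintype.ofFinite _
  -- an involution in `P`
  obtain ⟨t', ht'⟩ : ∃ t' : P, t' ≠ 1 := by
    have : Nontrivial P := by
      rw [← Finite.one_lt_card_iff_nontrivial, hP]; norm_num
    exact exists_ne 1
  set t : G := (t' : G) with ht
  have htP : t ∈ (P : Subgroup G) := t'.2
  have ht1 : t ≠ 1 := fun h => ht' (Subtype.ext h)
  have ht2 : orderOf t = 2 := by
    apply orderOf_eq_prime
    · rw [pow_two]; exact congrArg Subtype.val (hexp t')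
    · exact ht1
  -- the defect
  have hdef : Cfsg.blockDefect 2 (Cfsg.principalBlock M G) = 2 := by
    rw [Cfsg.Agent.Lib.Helper78.blockDefect_principalBlock hM]
    have h1 := P.card_eq_multiplicity
    rw [hP] at h1
    have h2 : (2 : ℕ) ^ 2 = 2 ^ (Nat.card G).factorization 2 := by rw [← h1]; norm_num
    exact (Nat.pow_right_injective (le_refl 2) h2).symm
  have hk := Cfsg.Agent.Lib.Helper78.card_eq_four_of_defect_two hM
    (Cfsg.Agent.Lib.Helper80.isPBlock_principal M) hdef
  -- representatives
  have hne : (1 : G) ∉ ({t} : Finset G) := by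
    rw [Finset.mem_singleton]; exact fun h => ht1 h.symm
  have hX : ∀ x ∈ (insert (1 : G) ({t} : Finset G)), ∃ k : ℕ, orderOf x = 2 ^ k := by
    intro x hx
    rw [Finset.mem_insert, Finset.mem_singleton] at hx
    rcases hx with rfl | rfl
    · exact ⟨0, by simp⟩
    · exact ⟨1, by rw [ht2, pow_one]⟩
  have hXrep : ∀ g : G, (∃ k : ℕ, orderOf g = 2 ^ k) →
      ∃! x, x ∈ (insert (1 : G) ({t} : Finset G)) ∧ IsConj g x := by
    rintro g ⟨k, hgk⟩
    have hsq := Cfsg.Agent.Lib.Helper78.sq_eq_one_of_klein P hexp hgk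
    by_cases hg1 : g = 1
    · refine ⟨1, ⟨Finset.mem_insert_self _ _, by rw [hg1]⟩, ?_⟩
      rintro y ⟨-, hy⟩
      rw [hg1] at hy
      exact (isConj_one_right.1 hy)
    · have hg2 : orderOf g = 2 := by
        apply orderOf_eq_prime
        · rw [pow_two]; exact hsq
        · exact hg1
      refine ⟨t, ⟨Finset.mem_insert_of_mem (Finset.mem_singleton_self t), hone g t hg2 ht2⟩, ?_⟩
      rintro y ⟨hy1, hy2⟩
      rw [Finset.mem_insert, Finset.mem_singleton] at hy1
      rcases hy1 with rfl | rfl
      · exact absurd (isConj_one_right.1 hy2.symm) hg1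
      · rfl
  have key := Cfsg.Agent.Lib.Helper81.card_block_eq hM (Cfsg.principalBlock M G)
    (Cfsg.Agent.Lib.Helper80.isPBlock_principal M) (insert (1 : G) ({t} : Finset G)) hX hXrep
  rw [Finset.sum_insert hne, Finset.sum_singleton,
    Cfsg.Agent.Lib.Helper78.sum_induced_one hM _ (Cfsg.Agent.Lib.Helper80.isPBlock_principal M),
    Cfsg.Agent.Lib.Helper78.sum_induced_principal hM t ⟨1, by rw [ht2, pow_one]⟩,
    (Cfsg.Agent.Lib.Helper42.hasNormalPComplement_iff_blockRank 2 M hM).1
      (Cfsg.Agent.Lib.Helper78.hasNormalPComplement_centralizer_of_klein P hP hexp htP ht1),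
    hk] at key
  have key' : (4 : ℕ) = Cfsg.blockRank 2 (Cfsg.principalBlock M G) + 1 := by exact_mod_cast key
  omega

end Cfsg.Agent.S4512
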