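import Cfsg.Statements.S4513
import Cfsg.Agent.Lib.Helper78.DefectOne2
import Cfsg.Agent.Lib.Helper81.PrincipalSection
import Cfsg.Agent.S0944

set_option autoImplicit false
open Cfsg
open scoped ComplexConjugate
open Cfsg.Agent.Lib.Helper20 Cfsg.Agent.Lib.Helper81 Cfsg.Agent.Lib.Helper21 Cfsg.Agent.Lib.Helper78

namespace Cfsg.Agent.S4513

theorem sum_ite_mem_pair {α : Type*} [Fintype α] [DecidableEq α] (S : Set α)
    [DecidablePred (· ∈ S)] {a b : α} (ha : a ∈ S) (hb : b ∈ S) (hab : a ≠ b)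
    (hall : ∀ w ∈ S, w = a ∨ w = b) (f : α → ℂ) :
    ∑ w : α, (if w ∈ S then f w else 0) = f a + f b := by
  rw [← Finset.sum_filter]
  have : Finset.univ.filter (fun w => w ∈ S) = {a, b} := by
    ext w
    simp only [Finset.mem_filter, Finset.mem_univ, true_and, Finset.mem_insert,
      Finset.mem_singleton]
    constructor
    · exact hall w
    · rintro (rfl | rfl)
      · exact ha
      · exact hb
  rw [this, Finset.sum_pair hab]

/-- Blocks of defect one for p = 2. Let M be a maximal ideal of the algebraic integers containing 2, B a 2-block of the finite group G whose defect group is the subgroup generated by an involution x, C = C_G(x), b a block of C inducing B and θ a member of b taking the same value at x as at 1 (there is exactly one). Then B consists of exactly two irreducible characters, which agree on every element of odd order, and they can be labelled χ₁, χ₂ with signs ε₁, ε₂ = ±1, ε₁ε₂ = −1, such that χᵢ(x y) = εᵢ θ(y) for every element y of C of odd order. -/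
theorem result {G : Type*} [Group G] [Finite G] (M : Ideal Cfsg.AlgInt) (hM : Cfsg.IsPModular 2 M) (x : G) (hx : orderOf x = 2)
    (B : Set (Cfsg.IrrCharacter G)) (hB : Cfsg.IsPBlock M B) (hBD : Cfsg.IsDefectGroup 2 M B (Subgroup.zpowers x))
    (b : Set (Cfsg.IrrCharacter ↥(Subgroup.centralizer ({x} : Set G)))) (hb : Cfsg.IsInducedBlock M (Subgroup.centralizer ({x} : Set G)) b B)
    (θ : Cfsg.IrrCharacter ↥(Subgroup.centralizer ({x} : Set G))) (hθ : θ ∈ b)
    (hθx : ∀ z : ↥(Subgroup.centralizer ({x} : Set G)), (z : G) = x → (θ : ↥(Subgroup.centralizer ({x} : Set G)) → ℂ) z = (θ : ↥(Subgroup.centralizer ({x} : Set G)) → ℂ) 1) :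
    Nat.card B = 2 ∧ (∀ χ ∈ B, ∀ ψ ∈ B, ∀ g : G, ¬ 2 ∣ orderOf g → (χ : G → ℂ) g = (ψ : G → ℂ) g) ∧
      ∃ χ₁ ∈ B, ∃ χ₂ ∈ B, χ₁ ≠ χ₂ ∧ ∃ ε₁ ε₂ : ℤ, (ε₁ = 1 ∨ ε₁ = -1) ∧ (ε₂ = 1 ∨ ε₂ = -1) ∧ ε₁ * ε₂ = -1 ∧
        ∀ y : ↥(Subgroup.centralizer ({x} : Set G)), ¬ 2 ∣ orderOf y →
          (χ₁ : G → ℂ) (x * y) = (ε₁ : ℂ) * (θ : ↥(Subgroup.centralizer ({x} : Set G)) → ℂ) y ∧ (χ₂ : G → ℂ) (x * y) = (ε₂ : ℂ) * (θ : ↥(Subgroup.centralizer ({x} : Set G)) → ℂ) y := by
  classical
  have : Fintype G := Fintype.ofFinite G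
  have : Fact (Nat.Prime 2) := ⟨Nat.prime_two⟩
  have : Finite (IrrCharacter G) := Cfsg.Agent.Lib.Helper20.finite_irrCharacter
  have : Fintype (IrrCharacter G) := Fintype.ofFinite _
  have : Fintype (Subgroup.centralizer ({x} : Set G)) := Fintype.ofFinite _
  have : Finite (IrrCharacter (Subgroup.centralizer ({x} : Set G))) :=
    Cfsg.Agent.Lib.Helper20.finite_irrCharacter
  have : Fintype (IrrCharacter (Subgroup.centralizer ({x} : Set G))) := Fintype.ofFinite _
  have : Fintype (Set (IrrCharacter (Subgroup.centralizer ({x} : Set G)))) := Fintype.ofFinite _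
  have hdB : blockDefect 2 B = 1 := by
    have h1 := card_defectGroup hM B hB _ hBD
    rw [Nat.card_zpowers, hx] at h1
    have h2 : 2 ^ 1 = 2 ^ blockDefect 2 B := by rw [pow_one]; exact h1
    exact (Nat.pow_right_injective (le_refl 2) h2).symm
  have hCN := centralizer_eq_normalizer_of_orderOf_two hx
  have hxC : x ∈ Subgroup.centralizer ({x} : Set G) := by
    rw [Subgroup.mem_centralizer_singleton_iff]
  have hbD := isDefectGroup_of_induced hM hx hB hBD _ hxC hCN.le b hb
  have hdb : blockDefect 2 b = 1 := by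
    have h1 := card_defectGroup hM b hb.1 _ hbD
    have hzH : Subgroup.zpowers x ≤ Subgroup.centralizer ({x} : Set G) := by
      rw [Subgroup.zpowers_le]; exact hxC
    rw [Nat.card_congr (Subgroup.subgroupOfEquivOfLe hzH).toEquiv, Nat.card_zpowers, hx] at h1
    have h2 : 2 ^ 1 = 2 ^ blockDefect 2 b := by rw [pow_one]; exact h1
    exact (Nat.pow_right_injective (le_refl 2) h2).symm
  obtain ⟨χ₁, hχ₁⟩ := isPBlock_nonempty hM hB
  obtain ⟨χ₂, hχ₂, hne, hall, hreg, hsing⟩ := defect_one_structure hM hB hdB hχ₁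
  obtain ⟨θ', hθ', hne', hall', hreg', -⟩ := defect_one_structure hM hb.1 hdb hθ
  refine ⟨?_, ?_, ?_⟩
  · have hBeq : B = {χ₁, χ₂} := by
      ext w
      simp only [Set.mem_insert_iff, Set.mem_singleton_iff]
      constructor
      · exact hall w
      · rintro (rfl | rfl)
        · exact hχ₁
        · exact hχ₂
    rw [hBeq, Nat.card_coe_set_eq, Set.ncard_pair hne.symm]
  · intro χ hχ ψ hψ g hg
    rcases hall χ hχ with rfl | rfl <;> rcases hall ψ hψ with rfl | rfl
    · rfl
    · exact hreg g hg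
    · exact (hreg g hg).symm
    · rfl
  · refine ⟨χ₁, hχ₁, χ₂, hχ₂, hne.symm, ?_⟩
    -- the key identity
    have hxy : ∀ y : Subgroup.centralizer ({x} : Set G), ¬ 2 ∣ orderOf y →
        2 ∣ orderOf (x * (y : G)) := by
      intro y hy
      have hc : Commute x (y : G) := by
        have := Subgroup.mem_centralizer_singleton_iff.1 y.2
        exact this.symm
      have hcop : (orderOf x).Coprime (orderOf (y : G)) := by
        rw [hx, Subgroup.orderOf_coe]
        exact (Nat.Prime.coprime_iff_not_dvd Nat.prime_two).2 hy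
      rw [hc.orderOf_mul_eq_mul_orderOf_of_coprime hcop, hx]
      exact dvd_mul_right _ _
    have key : ∀ y y' : Subgroup.centralizer ({x} : Set G), ¬ 2 ∣ orderOf y → ¬ 2 ∣ orderOf y' →
        (χ₁ : G → ℂ) (x * (y : G)) * conj ((χ₁ : G → ℂ) (x * (y' : G)))
          = (θ : ↥(Subgroup.centralizer ({x} : Set G)) → ℂ) y * conj ((θ : ↥(Subgroup.centralizer ({x} : Set G)) → ℂ) y') := by
      intro y y' hy hy'
      have h1 := block_section_orth hM x ⟨1, by rw [hx, pow_one]⟩ B hB (y := y) (y' := y') hy hy'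
      rw [sum_ite_mem_pair B hχ₁ hχ₂ hne.symm hall, Finset.sum_eq_single b, if_pos hb,
        sum_ite_mem_pair b hθ hθ' hne'.symm hall'] at h1
      · rw [← hreg' y hy, ← hreg' y' hy'] at h1
        have e1 := hsing _ (hxy y hy)
        have e2 := hsing _ (hxy y' hy')
        have e1' : (χ₂ : G → ℂ) (x * (y : G)) = - (χ₁ : G → ℂ) (x * (y : G)) := by
          rw [e1, neg_neg]
        have e2' : (χ₂ : G → ℂ) (x * (y' : G)) = - (χ₁ : G → ℂ) (x * (y' : G)) := by
          rw [e2, neg_neg]
        rw [e1', e2', map_neg] at h1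
        have h2 : (2 : ℂ) * ((χ₁ : G → ℂ) (x * (y : G)) * conj ((χ₁ : G → ℂ) (x * (y' : G))))
            = 2 * ((θ : ↥(Subgroup.centralizer ({x} : Set G)) → ℂ) y * conj ((θ : ↥(Subgroup.centralizer ({x} : Set G)) → ℂ) y')) := by
          linear_combination h1
        exact mul_left_cancel₀ two_ne_zero h2
      · intro b' _ hb'
        rw [if_neg]
        intro hind
        exact hb' (induced_block_unique hM hx hB hBD _ hCN b' b hind hb)
      · intro h; exact absurd (Finset.mem_univ _) h
    obtain ⟨n, hn, -⟩ := Cfsg.Agent.S0944.result χ₁ x hx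
    have h1odd : ¬ 2 ∣ orderOf (1 : Subgroup.centralizer ({x} : Set G)) := by
      rw [orderOf_one]; decide
    set t := charDegree (θ : ↥(Subgroup.centralizer ({x} : Set G)) → ℂ) with ht
    have hθ1 : (θ : ↥(Subgroup.centralizer ({x} : Set G)) → ℂ) 1 = (t : ℂ) := irr_one_eq θ
    have ht0 : t ≠ 0 := charDegree_ne_zero θ
    have hsq : n ^ 2 = (t : ℤ) ^ 2 := by
      have h1 := key 1 1 h1odd h1odd
      simp only [Subgroup.coe_one, mul_one] at h1
      rw [hn, hθ1] at h1
      have h2 : ((n ^ 2 : ℤ) : ℂ) = (((t : ℤ) ^ 2 : ℤ) : ℂ) := by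
        push_cast
        simp only [map_intCast, map_natCast] at h1
        rw [pow_two, pow_two]; exact h1
      exact_mod_cast h2
    have hcases : n = t ∨ n = -(t : ℤ) := by
      have h1 : (n - t) * (n + t) = 0 := by ring_nf; rw [hsq]; ring
      rcases mul_eq_zero.1 h1 with h2 | h2
      · left; omega
      · right; omega
    have hval : ∀ y : Subgroup.centralizer ({x} : Set G), ¬ 2 ∣ orderOf y →
        (χ₁ : G → ℂ) (x * (y : G)) * (n : ℂ) = (θ : ↥(Subgroup.centralizer ({x} : Set G)) → ℂ) y * (t : ℂ) := by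
      intro y hy
      have h1 := key y 1 hy h1odd
      simp only [Subgroup.coe_one, mul_one] at h1
      rw [hn, hθ1] at h1
      simpa only [map_intCast, map_natCast] using h1
    have htC : (t : ℂ) ≠ 0 := by exact_mod_cast ht0
    rcases hcases with h | h
    · refine ⟨1, -1, Or.inl rfl, Or.inr rfl, by norm_num, ?_⟩
      intro y hy
      have h1 := hval y hy
      rw [h] at h1
      push_cast at h1
      have h2 : (χ₁ : G → ℂ) (x * (y : G)) = (θ : ↥(Subgroup.centralizer ({x} : Set G)) → ℂ) y := mul_right_cancel₀ htC h1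
      have e1 := hsing _ (hxy y hy)
      refine ⟨by rw [h2]; simp, ?_⟩
      have e1' : (χ₂ : G → ℂ) (x * (y : G)) = - (χ₁ : G → ℂ) (x * (y : G)) := by
        rw [e1, neg_neg]
      rw [e1', h2]; simp
    · refine ⟨-1, 1, Or.inr rfl, Or.inl rfl, by norm_num, ?_⟩
      intro y hy
      have h1 := hval y hy
      rw [h] at h1
      push_cast at h1
      have h2 : - (χ₁ : G → ℂ) (x * (y : G)) = (θ : ↥(Subgroup.centralizer ({x} : Set G)) → ℂ) y := by
        apply mul_right_cancel₀ htC
        linear_combination h1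
      have e1 := hsing _ (hxy y hy)
      have e1' : (χ₂ : G → ℂ) (x * (y : G)) = - (χ₁ : G → ℂ) (x * (y : G)) := by
        rw [e1, neg_neg]
      refine ⟨by rw [← h2]; simp, ?_⟩
      rw [e1', h2]; simp

end Cfsg.Agent.S4513
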