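import Cfsg.Statements.S4637
import Cfsg.Agent.Lib.Helper5.FreeCount
import Cfsg.Agent.Lib.Helper5.KleinAct
import Cfsg.Agent.Lib.Helper78.DefectTwo

set_option autoImplicit false
open Cfsg

namespace Cfsg.Agent.S4637

open Cfsg.Agent.Lib.Helper5
open Cfsg.Agent.Lib.Helper20 Cfsg.Agent.Lib.Helper81 Cfsg.Agent.Lib.Helper80
open Cfsg.Agent.Lib.Helper80.GA

/-- Let B be a block of the finite group G relative to a maximal ideal M of the algebraic integers containing 2, with a Klein four defect group P. Let c be a block of C_G(P) inducing B, T the stabilizer of c in N_G(P) and e the index of C_G(P) in T (the inertial index). Then e is 1 or 3, B contains exactly four irreducible characters, and the 2-regular rank of B (its number of irreducible Brauer characters) equals e. -/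
theorem result {G : Type*} [Group G] [Finite G] (M : Ideal Cfsg.AlgInt) (hM : Cfsg.IsPModular 2 M) (B : Set (Cfsg.IrrCharacter G)) (hB : Cfsg.IsPBlock M B) (P : Subgroup G) (hPD : Cfsg.IsDefectGroup 2 M B P) (hV : IsKleinFour P) (c : Set (Cfsg.IrrCharacter (Subgroup.centralizer (P : Set G)))) (hc : Cfsg.IsInducedBlock M (Subgroup.centralizer (P : Set G)) c B) (T : Subgroup G) (hT : ∀ g : G, g ∈ T ↔ (g ∈ Subgroup.normalizer (P : Set G) ∧ Cfsg.StabilizesBlock (Subgroup.centralizer (P : Set G)) c g)) (e : ℕ) (he : (Subgroup.centralizer (P : Set G)).relIndex T = e) : (e = 1 ∨ e = 3) ∧ Nat.card B = 4 ∧ Cfsg.blockRank 2 B = e := by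
  haveI : Fintype G := Fintype.ofFinite G
  haveI : Fact (Nat.Prime 2) := ⟨Nat.prime_two⟩
  have hab : ∀ x ∈ P, ∀ y ∈ P, x * y = y * x := fun x hx y hy => klein_comm P hV hx hy
  have hmax := inert_isMaxBP hM hPD hc
  have hTN : T ≤ Subgroup.normalizer (P : Set G) := fun g hg => ((hT g).1 hg).1
  have hTp := inert_pSub hM hPD hab hc hT
  have hfree : ∀ g ∈ T, ∀ x ∈ P, x ≠ 1 → g * x * g⁻¹ = x →
      g ∈ Subgroup.centralizer (P : Set G) :=
    fun g hg x hx hx1 hfix => klein_free hV hTN hTp hg hx hx1 hfix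
  have hTe : T = stabP P (bl hM (Cn P) c) := eq_stabP_of_forall hM hc.1 hT
  have hCPT : Cn P ≤ T := by
    rw [hTe]; exact Cn_le_stabP hmax.1.1.2.inZ
  have hidx := klein_index hV hTN hCPT hTp
  rw [he] at hidx
  have hd : blockDefect 2 B = 2 := by
    have h1 := Cfsg.Agent.Lib.Helper21.card_defectGroup hM B hB P hPD
    rw [IsKleinFour.card_four] at h1
    have h2 : (2 : ℕ) ^ 2 = 2 ^ blockDefect 2 B := by rw [← h1]; norm_num
    exact (Nat.pow_right_injective (le_refl 2) h2).symm
  have hk : Nat.card B = 4 := Cfsg.Agent.Lib.Helper78.card_eq_four_of_defect_two hM hB hd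
  refine ⟨hidx, hk, ?_⟩
  rcases hidx with h1 | h3
  · -- nilpotent
    rw [h1] at he
    have hTC : T ≤ Cn P := Subgroup.relIndex_eq_one.1 he
    have hN : P ⊔ Cn P ≤ stabP P (bl hM (Cn P) c) :=
      sup_le (le_stabP hmax.1.1.2.inZ) (Cn_le_stabP hmax.1.1.2.inZ)
    have hblk : IsBlk (P ⊔ Cn P) (bl hM (Cn P) c) :=
      hmax.1.1.isBlk_of_fix le_sup_left le_sup_right (hN.trans (stabP_le_Nn P _))
        ((fixBy_stabP P _).mono hN)
    have hnilB : NilB 2 (blkR hM B) :=
      (hmax.abelian_nilB_iff hab (split_sub hM hblk)).2 (hTe ▸ hTC)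
    have hnil : IsNilpotentBlock 2 M B := (isNilpotentBlock_iff hM hB).2 hnilB
    rw [h1]
    exact (abnil hM hnil (abelian_all_defect hM hB hPD hab)).1
  · rw [h3] at he
    have hnot : ¬ T ≤ Cn P := by
      intro h
      rw [Subgroup.relIndex_eq_one.2 h] at he
      omega
    obtain ⟨t, ht, htC⟩ := SetLike.not_le_iff_exists.1 hnot
    have hP1 : P ≠ ⊥ := by
      intro h
      have h4 := IsKleinFour.card_four (G := P)
      rw [h, Subgroup.card_bot] at h4
      omega
    have hfree' : ∀ g ∈ stabP P (bl hM (Cn P) c), ∀ x ∈ P, x ≠ 1 → g * x * g⁻¹ = x →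
        g ∈ Cn P := by
      rw [← hTe]; exact hfree
    have htrans : ∀ u ∈ P, u ≠ 1 → ∀ u' ∈ P, u' ≠ 1 →
        ∃ s ∈ stabP P (bl hM (Cn P) c), s * u * s⁻¹ = u' := by
      rw [← hTe]
      intro u hu hu1 u' hu' hu1'
      exact klein_trans hV hTN hfree ht htC hu hu1 hu' hu1'
    have := card_eq_rank_add_one hM hB hmax hPD hP1 hab hfree' htrans
    omega

end Cfsg.Agent.S4637
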