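import Cfsg.Statements.S4638
import Cfsg.Agent.Lib.Helper5.KleinMain
import Cfsg.Agent.Lib.Helper80.GACorrNil
import Cfsg.Agent.Lib.Helper20.KleinPerf

set_option autoImplicit false
set_option linter.style.haveILetI false
open Cfsg

namespace Cfsg.Agent.S4638

open Cfsg.Agent.Lib.Helper5


theorem result {G : Type*} [Group G] [Finite G] (M : Ideal Cfsg.AlgInt) (hM : Cfsg.IsPModular 2 M) (B : Set (Cfsg.IrrCharacter G)) (hB : Cfsg.IsPBlock M B) (P : Subgroup G) (hPD : Cfsg.IsDefectGroup 2 M B P) (hV : IsKleinFour P) (c : Set (Cfsg.IrrCharacter (Subgroup.normalizer (P : Set G)))) (hcD : Cfsg.IsDefectGroup 2 M c (P.subgroupOf (Subgroup.normalizer (P : Set G)))) (hc : Cfsg.IsInducedBlock M (Subgroup.normalizer (P : Set G)) c B) : ∃ (I : Cfsg.IrrCharacter (Subgroup.normalizer (P : Set G)) → Cfsg.IrrCharacter G) (ε : Cfsg.IrrCharacter (Subgroup.normalizer (P : Set G)) → ℤ), Cfsg.IsPerfectIsometry 2 M c B I ε := by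
  haveI : Fintype G := Fintype.ofFinite G
  haveI : Fintype (Subgroup.normalizer (P : Set G)) := Fintype.ofFinite _
  haveI : Fact (Nat.Prime 2) := ⟨Nat.prime_two⟩
  have hab : ∀ x ∈ P, ∀ y ∈ P, x * y = y * x := fun x hx y hy => klein_comm P hV hx hy
  have hV' : IsKleinFour (P.subgroupOf (Subgroup.normalizer (P : Set G))) := by
    have e := Subgroup.subgroupOfEquivOfLe (Subgroup.le_normalizer (H := P))
    exact ⟨by rw [Nat.card_congr e.toEquiv]; exact hV.card_four,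
      by rw [Monoid.exponent_eq_of_mulEquiv e]; exact hV.exponent_two⟩
  have hiff := Cfsg.Agent.Lib.Helper80.nilpotent_corr_iff hM hPD hab hcD hc
  have hKB := kdata_of_klein hM hB hPD hV
  have hKc := kdata_of_klein hM hc.1 hcD hV'
  apply Cfsg.Agent.Lib.Helper20.perfect_of_kdata hM hKB hKc
  rcases klein_rank hM hB hPD hV with ⟨hn, hl⟩ | ⟨hn, hl⟩
  · rcases klein_rank hM hc.1 hcD hV' with ⟨hn', hl'⟩ | ⟨hn', hl'⟩
    · exact Or.inl ⟨kr1_of_rank hM hB (klein_defect hM hB hPD hV) hl,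
        kr1_of_rank hM hc.1 (klein_defect hM hc.1 hcD hV') hl'⟩
    · exact absurd (hiff.2 hn) hn'
  · rcases klein_rank hM hc.1 hcD hV' with ⟨hn', hl'⟩ | ⟨hn', hl'⟩
    · exact absurd (hiff.1 hn') hn
    · exact Or.inr ⟨kr3_of_rank hM hB hPD hV hl, kr3_of_rank hM hc.1 hcD hV' hl'⟩

end Cfsg.Agent.S4638
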