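import Cfsg.Statements.S4672
-- import your own Cfsg.Agent.* helpers here
import Cfsg.Agent.Lib.Helper80.GAPIndexT

set_option autoImplicit false
open Cfsg

namespace Cfsg.Agent.S4672

open Cfsg.Agent.Lib.Helper80 Cfsg.Agent.Lib.Helper80.GA


/-- Fix a prime p and a maximal ideal M of the algebraic integers containing p. Let N be a normal subgroup of the finite group G of p-power index and c a p-block of N stable under conjugation by G. Then the idempotent of c is a block idempotent of G: there is a p-block B of G whose idempotent coefficients agree with those of c on N and vanish off N; and for every defect group P of such a block B, G = NP and P ∩ N is a defect group of c. -/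
theorem result {G : Type*} [Group G] [Fintype G] (p : ℕ) [Fact p.Prime] (M : Ideal Cfsg.AlgInt) (hM : Cfsg.IsPModular p M) (N : Subgroup G) [N.Normal] (hN : ∃ k : ℕ, N.index = p ^ k) (c : Set (Cfsg.IrrCharacter N)) (hc : Cfsg.IsPBlock M c) (hst : ∀ x : G, Cfsg.StabilizesBlock N c x) : (∃ B : Set (Cfsg.IrrCharacter G), Cfsg.IsPBlock M B ∧ ∀ g : G, Cfsg.blockCoeff B g = Cfsg.subgroupBlockCoeff N c g) ∧ ∀ B : Set (Cfsg.IrrCharacter G), Cfsg.IsPBlock M B → (∀ g : G, Cfsg.blockCoeff B g = Cfsg.subgroupBlockCoeff N c g) → ∀ P : Subgroup G, Cfsg.IsDefectGroup p M B P → N ⊔ P = ⊤ ∧ Cfsg.IsDefectGroup p M c ((P ⊓ N).subgroupOf N) := by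
  have hNtop : ⊤ ≤ Nn N := by
    show ⊤ ≤ Subgroup.normalizer (N : Set G)
    rw [Subgroup.normalizer_eq_top]
  have hreg := mem_of_regular_of_index (p := p) hN
  have hblkN : IsBlk N (bl hM N c) := isBlk_bl hM N hc
  have hfix : FixBy ⊤ (bl hM N c) := fixBy_top_of_stabilizes hM hc hst
  have hblk : IsBlk ⊤ (bl hM N c) :=
    (osima_Kr hM).isBlk_of_fix le_top (fun x _ hx => hreg x hx) hblkN hfix
  constructor
  · obtain ⟨B, hB, hBe⟩ := exists_block_of_isBlk hM hblk
    exact ⟨B, hB, blockCoeff_eq_of_blkR_eq hM hNtop hB hc hBe.symm⟩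
  · intro B hB hBc P hP
    have hdef : IsDef p ⊤ (bl hM N c) P := by
      rw [← blkR_eq_bl_of_forall hM hBc]
      exact isDef_of_isDefectGroup hM hB hP
    constructor
    · obtain ⟨S⟩ : Nonempty (Sylow p G) := inferInstance
      obtain ⟨y, _, hy⟩ := hdef.le_conj_sup hblkN le_top hNtop hfix (split_sub hM hblkN)
        (le_top : (S : Subgroup G) ≤ ⊤) S.2
      have h1 : N ⊔ (S : Subgroup G) = ⊤ :=
        Cfsg.Agent.Lib.Helper77.sup_sylow_eq_top p N (fun g hg =>
          hreg g ((Nat.Prime.coprime_iff_not_dvd Fact.out).1 hg.symm)) S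
      have h2 : cS y (P ⊔ N) = ⊤ := by
        rw [cS_sup, cS_eq_self_of_mem_Nn (hNtop (Subgroup.mem_top y)), eq_top_iff, ← h1]
        exact sup_le le_sup_right hy
      rw [eq_top_iff]
      intro g _
      have h3 : y * g * y⁻¹ ∈ cS y (P ⊔ N) := by rw [h2]; exact Subgroup.mem_top _
      rw [mem_cS] at h3
      rw [sup_comm]
      simpa [mul_assoc] using h3
    · exact isDefectGroup_of_isDef_sub hM N hc (hdef.inf_normal hblkN le_top hNtop)

end Cfsg.Agent.S4672
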