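import Cfsg.Statements.S4640
import Cfsg.Agent.Lib.Helper5.MajorNV
import Cfsg.Agent.Lib.Helper5.AbQuot
import Cfsg.Agent.Lib.Helper80.GAPIndexT
import Cfsg.Agent.S4672

set_option autoImplicit false
open Cfsg

namespace Cfsg.Agent.S4640

open Cfsg.Agent.Lib.Helper5
open Cfsg.Agent.Lib.Helper20 Cfsg.Agent.Lib.Helper81 Cfsg.Agent.Lib.Helper80
open Cfsg.Agent.Lib.Helper80.GA

/-- Let N be a normal subgroup of the finite group G of index a power of the prime p, M a maximal ideal of the algebraic integers containing p, b a block of N stabilized by every element of G, and B a block of G covering b (some member of B has a member of b as a constituent of its restriction to N). Suppose that B has a commutative defect group P. Then G = NP and P ∩ N is a defect group of b; every member of B restricts to a member of b; every member of b is the restriction of exactly [G : N] members of B; B contains exactly [G : N] times as many irreducible characters as b; and B and b have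 the same p-regular rank. -/
theorem result {G : Type*} [Group G] [Fintype G] (p : ℕ) [Fact p.Prime] (M : Ideal Cfsg.AlgInt) (hM : Cfsg.IsPModular p M) (N : Subgroup G) [N.Normal] [Fintype N] (hNi : ∃ k : ℕ, N.index = p ^ k) (b : Set (Cfsg.IrrCharacter N)) (hb : Cfsg.IsPBlock M b) (hstab : ∀ g : G, Cfsg.StabilizesBlock N b g) (B : Set (Cfsg.IrrCharacter G)) (hB : Cfsg.IsPBlock M B) (hcov : ∃ χ ∈ B, ∃ θ ∈ b, Cfsg.classInner (fun n : N => (χ : G → ℂ) n) (θ : N → ℂ) ≠ 0) (P : Subgroup G) (hPD : Cfsg.IsDefectGroup p M B P) (hPab : ∀ x ∈ P, ∀ y ∈ P, x * y = y * x) : N ⊔ P = ⊤ ∧ Cfsg.IsDefectGroup p M b ((P ⊓ N).subgroupOf N) ∧ (∀ χ ∈ B, ∃ θ ∈ b, ∀ n : N, (χ : G → ℂ) n = (θ : N → ℂ) n) ∧ (∀ θ ∈ b, Nat.card {χ : Cfsg.IrrCharacter G // χ ∈ B ∧ ∀ n : N, (χ : G → ℂ) n = (θ : N → ℂ) n} = N.index) ∧ Nat.card B = N.index * Nat.card b ∧ Cfsg.blockRank p B = Cfsg.blockRank p b := by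
  classical
  have hNn : N.Normal := inferInstance
  have hNtop : ⊤ ≤ Nn N := by
    show ⊤ ≤ Subgroup.normalizer (N : Set G)
    rw [Subgroup.normalizer_eq_top]
  have hreg := mem_of_regular_of_index (p := p) hNi
  have hblkN : IsBlk N (bl hM N b) := isBlk_bl hM N hb
  have hfix : FixBy ⊤ (bl hM N b) := fixBy_top_of_stabilizes hM hb hstab
  have hblk : IsBlk ⊤ (bl hM N b) :=
    (osima_Kr hM).isBlk_of_fix le_top (fun x _ hx => hreg x hx) hblkN hfix
  have hne := (Cfsg.Agent.Lib.Helper29.Kn.covers_iff_mul_ne_zero hM hNn hB hb).1 hcov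
  have hBb : blkR hM B = bl hM N b := by
    rcases (isBlk_blkR hM hB).eq_or_orth hblk with h | h
    · exact h
    · exact absurd h hne
  have hBc := blockCoeff_eq_of_blkR_eq hM hNtop hB hb hBb
  obtain ⟨h1, h2⟩ := (Cfsg.Agent.S4672.result p M hM N hNi b hb hstab).2 B hB hBc P hPD
  -- membership transfer
  have hmem : ∀ (χ : IrrCharacter G) (θ : IrrCharacter N),
      classInner (fun n : N => (χ : G → ℂ) n) (θ : N → ℂ) ≠ 0 → (χ ∈ B ↔ θ ∈ b) := by
    intro χ θ hχθ
    have hB1 : IsPBlock M (blockOf M (χ : G → ℂ)) := ⟨χ, rfl⟩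
    have hb1 : IsPBlock M (blockOf M (θ : N → ℂ)) := ⟨θ, rfl⟩
    have hne1 := (Cfsg.Agent.Lib.Helper29.Kn.covers_iff_mul_ne_zero hM hNn hB1 hb1).1
      ⟨χ, mem_blockOf_self hM χ, θ, mem_blockOf_self hM θ, hχθ⟩
    constructor
    · intro hχ
      rw [← isPBlock_eq_blockOf hM hB hχ, hBb] at hne1
      rcases hblkN.eq_or_orth (isBlk_bl hM N hb1) with h | h
      · rw [bl_injective hM N hb hb1 h]; exact mem_blockOf_self hM θ
      · exact absurd h hne1
    · intro hθ
      rw [← isPBlock_eq_blockOf hM hb hθ, ← hBb] at hne1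
      rcases (isBlk_blkR hM hB1).eq_or_orth (isBlk_blkR hM hB) with h | h
      · rw [← blkR_injective hM hB1 hB h]; exact mem_blockOf_self hM χ
      · exact absurd h hne1
  -- the quotient is abelian
  have hdecomp : ∀ g : G, ∃ n ∈ N, ∃ u ∈ P, g = n * u := by
    intro g
    have hg : g ∈ N ⊔ P := by rw [h1]; trivial
    rw [← SetLike.mem_coe, Subgroup.normal_mul] at hg
    obtain ⟨n, hn, u, hu, rfl⟩ := Set.mem_mul.1 hg
    exact ⟨n, hn, u, hu, rfl⟩
  have habq : ∀ x y : G, x * y * x⁻¹ * y⁻¹ ∈ N := by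
    intro x y
    obtain ⟨n, hn, u, hu, rfl⟩ := hdecomp x
    obtain ⟨m, hm, v, hv, rfl⟩ := hdecomp y
    rw [← QuotientGroup.eq_one_iff]
    simp only [QuotientGroup.mk_mul, QuotientGroup.mk_inv, (QuotientGroup.eq_one_iff n).2 hn,
      (QuotientGroup.eq_one_iff m).2 hm, one_mul]
    rw [← QuotientGroup.mk_mul, hPab u hu v hv, QuotientGroup.mk_mul]
    group
  -- no twist fixes a member of `B`
  have hNV : ∀ χ ∈ B, ∀ a : G →* ℂˣ, (∀ n ∈ N, a n = 1) →
      (∀ g, (a g : ℂ) * (χ : G → ℂ) g = (χ : G → ℂ) g) → a = 1 := by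
    intro χ hχ a haN hfixa
    ext g
    obtain ⟨n, hn, u, hu, rfl⟩ := hdecomp g
    obtain ⟨s, hs, hsne⟩ := exists_ne_zero_section hM hB hPD hPab hu hχ
    have h3 := hfixa (u * s)
    have h4 : ((a (u * s) : ℂˣ) : ℂ) = 1 := by
      have := mul_right_cancel₀ hsne (h3.trans (one_mul _).symm)
      exact this
    rw [map_mul, haN s (hreg s hs), mul_one] at h4
    rw [map_mul, haN n hn, one_mul, MonoidHom.one_apply, Units.val_one]
    exact h4
  have hirr : ∀ χ ∈ B, IsIrrCharacter N (fun n : N => (χ : G → ℂ) n) := fun χ hχ =>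
    restrict_irr_of_no_twist N habq χ.2 (hNV χ hχ)
  have h3 : ∀ χ ∈ B, ∃ θ ∈ b, ∀ n : N, (χ : G → ℂ) n = (θ : N → ℂ) n := by
    intro χ hχ
    refine ⟨⟨_, hirr χ hχ⟩, ?_, fun n => rfl⟩
    apply (hmem χ ⟨_, hirr χ hχ⟩ ?_).1 hχ
    rw [classInner_irr_self (hirr χ hχ)]
    exact one_ne_zero
  have h4 : ∀ θ ∈ b, Nat.card {χ : IrrCharacter G // χ ∈ B ∧
      ∀ n : N, (χ : G → ℂ) n = (θ : N → ℂ) n} = N.index := by
    intro θ hθ
    obtain ⟨χ₀, hχ₀, hc⟩ := Cfsg.Agent.Lib.Helper79.exists_irr_over N θ.2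
    have hχ₀B : (⟨χ₀, hχ₀⟩ : IrrCharacter G) ∈ B := (hmem ⟨χ₀, hχ₀⟩ θ hc).2 hθ
    have hres : (fun n : N => χ₀ n) = (θ : N → ℂ) := by
      by_contra hne'
      exact hc (classInner_irr_ne (hirr _ hχ₀B) θ.2 hne')
    rw [← card_extensions N habq ⟨χ₀, hχ₀⟩ (hirr _ hχ₀B) (hNV _ hχ₀B)]
    apply Nat.card_congr
    refine ⟨fun χ => ⟨χ.1, fun n => by rw [χ.2.2 n]; exact (congrFun hres n).symm⟩,
      fun χ => ⟨χ.1, ?_, fun n => by rw [χ.2 n]; exact congrFun hres n⟩,
      fun χ => rfl, fun χ => rfl⟩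
    apply (hmem χ.1 θ ?_).2 hθ
    have : (fun n : N => (χ.1 : G → ℂ) n) = (θ : N → ℂ) := by
      funext n; rw [χ.2 n]; exact congrFun hres n
    rw [this, classInner_irr_self θ.2]
    exact one_ne_zero
  haveI : Finite (IrrCharacter G) := finite_irrCharacter
  haveI : Finite (IrrCharacter N) := finite_irrCharacter
  refine ⟨h1, h2, h3, h4, ?_, ?_⟩
  · choose r hrb hr using h3
    let R : B → b := fun χ => ⟨r χ.1 χ.2, hrb χ.1 χ.2⟩
    haveI : Fintype b := Fintype.ofFinite _
    rw [Nat.card_congr (Equiv.sigmaFiberEquiv R).symm, Nat.card_sigma]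
    have hfib : ∀ θ : b, Nat.card {χ : B // R χ = θ} = N.index := by
      intro θ
      rw [← h4 θ.1 θ.2]
      apply Nat.card_congr
      refine ⟨fun χ => ⟨χ.1.1, χ.1.2, fun n => by
          rw [hr χ.1.1 χ.1.2 n]
          have := congrArg (fun t : b => ((t : IrrCharacter N) : N → ℂ) n) χ.2
          exact this⟩,
        fun χ => ⟨⟨χ.1, χ.2.1⟩, Subtype.ext (Subtype.ext (funext fun n =>
          (hr χ.1 χ.2.1 n).symm.trans (χ.2.2 n)))⟩, fun χ => rfl, fun χ => rfl⟩
    rw [Finset.sum_congr rfl (fun θ _ => hfib θ), Finset.sum_const, Finset.card_univ,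
      Nat.card_eq_fintype_card, smul_eq_mul, mul_comm]
  · let E : (N → ℂ) →ₗ[ℂ] (G → ℂ) :=
      { toFun := fun f g => if h : g ∈ N then f ⟨g, h⟩ else 0
        map_add' := by
          intro f f'
          funext g
          by_cases h : g ∈ N
          · simp [h]
          · simp [h]
        map_smul' := by
          intro c f
          funext g
          by_cases h : g ∈ N
          · simp [h]
          · simp [h] }
    have hE : Function.Injective E := by
      intro f f' hff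
      funext n
      have := congrFun hff (n : G)
      simpa [E] using this
    have hkey : ∀ (χ : IrrCharacter G) (θ : IrrCharacter N),
        (∀ n : N, (χ : G → ℂ) n = (θ : N → ℂ) n) →
        E (pRegularPart p (θ : N → ℂ)) = pRegularPart p (χ : G → ℂ) := by
      intro χ θ hχθ
      funext g
      rw [pRegularPart_eq, pRegularPart_eq]
      by_cases h : g ∈ N
      · have h5 : IsPRegular p (⟨g, h⟩ : N) ↔ IsPRegular p g := by
          unfold IsPRegular; rw [Subgroup.orderOf_mk]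
        show (if h : g ∈ N then (fun n : N => if IsPRegular p n then (θ : N → ℂ) n else 0) ⟨g, h⟩
          else 0) = _
        rw [dif_pos h]
        by_cases h6 : IsPRegular p g
        · simp only [if_pos h6, if_pos (h5.2 h6)]
          exact (hχθ ⟨g, h⟩).symm
        · simp only [if_neg h6, if_neg (fun h7 => h6 (h5.1 h7))]
      · show (if h : g ∈ N then (fun n : N => if IsPRegular p n then (θ : N → ℂ) n else 0) ⟨g, h⟩
          else 0) = _
        rw [dif_neg h]
        have h6 : ¬ IsPRegular p g := fun h7 => h (hreg g h7)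
        simp only [if_neg h6]
    have himg : (fun χ : IrrCharacter G => pRegularPart p (χ : G → ℂ)) '' B
        = E '' ((fun θ : IrrCharacter N => pRegularPart p (θ : N → ℂ)) '' b) := by
      ext F
      constructor
      · rintro ⟨χ, hχ, rfl⟩
        obtain ⟨θ, hθ, hχθ⟩ := h3 χ hχ
        exact ⟨_, ⟨θ, hθ, rfl⟩, hkey χ θ hχθ⟩
      · rintro ⟨_, ⟨θ, hθ, rfl⟩, rfl⟩
        have hpos : 0 < Nat.card {χ : IrrCharacter G // χ ∈ B ∧
            ∀ n : N, (χ : G → ℂ) n = (θ : N → ℂ) n} := by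
          rw [h4 θ hθ]
          exact Nat.pos_of_ne_zero N.index_ne_zero_of_finite
        obtain ⟨χ⟩ := (Nat.card_pos_iff.1 hpos).1
        exact ⟨χ.1, χ.2.1, (hkey χ.1 θ χ.2.2).symm⟩
    unfold blockRank
    rw [himg, ← Submodule.map_span]
    exact (LinearEquiv.finrank_eq (Submodule.equivMapOfInjective E hE _)).symm

end Cfsg.Agent.S4640
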