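import Cfsg.Statements.S4644
import Cfsg.Agent.Lib.Helper83.Wat.MAIN
import Cfsg.Agent.Lib.Helper20.FreeNil
import Cfsg.Agent.Lib.Helper80.GAStab

set_option autoImplicit false
open Cfsg
open Cfsg.Agent.Lib.Helper80 Cfsg.Agent.Lib.Helper80.GA Cfsg.Agent.Lib.Helper81 Cfsg.Agent.Lib.Helper83.Wat

namespace Cfsg.Agent.S4644

/-- Let B be a block of the finite group G relative to a maximal ideal M of the algebraic integers containing the prime p, with a commutative defect group P; let c be a block of C_G(P) inducing B and T the stabilizer of c in N_G(P). Let u be an element of P fixed under conjugation by every element of T, H = C_G(u) (so C_G(P) ≤ H), and f the block of H induced by c inside H. Then B and f have the same p-regular rank and the same number of irreducible characters. -/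
theorem result {G : Type*} [Group G] [Finite G] (p : ℕ) [Fact p.Prime] (M : Ideal Cfsg.AlgInt) (hM : Cfsg.IsPModular p M) (B : Set (Cfsg.IrrCharacter G)) (hB : Cfsg.IsPBlock M B) (P : Subgroup G) (hPD : Cfsg.IsDefectGroup p M B P) (hPab : ∀ x ∈ P, ∀ y ∈ P, x * y = y * x) (c : Set (Cfsg.IrrCharacter (Subgroup.centralizer (P : Set G)))) (hc : Cfsg.IsInducedBlock M (Subgroup.centralizer (P : Set G)) c B) (T : Subgroup G) (hT : ∀ g : G, g ∈ T ↔ (g ∈ Subgroup.normalizer (P : Set G) ∧ Cfsg.StabilizesBlock (Subgroup.centralizer (P : Set G)) c g)) (u : G) (hu : u ∈ P) (huT : ∀ g ∈ T, g * u * g⁻¹ = u) (H : Subgroup G) (hH : H = Subgroup.centralizer ({u} : Set G)) (f : Set (Cfsg.IrrCharacter H)) (hf : Cfsg.IsInducedBlockIn M H (Subgroup.centralizer (P : Set G)) c f) : Cfsg.blockRank p B = Cfsg.blockRank p f ∧ Nat.card B = Nat.card f := by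
  classical
  haveI : Fintype G := Fintype.ofFinite G
  subst hH
  have hmax : IsMaxBP p (blkR hM B) P (bl hM (Cn P) c) :=
    isMaxBP_of_isMaximalBrauerPair hM (isMaximalBrauerPair_of_isInducedBlock hM hPD hc)
  have he : IsBP p P (bl hM (Cn P) c) := hmax.1.1
  have hTe : T = stabP P (bl hM (Cn P) c) := eq_stabP_of_forall hM hc.1 hT
  have hPC : P ≤ Cn P := le_Cn_of_abelian hPab le_rfl
  have hCle : Cn P ≤ Cx u := by
    rw [Cx_eq]
    exact Cn_anti (by rw [Subgroup.zpowers_le]; exact hu)
  have hbr : br P (bl hM (Cx u) f) * bl hM (Cn P) c = bl hM (Cn P) c :=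
    Cfsg.Agent.Lib.Helper29.Kn.br_mul_bl_of_inducedIn hM he.1 hPC hCle inf_le_left (Cn_le_Nn P) hf
  have hbel : Bel hM P (bl hM (Cn P) c) (Cx u) f := ⟨hf.2.1, hbr⟩
  have hfix : ∀ g ∈ stabP P (bl hM (Cn P) c), g * u * g⁻¹ = u := by
    intro g hg
    exact huT g (by rw [hTe]; exact hg)
  exact ⟨watl hM G B P _ hB hmax hPab u hu hfix f hbel, watk hM hB hmax hPab hu hfix hbel⟩

end Cfsg.Agent.S4644
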