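import Cfsg.Statements.S4645
import Cfsg.Agent.Lib.Helper5.FreeNil

set_option autoImplicit false
open Cfsg

namespace Cfsg.Agent.S4645

open Cfsg.Agent.Lib.Helper5
open Cfsg.Agent.Lib.Helper20 Cfsg.Agent.Lib.Helper81 Cfsg.Agent.Lib.Helper80
open Cfsg.Agent.Lib.Helper80.GA

/-- Let B be a block of the finite group G relative to a maximal ideal M of the algebraic integers containing the prime p, with a nontrivial cyclic defect group P; let c be a block of C_G(P) inducing B and T the stabilizer of c in N_G(P). Let Q be a nontrivial subgroup of P (so C_G(P) ≤ C_G(Q)), f the block of C_G(Q) induced by c inside C_G(Q), and T' the stabilizer of f in N_G(Q). Then T' = T·C_G(Q), the index of C_G(Q) in T' equals the index of C_G(P) in T, f has p-regular rank 1, and f is a nilpotent block of C_G(Q). -/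
theorem result {G : Type*} [Group G] [Finite G] (p : ℕ) [Fact p.Prime] (M : Ideal Cfsg.AlgInt) (hM : Cfsg.IsPModular p M) (B : Set (Cfsg.IrrCharacter G)) (hB : Cfsg.IsPBlock M B) (P : Subgroup G) (hPD : Cfsg.IsDefectGroup p M B P) (hP1 : P ≠ ⊥) (hcyc : IsCyclic P) (c : Set (Cfsg.IrrCharacter (Subgroup.centralizer (P : Set G)))) (hc : Cfsg.IsInducedBlock M (Subgroup.centralizer (P : Set G)) c B) (T : Subgroup G) (hT : ∀ g : G, g ∈ T ↔ (g ∈ Subgroup.normalizer (P : Set G) ∧ Cfsg.StabilizesBlock (Subgroup.centralizer (P : Set G)) c g)) (Q : Subgroup G) (hQP : Q ≤ P) (hQ1 : Q ≠ ⊥) (f : Set (Cfsg.IrrCharacter (Subgroup.centralizer (Q : Set G)))) (hf : Cfsg.IsInducedBlockIn M (Subgroup.centralizer (Q : Set G)) (Subgroup.centralizer (P : Set G)) c f) (T' : Subgroup G) (hT' : ∀ g : G, g ∈ T' ↔ (g ∈ Subgroup.normalizer (Q : Set G) ∧ Cfsg.StabilizesBlock (Subgroup.centralizer (Q : Set G)) f g)) : T' = T ⊔ Subgroup.centralizer (Q : Set G)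 ∧ (Subgroup.centralizer (Q : Set G)).relIndex T' = (Subgroup.centralizer (P : Set G)).relIndex T ∧ Cfsg.blockRank p f = 1 ∧ Cfsg.IsNilpotentBlock p M f := by
  haveI : Fintype G := Fintype.ofFinite G
  have hab := comm_of_isCyclic hcyc
  have hmax := inert_isMaxBP hM hPD hc
  have hPp : IsPGroup p P := hmax.1.1.1
  have hTN : T ≤ Subgroup.normalizer (P : Set G) := fun g hg => ((hT g).1 hg).1
  have hTp := inert_pSub hM hPD hab hc hT
  have hfree : ∀ g ∈ T, ∀ x ∈ P, x ≠ 1 → g * x * g⁻¹ = x →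
      g ∈ Subgroup.centralizer (P : Set G) :=
    fun g hg x hx hx1 hfix => cyc_free hPp hcyc hTN hTp hg hx hx1 hfix
  have hTe : T = stabP P (bl hM (Cn P) c) := eq_stabP_of_forall hM hc.1 hT
  have hTe' : T' = stabP Q (bl hM (Cn Q) f) := eq_stabP_of_forall hM hf.2.1 hT'
  have hQp : IsPGroup p Q := hPp.to_le hQP
  have hPCQ : P ≤ Cn Q := le_Cn_of_abelian hab hQP
  have hfblk : IsBlk (Cn Q) (bl hM (Cn Q) f) := isBlk_bl hM _ hf.2.1
  have hns : NSub p Q (bl hM (Cn Q) f) P (bl hM (Cn P) c) := by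
    refine ⟨⟨hQp, hfblk⟩, hmax.1.1, hQP, hPCQ.trans (Cn_le_Nn Q), hfblk.inZ.2.mono hPCQ, ?_⟩
    exact Cfsg.Agent.Lib.Helper29.Kn.br_mul_bl_of_inducedIn hM hPp (le_Cn_of_abelian hab le_rfl)
      (Cn_anti hQP) inf_le_left (Cn_le_Nn P) hf
  have hle : BPLE p (Q, bl hM (Cn Q) f) (P, bl hM (Cn P) c) := Relation.ReflTransGen.single hns
  have hQf : IsBPOf p (blkR hM B) Q (bl hM (Cn Q) f) := (hle.isBPOf_iff).1 hmax.1
  -- `T` normalises `Q`
  have hTNQ : T ≤ Nn Q := by
    have key : ∀ g ∈ T, ∀ y ∈ Q, g * y * g⁻¹ ∈ Q := by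
      intro g hg y hy
      obtain ⟨k, hk⟩ := exists_pow_act hcyc (hTN hg)
      rw [hk y (hQP hy)]
      exact Q.pow_mem hy k
    intro g hg
    rw [Subgroup.mem_normalizer_iff]
    intro y
    refine ⟨key g hg y, fun h => ?_⟩
    have := key g⁻¹ (T.inv_mem hg) _ h
    simpa [mul_assoc] using this
  have hTT' : T ≤ T' := by
    intro y hy
    rw [hTe']
    exact hle.mem_stabP_of_mem hmax.1.1 (hTe ▸ hy) (hTNQ hy)
  have hCT' : Cn Q ≤ T' := by
    rw [hTe']; exact Cn_le_stabP hfblk.inZ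
  have hT'eq : T' = T ⊔ Subgroup.centralizer (Q : Set G) := by
    apply le_antisymm
    · intro x hx
      rw [hTe'] at hx
      obtain ⟨y, hy, d, hd, rfl⟩ := hmax.abelian_factor hab hle hx
      exact Subgroup.mul_mem_sup (hTe ▸ hy) hd
    · exact sup_le hTT' hCT'
  have hCPT : Cn P ≤ T := by
    rw [hTe]; exact Cn_le_stabP hmax.1.1.2.inZ
  have hinf : Cn Q ⊓ T = Cn P := by
    apply le_antisymm
    · rintro g ⟨hg1, hg2⟩
      obtain ⟨q, hq⟩ := Subgroup.ne_bot_iff_exists_ne_one.1 hQ1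
      apply hfree g hg2 (q : G) (hQP q.2) (fun h => hq (Subtype.ext h))
      rw [← (mem_Cn.1 hg1) (q : G) q.2]; group
    · exact le_inf (Cn_anti hQP) hCPT
  have hfree' : ∀ g ∈ stabP P (bl hM (Cn P) c), ∀ x ∈ P, x ≠ 1 → g * x * g⁻¹ = x → g ∈ Cn P := by
    rw [← hTe]; exact hfree
  have hnil : IsNilpotentBlock p M f :=
    local_nilpotent_of_free hM hmax hab hfree' hQ1 hf.2.1 hQf
  have hind : IsInducedBlock M (Cn Q) f B :=
    (Cfsg.Agent.Lib.Helper29.Kn.isInducedBlock_iff hM hQp (hQP.trans hPCQ) le_rfl (Cn_le_Nn Q)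
      hf.2.1 hB).2 hQf.2.2
  have habB : ∀ D : Subgroup G, IsDefectGroup p M B D → ∀ x ∈ D, ∀ y ∈ D, x * y = y * x := by
    exact abelian_all_defect hM hB hPD hab
  refine ⟨hT'eq, ?_, ?_, hnil⟩
  · rw [hT'eq, relIndex_sup_of_le_normalizer (hTNQ.trans (Nn_le_normalizer_Cn Q)),
      ← Subgroup.inf_relIndex_right]
    exact congrArg (fun H => Subgroup.relIndex H T) hinf
  · haveI : Fintype (Cn Q) := Fintype.ofFinite _
    exact (abnil hM hnil (abelian_of_induced hM habB hind)).1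

end Cfsg.Agent.S4645
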