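import Cfsg.Statements.S4691
-- import your own Cfsg.Agent.* helpers here
import Cfsg.Agent.Lib.Helper80.GAFusT
import Cfsg.Agent.S0072

set_option autoImplicit false
open Cfsg

namespace Cfsg.Agent.S4691

open Cfsg.Agent.Lib.Helper80 Cfsg.Agent.Lib.Helper80.GA


/-- Fix a prime p and a maximal ideal M of the algebraic integers containing p. A finite group G has a normal p-complement if and only if its principal p-block is nilpotent. -/
theorem result {G : Type*} [Group G] [Fintype G] (p : ℕ) [Fact p.Prime] (M : Ideal Cfsg.AlgInt) (hM : Cfsg.IsPModular p M) : Cfsg.HasNormalPComplement p G ↔ Cfsg.IsNilpotentBlock p M (Cfsg.principalBlock M G) := by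
  have hB0 : IsPBlock M (principalBlock M G) := isPBlock_principal M
  have hprin : ∀ H : Subgroup G, IsPrin H (bl hM H (principalBlock M H)) := fun H =>
    (isPrin_bl_iff hM H (isPBlock_principal M)).2 rfl
  have hb : IsPrin ⊤ (blkR hM (principalBlock M G)) := (isPrin_blkR_iff hM hB0).2 rfl
  rw [Cfsg.Agent.S0072.hasNPC_iff, Cfsg.Agent.Lib.Helper77.npc_iff_frobCond]
  constructor
  · intro hfrob
    refine ⟨hB0, fun Q e hQe x hx _ hreg => ?_⟩
    exact hfrob Q hQe.1.1 x hx ((Nat.Prime.coprime_iff_not_dvd Fact.out).2 hreg).symm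
  · rintro ⟨_, hnil⟩ Q hQ g hg hgo
    have hQe : IsBrauerPair p M Q (principalBlock M (Cn Q)) := ⟨hQ, isPBlock_principal M⟩
    refine hnil Q (principalBlock M (Cn Q))
      ((isBrauerPairOf_iff hM).2 ⟨hQe, hB0, hb.isBPOf hQ (hprin _)⟩) g hg ?_
      ((Nat.Prime.coprime_iff_not_dvd Fact.out).1 hgo.symm)
    rw [stabilizesBlock_iff hM _ (isPBlock_principal M) (Nn_le_normalizer_Cn Q hg)]
    have h1 : IsPrin (Cn Q) (cj g (bl hM (Cn Q) (principalBlock M (Cn Q)))) := by
      refine ⟨?_, ?_⟩
      · have := (hprin (Cn Q)).1.cj g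
        rwa [cS_Cn_of_mem_Nn hg] at this
      · rw [aug_cj]; exact (hprin (Cn Q)).2
    exact h1.unique (hprin _)

end Cfsg.Agent.S4691
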