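import Cfsg.Statements.S4647
import Cfsg.Agent.Lib.Helper82.MinDimLink

set_option autoImplicit false
open Cfsg

namespace Cfsg.Agent.S4647


/-- Let B be a block of the finite group G relative to a maximal ideal M of the algebraic integers containing the prime p, p^a the p-part of the order of G and p^d the order of a defect group D of B. If Σ_{χ ∈ B} χ(1)² = p^(2a−d) (the least possible value), then B is nilpotent. -/
theorem result {G : Type*} [Group G] [Finite G] (p : ℕ) [Fact p.Prime] (M : Ideal Cfsg.AlgInt) (hM : Cfsg.IsPModular p M) (B : Set (Cfsg.IrrCharacter G)) (hB : Cfsg.IsPBlock M B) (D : Subgroup G) (hD : Cfsg.IsDefectGroup p M B D) (a d : ℕ) (ha : (Nat.card G).factorization p = a) (hd : Nat.card D = p ^ d) (hmin : ∑ᶠ χ ∈ B, Cfsg.charDegree (χ : G → ℂ) ^ 2 = p ^ (2 * a - d)) : Cfsg.IsNilpotentBlock p M B := by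
  classical
  haveI : Fintype G := Fintype.ofFinite G
  rw [Cfsg.Agent.Lib.Helper80.isNilpotentBlock_iff hM hB]
  obtain ⟨S⟩ : Nonempty (Sylow p G) := inferInstance
  have hp : p.Prime := Fact.out
  have hS : Nat.card (S : Subgroup G) = p ^ a := by
    rw [← ha]; exact S.card_eq_multiplicity
  have hda : d ≤ a := by
    have h1 : p ^ d ∣ Nat.card G := hd ▸ Subgroup.card_subgroup_dvd_card D
    rw [← ha]
    exact (hp.pow_dvd_iff_le_factorization Nat.card_pos.ne').1 h1
  apply Cfsg.Agent.Lib.Helper82.nilB_of_min_dim (Cfsg.Agent.Lib.Helper80.isBlk_blkR hM hB)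
    (Cfsg.Agent.Lib.Helper80.isDef_of_isDefectGroup hM hB hD) (S : Subgroup G) S.isPGroup'
    (fun Q hQ => Cfsg.Agent.Lib.Helper82.exists_conj_le_sylow S hQ)
  have h1 := Cfsg.Agent.Lib.Helper82.finrank_kerOp_blkR_le hM hB
  rw [hmin] at h1
  calc _ ≤ p ^ (2 * a - d) * Nat.card D := Nat.mul_le_mul_right _ h1
    _ = p ^ (2 * a - d) * p ^ d := by rw [hd]
    _ = p ^ (2 * a) := by rw [← pow_add]; congr 1; omega
    _ = Nat.card (S : Subgroup G) ^ 2 := by rw [hS, ← pow_mul, mul_comm]

end Cfsg.Agent.S4647
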