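import Cfsg.Statements.S4649
import Cfsg.Agent.S4689
import Cfsg.Agent.Lib.Helper78.Cyc1Deg

set_option autoImplicit false
open Cfsg

namespace Cfsg.Agent.S4649

/-- A block with cyclic defect group, of a finite group relative to a maximal ideal M of the algebraic integers containing the prime p, is nilpotent if and only if its p-regular rank is 1 (it has a unique irreducible Brauer character). -/
theorem result {G : Type*} [Group G] [Finite G] (p : ℕ) [Fact p.Prime] (M : Ideal Cfsg.AlgInt) (hM : Cfsg.IsPModular p M) (B : Set (Cfsg.IrrCharacter G)) (hB : Cfsg.IsPBlock M B) (P : Subgroup G) (hPD : Cfsg.IsDefectGroup p M B P) (hcyc : IsCyclic P) : Cfsg.IsNilpotentBlock p M B ↔ Cfsg.blockRank p B = 1 := by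
  have : Fintype G := Fintype.ofFinite G
  constructor
  · intro h
    exact (Cfsg.Agent.S4689.result p M hM B h).1
  · intro hl
    exact Cfsg.Agent.Lib.Helper78.Cyc1.nilpotent_of_rank_one hM hB hl hPD hcyc

end Cfsg.Agent.S4649
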