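import Cfsg.Statements.S4650
import Cfsg.Agent.Lib.Helper20.FreeNil
open Cfsg.Agent.Lib.Helper20 Cfsg.Agent.Lib.Helper81 Cfsg.Agent.Lib.Helper21 Cfsg.Agent.Lib.Helper80 Cfsg.Agent.Lib.Helper80.GA

set_option autoImplicit false
open Cfsg

namespace Cfsg.Agent.S4650

/-- Let B be a block of the finite group G relative to a maximal ideal M of the algebraic integers containing the prime p, with a nontrivial commutative defect group P; let c be a block of C_G(P) inducing B and T the stabilizer of c in N_G(P). Then T/C_G(P) acts freely on the non-identity elements of P (an element of T fixing a non-identity element of P under conjugation lies in C_G(P)) if and only if, for every nontrivial subgroup Q of P, the block of C_G(Q) induced by c inside C_G(Q) is a nilpotent block of C_G(Q). -/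
theorem result {G : Type*} [Group G] [Finite G] (p : ℕ) [Fact p.Prime] (M : Ideal Cfsg.AlgInt) (hM : Cfsg.IsPModular p M) (B : Set (Cfsg.IrrCharacter G)) (hB : Cfsg.IsPBlock M B) (P : Subgroup G) (hPD : Cfsg.IsDefectGroup p M B P) (hPab : ∀ x ∈ P, ∀ y ∈ P, x * y = y * x) (hP1 : P ≠ ⊥) (c : Set (Cfsg.IrrCharacter (Subgroup.centralizer (P : Set G)))) (hc : Cfsg.IsInducedBlock M (Subgroup.centralizer (P : Set G)) c B) (T : Subgroup G) (hT : ∀ g : G, g ∈ T ↔ (g ∈ Subgroup.normalizer (P : Set G) ∧ Cfsg.StabilizesBlock (Subgroup.centralizer (P : Set G)) c g)) : (∀ g ∈ T, ∀ x ∈ P, x ≠ 1 → g * x * g⁻¹ = x → g ∈ Subgroup.centralizer (P : Set G)) ↔ ∀ Q : Subgroup G, Q ≤ P → Q ≠ ⊥ → ∀ f : Set (Cfsg.IrrCharacter (Subgroup.centralizer (Q : Set G))), Cfsg.IsInducedBlockIn M (Subgroup.centralizer (Q : Set G)) (Subgroup.centralizer (P : Set G)) c f → Cfsg.IsNilpotentBlock p M f := by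
  classical
  haveI : Fintype G := Fintype.ofFinite G
  have hcb : Cfsg.IsPBlock M c := hc.1
  have hPp : IsPGroup p P := (isDef_of_isDefectGroup hM hB hPD).pgroup
  have hstab : ∀ g : G, g ∈ stabP P (bl hM (Cn P) c) ↔ g ∈ T := by
    intro g
    rw [mem_stabP, hT]
    constructor
    · rintro ⟨h1, h2⟩
      exact ⟨h1, (stabilizesBlock_iff hM (Cn P) hcb (Nn_le_normalizer_Cn' P h1)).2 h2⟩
    · rintro ⟨h1, h2⟩
      exact ⟨h1, (stabilizesBlock_iff hM (Cn P) hcb (Nn_le_normalizer_Cn' P h1)).1 h2⟩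
  constructor
  · intro hfree Q hQP hQ1 f hf
    rw [isNilpotentBlock_iff_of_inducedIn hM hPD hPab hc hQP hf]
    intro g hgQ hg
    obtain ⟨x, hx, hx1⟩ := Q.bot_or_exists_ne_one.resolve_left hQ1
    apply hfree g ((hstab g).1 hg) x (hQP hx) hx1
    have := mem_Cn.1 hgQ x hx
    rw [← this]; group
  · intro hnil g hg x hx hx1 hgx
    have hle : Subgroup.zpowers x ≤ P := by rwa [Subgroup.zpowers_le]
    obtain ⟨f, hf⟩ := exists_isInducedBlockIn hM hPp hPab hle hcb
    have h1 := hnil (Subgroup.zpowers x) hle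
      (by intro h; exact hx1 (Subgroup.zpowers_eq_bot.1 h)) f hf
    rw [isNilpotentBlock_iff_of_inducedIn hM hPD hPab hc hle hf] at h1
    apply h1 g _ ((hstab g).2 hg)
    rw [mem_Cn]
    intro u hu
    obtain ⟨n, rfl⟩ := Subgroup.mem_zpowers_iff.1 hu
    have hc' : Commute g x := by
      show g * x = x * g
      calc g * x = g * x * g⁻¹ * g := by group
        _ = x * g := by rw [hgx]
    exact (hc'.zpow_right n).eq.symm

end Cfsg.Agent.S4650
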