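import Cfsg.Statements.S4652
-- import your own Cfsg.Agent.* helpers here
import Mathlib
import Cfsg.Agent.Lib.Helper80.BlockBasic

set_option autoImplicit false
open Cfsg

namespace Cfsg.Agent.S4652

open Cfsg.Agent.Lib.Helper20 Cfsg.Agent.Lib.Helper81 Cfsg.Agent.Lib.Helper80


/-- Fix a prime p and a maximal ideal M of the algebraic integers containing p. The defect groups of the principal p-block of a finite group G are exactly the Sylow p-subgroups of G: a subgroup D is a defect group of the principal block if and only if D is a Sylow p-subgroup. -/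
theorem result {G : Type*} [Group G] [Fintype G] (p : ℕ) [Fact p.Prime] (M : Ideal Cfsg.AlgInt) (hM : Cfsg.IsPModular p M) (D : Subgroup G) : Cfsg.IsDefectGroup p M (Cfsg.principalBlock M G) D ↔ ∃ S : Sylow p G, (S : Subgroup G) = D := by
  classical
  have hp : p.Prime := Fact.out
  have hidx : ∀ g : G, Cfsg.IsDefectClass M (Cfsg.principalBlock M G) g →
      ¬ p ∣ (Subgroup.centralizer ({g} : Set G)).index := by
    intro g hg hd
    have h1 := hg.2.2 (trivIrr G) (trivIrr_mem_principalBlock hM)
    apply h1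
    show Cfsg.MemLocalIdeal M (Cfsg.centralChar (fun _ : G => (1 : ℂ)) g)
    rw [centralChar_one_fun, memLocalIdeal_natCast_iff hM]
    exact hd
  constructor
  · rintro ⟨g, hg, P, rfl⟩
    have hpg : IsPGroup p ((P : Subgroup (Subgroup.centralizer ({g} : Set G))).map
        (Subgroup.centralizer ({g} : Set G)).subtype) := P.2.map _
    have hi : ¬ p ∣ ((P : Subgroup (Subgroup.centralizer ({g} : Set G))).map
        (Subgroup.centralizer ({g} : Set G)).subtype).index := by
      rw [Subgroup.index_map_subtype]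
      exact Nat.Prime.not_dvd_mul hp P.not_dvd_index (hidx g hg)
    exact ⟨hpg.toSylow hi, rfl⟩
  · rintro ⟨S, rfl⟩
    obtain ⟨g₀, hg₀⟩ := exists_defectClass hM (Cfsg.principalBlock M G) (isPBlock_principal M)
    obtain ⟨P₀, hP₀⟩ := exists_sylow_le_of_not_dvd_index p _ (hidx g₀ hg₀)
    obtain ⟨a, ha⟩ := MulAction.exists_smul_eq G P₀ S
    rw [isDefectGroup_iff]
    refine ⟨a * g₀ * a⁻¹, isDefectClass_conj hg₀ a, ?_⟩
    rw [sylowIn_iff]
    refine ⟨?_, S.2, ?_⟩
    · intro x hx
      rw [← ha, Sylow.coe_subgroup_smul, mem_conj_smul] at hx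
      have h1 := hP₀ hx
      rw [Subgroup.mem_centralizer_singleton_iff] at h1 ⊢
      calc x * (a * g₀ * a⁻¹) = a * ((a⁻¹ * x * a) * g₀) * a⁻¹ := by group
        _ = a * (g₀ * (a⁻¹ * x * a)) * a⁻¹ := by rw [h1]
        _ = a * g₀ * a⁻¹ * x := by group
    · intro Q hQ hSQ _
      exact (S.3 hQ hSQ)

end Cfsg.Agent.S4652
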