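import Cfsg.Statements.S4654
import Cfsg.Agent.Lib.Helper29.NormP3

set_option autoImplicit false
open Cfsg

namespace Cfsg.Agent.S4654

/-- Fix a prime p and a maximal ideal M of the algebraic integers containing p. Let P be a normal p-subgroup of the finite group G, B a p-block of G and e a p-block of C_G(P) such that (P, e) is a Brauer pair of B (as P is normal, this says that e occurs in the idempotent of B, which is supported on C_G(P)). Let T be the stabilizer of e in G under conjugation. Then the idempotent of e is a block idempotent of T: some block E of T has, at every element of T, the same idempotent coefficient as e (zero off C_G(P)); and the idempotent of B is the sum of the distinct G-conjugates of the idempotent of e: its coefficient at g is the sum over all x in G of the coefficient of e at x⁻¹ g x, divided by the order of T. -/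
theorem result {G : Type*} [Group G] [Fintype G] (p : ℕ) [Fact p.Prime] (M : Ideal Cfsg.AlgInt) (hM : Cfsg.IsPModular p M) (P : Subgroup G) [P.Normal] (hP : IsPGroup p P) (B : Set (Cfsg.IrrCharacter G)) (e : Set (Cfsg.IrrCharacter (Subgroup.centralizer (P : Set G)))) (hBe : Cfsg.IsBrauerPairOf p M B P e) (T : Subgroup G) (hT : ∀ x : G, x ∈ T ↔ Cfsg.StabilizesBlock (Subgroup.centralizer (P : Set G)) e x) : (∃ E : Set (Cfsg.IrrCharacter T), Cfsg.IsPBlock M E ∧ ∀ t : T, Cfsg.blockCoeff E t = Cfsg.subgroupBlockCoeff (Subgroup.centralizer (P : Set G)) e (t : G)) ∧ ∀ g : G, Cfsg.blockCoeff B g = (Nat.card T : ℂ)⁻¹ * ∑ x : G, Cfsg.subgroupBlockCoeff (Subgroup.centralizer (P : Set G)) e (x⁻¹ * g * x) := by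
  classical
  have _ : Fintype (Subgroup.centralizer (P : Set G)) := Fintype.ofFinite _
  have hC : (Subgroup.centralizer (P : Set G)).Normal := inferInstance
  have hcov := Cfsg.Agent.Lib.Helper29.NormP.covers_of_isBrauerPairOf hM P hBe
  have hPT : P ≤ T := by
    intro u hu
    rw [hT, Cfsg.Agent.Lib.Helper29.NormP.stabilizesBlock_iff_cjIrr hC]
    intro χ hχ
    have : Cfsg.Agent.Lib.Helper21.cjIrr hC u⁻¹ χ = χ := by
      apply Subtype.ext
      funext c
      rw [Cfsg.Agent.Lib.Helper21.cjIrr_coe, Cfsg.Agent.Lib.Helper5.cjF_apply]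
      apply congrArg
      apply Subtype.ext
      show u⁻¹ * (c : G) * u⁻¹⁻¹ = c
      have h1 := Subgroup.mem_centralizer_iff.1 c.2 u hu
      rw [inv_inv, mul_assoc, ← h1, inv_mul_cancel_left]
    rw [this]; exact hχ
  exact ⟨Cfsg.Agent.Lib.Helper29.NormP.exists_block_stabilizer hM P hP hC le_rfl hBe.1.2 T hT hPT,
    Cfsg.Agent.Lib.Helper29.NormP.blockCoeff_eq_average hM P hP hC le_rfl hBe.1.2 hBe.2.1 hcov T hT⟩

end Cfsg.Agent.S4654
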