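import Cfsg.Statements.S4657
-- import your own Cfsg.Agent.* helpers here
import Cfsg.Agent.Lib.Helper80.GATrans

set_option autoImplicit false
open Cfsg

namespace Cfsg.Agent.S4657

open Cfsg.Agent.Lib.Helper80 Cfsg.Agent.Lib.Helper80.GA


/-- Fix a prime p and a maximal ideal M of the algebraic integers containing p. Every Brauer pair (P, e) of the finite group G is a Brauer pair of exactly one p-block B of G. -/
theorem result {G : Type*} [Group G] [Fintype G] (p : ℕ) [Fact p.Prime] (M : Ideal Cfsg.AlgInt) (hM : Cfsg.IsPModular p M) (P : Subgroup G) (e : Set (Cfsg.IrrCharacter (Subgroup.centralizer (P : Set G)))) (hPe : Cfsg.IsBrauerPair p M P e) : ∃! B : Set (Cfsg.IrrCharacter G), Cfsg.IsBrauerPairOf p M B P e := by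
  obtain ⟨b, hb, huniq⟩ := (isBP_of_isBrauerPair hM hPe).existsUnique_block
  obtain ⟨B, hB, rfl⟩ := exists_block_of_isBlk hM hb.2.1
  refine ⟨B, (isBrauerPairOf_iff hM).2 ⟨hPe, hB, hb⟩, ?_⟩
  intro B' hB'
  have h1 := (isBrauerPairOf_iff hM).1 hB'
  exact blkR_injective hM h1.2.1 hB (huniq _ h1.2.2)

end Cfsg.Agent.S4657
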