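import Cfsg.Statements.S4661
-- import your own Cfsg.Agent.* helpers here
import Cfsg.Agent.Lib.Helper80.GAExact

set_option autoImplicit false
open Cfsg

namespace Cfsg.Agent.S4661

open Cfsg.Agent.Lib.Helper80 Cfsg.Agent.Lib.Helper80.GA


/-- Fix a prime p and a maximal ideal M of the algebraic integers containing p. Let (P, e) be a maximal Brauer pair of the p-block B of the finite group G, Q ≤ P, and f the p-block of C_G(Q) with (Q, f) ≤ (P, e). Then C_P(Q) is contained in a defect group of f (as a block of the group C_G(Q)); and for some x in G the conjugate pair (x Q x⁻¹, conjugate of f) again lies below (P, e) and C_P(x Q x⁻¹) is a defect group of the conjugate of f in C_G(x Q x⁻¹). -/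
theorem result {G : Type*} [Group G] [Fintype G] (p : ℕ) [Fact p.Prime] (M : Ideal Cfsg.AlgInt) (hM : Cfsg.IsPModular p M) (B : Set (Cfsg.IrrCharacter G)) (P Q : Subgroup G) (e : Set (Cfsg.IrrCharacter (Subgroup.centralizer (P : Set G)))) (f : Set (Cfsg.IrrCharacter (Subgroup.centralizer (Q : Set G)))) (hmax : Cfsg.IsMaximalBrauerPair p M B P e) (hQP : Q ≤ P) (hf : Cfsg.IsPBlock M f) (hle : Cfsg.SubpairLE p M Q f P e) : (∃ D : Subgroup (Subgroup.centralizer (Q : Set G)), Cfsg.IsDefectGroup p M f D ∧ (P ⊓ Subgroup.centralizer (Q : Set G)).subgroupOf (Subgroup.centralizer (Q : Set G)) ≤ D) ∧ ∃ x : G, Cfsg.SubpairLE p M (Q.map (MulAut.conj x).toMonoidHom) (Cfsg.conjBlock Q x f) P e ∧ Cfsg.IsDefectGroup p M (Cfsg.conjBlock Q x f) ((P ⊓ Subgroup.centralizer ((Q.map (MulAut.conj x).toMonoidHom) : Set G)).subgroupOf (Subgroup.centralizer ((Q.map (MulAut.conj x).toMonoidHom) : Set G))) := by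
  have h1 := isMaxBP_of_isMaximalBrauerPair hM hmax
  have hle' := bple_of_subpairLE hM hle
  have hQf : Cfsg.IsBrauerPair p M Q f := ⟨hmax.1.1.1.to_le hQP, hf⟩
  constructor
  · obtain ⟨D, hD, hPD⟩ := hle'.exists_isDef_Cn h1.1.1
    exact ⟨D.subgroupOf _, isDefectGroup_of_isDef_sub hM _ hf hD, Subgroup.comap_mono hPD⟩
  · obtain ⟨x, hx1, hx2⟩ := h1.exists_conj_isDef_Cn hle'
    rw [← bl_conjBlock] at hx1 hx2
    exact ⟨x, (subpairLE_iff hM hmax.1.1 (isBrauerPair_conjBlock hQf x)).2 hx1,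
      isDefectGroup_of_isDef_sub hM _ (isPBlock_conjBlock Q x hf) hx2⟩

end Cfsg.Agent.S4661
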