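import Cfsg.Statements.S4662
-- import your own Cfsg.Agent.* helpers here
import Cfsg.Agent.Lib.Helper80.GAStab

set_option autoImplicit false
open Cfsg

namespace Cfsg.Agent.S4662

open Cfsg.Agent.Lib.Helper80 Cfsg.Agent.Lib.Helper80.GA


/-- Fix a prime p and a maximal ideal M of the algebraic integers containing p. Let (P, e) be a maximal Brauer pair of the p-block B of the finite group G, Q ≤ P, and f the p-block of C_G(Q) with (Q, f) ≤ (P, e). Let T be the stabilizer of f in N_G(Q). Then the idempotent of f is a block idempotent of T, and N_P(Q) is contained in a defect group of that block of T; moreover for some x in G the conjugate pair (x Q x⁻¹, conjugate of f) again lies below (P, e) and, with T' the stabilizer of the conjugate of f in N_G(x Q x⁻¹), N_P(x Q x⁻¹) is a defect group of the block of T' whose idempotent is that of the conjugate of f. -/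
theorem result {G : Type*} [Group G] [Fintype G] (p : ℕ) [Fact p.Prime] (M : Ideal Cfsg.AlgInt) (hM : Cfsg.IsPModular p M) (B : Set (Cfsg.IrrCharacter G)) (P Q : Subgroup G) (e : Set (Cfsg.IrrCharacter (Subgroup.centralizer (P : Set G)))) (f : Set (Cfsg.IrrCharacter (Subgroup.centralizer (Q : Set G)))) (hmax : Cfsg.IsMaximalBrauerPair p M B P e) (hQP : Q ≤ P) (hf : Cfsg.IsPBlock M f) (hle : Cfsg.SubpairLE p M Q f P e) (T : Subgroup G) (hT : ∀ y : G, y ∈ T ↔ y ∈ Subgroup.normalizer (Q : Set G) ∧ Cfsg.StabilizesBlock (Subgroup.centralizer (Q : Set G)) f y) : (∃ F : Set (Cfsg.IrrCharacter T), Cfsg.IsPBlock M F ∧ (∀ t : T, Cfsg.blockCoeff F t = Cfsg.subgroupBlockCoeff (Subgroup.centralizer (Q : Set G)) f (t : G)) ∧ ∃ D : Subgroup T, Cfsg.IsDefectGroup p M F D ∧ (P ⊓ Subgroup.normalizer (Q : Set G)).subgroupOf T ≤ D) ∧ ∃ x : G, Cfsg.SubpairLE p M (Q.map (MulAut.conj x).toMonoidHom) (Cfsg.conjBlock Q x f) P e ∧ ∀ (T' : Subgroup G), (∀ y : G, y ∈ T' ↔ y ∈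 Subgroup.normalizer ((Q.map (MulAut.conj x).toMonoidHom) : Set G) ∧ Cfsg.StabilizesBlock (Subgroup.centralizer ((Q.map (MulAut.conj x).toMonoidHom) : Set G)) (Cfsg.conjBlock Q x f) y) → ∃ F' : Set (Cfsg.IrrCharacter T'), Cfsg.IsPBlock M F' ∧ (∀ t : T', Cfsg.blockCoeff F' t = Cfsg.subgroupBlockCoeff (Subgroup.centralizer ((Q.map (MulAut.conj x).toMonoidHom) : Set G)) (Cfsg.conjBlock Q x f) (t : G)) ∧ Cfsg.IsDefectGroup p M F' ((P ⊓ Subgroup.normalizer ((Q.map (MulAut.conj x).toMonoidHom) : Set G)).subgroupOf T') := by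
  have h1 := isMaxBP_of_isMaximalBrauerPair hM hmax
  have hle' := bple_of_subpairLE hM hle
  have hQf : Cfsg.IsBrauerPair p M Q f := ⟨hmax.1.1.1.to_le hQP, hf⟩
  constructor
  · obtain rfl := eq_stabP_of_forall hM hf hT
    obtain ⟨F, hF, hFe, hFc⟩ := exists_block_stabP hM hQf
    obtain ⟨D, hD, hPD⟩ := hle'.exists_isDef_stabP h1.1.1
    exact ⟨F, hF, hFc, D.subgroupOf _, isDefectGroup_of_isDef_sub hM _ hF (by rw [hFe]; exact hD),
      Subgroup.comap_mono hPD⟩
  · obtain ⟨x, hx1, hx2⟩ := h1.exists_conj_isDef_stabP hle'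
    rw [← bl_conjBlock] at hx1 hx2
    have hQf' := isBrauerPair_conjBlock hQf x
    refine ⟨x, (subpairLE_iff hM hmax.1.1 hQf').2 hx1, ?_⟩
    intro T' hT'
    obtain rfl := eq_stabP_of_forall hM hQf'.2 hT'
    obtain ⟨F, hF, hFe, hFc⟩ := exists_block_stabP hM hQf'
    exact ⟨F, hF, hFc, isDefectGroup_of_isDef_sub hM _ hF (by rw [hFe]; exact hx2)⟩

end Cfsg.Agent.S4662
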