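import Cfsg.Statements.S4664
-- import your own Cfsg.Agent.* helpers here
import Cfsg.Agent.Lib.Helper80.BlockBasic

set_option autoImplicit false
open Cfsg

namespace Cfsg.Agent.S4664

open Cfsg.Agent.Lib.Helper20 Cfsg.Agent.Lib.Helper81 Cfsg.Agent.Lib.Helper80
open scoped ComplexConjugate


/-- Fix a prime p and a maximal ideal M of the algebraic integers containing p, and let B be a p-block of the finite group G. Let m be the p'-part of the order of G and η = exp(2πi/m). Then every coefficient of the idempotent of B lies in the cyclotomic field ℚ(η). -/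
theorem result {G : Type*} [Group G] [Fintype G] (p : ℕ) [Fact p.Prime] (M : Ideal Cfsg.AlgInt) (hM : Cfsg.IsPModular p M) (B : Set (Cfsg.IrrCharacter G)) (hB : Cfsg.IsPBlock M B) (g : G) : Cfsg.blockCoeff B g ∈ IntermediateField.adjoin ℚ ({Complex.exp (2 * Real.pi * Complex.I / ((Nat.card G / p ^ (Nat.card G).factorization p : ℕ) : ℂ))} : Set ℂ) := by
  classical
  have hp : p.Prime := Fact.out
  have hfin : Finite (Cfsg.IrrCharacter G) := finite_irrCharacter
  have : Fintype (Cfsg.IrrCharacter G) := Fintype.ofFinite _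
  set m : ℕ := Nat.card G / p ^ (Nat.card G).factorization p with hm
  set K := IntermediateField.adjoin ℚ ({Complex.exp (2 * Real.pi * Complex.I / (m : ℂ))} : Set ℂ) with hK
  have hG0 : Nat.card G ≠ 0 := Nat.card_pos.ne'
  have hmul : p ^ (Nat.card G).factorization p * m = Nat.card G :=
    Nat.mul_div_cancel' (Nat.ordProj_dvd (Nat.card G) p)
  have hm0 : m ≠ 0 := by
    intro h0
    rw [h0, mul_zero] at hmul
    exact hG0 hmul.symm
  have hprim : IsPrimitiveRoot (Complex.exp (2 * Real.pi * Complex.I / (m : ℂ))) m :=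
    Complex.isPrimitiveRoot_exp m hm0
  have hη : Complex.exp (2 * Real.pi * Complex.I / (m : ℂ)) ∈ K :=
    IntermediateField.subset_adjoin ℚ _ (Set.mem_singleton _)
  by_cases hg : p ∣ orderOf g
  · have h1 := (bS_regular_singular hM B hB (x := (1 : G)) (y := g)
      (by rw [orderOf_one, Nat.dvd_one]; exact hp.one_lt.ne') hg).1
    have : Cfsg.blockCoeff B g = 0 := by
      simp only [Cfsg.blockCoeff]
      simp only [bS] at h1
      rw [h1, mul_zero]
    rw [this]
    exact K.zero_mem
  · have hord : orderOf g ∣ m := by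
      have h1 : orderOf g ∣ p ^ (Nat.card G).factorization p * m := by
        rw [hmul]; exact orderOf_dvd_natCard g
      exact Nat.Coprime.dvd_of_dvd_mul_left
        (Nat.Coprime.pow_right _ ((Nat.Prime.coprime_iff_not_dvd hp).2 hg).symm) h1
    have hval : ∀ χ : Cfsg.IrrCharacter G, conj ((χ : G → ℂ) g) ∈ K := by
      intro χ
      rw [← isCharacter_inv (isCharacter_of_isIrrCharacter χ.2)]
      obtain ⟨n, ρ, _, hρ⟩ := χ.2
      obtain ⟨s, d, h1, _, h3⟩ := char_pow_eq_sum ρ g⁻¹
      have h4 := h3 1
      rw [pow_one] at h4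
      rw [← hρ, h4]
      apply K.sum_mem
      intro μ hμ
      apply K.mul_mem (natCast_mem K _)
      rw [pow_one]
      have h5 : μ ^ m = 1 := by
        obtain ⟨c, hc⟩ := hord
        have := h1 μ hμ
        rw [orderOf_inv] at this
        rw [hc, pow_mul, this, one_pow]
      haveI : NeZero m := ⟨hm0⟩
      obtain ⟨i, _, hi⟩ := hprim.eq_pow_of_pow_eq_one h5
      rw [← hi]
      exact K.pow_mem hη i
    simp only [Cfsg.blockCoeff, finsum_mem_irr]
    apply K.mul_mem (K.inv_mem (natCast_mem K _))
    apply K.sum_mem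
    intro χ _
    split_ifs
    · obtain ⟨n, hn⟩ := isCharacter_apply_one (isCharacter_of_isIrrCharacter χ.2)
      rw [hn]
      exact K.mul_mem (natCast_mem K _) (hval χ)
    · exact K.zero_mem

end Cfsg.Agent.S4664
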