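import Cfsg.Statements.S4665
-- import your own Cfsg.Agent.* helpers here
import Mathlib
import Cfsg.Agent.Lib.Helper81.Osima

set_option autoImplicit false
open Cfsg

namespace Cfsg.Agent.S4665

open Cfsg.Agent.Lib.Helper20 Cfsg.Agent.Lib.Helper81
open scoped ComplexConjugate


/-- Fix a prime p, a maximal ideal M of the algebraic integers containing p, and a p-block B of the finite group G, and let p^a be the p-part of the order of G. Let χ be an integer combination of the irreducible characters in B. If the function that agrees with χ on p-regular elements and vanishes on p-singular elements is again an integer combination of the irreducible characters in B, then p^a divides χ(1). -/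
theorem result {G : Type*} [Group G] [Fintype G] (p : ℕ) [Fact p.Prime] (M : Ideal Cfsg.AlgInt) (hM : Cfsg.IsPModular p M) (B : Set (Cfsg.IrrCharacter G)) (hB : Cfsg.IsPBlock M B) (χ : G → ℂ) (hχ : (∃ n : Cfsg.IrrCharacter G → ℤ, ∀ g : G, χ g = ∑ᶠ ψ ∈ B, (n ψ : ℂ) * (ψ : G → ℂ) g)) (h0 : (∃ n : Cfsg.IrrCharacter G → ℤ, ∀ g : G, Cfsg.pRegularPart p χ g = ∑ᶠ ψ ∈ B, (n ψ : ℂ) * (ψ : G → ℂ) g)) : ∃ k : ℤ, χ 1 = (p ^ (Nat.card G).factorization p : ℂ) * k := by
  classical
  have hp : p.Prime := Fact.out
  obtain ⟨n', hn'⟩ := h0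
  have hfin : Finite (Cfsg.IrrCharacter G) := finite_irrCharacter
  have : Fintype (Cfsg.IrrCharacter G) := Fintype.ofFinite _
  obtain ⟨P⟩ : Nonempty (Sylow p G) := inferInstance
  have : Fintype (P : Subgroup G) := Fintype.ofFinite _
  have hPne : (Nat.card (P : Subgroup G) : ℂ) ≠ 0 := by exact_mod_cast Nat.card_pos.ne'
  have hsum : ∀ ψ : Cfsg.IrrCharacter G, ∃ d : ℕ,
      ∑ x : (P : Subgroup G), (ψ : G → ℂ) x = (Nat.card (P : Subgroup G) : ℂ) * d := by
    intro ψ
    have h1 := isCharacter_restrict (isCharacter_of_isIrrCharacter ψ.2) (P : Subgroup G)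
    obtain ⟨d, hd⟩ := isCharacter_classInner_nat' h1 (isCharacter_one (G := (P : Subgroup G)))
    refine ⟨d, ?_⟩
    simp only [Cfsg.classInner, map_one, mul_one] at hd
    rw [← hd, mul_inv_cancel_left₀ hPne]
  choose d hd using hsum
  have hleft : ∑ x : (P : Subgroup G), Cfsg.pRegularPart p χ x = χ 1 := by
    rw [Finset.sum_eq_single (1 : (P : Subgroup G))]
    · have : Cfsg.IsPRegular p (1 : G) := by
        simp only [Cfsg.IsPRegular, orderOf_one, Nat.dvd_one]
        exact hp.one_lt.ne'
      simp [Cfsg.pRegularPart, this]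
    · intro x _ hx
      have h1 : p ∣ orderOf x := P.2.dvd_orderOf hx
      have h2 : ¬ Cfsg.IsPRegular p (x : G) := by
        simp only [Cfsg.IsPRegular, not_not]
        rwa [Subgroup.orderOf_coe]
      simp [Cfsg.pRegularPart, h2]
    · intro h; exact absurd (Finset.mem_univ _) h
  refine ⟨∑ ψ : Cfsg.IrrCharacter G, if ψ ∈ B then n' ψ * (d ψ : ℤ) else 0, ?_⟩
  rw [← hleft]
  simp only [hn', finsum_mem_irr]
  rw [Finset.sum_comm]
  have hcard : (Nat.card (P : Subgroup G) : ℂ) = (p : ℂ) ^ (Nat.card G).factorization p := by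
    rw [P.card_eq_multiplicity]; push_cast; rfl
  push_cast
  rw [Finset.mul_sum]
  apply Finset.sum_congr rfl
  intro ψ _
  split_ifs with hψ
  · rw [← Finset.mul_sum, hd, hcard]
    push_cast
    ring
  · simp

end Cfsg.Agent.S4665
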