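import Cfsg.Statements.S4666
import Cfsg.Agent.Lib.Helper81.BrauerFeit

set_option autoImplicit false
open Cfsg Cfsg.Agent.Lib.Helper81 Cfsg.Agent.Lib.Helper20

namespace Cfsg.Agent.S4666

/-- Fix a prime p and a maximal ideal M of the algebraic integers containing p, and a p-block B of the finite group G of defect d. For every integer combination χ of the irreducible characters in B, p^d times the function that agrees with χ on p-regular elements and vanishes elsewhere is again an integer combination of the irreducible characters in B. -/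
theorem result {G : Type*} [Group G] [Fintype G] (p : ℕ) [Fact p.Prime] (M : Ideal Cfsg.AlgInt) (hM : Cfsg.IsPModular p M) (B : Set (Cfsg.IrrCharacter G)) (hB : Cfsg.IsPBlock M B) (χ : G → ℂ) (hχ : (∃ n : Cfsg.IrrCharacter G → ℤ, ∀ g : G, χ g = ∑ᶠ ψ ∈ B, (n ψ : ℂ) * (ψ : G → ℂ) g)) : (∃ n : Cfsg.IrrCharacter G → ℤ, ∀ g : G, (p ^ Cfsg.blockDefect p B : ℂ) * Cfsg.pRegularPart p χ g = ∑ᶠ ψ ∈ B, (n ψ : ℂ) * (ψ : G → ℂ) g) := by
  classical
  have : Finite (Cfsg.IrrCharacter G) := finite_irrCharacter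
  have : Fintype (Cfsg.IrrCharacter G) := Fintype.ofFinite _
  obtain ⟨n, hn⟩ := hχ
  refine ⟨fun ψ' => ∑ ψ : Cfsg.IrrCharacter G, if ψ ∈ B then n ψ * kC p B ψ ψ' else 0, ?_⟩
  intro g
  have h1 : χ = ∑ ψ : Cfsg.IrrCharacter G, (if ψ ∈ B then (n ψ : ℂ) else 0) • (ψ : G → ℂ) := by
    funext x
    rw [hn x, finsum_mem_irr, Finset.sum_apply]
    apply Finset.sum_congr rfl; intro ψ _
    split_ifs <;> simp
  rw [h1, pRegularPart_sum, finsum_mem_irr, Finset.sum_apply, Finset.mul_sum]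
  have h2 : ∀ ψ : Cfsg.IrrCharacter G, (p ^ Cfsg.blockDefect p B : ℂ) *
      Cfsg.pRegularPart p ((if ψ ∈ B then (n ψ : ℂ) else 0) • (ψ : G → ℂ)) g
      = ∑ ψ' : Cfsg.IrrCharacter G, if ψ' ∈ B then
        ((if ψ ∈ B then n ψ * kC p B ψ ψ' else 0 : ℤ) : ℂ) * (ψ' : G → ℂ) g else 0 := by
    intro ψ
    rw [pRegularPart_smul, pRegularPart_eq_sum_mC]
    simp only [Pi.smul_apply, Finset.sum_apply, smul_eq_mul, Finset.mul_sum]
    apply Finset.sum_congr rfl; intro ψ' _
    by_cases hψ : ψ ∈ B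
    · by_cases hψ' : ψ' ∈ B
      · rw [if_pos hψ, if_pos hψ', if_pos hψ]
        push_cast
        rw [kC_spec hM ψ hψ']; ring
      · have : ¬ Cfsg.SameBlock M (ψ : G → ℂ) (ψ' : G → ℂ) := by
          intro hs
          apply hψ'
          rw [isPBlock_eq_blockOf hM hB hψ]
          exact hs
        rw [if_neg hψ', mC_eq_zero hM this]; simp
    · rw [if_neg hψ, if_neg hψ]; simp
  rw [Finset.sum_congr rfl (fun ψ _ => h2 ψ), Finset.sum_comm]
  apply Finset.sum_congr rfl; intro ψ' _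
  split_ifs with hψ'
  · push_cast
    rw [Finset.sum_mul]
  · simp

end Cfsg.Agent.S4666
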