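import Cfsg.Statements.S4670
-- import your own Cfsg.Agent.* helpers here
import Cfsg.Agent.Lib.Helper80.GAFMT

set_option autoImplicit false
open Cfsg

namespace Cfsg.Agent.S4670

open Cfsg.Agent.Lib.Helper80 Cfsg.Agent.Lib.Helper80.GA

theorem br_eq_iff_forall {G : Type*} [Group G] [Fintype G] {p : ℕ} {M : Ideal Cfsg.AlgInt}
    (hM : Cfsg.IsPModular p M) (P : Subgroup G) {u v : G → ℂ} (hu : RV M u) (hv : RV M v) :
    br P (red hM u) = br P (red hM v) ↔ ∀ x : G, x ∈ Subgroup.centralizer (P : Set G) →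
      Cfsg.MemLocalIdeal M (u x - v x) := by
  constructor
  · intro h x hx
    rw [← resC_eq_iff hM (hu x) (hv x)]
    have := congrArg (fun c : GA (Kr hM) G => c x) h
    simp only [br_apply_mem _ hx] at this
    exact this
  · intro h
    ext x
    by_cases hx : x ∈ Cn P
    · rw [br_apply_mem _ hx, br_apply_mem _ hx]
      exact (resC_eq_iff hM (hu x) (hv x)).2 (h x hx)
    · rw [br_apply_not_mem _ hx, br_apply_not_mem _ hx]


/-- Fix a prime p and a maximal ideal M of the algebraic integers containing p. Let P be a p-subgroup of the finite group G and H a subgroup containing N_G(P). For every p-block B of G with defect group P there is exactly one p-block c of H with defect group P whose idempotent agrees with that of B, modulo the local ideal at M, at every element of C_G(P) (their Brauer-map images at P coincide); and every p-block c of H with defect group P arises in this way from exactly one such B. This is the Brauer correspondence over H. -/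
theorem result {G : Type*} [Group G] [Fintype G] (p : ℕ) [Fact p.Prime] (M : Ideal Cfsg.AlgInt) (hM : Cfsg.IsPModular p M) (P H : Subgroup G) (hP : IsPGroup p P) (hH : Subgroup.normalizer (P : Set G) ≤ H) : (∀ B : Set (Cfsg.IrrCharacter G), Cfsg.IsPBlock M B → Cfsg.IsDefectGroup p M B P → ∃! c : Set (Cfsg.IrrCharacter H), Cfsg.IsPBlock M c ∧ Cfsg.IsDefectGroup p M c (P.subgroupOf H) ∧ ∀ x : G, x ∈ Subgroup.centralizer (P : Set G) → Cfsg.MemLocalIdeal M (Cfsg.blockCoeff B x - Cfsg.subgroupBlockCoeff H c x)) ∧ (∀ c : Set (Cfsg.IrrCharacter H), Cfsg.IsPBlock M c → Cfsg.IsDefectGroup p M c (P.subgroupOf H) → ∃! B : Set (Cfsg.IrrCharacter G), Cfsg.IsPBlock M B ∧ Cfsg.IsDefectGroup p M B P ∧ ∀ x : G, x ∈ Subgroup.centralizer (P : Set G) → Cfsg.MemLocalIdeal M (Cfsg.blockCoeff B x - Cfsg.subgroupBlockCoeff H c x)) := by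
  have hPH : P ≤ H := Subgroup.le_normalizer.trans hH
  constructor
  · intro B hB hBP
    have hb : IsBlk ⊤ (blkR hM B) := isBlk_blkR hM hB
    have hdef : IsDef p ⊤ (blkR hM B) P := isDef_of_isDefectGroup hM hB hBP
    obtain ⟨c', ⟨hc1, hc2, hc3⟩, huniq⟩ := brauer_corr (K := H) le_top hH hb hdef
    obtain ⟨c, hc, rfl⟩ := exists_block_of_isBlk_sub hM H hc1
    refine ⟨c, ⟨hc, isDefectGroup_of_isDef_sub hM H hc hc2,
      (br_eq_iff_forall hM P (RV_blockCoeff hM hB) (RV_subgroupBlockCoeff hM H hc)).1 hc3⟩, ?_⟩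
    rintro c₂ ⟨h1, h2, h3⟩
    apply bl_injective hM H h1 hc
    exact huniq _ ⟨isBlk_bl hM H h1, isDef_sub_of_isDefectGroup hM H h1 hPH h2,
      (br_eq_iff_forall hM P (RV_blockCoeff hM hB) (RV_subgroupBlockCoeff hM H h1)).2 h3⟩
  · intro c hc hcP
    have hb : IsBlk H (bl hM H c) := isBlk_bl hM H hc
    have hdef : IsDef p H (bl hM H c) P := isDef_sub_of_isDefectGroup hM H hc hPH hcP
    obtain ⟨b', ⟨hb1, hb2, hb3⟩, huniq⟩ := brauer_corr (K := ⊤) hH le_top hb hdef
    obtain ⟨B, hB, rfl⟩ := exists_block_of_isBlk hM hb1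
    refine ⟨B, ⟨hB, isDefectGroup_of_isDef hM hB hb2,
      (br_eq_iff_forall hM P (RV_blockCoeff hM hB) (RV_subgroupBlockCoeff hM H hc)).1 hb3.symm⟩, ?_⟩
    rintro B₂ ⟨h1, h2, h3⟩
    apply blkR_injective hM h1 hB
    exact huniq _ ⟨isBlk_blkR hM h1, isDef_of_isDefectGroup hM h1 h2,
      ((br_eq_iff_forall hM P (RV_blockCoeff hM h1) (RV_subgroupBlockCoeff hM H hc)).2 h3).symm⟩

end Cfsg.Agent.S4670
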