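import Cfsg.Statements.S4679
-- import your own Cfsg.Agent.* helpers here
import Cfsg.Agent.Lib.Helper80.GAFusT

set_option autoImplicit false
open Cfsg

namespace Cfsg.Agent.S4679

open Cfsg.Agent.Lib.Helper80 Cfsg.Agent.Lib.Helper80.GA


/-- Fix a prime p and a maximal ideal M of the algebraic integers containing p, a p-block B of the finite group G with maximal Brauer pair (P, e), its fusion system F on P, a Brauer pair (Q, f) ≤ (P, e), and let T be the stabilizer of f in N_G(Q). Then Q is fully normalized in F if and only if N_P(Q) is a defect group of the block of T whose idempotent is that of f. -/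
theorem result {G : Type*} [Group G] [Fintype G] (p : ℕ) [Fact p.Prime] (M : Ideal Cfsg.AlgInt) (hM : Cfsg.IsPModular p M) (B : Set (Cfsg.IrrCharacter G)) (P : Subgroup G) (e : Set (Cfsg.IrrCharacter (Subgroup.centralizer (P : Set G)))) (hmax : Cfsg.IsMaximalBrauerPair p M B P e) (F : Cfsg.FusionSystem P) (hF : Cfsg.IsBlockFusionSystemOn p M B P e F) (Q : Subgroup G) (f : Set (Cfsg.IrrCharacter (Subgroup.centralizer (Q : Set G)))) (hQP : Q ≤ P) (hf : Cfsg.IsPBlock M f) (hle : Cfsg.SubpairLE p M Q f P e) (T : Subgroup G) (hT : ∀ y : G, y ∈ T ↔ y ∈ Subgroup.normalizer (Q : Set G) ∧ Cfsg.StabilizesBlock (Subgroup.centralizer (Q : Set G)) f y) : F.IsFullyNormalized Q ↔ ∃ F' : Set (Cfsg.IrrCharacter T), Cfsg.IsPBlock M F' ∧ (∀ t : T, Cfsg.blockCoeff F' t = Cfsg.subgroupBlockCoeff (Subgroup.centralizer (Q : Set G)) f (t : G)) ∧ Cfsg.IsDefectGroup p M F' ((P ⊓ Subgroup.normalizer (Q : Set G)).subgroupOf T) := by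
  have hmax' := isMaxBP_of_isMaximalBrauerPair hM hmax
  have hle' := bple_of_subpairLE hM hle
  have hPe : IsBrauerPair p M P e := hmax.1.1
  have hQf : IsBrauerPair p M Q f := ⟨hPe.1.to_le hQP, hf⟩
  have hTe : T = stabP Q (bl hM (Cn Q) f) := eq_stabP_of_forall hM hf hT
  have hPN : P ⊓ Nn Q ≤ T := by
    rw [hTe]; exact hle'.inf_Nn_le_stabP hmax'.1.1
  have hCT : Cn Q ≤ T := by
    rw [hTe]; exact Cn_le_stabP (isBP_of_isBrauerPair hM hQf).2.inZ
  have hFN : F.IsFullyNormalized Q ↔ IsDef p T (bl hM (Cn Q) f) (P ⊓ Nn Q) := by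
    rw [hTe, ← hmax'.fullyNormalized_iff hle']
    constructor
    · rintro ⟨_, h⟩ x hx
      exact h (cS x Q) ((isConj_iff hM hF hf hle _).2 ⟨x, rfl, hx⟩)
    · intro h
      refine ⟨hQP, fun Q' hQ' => ?_⟩
      obtain ⟨g, rfl, hg⟩ := (isConj_iff hM hF hf hle _).1 hQ'
      exact h g hg
  rw [hFN]
  constructor
  · intro hdef
    obtain ⟨F', hF'1, hF'2, hF'3⟩ := exists_block_same_idem hM hQf (T := T)
      (by rw [hTe]; exact le_stabP (isBP_of_isBrauerPair hM hQf).2.inZ) hCT
      (by rw [hTe]; exact stabP_le_Nn _ _) (by rw [hTe]; exact fixBy_stabP _ _)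
    refine ⟨F', hF'1, hF'3, ?_⟩
    rw [← hF'2] at hdef
    exact isDefectGroup_of_isDef_sub hM T hF'1 hdef
  · rintro ⟨F', hF'1, hF'3, hdef⟩
    have h2 : bl hM T F' = bl hM (Cn Q) f := by
      unfold bl
      congr 1
      funext g
      by_cases hg : g ∈ T
      · rw [subgroupBlockCoeff_mem _ _ hg]
        exact hF'3 ⟨g, hg⟩
      · rw [subgroupBlockCoeff_not_mem _ _ hg, subgroupBlockCoeff_not_mem _ _ (fun h => hg (hCT h))]
    rw [← h2]
    exact isDef_sub_of_isDefectGroup hM T hF'1 hPN hdef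

end Cfsg.Agent.S4679
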