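import Cfsg.Statements.S4681
-- import your own Cfsg.Agent.* helpers here
import Cfsg.Agent.Lib.Helper80.GAFusT

set_option autoImplicit false
open Cfsg

namespace Cfsg.Agent.S4681

open Cfsg.Agent.Lib.Helper80 Cfsg.Agent.Lib.Helper80.GA


/-- Fix a prime p and a maximal ideal M of the algebraic integers containing p. Let B₀ be the principal p-block of the finite group G, P a Sylow p-subgroup and e₀ the principal p-block of C_G(P). Then (P, e₀) is a maximal Brauer pair of B₀, and the fusion system of B₀ on (P, e₀) is the fusion system of G on P: its maps from each subgroup of P are exactly the conjugation maps into P by elements of G. -/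
theorem result {G : Type*} [Group G] [Fintype G] (p : ℕ) [Fact p.Prime] (M : Ideal Cfsg.AlgInt) (hM : Cfsg.IsPModular p M) (S : Sylow p G) : Cfsg.IsMaximalBrauerPair p M (Cfsg.principalBlock M G) (S : Subgroup G) (Cfsg.principalBlock M (Subgroup.centralizer ((S : Subgroup G) : Set G))) ∧ ∀ F : Cfsg.FusionSystem (S : Subgroup G), Cfsg.IsBlockFusionSystemOn p M (Cfsg.principalBlock M G) (S : Subgroup G) (Cfsg.principalBlock M (Subgroup.centralizer ((S : Subgroup G) : Set G))) F → ∀ Q : Subgroup G, F.Hom Q = (Cfsg.groupFusionSystem (S : Subgroup G)).Hom Q := by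
  have hB0 : IsPBlock M (principalBlock M G) := isPBlock_principal M
  have hprin : ∀ H : Subgroup G, IsPrin H (bl hM H (principalBlock M H)) := fun H =>
    (isPrin_bl_iff hM H (isPBlock_principal M)).2 rfl
  have hb : IsPrin ⊤ (blkR hM (principalBlock M G)) := (isPrin_blkR_iff hM hB0).2 rfl
  have hSe : IsBrauerPair p M (S : Subgroup G) (principalBlock M (Cn (S : Subgroup G))) :=
    ⟨S.2, isPBlock_principal M⟩
  have hmax : Cfsg.IsMaximalBrauerPair p M (Cfsg.principalBlock M G) (S : Subgroup G)
      (Cfsg.principalBlock M (Subgroup.centralizer ((S : Subgroup G) : Set G))) := by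
    refine ⟨(isBrauerPairOf_iff hM).2 ⟨hSe, hB0, hb.isBPOf S.2 (hprin _)⟩, fun R g hg hle => ?_⟩
    exact S.3 hg.1.1 (bple_of_subpairLE hM hle).le
  refine ⟨hmax, fun F hF Q => ?_⟩
  have he : IsBP p (S : Subgroup G) (bl hM (Cn (S : Subgroup G)) (principalBlock M _)) :=
    isBP_of_isBrauerPair hM hSe
  -- the principal pair on each subgroup of `S` lies below
  have hbelow : ∀ R : Subgroup G, R ≤ S →
      BPLE p (R, bl hM (Cn R) (principalBlock M (Cn R)))
        ((S : Subgroup G), bl hM (Cn (S : Subgroup G)) (principalBlock M _)) := by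
    intro R hR
    obtain ⟨g, hg, hgle⟩ := he.exists_subpair' hR
    have h1 : IsPrin (Cn R) g := ⟨hg, hgle.aug_ne_zero (hprin _).2⟩
    rw [(hprin (Cn R)).unique h1]
    exact hgle
  ext φ
  constructor
  · intro hφ
    obtain ⟨hQS, g, hg, hgS, _⟩ := (hF.2 Q φ).1 hφ
    refine ⟨hQS, fun x => ?_, g, hg⟩
    exact (F.le_of_mem hφ).2 x
  · rintro ⟨hQS, hφS, g, hg⟩
    have hQf : IsBrauerPair p M Q (principalBlock M (Cn Q)) :=
      ⟨S.2.to_le hQS, isPBlock_principal M⟩
    have hle : SubpairLE p M Q (principalBlock M (Cn Q)) (S : Subgroup G)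
        (principalBlock M (Cn (S : Subgroup G))) := (subpairLE_iff hM hSe hQf).2 (hbelow Q hQS)
    rw [mem_hom_iff hM hF (isPBlock_principal M) hle]
    refine ⟨g, hg, ?_⟩
    have hgS : cS g Q ≤ S := by
      rw [← range_eq_cS hg]
      rintro _ ⟨x, rfl⟩
      exact hφS x
    have h1 : IsPrin (Cn (cS g Q)) (cj g (bl hM (Cn Q) (principalBlock M (Cn Q)))) := by
      refine ⟨?_, ?_⟩
      · have := (hprin (Cn Q)).1.cj g
        rwa [cS_Cn] at this
      · rw [aug_cj]; exact (hprin (Cn Q)).2
    rw [← (hprin (Cn (cS g Q))).unique h1]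
    exact hbelow _ hgS

end Cfsg.Agent.S4681
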