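import Cfsg.Statements.S4682
-- import your own Cfsg.Agent.* helpers here
import Cfsg.Agent.Lib.Helper80.GAFusT
import Cfsg.Agent.Lib.Helper80.GAAb
import Cfsg.Agent.Lib.Helper1.Coprime

set_option autoImplicit false
open Cfsg

namespace Cfsg.Agent.S4682

open Cfsg.Agent.Lib.Helper80 Cfsg.Agent.Lib.Helper80.GA


/-- Fix a prime p and a maximal ideal M of the algebraic integers containing p, a p-block B of the finite group G with maximal Brauer pair (P, e), P abelian, and a Brauer pair (Q, f) ≤ (P, e). Let T_Q be the stabilizer of f in N_G(Q) and T_P the stabilizer of e in N_G(P). Then every element of T_Q is a product of an element of T_P and an element of C_G(Q); and the index of C_G(Q) in T_Q equals the index of T_P ∩ C_G(Q) in T_P ∩ N_G(Q). -/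
theorem result {G : Type*} [Group G] [Fintype G] (p : ℕ) [Fact p.Prime] (M : Ideal Cfsg.AlgInt) (hM : Cfsg.IsPModular p M) (B : Set (Cfsg.IrrCharacter G)) (P : Subgroup G) (e : Set (Cfsg.IrrCharacter (Subgroup.centralizer (P : Set G)))) (hmax : Cfsg.IsMaximalBrauerPair p M B P e) (hab : ∀ x ∈ P, ∀ y ∈ P, x * y = y * x) (Q : Subgroup G) (f : Set (Cfsg.IrrCharacter (Subgroup.centralizer (Q : Set G)))) (hQP : Q ≤ P) (hf : Cfsg.IsPBlock M f) (hle : Cfsg.SubpairLE p M Q f P e) (TQ : Subgroup G) (hTQ : ∀ y : G, y ∈ TQ ↔ y ∈ Subgroup.normalizer (Q : Set G) ∧ Cfsg.StabilizesBlock (Subgroup.centralizer (Q : Set G)) f y) (TP : Subgroup G) (hTP : ∀ y : G, y ∈ TP ↔ y ∈ Subgroup.normalizer (P : Set G) ∧ Cfsg.StabilizesBlock (Subgroup.centralizer (P : Set G)) e y) : (∀ x ∈ TQ, ∃ y ∈ TP, ∃ c ∈ Subgroup.centralizer (Q : Set G), x = y * c) ∧ ((Subgroup.centralizer (Q : Set G)).subgroupOf TQ).index = ((TP ⊓ Subgroup.centralizer (Q : Set G)).subgroupOf (TP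 ⊓ Subgroup.normalizer (Q : Set G))).index := by
  have hmax' := isMaxBP_of_isMaximalBrauerPair hM hmax
  have hle' := bple_of_subpairLE hM hle
  have hPe : IsBrauerPair p M P e := hmax.1.1
  have hTQ' : TQ = stabP Q (bl hM (Cn Q) f) := eq_stabP_of_forall hM hf hTQ
  have hTP' : TP = stabP P (bl hM (Cn P) e) := eq_stabP_of_forall hM hPe.2 hTP
  have hfac : ∀ x ∈ TQ, ∃ y ∈ TP, ∃ c ∈ Subgroup.centralizer (Q : Set G), x = y * c := by
    intro x hx
    rw [hTQ'] at hx
    rw [hTP']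
    exact hmax'.abelian_factor hab hle' hx
  refine ⟨hfac, ?_⟩
  have hCT : Cn Q ≤ TQ := by
    rw [hTQ']; exact Cn_le_stabP (hle'.isBP hmax'.1.1).2.inZ
  have hA : TP ⊓ Nn Q ≤ TQ := by
    intro y hy
    rw [hTQ']
    rw [hTP'] at hy
    exact hle'.mem_stabP_of_mem hmax'.1.1 hy.1 hy.2
  have hsup : TQ = (TP ⊓ Nn Q) ⊔ Cn Q := by
    apply le_antisymm
    · intro x hx
      obtain ⟨y, hy, c, hc, rfl⟩ := hfac x hx
      have hyN : y ∈ Nn Q := by
        have h1 : y * c ∈ Nn Q := by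
          rw [hTQ'] at hx; exact hx.1
        have := (Nn Q).mul_mem h1 ((Nn Q).inv_mem (Cn_le_Nn Q hc))
        simpa using this
      exact Subgroup.mul_mem _ (Subgroup.mem_sup_left ⟨hy, hyN⟩) (Subgroup.mem_sup_right hc)
    · exact sup_le hA hCT
  have h1 : (Cn Q).relIndex TQ = (Cn Q).relIndex (TP ⊓ Nn Q) := by
    rw [hsup]
    exact Cfsg.Agent.Lib.Helper1.relIndex_sup_right_of_le_normalizer
      (inf_le_right.trans (Nn_le_normalizer_Cn Q))
  have h2 : TP ⊓ Cn Q = Cn Q ⊓ (TP ⊓ Nn Q) := by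
    apply le_antisymm
    · exact le_inf inf_le_right (le_inf inf_le_left (inf_le_right.trans (Cn_le_Nn Q)))
    · exact le_inf (inf_le_right.trans inf_le_left) inf_le_left
  have h3 : (TP ⊓ Cn Q).relIndex (TP ⊓ Nn Q) = (Cn Q).relIndex (TP ⊓ Nn Q) := by
    rw [h2, Subgroup.inf_relIndex_right]
  exact h1.trans h3.symm

end Cfsg.Agent.S4682
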