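import Cfsg.Statements.S4683
import Cfsg.Agent.Lib.Helper81.BrauerElement

set_option autoImplicit false
open Cfsg Cfsg.Agent.Lib.Helper81 Cfsg.Agent.Lib.Helper20

namespace Cfsg.Agent.S4683

/-- Fix a prime p and a maximal ideal M of the algebraic integers containing p, a p-block B of the finite group G, a p-element u and a p-block e of C = C_G(u) such that (⟨u⟩, e) is a Brauer pair of B (a Brauer element of B). For χ ∈ B let χ_u be the e-part of the class function c ↦ χ(u c) on C and χ_u' the e-part of c ↦ χ(u⁻¹ c). Then the sum over χ ∈ B and over the p-regular elements s of C of χ_u(s)·χ_u'(s⁻¹) equals the order of C times the p-regular rank of e (the number of irreducible Brauer characters of e). -/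
theorem result {G : Type*} [Group G] [Fintype G] (p : ℕ) [Fact p.Prime] (M : Ideal Cfsg.AlgInt) (hM : Cfsg.IsPModular p M) (B : Set (Cfsg.IrrCharacter G)) (u : G) (hu : ∃ k : ℕ, orderOf u = p ^ k) (e : Set (Cfsg.IrrCharacter (Subgroup.centralizer (Subgroup.zpowers u : Set G)))) (hBe : Cfsg.IsBrauerPairOf p M B (Subgroup.zpowers u) e) : ∑ᶠ χ ∈ B, ∑ᶠ s : Subgroup.centralizer (Subgroup.zpowers u : Set G), Cfsg.pRegularPart p (Cfsg.blockPart e (fun c : Subgroup.centralizer (Subgroup.zpowers u : Set G) => (χ : G → ℂ) (u * c))) s * Cfsg.blockPart e (fun c : Subgroup.centralizer (Subgroup.zpowers u : Set G) => (χ : G → ℂ) (u⁻¹ * c)) s⁻¹ = (Nat.card (Subgroup.centralizer (Subgroup.zpowers u : Set G)) : ℂ) * (Cfsg.blockRank p e : ℂ) := by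
  classical
  have : Finite (Cfsg.IrrCharacter G) := finite_irrCharacter
  have : Fintype (Cfsg.IrrCharacter G) := Fintype.ofFinite _
  have : Finite (Cfsg.IrrCharacter (Subgroup.centralizer (Subgroup.zpowers u : Set G))) :=
    finite_irrCharacter
  have : Fintype (Cfsg.IrrCharacter (Subgroup.centralizer (Subgroup.zpowers u : Set G))) :=
    Fintype.ofFinite _
  obtain ⟨⟨hP, he⟩, hB, h1⟩ := hBe
  have hcomm : ∀ c : Subgroup.centralizer (Subgroup.zpowers u : Set G),
      u * (c : G) = (c : G) * u := fun c =>
    Subgroup.mem_centralizer_iff.1 c.2 u (Subgroup.mem_zpowers u)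
  have hC : Subgroup.centralizer ({u} : Set G) ≤ Subgroup.centralizer (Subgroup.zpowers u : Set G) := by
    intro g hg
    rw [Subgroup.mem_centralizer_iff] at hg ⊢
    intro v hv
    obtain ⟨n, rfl⟩ := Subgroup.mem_zpowers_iff.1 hv
    have : Commute u g := hg u rfl
    exact (this.zpow_left n).eq
  have huH : u ∈ Subgroup.centralizer (Subgroup.zpowers u : Set G) := by
    apply hC
    rw [Subgroup.mem_centralizer_iff]
    intro v hv; rw [Set.mem_singleton_iff] at hv; rw [hv]
  have hdef : Cfsg.InducedBlockDefined M (Subgroup.centralizer (Subgroup.zpowers u : Set G)) e := by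
    refine Cfsg.Agent.S0919.result p M hM (Subgroup.zpowers u) _ hP ?_ le_rfl ?_ e he
    · rw [Subgroup.zpowers_le]; exact huH
    · exact Subgroup.centralizer_le_normalizer _
  have hind : Cfsg.IsInducedBlock M (Subgroup.centralizer (Subgroup.zpowers u : Set G)) e B := by
    apply isInducedBlock_of_omega hM _ hB hdef
    intro ξ hξ
    rw [← brauerOmega_eq_omega]
    exact h1 ξ hξ
  rw [← sum_Qf_irr hM e he, finsum_mem_irr,
    ← sum_Qf_eq hM e he _ _ _ _ (key_identity hM.1 _ u hu hcomm hC)]
  apply Finset.sum_congr rfl; intro χ _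
  split_ifs with hχ
  · rw [finsum_eq_sum_of_fintype]; rfl
  · symm
    apply Finset.sum_eq_zero; intro s _
    rw [pRegularPart_eq]
    by_cases hs : Cfsg.IsPRegular p s
    · simp only [if_pos hs]
      rw [second_main_char' hM _ u hu huH hcomm hC hind χ hχ s hs, zero_mul]
    · simp only [if_neg hs, zero_mul]

end Cfsg.Agent.S4683
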