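import Cfsg.Statements.S4687
-- import your own Cfsg.Agent.* helpers here
import Cfsg.Agent.Lib.Helper80.GANilB

set_option autoImplicit false
open Cfsg

namespace Cfsg.Agent.S4687

open Cfsg.Agent.Lib.Helper80 Cfsg.Agent.Lib.Helper80.GA


/-- Fix a prime p and a maximal ideal M of the algebraic integers containing p, and a p-block B of the finite group G with maximal Brauer pair (P, e), P abelian. Then B is nilpotent if and only if its inertial quotient is trivial: every element of N_G(P) stabilizing e centralizes P. -/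
theorem result {G : Type*} [Group G] [Fintype G] (p : ℕ) [Fact p.Prime] (M : Ideal Cfsg.AlgInt) (hM : Cfsg.IsPModular p M) (B : Set (Cfsg.IrrCharacter G)) (P : Subgroup G) (e : Set (Cfsg.IrrCharacter (Subgroup.centralizer (P : Set G)))) (hmax : Cfsg.IsMaximalBrauerPair p M B P e) (hab : ∀ x ∈ P, ∀ y ∈ P, x * y = y * x) : Cfsg.IsNilpotentBlock p M B ↔ ∀ x : G, x ∈ Subgroup.normalizer (P : Set G) → Cfsg.StabilizesBlock (Subgroup.centralizer (P : Set G)) e x → x ∈ Subgroup.centralizer (P : Set G) := by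
  have hmax' := isMaxBP_of_isMaximalBrauerPair hM hmax
  have hPe : IsBrauerPair p M P e := hmax.1.1
  have hB : IsPBlock M B := hmax.1.2.1
  have he : IsBP p P (bl hM (Cn P) e) := hmax'.1.1
  have hN : P ⊔ Cn P ≤ stabP P (bl hM (Cn P) e) :=
    sup_le (le_stabP he.2.inZ) (Cn_le_stabP he.2.inZ)
  have hblk : IsBlk (P ⊔ Cn P) (bl hM (Cn P) e) :=
    he.isBlk_of_fix le_sup_left le_sup_right (hN.trans (stabP_le_Nn P _))
      ((fixBy_stabP P _).mono hN)
  rw [isNilpotentBlock_iff hM hB, hmax'.abelian_nilB_iff hab (split_sub hM hblk)]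
  constructor
  · intro h x hx hst
    exact h ⟨hx, (stabilizesBlock_iff hM _ hPe.2 (Nn_le_normalizer_Cn P hx)).1 hst⟩
  · intro h x hx
    exact h x hx.1 ((stabilizesBlock_iff hM _ hPe.2 (Nn_le_normalizer_Cn P hx.1)).2 hx.2)

end Cfsg.Agent.S4687
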