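import Cfsg.Statements.S4688
-- import your own Cfsg.Agent.* helpers here
import Cfsg.Agent.Lib.Helper80.GALocNil

set_option autoImplicit false
open Cfsg

namespace Cfsg.Agent.S4688

open Cfsg.Agent.Lib.Helper80 Cfsg.Agent.Lib.Helper80.GA


/-- Fix a prime p and a maximal ideal M of the algebraic integers containing p, and a nilpotent p-block B of the finite group G with maximal Brauer pair (P, e). Then for every Brauer pair (Q, f) of B, f is a nilpotent block of C_G(Q); and if moreover (Q, f) ≤ (P, e), then C_P(Q) is a defect group of f as a block of C_G(Q). -/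
theorem result {G : Type*} [Group G] [Fintype G] (p : ℕ) [Fact p.Prime] (M : Ideal Cfsg.AlgInt) (hM : Cfsg.IsPModular p M) (B : Set (Cfsg.IrrCharacter G)) (P : Subgroup G) (e : Set (Cfsg.IrrCharacter (Subgroup.centralizer (P : Set G)))) (hmax : Cfsg.IsMaximalBrauerPair p M B P e) (hnil : Cfsg.IsNilpotentBlock p M B) (Q : Subgroup G) (f : Set (Cfsg.IrrCharacter (Subgroup.centralizer (Q : Set G)))) (hQf : Cfsg.IsBrauerPairOf p M B Q f) : Cfsg.IsNilpotentBlock p M f ∧ (Cfsg.SubpairLE p M Q f P e → Cfsg.IsDefectGroup p M f ((P ⊓ Subgroup.centralizer (Q : Set G)).subgroupOf (Subgroup.centralizer (Q : Set G)))) := by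
  have hmax' := isMaxBP_of_isMaximalBrauerPair hM hmax
  have hB : IsPBlock M B := hmax.1.2.1
  have hnil' := (isNilpotentBlock_iff hM hB).1 hnil
  have hQf' := (isBrauerPairOf_iff hM).1 hQf
  haveI : Fintype (Cn Q) := Fintype.ofFinite _
  constructor
  · rw [isNilpotentBlock_iff hM hQf'.1.2]
    have h1 := hnil'.centralizer hQf'.2.2
    rwa [bl_eq_emb, rst_emb] at h1
  · intro hle
    have h1 := hmax'.isDef_Cn_of_nilB (fun _ _ hc => split_sub hM hc) hnil'
      (bple_of_subpairLE hM hle)
    exact isDefectGroup_of_isDef_sub hM (Cn Q) hQf'.1.2 h1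

end Cfsg.Agent.S4688
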