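import Cfsg.Statements.S4693
-- import your own Cfsg.Agent.* helpers here
import Cfsg.Agent.Lib.Helper80.GACentric

set_option autoImplicit false
open Cfsg

namespace Cfsg.Agent.S4693

open Cfsg.Agent.Lib.Helper80 Cfsg.Agent.Lib.Helper80.GA


/-- Fix a prime p and a maximal ideal M of the algebraic integers containing p, a p-block B of the finite group G with maximal Brauer pair (P, e) and fusion system F on P, and a Brauer pair (Q, f) ≤ (P, e) with Q centric in F. Suppose every element of G normalizes Q and stabilizes f. Then the idempotent of B agrees with that of f modulo M at every element of G, and f is the idempotent of a nilpotent block of Q·C_G(Q): some p-block of Q·C_G(Q) has the idempotent coefficients of f and is nilpotent. -/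
theorem result {G : Type*} [Group G] [Fintype G] (p : ℕ) [Fact p.Prime] (M : Ideal Cfsg.AlgInt) (hM : Cfsg.IsPModular p M) (B : Set (Cfsg.IrrCharacter G)) (P : Subgroup G) (e : Set (Cfsg.IrrCharacter (Subgroup.centralizer (P : Set G)))) (hmax : Cfsg.IsMaximalBrauerPair p M B P e) (F : Cfsg.FusionSystem P) (hF : Cfsg.IsBlockFusionSystemOn p M B P e F) (Q : Subgroup G) (f : Set (Cfsg.IrrCharacter (Subgroup.centralizer (Q : Set G)))) (hQP : Q ≤ P) (hf : Cfsg.IsPBlock M f) (hle : Cfsg.SubpairLE p M Q f P e) (hcen : F.IsCentric Q) (hG : ∀ x : G, x ∈ Subgroup.normalizer (Q : Set G) ∧ Cfsg.StabilizesBlock (Subgroup.centralizer (Q : Set G)) f x) : (∀ g : G, Cfsg.MemLocalIdeal M (Cfsg.blockCoeff B g - Cfsg.subgroupBlockCoeff (Subgroup.centralizer (Q : Set G)) f g)) ∧ ∃ F' : Set (Cfsg.IrrCharacter ↥(Q ⊔ Subgroup.centralizer (Q : Set G))), Cfsg.IsPBlock M F' ∧ (∀ t : ↥(Q ⊔ Subgroup.centralizer (Q : Set G)), Cfsg.blockCoeff F' t = Cfsg.subgroupBlockCoeff (Subgroup.centralizer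 (Q : Set G)) f (t : G)) ∧ Cfsg.IsNilpotentBlock p M F' := by
  have hmax' := isMaxBP_of_isMaximalBrauerPair hM hmax
  have hle' := bple_of_subpairLE hM hle
  have hB : IsPBlock M B := hmax.1.2.1
  have hPe : IsBrauerPair p M P e := hmax.1.1
  have hQf : IsBrauerPair p M Q f := ⟨hPe.1.to_le hQP, hf⟩
  have hfQ : IsBP p Q (bl hM (Cn Q) f) := isBP_of_isBrauerPair hM hQf
  have hdef : IsDef p (Cn Q) (bl hM (Cn Q) f) (Q ⊓ Cn Q) :=
    (hmax'.centric_iff hle').1
      (fun x hx => hcen.2 (cS x Q) ((isConj_iff hM hF hf hle _).2 ⟨x, rfl, hx⟩))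
  have htop : ⊤ ≤ stabP Q (bl hM (Cn Q) f) := fun x _ =>
    ⟨(hG x).1, (stabilizesBlock_iff hM _ hf (Nn_le_normalizer_Cn Q (hG x).1)).1 (hG x).2⟩
  constructor
  · have h1 : blkR hM B = bl hM (Cn Q) f :=
      (hle'.isBPOf_iff.1 hmax'.1).eq_of_top_le_stabP htop
    intro g
    rw [← resC_eq_iff hM (RV_blockCoeff hM hB g) (RV_subgroupBlockCoeff hM _ hf g)]
    exact congrArg (fun c : GA (Kr hM) G => c g) h1
  · have hLT : Q ⊔ Cn Q ≤ stabP Q (bl hM (Cn Q) f) := le_top.trans htop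
    obtain ⟨F', hF'1, hF'2, hF'3⟩ := exists_block_same_idem hM hQf (T := Q ⊔ Cn Q)
      le_sup_left le_sup_right (hLT.trans (stabP_le_Nn _ _)) ((fixBy_stabP _ _).mono hLT)
    refine ⟨F', hF'1, hF'3, ?_⟩
    haveI : Fintype ↥(Q ⊔ Cn Q) := Fintype.ofFinite _
    rw [isNilpotentBlock_iff hM hF'1]
    have h2 := hfQ.nilB_of_centric hdef
    rwa [← hF'2, bl_eq_emb, rst_emb] at h2

end Cfsg.Agent.S4693
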