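import Cfsg.Statements.S4694
import Cfsg.Agent.Lib.Helper20.MaxPair
import Cfsg.Agent.Lib.Helper20.Weight
open Cfsg.Agent.Lib.Helper20 Cfsg.Agent.Lib.Helper81 Cfsg.Agent.Lib.Helper21 Cfsg.Agent.Lib.Helper80 Cfsg.Agent.Lib.Helper80.GA

set_option autoImplicit false
open Cfsg

namespace Cfsg.Agent.S4694

/-- Fix a prime p and a maximal ideal M of the algebraic integers containing p, a p-block B of the finite group G and a Brauer pair (Q, e) of B. Let T be the stabilizer of e in N_G(Q) and suppose that (Q, e) carries a weight: the block of T whose idempotent is that of e contains an irreducible character χ that is constant on the cosets of Q and whose degree has p-part equal to the p-part of the index of Q in T. Then Z(Q) is a defect group of e as a block of C_G(Q), and Q is the largest normal p-subgroup of T: every p-subgroup of T normalized by T lies in Q. -/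
theorem result {G : Type*} [Group G] [Fintype G] (p : ℕ) [Fact p.Prime] (M : Ideal Cfsg.AlgInt) (hM : Cfsg.IsPModular p M) (B : Set (Cfsg.IrrCharacter G)) (Q : Subgroup G) (e : Set (Cfsg.IrrCharacter (Subgroup.centralizer (Q : Set G)))) (hQe : Cfsg.IsBrauerPairOf p M B Q e) (T : Subgroup G) (hT : ∀ y : G, y ∈ T ↔ y ∈ Subgroup.normalizer (Q : Set G) ∧ Cfsg.StabilizesBlock (Subgroup.centralizer (Q : Set G)) e y) (F' : Set (Cfsg.IrrCharacter T)) (hF' : Cfsg.IsPBlock M F') (hF'e : ∀ t : T, Cfsg.blockCoeff F' t = Cfsg.subgroupBlockCoeff (Subgroup.centralizer (Q : Set G)) e (t : G)) (χ : Cfsg.IrrCharacter T) (hχ : χ ∈ F') (hχQ : ∀ q : G, q ∈ Q → ∀ t : T, ∀ t' : T, (t' : G) = q * (t : G) → (χ : T → ℂ) t' = (χ : T → ℂ) t) (hdeg : (Cfsg.charDegree (χ : T → ℂ)).factorization p + (Nat.card Q).factorization p = (Nat.card T).factorization p) : Cfsg.IsDefectGroup p M e ((Q ⊓ Subgroup.centralizer (Q : Set G)).subgroupOf (Subgroup.centralizer (Q : Set G))) ∧ ∀ R : Subgroup G, R ≤ T → IsPGroup p R → (∀ t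 ∈ T, t ∈ Subgroup.normalizer (R : Set G)) → R ≤ Q := by
  classical
  have hp : p.Prime := Fact.out
  have he : Cfsg.IsBrauerPair p M Q e := hQe.1
  set Z : Subgroup (Subgroup.centralizer (Q : Set G)) :=
    (Q ⊓ Subgroup.centralizer (Q : Set G)).subgroupOf (Subgroup.centralizer (Q : Set G)) with hZdef
  have hmemZ : ∀ z : Subgroup.centralizer (Q : Set G), z ∈ Z ↔ (z : G) ∈ Q := by
    intro z
    rw [hZdef, Subgroup.mem_subgroupOf, Subgroup.mem_inf]
    exact ⟨fun h => h.1, fun h => ⟨h, z.2⟩⟩
  have hZc : Z ≤ Subgroup.center (Subgroup.centralizer (Q : Set G)) := by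
    intro z hz
    rw [Subgroup.mem_center_iff]
    intro c
    apply Subtype.ext
    exact (Subgroup.mem_centralizer_iff.1 c.2 z ((hmemZ z).1 hz)).symm
  have hZp : IsPGroup p Z := (he.1.to_le inf_le_left).comap_subtype
  have hf : IsBP p Q (bl hM (Cn Q) e) := ⟨he.1, isBlk_bl hM (Cn Q) he.2⟩
  have hstab : ∀ g : G, g ∈ stabP Q (bl hM (Cn Q) e) ↔
      (g ∈ Subgroup.normalizer (Q : Set G) ∧
        Cfsg.StabilizesBlock (Subgroup.centralizer (Q : Set G)) e g) := by
    intro g
    rw [mem_stabP]
    constructor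
    · rintro ⟨h1, h2⟩
      exact ⟨h1, (stabilizesBlock_iff hM (Cn Q) he.2 (Nn_le_normalizer_Cn' Q h1)).2 h2⟩
    · rintro ⟨h1, h2⟩
      exact ⟨h1, (stabilizesBlock_iff hM (Cn Q) he.2 (Nn_le_normalizer_Cn' Q h1)).1 h2⟩
  have hTN : T ≤ Subgroup.normalizer (Q : Set G) := fun t ht => ((hT t).1 ht).1
  have hQT : Q ≤ T := fun q hq => (hT q).2 ((hstab q).1 (le_stabP hf.2.inZ hq))
  have hCT : Subgroup.centralizer (Q : Set G) ≤ T :=
    fun c hc => (hT c).2 ((hstab c).1 (Cn_le_stabP hf.2.inZ hc))
  haveI : Fintype T := Fintype.ofFinite _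
  haveI hQn : (Q.subgroupOf T).Normal := (Subgroup.normal_subgroupOf_iff_le_normalizer hQT).2 hTN
  have hker : ∀ x ∈ Q.subgroupOf T, (χ : T → ℂ) x = (χ : T → ℂ) 1 := by
    intro x hx
    exact hχQ (x : G) (Subgroup.mem_subgroupOf.1 hx) 1 x (by simp)
  have hcardQ : Nat.card (Q.subgroupOf T) = Nat.card Q :=
    Nat.card_congr (Subgroup.subgroupOfEquivOfLe hQT).toEquiv
  have hdeg' : (Cfsg.charDegree (χ : T → ℂ)).factorization p
      + (Nat.card (Q.subgroupOf T)).factorization p = (Nat.card T).factorization p := by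
    rw [hcardQ]; exact hdeg
  constructor
  · have hι : (Subgroup.inclusion hCT).range.Normal := by
      rw [Subgroup.inclusion_range]
      exact (Subgroup.normal_subgroupOf_iff_le_normalizer hCT).2
        (fun t ht => Nn_le_normalizer_Cn' Q (hTN ht))
    obtain ⟨θ, hθ1, hθ2⟩ := exists_constituent_of_weight (Q.subgroupOf T) χ hker hdeg'
      (Subgroup.inclusion hCT) hι
    have hcomap : (Q.subgroupOf T).comap (Subgroup.inclusion hCT) = Z := by
      ext c
      rw [Subgroup.mem_comap, Subgroup.mem_subgroupOf, hmemZ]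
      rfl
    rw [hcomap] at hθ2
    have hsum : ∑ c : Subgroup.centralizer (Q : Set G),
        Cfsg.blockCoeff e c * (χ : T → ℂ) (Subgroup.inclusion hCT c)
        = (χ : T → ℂ) (Subgroup.inclusion hCT 1) := by
      have h1 : ∑ c : Subgroup.centralizer (Q : Set G),
          Cfsg.blockCoeff e c * (χ : T → ℂ) (Subgroup.inclusion hCT c)
          = ∑ t : T, Cfsg.blockCoeff F' t * (χ : T → ℂ) t := by
        apply Fintype.sum_of_injective (Subgroup.inclusion hCT) (Subgroup.inclusion_injective hCT)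
        · intro t ht
          rw [hF'e, Cfsg.subgroupBlockCoeff, dif_neg, zero_mul]
          intro h
          exact ht ⟨⟨(t : G), h⟩, rfl⟩
        · intro c
          rw [hF'e, Cfsg.subgroupBlockCoeff]
          have : ((Subgroup.inclusion hCT c : T) : G) ∈ Subgroup.centralizer (Q : Set G) := c.2
          rw [dif_pos this]
          rfl
      rw [h1, map_one]
      have h2 := omega_blockCoeff F' χ
      rw [if_pos hχ, omega, ← Finset.sum_div] at h2
      exact (div_eq_one_iff_eq (irr_one_ne_zero χ.2)).1 h2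
    have hθe : θ ∈ e := mem_of_sum_blockCoeff_eq e
      (f := fun c => (χ : T → ℂ) (Subgroup.inclusion hCT c))
      (Cfsg.Agent.Lib.Helper82.isChar_comp_hom (isCharacter_of_isIrrCharacter χ.2) _) hsum hθ1
    have hup : (Cfsg.charDegree (θ : Subgroup.centralizer (Q : Set G) → ℂ)).factorization p
        ≤ Z.index.factorization p := by
      have h1 := Cfsg.Agent.Lib.Helper82.isIrr_charDegree_dvd_index_center θ.2
      have h2 := Subgroup.index_dvd_of_le hZc
      exact (Nat.factorization_le_iff_dvd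
        (Cfsg.Agent.Lib.Helper82.isIrr_charDegree_pos θ.2).ne'
        Subgroup.index_ne_zero_of_finite).2 (h1.trans h2) p
    have hdef0 := central_defect_isDefectGroup hM hZp hZc θ (le_antisymm hup hθ2)
    rw [← isPBlock_eq_blockOf hM he.2 hθe] at hdef0
    exact hdef0
  · intro R hRT hRp hRn
    haveI : (R.subgroupOf T).Normal :=
      (Subgroup.normal_subgroupOf_iff_le_normalizer hRT).2 (fun t ht => hRn t ht)
    have h := le_of_weight (Q.subgroupOf T) χ hker hdeg' (R.subgroupOf T) hRp.comap_subtype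
    intro r hr
    exact Subgroup.mem_subgroupOf.1
      (h (show (⟨r, hRT hr⟩ : T) ∈ R.subgroupOf T from Subgroup.mem_subgroupOf.2 hr))

end Cfsg.Agent.S4694
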