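import Cfsg.Statements.S4696
import Cfsg.Agent.Lib.Helper81.CY3.Main
import Cfsg.Agent.Lib.Helper82.CY2U.Main
import Cfsg.Agent.Lib.Helper19.CY2.TT
import Cfsg.Agent.S4695

set_option autoImplicit false
open Cfsg

namespace Cfsg.Agent.S4696

open Cfsg.Agent.Lib.Helper20 Cfsg.Agent.Lib.Helper81 Cfsg.Agent.Lib.Helper80
open Cfsg.Agent.Lib.Helper80.GA Cfsg.Agent.Lib.Helper5

/-- Let p be a prime, M a maximal ideal of the algebraic integers containing p, and B a p-block of the finite group G whose defect group D is cyclic of order p^a with a ≥ 1. Let C = C_G(D), let b be a block of C inducing B, let T be the stabilizer of b in N_G(D) (the elements g of N_G(D) such that the g-conjugate of every member of b is again in b), and let e be the index of C in T (the inertial index of B). Then e divides p − 1, every irreducible character in B has height zero, and B is the disjoint union of a set X of e characters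 and a set Y of (p^a − 1)/e characters, the members of Y agreeing on p-regular elements, for which there are signs δ_χ = ±1 (χ ∈ X) and δ₀ = ±1 such that: for every ψ ∈ Y and every p-regular g, δ₀ ψ(g) + Σ_{χ ∈ X} δ_χ χ(g) = 0; for all χ, χ' ∈ X the integers δ_χ χ(1) and δ_χ' χ'(1) are congruent modulo p^a; and for ψ ∈ Y and χ ∈ X, ψ(1) ≡ −e δ₀ δ_χ χ(1) modulo p^a. -/
theorem result {G : Type*} [Group G] [Finite G] (p : ℕ) [Fact p.Prime] (M : Ideal Cfsg.AlgInt) (hM : Cfsg.IsPModular p M) (D : Subgroup G) (hD : IsCyclic D) (a : ℕ) (ha : 1 ≤ a) (hDa : Nat.card D = p ^ a) (B : Set (Cfsg.IrrCharacter G)) (hB : Cfsg.IsPBlock M B) (hBD : Cfsg.IsDefectGroup p M B D) (b : Set (Cfsg.IrrCharacter (Subgroup.centralizer (D : Set G)))) (hind : Cfsg.IsInducedBlock M (Subgroup.centralizer (D : Set G)) b B) (T : Subgroup G) (hT : ∀ g : G, g ∈ T ↔ (g ∈ Subgroup.normalizer (D : Set G) ∧ ∀ θ ∈ b, ∀ θ' : Cfsg.IrrCharacter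 (Subgroup.centralizer (D : Set G)), (∀ h h' : Subgroup.centralizer (D : Set G), (h' : G) = g * h * g⁻¹ → (θ' : Subgroup.centralizer (D : Set G) → ℂ) h' = (θ : Subgroup.centralizer (D : Set G) → ℂ) h) → θ' ∈ b)) (e : ℕ) (he : (Subgroup.centralizer (D : Set G)).relIndex T = e) : e ∣ p - 1 ∧ (∀ χ ∈ B, Cfsg.blockHeight p B (χ : G → ℂ) = 0) ∧ ∃ X Y : Set (Cfsg.IrrCharacter G), B = X ∪ Y ∧ Disjoint X Y ∧ Nat.card X = e ∧ Nat.card Y = (p ^ a - 1) / e ∧ (∀ ψ ∈ Y, ∀ ψ' ∈ Y, ∀ g : G, ¬ p ∣ orderOf g → (ψ : G → ℂ) g = (ψ' : G → ℂ) g) ∧ ∃ (δ : Cfsg.IrrCharacter G → ℤ) (δ₀ : ℤ), (∀ χ ∈ X, δ χ = 1 ∨ δ χ = -1) ∧ (δ₀ = 1 ∨ δ₀ = -1) ∧ (∀ ψ ∈ Y, ∀ g : G, ¬ p ∣ orderOf g → (δ₀ : ℂ) * (ψ : G → ℂ) g + ∑ᶠ χ ∈ X, (δ χ : ℂ) * (χ : G → ℂ) g = 0) ∧ (∀ χ ∈ X, ∀ χ' ∈ X, δ χ * (Cfsg.charDegree (χ : G → ℂ) : ℤ) ≡ δ χ' * (Cfsg.charDegree (χ' : G → ℂ) : ℤ) [ZMOD (p : ℤ) ^ a]) ∧ (∀ ψ ∈ Y, ∀ χ ∈ X, (Cfsg.charDegree (ψ : G → ℂ)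 : ℤ) ≡ -((e : ℤ) * δ₀ * δ χ * (Cfsg.charDegree (χ : G → ℂ) : ℤ)) [ZMOD (p : ℤ) ^ a]) := by
  classical
  haveI : Fintype G := Fintype.ofFinite G
  haveI : Finite (Cfsg.IrrCharacter G) := finite_irrCharacter
  haveI : Fintype (Cfsg.IrrCharacter G) := Fintype.ofFinite _
  have hp : p.Prime := Fact.out
  have hl := Cfsg.Agent.S4695.result p M hM D hD a ha hDa B hB hBD b hind T hT e he
  have hTe : T = stabP D (bl hM (Cn D) b) := Cfsg.Agent.Lib.Helper19.CY2.tt hM hind.1 hT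
  have hmax := inert_isMaxBP hM hBD hind
  have hD1 : D ≠ ⊥ := by
    intro h
    rw [h, Subgroup.card_bot] at hDa
    have : 1 < p ^ a := Nat.one_lt_pow (by omega) hp.one_lt
    omega
  have hd : blockDefect p B = a := by
    have h1 := Cfsg.Agent.Lib.Helper21.card_defectGroup hM B hB D hBD
    rw [hDa] at h1
    exact (Nat.pow_right_injective hp.two_le h1).symm
  have hep : e ∣ p - 1 := by
    rw [← he, hTe]
    exact Cfsg.Agent.Lib.Helper81.CY3.relIndex_dvd hM hB hBD hD hD1 hmax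
  obtain ⟨n0, t, x, hn0, hte, hcard, hsupp, hvan, hgram, -, hle⟩ :=
    Cfsg.Agent.Lib.Helper82.CY2U.ub_core hM hB hBD hD hD1 hmax
  have he' : (Cn D).relIndex (stabP D (bl hM (Cn D) b)) = e := by rw [← hTe]; exact he
  rw [he'] at hn0 hte
  rw [hDa] at hte
  have hn : n0 = e := by omega
  subst hn
  have hte' : t * n0 = p ^ a - 1 := by rw [hte, mul_comm]; omega
  exact ⟨hep, Cfsg.Agent.Lib.Helper81.CY3.asm hM hB ha hd hte' hep
    (Cfsg.Agent.Lib.Helper81.CY3.core_of hcard hsupp hvan hgram) hl⟩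

end Cfsg.Agent.S4696
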