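import Cfsg.Statements.S4697
import Cfsg.Agent.Lib.Helper81.RK.RK3

set_option autoImplicit false
open Cfsg

namespace Cfsg.Agent.S4697

/-- Let p be a prime, M a maximal ideal of the algebraic integers containing p, and B a p-block of the finite group G with an abelian defect group D of order p^d. If D has rank 2 (its least number of generators is 2) then B contains at most p^d irreducible characters; if D has rank 3 then the number k of irreducible characters in B satisfies k^3 ≤ p^(5d). -/
theorem result {G : Type*} [Group G] [Finite G] (p : ℕ) [Fact p.Prime] (M : Ideal Cfsg.AlgInt) (hM : Cfsg.IsPModular p M) (B : Set (Cfsg.IrrCharacter G)) (hB : Cfsg.IsPBlock M B) (D : Subgroup G) (hBD : Cfsg.IsDefectGroup p M B D) (hab : IsMulCommutative D) (d : ℕ) (hDd : Nat.card D = p ^ d) : (Group.rank D = 2 → Nat.card B ≤ p ^ d) ∧ (Group.rank D = 3 → Nat.card B ^ 3 ≤ p ^ (5 * d)) := by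
  haveI : Fintype G := Fintype.ofFinite G
  have hab' : ∀ x ∈ D, ∀ y ∈ D, x * y = y * x := by
    intro x hx y hy
    have := hab.is_comm.comm (⟨x, hx⟩ : D) ⟨y, hy⟩
    exact congrArg Subtype.val this
  constructor
  · intro h2
    obtain ⟨u, v, hD⟩ := Cfsg.Agent.Lib.Helper81.RK.gens2 D h2
    rw [← hDd]
    exact Cfsg.Agent.Lib.Helper81.RK.rk2 hM hB hBD hab' hD
  · intro h3
    obtain ⟨u, v, w, hD, hord⟩ := Cfsg.Agent.Lib.Helper81.RK.gens3 D hab' h3
    have := Cfsg.Agent.Lib.Helper81.RK.rk3 hM hB hBD hab' hD hord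
    rw [hDd, ← pow_mul] at this
    rw [mul_comm 5 d]
    exact this

end Cfsg.Agent.S4697
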