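import Cfsg.Statements.S4702
import Cfsg.Agent.Lib.Helper12.S3TWrap

set_option autoImplicit false
open Cfsg

namespace Cfsg.Agent.S4702

/-- Let G be a triply transitive permutation group on a finite set of odd size m ≥ 3 in which only the identity fixes three or more points. Then m = 2^a + 1 for some a ≥ 1 and G is isomorphic to SL(2, 2^a). -/
theorem result {α : Type*} [Fintype α] [DecidableEq α] (hm : 3 ≤ Fintype.card α) (hodd : Odd (Fintype.card α)) (G : Subgroup (Equiv.Perm α)) (h3 : MulAction.IsMultiplyPretransitive G α 3) (hfix : ∀ g : G, 3 ≤ Nat.card (MulAction.fixedBy α g) → g = 1) : ∃ a : ℕ, 1 ≤ a ∧ Fintype.card α = 2 ^ a + 1 ∧ ∃ (F : Type) (_ : Field F) (_ : Fintype F), Fintype.card F = 2 ^ a ∧ Nonempty (G ≃* Matrix.SpecialLinearGroup (Fin 2) F) := by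
  classical
  have hS : Cfsg.Agent.Lib.Helper12.S3T.Sharp3 G α := by
    apply Cfsg.Agent.Lib.Helper12.S3T.sharp3_of_multiply h3
    intro g a b c hab hac hbc ha hb hc
    apply hfix g
    let f : Fin 3 → MulAction.fixedBy α g := ![⟨a, ha⟩, ⟨b, hb⟩, ⟨c, hc⟩]
    have hf : Function.Injective f := by
      intro x y hxy
      have h1 : ∀ x, (f x).1 = Cfsg.Agent.Lib.Helper12.S3T.emb3 a b c hab hac hbc x := by
        intro x
        fin_cases x <;> rfl
      apply (Cfsg.Agent.Lib.Helper12.S3T.emb3 a b c hab hac hbc).injective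
      rw [← h1, ← h1, hxy]
    have := Nat.card_le_card_of_injective f hf
    simpa using this
  obtain ⟨F, iF, iFt, hch, hcard, -, hE⟩ := hS.main (by rwa [Nat.card_eq_fintype_card])
    (by rwa [Nat.card_eq_fintype_card])
  obtain ⟨a, ha, hFa⟩ := Cfsg.Agent.Lib.Helper12.S3T.card_pow_two F
  rw [Nat.card_eq_fintype_card] at hcard
  exact ⟨a, ha, by rw [hcard, hFa], F, iF, iFt, hFa, hE⟩

end Cfsg.Agent.S4702
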