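import Cfsg.Statements.S4714
import Cfsg.Agent.Lib.Helper20.PCBlock3
open Cfsg.Agent.Lib.Helper20 Cfsg.Agent.Lib.Helper81 Cfsg.Agent.Lib.Helper21

set_option autoImplicit false
open Cfsg

namespace Cfsg.Agent.S4714

/-- Let p be a prime, M a maximal ideal of the algebraic integers containing p, D a p-subgroup of the finite group G with G = D·C_G(D), and B a p-block with defect group D. Let χ be a member of B having D in its kernel (there is exactly one, the canonical character of B). Then the irreducible characters in B are exactly the functions θ on G for which there is an irreducible character ζ of D such that θ(yx) = ζ(y)χ(x) whenever y ∈ D, x has order prime to p and x commutes with y, and θ(z) = 0 whenever the p-part of z does not lie in D. -/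
theorem result {G : Type*} [Group G] [Finite G] (p : ℕ) [Fact p.Prime] (M : Ideal Cfsg.AlgInt) (hM : Cfsg.IsPModular p M) (D : Subgroup G) (hD : IsPGroup p D) (hG : D ⊔ Subgroup.centralizer (D : Set G) = ⊤) (B : Set (Cfsg.IrrCharacter G)) (hB : Cfsg.IsPBlock M B) (hBD : Cfsg.IsDefectGroup p M B D) (χ : Cfsg.IrrCharacter G) (hχ : χ ∈ B) (hχD : ∀ y ∈ D, (χ : G → ℂ) y = (χ : G → ℂ) 1) : (∀ θ : Cfsg.IrrCharacter G, θ ∈ B ↔ ∃ ζ : Cfsg.IrrCharacter D, (∀ (y : D) (x : G), ¬ p ∣ orderOf x → Commute (y : G) x → (θ : G → ℂ) ((y : G) * x) = (ζ : D → ℂ) y * (χ : G → ℂ) x) ∧ (∀ z : G, (∀ y : G, Cfsg.IsPPart p z y → y ∉ D) → (θ : G → ℂ) z = 0)) ∧ ∀ ζ : Cfsg.IrrCharacter D, ∃ θ ∈ B, (∀ (y : D) (x : G), ¬ p ∣ orderOf x → Commute (y : G) x → (θ : G → ℂ) ((y : G) * x) = (ζ : D → ℂ) y * (χ : G → ℂ) x) ∧ (∀ z : G, (∀ y : G, Cfsg.IsPPart p z y → y ∉ D) → (θ : G → ℂ) z = 0) := by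
  classical
  haveI : Fintype G := Fintype.ofFinite G
  haveI : Fintype D := Fintype.ofFinite D
  haveI := normal_of_sup_centralizer hG
  have hp : p.Prime := Fact.out
  have key : ∀ θ ∈ B, ∀ ζ : Cfsg.IrrCharacter D,
      Cfsg.classInner (fun u : D => (θ : G → ℂ) u) (ζ : D → ℂ) ≠ 0 →
      (∀ (y : D) (x : G), ¬ p ∣ orderOf x → Commute (y : G) x →
        (θ : G → ℂ) ((y : G) * x) = (ζ : D → ℂ) y * (χ : G → ℂ) x) ∧
      (∀ z : G, (∀ y : G, Cfsg.IsPPart p z y → y ∉ D) → (θ : G → ℂ) z = 0) := by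
    intro θ hθ ζ hc
    refine ⟨fun y x hx _ => apply_mul_of_canonical hM hD hG hB hBD hχ hχD hθ
      (exists_res_eq hM hD hG hB hBD hχ hχD hθ hc) y hx, fun z hz => ?_⟩
    apply vanish_of_normal_defectGroup hM hB hBD hθ
    rintro ⟨x, hx, hpp⟩
    exact hz x hpp hx
  have surj : ∀ ζ : Cfsg.IrrCharacter D, ∃ θ ∈ B,
      (∀ (y : D) (x : G), ¬ p ∣ orderOf x → Commute (y : G) x →
        (θ : G → ℂ) ((y : G) * x) = (ζ : D → ℂ) y * (χ : G → ℂ) x) ∧
      (∀ z : G, (∀ y : G, Cfsg.IsPPart p z y → y ∉ D) → (θ : G → ℂ) z = 0) := by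
    intro ζ
    obtain ⟨θ, hθ, hc⟩ := exists_over_of_canonical hM hD hB hχ ζ
    exact ⟨θ, hθ, key θ hθ ζ hc⟩
  refine ⟨fun θ => ⟨fun hθ => ?_, ?_⟩, surj⟩
  · obtain ⟨ζ, hc⟩ := exists_constituent_res D θ
    exact ⟨ζ, key θ hθ ζ hc⟩
  · rintro ⟨ζ, h1, h2⟩
    obtain ⟨θ', hθ', h1', h2'⟩ := surj ζ
    have e : θ = θ' := by
      apply Subtype.ext
      funext z
      obtain ⟨y, hy⟩ := exists_isPPart hp z
      by_cases hyD : y ∈ D
      · obtain ⟨x, e1, hc, -, hx⟩ := hy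
        rw [← e1]
        exact (h1 ⟨y, hyD⟩ x hx hc).trans (h1' ⟨y, hyD⟩ x hx hc).symm
      · have h3 : ∀ y' : G, Cfsg.IsPPart p z y' → y' ∉ D := by
          intro y' hy'
          rw [isPPart_unique hp hy' hy]
          exact hyD
        rw [h2 z h3, h2' z h3]
    rw [e]
    exact hθ'

end Cfsg.Agent.S4714
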