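import Cfsg.Statements.S4715
import Mathlib
import Cfsg.Agent.Lib.Helper78.HeightBridge
import Cfsg.Agent.Lib.Helper5.AbNil

set_option autoImplicit false
open Cfsg

namespace Cfsg.Agent.S4715

/-- Let p be a prime, M a maximal ideal of the algebraic integers containing p, B a p-block of the finite group G with defect group D of order p^d, H = D·C_G(D), b a block of H inducing B, T the stabilizer of b in N_G(D) and e = [T : H] the inertial index of B; let n be the integer with p^n ≤ e < p^(n+1) and p^c the order of the centre of D. Then every irreducible character in B has height h with h + c ≤ n + d. -/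
theorem result {G : Type*} [Group G] [Finite G] (p : ℕ) [Fact p.Prime] (M : Ideal Cfsg.AlgInt) (hM : Cfsg.IsPModular p M) (B : Set (Cfsg.IrrCharacter G)) (hB : Cfsg.IsPBlock M B) (D : Subgroup G) (hBD : Cfsg.IsDefectGroup p M B D) (d : ℕ) (hDd : Nat.card D = p ^ d) (H : Subgroup G) (hH : H = D ⊔ Subgroup.centralizer (D : Set G)) (b : Set (Cfsg.IrrCharacter H)) (hind : Cfsg.IsInducedBlock M H b B) (T : Subgroup G) (hT : ∀ g : G, g ∈ T ↔ (g ∈ Subgroup.normalizer (D : Set G) ∧ ∀ θ ∈ b, ∀ θ' : Cfsg.IrrCharacter H, (∀ h h' : H, (h' : G) = g * h * g⁻¹ → (θ' : H → ℂ) h' = (θ : H → ℂ) h) → θ' ∈ b)) (e : ℕ) (he : H.relIndex T = e) (n : ℕ) (hn : p ^ n ≤ e ∧ e < p ^ (n + 1)) (c : ℕ) (hc : Nat.card (Subgroup.center D) = p ^ c) : ∀ χ ∈ B, Cfsg.blockHeight p B (χ : G → ℂ) + c ≤ n + d := by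
  classical
  intro χ hχ
  have : Fintype G := Fintype.ofFinite G
  have hp : p.Prime := Fact.out
  have hmax := Cfsg.Agent.Lib.Helper78.isMaxBP_of_induced_sup hM hB hBD hH hind
  obtain ⟨X, hX, hXrep⟩ := Cfsg.Agent.Lib.Helper5.exists_pReps (G := G) p
  have hST : Cfsg.Agent.Lib.Helper80.GA.stabP D (Cfsg.Agent.Lib.Helper80.bl hM H b) ≤ T := by
    intro t ht
    exact (hT t).2 (Cfsg.Agent.Lib.Helper78.stab_of_mem_stabP hM hH hind.1 ht)
  have h1 := Cfsg.Agent.Lib.Helper78.center_card_le hM hB hmax X hXrep e (fun z hz hzc => by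
    rw [← he]
    apply Cfsg.Agent.Lib.Helper78.card_orbit_le_relIndex T H _ hST z
    have hle : H ≤ Subgroup.centralizer ({z} : Set G) := by
      rw [hH]
      apply sup_le
      · intro d hd
        rw [Subgroup.mem_centralizer_iff]
        intro v hv
        rw [Set.mem_singleton_iff] at hv
        rw [hv]
        exact (hzc d hd).symm
      · exact Subgroup.centralizer_le (Set.singleton_subset_iff.2 hz)
    intro h hh
    exact (Subgroup.mem_centralizer_iff.1 (hle hh) z rfl).symm)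
  have h2 := Cfsg.Agent.Lib.Helper78.major_count_le hM hχ X hX hXrep
  have h3 := Cfsg.Agent.Lib.Helper21.card_defectGroup hM B hB D hBD
  rw [hDd] at h3
  rw [← h3] at h2
  rw [hc] at h1
  have h4 : p ^ (Cfsg.blockHeight p B (χ : G → ℂ) + c) < p ^ (n + 1 + d) := by
    calc p ^ (Cfsg.blockHeight p B (χ : G → ℂ) + c)
        = p ^ c * p ^ Cfsg.blockHeight p B (χ : G → ℂ) := by rw [pow_add, mul_comm]
      _ ≤ e * _ * p ^ Cfsg.blockHeight p B (χ : G → ℂ) := Nat.mul_le_mul_right _ h1
      _ = e * (_ * p ^ Cfsg.blockHeight p B (χ : G → ℂ)) := mul_assoc _ _ _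
      _ ≤ e * p ^ d := Nat.mul_le_mul_left _ h2
      _ < p ^ (n + 1) * p ^ d := Nat.mul_lt_mul_of_pos_right hn.2 (pow_pos hp.pos _)
      _ = p ^ (n + 1 + d) := (pow_add _ _ _).symm
  have h5 := (Nat.pow_lt_pow_iff_right hp.one_lt).1 h4
  omega

end Cfsg.Agent.S4715
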