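import Cfsg.Statements.S4719
import Cfsg.Agent.Lib.Helper77.DefClassBound

set_option autoImplicit false
universe u
open Cfsg

namespace Cfsg.Agent.S4719

open Subgroup Cfsg.Agent.Lib.Helper77

/-- For every natural number a there is a bound N with the following property. Let G be a finite group with Sylow 2-subgroups of order 2^a and r ≥ 0 such that G has no non-principal 2-block (relative to a maximal ideal of the algebraic integers containing 2) of defect ≥ r, and suppose a Sylow 2-subgroup of G contains an elementary abelian subgroup of order 2^(r+1). Then the order of G is at most N. -/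
theorem result (a : ℕ) : ∃ N : ℕ, ∀ (G : Type u) [Group G] [Finite G] (M : Ideal Cfsg.AlgInt) (r : ℕ) (P : Sylow 2 G), Cfsg.IsPModular 2 M → Nat.card P = 2 ^ a → (∀ B : Set (Cfsg.IrrCharacter G), Cfsg.IsPBlock M B → B ≠ Cfsg.principalBlock M G → Cfsg.blockDefect 2 B < r) → (∃ E : Subgroup G, E ≤ (P : Subgroup G) ∧ IsMulCommutative E ∧ (∀ x ∈ E, x * x = 1) ∧ Nat.card E = 2 ^ (r + 1)) → Nat.card G ≤ N := by
  have h := fun n => defclass_bound.{u} n a
  choose F hF using h
  refine ⟨∑ i ∈ Finset.range (a + 1), F i, ?_⟩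
  intro G _ _ M r P hM hP hdef hE'
  obtain ⟨E, hEP, hEc, hexp, hE⟩ := hE'
  have hra : r + 1 ≤ a := by
    have hd : Nat.card E ∣ Nat.card (P : Subgroup G) := Subgroup.card_dvd_of_le hEP
    rw [hE] at hd
    have hP' : Nat.card (P : Subgroup G) = 2 ^ a := hP
    rw [hP'] at hd
    exact (Nat.pow_dvd_pow_iff_le_right (by norm_num)).1 hd
  have hfac : (Nat.card G).factorization 2 = a := by
    have h1 := P.card_eq_multiplicity
    have hP' : Nat.card (P : Subgroup G) = 2 ^ a := hP
    rw [hP'] at h1
    exact (Nat.pow_right_injective (le_refl 2) h1).symm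
  have hcomm : ∀ x ∈ E, ∀ y ∈ E, x * y = y * x := by
    intro x hx y hy
    exact mem_centralizer_iff.1 (le_centralizer_iff_isMulCommutative.2 hEc hy) x hx
  have h1 := hF r G M r 0 ⊥ E hM hfac.le hdef bot_le bot_le hcomm hexp (by simp) hE (zero_add r)
  refine h1.trans ?_
  exact Finset.single_le_sum (f := F) (fun i _ => Nat.zero_le _)
    (Finset.mem_range.2 (by omega))

end Cfsg.Agent.S4719
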