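import Cfsg.Statements.S4721
import Cfsg.Agent.Lib.Helper83.BL3Elem

set_option autoImplicit false
open Cfsg
open Cfsg.Agent.Lib.Helper20 Cfsg.Agent.Lib.Helper46 Cfsg.Agent.Lib.Helper81 Cfsg.Agent.Lib.Helper51 Cfsg.Agent.Lib.Helper83

namespace Cfsg.Agent.S4721

theorem card_aux {ι : Type*} {χ₁ χ₂ χ₃ : ι} (h23 : χ₂ ≠ χ₃) (a : ι → ℤ) (Q : ι → Prop)
    (hQ1 : ¬ Q χ₁) (hQ2 : Q χ₂) (hQ3 : Q χ₃) :
    Nat.card {χ : ι // χ ∈ ({χ₁, χ₂, χ₃} : Set ι) ∧ Q χ ∧ a χ = -1}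
      = (if a χ₂ = -1 then 1 else 0) + (if a χ₃ = -1 then 1 else 0) := by
  have h0 := Nat.card_coe_set_eq {χ : ι | χ ∈ ({χ₁, χ₂, χ₃} : Set ι) ∧ Q χ ∧ a χ = -1}
  simp only [Set.coe_ofPred] at h0
  rw [h0]
  by_cases h2 : a χ₂ = -1 <;> by_cases h3 : a χ₃ = -1
  · have : {χ : ι | χ ∈ ({χ₁, χ₂, χ₃} : Set ι) ∧ Q χ ∧ a χ = -1} = {χ₂, χ₃} := by
      ext χ
      simp only [Set.mem_ofPred_eq, Set.mem_insert_iff, Set.mem_singleton_iff]
      constructor
      · rintro ⟨rfl | rfl | rfl, hq, -⟩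
        · exact absurd hq hQ1
        · exact Or.inl rfl
        · exact Or.inr rfl
      · rintro (rfl | rfl)
        · exact ⟨Or.inr (Or.inl rfl), hQ2, h2⟩
        · exact ⟨Or.inr (Or.inr rfl), hQ3, h3⟩
    rw [this, Set.ncard_pair h23, if_pos h2, if_pos h3]
  · have : {χ : ι | χ ∈ ({χ₁, χ₂, χ₃} : Set ι) ∧ Q χ ∧ a χ = -1} = {χ₂} := by
      ext χ
      simp only [Set.mem_ofPred_eq, Set.mem_insert_iff, Set.mem_singleton_iff]
      constructor
      · rintro ⟨rfl | rfl | rfl, hq, ha⟩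
        · exact absurd hq hQ1
        · rfl
        · exact absurd ha h3
      · rintro rfl
        exact ⟨Or.inr (Or.inl rfl), hQ2, h2⟩
    rw [this, Set.ncard_singleton, if_pos h2, if_neg h3]
  · have : {χ : ι | χ ∈ ({χ₁, χ₂, χ₃} : Set ι) ∧ Q χ ∧ a χ = -1} = {χ₃} := by
      ext χ
      simp only [Set.mem_ofPred_eq, Set.mem_insert_iff, Set.mem_singleton_iff]
      constructor
      · rintro ⟨rfl | rfl | rfl, hq, ha⟩
        · exact absurd hq hQ1
        · exact absurd ha h2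
        · rfl
      · rintro rfl
        exact ⟨Or.inr (Or.inr rfl), hQ3, h3⟩
    rw [this, Set.ncard_singleton, if_neg h2, if_pos h3]
  · have : {χ : ι | χ ∈ ({χ₁, χ₂, χ₃} : Set ι) ∧ Q χ ∧ a χ = -1} = ∅ := by
      ext χ
      simp only [Set.mem_ofPred_eq, Set.mem_insert_iff, Set.mem_singleton_iff, Set.mem_empty_iff_false,
        iff_false]
      rintro ⟨rfl | rfl | rfl, hq, ha⟩
      · exact hQ1 hq
      · exact h2 ha
      · exact h3 ha
    rw [this, Set.ncard_empty, if_neg h2, if_neg h3]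

/-- Let p be a prime, M a maximal ideal of the algebraic integers containing p, and G a finite group with a nontrivial abelian Sylow p-subgroup P, N = N_G(P), C = C_G(P), such that N/C is cyclic of order 3, #P > 4, and C_G(y) ∩ N = C for every non-identity y ∈ P. Then the principal p-block is the disjoint union of a set X of exactly 3 characters containing the principal character and a set Y of (#P − 1)/3 characters, with signs a_χ = ±1 (χ ∈ X, a = 1 at the principal character) and δ = ±1 such that every χ ∈ X takes the value a_χ at every element whose p-part is a non-identity element of P, and there is a map ζ from the non-principal linear characters of P onto Y, constant on N-conjugacy classes, with ζ_ψ(z) = δ·Σ ψ'(y) over the N-orbit of ψ, for z with p-part y ≠ 1 in P. If moreover G has an involution lying in no proper normal subgroup of G, then exactly two of the three numbers −δ and a_χ (χ ∈ X non-principal)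 equal −1, and the product of the degrees of the two non-principal members of X and of any member of Y is a perfect square. -/
theorem result {G : Type*} [Group G] [Finite G] (p : ℕ) [Fact p.Prime] (M : Ideal Cfsg.AlgInt) (hM : Cfsg.IsPModular p M) (P : Sylow p G) (hab : IsMulCommutative P) (hP1 : Nat.card P ≠ 1) (hCN : (Subgroup.centralizer ((P : Subgroup G) : Set G)).relIndex (Subgroup.normalizer ((P : Subgroup G) : Set G)) = 3) (hcyc : ∃ g : G, g ∈ Subgroup.normalizer ((P : Subgroup G) : Set G) ∧ Subgroup.centralizer ((P : Subgroup G) : Set G) ⊔ Subgroup.zpowers g = Subgroup.normalizer ((P : Subgroup G) : Set G)) (hm2 : 3 + 1 < Nat.card P) (hfrob : ∀ y : G, y ∈ (P : Subgroup G) → y ≠ 1 → Subgroup.centralizer ({y} : Set G) ⊓ Subgroup.normalizer ((P : Subgroup G) : Set G) = Subgroup.centralizer ((P : Subgroup G) : Set G)) : ∃ (X Y : Set (Cfsg.IrrCharacter G)), Cfsg.principalBlock M G = X ∪ Y ∧ Disjoint X Y ∧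 Nat.card X = 3 ∧ Nat.card Y = (Nat.card P - 1) / 3 ∧ (∃ χ₁ ∈ X, (χ₁ : G → ℂ) = fun _ => 1) ∧ ∃ (a : Cfsg.IrrCharacter G → ℤ) (δ : ℤ) (ζ : (↥(P : Subgroup G) →* ℂˣ) → Cfsg.IrrCharacter G), (δ = 1 ∨ δ = -1) ∧ (∀ χ ∈ X, (a χ = 1 ∨ a χ = -1) ∧ ∀ z y : G, Cfsg.IsPPart p z y → y ∈ (P : Subgroup G) → y ≠ 1 → (χ : G → ℂ) z = (a χ : ℂ)) ∧ (∀ ψ : ↥(P : Subgroup G) →* ℂˣ, ψ ≠ 1 → ζ ψ ∈ Y) ∧ (∀ η ∈ Y, ∃ ψ : ↥(P : Subgroup G) →* ℂˣ, ψ ≠ 1 ∧ ζ ψ = η) ∧ (∀ ψ ψ' : ↥(P : Subgroup G) →* ℂˣ, ψ ≠ 1 → (∃ n : G, n ∈ Subgroup.normalizer ((P : Subgroup G) : Set G) ∧ ∀ w w' : ↥(P : Subgroup G), (w' : G) = n * w * n⁻¹ → ψ' w' = ψ w) → ζ ψ' = ζ ψ) ∧ (∀ ψ : ↥(P : Subgroup G) →* ℂˣ, ψ ≠ 1 → ∀ (z : G) (y : ↥(P : Subgroup G)), Cfsg.IsPPart p z (y : G) → (y : G) ≠ 1 → (ζ ψ : G → ℂ) z = (δ : ℂ) * ∑ᶠ ψ' ∈ {ψ' : ↥(P : Subgroup G) →* ℂˣ | ∃ n : G, n ∈ Subgroup.normalizer ((P : Subgroup G) : Set G) ∧ ∀ w w' : ↥(P : Subgroup G), (w' : G) = n * w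 * n⁻¹ → ψ' w' = ψ w}, ((ψ' y : ℂˣ) : ℂ)) ∧ ((∃ t : G, orderOf t = 2 ∧ ∀ K : Subgroup G, K.Normal → t ∈ K → K = ⊤) → Nat.card {χ : Cfsg.IrrCharacter G // χ ∈ X ∧ (χ : G → ℂ) ≠ (fun _ => 1) ∧ a χ = -1} + (if δ = 1 then 1 else 0) = 2 ∧ ∀ η ∈ Y, IsSquare (Cfsg.charDegree (η : G → ℂ) * ∏ᶠ χ ∈ {χ : Cfsg.IrrCharacter G | χ ∈ X ∧ (χ : G → ℂ) ≠ fun _ => 1}, Cfsg.charDegree (χ : G → ℂ))) := by
  classical
  have := hab
  have := Fintype.ofFinite G
  have : Finite (IrrCharacter G) := finite_irrCharacter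
  have : Fintype (IrrCharacter G) := Fintype.ofFinite _
  have : Fintype (P : Subgroup G) := Fintype.ofFinite _
  have hc : ∀ a b : (P : Subgroup G), a * b = b * a := fun a b => hab.is_comm.comm a b
  have hfree := freeNC_of_frob (P : Subgroup G) hfrob
  have : Finite ((P : Subgroup G) →* ℂˣ) := finite_hom hc
  have : Fintype ((P : Subgroup G) →* ℂˣ) := Fintype.ofFinite _
  have hcardP : Nat.card P = Nat.card (P : Subgroup G) := rfl
  obtain ⟨ε, ζ, e₂, e₃, χ₂, χ₃, h, hcardY⟩ := exists_bl3 hM P hfrob hCN hm2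
  have h1reg : ¬ p ∣ orderOf (1 : G) := by
    rw [orderOf_one, Nat.dvd_one]; exact (Fact.out : p.Prime).one_lt.ne'
  let a : IrrCharacter G → ℤ := fun χ => if χ = χ₂ then e₂ else if χ = χ₃ then e₃ else 1
  have ha1 : a (oneIrr G) = 1 := by
    show (if oneIrr G = χ₂ then e₂ else if oneIrr G = χ₃ then e₃ else 1) = 1
    rw [if_neg h.ne2, if_neg h.ne3]
  have ha2 : a χ₂ = e₂ := if_pos rfl
  have ha3 : a χ₃ = e₃ := by
    show (if χ₃ = χ₂ then e₂ else if χ₃ = χ₃ then e₃ else 1) = e₃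
    rw [if_neg h.ne23.symm, if_pos rfl]
  have hQ1 : ¬ ((oneIrr G : G → ℂ) ≠ fun _ => 1) := fun hh => hh rfl
  have hQ2 : (χ₂ : G → ℂ) ≠ fun _ => 1 := fun hh => h.ne2 (Subtype.ext hh.symm)
  have hQ3 : (χ₃ : G → ℂ) ≠ fun _ => 1 := fun hh => h.ne3 (Subtype.ext hh.symm)
  refine ⟨principalBlock M G \ excSet ζ, excSet ζ,
    (Set.sdiff_union_of_subset h.exc_sub).symm, Set.disjoint_sdiff_left, ?_, ?_, ?_,
    a, ε, ζ, h.eps, ?_, fun ψ hψ => ⟨ψ, hψ, rfl⟩, ?_, ?_, ?_, ?_⟩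
  · rw [h.nonexc, Nat.card_coe_set_eq, Set.ncard_insert_of_notMem, Set.ncard_pair h.ne23]
    simp only [Set.mem_insert_iff, Set.mem_singleton_iff, not_or]
    exact ⟨h.ne2, h.ne3⟩
  · rw [hcardP, ← hcardY, Nat.mul_div_cancel _ (by norm_num)]
  · refine ⟨oneIrr G, ?_, rfl⟩
    rw [h.nonexc]; simp
  · intro χ hχ
    rw [h.nonexc] at hχ
    simp only [Set.mem_insert_iff, Set.mem_singleton_iff] at hχ
    rcases hχ with rfl | rfl | rfl
    · rw [ha1]
      exact ⟨Or.inl rfl, fun z y _ _ _ => by simp [oneIrr]⟩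
    · rw [ha2]
      exact ⟨h.e2, h.val2⟩
    · rw [ha3]
      exact ⟨h.e3, h.val3⟩
  · rintro η ⟨ψ, hψ, rfl⟩
    exact ⟨ψ, hψ, rfl⟩
  · intro ψ ψ' hψ hrel
    have hrel' : dualRel (P : Subgroup G) ψ ψ' := hrel
    exact ((h.inj ψ ψ' hψ (dualRel_ne_one _ hrel' hψ)).2 hrel').symm
  · intro ψ hψ z y hz hy1
    rw [h.valζ ψ hψ z y hz hy1]
    congr 1
    have := finsum_mem_irr {ψ' : (P : Subgroup G) →* ℂˣ | dualRel (P : Subgroup G) ψ ψ'}
      (fun ψ' => ((ψ' y : ℂˣ) : ℂ))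
    exact this.symm
  · rintro ⟨t, ht, hK⟩
    by_cases hE : ∀ y : (P : Subgroup G), y * y = 1
    · exact (h.elem_false hM hCN hm2 hE ht hK).elim
    · push Not at hE
      obtain ⟨y₀, hy₀⟩ := hE
      obtain ⟨ψ, hψ, hprod, hnall, hsq⟩ := h.trick hfree hCN hy₀ ht hK
      constructor
      · rw [h.nonexc, card_aux h.ne23 a (fun χ : IrrCharacter G => (χ : G → ℂ) ≠ fun _ => 1)
          hQ1 hQ2 hQ3, ha2, ha3]
        rcases h.e2 with r2 | r2 <;> rcases h.e3 with r3 | r3 <;> rcases h.eps with r4 | r4 <;>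
          rw [r2, r3, r4] at hprod hnall <;> simp only [r2, r3, r4] <;>
          first
          | (exfalso; norm_num at hprod; done)
          | (exfalso; norm_num at hnall; done)
          | norm_num
      · intro η hη
        have hdeg : charDegree (η : G → ℂ) = charDegree (ζ ψ : G → ℂ) := by
          simp only [charDegree]
          rw [h.exc_reg hη h1reg, h.exc_reg ⟨ψ, hψ, rfl⟩ h1reg]
        have hset : {χ : IrrCharacter G | χ ∈ principalBlock M G \ excSet ζ ∧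
            (χ : G → ℂ) ≠ fun _ => 1} = {χ₂, χ₃} := by
          rw [h.nonexc]
          ext χ
          simp only [Set.mem_ofPred_eq, Set.mem_insert_iff, Set.mem_singleton_iff]
          constructor
          · rintro ⟨rfl | rfl | rfl, hq⟩
            · exact absurd hq hQ1
            · exact Or.inl rfl
            · exact Or.inr rfl
          · rintro (rfl | rfl)
            · exact ⟨Or.inr (Or.inl rfl), hQ2⟩
            · exact ⟨Or.inr (Or.inr rfl), hQ3⟩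
        rw [hset, finprod_mem_pair h.ne23, hdeg, mul_comm]
        exact hsq

end Cfsg.Agent.S4721
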