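import Cfsg.Statements.S4723
import Cfsg.Agent.Lib.Helper21.Fong3
import Cfsg.Agent.Lib.Helper21.Tower
import Cfsg.Agent.Lib.Helper21.StabDefect
import Cfsg.Agent.Lib.Helper19.CliffordDeg
import Cfsg.Agent.Lib.Helper19.GoingDown
import Cfsg.Agent.Lib.Helper21.Separated
-- import your own Cfsg.Agent.* helpers here

set_option autoImplicit false
open Cfsg
open scoped ComplexConjugate
open Cfsg.Agent.Lib.Helper20 Cfsg.Agent.Lib.Helper81 Cfsg.Agent.Lib.Helper5 Cfsg.Agent.Lib.Helper21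

namespace Cfsg.Agent.S4723

section
variable {G : Type*} [Group G] [Fintype G] {N : Subgroup G} [Fintype N] {p : ℕ} {M : Ideal AlgInt}

theorem exists_max_cover [Fact p.Prime] (hM : IsPModular p M) (hN : N.Normal)
    {b : Set (IrrCharacter N)} (hb : IsPBlock M b) :
    ∃ B : Set (IrrCharacter G), IsPBlock M B ∧ Covers N B b ∧
      ∀ B' : Set (IrrCharacter G), IsPBlock M B' → Covers N B' b →
        blockDefect p B' ≤ blockDefect p B := by
  classical
  obtain ⟨θ, hθ⟩ := isPBlock_nonempty hM hb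
  obtain ⟨χ, hχ, hc⟩ := Cfsg.Agent.Lib.Helper19.exists_irr_over N θ.2
  have hne : {B : Set (IrrCharacter G) | IsPBlock M B ∧ Covers N B b}.Nonempty :=
    ⟨blockOf M χ, ⟨⟨χ, hχ⟩, rfl⟩, ⟨χ, hχ⟩, mem_blockOf_self hM ⟨χ, hχ⟩, θ, hθ, hc⟩
  have hfin : {B : Set (IrrCharacter G) | IsPBlock M B ∧ Covers N B b}.Finite := Set.toFinite _
  obtain ⟨B, hB, hmax⟩ := Set.exists_max_image _ (fun B => blockDefect p B) hfin hne
  exact ⟨B, hB.1, hB.2, fun B' h1 h2 => hmax B' ⟨h1, h2⟩⟩

theorem invariant_case [Fact p.Prime] (hM : IsPModular p M) (hN : N.Normal)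
    {b : Set (IrrCharacter N)} (hb : IsPBlock M b) (hinv : ∀ g : G, ∀ θ ∈ b, cjIrr hN g θ ∈ b) :
    ∃ θ ∈ b, blockHeight p b (θ : N → ℂ) = 0 ∧ ¬ p ∣ (inertia hN (θ : N → ℂ)).index := by
  classical
  have hp : p.Prime := Fact.out
  obtain ⟨B, hB, hcov, hmax⟩ := exists_max_cover hM hN hb
  obtain ⟨P, hP⟩ := exists_isDefectGroup hM B hB
  obtain ⟨-, -, hd⟩ := fong_invariant hM hN hb hinv hB hcov hmax P hP
  obtain ⟨χ, hχ, hχ0, -⟩ := exists_height_zero p B (isPBlock_nonempty hM hB)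
  have hcl := conjClosure_eq_of_invariant hN hinv
  obtain ⟨χ1, hχ1, θ1, hθ1, hc1⟩ := hcov
  have hover : χ ∈ overSet N b := by
    have h1 : χ1 ∈ overSet N (conjClosure hN b) := by rw [hcl]; exact ⟨θ1, hθ1, hc1⟩
    have := overSet_union_of_blocks hM hN hb h1 (isPBlock_sameBlock hM hB hχ1 hχ)
    rwa [hcl] at this
  obtain ⟨θ, hθ, hc⟩ := hover
  obtain ⟨e, he, hdeg⟩ := Cfsg.Agent.Lib.Helper19.clifford_degree hN χ.2 θ.2 hc
  rw [Cfsg.Agent.Lib.Helper19.ncard_conj_orbit_eq_index, irr_one_eq_charDegree,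
    irr_one_eq_charDegree] at hdeg
  have hdeg' : charDegree (χ : G → ℂ) = e * (inertia hN (θ : N → ℂ)).index *
      charDegree (θ : N → ℂ) := by exact_mod_cast hdeg
  have hχne := Cfsg.Agent.Lib.Helper21.charDegree_ne_zero χ
  have hθne := Cfsg.Agent.Lib.Helper21.charDegree_ne_zero θ
  have het : e * (inertia hN (θ : N → ℂ)).index ≠ 0 := by
    intro h0
    rw [h0, zero_mul] at hdeg'
    exact hχne hdeg'
  have hene : e ≠ 0 := left_ne_zero_of_mul het
  have htne : (inertia hN (θ : N → ℂ)).index ≠ 0 := right_ne_zero_of_mul het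
  have hfac : (charDegree (χ : G → ℂ)).factorization p = e.factorization p +
      (inertia hN (θ : N → ℂ)).index.factorization p +
      (charDegree (θ : N → ℂ)).factorization p := by
    rw [hdeg', Nat.factorization_mul het hθne, Nat.factorization_mul hene htne]
    rfl
  have h1 := factorization_charDegree_le_card p χ
  have h2 := factorization_charDegree_le_card p θ
  have h3 : sInf ((fun ψ : IrrCharacter N => (charDegree (ψ : N → ℂ)).factorization p) '' b) ≤
      (charDegree (θ : N → ℂ)).factorization p := Nat.sInf_le ⟨θ, hθ, rfl⟩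
  have h4 : (Nat.card G).factorization p = (Nat.card N).factorization p +
      N.index.factorization p := by
    rw [← N.card_mul_index, Nat.factorization_mul Nat.card_pos.ne' N.index_ne_zero_of_finite]
    rfl
  rw [blockDefect, blockDefect, ← hχ0] at hd
  refine ⟨θ, hθ, ?_, ?_⟩
  · rw [blockHeight]
    omega
  · intro hdvd
    have : 1 ≤ (inertia hN (θ : N → ℂ)).index.factorization p :=
      (hp.dvd_iff_one_le_factorization htne).1 hdvd
    omega

end


/-- Let p be a prime, M a maximal ideal of the algebraic integers containing p, H a normal subgroup of the finite group G and b a p-block of H. Let T be the stabilizer of b in G. Then b contains a character θ of height zero whose own stabilizer in G (the elements g with θ(g h g⁻¹) = θ(h) for all h ∈ H) has index prime to p in T, i.e. contains a Sylow p-subgroup of T. -/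
theorem result {G : Type*} [Group G] [Finite G] (p : ℕ) [Fact p.Prime] (M : Ideal Cfsg.AlgInt) (hM : Cfsg.IsPModular p M) (H : Subgroup G) [H.Normal] (b : Set (Cfsg.IrrCharacter ↥H)) (hb : Cfsg.IsPBlock M b) (T : Subgroup G) (hT : (∀ g : G, g ∈ T ↔ ∀ θ ∈ b, ∀ θ' : Cfsg.IrrCharacter ↥H, (∀ h h' : ↥H, (h' : G) = g * h * g⁻¹ → (θ' : ↥H → ℂ) h' = (θ : ↥H → ℂ) h) → θ' ∈ b)) : ∃ θ ∈ b, Cfsg.blockHeight p b (θ : ↥H → ℂ) = 0 ∧ ∃ S : Subgroup G, S ≤ T ∧ (∀ g : G, g ∈ S ↔ (g ∈ T ∧ ∀ h h' : ↥H, (h' : G) = g * h * g⁻¹ → (θ : ↥H → ℂ) h' = (θ : ↥H → ℂ) h)) ∧ ¬ p ∣ S.relIndex T := by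
  classical
  haveI := Fintype.ofFinite G
  have hHT : H ≤ T := by
    intro g hg
    rw [hT]
    intro θ hθ θ' h
    have : θ' = θ := by
      apply Subtype.ext
      funext h'
      have h1 := h ((⟨g, hg⟩ : H)⁻¹ * h' * (⟨g, hg⟩ : H)) h' (by simp [mul_assoc])
      rw [h1]
      have h2 := irr_classFunction θ h' (⟨g, hg⟩ : H)⁻¹
      rw [inv_inv] at h2
      exact h2
    rw [this]; exact hθ
  have hN : (H.subgroupOf T).Normal := inferInstance
  have hb' : IsPBlock M (downBlock hHT b) := isPBlock_downBlock hHT hb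
  have hval : ∀ (θ : IrrCharacter H) (n : H.subgroupOf T) (h : H), (h : G) = ((n : T) : G) →
      ((irrCongr (Subgroup.subgroupOfEquivOfLe hHT) θ : IrrCharacter (H.subgroupOf T)) :
        H.subgroupOf T → ℂ) n = (θ : H → ℂ) h := by
    intro θ n h hh
    rw [irrCongr_coe, Function.comp_apply]
    have : (Subgroup.subgroupOfEquivOfLe hHT) n = h := by
      apply Subtype.ext
      rw [hh]
      rfl
    rw [this]
  have hinv : ∀ g : T, ∀ θ ∈ downBlock hHT b, cjIrr hN g θ ∈ downBlock hHT b := by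
    rintro g _ ⟨θ, hθ, rfl⟩
    refine ⟨(irrCongr (Subgroup.subgroupOfEquivOfLe hHT)).symm
      (cjIrr hN g (irrCongr (Subgroup.subgroupOfEquivOfLe hHT) θ)), ?_, by simp⟩
    apply (hT (g⁻¹ : T)).1 (g⁻¹ : T).2 θ hθ
    intro h h' hh
    show (cjIrr hN g (irrCongr (Subgroup.subgroupOfEquivOfLe hHT) θ) : H.subgroupOf T → ℂ)
      ((Subgroup.subgroupOfEquivOfLe hHT).symm h') = _
    rw [cjIrr_coe, cjF_apply]
    apply hval
    have e1 : ((((Subgroup.subgroupOfEquivOfLe hHT).symm h' : H.subgroupOf T) : T) : G) = h' := rfl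
    simp only [Subgroup.coe_mul, e1, hh, Subgroup.coe_inv]
    group
  obtain ⟨θ', hθ', hh, hidx⟩ := invariant_case hM hN hb' hinv
  obtain ⟨θ, hθ, rfl⟩ := hθ'
  refine ⟨θ, hθ, ?_, (inertia hN (irrCongr (Subgroup.subgroupOfEquivOfLe hHT) θ :
    H.subgroupOf T → ℂ)).map T.subtype, ?_, ?_, ?_⟩
  · rw [blockHeight] at hh ⊢
    rw [downBlock, Set.image_image, irrCongr_coe, charDegree_comp_equiv] at hh
    simp only [irrCongr_coe, charDegree_comp_equiv] at hh
    exact hh
  · exact Subgroup.map_subtype_le _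
  · intro g
    rw [Subgroup.mem_map]
    constructor
    · rintro ⟨t, ht, rfl⟩
      refine ⟨t.2, ?_⟩
      intro h h' hh'
      rw [mem_inertia'] at ht
      have h1 := ht ((Subgroup.subgroupOfEquivOfLe hHT).symm h)
      rw [hval θ _ h' (by rw [hh']; rfl), hval θ _ h rfl] at h1
      exact h1
    · rintro ⟨hg, hcond⟩
      refine ⟨⟨g, hg⟩, ?_, rfl⟩
      rw [mem_inertia']
      intro n
      have hn : ((n : T) : G) ∈ H := n.2
      have hn' : g * ((n : T) : G) * g⁻¹ ∈ H := ‹H.Normal›.conj_mem _ hn g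
      rw [hval θ n ⟨_, hn⟩ rfl, hval θ _ ⟨_, hn'⟩ rfl]
      exact hcond ⟨_, hn⟩ ⟨_, hn'⟩ rfl
  · have : ((inertia hN (irrCongr (Subgroup.subgroupOfEquivOfLe hHT) θ :
        H.subgroupOf T → ℂ)).map T.subtype).relIndex T = (inertia hN (irrCongr
        (Subgroup.subgroupOfEquivOfLe hHT) θ : H.subgroupOf T → ℂ)).index := by
      rw [Subgroup.relIndex, Subgroup.subgroupOf,
        Subgroup.comap_map_eq_self_of_injective T.subtype_injective]
    rw [this]
    exact hidx

end Cfsg.Agent.S4723
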