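import Cfsg.Statements.S4725
-- import your own Cfsg.Agent.* helpers here
import Mathlib
import Cfsg.Agent.Lib.Helper21.IndPart
import Cfsg.Agent.Lib.Helper82.Codegree

set_option autoImplicit false
open Cfsg
open Cfsg.Agent.Lib.Helper20 Cfsg.Agent.Lib.Helper81 Cfsg.Agent.Lib.Helper21 Cfsg.Agent.Lib.Helper5

namespace Cfsg.Agent.S4725

/-- Let p be a prime, M a maximal ideal of the algebraic integers containing p, H a subgroup of the finite group G, and b a p-block of H inducing the p-block B of G, with b and B of the same defect. Then for every height-zero ζ ∈ b there is a height-zero χ ∈ B whose multiplicity in the character induced from ζ is not divisible by p. -/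
theorem result {G : Type*} [Group G] [Fintype G] (p : ℕ) [Fact p.Prime] (M : Ideal Cfsg.AlgInt) (hM : Cfsg.IsPModular p M) (H : Subgroup G) (b : Set (Cfsg.IrrCharacter ↥H)) (B : Set (Cfsg.IrrCharacter G)) (hind : Cfsg.IsInducedBlock M H b B) (hdef : Cfsg.blockDefect p b = Cfsg.blockDefect p B) (ζ : Cfsg.IrrCharacter ↥H) (hζ : ζ ∈ b) (hζ0 : Cfsg.blockHeight p b (ζ : ↥H → ℂ) = 0) : ∃ χ ∈ B, Cfsg.blockHeight p B (χ : G → ℂ) = 0 ∧ ∃ a : ℕ, Cfsg.classInner (Cfsg.indFun H (ζ : ↥H → ℂ)) (χ : G → ℂ) = (a : ℂ) ∧ ¬ p ∣ a := by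
  classical
  haveI : Fintype H := Fintype.ofFinite _
  haveI : Finite (IrrCharacter G) := finite_irrCharacter
  haveI : Fintype (IrrCharacter G) := Fintype.ofFinite _
  obtain ⟨n, h1, h2, -⟩ := blockPart_indFun_of_induced hM hind hζ B hind.2.1
  obtain ⟨hn0, hnf⟩ := h2 rfl
  have hch := Cfsg.Agent.Lib.Helper19.isCharacter_indFun H _ (isCharacter_of_isIrrCharacter ζ.2)
  have hm0 : ∀ χ : IrrCharacter G, ∃ k : ℕ, classInner (indFun H (ζ : H → ℂ)) (χ : G → ℂ) = k :=
    fun χ => isCharacter_classInner_nat hch χ.2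
  choose m hm using hm0
  rw [blockPart_one_eq_sum B _ m hm, Nat.cast_inj] at h1
  -- numerics
  set sB := sInf ((fun χ : IrrCharacter G => (charDegree (χ : G → ℂ)).factorization p) '' B)
    with hsB
  set sb := sInf ((fun χ : IrrCharacter H => (charDegree (χ : H → ℂ)).factorization p) '' b)
    with hsb
  obtain ⟨χ₀, hχ₀, hχ₀s, hχ₀le⟩ := exists_height_zero p B (isPBlock_nonempty hM hind.2.1)
  have e1 : sB ≤ (Nat.card G).factorization p := by
    rw [hsB, ← hχ₀s]
    exact (Nat.factorization_le_iff_dvd (charDegree_ne_zero χ₀) Nat.card_pos.ne').2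
      (Cfsg.Agent.Lib.Helper82.isIrr_charDegree_dvd_card χ₀.2) p
  have e2 : (charDegree (ζ : H → ℂ)).factorization p ≤ (Nat.card H).factorization p :=
    (Nat.factorization_le_iff_dvd (charDegree_ne_zero ζ) Nat.card_pos.ne').2
      (Cfsg.Agent.Lib.Helper82.isIrr_charDegree_dvd_card ζ.2) p
  have e3 : sb ≤ (charDegree (ζ : H → ℂ)).factorization p := Nat.sInf_le ⟨ζ, hζ, rfl⟩
  have e4 : (charDegree (ζ : H → ℂ)).factorization p - sb = 0 := hζ0
  have e5 : (Nat.card H).factorization p - sb = (Nat.card G).factorization p - sB := hdef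
  have e6 : (Nat.card G).factorization p
      = H.index.factorization p + (Nat.card H).factorization p := by
    rw [← H.index_mul_card, Nat.factorization_mul H.index_ne_zero_of_finite Nat.card_pos.ne']
    rfl
  have e7 : (charDegree (indFun H (ζ : H → ℂ))).factorization p
      = H.index.factorization p + (charDegree (ζ : H → ℂ)).factorization p := by
    rw [charDegree_indFun, Nat.factorization_mul H.index_ne_zero_of_finite (charDegree_ne_zero ζ)]
    rfl
  have e8 : n.factorization p = sB := by omega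
  by_contra hcon
  push Not at hcon
  have hdvd : p ^ (sB + 1) ∣ n := by
    rw [← h1]
    apply Finset.dvd_sum
    intro χ _
    split_ifs with hχ
    · have f1 : sB ≤ (charDegree (χ : G → ℂ)).factorization p := Nat.sInf_le ⟨χ, hχ, rfl⟩
      by_cases hh : blockHeight p B (χ : G → ℂ) = 0
      · have f2 := hcon χ hχ hh (m χ) (hm χ)
        have f3 : p ^ sB ∣ charDegree (χ : G → ℂ) :=
          (hM.1.pow_dvd_iff_le_factorization (charDegree_ne_zero χ)).2 f1
        rw [pow_succ, mul_comm]
        exact Nat.mul_dvd_mul f2 f3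
      · have f4 : (charDegree (χ : G → ℂ)).factorization p - sB ≠ 0 := hh
        have f5 : p ^ (sB + 1) ∣ charDegree (χ : G → ℂ) :=
          (hM.1.pow_dvd_iff_le_factorization (charDegree_ne_zero χ)).2 (by omega)
        exact f5.mul_left _
    · exact dvd_zero _
  have := (hM.1.pow_dvd_iff_le_factorization hn0).1 hdvd
  omega

end Cfsg.Agent.S4725
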