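import Cfsg.Statements.S4726
import Mathlib
import Cfsg.Agent.Lib.Helper80.GAFusT
import Cfsg.Agent.Lib.Helper80.GAIndT
import Cfsg.Agent.Lib.Helper80.GAUp
import Cfsg.Agent.Lib.Helper29.HKTrans
import Cfsg.Agent.Lib.Helper21.Tower

set_option autoImplicit false
open Cfsg
open Cfsg.Agent.Lib.Helper20 Cfsg.Agent.Lib.Helper81 Cfsg.Agent.Lib.Helper80
open Cfsg.Agent.Lib.Helper80.GA

namespace Cfsg.Agent.S4726

/-- Let p be a prime, M a maximal ideal of the algebraic integers containing p, H a subgroup of the finite group G and b a p-block of H with defect group D₀ such that C_G(D₀) ≤ H. Then b induces a block of G, and for every block B of G induced by b there is a defect group D of B with Z(D) ≤ Z(D₀) ≤ D₀ ≤ D (as subgroups of G). In particular, if the defect groups of B are abelian then D₀ is a defect group of B. -/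
theorem result {G : Type*} [Group G] [Finite G] (p : ℕ) [Fact p.Prime] (M : Ideal Cfsg.AlgInt) (hM : Cfsg.IsPModular p M) (H : Subgroup G) (b : Set (Cfsg.IrrCharacter ↥H)) (hb : Cfsg.IsPBlock M b) (D₀ : Subgroup ↥H) (hD₀ : Cfsg.IsDefectGroup p M b D₀) (hC : Subgroup.centralizer ((D₀.map H.subtype : Subgroup G) : Set G) ≤ H) : Cfsg.InducedBlockDefined M H b ∧ ∀ B : Set (Cfsg.IrrCharacter G), Cfsg.IsInducedBlock M H b B → (∃ D : Subgroup G, Cfsg.IsDefectGroup p M B D ∧ (Subgroup.center ↥D).map D.subtype ≤ ((Subgroup.center ↥D₀).map D₀.subtype).map H.subtype ∧ ((Subgroup.center ↥D₀).map D₀.subtype).map H.subtype ≤ D₀.map H.subtype ∧ D₀.map H.subtype ≤ D) ∧ (∀ D : Subgroup G, Cfsg.IsDefectGroup p M B D → IsMulCommutative ↥D → Cfsg.IsDefectGroup p M B (D₀.map H.subtype)) := by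
  classical
  have : Fintype G := Fintype.ofFinite G
  have : Fintype H := Fintype.ofFinite H
  obtain ⟨E₀, hE₀⟩ : ∃ E₀ : Subgroup G, E₀ = D₀.map H.subtype := ⟨_, rfl⟩
  rw [← hE₀] at hC ⊢
  obtain ⟨β, hβdef⟩ : ∃ β, β = bl hM H b := ⟨_, rfl⟩
  have hβ : IsBlk H β := hβdef ▸ isBlk_bl hM H hb
  have hE₀H : E₀ ≤ H := by rw [hE₀]; exact Subgroup.map_subtype_le D₀
  have hsub : E₀.subgroupOf H = D₀ := by
    rw [hE₀]; exact Subgroup.comap_map_eq_self_of_injective (Subgroup.subtype_injective H) D₀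
  have hdef : IsDef p H β E₀ := by
    rw [hβdef]
    exact isDef_sub_of_isDefectGroup hM H hb hE₀H (by rw [hsub]; exact hD₀)
  have hE₀p := hdef.pgroup
  have hfixC : FixBy (Cn E₀) β := hβ.inZ.2.mono hC
  have hfixD : FixBy E₀ β := hβ.inZ.2.mono hE₀H
  obtain ⟨β₀, hβ₀, hββ₀⟩ := exists_blk_of_idem (Cn E₀) (inZ_br hfixC)
    (br_idem hE₀p hfixD hβ.idem) hdef.br_ne
  have hBP : IsBP p E₀ β₀ := ⟨hE₀p, hβ₀⟩
  have hKH : E₀ ⊔ Cn E₀ ≤ H := sup_le hE₀H hC
  have hKN : E₀ ⊔ Cn E₀ ≤ Nn E₀ := sup_le Subgroup.le_normalizer (Cn_le_Nn E₀)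
  have hβ₀K : IsBlk (E₀ ⊔ Cn E₀) β₀ := hBP.isBlk_of_fix le_sup_left le_sup_right hKN
    ((fixBy_stabP E₀ β₀).mono (sup_le (le_stabP hβ₀.inZ) (Cn_le_stabP hβ₀.inZ)))
  obtain ⟨b₀, hb₀, hb₀e⟩ := exists_block_of_isBlk_sub hM (E₀ ⊔ Cn E₀) hβ₀K
  obtain ⟨B₁, hB₁⟩ := Cfsg.Agent.S0919.result p M hM E₀ (E₀ ⊔ Cn E₀) hE₀p le_sup_left
    le_sup_right hKN b₀ hb₀
  have hD₀p : IsPGroup p D₀ := by rw [← hsub]; exact hE₀p.comap_subtype
  have hind0 : IsInducedBlock M ((E₀ ⊔ Cn E₀).subgroupOf H)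
      (Cfsg.Agent.Lib.Helper29.Kn.dn hKH b₀) b := by
    apply (Cfsg.Agent.Lib.Helper29.Kn.isInducedBlock_iff hM (Q := D₀)
      (H := (E₀ ⊔ Cn E₀).subgroupOf H) hD₀p ?_ ?_ ?_
      (Cfsg.Agent.Lib.Helper29.Kn.isPBlock_dn hKH hb₀) hb).2
    · apply emb_injective H
      rw [emb_mul, emb_br, Cfsg.Agent.Lib.Helper29.Kn.emb_bl_dn, ← bl_eq_emb, ← hb₀e, ← hβdef]
      show br (D₀.map H.subtype) β * β₀ = β₀
      rw [← hE₀]
      exact hββ₀
    · rw [← hsub]
      exact Subgroup.comap_mono le_sup_left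
    · intro x hx
      rw [Subgroup.mem_subgroupOf]
      apply (le_sup_right : Cn E₀ ≤ E₀ ⊔ Cn E₀)
      rw [mem_Cn]
      intro u hu
      rw [hE₀] at hu
      obtain ⟨d, hd, rfl⟩ := hu
      have := (mem_Cn.1 hx) d hd
      exact congrArg Subtype.val this
    · intro x hx
      rw [Subgroup.mem_subgroupOf] at hx
      have h1 := hKN hx
      rw [Subgroup.mem_normalizer_iff] at h1 ⊢
      intro d
      have h2 := h1 (d : G)
      rw [← hsub, Subgroup.mem_subgroupOf, Subgroup.mem_subgroupOf]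
      simpa using h2
  have hB₁' : IsInducedBlock M H b B₁ :=
    Cfsg.Agent.Lib.Helper21.isInducedBlock_tower hM hKH hind0 hB₁
  refine ⟨⟨B₁, hB₁'⟩, ?_⟩
  intro B hB
  have hblkB := isBlk_blkR hM hB.2.1
  have hpair : IsBPOf p (blkR hM B) E₀ β₀ := ⟨hBP, hblkB,
    (hβdef ▸ indB_of_isInducedBlock hM hB).br_mul_eq hE₀p hE₀H hC hblkB.inZ hblkB.idem hβ.inZ
      hβ₀ hββ₀⟩
  obtain ⟨D, e, hmax, hle⟩ := IsBPOf.exists_le_max _ E₀ β₀ hpair rfl
  have hDdef : IsDefectGroup p M B D := isDefectGroup_of_isDef hM hB.2.1 hmax.isDef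
  have hE₀D : E₀ ≤ D := hle.le
  have key : ∀ R : Subgroup G, E₀ ≤ R → R ≤ D → R ≤ Nn E₀ → R ≤ H → R = E₀ := by
    intro R h1 h2 h3 h4
    obtain ⟨g, hg, _⟩ := hle.exists_nsub_mid hmax.1.1 (R := R) h1 h2 h3
    have hRp : IsPGroup p R := hmax.1.1.1.to_le h2
    have hbr : br R β ≠ 0 := by
      intro h0
      apply hg.2.1.2.ne_zero
      have hfixR : FixBy R β := hβ.inZ.2.mono h4
      calc g = br R β₀ * g := hg.2.2.2.2.2.symm
        _ = br R (br E₀ β * β₀) * g := by rw [hββ₀]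
        _ = br R (br E₀ β) * br R β₀ * g := by
            rw [br_mul hRp (hfixR.br h3) hg.2.2.2.2.1]
        _ = 0 := by rw [br_br h1, h0, zero_mul, zero_mul]
    obtain ⟨x, _, hxle⟩ := hdef.zd.le_conj_of_br_ne h4 hRp hbr
    exact (Subgroup.eq_of_le_of_card_ge h1
      (by rw [← card_cS x E₀]; exact Subgroup.card_le_of_le hxle)).symm
  have hZC : (Subgroup.center ↥D).map D.subtype ≤ Cn E₀ := by
    rintro _ ⟨z, hz, rfl⟩
    rw [mem_Cn]
    intro u hu
    have := Subgroup.mem_center_iff.1 hz ⟨u, hE₀D hu⟩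
    exact congrArg Subtype.val this
  have hZE : (Subgroup.center ↥D).map D.subtype ≤ E₀ := by
    have h1 := key (E₀ ⊔ (Subgroup.center ↥D).map D.subtype) le_sup_left
      (sup_le hE₀D (Subgroup.map_subtype_le _))
      (sup_le Subgroup.le_normalizer (hZC.trans (Cn_le_Nn E₀)))
      (sup_le hE₀H (hZC.trans hC))
    calc (Subgroup.center ↥D).map D.subtype ≤ E₀ ⊔ (Subgroup.center ↥D).map D.subtype :=
          le_sup_right
      _ = E₀ := h1
  refine ⟨⟨D, hDdef, ?_, ?_, hE₀D⟩, ?_⟩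
  · intro z hz
    have hzE := hZE hz
    have hzC := hZC hz
    rw [hE₀] at hzE
    obtain ⟨d, hd, rfl⟩ := hzE
    refine ⟨d, ⟨⟨d, hd⟩, ?_, rfl⟩, rfl⟩
    rw [SetLike.mem_coe, Subgroup.mem_center_iff]
    intro d'
    apply Subtype.ext
    apply Subtype.ext
    have := mem_Cn.1 hzC ((d' : H) : G) (by rw [hE₀]; exact ⟨d', d'.2, rfl⟩)
    simpa using this
  · rw [hE₀]
    exact Subgroup.map_mono (Subgroup.map_subtype_le _)
  · intro D' hD' hcomm
    obtain ⟨x, _, hx⟩ := (isDef_of_isDefectGroup hM hB.2.1 hD').exists_conj hmax.isDef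
    have hDZ : D ≤ (Subgroup.center ↥D).map D.subtype := by
      intro d hd
      refine ⟨⟨d, hd⟩, ?_, rfl⟩
      rw [SetLike.mem_coe, Subgroup.mem_center_iff]
      intro d'
      apply Subtype.ext
      have h1 : x⁻¹ * d * x ∈ D' := by
        have := hd; rw [hx, mem_cS] at this; exact this
      have h2 : x⁻¹ * (d' : G) * x ∈ D' := by
        have h5 : (d' : G) ∈ cS x D' := hx ▸ d'.2
        exact mem_cS.1 h5
      have h3 := congrArg Subtype.val
        (hcomm.is_comm.comm (⟨_, h2⟩ : D') (⟨_, h1⟩ : D'))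
      simp only [Subgroup.coe_mul] at h3 ⊢
      have h4 : x * (x⁻¹ * (d' : G) * x * (x⁻¹ * d * x)) * x⁻¹
          = x * (x⁻¹ * d * x * (x⁻¹ * (d' : G) * x)) * x⁻¹ := by rw [h3]
      simpa [mul_assoc] using h4
    have : E₀ = D := le_antisymm hE₀D (hDZ.trans hZE)
    rw [this]; exact hDdef

end Cfsg.Agent.S4726
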