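import Cfsg.Statements.S4727
-- import your own Cfsg.Agent.* helpers here
import Cfsg.Agent.Lib.Helper80.GAKerM
import Cfsg.Agent.Lib.Helper81.Subsections
import Cfsg.Agent.S4734

set_option autoImplicit false
open Cfsg

namespace Cfsg.Agent.S4727

open Cfsg.Agent.Lib.Helper80 Cfsg.Agent.Lib.Helper80.GA


/-- Let p be a prime, π a set of primes containing p, M a maximal ideal of the algebraic integers containing p, and B a p-block of the finite group G with defect group D; let B₁ be the block of N_G(D) with defect group D that induces B (the Brauer correspondent of B). Suppose every element of O_π'(N_G(D)), the largest normal subgroup of N_G(D) whose order has no prime divisor in π, lies in the kernel of every member of B₁. If y is a p-element whose centralizer C has a normal Hall π'-subgroup (every element of C whose order has no prime divisor in π lies in O_π'(C)), then χ(y x) = χ(y) for every χ ∈ B and every x ∈ C whose order has no prime divisor in π. -/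
theorem result {G : Type*} [Group G] [Finite G] (p : ℕ) [Fact p.Prime] (M : Ideal Cfsg.AlgInt) (hM : Cfsg.IsPModular p M) (π : Set ℕ) (hpπ : p ∈ π) (B : Set (Cfsg.IrrCharacter G)) (hB : Cfsg.IsPBlock M B) (D : Subgroup G) (hBD : Cfsg.IsDefectGroup p M B D) (B₁ : Set (Cfsg.IrrCharacter ↥(Subgroup.normalizer (D : Set G)))) (hB₁ : Cfsg.IsInducedBlock M (Subgroup.normalizer (D : Set G)) B₁ B) (hB₁D : Cfsg.IsDefectGroup p M B₁ (D.subgroupOf (Subgroup.normalizer (D : Set G)))) (hker : ∀ n : ↥(Subgroup.normalizer (D : Set G)), n ∈ Cfsg.piCore {q | q ∉ π} ↥(Subgroup.normalizer (D : Set G)) → n ∈ Cfsg.blockKer B₁) (y : G) (hy : ∃ k : ℕ, orderOf y = p ^ k) (hC : ∀ x : ↥(Subgroup.centralizer ({y} : Set G)), (∀ q : ℕ, q.Prime → q ∣ orderOf x → q ∉ π) → x ∈ Cfsg.piCore {q | q ∉ π} ↥(Subgroup.centralizer ({y} : Set G))) : ∀ χ ∈ B, ∀ x : G, x ∈ Subgroup.centralizer ({y} : Set G) → (∀ q : ℕ, q.Prime → q ∣ orderOf x → q ∉ π) → (χ : G → ℂ) (y * x) = (χ : G → ℂ) y := by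
  classical
  haveI : Fintype G := Fintype.ofFinite G
  intro χ hχ x hxC hxπ
  haveI : Finite (IrrCharacter (Subgroup.centralizer ({y} : Set G))) :=
    Cfsg.Agent.Lib.Helper20.finite_irrCharacter
  haveI : Fintype (Set (IrrCharacter (Subgroup.centralizer ({y} : Set G)))) := Fintype.ofFinite _
  have hcomm : ∀ c : Subgroup.centralizer ({y} : Set G), y * (c : G) = (c : G) * y := by
    intro c
    exact (Subgroup.mem_centralizer_iff.1 c.2 y rfl)
  have hcl : IsClassFunction (Subgroup.centralizer ({y} : Set G))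
      (fun c : Subgroup.centralizer ({y} : Set G) => (χ : G → ℂ) (y * (c : G))) := by
    intro c t
    show (χ : G → ℂ) (y * ((t : G) * (c : G) * (t : G)⁻¹)) = (χ : G → ℂ) (y * (c : G))
    rw [← Cfsg.Agent.Lib.Helper81.irr_classFunction χ (y * (c : G)) (t : G)]
    have : y * ((t : G) * (c : G) * (t : G)⁻¹) = (t : G) * (y * (c : G)) * (t : G)⁻¹ := by
      calc y * ((t : G) * (c : G) * (t : G)⁻¹) = (y * (t : G)) * (c : G) * (t : G)⁻¹ := by group
        _ = ((t : G) * y) * (c : G) * (t : G)⁻¹ := by rw [hcomm t]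
        _ = (t : G) * (y * (c : G)) * (t : G)⁻¹ := by group
    rw [this]
  have hxreg : ¬ p ∣ orderOf (⟨x, hxC⟩ : Subgroup.centralizer ({y} : Set G)) := by
    rw [Subgroup.orderOf_mk]
    intro h
    exact hxπ p Fact.out h hpπ
  have h1reg : ¬ p ∣ orderOf (1 : Subgroup.centralizer ({y} : Set G)) := by
    rw [orderOf_one]
    exact (Fact.out : p.Prime).one_lt.ne' ∘ Nat.dvd_one.1
  have hxcore : (⟨x, hxC⟩ : Subgroup.centralizer ({y} : Set G)) ∈
      Cfsg.piCore {q | q ∉ π} (Subgroup.centralizer ({y} : Set G)) := by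
    apply hC
    intro q hq hqx
    rw [Subgroup.orderOf_mk] at hqx
    exact hxπ q hq hqx
  have key : ∀ b : Set (IrrCharacter (Subgroup.centralizer ({y} : Set G))), IsPBlock M b →
      blockPart b (fun c : Subgroup.centralizer ({y} : Set G) => (χ : G → ℂ) (y * (c : G)))
        ⟨x, hxC⟩ =
      blockPart b (fun c : Subgroup.centralizer ({y} : Set G) => (χ : G → ℂ) (y * (c : G))) 1 := by
    intro b hb
    by_cases hind : IsInducedBlock M (Subgroup.centralizer ({y} : Set G)) b B
    · obtain ⟨D₀, hD₀⟩ := Cfsg.Agent.Lib.Helper21.exists_isDefectGroup hM b hb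
      have hle : D₀.map (Subgroup.centralizer ({y} : Set G)).subtype ≤
          Subgroup.centralizer ({y} : Set G) := Subgroup.map_subtype_le D₀
      have hD₀' : IsDefectGroup p M b ((D₀.map (Subgroup.centralizer ({y} : Set G)).subtype).subgroupOf
          (Subgroup.centralizer ({y} : Set G))) := by
        have h1 : (D₀.map (Subgroup.centralizer ({y} : Set G)).subtype).subgroupOf
            (Subgroup.centralizer ({y} : Set G)) = D₀ :=
          Subgroup.comap_map_eq_self_of_injective (Subgroup.subtype_injective _) D₀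
        rw [h1]; exact hD₀
      have hdef := isDef_sub_of_isDefectGroup hM _ hb hle hD₀'
      have hyC : y ∈ Subgroup.centralizer ({y} : Set G) := by
        rw [Subgroup.mem_centralizer_iff]
        intro v hv; rw [Set.mem_singleton_iff] at hv; rw [hv]
      have hzp : IsPGroup p (Subgroup.zpowers y) := by
        obtain ⟨k, hk⟩ := hy
        apply IsPGroup.of_card (n := k)
        rw [Nat.card_zpowers, hk]
      have hCz : Subgroup.centralizer ({y} : Set G) ≤ Cn (Subgroup.zpowers y) := by
        intro g hg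
        rw [Subgroup.mem_centralizer_iff] at hg ⊢
        intro v hv
        obtain ⟨n, rfl⟩ := Subgroup.mem_zpowers_iff.1 hv
        have : Commute y g := hg y rfl
        exact (this.zpow_left n).eq
      have hyD := hdef.normal_le (isBlk_bl hM _ hb) hzp (by rwa [Subgroup.zpowers_le])
        (hCz.trans (Cn_le_Nn _))
      have hCC : Subgroup.centralizer
          ((D₀.map (Subgroup.centralizer ({y} : Set G)).subtype : Subgroup G) : Set G) ≤
          Subgroup.centralizer ({y} : Set G) := by
        apply Subgroup.centralizer_le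
        intro v hv
        rw [Set.mem_singleton_iff] at hv
        rw [hv]
        exact hyD (Subgroup.mem_zpowers y)
      have hk := Cfsg.Agent.S4734.result p M hM π hpπ B hB D hBD B₁ hB₁ hB₁D hker
        (Subgroup.centralizer ({y} : Set G)) b hind D₀ hD₀ hCC ⟨x, hxC⟩ hxcore
      unfold blockPart
      exact finsum_mem_congr rfl (fun ξ hξ => by rw [hk ξ hξ])
    · have hdefd := Cfsg.Agent.Lib.Helper81.inducedBlockDefined_centralizer hM y hy b hb
      rw [Cfsg.Agent.Lib.Helper81.second_main_char hM y hy B hB χ hχ b hdefd hind ⟨x, hxC⟩ hxreg,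
        Cfsg.Agent.Lib.Helper81.second_main_char hM y hy B hB χ hχ b hdefd hind 1 h1reg]
  have e1 := Cfsg.Agent.Lib.Helper81.eq_sum_blockPart hM hcl ⟨x, hxC⟩
  have e2 := Cfsg.Agent.Lib.Helper81.eq_sum_blockPart hM hcl 1
  have e3 : (χ : G → ℂ) (y * x) = (χ : G → ℂ) (y * ((1 : Subgroup.centralizer ({y} : Set G)) : G)) := by
    refine e1.trans (Eq.trans ?_ e2.symm)
    apply Finset.sum_congr rfl
    intro b _
    by_cases hb : IsPBlock M b
    · rw [if_pos hb, if_pos hb, key b hb]
    · rw [if_neg hb, if_neg hb]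
  rw [e3]
  simp

end Cfsg.Agent.S4727
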