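import Cfsg.Statements.S4729
import Mathlib
import Cfsg.Agent.Lib.Helper78.EigenDet
import Cfsg.Agent.Lib.Helper82.Basic
import Cfsg.Agent.Lib.Helper81.Parseval
import Cfsg.Agent.Lib.Helper81.Contrib
import Cfsg.Agent.Lib.Helper80.BlockBasic

set_option autoImplicit false
open Cfsg

namespace Cfsg.Agent.S4729

open Cfsg.Agent.Lib.Helper81 Cfsg.Agent.Lib.Helper82

theorem eq_one_of_regular {G : Type*} [Group G] [Finite G] (p : ℕ) [Fact p.Prime]
    (M : Ideal Cfsg.AlgInt) (hM : Cfsg.IsPModular p M) (hperf : commutator G = ⊤) (P : Sylow p G)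
    (χ : Cfsg.IrrCharacter G) (hχ : χ ∈ Cfsg.principalBlock M G)
    (hfaith : ∀ g : G, (χ : G → ℂ) g = (χ : G → ℂ) 1 → g = 1)
    (hdeg : Cfsg.charDegree (χ : G → ℂ) < 2 * p) (y : G)
    (hyC : y ∈ Subgroup.centralizer ((P : Subgroup G) : Set G)) (hy : ¬ p ∣ orderOf y) : y = 1 := by
  classical
  have hp : p.Prime := hM.1
  set N := orderOf y with hN
  have hNpos : 0 < N := orderOf_pos y
  obtain ⟨ι, _, d, h1, h2, h3⟩ := Cfsg.Agent.Lib.Helper78.exists_eigen_family_of_perfect hperf
    (isIrr_isChar χ.2) y N hNpos (pow_orderOf_eq_one y)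
  set n₀ := Cfsg.charDegree (χ : G → ℂ) with hn₀
  have hχ1 : (χ : G → ℂ) 1 = (n₀ : ℂ) := isChar_one_eq (isIrr_isChar χ.2)
  have hn₀pos : n₀ ≠ 0 := (isIrr_charDegree_pos χ.2).ne'
  have hcard : Fintype.card ι = n₀ := by
    have := h2 0
    simp only [pow_zero, Finset.sum_const, Finset.card_univ, nsmul_eq_mul, mul_one] at this
    rw [hχ1] at this
    exact_mod_cast this.symm
  -- congruence
  have hcong : ∀ k : ℕ, Cfsg.MemLocalIdeal M ((χ : G → ℂ) (y ^ k) / (χ : G → ℂ) 1 - 1) := by
    intro k
    have hs : Cfsg.SameBlock M (fun _ : G => (1 : ℂ)) (χ : G → ℂ) := hχ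
    have h4 := hs (y ^ k)
    simp only [Cfsg.centralChar] at h4
    set idx := (Subgroup.centralizer ({y ^ k} : Set G)).index with hidx
    have hPle : (P : Subgroup G) ≤ Subgroup.centralizer ({y ^ k} : Set G) := by
      intro x hx
      rw [Subgroup.mem_centralizer_iff]
      intro w hw
      rw [Set.mem_singleton_iff.1 hw]
      have hc : Commute x y := (Subgroup.mem_centralizer_iff.1 hyC x hx)
      exact (hc.pow_right k).symm.eq
    have hnd : ¬ p ∣ idx := by
      intro h
      exact P.not_dvd_index (h.trans (Subgroup.index_dvd_of_le hPle))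
    have hidx0 : (idx : ℂ) ≠ 0 := by
      have : idx ≠ 0 := by
        intro h0; apply hnd; rw [h0]; exact dvd_zero _
      exact_mod_cast this
    have hunit : ¬ Cfsg.MemLocalIdeal M (idx : ℂ) := by
      rw [memLocalIdeal_natCast_iff hM]; exact hnd
    have h5 : (χ : G → ℂ) (y ^ k) / (χ : G → ℂ) 1 - 1
        = (1 / (idx : ℂ)) * (-((idx : ℂ) * 1 / 1 - (idx : ℂ) * (χ : G → ℂ) (y ^ k) / (χ : G → ℂ) 1)) := by
      field_simp
      ring
    rw [h5]
    exact memLocalIdeal_mul_left hM
      (memLocalRing_div hM (memLocalRing_one hM) (memLocalRing_natCast hM _) hunit)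
      (memLocalIdeal_neg h4)
  set m : ℂ → ℕ := fun l => (Finset.univ.filter (fun i => d i = l)).card with hm
  have hNunit : ¬ Cfsg.MemLocalIdeal M (N : ℂ) := by
    rw [memLocalIdeal_natCast_iff hM]; exact hy
  have hN0 : (N : ℂ) ≠ 0 := by exact_mod_cast hNpos.ne'
  have hn₀C : (n₀ : ℂ) ≠ 0 := by exact_mod_cast hn₀pos
  have hmI : ∀ l : ℂ, l ^ N = 1 → l ≠ 1 → Cfsg.MemLocalIdeal M ((m l : ℂ) / (n₀ : ℂ)) := by
    intro l hl hl1
    have hl0 : l ≠ 0 := by
      intro h0; rw [h0, zero_pow hNpos.ne'] at hl; exact zero_ne_one hl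
    have hlinv : (l⁻¹) ^ N = 1 := by rw [inv_pow, hl, inv_one]
    have hlinv1 : l⁻¹ ≠ 1 := by
      intro h; apply hl1; rw [← inv_inv l, h, inv_one]
    have e1 : ∑ k ∈ Finset.range N, (χ : G → ℂ) (y ^ k) * (l⁻¹) ^ k = (N : ℂ) * (m l : ℂ) := by
      simp only [h2, Finset.sum_mul]
      rw [Finset.sum_comm]
      have : ∀ i : ι, ∑ k ∈ Finset.range N, d i ^ k * (l⁻¹) ^ k
          = if d i = l then (N : ℂ) else 0 := by
        intro i
        simp only [← mul_pow]
        rw [geom_root (by rw [mul_pow, h1 i, hlinv, one_mul])]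
        have : d i * l⁻¹ = 1 ↔ d i = l := by
          rw [mul_inv_eq_one₀ hl0]
        simp only [this]
      simp only [this]
      rw [← Finset.sum_filter, Finset.sum_const, nsmul_eq_mul, mul_comm]
    have e2 : ∑ k ∈ Finset.range N, (l⁻¹) ^ k = 0 := by
      rw [geom_root hlinv, if_neg hlinv1]
    have e3 : (m l : ℂ) / (n₀ : ℂ) = (1 / (N : ℂ)) * ∑ k ∈ Finset.range N,
        ((χ : G → ℂ) (y ^ k) / (χ : G → ℂ) 1 - 1) * (l⁻¹) ^ k := by
      simp only [sub_mul, one_mul, Finset.sum_sub_distrib, e2, sub_zero, div_mul_eq_mul_div]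
      rw [← Finset.sum_div, e1, hχ1]
      field_simp
    rw [e3]
    apply memLocalIdeal_mul_left hM
      (memLocalRing_div hM (memLocalRing_one hM) (memLocalRing_natCast hM _) hNunit)
    apply memLocalIdeal_sum hM
    intro k _
    apply memLocalIdeal_mul_right hM (hcong k)
    apply memLocalRing_pow hM
    apply memLocalRing_of_isIntegral hM
    exact IsIntegral.of_pow hNpos (by rw [hlinv]; exact isIntegral_one)
  have hmle : ∀ l : ℂ, m l ≤ n₀ := by
    intro l
    rw [← hcard]
    exact Finset.card_le_univ _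
  have hmp : ∀ i : ι, d i ≠ 1 → m (d i) = p := by
    intro i hi
    have hpos : m (d i) ≠ 0 := by
      have : 0 < m (d i) := Finset.card_pos.2 ⟨i, by simp⟩
      exact this.ne'
    have h5 := (memLocalIdeal_natCast_div_iff hM hpos hn₀pos).1 (hmI (d i) (h1 i) hi)
    have h6 : p ∣ m (d i) := by
      apply (hp.dvd_iff_one_le_factorization hpos).2
      omega
    obtain ⟨c, hc⟩ := h6
    have h7 := hmle (d i)
    have hc1 : c = 1 := by
      have hc0 : c ≠ 0 := by rintro rfl; simp at hc; exact hpos hc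
      by_contra hne
      have : 2 ≤ c := by omega
      have : 2 * p ≤ p * c := by nlinarith [hp.pos]
      omega
    rw [hc, hc1, mul_one]
  by_cases hall : ∀ i, d i = 1
  · apply hfaith
    have := h2 1
    simp only [pow_one, hall, Finset.sum_const, Finset.card_univ, nsmul_eq_mul, mul_one] at this
    rw [this, hχ1, hcard]
  · exfalso
    push Not at hall
    obtain ⟨i₀, hi₀⟩ := hall
    set l := d i₀ with hl
    have honly : ∀ i, d i = 1 ∨ d i = l := by
      intro i
      by_contra hcon
      push Not at hcon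
      have ha := hmp i hcon.1
      have hb := hmp i₀ hi₀
      have hdisj : Disjoint (Finset.univ.filter (fun j => d j = d i))
          (Finset.univ.filter (fun j => d j = l)) := by
        rw [Finset.disjoint_filter]
        intro j _ h8 h9
        exact hcon.2 (h8.symm.trans h9)
      have hle := Finset.card_le_univ ((Finset.univ.filter (fun j => d j = d i)) ∪
          (Finset.univ.filter (fun j => d j = l)))
      rw [Finset.card_union_of_disjoint hdisj, hcard] at hle
      have ha' : (Finset.univ.filter (fun j => d j = d i)).card = p := ha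
      have hb' : (Finset.univ.filter (fun j => d j = l)).card = p := hb
      omega
    have hprod : ∏ i, d i = l ^ p := by
      have hb : (Finset.univ.filter (fun j => d j = l)).card = p := hmp i₀ hi₀
      rw [← hb, ← Finset.prod_const, Finset.prod_filter]
      apply Finset.prod_congr rfl
      intro i _
      rcases honly i with h | h
      · rw [h, if_neg (fun h' => hi₀ h'.symm)]
      · rw [if_pos h, h]
    rw [h3] at hprod
    apply hi₀
    have hcop : Nat.Coprime p N := (Nat.Prime.coprime_iff_not_dvd hp).2 hy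
    have h9 : orderOf l ∣ p := orderOf_dvd_of_pow_eq_one hprod.symm
    have h10 : orderOf l ∣ N := orderOf_dvd_of_pow_eq_one (h1 i₀)
    have h11 : orderOf l = 1 := Nat.eq_one_of_dvd_coprimes hcop h9 h10
    exact orderOf_eq_one_iff.1 h11

/-- Let p be a prime, M a maximal ideal of the algebraic integers containing p, G a finite perfect group and P a Sylow p-subgroup. If the principal p-block of G contains a faithful irreducible character of degree less than 2p, then the centralizer of P is a p-group. -/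
theorem result {G : Type*} [Group G] [Finite G] (p : ℕ) [Fact p.Prime] (M : Ideal Cfsg.AlgInt) (hM : Cfsg.IsPModular p M) (hperf : commutator G = ⊤) (P : Sylow p G) (χ : Cfsg.IrrCharacter G) (hχ : χ ∈ Cfsg.principalBlock M G) (hfaith : ∀ g : G, (χ : G → ℂ) g = (χ : G → ℂ) 1 → g = 1) (hdeg : Cfsg.charDegree (χ : G → ℂ) < 2 * p) : IsPGroup p ↥(Subgroup.centralizer ((P : Subgroup G) : Set G)) := by
  intro g
  obtain ⟨g, hg⟩ := g
  have hp : p.Prime := hM.1
  have ho : orderOf g ≠ 0 := (orderOf_pos g).ne'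
  obtain ⟨a, mm, hmm, hfac⟩ := Nat.exists_eq_pow_mul_and_not_dvd ho p hp.ne_one
  refine ⟨a, ?_⟩
  apply Subtype.ext
  simp only [Subgroup.coe_pow, Subgroup.coe_one]
  apply eq_one_of_regular p M hM hperf P χ hχ hfaith hdeg (g ^ (p ^ a))
    (Subgroup.pow_mem _ hg _)
  have h1 : orderOf (g ^ (p ^ a)) = mm := by
    rw [orderOf_pow, hfac, Nat.gcd_eq_right (Dvd.intro _ rfl),
      Nat.mul_div_cancel_left _ (pow_pos hp.pos a)]
  rw [h1]; exact hmm

end Cfsg.Agent.S4729
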