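import Cfsg.Statements.S4730
import Cfsg.Agent.Lib.Helper81.Heights
import Cfsg.Agent.Lib.Helper21.AvgChar
import Cfsg.Agent.S0142
import Cfsg.Agent.S0138

set_option autoImplicit false
open Cfsg

namespace Cfsg.Agent.S4730

open scoped ComplexConjugate
open Cfsg.Agent.Lib.Helper20 Cfsg.Agent.Lib.Helper81

/-- Let p be a prime, M a maximal ideal of the algebraic integers containing p, and G a finite group with trivial centre, Sylow p-subgroup P of order p^a and centre Z(P) of order p^b. If χ is a faithful irreducible character of G whose degree is a power of p, then the p-block of χ has defect at most a − b; in particular, if P is abelian then χ lies in a block of defect zero. -/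
theorem result {G : Type*} [Group G] [Finite G] (p : ℕ) [Fact p.Prime] (M : Ideal Cfsg.AlgInt) (hM : Cfsg.IsPModular p M) (hZ : Subgroup.center G = ⊥) (P : Sylow p G) (a b : ℕ) (ha : Nat.card P = p ^ a) (hb : Nat.card (Subgroup.center ↥(P : Subgroup G)) = p ^ b) (χ : Cfsg.IrrCharacter G) (hfaith : ∀ g : G, (χ : G → ℂ) g = (χ : G → ℂ) 1 → g = 1) (n : ℕ) (hdeg : Cfsg.charDegree (χ : G → ℂ) = p ^ n) : Cfsg.blockDefect p (Cfsg.blockOf M (χ : G → ℂ)) ≤ a - b ∧ (IsMulCommutative ↥(P : Subgroup G) → Cfsg.blockDefect p (Cfsg.blockOf M (χ : G → ℂ)) = 0) := by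
  classical
  have : Fintype G := Fintype.ofFinite G
  have hp : p.Prime := Fact.out
  set B := Cfsg.blockOf M (χ : G → ℂ) with hB
  have hBb : IsPBlock M B := ⟨χ, rfl⟩
  have hχB : χ ∈ B := mem_blockOf_self hM χ
  obtain ⟨Z, hZdef⟩ : ∃ Z : Subgroup G,
    Z = (Subgroup.center ↥(P : Subgroup G)).map (P : Subgroup G).subtype := ⟨_, rfl⟩
  have hZcard : Nat.card Z = p ^ b := by
    rw [hZdef, Subgroup.card_map_of_injective (Subgroup.subtype_injective _), hb]
  have hZmem : ∀ z ∈ Z, ∀ x ∈ (P : Subgroup G), x * z = z * x := by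
    intro z hz x hx
    rw [hZdef] at hz
    obtain ⟨z', hz', rfl⟩ := hz
    have := Subgroup.mem_center_iff.1 hz' ⟨x, hx⟩
    exact congrArg Subtype.val this
  have hidx : ∀ z ∈ Z, ¬ p ∣ (Subgroup.centralizer ({z} : Set G)).index := by
    intro z hz hdvd
    have hle : (P : Subgroup G) ≤ Subgroup.centralizer ({z} : Set G) := by
      intro x hx
      rw [Subgroup.mem_centralizer_iff]
      intro v hv
      rw [Set.mem_singleton_iff] at hv
      rw [hv]; exact (hZmem z hz x hx).symm
    exact P.not_dvd_index (hdvd.trans (Subgroup.index_dvd_of_le hle))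
  -- step 1 : `χ` vanishes on `Z ∖ 1`
  have hvan : ∀ z ∈ Z, z ≠ 1 → (χ : G → ℂ) z = 0 := by
    intro z hz hz1
    obtain ⟨n', ρ, hρ, hχρ⟩ := χ.2
    have hn' : n' = p ^ n := by
      have h1 : (χ : G → ℂ) 1 = (n' : ℂ) := by
        rw [← hχρ, Representation.char_one, Module.finrank_fin_fun]
      rw [irr_one_eq, hdeg] at h1
      exact_mod_cast h1.symm
    have hcop : Nat.Coprime (Module.finrank ℂ (Fin n' → ℂ))
        (Subgroup.centralizer ({z} : Set G)).index := by
      rw [Module.finrank_fin_fun, hn']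
      exact Nat.Coprime.pow_left n ((Nat.Prime.coprime_iff_not_dvd hp).2 (hidx z hz))
    rcases Cfsg.Agent.S0142.result ρ z hcop with h0 | h0
    · rw [← hχρ]; exact h0
    · exfalso
      obtain ⟨ω, hω⟩ := (Cfsg.Agent.S0138.result ρ z).1 h0
      have hinj : ∀ x : G, ρ x = 1 → x = 1 := by
        intro x hx
        apply hfaith
        rw [← hχρ, Representation.character, Representation.character, hx, map_one ρ]
      have hzc : z ∈ Subgroup.center G := by
        rw [Subgroup.mem_center_iff]
        intro y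
        have h1 : ρ (y * z) = ρ (z * y) := by
          rw [map_mul, map_mul, hω]
          ext v
          simp
        have h2 : ρ ((y * z) * (z * y)⁻¹) = 1 := by
          rw [map_mul, h1, ← map_mul, mul_inv_cancel, map_one]
        exact mul_inv_eq_one.1 (hinj _ h2)
      rw [hZ, Subgroup.mem_bot] at hzc
      exact hz1 hzc
  -- step 2
  have hideal : ∀ ψ ∈ B, ∀ z ∈ Z, z ≠ 1 → MemLocalIdeal M ((ψ : G → ℂ) z / (ψ : G → ℂ) 1) := by
    intro ψ hψ z hz hz1
    have h1 : SameBlock M (χ : G → ℂ) (ψ : G → ℂ) := hψ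
    have h2 := h1 z
    have h3 : centralChar (χ : G → ℂ) z = 0 := by
      unfold centralChar; rw [hvan z hz hz1]; simp
    rw [h3, zero_sub] at h2
    have h4 := memLocalIdeal_neg h2
    rw [neg_neg] at h4
    unfold centralChar at h4
    rw [mul_div_assoc] at h4
    have h5 : MemLocalRing M ((ψ : G → ℂ) z / (ψ : G → ℂ) 1) := by
      have h6 := memLocalRing_div hM (memLocalRing_of_memLocalIdeal h4)
        (memLocalRing_natCast hM (Subgroup.centralizer ({z} : Set G)).index)
        (fun h => hidx z hz ((memLocalIdeal_natCast_iff hM _).1 h))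
      have h7 : ((Subgroup.centralizer ({z} : Set G)).index : ℂ) ≠ 0 := by
        have : (Subgroup.centralizer ({z} : Set G)).index ≠ 0 := Subgroup.index_ne_zero_of_finite
        exact_mod_cast this
      rwa [mul_div_cancel_left₀ _ h7] at h6
    rcases (memLocalIdeal_mul_iff hM (memLocalRing_natCast hM _) h5).1 h4 with h | h
    · exact absurd ((memLocalIdeal_natCast_iff hM _).1 h) (hidx z hz)
    · exact h
  -- step 3
  obtain ⟨ψ, hψ, hmin⟩ := exists_minDeg (p := p) (B := B) ⟨χ, hχB⟩
  have hbμ : b ≤ minDeg p B := by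
    by_contra hlt
    push Not at hlt
    have hint := Cfsg.Agent.Lib.Helper21.isIntegral_avg_char (isCharacter_of_isIrrCharacter ψ.2)
      Z 1 (fun u _ => by rw [mul_one, one_mul])
    set m := (Nat.card Z : ℂ)⁻¹ * ∑ u : Z, (ψ : G → ℂ) ((u : G) * 1) with hm
    have hZ0 : (Nat.card Z : ℂ) ≠ 0 := by exact_mod_cast Nat.card_pos.ne'
    have h10 := irr_one_ne_zero ψ.2
    have h1 : ∑ u : Z, (ψ : G → ℂ) (u : G) = (Nat.card Z : ℂ) * m := by
      rw [hm, ← mul_assoc, mul_inv_cancel₀ hZ0, one_mul]
      simp only [mul_one]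
    have h2 : (1 : ℂ) = ((p ^ b : ℕ) : ℂ) / ((charDegree (ψ : G → ℂ) : ℕ) : ℂ) * m
        - ∑ u ∈ Finset.univ.erase (1 : Z), (ψ : G → ℂ) (u : G) / (ψ : G → ℂ) 1 := by
      rw [← Finset.add_sum_erase Finset.univ _ (Finset.mem_univ (1 : Z))] at h1
      rw [← Finset.sum_div, ← irr_one_eq, ← hZcard]
      have h3 : ∑ u ∈ Finset.univ.erase (1 : Z), (ψ : G → ℂ) (u : G)
          = (Nat.card Z : ℂ) * m - (ψ : G → ℂ) 1 := by
        rw [← h1]; simp
      rw [h3]
      field_simp
      ring
    apply not_memLocalIdeal_one hM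
    rw [h2]
    apply memLocalIdeal_sub hM
    · apply memLocalIdeal_mul_right hM _ (memLocalRing_of_isIntegral hM hint)
      apply memLocalIdeal_natCast_div hM (pow_ne_zero _ hp.ne_zero) (charDegree_ne_zero ψ)
      rw [hp.factorization_pow, Finsupp.single_eq_same]
      have : (charDegree (ψ : G → ℂ)).factorization p = minDeg p B := hmin
      omega
    · apply memLocalIdeal_sum hM
      intro u hu
      apply hideal ψ hψ u u.2
      intro h
      exact (Finset.ne_of_mem_erase hu) (Subtype.ext h)
  have hadd := blockDefect_add (p := p) (B := B) ⟨χ, hχB⟩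
  have ha' : (Nat.card G).factorization p = a := by
    have h1 := P.card_eq_multiplicity
    rw [ha] at h1
    exact (Nat.pow_right_injective hp.two_le h1).symm
  have hmain : Cfsg.blockDefect p B ≤ a - b := by omega
  refine ⟨hmain, ?_⟩
  intro hcomm
  have htop : Subgroup.center ↥(P : Subgroup G) = ⊤ := by
    rw [eq_top_iff]
    intro x _
    rw [Subgroup.mem_center_iff]
    intro y
    exact hcomm.is_comm.comm y x
  have hab : a = b := by
    rw [htop, Subgroup.card_top, ha] at hb
    exact Nat.pow_right_injective hp.two_le hb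
  omega


end Cfsg.Agent.S4730
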