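import Cfsg.Statements.S4731
import Cfsg.Agent.Lib.Helper78.BlockIndep
import Cfsg.Agent.Lib.Helper81.Heights

set_option autoImplicit false
open Cfsg

namespace Cfsg.Agent.S4731

open scoped ComplexConjugate
open Cfsg.Agent.Lib.Helper20 Cfsg.Agent.Lib.Helper81

/-- local-global principle for integrality -/
theorem isIntegral_of_forall_memLocalRing {q : ℕ} (hq : q.Prime) (b : ℕ) (z : ℂ)
    (h1 : IsIntegral ℤ ((q : ℂ) ^ b * z))
    (h2 : ∀ 𝔪 : Ideal AlgInt, IsPModular q 𝔪 → MemLocalRing 𝔪 z) : IsIntegral ℤ z := by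
  let I : Ideal AlgInt :=
    { carrier := {c | IsIntegral ℤ ((c : ℂ) * z)}
      add_mem' := by
        intro c d hc hd
        show IsIntegral ℤ (((c + d : AlgInt) : ℂ) * z)
        have : ((c + d : AlgInt) : ℂ) * z = (c : ℂ) * z + (d : ℂ) * z := by push_cast; ring
        rw [this]; exact hc.add hd
      zero_mem' := by
        show IsIntegral ℤ (((0 : AlgInt) : ℂ) * z)
        simp only [ZeroMemClass.coe_zero, zero_mul]; exact isIntegral_zero
      smul_mem' := by
        intro c d hd
        show IsIntegral ℤ (((c * d : AlgInt) : ℂ) * z)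
        have : ((c * d : AlgInt) : ℂ) * z = (c : ℂ) * ((d : ℂ) * z) := by push_cast; ring
        rw [this]; exact c.2.mul hd }
  by_cases hI : I = ⊤
  · have : (1 : AlgInt) ∈ I := by rw [hI]; trivial
    have h3 : IsIntegral ℤ (((1 : AlgInt) : ℂ) * z) := this
    simpa using h3
  · exfalso
    obtain ⟨𝔪, hm, hle⟩ := Ideal.exists_le_maximal I hI
    have hqb : ((q : AlgInt) ^ b) ∈ I := by
      show IsIntegral ℤ ((((q : AlgInt) ^ b : AlgInt) : ℂ) * z)
      have : (((q : AlgInt) ^ b : AlgInt) : ℂ) = (q : ℂ) ^ b := by push_cast; rfl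
      rw [this]; exact h1
    have hqm : (q : AlgInt) ∈ 𝔪 := hm.isPrime.mem_of_pow_mem b (hle hqb)
    obtain ⟨a, c, hc, hac⟩ := h2 𝔪 ⟨hq, hm, hqm⟩
    apply hc
    apply hle
    show IsIntegral ℤ ((c : ℂ) * z)
    have hc0 : (c : ℂ) ≠ 0 := by
      intro h
      apply hc
      have : c = 0 := Subtype.ext h
      rw [this]; exact 𝔪.zero_mem
    rw [← hac, mul_div_cancel₀ _ hc0]
    exact a.2

/-- Let p ≠ q be primes, M_p and M_q maximal ideals of the algebraic integers containing p and q respectively, and G a finite group with no element of order pq; let q^b be the q-part of the order of G. For a p-block B_p (relative to M_p), a q-block B_q (relative to M_q) and a p-singular element y, the sum of χ(1)χ(y) over the irreducible characters χ lying in both B_p and B_q is q^b times an algebraic integer. -/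
theorem result {G : Type*} [Group G] [Finite G] (p q : ℕ) [Fact p.Prime] [Fact q.Prime] (hpq : p ≠ q) (Mp Mq : Ideal Cfsg.AlgInt) (hMp : Cfsg.IsPModular p Mp) (hMq : Cfsg.IsPModular q Mq) (hno : ∀ g : G, orderOf g ≠ p * q) (b : ℕ) (hb : (Nat.card G).factorization q = b) (Bp : Set (Cfsg.IrrCharacter G)) (hBp : Cfsg.IsPBlock Mp Bp) (Bq : Set (Cfsg.IrrCharacter G)) (hBq : Cfsg.IsPBlock Mq Bq) (y : G) (hy : p ∣ orderOf y) : ∃ ω : Cfsg.AlgInt, ∑ᶠ χ ∈ Bp ∩ Bq, (Cfsg.charDegree (χ : G → ℂ) : ℂ) * (χ : G → ℂ) y = (q : ℂ) ^ b * (ω : ℂ) := by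
  classical
  have : Fintype G := Fintype.ofFinite G
  have : Finite (IrrCharacter G) := Cfsg.Agent.Lib.Helper20.finite_irrCharacter
  have : Fintype (IrrCharacter G) := Fintype.ofFinite _
  have hp : p.Prime := Fact.out
  have hq : q.Prime := Fact.out
  set S : ℂ := ∑ᶠ χ ∈ Bp ∩ Bq, (Cfsg.charDegree (χ : G → ℂ) : ℂ) * (χ : G → ℂ) y with hS
  have hqb0 : ((q : ℂ) ^ b) ≠ 0 := pow_ne_zero _ (by exact_mod_cast hq.ne_zero)
  have hSint : IsIntegral ℤ S := by
    rw [hS, finsum_mem_irr]
    apply IsIntegral.sum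
    intro χ _
    split_ifs
    · have h0 : IsIntegral ℤ ((Cfsg.charDegree (χ : G → ℂ) : ℕ) : ℂ) := by
        have := isIntegral_algebraMap (R := ℤ) (A := ℂ) (x := ((Cfsg.charDegree (χ : G → ℂ) : ℕ) : ℤ))
        simpa using this
      exact h0.mul (isCharacter_isIntegral (isCharacter_of_isIrrCharacter χ.2) y)
    · exact isIntegral_zero
  -- the key formula
  let F : G → ℂ := fun g => blockCoeff Bq g * bS Bp g y⁻¹
  have hbScl : IsClassFunction G (fun g => bS Bp g y⁻¹) := by
    intro g t
    simp only [bS]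
    apply finsum_congr; intro χ
    apply finsum_congr; intro _
    rw [irr_classFunction χ]
  have hF : IsClassFunction G F := by
    intro g t
    show blockCoeff Bq _ * bS Bp _ y⁻¹ = blockCoeff Bq g * bS Bp g y⁻¹
    have h0 : bS Bp (t * g * t⁻¹) y⁻¹ = bS Bp g y⁻¹ := hbScl g t
    rw [blockCoeff_classFunction Bq g t, h0]
  have hsum : ∑ g, F g = S := by
    have h1 : ∀ g, F g = ∑ ψ : IrrCharacter G,
        (if ψ ∈ Bp then (ψ : G → ℂ) y * (blockCoeff Bq g * (ψ : G → ℂ) g) else 0) := by
      intro g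
      simp only [F, bS, finsum_mem_irr]
      rw [Finset.mul_sum]
      apply Finset.sum_congr rfl; intro ψ _
      split_ifs
      · rw [isCharacter_inv (isCharacter_of_isIrrCharacter ψ.2), Complex.conj_conj]; ring
      · simp
    rw [Finset.sum_congr rfl (fun g _ => h1 g), Finset.sum_comm, hS, finsum_mem_irr]
    apply Finset.sum_congr rfl; intro ψ _
    have h2 := omega_blockCoeff Bq ψ
    have h10 := irr_one_ne_zero ψ.2
    have h3 : ∑ g, blockCoeff Bq g * (ψ : G → ℂ) g = (ψ : G → ℂ) 1 * (if ψ ∈ Bq then 1 else 0) := by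
      rw [← h2]
      simp only [omega]
      rw [Finset.mul_sum]
      apply Finset.sum_congr rfl; intro g _
      field_simp
    by_cases hψp : ψ ∈ Bp
    · simp only [if_pos hψp]
      rw [← Finset.mul_sum, h3]
      by_cases hψq : ψ ∈ Bq
      · have h4 : ψ ∈ Bp ∩ Bq := ⟨hψp, hψq⟩
        rw [if_pos hψq, if_pos h4, irr_one_eq]; ring
      · have h4 : ψ ∉ Bp ∩ Bq := fun h => hψq h.2
        rw [if_neg hψq, if_neg h4]; ring
    · simp only [if_neg hψp]
      have h4 : ψ ∉ Bp ∩ Bq := fun h => hψp h.1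
      rw [if_neg h4]
      simp
  -- class sizes of `p`-singular elements
  have hdiv : ∀ g : G, p ∣ orderOf g → q ^ b ∣ (Subgroup.centralizer ({g} : Set G)).index := by
    intro g hg
    have hnq : ¬ q ∣ Nat.card (Subgroup.centralizer ({g} : Set G)) := by
      intro hqd
      obtain ⟨h, hh⟩ := exists_prime_orderOf_dvd_card' q hqd
      obtain ⟨k, hk⟩ := hg
      have hu : orderOf (g ^ k) = p := by
        have hk0 : k ≠ 0 := by
          intro h0
          rw [h0, mul_zero] at hk
          exact (orderOf_pos g).ne' hk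
        have := orderOf_pow_of_dvd (x := g) hk0 ⟨p, by rw [hk]; ring⟩
        rw [this, hk]
        exact Nat.mul_div_cancel _ (Nat.pos_of_ne_zero hk0)
      have hcomm : Commute (g ^ k) (h : G) := by
        have : Commute g (h : G) := Subgroup.mem_centralizer_iff.1 h.2 g rfl
        exact this.pow_left k
      have hh' : orderOf (h : G) = q := by rw [Subgroup.orderOf_coe]; exact hh
      have := hcomm.orderOf_mul_eq_mul_orderOf_of_coprime
        (by rw [hu, hh']; exact (Nat.coprime_primes hp hq).2 hpq)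
      rw [hu, hh'] at this
      exact hno _ this
    have h1 : q ^ b ∣ (Subgroup.centralizer ({g} : Set G)).index *
        Nat.card (Subgroup.centralizer ({g} : Set G)) := by
      rw [Subgroup.index_mul_card, ← hb]
      exact Nat.ordProj_dvd _ _
    exact (Nat.Coprime.pow_left b ((Nat.Prime.coprime_iff_not_dvd hq).2 hnq)).dvd_of_dvd_mul_right h1
  have hint : IsIntegral ℤ (S / (q : ℂ) ^ b) := by
    apply isIntegral_of_forall_memLocalRing hq b
    · rw [mul_div_cancel₀ _ hqb0]; exact hSint
    · intro 𝔪 hm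
      rw [← hsum, sum_eq_sum_classes hF, Finset.sum_div]
      apply memLocalRing_sum hm
      intro C _
      set g := Quotient.out C with hg
      by_cases hgp : p ∣ orderOf g
      · obtain ⟨c, hc⟩ := hdiv g hgp
        rw [hc]
        have h2 : (((q ^ b * c : ℕ) : ℂ)) * F g / (q : ℂ) ^ b = (c : ℂ) * F g := by
          push_cast
          field_simp
        rw [h2]
        apply memLocalRing_mul hm (memLocalRing_natCast hm _)
        apply memLocalRing_mul hm
          (Cfsg.Agent.Lib.Helper78.blockCoeff_memLocalRing_of_isPBlock hm hMq Bq hBq g)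
        apply memLocalRing_of_isIntegral hm
        simp only [bS, finsum_mem_irr]
        apply IsIntegral.sum
        intro χ _
        split_ifs
        · apply (isCharacter_isIntegral (isCharacter_of_isIrrCharacter χ.2) g).mul
          have h1 := isCharacter_isIntegral (isCharacter_of_isIrrCharacter χ.2) y⁻¹⁻¹
          rwa [isCharacter_inv (isCharacter_of_isIrrCharacter χ.2)] at h1
        · exact isIntegral_zero
      · have h3 : bS Bp g y⁻¹ = 0 :=
          (bS_regular_singular hMp Bp hBp hgp (by rw [orderOf_inv]; exact hy)).1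
        simp only [F, h3, mul_zero, zero_div]
        exact memLocalRing_zero hm
  refine ⟨⟨_, hint⟩, ?_⟩
  show S = (q : ℂ) ^ b * (S / (q : ℂ) ^ b)
  rw [mul_div_cancel₀ _ hqb0]


end Cfsg.Agent.S4731
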