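import Cfsg.Statements.S4735
import Mathlib
import Cfsg.Agent.Lib.Helper79.GaloisRat
import Cfsg.Agent.Lib.Helper79.GaloisChar
import Cfsg.Agent.Lib.Helper82.Codegree
import Cfsg.Agent.Lib.Helper82.Ortho
import Cfsg.Agent.Lib.Helper81.Osima
import Cfsg.Agent.Lib.Helper80.Cores
import Cfsg.Agent.Lib.Helper80.BlockBasic
import Cfsg.Agent.Lib.Helper21.Quot
import Cfsg.Agent.Lib.Helper4.CharBasic
import Cfsg.Agent.S0967
import Cfsg.Agent.Lib.Helper81.BlockProj

set_option autoImplicit false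
open Cfsg

namespace Cfsg.Agent.S4735

open scoped ComplexConjugate
open Cfsg.Agent.Lib.Helper81 Cfsg.Agent.Lib.Helper82

section pw

variable {G : Type*} [Group G] [Finite G]

/-- Galois conjugate `g ↦ χ (g ^ k)` of an irreducible character. -/
noncomputable def powIrr (k : ℕ) (hk : k.Coprime (Nat.card G)) (χ : Cfsg.IrrCharacter G) :
    Cfsg.IrrCharacter G :=
  ⟨fun g => (χ : G → ℂ) (g ^ k), Cfsg.Agent.Lib.Helper79.IsIrrCharacter.pow_coprime χ.2 k hk⟩

theorem powIrr_injective (k : ℕ) (hk : k.Coprime (Nat.card G)) :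
    Function.Injective (powIrr (G := G) k hk) := by
  intro χ ψ h
  apply Subtype.ext
  funext g
  obtain ⟨g', rfl⟩ := (powCoprime hk.symm).surjective g
  exact congrFun (congrArg Subtype.val h) g'

theorem centralizer_pow_eq (k : ℕ) (hk : k.Coprime (Nat.card G)) (g : G) :
    Subgroup.centralizer ({g ^ k} : Set G) = Subgroup.centralizer ({g} : Set G) := by
  have hcop : Nat.Coprime k (orderOf g) :=
    Nat.Coprime.coprime_dvd_right (orderOf_dvd_natCard g) hk
  obtain ⟨m, hm⟩ := exists_pow_eq_self_of_coprime hcop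
  ext x
  simp only [Subgroup.mem_centralizer_iff, Set.mem_singleton_iff, forall_eq]
  constructor
  · intro h
    have hc : Commute (g ^ k) x := h
    have := hc.pow_left m
    rw [hm] at this
    exact this
  · intro h
    have hc : Commute g x := h
    exact hc.pow_left _

theorem powIrr_mem_principal {M : Ideal Cfsg.AlgInt} (k : ℕ) (hk : k.Coprime (Nat.card G))
    {χ : Cfsg.IrrCharacter G} (hχ : χ ∈ Cfsg.principalBlock M G) :
    powIrr k hk χ ∈ Cfsg.principalBlock M G := by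
  intro g
  have h := hχ (g ^ k)
  simp only [Cfsg.centralChar, centralizer_pow_eq k hk] at h
  simp only [Cfsg.centralChar, powIrr, one_pow]
  exact h

open Classical in
/-- the sum of `|χ x|²` over the principal block is a natural number -/
theorem exists_nat_sum {M : Ideal Cfsg.AlgInt} [Fintype (Cfsg.IrrCharacter G)] (x : G) :
    ∃ z : ℤ, ∑ χ ∈ Finset.univ.filter (fun χ : Cfsg.IrrCharacter G => χ ∈ Cfsg.principalBlock M G),
      (χ : G → ℂ) x * conj ((χ : G → ℂ) x) = (z : ℂ) := by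
  set S := Finset.univ.filter (fun χ : Cfsg.IrrCharacter G => χ ∈ Cfsg.principalBlock M G) with hS
  set Λ : G → ℂ := ∑ χ ∈ S, (χ : G → ℂ) * (fun g => conj ((χ : G → ℂ) g)) with hΛ
  have hchar : Cfsg.IsCharacter G Λ := by
    apply Cfsg.Agent.Lib.Helper4.isCharacter_sum
    intro χ _
    exact Cfsg.Agent.Lib.Helper4.isCharacter_mul (isIrr_isChar χ.2)
      (Cfsg.Agent.Lib.Helper4.isCharacter_conj (isIrr_isChar χ.2))
  have hval : ∀ g : G, Λ g = ∑ χ ∈ S, (χ : G → ℂ) g * conj ((χ : G → ℂ) g) := by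
    intro g
    simp only [hΛ, Finset.sum_apply, Pi.mul_apply]
  haveI : NeZero (Nat.card G) := ⟨Nat.card_pos.ne'⟩
  have hinv : ∀ k : ℕ, k.Coprime (Nat.card G) → Λ (x ^ k) = Λ x := by
    intro k hk
    have himg : S.image (powIrr k hk) = S := by
      apply Finset.eq_of_subset_of_card_le
      · intro ψ hψ
        obtain ⟨χ, hχ, rfl⟩ := Finset.mem_image.1 hψ
        rw [hS, Finset.mem_filter] at hχ ⊢
        exact ⟨Finset.mem_univ _, powIrr_mem_principal k hk hχ.2⟩
      · rw [Finset.card_image_of_injective _ (powIrr_injective k hk)]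
    rw [hval, hval]
    conv_rhs => rw [← himg]
    rw [Finset.sum_image (fun a _ b _ h => powIrr_injective k hk h)]
    rfl
  obtain ⟨q, hq⟩ := Cfsg.Agent.Lib.Helper79.IsCharacter.exists_rat_of_pow_eq hchar (Nat.card G) x
    pow_card_eq_one' hinv
  have hint : IsIntegral ℤ (Λ x) := Cfsg.Agent.Lib.Helper20.isCharacter_isIntegral hchar x
  rw [hq] at hint
  have hint' : IsIntegral ℤ q :=
    (isIntegral_algebraMap_iff (algebraMap ℚ ℂ).injective).1 hint
  obtain ⟨z, hz⟩ := IsIntegrallyClosed.isIntegral_iff.1 hint'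
  refine ⟨z, ?_⟩
  rw [← hval, hq, ← hz]
  simp

end pw

/-- Let p be a prime, M a maximal ideal of the algebraic integers containing p, G a finite group, H = O_p'(G) and Ḡ = G/H. For x ∈ G write λ(G, x) for the sum of |χ(x)|^2 over the irreducible characters χ in the principal p-block of G. Then λ(G, x) is a positive integer, λ(G, x) = λ(Ḡ, x̄) where x̄ is the image of x, and λ(G, x) ≤ #C_Ḡ(x̄). Moreover λ(G, 1) = [G : H] if and only if the principal block is the only p-block of Ḡ. -/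
theorem result {G : Type*} [Group G] [Finite G] (p : ℕ) [Fact p.Prime] (M : Ideal Cfsg.AlgInt) (hM : Cfsg.IsPModular p M) (x : G) : (∃ n : ℕ, 0 < n ∧ ∑ᶠ χ ∈ Cfsg.principalBlock M G, Complex.normSq ((χ : G → ℂ) x) = n) ∧ ∑ᶠ χ ∈ Cfsg.principalBlock M G, Complex.normSq ((χ : G → ℂ) x) = ∑ᶠ ψ ∈ Cfsg.principalBlock M (G ⧸ Cfsg.pPrimeCore p G), Complex.normSq ((ψ : G ⧸ Cfsg.pPrimeCore p G → ℂ) (QuotientGroup.mk x)) ∧ ∑ᶠ χ ∈ Cfsg.principalBlock M G, Complex.normSq ((χ : G → ℂ) x) ≤ (Nat.card ↥(Subgroup.centralizer ({(QuotientGroup.mk x : G ⧸ Cfsg.pPrimeCore p G)} : Set (G ⧸ Cfsg.pPrimeCore p G))) : ℝ) ∧ ((∑ᶠ χ ∈ Cfsg.principalBlock M G, Cfsg.charDegree (χ : G → ℂ) ^ 2) = (Cfsg.pPrimeCore p G).index ↔ ∀ B : Set (Cfsg.IrrCharacter (G ⧸ Cfsg.pPrimeCore p G)), Cfsg.IsPBlock M B → B = Cfsg.principalBlock M (G ⧸ Cfsg.pPrimeCore p G)) := by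
  classical
  have hp : p.Prime := hM.1
  haveI := Fintype.ofFinite G
  haveI : Finite (Cfsg.IrrCharacter G) := Cfsg.Agent.Lib.Helper20.finite_irrCharacter
  haveI := Fintype.ofFinite (Cfsg.IrrCharacter G)
  set N := Cfsg.pPrimeCore p G with hNdef
  haveI : Finite (Cfsg.IrrCharacter (G ⧸ N)) := Cfsg.Agent.Lib.Helper20.finite_irrCharacter
  haveI := Fintype.ofFinite (Cfsg.IrrCharacter (G ⧸ N))
  have hN : ¬ p ∣ Nat.card N := by
    have := (Cfsg.Agent.Lib.Helper80.pPrimeCore_spec (G := G) p).2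
    intro h
    exact (Nat.Prime.coprime_iff_not_dvd hp).1 this.symm h
  set infl : Cfsg.IrrCharacter (G ⧸ N) → Cfsg.IrrCharacter G := fun ψ => (irrQuotEquiv N ψ).1
    with hinfl
  have hinj : Function.Injective infl := fun a b h =>
    (irrQuotEquiv N).injective (Subtype.ext h)
  have hval : ∀ (ψ : Cfsg.IrrCharacter (G ⧸ N)) (g : G),
      (infl ψ : G → ℂ) g = (ψ : G ⧸ N → ℂ) (QuotientGroup.mk g) := fun ψ g => rfl
  have himg : infl '' (Cfsg.principalBlock M (G ⧸ N)) = Cfsg.principalBlock M G := by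
    ext χ
    constructor
    · rintro ⟨ψ, hψ, rfl⟩
      exact Cfsg.Agent.Lib.Helper21.sameBlock_inflate hM N hψ
    · intro hχ
      obtain ⟨ψ', h1, h2⟩ := Cfsg.Agent.S0967.result p M hM N hN
        (Cfsg.Agent.Lib.Helper80.trivIrr (G ⧸ N)) χ hχ
      exact ⟨ψ', h2, Subtype.ext h1.symm⟩
  have keyR : ∀ F : Cfsg.IrrCharacter G → ℝ, ∑ᶠ χ ∈ Cfsg.principalBlock M G, F χ
      = ∑ᶠ ψ ∈ Cfsg.principalBlock M (G ⧸ N), F (infl ψ) := by
    intro F
    rw [← himg, finsum_mem_image hinj.injOn]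
  have keyN : ∀ F : Cfsg.IrrCharacter G → ℕ, ∑ᶠ χ ∈ Cfsg.principalBlock M G, F χ
      = ∑ᶠ ψ ∈ Cfsg.principalBlock M (G ⧸ N), F (infl ψ) := by
    intro F
    rw [← himg, finsum_mem_image hinj.injOn]
  have h2 : ∑ᶠ χ ∈ Cfsg.principalBlock M G, Complex.normSq ((χ : G → ℂ) x)
      = ∑ᶠ ψ ∈ Cfsg.principalBlock M (G ⧸ N),
        Complex.normSq ((ψ : G ⧸ N → ℂ) (QuotientGroup.mk x)) :=
    keyR (fun χ => Complex.normSq ((χ : G → ℂ) x))
  refine ⟨?_, h2, ?_, ?_⟩
  · obtain ⟨z, hz⟩ := exists_nat_sum (M := M) x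
    have e1 : ∑ᶠ χ ∈ Cfsg.principalBlock M G, Complex.normSq ((χ : G → ℂ) x) = (z : ℝ) := by
      rw [finsum_mem_irr, ← Finset.sum_filter]
      apply Complex.ofReal_injective
      rw [Complex.ofReal_sum, Complex.ofReal_intCast, ← hz]
      apply Finset.sum_congr rfl; intro χ _
      rw [Complex.mul_conj]
    have e2 : (1 : ℝ) ≤ ∑ᶠ χ ∈ Cfsg.principalBlock M G, Complex.normSq ((χ : G → ℂ) x) := by
      rw [finsum_mem_irr]
      have h3 : (if Cfsg.Agent.Lib.Helper80.trivIrr G ∈ Cfsg.principalBlock M G then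
          Complex.normSq ((Cfsg.Agent.Lib.Helper80.trivIrr G : G → ℂ) x) else 0) = 1 := by
        rw [if_pos (Cfsg.Agent.Lib.Helper80.trivIrr_mem_principalBlock hM)]
        simp [Cfsg.Agent.Lib.Helper80.trivIrr]
      rw [← h3]
      apply Finset.single_le_sum (f := fun χ : Cfsg.IrrCharacter G =>
        if χ ∈ Cfsg.principalBlock M G then Complex.normSq ((χ : G → ℂ) x) else 0)
      · intro χ _
        split_ifs
        · exact Complex.normSq_nonneg _
        · exact le_refl _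
      · exact Finset.mem_univ _
    rw [e1] at e2
    have hz1 : 1 ≤ z := by exact_mod_cast e2
    refine ⟨z.toNat, by omega, ?_⟩
    rw [e1]
    have : ((z.toNat : ℤ) : ℝ) = (z : ℝ) := by rw [Int.toNat_of_nonneg (by omega)]
    exact_mod_cast this.symm
  · rw [h2, finsum_mem_irr]
    have h3 := finsum_irr_mul_conj_self (QuotientGroup.mk x : G ⧸ N)
    rw [finsum_eq_sum_of_fintype] at h3
    have h4 : ∑ ψ : Cfsg.IrrCharacter (G ⧸ N),
        Complex.normSq ((ψ : G ⧸ N → ℂ) (QuotientGroup.mk x))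
        = (Nat.card ↥(Subgroup.centralizer ({(QuotientGroup.mk x : G ⧸ N)} : Set (G ⧸ N))) : ℝ) := by
      apply Complex.ofReal_injective
      rw [Complex.ofReal_sum, Complex.ofReal_natCast, ← h3]
      apply Finset.sum_congr rfl; intro χ _
      rw [Complex.mul_conj]
    rw [← h4]
    apply Finset.sum_le_sum
    intro ψ _
    split_ifs
    · exact le_refl _
    · exact Complex.normSq_nonneg _
  · have hdeg : ∀ ψ : Cfsg.IrrCharacter (G ⧸ N),
        Cfsg.charDegree (infl ψ : G → ℂ) = Cfsg.charDegree (ψ : G ⧸ N → ℂ) := by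
      intro ψ
      simp only [Cfsg.charDegree, hval]
      rfl
    rw [keyN (fun χ => Cfsg.charDegree (χ : G → ℂ) ^ 2)]
    simp only [hdeg]
    rw [finsum_mem_irr, Subgroup.index_eq_card, ← sum_sq_charDegree (G := G ⧸ N)]
    constructor
    · intro h B hB
      have hall : ∀ ψ : Cfsg.IrrCharacter (G ⧸ N), ψ ∈ Cfsg.principalBlock M (G ⧸ N) := by
        by_contra hcon
        push Not at hcon
        obtain ⟨ψ₀, hψ₀⟩ := hcon
        have hlt : ∑ ψ : Cfsg.IrrCharacter (G ⧸ N),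
            (if ψ ∈ Cfsg.principalBlock M (G ⧸ N) then Cfsg.charDegree (ψ : G ⧸ N → ℂ) ^ 2 else 0)
            < ∑ ψ : Cfsg.IrrCharacter (G ⧸ N), Cfsg.charDegree (ψ : G ⧸ N → ℂ) ^ 2 := by
          apply Finset.sum_lt_sum
          · intro ψ _
            split_ifs
            · exact le_refl _
            · exact Nat.zero_le _
          · refine ⟨ψ₀, Finset.mem_univ _, ?_⟩
            rw [if_neg hψ₀]
            exact pow_pos (isIrr_charDegree_pos ψ₀.2) 2
        exact absurd h hlt.ne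
      obtain ⟨χ₀, rfl⟩ := hB
      exact (isPBlock_eq_blockOf hM (Cfsg.Agent.Lib.Helper80.isPBlock_principal M) (hall χ₀)).symm
    · intro h
      apply Finset.sum_congr rfl
      intro ψ _
      rw [if_pos]
      rw [← h (Cfsg.blockOf M (ψ : G ⧸ N → ℂ)) ⟨ψ, rfl⟩]
      exact mem_blockOf_self hM ψ

end Cfsg.Agent.S4735
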