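import Cfsg.Statements.S4736
import Cfsg.Agent.Lib.Helper5.PrinSolv
import Cfsg.Agent.S4713
import Cfsg.Agent.Lib.Helper40.Cores

set_option autoImplicit false
open Cfsg

namespace Cfsg.Agent.S4736

open Cfsg.Agent.Lib.Helper5 Cfsg.Agent.Lib.Helper82

/-- Let p be a prime, M a maximal ideal of the algebraic integers containing p, and G a finite p-solvable group with Sylow p-subgroup P. Then P is abelian if and only if every irreducible character in the principal p-block of G has height zero. -/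
theorem result {G : Type*} [Group G] [Finite G] (p : ℕ) [Fact p.Prime] (M : Ideal Cfsg.AlgInt) (hM : Cfsg.IsPModular p M) (hsolv : Cfsg.IsPSolvable p G) (P : Sylow p G) : IsMulCommutative P ↔ ∀ χ ∈ Cfsg.principalBlock M G, Cfsg.blockHeight p (Cfsg.principalBlock M G) (χ : G → ℂ) = 0 := by
  have hpp : p.Prime := Fact.out
  obtain ⟨K, hK⟩ : ∃ K : Subgroup G, K = Cfsg.pPrimeCore p G := ⟨_, rfl⟩
  have hKn : K.Normal := hK ▸ Cfsg.pPrimeCore_normal p G
  have hKcop : (Nat.card K).Coprime p := hK ▸ (Cfsg.Agent.Lib.Helper40.pPrimeCore_mem p G).2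
  have hsolvQ : Cfsg.IsPSolvable p (G ⧸ K) := Cfsg.Agent.Lib.Helper14.IsPSolvable.quotient hsolv K
  have hcoreQ : Cfsg.pPrimeCore p (G ⧸ K) = ⊥ := by
    subst hK; exact Cfsg.Agent.Lib.Helper60.pPrimeCore_quotient p
  -- height in the principal block
  have hheight : ∀ χ : Cfsg.IrrCharacter G,
      Cfsg.blockHeight p (Cfsg.principalBlock M G) (χ : G → ℂ) = 0 ↔
        ¬ p ∣ Cfsg.charDegree (χ : G → ℂ) := by
    intro χ
    have h0 : sInf ((fun ψ : Cfsg.IrrCharacter G =>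
        (Cfsg.charDegree (ψ : G → ℂ)).factorization p) '' Cfsg.principalBlock M G) = 0 := by
      apply Nat.eq_zero_of_le_zero
      apply Nat.sInf_le
      refine ⟨Cfsg.Agent.Lib.Helper51.oneIrr G, Cfsg.Agent.Lib.Helper51.oneIrr_mem hM, ?_⟩
      have : Cfsg.charDegree ((Cfsg.Agent.Lib.Helper51.oneIrr G : Cfsg.IrrCharacter G) : G → ℂ) = 1 := by
        simp [Cfsg.charDegree, Cfsg.Agent.Lib.Helper51.oneIrr]
      simp [this]
    have hd0 : Cfsg.charDegree (χ : G → ℂ) ≠ 0 := by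
      intro h
      have h1 := isIrr_charDegree_dvd_card χ.2
      rw [h, zero_dvd_iff] at h1
      exact Nat.card_pos.ne' h1
    unfold Cfsg.blockHeight
    rw [h0, Nat.sub_zero, Nat.factorization_eq_zero_iff]
    constructor
    · rintro (h | h | h)
      · exact absurd hpp h
      · exact h
      · exact absurd h hd0
    · intro h; exact Or.inr (Or.inl h)
  -- the image Sylow subgroup
  obtain ⟨Pb, hPb⟩ : ∃ Pb : Sylow p (G ⧸ K), (Pb : Subgroup (G ⧸ K)) =
      (P : Subgroup G).map (QuotientGroup.mk' K) :=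
    ⟨P.mapSurjective (QuotientGroup.mk'_surjective K), rfl⟩
  have hS := Cfsg.Agent.S4713.result p hsolvQ Pb
  have hkey : (∀ χ ∈ Cfsg.principalBlock M G,
      Cfsg.blockHeight p (Cfsg.principalBlock M G) (χ : G → ℂ) = 0) ↔
      ∀ ψ : Cfsg.IrrCharacter (G ⧸ K), ¬ p ∣ Cfsg.charDegree (ψ : G ⧸ K → ℂ) := by
    constructor
    · intro h ψ
      have h1 := h ⟨fun g => (ψ : G ⧸ K → ℂ) (g : G ⧸ K), isIrr_inflate ψ.2⟩ (by
        rw [mem_principalBlock_iff_of_isPSolvable hM hsolv]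
        intro n hn
        show (ψ : G ⧸ K → ℂ) (n : G ⧸ K) = (ψ : G ⧸ K → ℂ) ((1 : G) : G ⧸ K)
        rw [(QuotientGroup.eq_one_iff n).2 (hK ▸ hn)]; rfl)
      exact (hheight _).mp h1
    · intro h χ hχ
      rw [hheight]
      obtain ⟨ψ, hψ, hψχ⟩ := isIrr_deflate χ.2 K (by
        intro x hx
        exact (mem_principalBlock_iff_of_isPSolvable hM hsolv χ).mp hχ x (hK ▸ hx))
      have h1 : Cfsg.charDegree ψ = Cfsg.charDegree (χ : G → ℂ) := by
        unfold Cfsg.charDegree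
        rw [← hψχ 1]; rfl
      rw [← h1]
      exact h ⟨ψ, hψ⟩
  rw [hkey, ← hS]
  constructor
  · intro hab
    have hPbab : ∀ a ∈ (Pb : Subgroup (G ⧸ K)), ∀ b ∈ (Pb : Subgroup (G ⧸ K)), a * b = b * a := by
      rw [hPb]
      rintro _ ⟨a, ha, rfl⟩ _ ⟨b, hb, rfl⟩
      have := congrArg Subtype.val (hab.is_comm.comm (⟨a, ha⟩ : P) ⟨b, hb⟩)
      rw [← map_mul, ← map_mul]
      exact congrArg _ this
    have hQn : (Cfsg.pCore p (G ⧸ K)).Normal := Cfsg.Agent.Lib.Helper53.pCore_normal p _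
    have hle : Cfsg.pCore p (G ⧸ K) ≤ Pb :=
      Cfsg.Agent.Lib.Helper60.normal_le_sylow _ (Cfsg.Agent.Lib.Helper53.pCore_isPGroup p _) Pb
    have hle2 : (Pb : Subgroup (G ⧸ K)) ≤ Cfsg.pCore p (G ⧸ K) := by
      refine le_trans ?_ (Cfsg.Agent.Lib.Helper14.centralizer_pCore_le_of_isPSolvable hsolvQ hcoreQ)
      intro x hx
      rw [Subgroup.mem_centralizer_iff]
      intro y hy
      exact hPbab y (hle hy) x hx
    refine ⟨?_, ⟨⟨fun a b => Subtype.ext (hPbab a a.2 b b.2)⟩⟩⟩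
    rw [le_antisymm hle2 hle]
    exact hQn
  · rintro ⟨-, hab⟩
    refine ⟨⟨fun a b => ?_⟩⟩
    have ha : (QuotientGroup.mk' K (a : G)) ∈ (Pb : Subgroup (G ⧸ K)) := hPb ▸ ⟨a, a.2, rfl⟩
    have hb : (QuotientGroup.mk' K (b : G)) ∈ (Pb : Subgroup (G ⧸ K)) := hPb ▸ ⟨b, b.2, rfl⟩
    have h1 := congrArg Subtype.val (hab.is_comm.comm (⟨_, ha⟩ : Pb) ⟨_, hb⟩)
    have h2 : QuotientGroup.mk' K ((a : G) * b) = QuotientGroup.mk' K ((b : G) * a) := by
      rw [map_mul, map_mul]; exact h1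
    have h3 : ((a : G) * b)⁻¹ * ((b : G) * a) ∈ K := QuotientGroup.eq.mp h2
    have h4 : ((a : G) * b)⁻¹ * ((b : G) * a) ∈ (P : Subgroup G) :=
      mul_mem (inv_mem (mul_mem a.2 b.2)) (mul_mem b.2 a.2)
    have h5 : ((a : G) * b)⁻¹ * ((b : G) * a) = 1 := by
      obtain ⟨k, hk⟩ := (IsPGroup.iff_orderOf.mp P.2) ⟨_, h4⟩
      rw [Subgroup.orderOf_mk] at hk
      have h6 : orderOf (((a : G) * b)⁻¹ * ((b : G) * a)) ∣ Nat.card K := by
        have := orderOf_dvd_natCard (⟨_, h3⟩ : K)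
        rwa [Subgroup.orderOf_mk] at this
      rw [hk] at h6
      have h7 : (p ^ k).Coprime (Nat.card K) := (Nat.Coprime.pow_right k hKcop).symm
      have h8 : p ^ k = 1 := Nat.Coprime.eq_one_of_dvd h7 h6
      rw [h8, orderOf_eq_one_iff] at hk
      exact hk
    apply Subtype.ext
    show (a : G) * b = b * a
    rw [inv_mul_eq_one] at h5
    exact h5

end Cfsg.Agent.S4736
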