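import Cfsg.Statements.S4955
import Mathlib
import Cfsg.Agent.Lib.Helper78.DefectZero
import Cfsg.Agent.Lib.Helper79.GaloisNorm
import Cfsg.Agent.Lib.Helper82.Codegree
import Cfsg.Agent.Lib.Helper82.Ortho
import Cfsg.Agent.Lib.Helper20.CharCount
import Cfsg.Agent.Lib.Helper21.Tower
import Cfsg.Agent.Lib.Helper81.Parseval
import Cfsg.Agent.S0169

set_option autoImplicit false
open Cfsg

namespace Cfsg.Agent.S4955

open scoped ComplexConjugate
open Cfsg.Agent.Lib.Helper81 Cfsg.Agent.Lib.Helper82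

/-- an irreducible character of degree prime to `p` does not vanish at a `p`-element -/
theorem char_ne_zero_of_pElement {X : Type*} [Group X] [Finite X] {p : ℕ} (hp : p.Prime)
    (χ : Cfsg.IrrCharacter X) (hd : ¬ p ∣ Cfsg.charDegree (χ : X → ℂ)) (v : X) {k : ℕ}
    (hv : v ^ (p ^ k) = 1) : (χ : X → ℂ) v ≠ 0 := by
  obtain ⟨M, hM⟩ := Cfsg.Agent.Lib.Helper78.exists_isPModular hp
  obtain ⟨s, m, h1, h2, h3⟩ := Cfsg.Agent.Lib.Helper79.IsCharacter.exists_weights (χ : X → ℂ)
    (isIrr_isChar χ.2) v (p ^ k) (pow_pos hp.pos k) hv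
  intro h0
  apply hd
  rw [← memLocalIdeal_natCast_iff hM, ← isChar_one_eq (isIrr_isChar χ.2)]
  have e1 := h3 1
  simp only [pow_one] at e1
  have e2 : (χ : X → ℂ) 1 = - ∑ μ ∈ s, (m μ : ℂ) * (μ - 1) := by
    rw [← h2]
    push_cast
    simp only [mul_sub, mul_one, Finset.sum_sub_distrib]
    rw [← e1, h0]; ring
  rw [e2]
  apply memLocalIdeal_neg
  apply memLocalIdeal_sum hM
  intro μ hμ
  exact memLocalIdeal_mul_left hM (memLocalRing_natCast hM _)
    (memLocalIdeal_sub_one_of_pow_eq_one hM (h1 μ hμ))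

theorem card_centralizer_of_complement {X : Type*} [Group X] [Finite X] (V : Subgroup X)
    (hab : ∀ a ∈ V, ∀ b ∈ V, a * b = b * a) (G : Subgroup X)
    (hGV : Subgroup.IsComplement' V G) (v : X) (hv : v ∈ V) :
    Nat.card (Subgroup.centralizer ({v} : Set X))
      = Nat.card ↥(G ⊓ Subgroup.centralizer ({v} : Set X)) * Nat.card V := by
  have hVC : ∀ a ∈ V, a ∈ Subgroup.centralizer ({v} : Set X) := by
    intro a ha
    rw [Subgroup.mem_centralizer_iff]
    intro w hw
    rw [Set.mem_singleton_iff.1 hw]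
    exact hab v hv a ha
  rw [mul_comm, ← Nat.card_prod]
  symm
  apply Nat.card_congr
  refine Equiv.ofBijective (fun x : V × ↥(G ⊓ Subgroup.centralizer ({v} : Set X)) =>
    (⟨(x.1 : X) * (x.2 : X), Subgroup.mul_mem _ (hVC _ x.1.2) x.2.2.2⟩ :
      Subgroup.centralizer ({v} : Set X))) ⟨?_, ?_⟩
  · rintro ⟨a, g⟩ ⟨a', g'⟩ h
    have h1 : (a : X) * (g : X) = (a' : X) * (g' : X) := congrArg Subtype.val h
    have h2 := hGV.1 (a₁ := (a, ⟨(g : X), g.2.1⟩)) (a₂ := (a', ⟨(g' : X), g'.2.1⟩)) h1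
    simp only [Prod.mk.injEq, Subtype.mk.injEq] at h2
    exact Prod.ext h2.1 (Subtype.ext h2.2)
  · rintro ⟨c, hc⟩
    obtain ⟨⟨a, g⟩, hag⟩ := hGV.2 c
    have hag' : (a : X) * (g : X) = c := hag
    have hg : (g : X) ∈ Subgroup.centralizer ({v} : Set X) := by
      have : (g : X) = (a : X)⁻¹ * c := by rw [← hag']; group
      rw [this]
      exact Subgroup.mul_mem _ (Subgroup.inv_mem _ (hVC _ a.2)) hc
    exact ⟨(a, ⟨(g : X), g.2, hg⟩), Subtype.ext hag'⟩

/-- Let X be a finite group with an abelian normal Sylow p-subgroup V (a normal p-subgroup of index prime to p in which any two elements commute), and let G be a complement to V in X. Then for every v in V, writing C for the centralizer of v in G, the number k(X) of conjugacy classes of X satisfies k(X) ≤ (order of C)·(order of V) − ((order of G) − k(G)); the statement is written with the subtracted term moved to the left. In particular, if some v in V is centralized by no nonidentity element of G, then k(X) is at most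 the order of V. -/
theorem result {X : Type*} [Group X] [Finite X] (p : ℕ) [Fact p.Prime] (V : Subgroup X) [V.Normal] (hVp : IsPGroup p V) (hidx : ¬ p ∣ V.index) (hab : ∀ a ∈ V, ∀ b ∈ V, a * b = b * a) (G : Subgroup X) (hGV : Subgroup.IsComplement' V G) (v : X) (hv : v ∈ V) : Nat.card (ConjClasses X) + Nat.card G ≤ Nat.card ↥(G ⊓ Subgroup.centralizer ({v} : Set X)) * Nat.card V + Nat.card (ConjClasses G) := by
  classical
  have hp : p.Prime := Fact.out
  haveI := Fintype.ofFinite X
  haveI : Finite (Cfsg.IrrCharacter X) := Cfsg.Agent.Lib.Helper20.finite_irrCharacter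
  haveI := Fintype.ofFinite (Cfsg.IrrCharacter X)
  obtain ⟨k, hk⟩ : ∃ k : ℕ, v ^ (p ^ k) = 1 := by
    obtain ⟨k, hk⟩ := hVp ⟨v, hv⟩
    exact ⟨k, by simpa using congrArg Subtype.val hk⟩
  set n := p ^ k with hn
  haveI : NeZero n := ⟨(pow_pos hp.pos k).ne'⟩
  -- degrees are prime to p
  have hdeg : ∀ χ : Cfsg.IrrCharacter X, ¬ p ∣ Cfsg.charDegree (χ : X → ℂ) := by
    intro χ hdvd
    obtain ⟨d, ρ, hirr, hχ⟩ := χ.2
    haveI := hirr
    have h1 := Cfsg.Agent.S0169.result ρ V hab
    rw [Module.finrank_fin_fun] at h1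
    have h2 : Cfsg.charDegree (χ : X → ℂ) = d := by
      have h3 := isChar_one_eq (isIrr_isChar χ.2)
      rw [← hχ, Representation.char_one, Module.finrank_fin_fun] at h3
      rw [← hχ]
      exact_mod_cast h3.symm
    rw [h2] at hdvd
    exact hidx (hdvd.trans h1)
  have hne : ∀ χ : Cfsg.IrrCharacter X, (χ : X → ℂ) v ≠ 0 := fun χ =>
    char_ne_zero_of_pElement hp χ (hdeg χ) v hk
  have hC : ∀ u : (ZMod n)ˣ, Subgroup.centralizer ({v ^ (u : ZMod n).val} : Set X)
      = Subgroup.centralizer ({v} : Set X) := by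
    intro u
    have hcop : Nat.Coprime (u : ZMod n).val (orderOf v) :=
      Nat.Coprime.coprime_dvd_right (orderOf_dvd_of_pow_eq_one hk) (ZMod.val_coe_unit_coprime u)
    obtain ⟨m, hm⟩ := exists_pow_eq_self_of_coprime hcop
    ext g
    simp only [Subgroup.mem_centralizer_iff, Set.mem_singleton_iff, forall_eq]
    constructor
    · intro h
      have hc : Commute (v ^ (u : ZMod n).val) g := h
      have := hc.pow_left m
      rw [hm] at this
      exact this
    · intro h
      have hc : Commute v g := h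
      exact hc.pow_left _
  have hcol : ∀ u : (ZMod n)ˣ, ∑ χ : Cfsg.IrrCharacter X, ‖(χ : X → ℂ) (v ^ (u : ZMod n).val)‖ ^ 2
      = (Nat.card (Subgroup.centralizer ({v} : Set X)) : ℝ) := by
    intro u
    have h1 := finsum_irr_mul_conj_self (v ^ (u : ZMod n).val)
    rw [finsum_eq_sum_of_fintype, hC u] at h1
    apply Complex.ofReal_injective
    rw [Complex.ofReal_sum, Complex.ofReal_natCast, ← h1]
    apply Finset.sum_congr rfl; intro χ _
    exact normSq_eq_mul_conj' _
  set K : Cfsg.IrrCharacter X → Prop := fun χ => ∀ x ∈ V, (χ : X → ℂ) x = (χ : X → ℂ) 1 with hK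
  set φ : ℝ := (Fintype.card (ZMod n)ˣ : ℝ) with hφ
  have hφpos : 0 < φ := by
    rw [hφ]; exact_mod_cast Fintype.card_pos
  have hlow : ∀ χ : Cfsg.IrrCharacter X,
      φ * (if K χ then ((Cfsg.charDegree (χ : X → ℂ) ^ 2 : ℕ) : ℝ) else 1)
        ≤ ∑ u : (ZMod n)ˣ, ‖(χ : X → ℂ) (v ^ (u : ZMod n).val)‖ ^ 2 := by
    intro χ
    split_ifs with h
    · have : ∀ u : (ZMod n)ˣ, ‖(χ : X → ℂ) (v ^ (u : ZMod n).val)‖ ^ 2
          = ((Cfsg.charDegree (χ : X → ℂ) ^ 2 : ℕ) : ℝ) := by
        intro u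
        rw [h _ (Subgroup.pow_mem _ hv _), isChar_one_eq (isIrr_isChar χ.2), Complex.norm_natCast]
        push_cast; rfl
      simp only [this, Finset.sum_const, Finset.card_univ, nsmul_eq_mul]
      exact le_refl _
    · rw [mul_one]
      exact Cfsg.Agent.Lib.Helper79.IsCharacter.card_units_le_sum_norm_sq (isIrr_isChar χ.2) n v hk
        (hne χ)
  have htot : φ * ∑ χ : Cfsg.IrrCharacter X,
      (if K χ then ((Cfsg.charDegree (χ : X → ℂ) ^ 2 : ℕ) : ℝ) else 1)
      ≤ φ * (Nat.card (Subgroup.centralizer ({v} : Set X)) : ℝ) := by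
    rw [Finset.mul_sum]
    calc _ ≤ ∑ χ : Cfsg.IrrCharacter X, ∑ u : (ZMod n)ˣ,
          ‖(χ : X → ℂ) (v ^ (u : ZMod n).val)‖ ^ 2 := Finset.sum_le_sum (fun χ _ => hlow χ)
      _ = ∑ u : (ZMod n)ˣ, ∑ χ : Cfsg.IrrCharacter X,
          ‖(χ : X → ℂ) (v ^ (u : ZMod n).val)‖ ^ 2 := Finset.sum_comm
      _ = _ := by
          simp only [hcol, Finset.sum_const, Finset.card_univ, nsmul_eq_mul]
          rfl
  have htot' := le_of_mul_le_mul_left htot hφpos
  -- evaluate the left side
  have hsum : ∑ χ : Cfsg.IrrCharacter X,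
      (if K χ then ((Cfsg.charDegree (χ : X → ℂ) ^ 2 : ℕ) : ℝ) else 1)
      = (V.index : ℝ) + ((Finset.univ.filter (fun χ => ¬ K χ)).card : ℝ) := by
    rw [← Finset.sum_filter_add_sum_filter_not Finset.univ K]
    congr 1
    · rw [← sum_sq_charDegree_ker V]
      push_cast
      apply Finset.sum_congr rfl; intro χ hχ
      rw [if_pos (Finset.mem_filter.1 hχ).2]
    · rw [Finset.card_eq_sum_ones]
      push_cast
      apply Finset.sum_congr rfl; intro χ hχ
      rw [if_neg (Finset.mem_filter.1 hχ).2]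
  have hcardK : (Finset.univ.filter K).card = Nat.card (ConjClasses G) := by
    rw [← Fintype.card_subtype, ← Nat.card_eq_fintype_card,
      ← Nat.card_congr (irrQuotEquiv V),
      Nat.card_congr (Cfsg.Agent.Lib.Helper21.irrCongr hGV.symm.QuotientMulEquiv.symm),
      Cfsg.Agent.Lib.Helper20.card_irrCharacter]
  have hcardI : (Finset.univ.filter K).card + (Finset.univ.filter (fun χ => ¬ K χ)).card
      = Nat.card (ConjClasses X) := by
    rw [Finset.card_filter_add_card_filter_not, Finset.card_univ, ← Nat.card_eq_fintype_card,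
      Cfsg.Agent.Lib.Helper20.card_irrCharacter]
  rw [hsum, hGV.symm.index_eq_card, card_centralizer_of_complement V hab G hGV v hv] at htot'
  have hfin : Nat.card G + (Finset.univ.filter (fun χ => ¬ K χ)).card
      ≤ Nat.card ↥(G ⊓ Subgroup.centralizer ({v} : Set X)) * Nat.card V := by
    exact_mod_cast htot'
  omega

end Cfsg.Agent.S4955
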