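import Cfsg.Statements.S4956
import Mathlib
-- import your own Cfsg.Agent.* helpers here

set_option autoImplicit false
open Cfsg

namespace Cfsg.Agent.S4956

theorem card_prod_subtype {A B : Type*} [Fintype A] [Finite B] (P : A → B → Prop) :
    Nat.card {q : A × B // P q.1 q.2} = ∑ a : A, Nat.card {b : B // P a b} := by
  rw [Nat.card_congr (Equiv.subtypeProdEquivSigmaSubtype P), Nat.card_sigma]

theorem count_aux {V : Type*} [Group V] [Finite V] (α β : V →* V)
    (hcomm : ∀ v, α (β v) = β (α v)) (hdisj : ∀ v, α (α v) = 1 → α v = 1) :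
    Nat.card {p : V × V // β p.1 = α p.2} =
      Nat.card V * Nat.card {v : V // α v = 1 ∧ β v = 1} := by
  classical
  have h1 : Nat.card α.ker * Nat.card α.range = Nat.card V := by
    rw [← Subgroup.index_ker, Subgroup.card_mul_index]
  -- decomposition
  have hdec : ∀ v : V, ∃ c i : V, α c = 1 ∧ i ∈ α.range ∧ v = c * i := by
    let r : α.range → α.range := fun i => ⟨α i, ⟨i, rfl⟩⟩
    have hr : Function.Injective r := by
      rintro ⟨i, ⟨a, rfl⟩⟩ ⟨j, ⟨b, rfl⟩⟩ h
      have h' : α (α a) = α (α b) := congrArg Subtype.val h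
      have h2 : α (α (a * b⁻¹)) = 1 := by
        rw [map_mul, map_mul, map_inv, map_inv, h', mul_inv_cancel]
      have h3 := hdisj _ h2
      rw [map_mul, map_inv, mul_inv_eq_one] at h3
      exact Subtype.ext h3
    have hs : Function.Surjective r := Finite.injective_iff_surjective.mp hr
    intro v
    obtain ⟨⟨i, hi⟩, hi'⟩ := hs ⟨α v, ⟨v, rfl⟩⟩
    have hi2 : α i = α v := congrArg Subtype.val hi'
    refine ⟨v * i⁻¹, i, ?_, hi, by group⟩
    rw [map_mul, map_inv, hi2, mul_inv_cancel]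
  have hsec : ∀ i : α.range, ∃ w : V, α w = β i := by
    rintro ⟨i, ⟨a, rfl⟩⟩
    exact ⟨β a, hcomm a⟩
  choose s hs using hsec
  let F : {c : V // α c = 1 ∧ β c = 1} × α.range × α.ker → {p : V × V // β p.1 = α p.2} :=
    fun t => ⟨(t.1.1 * t.2.1.1, s t.2.1 * t.2.2.1), by
      have h2 : α (t.2.2 : V) = 1 := t.2.2.2
      simp only [map_mul, t.1.2.2, one_mul, hs, h2, mul_one]⟩
  have hF : Function.Bijective F := by
    constructor
    · rintro ⟨⟨c, hc1, hc2⟩, ⟨i, hi⟩, ⟨c', hc'⟩⟩ ⟨⟨d, hd1, hd2⟩, ⟨j, hj⟩, ⟨d', hd'⟩⟩ h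
      have h' := congrArg Subtype.val h
      have e1 : c * i = d * j := congrArg Prod.fst h'
      have e2 : s ⟨i, hi⟩ * c' = s ⟨j, hj⟩ * d' := congrArg Prod.snd h'
      obtain ⟨a, rfl⟩ := hi
      obtain ⟨b, rfl⟩ := hj
      have e3 : α (α (a * b⁻¹)) = 1 := by
        have : α a * (α b)⁻¹ = c⁻¹ * d := by
          have : α a = c⁻¹ * (d * α b) := by rw [← e1]; group
          rw [this]; group
        rw [map_mul, map_inv, this, map_mul, map_inv, hc1, hd1]; simp
      have e4 := hdisj _ e3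
      rw [map_mul, map_inv, mul_inv_eq_one] at e4
      have e5 : c = d := by
        rw [e4] at e1; exact mul_right_cancel e1
      subst e5
      have e6 : (⟨α a, ⟨a, rfl⟩⟩ : α.range) = ⟨α b, ⟨b, rfl⟩⟩ := Subtype.ext e4
      rw [e6] at e2
      have e7 : c' = d' := mul_left_cancel e2
      subst e7
      simp only [e4]
    · rintro ⟨⟨v, w⟩, hvw⟩
      simp only at hvw
      obtain ⟨c, i, hc, hi, rfl⟩ := hdec v
      have hβi : β i ∈ α.range := by
        obtain ⟨a, rfl⟩ := hi
        exact ⟨β a, hcomm a⟩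
      have hβc : β c = 1 := by
        have h2 : β c ∈ α.range := by
          have : β c = α w * (β i)⁻¹ := by rw [← hvw, map_mul]; group
          rw [this]
          exact α.range.mul_mem ⟨w, rfl⟩ (α.range.inv_mem hβi)
        obtain ⟨a, ha⟩ := h2
        have h3 : α (α a) = 1 := by rw [ha, hcomm, hc, map_one]
        rw [← ha]; exact hdisj a h3
      refine ⟨⟨⟨c, hc, hβc⟩, ⟨i, hi⟩, ⟨(s ⟨i, hi⟩)⁻¹ * w, ?_⟩⟩, ?_⟩
      · rw [MonoidHom.mem_ker, map_mul, map_inv, hs, ← hvw, map_mul, hβc]; simp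
      · apply Subtype.ext
        simp only [F]
        rw [mul_inv_cancel_left]
  rw [← Nat.card_congr (Equiv.ofBijective F hF), Nat.card_prod, Nat.card_prod, ← h1]
  ring

variable {X : Type*} [Group X]

/-- `v ↦ v * (g v g⁻¹)⁻¹` as an endomorphism of the abelian normal subgroup `V`. -/
noncomputable def delta (V : Subgroup X) [V.Normal] (hab : ∀ a ∈ V, ∀ b ∈ V, a * b = b * a) (g : X) :
    ↥V →* ↥V :=
  MonoidHom.mk' (fun v => v * (MulAut.conjNormal g v)⁻¹) (by
    intro a b
    have hc : ∀ x y : ↥V, x * y = y * x := fun x y => Subtype.ext (hab x x.2 y y.2)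
    rw [map_mul, mul_inv_rev, hc (MulAut.conjNormal g b)⁻¹, mul_assoc, mul_assoc,
      ← mul_assoc b, hc b, mul_assoc])

theorem delta_coe (V : Subgroup X) [V.Normal] (hab : ∀ a ∈ V, ∀ b ∈ V, a * b = b * a) (g : X)
    (v : ↥V) : ((delta V hab g v : ↥V) : X) = v * (g * v * g⁻¹)⁻¹ := rfl

theorem delta_eq_one_iff (V : Subgroup X) [V.Normal] (hab : ∀ a ∈ V, ∀ b ∈ V, a * b = b * a) (g : X)
    (v : ↥V) : delta V hab g v = 1 ↔ g * v = v * g := by
  rw [← Subtype.coe_inj, delta_coe, Subgroup.coe_one, mul_inv_eq_one]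
  constructor
  · intro h
    calc g * v = (g * v * g⁻¹) * g := by group
      _ = v * g := by rw [← h]
  · intro h
    rw [h]; group

theorem delta_comm (V : Subgroup X) [V.Normal] (hab : ∀ a ∈ V, ∀ b ∈ V, a * b = b * a) (g h : X)
    (hgh : g * h = h * g) (v : ↥V) :
    delta V hab g (delta V hab h v) = delta V hab h (delta V hab g v) := by
  have hc : ∀ x y : ↥V, x * y = y * x := fun x y => Subtype.ext (hab x x.2 y y.2)
  have h1 : MulAut.conjNormal g (MulAut.conjNormal h v) = MulAut.conjNormal h (MulAut.conjNormal g v) := by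
    rw [← MulAut.mul_apply, ← MulAut.mul_apply, ← map_mul, ← map_mul, hgh]
  change v * (MulAut.conjNormal h v)⁻¹ * (MulAut.conjNormal g (v * (MulAut.conjNormal h v)⁻¹))⁻¹ =
    v * (MulAut.conjNormal g v)⁻¹ * (MulAut.conjNormal h (v * (MulAut.conjNormal g v)⁻¹))⁻¹
  rw [map_mul, map_mul, map_inv, map_inv, h1, mul_inv_rev, mul_inv_rev, inv_inv]
  set a := MulAut.conjNormal g v
  set b := MulAut.conjNormal h v
  set c := MulAut.conjNormal h a
  rw [mul_assoc, mul_assoc, hc b⁻¹, hc a⁻¹, mul_assoc, mul_assoc, hc a⁻¹]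

theorem delta_disj (V : Subgroup X) [V.Normal] [Finite V] (hab : ∀ a ∈ V, ∀ b ∈ V, a * b = b * a) (g : X)
    (n : ℕ) (hn : g ^ n = 1) (hcop : (Nat.card V).Coprime n) (v : ↥V)
    (h : delta V hab g (delta V hab g v) = 1) : delta V hab g v = 1 := by
  set c := delta V hab g v with hc
  have h1 : g * (c : X) = c * g := (delta_eq_one_iff V hab g c).mp h
  have h2 : g * (v : X) * g⁻¹ = (c : X)⁻¹ * v := by
    rw [hc, delta_coe]; group
  have h3 : ∀ k : ℕ, g ^ k * (v : X) * (g ^ k)⁻¹ = ((c : X)⁻¹) ^ k * v := by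
    intro k
    induction k with
    | zero => simp
    | succ k ih =>
      have hcg : g * ((c : X)⁻¹) ^ k * g⁻¹ = ((c : X)⁻¹) ^ k := by
        have : Commute g ((c : X)⁻¹ ^ k) := (Commute.inv_right h1).pow_right k
        rw [this.eq]; group
      calc g ^ (k + 1) * (v : X) * (g ^ (k + 1))⁻¹
          = g * (g ^ k * (v : X) * (g ^ k)⁻¹) * g⁻¹ := by rw [pow_succ']; group
        _ = g * (((c : X)⁻¹) ^ k * v) * g⁻¹ := by rw [ih]
        _ = (g * ((c : X)⁻¹) ^ k * g⁻¹) * (g * v * g⁻¹) := by group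
        _ = ((c : X)⁻¹) ^ k * ((c : X)⁻¹ * v) := by rw [hcg, h2]
        _ = ((c : X)⁻¹) ^ (k + 1) * v := by rw [pow_succ]; group
  have h4 : (c : X) ^ n = 1 := by
    have := h3 n
    rw [hn] at this
    simp only [one_mul, inv_one, mul_one] at this
    have h5 : ((c : X)⁻¹) ^ n = 1 := by
      have : ((c : X)⁻¹) ^ n * v = 1 * v := by rw [← this, one_mul]
      exact mul_right_cancel this
    rwa [inv_pow, inv_eq_one] at h5
  have h5 : c ^ n = 1 := Subtype.ext (by simpa using h4)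
  have h6 : c ^ (Nat.card V) = 1 := pow_card_eq_one'
  have h7 := pow_gcd_eq_one.mpr ⟨h6, h5⟩
  rwa [hcop.gcd_eq_one, pow_one] at h7

theorem commute_iff (V : Subgroup X) [V.Normal] (hab : ∀ a ∈ V, ∀ b ∈ V, a * b = b * a)
    (G : Subgroup X) (hGV : Subgroup.IsComplement' V G) (v w : ↥V) (g h : ↥G) :
    Commute ((v : X) * g) ((w : X) * h) ↔
      (Commute g h ∧ delta V hab (h : X) v = delta V hab (g : X) w) := by
  have hc : ∀ x y : ↥V, x * y = y * x := fun x y => Subtype.ext (hab x x.2 y y.2)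
  have key1 : (v : X) * g * (w * h) =
      ((v * MulAut.conjNormal (g : X) w : ↥V) : X) * ((g * h : ↥G) : X) := by
    simp only [Subgroup.coe_mul, MulAut.conjNormal_apply]; group
  have key2 : (w : X) * h * (v * g) =
      ((w * MulAut.conjNormal (h : X) v : ↥V) : X) * ((h * g : ↥G) : X) := by
    simp only [Subgroup.coe_mul, MulAut.conjNormal_apply]; group
  have key3 : delta V hab (h : X) v = delta V hab (g : X) w ↔
      v * MulAut.conjNormal (g : X) w = w * MulAut.conjNormal (h : X) v := by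
    change v * (MulAut.conjNormal (h : X) v)⁻¹ = w * (MulAut.conjNormal (g : X) w)⁻¹ ↔ _
    rw [mul_inv_eq_iff_eq_mul, mul_assoc, hc _ (MulAut.conjNormal (h : X) v), ← mul_assoc,
      eq_mul_inv_iff_mul_eq]
  rw [key3]
  unfold Commute SemiconjBy
  rw [key1, key2]
  constructor
  · intro e
    have := hGV.1 (a₁ := (v * MulAut.conjNormal (g : X) w, g * h))
      (a₂ := (w * MulAut.conjNormal (h : X) v, h * g)) e
    rw [Prod.mk.injEq] at this
    exact ⟨this.2, this.1⟩
  · rintro ⟨e1, e2⟩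
    rw [e1, e2]


theorem card_prod_subtype' {A B : Type*} [Finite A] [Fintype B] (P : A → B → Prop) :
    Nat.card {q : A × B // P q.1 q.2} = ∑ b : B, Nat.card {a : A // P a b} := by
  rw [← card_prod_subtype (fun b a => P a b)]
  exact Nat.card_congr (Equiv.subtypeEquiv (Equiv.prodComm A B) (fun _ => Iff.rfl))

theorem claim1 [Finite X] (V : Subgroup X) [V.Normal] (hab : ∀ a ∈ V, ∀ b ∈ V, a * b = b * a)
    (G : Subgroup X) (hGV : Subgroup.IsComplement' V G) (hcop : (Nat.card V).Coprime (Nat.card G)) :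
    Nat.card {p : X × X // Commute p.1 p.2} = Nat.card V *
      Nat.card {t : ↥V × (↥G × ↥G) // Commute t.2.1 t.2.2 ∧ delta V hab (t.2.1 : X) t.1 = 1 ∧
        delta V hab (t.2.2 : X) t.1 = 1} := by
  classical
  have := Fintype.ofFinite (↥G × ↥G)
  let e : ↥V × ↥G ≃ X := Equiv.ofBijective (fun x : ↥V × ↥G => (x.1 : X) * (x.2 : X)) hGV
  let E : (↥V × ↥V) × (↥G × ↥G) ≃ X × X :=
    (Equiv.prodProdProdComm _ _ _ _).trans (Equiv.prodCongr e e)
  have h1 : Nat.card {p : X × X // Commute p.1 p.2} =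
      Nat.card {q : (↥V × ↥V) × (↥G × ↥G) // Commute q.2.1 q.2.2 ∧
        delta V hab (q.2.2 : X) q.1.1 = delta V hab (q.2.1 : X) q.1.2} := by
    refine (Nat.card_congr (Equiv.subtypeEquiv E ?_)).symm
    rintro ⟨⟨v, w⟩, ⟨g, h⟩⟩
    exact (commute_iff V hab G hGV v w g h).symm
  rw [h1, card_prod_subtype' (fun (a : ↥V × ↥V) (b : ↥G × ↥G) => Commute b.1 b.2 ∧
        delta V hab (b.2 : X) a.1 = delta V hab (b.1 : X) a.2),
    card_prod_subtype' (fun (a : ↥V) (b : ↥G × ↥G) => Commute b.1 b.2 ∧ delta V hab (b.1 : X) a = 1 ∧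
        delta V hab (b.2 : X) a = 1), Finset.mul_sum]
  refine Finset.sum_congr rfl ?_
  rintro ⟨g, h⟩ -
  by_cases hgh : Commute g h
  · simp only [hgh, true_and]
    refine count_aux (delta V hab (g : X)) (delta V hab (h : X)) ?_ ?_
    · intro v
      refine delta_comm V hab g h ?_ v
      have := hgh.eq
      exact congrArg Subtype.val this
    · intro v
      refine delta_disj V hab g (Nat.card G) ?_ hcop v
      have : g ^ Nat.card G = 1 := pow_card_eq_one'
      exact_mod_cast congrArg Subtype.val this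
  · simp only [hgh, false_and]
    simp


theorem card_conjClasses_congr {H K : Type*} [Group H] [Group K] (e : H ≃* K) :
    Nat.card (ConjClasses H) = Nat.card (ConjClasses K) :=
  Nat.card_congr (Quotient.congr e.toEquiv (fun a b =>
    ⟨fun h => e.toMonoidHom.map_isConj h, fun h => by
      have h' : IsConj (e a) (e b) := h
      have := e.symm.toMonoidHom.map_isConj h'
      simp only [MulEquiv.coe_toMonoidHom, MulEquiv.symm_apply_apply] at this
      exact this⟩))

theorem card_fix (V : Subgroup X) [V.Normal] (hab : ∀ a ∈ V, ∀ b ∈ V, a * b = b * a)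
    (G : Subgroup X) (v : ↥V) :
    Nat.card {gh : ↥G × ↥G // Commute gh.1 gh.2 ∧ delta V hab (gh.1 : X) v = 1 ∧
        delta V hab (gh.2 : X) v = 1} =
      Nat.card (ConjClasses ↥(G ⊓ Subgroup.centralizer ({(v : X)} : Set X))) *
        Nat.card ↥(G ⊓ Subgroup.centralizer ({(v : X)} : Set X)) := by
  rw [← card_comm_eq_card_conjClasses_mul_card]
  refine Nat.card_congr
    { toFun := fun t => ⟨(⟨t.1.1, t.1.1.2, Subgroup.mem_centralizer_singleton_iff.mpr
          ((delta_eq_one_iff V hab _ v).mp t.2.2.1)⟩,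
        ⟨t.1.2, t.1.2.2, Subgroup.mem_centralizer_singleton_iff.mpr
          ((delta_eq_one_iff V hab _ v).mp t.2.2.2)⟩), ?_⟩
      invFun := fun t => ⟨(⟨t.1.1, t.1.1.2.1⟩, ⟨t.1.2, t.1.2.2.1⟩), ?_,
        (delta_eq_one_iff V hab _ v).mpr (Subgroup.mem_centralizer_singleton_iff.mp t.1.1.2.2),
        (delta_eq_one_iff V hab _ v).mpr (Subgroup.mem_centralizer_singleton_iff.mp t.1.2.2.2)⟩
      left_inv := fun t => rfl
      right_inv := fun t => rfl }
  · have e : ((t.1.1 : ↥G) : X) * t.1.2 = t.1.2 * t.1.1 := congrArg Subtype.val t.2.1.eq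
    exact Subtype.ext e
  · have e : ((t.1.1 : ↥(G ⊓ Subgroup.centralizer ({(v : X)} : Set X))) : X) * t.1.2 = t.1.2 * t.1.1 :=
      congrArg Subtype.val t.2.eq
    exact Subtype.ext e

/-- conjugation by `a ∈ G` carries `C_G(v)` to `C_G(a v a⁻¹)`. -/
def conjEquiv (G : Subgroup X) (a v : X) (ha : a ∈ G) :
    ↥(G ⊓ Subgroup.centralizer ({v} : Set X)) ≃*
      ↥(G ⊓ Subgroup.centralizer ({a * v * a⁻¹} : Set X)) where
  toFun x := ⟨a * x * a⁻¹, Subgroup.mem_inf.mpr ⟨G.mul_mem (G.mul_mem ha x.2.1) (G.inv_mem ha),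
    Subgroup.mem_centralizer_singleton_iff.mpr (by
      have h := Subgroup.mem_centralizer_singleton_iff.mp x.2.2
      calc a * x * a⁻¹ * (a * v * a⁻¹) = a * (x * v) * a⁻¹ := by group
        _ = a * (v * x) * a⁻¹ := by rw [h]
        _ = a * v * a⁻¹ * (a * x * a⁻¹) := by group)⟩⟩
  invFun y := ⟨a⁻¹ * y * a, Subgroup.mem_inf.mpr ⟨G.mul_mem (G.mul_mem (G.inv_mem ha) y.2.1) ha,
    Subgroup.mem_centralizer_singleton_iff.mpr (by
      have h := Subgroup.mem_centralizer_singleton_iff.mp y.2.2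
      calc a⁻¹ * y * a * v = a⁻¹ * (y * (a * v * a⁻¹)) * a := by group
        _ = a⁻¹ * ((a * v * a⁻¹) * y) * a := by rw [h]
        _ = v * (a⁻¹ * y * a) := by group)⟩⟩
  left_inv x := Subtype.ext (by simp only; group)
  right_inv y := Subtype.ext (by simp only; group)
  map_mul' x y := Subtype.ext (by simp only [Subgroup.coe_mul]; group)

theorem card_transporter (G : Subgroup X) (a v : X) (ha : a ∈ G) :
    Nat.card {g : ↥G // (g : X) * v * (g : X)⁻¹ = a * v * a⁻¹} =
      Nat.card ↥(G ⊓ Subgroup.centralizer ({v} : Set X)) := by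
  refine Nat.card_congr
    { toFun := fun g => ⟨a⁻¹ * g.1, Subgroup.mem_inf.mpr ⟨G.mul_mem (G.inv_mem ha) g.1.2,
        Subgroup.mem_centralizer_singleton_iff.mpr ?_⟩⟩
      invFun := fun x => ⟨⟨a * x, G.mul_mem ha x.2.1⟩, ?_⟩
      left_inv := fun g => Subtype.ext (Subtype.ext (by simp))
      right_inv := fun x => Subtype.ext (by simp) }
  · have h := g.2
    calc a⁻¹ * (g.1 : X) * v = a⁻¹ * ((g.1 : X) * v * (g.1 : X)⁻¹) * g.1 := by group
      _ = a⁻¹ * (a * v * a⁻¹) * g.1 := by rw [h]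
      _ = v * (a⁻¹ * g.1) := by group
  · have h := Subgroup.mem_centralizer_singleton_iff.mp x.2.2
    simp only
    calc a * (x : X) * v * (a * (x : X))⁻¹ = a * ((x : X) * v) * (x : X)⁻¹ * a⁻¹ := by group
      _ = a * (v * (x : X)) * (x : X)⁻¹ * a⁻¹ := by rw [h]
      _ = a * v * a⁻¹ := by group


theorem claim2 [Finite X] (V : Subgroup X) [V.Normal] (hab : ∀ a ∈ V, ∀ b ∈ V, a * b = b * a)
    (G : Subgroup X) (S : Finset X) (hSV : ∀ s ∈ S, s ∈ V)
    (hrep : ∀ v ∈ V, ∃! s, s ∈ S ∧ ∃ g ∈ G, g * v * g⁻¹ = s) :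
    Nat.card {t : ↥V × (↥G × ↥G) // Commute t.2.1 t.2.2 ∧ delta V hab (t.2.1 : X) t.1 = 1 ∧
        delta V hab (t.2.2 : X) t.1 = 1} =
      Nat.card G * ∑ s ∈ S, Nat.card (ConjClasses ↥(G ⊓ Subgroup.centralizer ({s} : Set X))) := by
  classical
  have := Fintype.ofFinite ↥V
  rw [card_prod_subtype (fun (v : ↥V) (b : ↥G × ↥G) => Commute b.1 b.2 ∧
    delta V hab (b.1 : X) v = 1 ∧ delta V hab (b.2 : X) v = 1)]
  simp_rw [card_fix]
  choose r hr using (fun v : ↥V => hrep v v.2)
  rw [← Finset.sum_fiberwise_of_maps_to (s := Finset.univ) (t := S) (g := r)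
    (fun v _ => (hr v).1.1), Finset.mul_sum]
  refine Finset.sum_congr rfl (fun s hs => ?_)
  have hG : Nat.card G = ∑ v : ↥V, Nat.card {g : ↥G // (g : X) * v * (g : X)⁻¹ = s} := by
    rw [← card_prod_subtype (fun (v : ↥V) (g : ↥G) => (g : X) * v * (g : X)⁻¹ = s)]
    refine Nat.card_congr
      { toFun := fun g => ⟨(⟨(g : X)⁻¹ * s * g, Subgroup.Normal.conj_mem' inferInstance s (hSV s hs) g⟩, g),
          by simp only; group⟩
        invFun := fun t => t.1.2
        left_inv := fun g => rfl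
        right_inv := fun t => ?_ }
    obtain ⟨⟨v, g⟩, h⟩ := t
    simp only at h
    refine Subtype.ext (Prod.ext (Subtype.ext ?_) rfl)
    simp only
    rw [← h]; group
  rw [hG, Finset.sum_mul, Finset.sum_filter]
  refine Finset.sum_congr rfl (fun v _ => ?_)
  split_ifs with h
  · obtain ⟨a, ha, hav⟩ := (hr v).1.2
    rw [h] at hav
    subst hav
    rw [card_transporter G a v ha, card_conjClasses_congr (conjEquiv G a v ha), mul_comm]
  · have : IsEmpty {g : ↥G // (g : X) * v * (g : X)⁻¹ = s} :=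
      ⟨fun g => h ((hr v).2 s ⟨hs, g.1, g.1.2, g.2⟩).symm⟩
    simp


/-- Let X be a finite group, V an abelian normal subgroup of X (any two elements of V commute) and G a complement to V in X whose order is coprime to that of V. Let S be a set of representatives of the orbits of G on V under conjugation: S lies in V and every element of V is conjugate under G to exactly one member of S. Then the number of conjugacy classes of X equals the sum, over s in S, of the number of conjugacy classes of the centralizer of s in G. -/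
theorem result {X : Type*} [Group X] [Finite X] (V : Subgroup X) [V.Normal] (hab : ∀ a ∈ V, ∀ b ∈ V, a * b = b * a) (G : Subgroup X) (hGV : Subgroup.IsComplement' V G) (hcop : (Nat.card V).Coprime (Nat.card G)) (S : Finset X) (hSV : ∀ s ∈ S, s ∈ V) (hrep : ∀ v ∈ V, ∃! s, s ∈ S ∧ ∃ g ∈ G, g * v * g⁻¹ = s) : Nat.card (ConjClasses X) = ∑ s ∈ S, Nat.card (ConjClasses ↥(G ⊓ Subgroup.centralizer ({s} : Set X))) := by
  have h1 := card_comm_eq_card_conjClasses_mul_card X
  rw [claim1 V hab G hGV hcop, claim2 V hab G S hSV hrep, ← hGV.card_mul_card, ← mul_assoc,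
    mul_comm] at h1
  exact (Nat.eq_of_mul_eq_mul_right (Nat.mul_pos Nat.card_pos Nat.card_pos) h1).symm

end Cfsg.Agent.S4956
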