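import Cfsg.Statements.S4964
-- import your own Cfsg.Agent.* helpers here
import Mathlib
import Cfsg.Agent.Lib.Helper21.Quot
import Cfsg.Agent.Lib.Helper1.Coprime2
import Cfsg.Agent.Lib.Helper3.PGroup

set_option autoImplicit false
open Cfsg
open Cfsg.Agent.Lib.Helper20 Cfsg.Agent.Lib.Helper81 Cfsg.Agent.Lib.Helper21 Cfsg.Agent.Lib.Helper5

namespace Cfsg.Agent.S4964

/-- Let D be a normal p-subgroup of the finite group G, let D′ be its commutator subgroup (normal in G), and fix a maximal ideal M of the algebraic integers containing p. Then (i) two irreducible characters of G ⧸ D′ lie in the same p-block if and only if their inflations to G do, and (ii) every p-block of G contains the inflation of some irreducible character of G ⧸ D′; so inflation induces a bijection between the p-blocks of G ⧸ D′ and the p-blocks of G. -/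
theorem result {G : Type*} [Group G] [Finite G] (p : ℕ) [Fact p.Prime] (M : Ideal Cfsg.AlgInt) (hM : Cfsg.IsPModular p M) (D : Subgroup G) [D.Normal] (hD : IsPGroup p D) : (∀ χ ψ : Cfsg.IrrCharacter (G ⧸ ⁅D, D⁆), Cfsg.SameBlock M (χ : G ⧸ ⁅D, D⁆ → ℂ) (ψ : G ⧸ ⁅D, D⁆ → ℂ) ↔ Cfsg.SameBlock M ((χ : G ⧸ ⁅D, D⁆ → ℂ) ∘ QuotientGroup.mk) ((ψ : G ⧸ ⁅D, D⁆ → ℂ) ∘ QuotientGroup.mk)) ∧ ∀ B : Set (Cfsg.IrrCharacter G), Cfsg.IsPBlock M B → ∃ χ : Cfsg.IrrCharacter (G ⧸ ⁅D, D⁆), ∃ θ ∈ B, (θ : G → ℂ) = (χ : G ⧸ ⁅D, D⁆ → ℂ) ∘ QuotientGroup.mk := by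
  classical
  have hD' : IsPGroup p (⁅D, D⁆ : Subgroup G) := hD.to_le (Subgroup.commutator_le_left D D)
  refine ⟨fun χ ψ => sameBlock_quot_iff hM _ hD' ?_ χ ψ,
    fun B hB => exists_inflation_mem_block hM _ hD' B hB⟩
  intro g hg hc χ
  haveI : Fintype (G ⧸ ⁅D, D⁆) := Fintype.ofFinite _
  haveI : (D.map (QuotientGroup.mk' ⁅D, D⁆)).Normal :=
    Subgroup.Normal.map inferInstance _ (QuotientGroup.mk'_surjective _)
  apply centralChar_memLocalIdeal_of_not_mem_centralizer hM (D.map (QuotientGroup.mk' ⁅D, D⁆))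
    (hD.map _) χ
  intro hcon
  apply hc
  have hle : Subgroup.zpowers g ≤ Subgroup.centralizer (D : Set G) := by
    apply Cfsg.Agent.Lib.Helper1.coprime_trivial_on_frattini_quotient
    · rw [Subgroup.normalizer_eq_top]; exact le_top
    · rw [Nat.card_zpowers]
      obtain ⟨k, hk⟩ := IsPGroup.iff_card.1 (hD.to_subgroup (frattini D))
      rw [hk]
      exact Nat.Coprime.pow_right k ((Nat.Prime.coprime_iff_not_dvd hM.1).2 hg).symm
    · have hsub : (⁅D, D⁆ : Subgroup G) ≤ (frattini D).map D.subtype := by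
        rw [← Subgroup.map_subtype_commutator]
        exact Subgroup.map_mono (Cfsg.Agent.Lib.Helper3.commutator_le_frattini hD)
      have hz : Subgroup.zpowers g ≤ (Subgroup.centralizer
          ((D.map (QuotientGroup.mk' ⁅D, D⁆) : Subgroup (G ⧸ ⁅D, D⁆)) : Set (G ⧸ ⁅D, D⁆))).comap
          (QuotientGroup.mk' ⁅D, D⁆) := by
        rw [Subgroup.zpowers_le]
        exact hcon
      intro a ha k hk
      apply hsub
      have h1 := hz ha
      rw [Subgroup.mem_comap, Subgroup.mem_centralizer_iff] at h1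
      have h2 := h1 (QuotientGroup.mk' ⁅D, D⁆ k) (Subgroup.mem_map_of_mem _ hk)
      rw [← QuotientGroup.eq_one_iff]
      have h3 : ((a * k * a⁻¹ * k⁻¹ : G) : G ⧸ ⁅D, D⁆)
          = (QuotientGroup.mk' ⁅D, D⁆ a) * (QuotientGroup.mk' ⁅D, D⁆ k)
            * (QuotientGroup.mk' ⁅D, D⁆ a)⁻¹ * (QuotientGroup.mk' ⁅D, D⁆ k)⁻¹ := rfl
      rw [h3, ← h2]
      group
  have h4 := hle (Subgroup.mem_zpowers g)
  exact Subgroup.centralizer_le (Subgroup.commutator_le_left D D) h4

end Cfsg.Agent.S4964
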