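import Cfsg.Statements.S4965
import Mathlib.GroupTheory.GroupAction.CardCommute
import Mathlib.GroupTheory.SemidirectProduct
import Mathlib.Tactic.Group
-- import your own Cfsg.Agent.* helpers here

set_option autoImplicit false
open Cfsg

namespace Cfsg.Agent.S4965

theorem comm_aux {X : Type*} [Group X] (V : Subgroup X) [V.Normal] (φ : X ⧸ V →* MulAut ↥V)
    (hφ : ∀ (x : X) (v : ↥V), ((φ (QuotientGroup.mk x) v : ↥V) : X) = x * v * x⁻¹)
    (x y x₀ y₀ : X) (hx : x * x₀⁻¹ ∈ V) (hy : y * y₀⁻¹ ∈ V)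
    (h1 : (QuotientGroup.mk x₀ : X ⧸ V) = QuotientGroup.mk x)
    (h2 : (QuotientGroup.mk y₀ : X ⧸ V) = QuotientGroup.mk y)
    (hxy : Commute x y) (h3 : Commute x₀ y₀) :
    Commute (⟨⟨x * x₀⁻¹, hx⟩, QuotientGroup.mk x⟩ : SemidirectProduct ↥V (X ⧸ V) φ)
      ⟨⟨y * y₀⁻¹, hy⟩, QuotientGroup.mk y⟩ := by
  apply SemidirectProduct.ext
  · apply Subtype.ext
    simp only [SemidirectProduct.mul_left, Subgroup.coe_mul]
    rw [← h1, ← h2, hφ, hφ]
    have e1 : x * x₀⁻¹ * (x₀ * (y * y₀⁻¹) * x₀⁻¹) = (x * y) * (x₀ * y₀)⁻¹ := by group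
    have e2 : y * y₀⁻¹ * (y₀ * (x * x₀⁻¹) * y₀⁻¹) = (y * x) * (y₀ * x₀)⁻¹ := by group
    rw [e1, e2, hxy.eq, h3.eq]
  · simp only [SemidirectProduct.mul_right]
    rw [← QuotientGroup.mk_mul, ← QuotientGroup.mk_mul, hxy.eq]


/-- Let X be a finite group with an abelian normal subgroup V (any two elements of V commute), and let φ be the action of X ⧸ V on V induced by conjugation (well defined because V is abelian; the hypothesis hφ says that the class of x acts as conjugation by x). Then X has at most as many conjugacy classes as the semidirect product of V by X ⧸ V formed with this action: the split extension has the largest class number among extensions with the given action. -/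
theorem result {X : Type*} [Group X] [Finite X] (V : Subgroup X) [V.Normal] (hab : ∀ a ∈ V, ∀ b ∈ V, a * b = b * a) (φ : X ⧸ V →* MulAut ↥V) (hφ : ∀ (x : X) (v : ↥V), ((φ (QuotientGroup.mk x) v : ↥V) : X) = x * v * x⁻¹) : Nat.card (ConjClasses X) ≤ Nat.card (ConjClasses (SemidirectProduct ↥V (X ⧸ V) φ)) := by
  classical
  have : Finite (SemidirectProduct ↥V (X ⧸ V) φ) :=
    Finite.of_equiv _ (SemidirectProduct.equivProd).symm
  have hlift : ∀ q : (X ⧸ V) × (X ⧸ V), ∃ z : X × X,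
      (∃ x y : X, (QuotientGroup.mk x : X ⧸ V) = q.1 ∧ (QuotientGroup.mk y : X ⧸ V) = q.2 ∧ Commute x y) →
      ((QuotientGroup.mk z.1 : X ⧸ V) = q.1 ∧ (QuotientGroup.mk z.2 : X ⧸ V) = q.2 ∧ Commute z.1 z.2) := by
    intro q
    by_cases h : ∃ x y : X, (QuotientGroup.mk x : X ⧸ V) = q.1 ∧ (QuotientGroup.mk y : X ⧸ V) = q.2 ∧ Commute x y
    · obtain ⟨x, y, h1, h2, h3⟩ := h
      exact ⟨(x, y), fun _ => ⟨h1, h2, h3⟩⟩
    · exact ⟨(1, 1), fun h' => absurd h' h⟩
  choose L hL using hlift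
  have hL' : ∀ x y : X, Commute x y →
      ((QuotientGroup.mk (L (QuotientGroup.mk x, QuotientGroup.mk y)).1 : X ⧸ V) = QuotientGroup.mk x ∧
       (QuotientGroup.mk (L (QuotientGroup.mk x, QuotientGroup.mk y)).2 : X ⧸ V) = QuotientGroup.mk y ∧
       Commute (L (QuotientGroup.mk x, QuotientGroup.mk y)).1 (L (QuotientGroup.mk x, QuotientGroup.mk y)).2) := by
    intro x y hxy
    exact hL (QuotientGroup.mk x, QuotientGroup.mk y) ⟨x, y, rfl, rfl, hxy⟩
  have hmem : ∀ a b : X, (QuotientGroup.mk b : X ⧸ V) = QuotientGroup.mk a → a * b⁻¹ ∈ V := by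
    intro a b h
    have h1 : b⁻¹ * a ∈ V := QuotientGroup.eq.mp h
    have h2 : b * (b⁻¹ * a) * b⁻¹ ∈ V := Subgroup.Normal.conj_mem inferInstance _ h1 b
    simpa [mul_assoc] using h2
  let f : {p : X × X // Commute p.1 p.2} →
      {p : SemidirectProduct ↥V (X ⧸ V) φ × SemidirectProduct ↥V (X ⧸ V) φ // Commute p.1 p.2} :=
    fun p =>
      ⟨(⟨⟨p.1.1 * (L (QuotientGroup.mk p.1.1, QuotientGroup.mk p.1.2)).1⁻¹,
            hmem _ _ (hL' p.1.1 p.1.2 p.2).1⟩, QuotientGroup.mk p.1.1⟩,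
        ⟨⟨p.1.2 * (L (QuotientGroup.mk p.1.1, QuotientGroup.mk p.1.2)).2⁻¹,
            hmem _ _ (hL' p.1.1 p.1.2 p.2).2.1⟩, QuotientGroup.mk p.1.2⟩),
        comm_aux V φ hφ _ _ _ _ _ _ (hL' p.1.1 p.1.2 p.2).1 (hL' p.1.1 p.1.2 p.2).2.1 p.2
          (hL' p.1.1 p.1.2 p.2).2.2⟩
  have hf : Function.Injective f := by
    rintro ⟨⟨x, y⟩, hxy⟩ ⟨⟨x', y'⟩, hxy'⟩ h
    have h' := congrArg Subtype.val h
    have hb : (QuotientGroup.mk x : X ⧸ V) = QuotientGroup.mk x' :=
      congrArg (fun z => z.1.right) h'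
    have hd : (QuotientGroup.mk y : X ⧸ V) = QuotientGroup.mk y' :=
      congrArg (fun z => z.2.right) h'
    have ha : x * (L (QuotientGroup.mk x, QuotientGroup.mk y)).1⁻¹ =
        x' * (L (QuotientGroup.mk x', QuotientGroup.mk y')).1⁻¹ :=
      congrArg (fun z => (z.1.left : X)) h'
    have hc : y * (L (QuotientGroup.mk x, QuotientGroup.mk y)).2⁻¹ =
        y' * (L (QuotientGroup.mk x', QuotientGroup.mk y')).2⁻¹ :=
      congrArg (fun z => (z.2.left : X)) h'
    rw [hb, hd] at ha hc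
    have hx : x = x' := mul_right_cancel ha
    have hy : y = y' := mul_right_cancel hc
    subst hx; subst hy; rfl
  have hcard := Nat.card_le_card_of_injective f hf
  rw [card_comm_eq_card_conjClasses_mul_card, card_comm_eq_card_conjClasses_mul_card,
    SemidirectProduct.card, mul_comm (Nat.card ↥V), ← Subgroup.card_eq_card_quotient_mul_card_subgroup] at hcard
  exact Nat.le_of_mul_le_mul_right hcard Nat.card_pos

end Cfsg.Agent.S4965
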