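import Cfsg.Statements.S5005
import Cfsg.Agent.Lib.Helper94.Blk22

set_option autoImplicit false
open Cfsg

namespace Cfsg.Agent.S5005

open Cfsg.Agent.Lib.Helper94

/-- All irreducible complex characters of the Mathieu group `M₂₂` lie in a single 2-block: any two of them lie in the same block relative to every maximal ideal of the algebraic integers containing 2. -/
theorem result (M : Ideal Cfsg.AlgInt) (hM : Cfsg.IsPModular 2 M)
    (χ ψ : Cfsg.IrrCharacter ↥Cfsg.Spor.M22) : Cfsg.SameBlock M (χ : ↥Cfsg.Spor.M22 → ℂ) (ψ : ↥Cfsg.Spor.M22 → ℂ) := by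
  classical
  haveI : Fintype ↥Cfsg.Spor.M22 := Fintype.ofFinite _
  apply sameBlock_of hM
  · intro z hz
    have hz' : orderOf (z : Equiv.Perm GolayPt) = 2 := by rw [Subgroup.orderOf_coe]; exact hz
    obtain ⟨hz24, h23, h0⟩ := (mem_M22_iff z).1 z.2
    rcases invol_fixed hz24 hz' with ⟨hO, _⟩ | ⟨hno, _⟩
    · have h1 : msk (Finset.univ.filter fun p => (z : Equiv.Perm GolayPt) p = p) ∈ OL22 := by
        rw [mem_OL22_iff]
        exact ⟨hO, by simp [h23], by simp [h0]⟩
      rw [← kC22_map] at h1
      obtain ⟨m, hm, e⟩ := List.mem_map.1 h1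
      apply locData22.hloc z hz (k := permOf m) (List.mem_map.2 ⟨m, hm, rfl⟩)
      intro p hp
      rw [smul_base (validM_of_inM24 (kC22_spec hm).1), e, unm_msk] at hp
      exact (Finset.mem_filter.1 hp).2
    · exact absurd h23 (hno _)
  · exact dz_all_of_golay hM long22 small22 xc22 kC22 locData22 (fun m hm => kC22_spec hm)
      (fun L hL => ⟨(xc22_spec hL).1, (xc22_spec hL).2.1⟩) (fun g hg => clp22 hg) (by decide)
      (by decide) (by decide) T22 T22_eq T22_99 T22_par

end Cfsg.Agent.S5005
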