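import Cfsg.Statements.S5006
import Cfsg.Agent.Lib.Helper94.Blk24c
import Cfsg.Agent.Lib.Helper94.Blk24t11
import Cfsg.Agent.Lib.Helper94.Blk24t15
import Cfsg.Agent.Lib.Helper94.Blk24t21
import Cfsg.Agent.Lib.Helper94.Blk24t23

set_option autoImplicit false
open Cfsg

namespace Cfsg.Agent.S5006

open Cfsg.Agent.Lib.Helper94

/-- the tables. -/
def T24 : ℕ → List ℕ
  | 11 => T24_11
  | 15 => T24_15
  | 21 => T24_21
  | _ => T24_23

theorem T24_eq : ∀ K ∈ long24, kC24.flatMap (rowT long24 small24 (toS (xc24 K))) = T24 K := by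
  intro K hK
  simp only [long24, List.mem_cons, List.not_mem_nil, or_false] at hK
  rcases hK with rfl | rfl | rfl | rfl
  · exact tab24_11
  · exact tab24_15
  · exact tab24_21
  · exact tab24_23

theorem T24_99 : ∀ K ∈ long24, (T24 K).count 99 = 0 := by
  intro K hK
  simp only [long24, List.mem_cons, List.not_mem_nil, or_false] at hK
  rcases hK with rfl | rfl | rfl | rfl
  · exact T24_11_99
  · exact T24_15_99
  · exact T24_21_99
  · exact T24_23_99

theorem T24_par : ∀ K ∈ long24, ∀ L ∈ long24, (T24 K).count L % 2 = if L = K then 1 else 0 := by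
  intro K hK
  simp only [long24, List.mem_cons, List.not_mem_nil, or_false] at hK
  rcases hK with rfl | rfl | rfl | rfl
  · exact T24_11_par
  · exact T24_15_par
  · exact T24_21_par
  · exact T24_23_par

/-- All irreducible complex characters of the Mathieu group `M₂₄` lie in a single 2-block: any two of them lie in the same block relative to every maximal ideal of the algebraic integers containing 2. -/
theorem result (M : Ideal Cfsg.AlgInt) (hM : Cfsg.IsPModular 2 M)
    (χ ψ : Cfsg.IrrCharacter ↥Cfsg.M24) : Cfsg.SameBlock M (χ : ↥Cfsg.M24 → ℂ) (ψ : ↥Cfsg.M24 → ℂ) := by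
  classical
  haveI : Fintype ↥Cfsg.M24 := Fintype.ofFinite _
  apply sameBlock_of hM
  · intro z hz
    have hz' : orderOf (z : Equiv.Perm GolayPt) = 2 := by rw [Subgroup.orderOf_coe]; exact hz
    rcases invol_fixed z.2 hz' with ⟨hO, _⟩ | ⟨hno, _⟩
    · have h1 : msk (Finset.univ.filter fun p => (z : Equiv.Perm GolayPt) p = p) ∈ octadL :=
        (mem_octads_iff _).1 hO
      rw [← kC24_map] at h1
      obtain ⟨m, hm, e⟩ := List.mem_map.1 h1
      apply locData24.hloc z hz (k := permOf m) (List.mem_map.2 ⟨m, hm, rfl⟩)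
      intro p hp
      rw [smul_base (validM_of_inM24 (kC24_spec hm).1), e, unm_msk] at hp
      exact (Finset.mem_filter.1 hp).2
    · exact hloc_2B z hz hno
  · exact dz_all_of_golay hM long24 small24 xc24 kC24 locData24 (fun m hm => kC24_spec hm)
      (fun L hL => ⟨(xc24_spec hL).1, permOf_mem_M24 (xc24_spec hL).1⟩) (fun g hg => clp24 hg)
      (by decide) (by decide) (by decide) T24 T24_eq T24_99 T24_par

end Cfsg.Agent.S5006
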