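import Cfsg.Statements.S5015
import Cfsg.Agent.Lib.Helper85.RankOne

set_option autoImplicit false
open Cfsg

namespace Cfsg.Agent.S5015

/-- Let a group Y act doubly transitively on a set Ω with at least three points, and suppose that the stabilizer of a point α contains a nilpotent subgroup A, normalized by that stabilizer, which acts regularly on the points other than α. Then for any y in Y moving α, the subgroups A and y A y⁻¹ are the unipotent subgroups of a rank one group, and the normal closure of A in Y (the subgroup generated by all conjugates of A) is generated by A and y A y⁻¹ alone. -/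
theorem result {Y Ω : Type*} [Group Y] [MulAction Y Ω]
    (h2 : MulAction.IsMultiplyPretransitive Y Ω 2) (hΩ : 3 ≤ ENat.card Ω) (α : Ω) (A : Subgroup Y)
    (hA : A ≤ MulAction.stabilizer Y α) (hAn : ∀ y ∈ MulAction.stabilizer Y α, Cfsg.conjBy A y = A)
    (hnil : Group.IsNilpotent A) (hreg : ∀ β γ : Ω, β ≠ α → γ ≠ α → ∃! a : Y, a ∈ A ∧ a • β = γ)
    (y : Y) (hy : y ∉ MulAction.stabilizer Y α) :
    Cfsg.IsRankOnePair A (Cfsg.conjBy A y) ∧ Subgroup.normalClosure (A : Set Y) = A ⊔ Cfsg.conjBy A y := by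
  open Cfsg.Agent.Lib.Helper85 in
  have hyα : y • α ≠ α := fun h => hy (MulAction.mem_stabilizer_iff.2 h)
  have hfixA : ∀ a ∈ A, a • α = α := fun a ha => MulAction.mem_stabilizer_iff.1 (hA ha)
  -- conjugates of A depend only on the image of α
  have fact1 : ∀ g g' : Y, g • α = g' • α → Cfsg.conjBy A g = Cfsg.conjBy A g' := by
    intro g g' hgg
    rw [conjBy_eq_conjBy_iff, ← conjBy_eq_self_iff]
    apply hAn
    rw [MulAction.mem_stabilizer_iff, mul_smul, hgg, inv_smul_smul]
  have hyinv : y⁻¹ • α ≠ α := by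
    intro h
    apply hyα
    rw [← h, smul_inv_smul, h]
  have hfixB : ∀ b ∈ Cfsg.conjBy A y, b • (y • α) = y • α := by
    intro b hb
    rw [mem_conjBy] at hb
    have := hfixA _ hb
    rw [mul_smul, mul_smul, inv_smul_eq_iff] at this
    exact this
  have fact2 : ∀ γ δ : Ω, γ ≠ y • α → δ ≠ y • α → ∃ b ∈ Cfsg.conjBy A y, b • γ = δ := by
    intro γ δ hγ hδ
    have h1 : y⁻¹ • γ ≠ α := fun h => hγ (by rw [← h, smul_inv_smul])
    have h2 : y⁻¹ • δ ≠ α := fun h => hδ (by rw [← h, smul_inv_smul])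
    obtain ⟨a, ⟨ha, hae⟩, -⟩ := hreg _ _ h1 h2
    refine ⟨y * a * y⁻¹, conj_mem_conjBy ha y, ?_⟩
    rw [mul_smul, mul_smul, hae, smul_inv_smul]
  have huniq : ∀ a ∈ A, ∀ γ : Ω, γ ≠ α → a • γ = γ → a = 1 := by
    intro a ha γ hγ hfix
    obtain ⟨a0, -, hu⟩ := hreg γ γ hγ hγ
    rw [hu a ⟨ha, hfix⟩, hu 1 ⟨one_mem _, one_smul _ _⟩]
  have hthird : ∃ γ : Ω, γ ≠ α ∧ γ ≠ y • α := by
    by_contra hcon
    push Not at hcon
    have hsub : (Set.univ : Set Ω) ⊆ {α, y • α} := by
      intro γ _
      by_cases h : γ = α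
      · left; exact h
      · right; exact hcon γ h
    have h1 := Set.encard_le_encard hsub
    rw [Set.encard_univ] at h1
    have h3 : (3 : ℕ∞) ≤ 2 := hΩ.trans (h1.trans (Set.encard_pair (Ne.symm hyα)).le)
    exact absurd h3 (by decide)
  refine ⟨⟨?_, hnil, ?_, ?_, ?_⟩, ?_⟩
  · intro hAB
    obtain ⟨γ, hγ1, hγ2⟩ := hthird
    obtain ⟨a, ⟨ha, hae⟩, -⟩ := hreg _ _ hyα hγ1
    rw [hAB] at ha
    exact hγ2 (by rw [← hae, hfixB a ha])
  · exact Group.nilpotent_of_mulEquiv
      (A.equivMapOfInjective (MulAut.conj y).toMonoidHom (MulAut.conj y).injective)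
  · intro a ha ha1
    have hγ1 : a⁻¹ • (y • α) ≠ α := by
      intro h
      apply hyα
      rw [inv_smul_eq_iff, hfixA a ha] at h
      exact h
    have hγ2 : a⁻¹ • (y • α) ≠ y • α := by
      intro h
      exact ha1 (inv_eq_one.1 (huniq a⁻¹ (inv_mem ha) _ hyα h))
    obtain ⟨b', hb', hbe⟩ := fact2 α _ (Ne.symm hyα) hγ2
    refine ⟨b'⁻¹, inv_mem hb', ?_, ?_⟩
    · intro h
      rw [inv_eq_one] at h
      rw [h, one_smul] at hbe
      exact hγ1 hbe.symm
    · rw [inv_inv, conjBy_conjBy]
      apply fact1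
      rw [hbe, mul_smul]
  · intro b hb hb1
    have hγ2 : b⁻¹ • α ≠ y • α := by
      intro h
      rw [inv_smul_eq_iff, hfixB b hb] at h
      exact hyα h.symm
    have hγ1 : b⁻¹ • α ≠ α := by
      intro h
      apply hb1
      have hb' := hb
      rw [mem_conjBy] at hb'
      have h1 : (y⁻¹ * b * y) • (y⁻¹ • α) = y⁻¹ • α := by
        rw [inv_smul_eq_iff] at h
        rw [mul_smul, smul_inv_smul, mul_smul, ← h]
      have h2 := huniq _ hb' _ hyinv h1
      have : b = y * (y⁻¹ * b * y) * y⁻¹ := by group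
      rw [this, h2]; group
    obtain ⟨a', ⟨ha', hae⟩, -⟩ := hreg _ _ hyα hγ1
    refine ⟨a'⁻¹, inv_mem ha', ?_, ?_⟩
    · intro h
      rw [inv_eq_one] at h
      rw [h, one_smul] at hae
      exact hγ2 hae.symm
    · rw [inv_inv, conjBy_conjBy]
      apply fact1
      rw [mul_smul, hae]
  · apply le_antisymm
    · rw [Subgroup.normalClosure, Subgroup.closure_le]
      intro x hx
      rw [Group.mem_conjugatesOfSet_iff] at hx
      obtain ⟨a, ha, hconj⟩ := hx
      rw [isConj_iff] at hconj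
      obtain ⟨g, rfl⟩ := hconj
      have hmem : g * a * g⁻¹ ∈ Cfsg.conjBy A g := conj_mem_conjBy ha g
      by_cases hg : g • α = α
      · have : Cfsg.conjBy A g = A := hAn g (MulAction.mem_stabilizer_iff.2 hg)
        rw [this] at hmem
        exact Subgroup.mem_sup_left hmem
      · obtain ⟨a', ⟨ha', hae⟩, -⟩ := hreg _ _ hyα hg
        have : Cfsg.conjBy A g = Cfsg.conjBy (Cfsg.conjBy A y) a' := by
          rw [conjBy_conjBy]
          apply fact1
          rw [mul_smul, hae]
        rw [this] at hmem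
        exact conjBy_le_of_mem le_sup_right (Subgroup.mem_sup_left ha') hmem
    · refine sup_le Subgroup.le_normalClosure ?_
      intro x hx
      rw [mem_conjBy] at hx
      have h1 : y⁻¹ * x * y ∈ Subgroup.normalClosure (A : Set Y) := Subgroup.le_normalClosure hx
      have h2 := (Subgroup.normalClosure_normal (s := (A : Set Y))).conj_mem _ h1 y
      have h3 : y * (y⁻¹ * x * y) * y⁻¹ = x := by group
      rwa [h3] at h2

end Cfsg.Agent.S5015
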