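import Cfsg.Statements.S5026
import Cfsg.Agent.Lib.Helper85.RootBasic

set_option autoImplicit false
open Cfsg

namespace Cfsg.Agent.S5026

/-- Let S be a degenerate set of abstract root subgroups of G (a set of abstract transvection groups) and let a, b be commuting non-identity elements of members of S with a b ≠ 1. Then the members of S centralizing a b are exactly those centralizing both a and b. -/
theorem result {G : Type*} [Group G] {S : Set (Subgroup G)} (hS : Cfsg.IsRootSubgroupSet S) (hdeg : Cfsg.IsDegenerateRootSet S)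
    {a b : G} (ha : a ∈ Cfsg.rootElements S) (hb : b ∈ Cfsg.rootElements S) (hab : a * b = b * a) (hab1 : a * b ≠ 1) :
    Cfsg.centralizingMembers S (Subgroup.zpowers (a * b)) =
      Cfsg.centralizingMembers S (Subgroup.zpowers a) ∩ Cfsg.centralizingMembers S (Subgroup.zpowers b) := by
  open Cfsg.Agent.Lib.Helper85 in
  ext C
  simp only [Cfsg.centralizingMembers, Set.mem_inter_iff, Set.mem_ofPred_eq,
    Root.le_centralizer_zpowers_iff]
  constructor
  · rintro ⟨hC, hcen⟩
    have h1 := Root.centralizing_product hS hdeg ha hb hab hab1 hC hcen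
    refine ⟨⟨hC, h1⟩, hC, ?_⟩
    intro c hc
    have e1 := hcen c hc
    have e2 := h1 c hc
    have : c * b = a⁻¹ * (c * (a * b)) := by
      rw [← mul_assoc c a b, e2]; group
    rw [this, e1]; group
  · rintro ⟨⟨hC, h1⟩, -, h2⟩
    refine ⟨hC, fun c hc => ?_⟩
    rw [← mul_assoc, h1 c hc, mul_assoc, h2 c hc, mul_assoc]

end Cfsg.Agent.S5026
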