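import Cfsg.Statements.S5027
import Cfsg.Agent.Lib.Helper85.RootBasic

set_option autoImplicit false
open Cfsg

namespace Cfsg.Agent.S5027

/-- Let S be a set of abstract root subgroups of G such that every member of S has a rank one partner in S (the graph of rank one pairs on S has no isolated vertex). Then the second centre of G equals its centre. -/
theorem result {G : Type*} [Group G] {S : Set (Subgroup G)} (hS : Cfsg.IsRootSubgroupSet S)
    (hF : ∀ A ∈ S, ¬ Cfsg.IsIsolatedIn (Cfsg.FAdj S) S A) : Subgroup.upperCentralSeries G 2 = Subgroup.center G := by
  open Cfsg.Agent.Lib.Helper85 in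
  exact Root.upperCentralSeries_two hS (fun A hA => Root.exists_partner hA (hF A hA))

end Cfsg.Agent.S5027
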