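import Cfsg.Statements.S5032
import Cfsg.Agent.Lib.Helper85.RootGraph

set_option autoImplicit false
open Cfsg

namespace Cfsg.Agent.S5032

/-- Let S be a set of abstract root subgroups of G with more than one member. Then the graph of rank one pairs on S is connected if and only if S is a single conjugacy class of G and some member of S has a rank one partner in S. -/
theorem result {G : Type*} [Group G] {S : Set (Subgroup G)} (hS : Cfsg.IsRootSubgroupSet S) (h2 : ∃ A ∈ S, ∃ B ∈ S, A ≠ B) :
    Cfsg.IsConnectedFamily (Cfsg.FAdj S) S ↔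
      (Cfsg.IsConjClassOfSubgroups S ∧ ∃ A ∈ S, ¬ Cfsg.IsIsolatedIn (Cfsg.FAdj S) S A) := by
  open Cfsg.Agent.Lib.Helper85 in
  constructor
  · intro hconn
    obtain ⟨A, hA, B, hB, hAB⟩ := h2
    refine ⟨Root.conjClass_of_connected ⟨A, hA⟩ hconn, A, hA, ?_⟩
    obtain ⟨C, hC⟩ := Root.exists_adj_of_reach_ne (hconn A hA B hB) (Ne.symm hAB)
    exact Root.not_isolated hC.1 hC.2.1 hC.2.2
  · rintro ⟨hconj, A, hA, hiso⟩
    obtain ⟨B, hB, hAB⟩ := Root.exists_partner hA hiso
    exact Root.connected_of_conjClass hS hconj (Root.partner_of_conjClass hS hconj hA hB hAB)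

end Cfsg.Agent.S5032
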