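import Cfsg.Statements.S5034
import Cfsg.Agent.Lib.Helper85.RootSpecial

set_option autoImplicit false
open Cfsg

namespace Cfsg.Agent.S5034

/-- Let S be a non-degenerate class of abstract root subgroups of G, A ∈ S and B a rank one partner of A. Then some line partner C of A has ⁅B, C⁆ ∈ S, and the rank one pair A, B is special. -/
theorem result {G : Type*} [Group G] {S : Set (Subgroup G)} (hS : Cfsg.IsRootSubgroupClass S) (hnd : Cfsg.IsNondegenerateRootSet S)
    {A B : Subgroup G} (hA : A ∈ S) (hB : B ∈ Cfsg.rankOnePartners S A) :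
    (∃ C ∈ Cfsg.linePartners S A, C ∈ Cfsg.commutatorPartners S B) ∧ Cfsg.IsSpecialRankOnePair A B := by
  open Cfsg.Agent.Lib.Helper85 in
  obtain ⟨A₀, hA₀, B₀, hB₀, h₀⟩ := hnd.2.1
  have hF := Root.partner_of_conjClass hS.1 hS.2 hA₀ hB₀ h₀
  obtain ⟨E, -, hE⟩ := Root.exists_commutatorCase hS.1 hS.2 hnd.2.2 hA
  obtain ⟨P, hP, hPB⟩ := Root.exists_line_commutator hS.1 hF hA hB.1 hB.2 hE
  refine ⟨⟨P, hP, hP.1.1, ?_⟩, Root.special_of_linePartner hS.1 hF hA hB.1 hB.2 hP hPB⟩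
  rw [Subgroup.commutator_comm]
  exact hPB.1

end Cfsg.Agent.S5034
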