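import Cfsg.Statements.S5035
import Cfsg.Agent.Lib.Helper85.RootMap

set_option autoImplicit false
open Cfsg

namespace Cfsg.Agent.S5035

/-- Let S be a set of abstract root subgroups of G whose graph of rank one pairs is connected, and f a homomorphism from G onto a group H. Then either the images of the members of S form a set of abstract root subgroups of H whose graph of rank one pairs is again connected, or H equals the image of a member of S. -/
theorem result {G H : Type*} [Group G] [Group H] {S : Set (Subgroup G)} (hS : Cfsg.IsRootSubgroupSet S)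
    (hc : Cfsg.IsConnectedFamily (Cfsg.FAdj S) S) (f : G →* H) (hf : Function.Surjective f) :
    (Cfsg.IsRootSubgroupSet ((fun A : Subgroup G => A.map f) '' S) ∧
      Cfsg.IsConnectedFamily (Cfsg.FAdj ((fun A : Subgroup G => A.map f) '' S)) ((fun A : Subgroup G => A.map f) '' S)) ∨
    ∃ A ∈ S, A.map f = ⊤ := by
  open Cfsg.Agent.Lib.Helper85 in
  by_cases hbot : ∃ A ∈ S, A.map f = ⊥
  · right
    obtain ⟨A, hA, hAf⟩ := hbot
    have hall : ∀ B ∈ S, B.map f = ⊥ := by
      intro B hB
      have hr := hc A hA B hB
      induction hr with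
      | refl => exact hAf
      | @tail b c _ hadj ih =>
        have ihb := ih hadj.1
        obtain ⟨a, ha, ha1⟩ := RankOne.exists_ne_one_left hadj.2.2
        obtain ⟨c', hc', -, hbc⟩ := hadj.2.2.cond_left a ha ha1
        have h1 := congrArg (Subgroup.map f) hbc
        rw [map_conjBy, map_conjBy, ihb, conjBy_bot] at h1
        have h2 := congrArg (fun K => conjBy K (f a⁻¹)⁻¹) h1
        simp only [conjBy_conjBy, inv_mul_cancel, conjBy_one, conjBy_bot] at h2
        exact h2.symm
    refine ⟨A, hA, ?_⟩
    have := congrArg (Subgroup.map f) hS.generates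
    rw [Subgroup.map_iSup, Subgroup.map_top_of_surjective f hf] at this
    rw [hAf, ← this]
    symm
    rw [eq_bot_iff]
    refine iSup_le fun B => ?_
    rw [Subgroup.map_iSup]
    refine iSup_le fun hB => ?_
    rw [hall B hB]
  · left
    push Not at hbot
    refine ⟨Root.isRootSubgroupSet_map hS f hf hbot, ?_⟩
    rintro _ ⟨A, hA, rfl⟩ _ ⟨B, hB, rfl⟩
    have hr := hc A hA B hB
    induction hr with
    | refl => exact Relation.ReflTransGen.refl
    | @tail b c _ hadj ih =>
      have ihb := ih hadj.1
      by_cases he : b.map f = c.map f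
      · change Relation.ReflTransGen _ (A.map f) (c.map f)
        rw [← he]; exact ihb
      · exact Relation.ReflTransGen.tail ihb
          ⟨⟨b, hadj.1, rfl⟩, ⟨c, hadj.2.1, rfl⟩, RankOne.map f hadj.2.2 he⟩

end Cfsg.Agent.S5035
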