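import Cfsg.Statements.S5036
import Cfsg.Agent.Lib.Helper85.RootOpp

set_option autoImplicit false
open Cfsg

namespace Cfsg.Agent.S5036

/-- Let S be a set of abstract root subgroups of G, A, B ∈ S with C = ⁅A, B⁆ ∈ S, and D ∈ S with ⁅D, C⁆ = A. Put X = ⟨B, D⟩ and N = AC. Then B, D form a rank one pair; the conjugates of A under X are the conjugates of C under X, namely the conjugates of A by elements of B together with C, equally the conjugates of C by elements of D together with A, and they partition N; and the centralizer of N in X is central in X. -/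
theorem result {G : Type*} [Group G] {S : Set (Subgroup G)} (hS : Cfsg.IsRootSubgroupSet S)
    {A B D : Subgroup G} (hA : A ∈ S) (hB : B ∈ S) (hC : ⁅A, B⁆ ∈ S) (hD : D ∈ S) (hDC : ⁅D, ⁅A, B⁆⁆ = A) :
    Cfsg.IsRankOnePair B D ∧
    {E | ∃ x ∈ B ⊔ D, E = Cfsg.conjBy A x} = {E | ∃ x ∈ B ⊔ D, E = Cfsg.conjBy ⁅A, B⁆ x} ∧
    {E | ∃ x ∈ B ⊔ D, E = Cfsg.conjBy A x} = (fun b : G => Cfsg.conjBy A b) '' (B : Set G) ∪ {⁅A, B⁆} ∧
    {E | ∃ x ∈ B ⊔ D, E = Cfsg.conjBy A x} = (fun d : G => Cfsg.conjBy ⁅A, B⁆ d) '' (D : Set G) ∪ {A} ∧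
    Cfsg.IsSubgroupPartition (A ⊔ ⁅A, B⁆) {E | ∃ x ∈ B ⊔ D, E = Cfsg.conjBy A x} ∧
    ∀ x ∈ (B ⊔ D) ⊓ Subgroup.centralizer ((A ⊔ ⁅A, B⁆ : Subgroup G) : Set G), ∀ y ∈ B ⊔ D, x * y = y * x := by
  open Cfsg.Agent.Lib.Helper85 in
  have hc1 := Root.commutatorCase_of_mem hS hA hB hC
  have hc2 : Cfsg.RootCommutatorCase S D ⁅A, B⁆ :=
    Root.commutatorCase_of_mem hS hD hC (by rw [hDC]; exact hA)
  obtain ⟨z, hz, hzA⟩ := Root.opp_exists hS hA hB hD hc1 hc2 hDC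
  have hzC : ⁅A, B⁆ = Cfsg.conjBy A z⁻¹ := conjBy_eq_iff.1 hzA
  refine ⟨Root.opp_rankOne hS hA hB hD hc1 hc2 hDC, ?_, ?_, ?_,
    Root.opp_partition hS hA hB hD hc1 hc2 hDC, Root.opp_centralizer hS hA hB hD hc1 hc2 hDC⟩
  · ext E
    constructor
    · rintro ⟨x, hx, rfl⟩
      exact ⟨x * z, mul_mem hx hz, by rw [← conjBy_conjBy, hzA]⟩
    · rintro ⟨x, hx, rfl⟩
      exact ⟨x * z⁻¹, mul_mem hx (inv_mem hz), by rw [← conjBy_conjBy, ← hzC]⟩
  · ext E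
    constructor
    · rintro ⟨x, hx, rfl⟩
      rcases Root.opp_orbit_B hS hA hB hD hc1 hc2 hDC hx with h | ⟨b, hb, h⟩
      · right; exact h
      · left; exact ⟨b, hb, h.symm⟩
    · rintro (⟨b, hb, rfl⟩ | h)
      · exact ⟨b, Subgroup.mem_sup_left hb, rfl⟩
      · rw [Set.mem_singleton_iff] at h
        exact ⟨z⁻¹, inv_mem hz, h.trans hzC⟩
  · ext E
    constructor
    · rintro ⟨x, hx, rfl⟩
      rcases Root.opp_orbit_D hS hA hB hD hc1 hc2 hDC hx with h | ⟨d, hd, h⟩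
      · right; exact h
      · left; exact ⟨d, hd, h.symm⟩
    · rintro (⟨d, hd, rfl⟩ | h)
      · refine ⟨d * z⁻¹, mul_mem (Subgroup.mem_sup_right hd) (inv_mem hz), ?_⟩
        change Cfsg.conjBy ⁅A, B⁆ d = _
        rw [← conjBy_conjBy, ← hzC]
      · rw [Set.mem_singleton_iff] at h
        exact ⟨1, one_mem _, by rw [h, conjBy_one]⟩

end Cfsg.Agent.S5036
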