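import Cfsg.Statements.S5039
import Cfsg.Agent.Lib.Helper85.RootClassSpecial

set_option autoImplicit false
universe u
open Cfsg

namespace Cfsg.Agent.S5039

/-- Let S be a class of abstract root subgroups of G containing two different commuting members. Suppose that, in case S is degenerate and every element of every member of S has order at most 3, the following holds: for every A ∈ S and every rank one partner B of A there are subgroups A₀ ≤ A and B₀ ≤ B generating an image of SL₂(k) with central kernel, k a field with at least four elements, A₀ and B₀ being the images of the unitriangular subgroups. Then every rank one pair A, B in S is special. -/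
theorem result {G : Type u} [Group G] {S : Set (Subgroup G)} (hS : Cfsg.IsRootSubgroupClass S)
    (hcomm : ∃ A ∈ S, ∃ C ∈ S, A ≠ C ∧ ⁅A, C⁆ = ⊥)
    (hH : Cfsg.IsDegenerateRootSet S → (∀ A ∈ S, ∀ a ∈ A, 0 < orderOf a ∧ orderOf a ≤ 3) →
      ∀ A ∈ S, ∀ B ∈ Cfsg.rankOnePartners S A, ∃ A₀ B₀ : Subgroup G, A₀ ≤ A ∧ B₀ ≤ B ∧
        ∃ (k : Type u) (_ : Field k), 3 < ENat.card k ∧ Cfsg.IsPSL2PairOver k A₀ B₀)
    {A B : Subgroup G} (hA : A ∈ S) (hB : B ∈ Cfsg.rankOnePartners S A) : Cfsg.IsSpecialRankOnePair A B := by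
  open Cfsg.Agent.Lib.Helper85 in
  have hF := Root.partner_of_conjClass hS.1 hS.2 hA hB.1 hB.2
  by_cases hdeg : Cfsg.IsDegenerateRootSet S
  · by_cases htr : Triple A
    · exact special_of_triple hS.1 hS.2 hF hdeg hcomm hA hB.1 hB.2 htr
    · have hall : ∀ X ∈ S, ¬ Triple X := by
        intro X hX
        obtain ⟨g, rfl⟩ := hS.2.2 A hA X hX
        exact not_triple_conj htr g
      obtain ⟨A₀, B₀, hA₀, hB₀, k, _, hk, hp⟩ :=
        hH hdeg (fun X hX a ha => orderOf_of_not_triple (hall X hX) ha) A hA B hB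
      obtain ⟨c1, c2⟩ := psl2_card hk hp
      have e1 := eq_of_card_of_not_triple c1 hA₀ htr
      have e2 := eq_of_card_of_not_triple c2 hB₀ (hall B hB.1)
      rw [e1, e2] at hp
      exact special_of_psl2 hB.2 hp
  · unfold Cfsg.IsDegenerateRootSet at hdeg
    push Not at hdeg
    obtain ⟨A', hA', B', hB', hc⟩ := hdeg
    obtain ⟨E, -, hE⟩ := Root.exists_commutatorCase hS.1 hS.2 ⟨A', hA', B', hB', hc⟩ hA
    obtain ⟨P, hP, hPB⟩ := Root.exists_line_commutator hS.1 hF hA hB.1 hB.2 hE
    exact Root.special_of_linePartner hS.1 hF hA hB.1 hB.2 hP hPB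

end Cfsg.Agent.S5039
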