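import Cfsg.Statements.S5042
import Cfsg.Agent.Lib.Helper85.RootGen

set_option autoImplicit false
open Cfsg

namespace Cfsg.Agent.S5042

/-- Let S be a non-degenerate class of abstract root subgroups of G, A ∈ S and B a rank one partner of A. Then G is generated by the line partners of A together with B. -/
theorem result {G : Type*} [Group G] {S : Set (Subgroup G)} (hS : Cfsg.IsRootSubgroupClass S) (hnd : Cfsg.IsNondegenerateRootSet S)
    {A B : Subgroup G} (hA : A ∈ S) (hB : B ∈ Cfsg.rankOnePartners S A) :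
    (⨆ C ∈ Cfsg.linePartners S A, C) ⊔ B = ⊤ := by
  open Cfsg.Agent.Lib.Helper85 in
  obtain ⟨A₀, hA₀, B₀, hB₀, h₀⟩ := hnd.2.1
  have hF := Root.partner_of_conjClass hS.1 hS.2 hA₀ hB₀ h₀
  have hE := Root.E_connected hS.1 hS.2 hF
    (fun A hA => Root.exists_commutatorCase hS.1 hS.2 hnd.2.2 hA)
  exact Root.gen_by_linePartners hS.1 hF hE hA hB.1 hB.2

end Cfsg.Agent.S5042
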