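import Cfsg.Statements.S5045
import Cfsg.Agent.Lib.Helper85.RootInv

set_option autoImplicit false
open Cfsg

namespace Cfsg.Agent.S5045

/-- Let G be a finite group generated by a set D of root involutions, and W the set of members of D whose product with every other member of D has even order or is trivial (the isolated vertices of the odd-order-product graph on D). Then W is conjugation-invariant and generates a normal 2-subgroup of G meeting D in exactly W; the commutator of two members of D lying in different connected components of that graph, each with more than one member, lies in the subgroup generated by W; and for a in such a component, every member of D commuting with a, different from a and with product with a in D, lies in that component or in W. -/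
theorem result {G : Type*} [Group G] [Finite G] {D : Set G} (hD : Cfsg.IsRootInvolutionSet D) :
    (∀ w ∈ {w | Cfsg.IsIsolatedElem (Cfsg.OddAdj D) D w}, ∀ g : G, g * w * g⁻¹ ∈ {w | Cfsg.IsIsolatedElem (Cfsg.OddAdj D) D w}) ∧
    (Subgroup.closure {w | Cfsg.IsIsolatedElem (Cfsg.OddAdj D) D w}).Normal ∧
    IsPGroup 2 ↥(Subgroup.closure {w | Cfsg.IsIsolatedElem (Cfsg.OddAdj D) D w}) ∧
    (Subgroup.closure {w | Cfsg.IsIsolatedElem (Cfsg.OddAdj D) D w} : Set G) ∩ D = {w | Cfsg.IsIsolatedElem (Cfsg.OddAdj D) D w} ∧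
    (∀ a ∈ D, ∀ b ∈ D, (∃ a' ∈ Cfsg.elemComponentOf (Cfsg.OddAdj D) D a, a' ≠ a) →
      (∃ b' ∈ Cfsg.elemComponentOf (Cfsg.OddAdj D) D b, b' ≠ b) →
      Cfsg.elemComponentOf (Cfsg.OddAdj D) D a ≠ Cfsg.elemComponentOf (Cfsg.OddAdj D) D b →
        a * b * a⁻¹ * b⁻¹ ∈ Subgroup.closure {w | Cfsg.IsIsolatedElem (Cfsg.OddAdj D) D w}) ∧
    (∀ a ∈ D, (∃ a' ∈ Cfsg.elemComponentOf (Cfsg.OddAdj D) D a, a' ≠ a) →
      Cfsg.productPartners D a ⊆ Cfsg.elemComponentOf (Cfsg.OddAdj D) D a ∪ {w | Cfsg.IsIsolatedElem (Cfsg.OddAdj D) D w}) := by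
  open Cfsg.Agent.Lib.Helper85 in
  have hconj : ∀ w ∈ {w | Cfsg.IsIsolatedElem (Cfsg.OddAdj D) D w}, ∀ g : G,
      g * w * g⁻¹ ∈ {w | Cfsg.IsIsolatedElem (Cfsg.OddAdj D) D w} :=
    fun w hw g => isolated_conj hD hw g
  have hle : Subgroup.closure {w | Cfsg.IsIsolatedElem (Cfsg.OddAdj D) D w} ≤ Cfsg.pCore 2 G := by
    rw [Subgroup.closure_le]
    intro w hw
    exact ri_mem_pCore_of_isolated hD hw
  refine ⟨hconj, closure_normal_of_conj hconj,
    (Cfsg.Agent.Lib.Helper1.pCore_isPGroup 2 G).to_le hle, ?_, ?_, ?_⟩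
  · ext d
    constructor
    · rintro ⟨h1, h2⟩
      exact ri_isolated_of_mem_pCore hD h2 (hle h1)
    · intro h
      exact ⟨Subgroup.subset_closure h, h.1⟩
  · intro a ha b hb ha' hb' hne
    exact ri_comm_mem_closure_isolated hD ha hb ha' hb' hne
  · intro a ha ha' e he
    exact ri_partner_mem hD ha ha' he

end Cfsg.Agent.S5045
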