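import Cfsg.Statements.S5048
import Cfsg.Agent.Lib.Helper85.RootInv2

set_option autoImplicit false
open Cfsg

namespace Cfsg.Agent.S5048

/-- Let G be a finite group generated by a set D of root involutions whose odd-order-product graph is connected, with some product of two different commuting members of D again in D. Then the largest solvable normal subgroup of G is the preimage of the centre of G/O₂(G), and the quotient of G by it is a simple group. -/
theorem result {G : Type*} [Group G] [Finite G] {D : Set G} (hD : Cfsg.IsRootInvolutionSet D)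
    (hc : Cfsg.IsConnectedSet (Cfsg.OddAdj D) D) (hDD : (D ∩ Cfsg.commutingProducts D).Nonempty) :
    Cfsg.solvableRadical G = Cfsg.twoZCore G ∧ IsSimpleGroup (G ⧸ Cfsg.twoZCore G) := by
  open Cfsg.Agent.Lib.Helper85 in
  have hdich := ri_normal_dichotomy hD hc hDD
  obtain ⟨x, hx, a, ha, b, hb, hab, hab1, rfl⟩ := id hDD
  have hne : Cfsg.twoZCore G ≠ ⊤ :=
    fun h => ri_not_mem_twoZCore hD hc hDD ha (by rw [h]; trivial)
  have hsimple : IsSimpleGroup (G ⧸ Cfsg.twoZCore G) :=
    isSimpleGroup_quotient_of_dichotomy hne hdich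
  refine ⟨?_, hsimple⟩
  obtain ⟨hSn, hSs⟩ := solvableRadical_spec G
  apply le_antisymm
  · rcases hdich _ hSn with h | h
    · exact h
    · exfalso
      have hGs : Group.IsSolvable G := by
        rw [h] at hSs
        exact Group.isSolvable_of_surjective (f := (Subgroup.topEquiv (G := G)).toMonoidHom)
          (Subgroup.topEquiv (G := G)).surjective
      have hq : Group.IsSolvable (G ⧸ Cfsg.twoZCore G) :=
        Group.isSolvable_of_surjective (QuotientGroup.mk'_surjective (Cfsg.twoZCore G))
      have hcomm := IsSimpleGroup.comm_iff_isSolvable.mpr hq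
      obtain ⟨g, hg⟩ := ri_conj_of_rtg hD (hc a ha (a * b) hx)
      have h1 : ((a * b : G) : G ⧸ Cfsg.twoZCore G) = (a : G ⧸ Cfsg.twoZCore G) := by
        rw [hg, QuotientGroup.mk_mul, QuotientGroup.mk_mul, hcomm (g : G ⧸ Cfsg.twoZCore G),
          mul_assoc, ← QuotientGroup.mk_mul, mul_inv_cancel, QuotientGroup.mk_one, mul_one]
      rw [QuotientGroup.mk_mul] at h1
      have h2 : (b : G ⧸ Cfsg.twoZCore G) = 1 := by
        simpa using h1
      exact ri_not_mem_twoZCore hD hc hDD hb ((QuotientGroup.eq_one_iff b).mp h2)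
  · exact le_sSup ⟨inferInstance, twoZCore_isSolvable G⟩

end Cfsg.Agent.S5048
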