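import Cfsg.Statements.S5049
import Cfsg.Agent.Lib.Helper85.RootInv

set_option autoImplicit false
open Cfsg

namespace Cfsg.Agent.S5049

/-- Let G be a finite group generated by a set D of odd transpositions (root involutions with no product of order 4), Q = O₂(G), and for a ∈ D let Q_a be the commutator subgroup of Q with a. Then every member of D commuting with a centralizes Q_a; and for b ∈ D with ab of odd order greater than 1, the centralizer of ab in Q is the intersection of the centralizers of a and b in Q. -/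
theorem result {G : Type*} [Group G] [Finite G] {D : Set G} (hD : Cfsg.IsOddTranspositionSet D) {a : G} (ha : a ∈ D) :
    (∀ e ∈ Cfsg.commutingMembers D a, ∀ q ∈ ⁅Cfsg.pCore 2 G, Subgroup.zpowers a⁆, e * q = q * e) ∧
    (∀ b ∈ Cfsg.oddPartners D a,
      Cfsg.pCore 2 G ⊓ Subgroup.centralizer {a * b} = Cfsg.pCore 2 G ⊓ Subgroup.centralizer {a} ⊓ Subgroup.centralizer {b}) := by
  open Cfsg.Agent.Lib.Helper85 in
  have hR := hD.1
  have hn := Cfsg.Agent.Lib.Helper1.pCore_normal 2 G
  have haa := ri_mul_self hR ha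
  have hai := ri_inv hR ha
  -- key: members of `D` whose product lies in `Q` commute
  have keyQ : ∀ x ∈ D, ∀ y ∈ D, (x * y) ^ 2 ∈ Cfsg.pCore 2 G → x * y = y * x := by
    intro x hx y hy hxy
    rcases hR.pair x hx y hy with h | h | ⟨h, _⟩
    · exact h
    · have h2 : Odd (orderOf ((x * y) ^ 2)) := by
        rw [Nat.Coprime.orderOf_pow (Nat.coprime_two_right.mpr h)]
        exact h
      have h3 := eq_one_of_odd_of_mem_pCore hxy h2
      have h4 : orderOf (x * y) ∣ 2 := orderOf_dvd_of_pow_eq_one h3
      have h5 : orderOf (x * y) = 1 :=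
        Nat.Coprime.eq_one_of_dvd (Nat.coprime_two_right.mpr h) h4
      have h6 := ri_eq_of_mul_eq_one hR hy (orderOf_eq_one_iff.mp h5)
      rw [h6]
    · exact absurd h (hD.2 x hx y hy)
  constructor
  · rintro e ⟨he, hea⟩ q hq
    have hee := ri_mul_self hR he
    have hle : ⁅Cfsg.pCore 2 G, Subgroup.zpowers a⁆ ≤ Subgroup.centralizer {e} := by
      rw [Subgroup.commutator_le]
      intro u hu x hx
      obtain ⟨k, rfl⟩ := Subgroup.mem_zpowers_iff.mp hx
      have hc : u * a * u⁻¹ ∈ D := hR.conj_mem a ha u
      have h1 : e * (u * a * u⁻¹) = (u * a * u⁻¹) * e := by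
        apply keyQ e he _ hc
        have e1 : (e * (u * a * u⁻¹)) ^ 2
            = ((e * a) * (e * a)) * ((e * a)⁻¹ * (a⁻¹ * u * a⁻¹⁻¹ * u⁻¹) * (e * a)⁻¹⁻¹)
              * (a⁻¹ * u * a⁻¹⁻¹ * u⁻¹) := by
          rw [sq]; group
        have e2 : (e * a) * (e * a) = 1 := by
          calc (e * a) * (e * a) = e * a * (a * e) := by rw [hea]
            _ = e * (a * a) * e := by group
            _ = 1 := by rw [haa, mul_one, hee]
        rw [e1, e2, one_mul]
        have m1 : a⁻¹ * u * a⁻¹⁻¹ * u⁻¹ ∈ Cfsg.pCore 2 G :=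
          mul_mem (hn.conj_mem u hu a⁻¹) (inv_mem hu)
        exact mul_mem (hn.conj_mem _ m1 _) m1
      rw [Subgroup.mem_centralizer_singleton_iff]
      have c1 : Commute e (u * a * u⁻¹) := h1
      have c2 : Commute e a := hea
      have c3 : Commute e (u * a ^ k * u⁻¹) := by
        rw [← conj_zpow]; exact c1.zpow_right k
      have c4 : Commute e (u * a ^ k * u⁻¹ * (a ^ k)⁻¹) := c3.mul_right (c2.zpow_right k).inv_right
      exact c4.symm.eq
    have := hle hq
    rw [Subgroup.mem_centralizer_singleton_iff] at this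
    exact this.symm
  · rintro b ⟨hb, hba, hodd⟩
    ext q
    simp only [Subgroup.mem_inf, Subgroup.mem_centralizer_singleton_iff]
    constructor
    · rintro ⟨hq, hqr⟩
      have hc : q * a * q⁻¹ ∈ D := hR.conj_mem a ha q
      have hcc := ri_mul_self hR hc
      have hac : a * (q * a * q⁻¹) = (q * a * q⁻¹) * a := by
        apply keyQ a ha _ hc
        apply pow_mem
        have : a * (q * a * q⁻¹) = (a * q * a⁻¹) * q⁻¹ := by rw [hai]; group
        rw [this]
        exact mul_mem (hn.conj_mem q hq a) (inv_mem hq)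
      -- z = a * c
      have hzz : (a * (q * a * q⁻¹)) * (a * (q * a * q⁻¹)) = 1 := by
        have := ri_sq_of_comm hR ha hc hac
        rwa [sq] at this
      have hbb := ri_mul_self hR hb
      have hbi := ri_inv hR hb
      have hinv : a * (a * b) * a⁻¹ = (a * b)⁻¹ := by
        rw [mul_inv_rev, hai, hbi]
        calc a * (a * b) * a = (a * a) * b * a := by group
          _ = b * a := by rw [haa, one_mul]
      have hinv' : a * (a * b)⁻¹ * a⁻¹ = a * b := by
        rw [← hinv]; rw [hai]
        calc a * (a * (a * b) * a) * a = (a * a) * (a * b) * (a * a) := by group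
          _ = a * b := by rw [haa, one_mul, mul_one]
      have hqr' : q * (a * b) * q⁻¹ = a * b := by rw [hqr]; group
      have hqr'' : q⁻¹ * (a * b) * q = a * b := by
        calc q⁻¹ * (a * b) * q = q⁻¹ * ((a * b) * q) := by group
          _ = q⁻¹ * (q * (a * b)) := by rw [hqr]
          _ = a * b := by group
      have hcr : (q * a * q⁻¹) * (a * b) * (q * a * q⁻¹)⁻¹ = (a * b)⁻¹ := by
        calc (q * a * q⁻¹) * (a * b) * (q * a * q⁻¹)⁻¹
            = q * (a * (q⁻¹ * (a * b) * q) * a⁻¹) * q⁻¹ := by group
          _ = q * (a * b)⁻¹ * q⁻¹ := by rw [hqr'', hinv]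
          _ = (q * (a * b) * q⁻¹)⁻¹ := by group
          _ = (a * b)⁻¹ := by rw [hqr']
      have hzr : Commute (a * (q * a * q⁻¹)) (a * b) := by
        show a * (q * a * q⁻¹) * (a * b) = a * b * (a * (q * a * q⁻¹))
        calc a * (q * a * q⁻¹) * (a * b)
            = a * ((q * a * q⁻¹) * (a * b) * (q * a * q⁻¹)⁻¹) * a⁻¹ * (a * (q * a * q⁻¹)) := by
              group
          _ = a * b * (a * (q * a * q⁻¹)) := by rw [hcr, hinv']
      have hz1 : a * (q * a * q⁻¹) = 1 := by
        by_contra hz
        have hz2 : orderOf (a * (q * a * q⁻¹)) = 2 :=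
          Cfsg.Agent.Lib.Helper5.order_two_of_mul_self hzz hz
        have hord : orderOf (a * (q * a * q⁻¹) * (a * b)) = 2 * orderOf (a * b) := by
          rw [hzr.orderOf_mul_eq_mul_orderOf_of_coprime, hz2]
          rw [hz2]
          exact Nat.coprime_two_left.mpr hodd
        have e3 : (q * a * q⁻¹) * b = a * (q * a * q⁻¹) * (a * b) := by
          rw [hac]
          calc (q * a * q⁻¹) * b = (q * a * q⁻¹) * (a * a) * b := by rw [haa, mul_one]
            _ = _ := by group
        have h7 := ri_no_twice_odd hR hc hb hodd (by rw [e3]; exact hord)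
        exact hba (ri_eq_of_mul_eq_one hR hb (orderOf_eq_one_iff.mp h7)).symm
      have hqa : q * a = a * q := by
        have h8 : q * a * q⁻¹ = a := (ri_eq_of_mul_eq_one hR hc hz1).symm
        calc q * a = (q * a * q⁻¹) * q := by group
          _ = a * q := by rw [h8]
      refine ⟨⟨hq, hqa⟩, ?_⟩
      calc q * b = q * ((a * a) * b) := by rw [haa, one_mul]
        _ = (q * a) * (a * b) := by group
        _ = a * (q * (a * b)) := by rw [hqa]; group
        _ = a * ((a * b) * q) := by rw [hqr]
        _ = (a * a) * b * q := by group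
        _ = b * q := by rw [haa, one_mul]
    · rintro ⟨⟨hq, hqa⟩, hqb⟩
      refine ⟨hq, ?_⟩
      calc q * (a * b) = (q * a) * b := by group
        _ = a * (q * b) := by rw [hqa]; group
        _ = a * b * q := by rw [hqb]; group

end Cfsg.Agent.S5049
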