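import Cfsg.Statements.S5057


set_option autoImplicit false
open Cfsg

namespace Cfsg.Agent.S5057

abbrev P6 := Equiv.Perm (Fin 6)
abbrev A6 := ↥(alternatingGroup (Fin 6))

def inv (σ : P6) : Prop := σ ≠ 1 ∧ σ * σ = 1 ∧ Equiv.Perm.sign σ = 1

instance : DecidablePred inv := fun σ => by unfold inv; infer_instance

set_option maxRecDepth 1000000 in
theorem F1 : ∀ σ : P6, inv σ → ∀ τ : P6, inv τ →
    (σ * τ = τ * σ) ∨ (σ * τ) ^ 3 = 1 ∨ (σ * τ) ^ 5 = 1 ∨
      ((σ * τ) ^ 4 = 1 ∧ (σ * τ) ^ 2 ≠ 1) := by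
  decide +kernel

set_option maxRecDepth 1000000 in
theorem F2 : ∀ τ : P6, inv τ → ∃ g : P6, Equiv.Perm.sign g = 1 ∧
    τ = g * (Equiv.swap 0 1 * Equiv.swap 2 3) * g⁻¹ := by
  decide +kernel

theorem inv_of (g : A6) (hg : orderOf g = 2) : inv (g : P6) := by
  have hg' : orderOf (g : P6) = 2 := by rw [Subgroup.orderOf_coe, hg]
  refine ⟨?_, ?_, Equiv.Perm.mem_alternatingGroup.1 g.2⟩
  · intro h
    rw [h, orderOf_one] at hg'
    omega
  · rw [← pow_two, ← hg']
    exact pow_orderOf_eq_one _

theorem cases (a b : A6) (ha : orderOf a = 2) (hb : orderOf b = 2) :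
    (a * b = b * a) ∨ (a * b) ^ 3 = 1 ∨ (a * b) ^ 5 = 1 ∨ ((a * b) ^ 4 = 1 ∧ (a * b) ^ 2 ≠ 1) := by
  rcases F1 a (inv_of a ha) b (inv_of b hb) with h | h | h | ⟨h, h'⟩
  · exact Or.inl (Subtype.ext h)
  · exact Or.inr (Or.inl (Subtype.ext h))
  · exact Or.inr (Or.inr (Or.inl (Subtype.ext h)))
  · exact Or.inr (Or.inr (Or.inr ⟨Subtype.ext h, fun h2 => h' (congrArg Subtype.val h2)⟩))

def a0 : A6 := ⟨Equiv.swap 0 1 * Equiv.swap 2 3, Equiv.Perm.mem_alternatingGroup.2 (by decide)⟩

theorem conj_a0 (b : A6) (hb : orderOf b = 2) : ∃ g : A6, b = g * a0 * g⁻¹ := by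
  obtain ⟨g, hg, h⟩ := F2 b (inv_of b hb)
  exact ⟨⟨g, Equiv.Perm.mem_alternatingGroup.2 hg⟩, Subtype.ext h⟩

theorem orderOf_a0 : orderOf a0 = 2 := by
  apply orderOf_eq_prime
  · decide
  · decide

theorem orderOf_conj' (a g : A6) : orderOf (g * a * g⁻¹) = orderOf a := by
  have : g * a * g⁻¹ = MulAut.conj g a := rfl
  rw [this, MulEquiv.orderOf_eq]

/-- The involutions of the alternating group of degree 6 form a class of root involutions (a single conjugacy class of involutions generating the group, any two of which commute, have product of odd order, or have product of order 4 whose square is again an involution of the class), and the product of any two of them has order at most 5. -/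
theorem result :
    Cfsg.IsRootInvolutionClass {g : ↥(alternatingGroup (Fin 6)) | orderOf g = 2} ∧
    ∀ d ∈ {g : ↥(alternatingGroup (Fin 6)) | orderOf g = 2}, ∀ e ∈ {g : ↥(alternatingGroup (Fin 6)) | orderOf g = 2},
      orderOf (d * e) ≤ 5 := by
  have hpair : ∀ a b : A6, orderOf a = 2 → orderOf b = 2 →
      (a * b = b * a ∨ Odd (orderOf (a * b)) ∨ (orderOf (a * b) = 4 ∧ orderOf ((a * b) ^ 2) = 2)) ∧
        orderOf (a * b) ≤ 5 := by
    intro a b ha hb
    rcases cases a b ha hb with h | h | h | ⟨h, h'⟩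
    · refine ⟨Or.inl h, ?_⟩
      have haa : a ^ 2 = 1 := by rw [← ha]; exact pow_orderOf_eq_one a
      have hbb : b ^ 2 = 1 := by rw [← hb]; exact pow_orderOf_eq_one b
      have : (a * b) ^ 2 = 1 := by rw [(show Commute a b from h).mul_pow, haa, hbb, one_mul]
      have := Nat.le_of_dvd (by norm_num) (orderOf_dvd_of_pow_eq_one this)
      omega
    · have hd := orderOf_dvd_of_pow_eq_one h
      rcases (Nat.dvd_prime (by norm_num : Nat.Prime 3)).1 hd with h1 | h1
      · rw [h1]; exact ⟨Or.inr (Or.inl (by decide)), by norm_num⟩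
      · rw [h1]; exact ⟨Or.inr (Or.inl (by decide)), by norm_num⟩
    · have hd := orderOf_dvd_of_pow_eq_one h
      rcases (Nat.dvd_prime (by norm_num : Nat.Prime 5)).1 hd with h1 | h1
      · rw [h1]; exact ⟨Or.inr (Or.inl (by decide)), by norm_num⟩
      · rw [h1]; exact ⟨Or.inr (Or.inl (by decide)), by norm_num⟩
    · have h4 : orderOf (a * b) = 4 := by
        have := orderOf_eq_prime_pow (p := 2) (n := 1) (x := a * b) (by simpa using h')
          (by simpa using h)
        simpa using this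
      refine ⟨Or.inr (Or.inr ⟨h4, ?_⟩), by omega⟩
      apply orderOf_eq_prime
      · rw [← pow_mul]; exact h
      · exact h'
  refine ⟨⟨⟨fun d hd => hd, ?_, ?_, ?_⟩, ⟨a0, orderOf_a0⟩, ?_⟩, ?_⟩
  · -- generation
    have hs : IsSimpleGroup A6 := alternatingGroup.isSimpleGroup (by simp)
    have hcl : Subgroup.closure {g : A6 | orderOf g = 2} =
        Subgroup.normalClosure {g : A6 | orderOf g = 2} := by
      have : Group.conjugatesOfSet {g : A6 | orderOf g = 2} = {g : A6 | orderOf g = 2} := by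
        ext x
        rw [Group.mem_conjugatesOfSet_iff]
        constructor
        · rintro ⟨a, ha, hax⟩
          obtain ⟨c, hc⟩ := isConj_iff.1 hax
          rw [Set.mem_ofPred_eq, ← hc, orderOf_conj']
          exact ha
        · intro hx
          exact ⟨x, hx, IsConj.refl x⟩
      rw [Subgroup.normalClosure, this]
    rw [hcl]
    rcases hs.eq_bot_or_eq_top_of_normal _ (Subgroup.normalClosure_normal) with h | h
    · exfalso
      have : a0 ∈ Subgroup.normalClosure {g : A6 | orderOf g = 2} :=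
        Subgroup.subset_normalClosure orderOf_a0
      rw [h, Subgroup.mem_bot] at this
      have h2 := orderOf_a0
      rw [this, orderOf_one] at h2
      omega
    · exact h
  · intro d hd g
    rw [Set.mem_ofPred_eq, orderOf_conj']
    exact hd
  · intro a ha b hb
    exact (hpair a b ha hb).1
  · intro a ha b hb
    obtain ⟨g, hg⟩ := conj_a0 a ha
    obtain ⟨k, hk⟩ := conj_a0 b hb
    refine ⟨k * g⁻¹, ?_⟩
    rw [hk, hg]
    group
  · intro d hd e he
    exact (hpair d e hd he).2

end Cfsg.Agent.S5057
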