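import Cfsg.Statements.S5067
-- import your own Cfsg.Agent.* helpers here
import Cfsg.Agent.Lib.Helper57.Replacement

set_option autoImplicit false
open Cfsg

namespace Cfsg.Agent.S5067

open scoped commutatorElement in
theorem key {P : Type*} [Group P] [Group.IsNilpotent P] (hna : ¬ IsMulCommutative P)
    {E : Subgroup P} (hE : IsMulCommutative ↥E) :
    Group.nilpotencyClass ↥(Subgroup.normalClosure (E : Set P)) < Group.nilpotencyClass P := by
  set N := Subgroup.normalClosure (E : Set P) with hN
  set L : ℕ → Subgroup P := (⊤ : Subgroup P).lowerCentralSeries with hL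
  set K := L 2 with hK
  have hKn : K.Normal := by rw [hK, hL]; infer_instance
  -- E ⊔ P' is normal
  have hHn : (E ⊔ L 1).Normal := by
    constructor
    intro n hn g
    have h1 : g * n * g⁻¹ = ⁅g, n⁆ * n := by simp [commutatorElement_def]
    rw [h1]
    refine Subgroup.mul_mem _ (Subgroup.mem_sup_right ?_) hn
    exact Subgroup.commutator_mem_commutator (Subgroup.mem_top g) (Subgroup.mem_top n)
  have hNH : N ≤ E ⊔ L 1 := Subgroup.normalClosure_le_normal (show (E : Set P) ⊆ _ from
    fun x hx => Subgroup.mem_sup_left hx)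
  -- base
  have hcen : (L 1).map (QuotientGroup.mk' K) ≤ Subgroup.center (P ⧸ K) := by
    rintro _ ⟨a, ha, rfl⟩
    rw [Subgroup.mem_center_iff]
    intro g
    obtain ⟨g, rfl⟩ := QuotientGroup.mk'_surjective K g
    have h1 : ⁅a, g⁆ ∈ K := Subgroup.commutator_mem_commutator ha (Subgroup.mem_top g)
    have h2 : (QuotientGroup.mk' K) ⁅a, g⁆ = 1 := (QuotientGroup.eq_one_iff _).mpr h1
    rw [map_commutatorElement, commutatorElement_eq_one_iff_mul_comm] at h2
    exact h2.symm
  have hcomm : IsMulCommutative ↥((E ⊔ L 1).map (QuotientGroup.mk' K)) := by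
    rw [Subgroup.map_sup]
    have i2 : IsMulCommutative ↥((L 1).map (QuotientGroup.mk' K)) := by
      rw [← Subgroup.le_centralizer_iff_isMulCommutative]
      exact hcen.trans (Subgroup.center_le_centralizer _)
    exact Cfsg.Agent.Lib.Helper57.isMulCommutative_sup (hcen.trans (Subgroup.center_le_centralizer _))
  have hbase : ⁅E ⊔ L 1, E ⊔ L 1⁆ ≤ K := by
    have h1 := Subgroup.le_centralizer_iff_isMulCommutative.mpr hcomm
    rw [← Subgroup.commutator_eq_bot_iff_le_centralizer, ← Subgroup.map_commutator,
      Subgroup.map_eq_bot_iff, QuotientGroup.ker_mk'] at h1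
    exact h1
  have hind : ∀ n : ℕ, N.lowerCentralSeries (n + 1) ≤ L (n + 2) := by
    intro n
    induction n with
    | zero =>
      exact (Subgroup.commutator_mono hNH hNH).trans hbase
    | succ n ih =>
      exact Subgroup.commutator_mono ih le_top
  have hc2 : 2 ≤ Group.nilpotencyClass P := by
    by_contra hlt
    have h1 : Group.nilpotencyClass P ≤ 1 := by omega
    rw [← Subgroup.lowerCentralSeries_eq_bot_iff_nilpotencyClass_le] at h1
    apply hna
    have h2 : (⁅(⊤ : Subgroup P), ⊤⁆ : Subgroup P) = ⊥ := by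
      rw [← h1]; rfl
    rw [Subgroup.commutator_eq_bot_iff_le_centralizer] at h2
    refine ⟨⟨fun a b => ?_⟩⟩
    exact (Subgroup.mem_centralizer_iff.mp (h2 (Subgroup.mem_top b)) a (Subgroup.mem_top a))
  obtain ⟨c, hc⟩ : ∃ c, Group.nilpotencyClass P = c + 2 := ⟨_, (Nat.sub_add_cancel hc2).symm⟩
  have h3 : (⊤ : Subgroup ↥N).lowerCentralSeries (c + 1) = ⊥ := by
    have h4 := hind c
    rw [← hc, hL, Subgroup.lowerCentralSeries_nilpotencyClass, le_bot_iff,
      ← Subgroup.top_subtype_lowerCentralSeries, Subgroup.map_eq_bot_iff,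
      Subgroup.ker_subtype, le_bot_iff] at h4
    exact h4
  rw [Subgroup.lowerCentralSeries_eq_bot_iff_nilpotencyClass_le] at h3
  omega

/-- Let P be a non-abelian nilpotent p-group (every element of p-power order; P possibly infinite) generated by two abelian subgroups E and F. Then the normal closure of E in P, and likewise that of F, has nilpotency class strictly smaller than that of P. -/
theorem result {P : Type*} [Group P] {p : ℕ} [Fact p.Prime] (hP : IsPGroup p P) [Group.IsNilpotent P]
    (hna : ¬ IsMulCommutative P) {E F : Subgroup P} (hE : IsMulCommutative ↥E) (hF : IsMulCommutative ↥F) (hgen : E ⊔ F = ⊤) :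
    Group.nilpotencyClass ↥(Subgroup.normalClosure (E : Set P)) < Group.nilpotencyClass P ∧
    Group.nilpotencyClass ↥(Subgroup.normalClosure (F : Set P)) < Group.nilpotencyClass P := by
  exact ⟨key hna hE, key hna hF⟩

end Cfsg.Agent.S5067
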