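import Cfsg.Statements.S5094
import Cfsg.Agent.S0215
import Cfsg.Agent.Lib.Helper93.ZStarFusion

set_option autoImplicit false
open Cfsg

namespace Cfsg.Agent.S5094

/-- Glauberman's Z*-Theorem in fusion language: for a finite group G with Sylow 2-subgroup S, the centre of the fusion system of G on S is the set of elements of S whose image in G/O(G) is central, O(G) being the largest normal subgroup of odd order. -/
theorem result {G : Type*} [Group G] [Finite G] (S : Sylow 2 G) : (Cfsg.groupFusionSystem (S : Subgroup G)).center = (S : Subgroup G) ⊓ (Subgroup.center (G ⧸ Cfsg.oddCore G)).comap (QuotientGroup.mk' (Cfsg.oddCore G)) := by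
  exact Cfsg.Agent.Lib.Helper93.fusion_center_eq_of_zstar
    (fun G _ _ P u hu huP hiso => Cfsg.Agent.S0215.result P u hu huP hiso) S

end Cfsg.Agent.S5094
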