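import Cfsg.Statements.S5101
import Cfsg.Agent.Lib.Helper87.FusionGroup
open Cfsg.Agent.Lib.Helper87

set_option autoImplicit false
open Cfsg

namespace Cfsg.Agent.S5101

/-- In the fusion system of a finite group G on a Sylow p-subgroup S, a subgroup P ≤ S is fully centralized if and only if C_S(P) is a Sylow p-subgroup of C_G(P). -/
theorem result {G : Type*} [Group G] [Finite G] (p : ℕ) [Fact p.Prime] (S : Sylow p G) (P : Subgroup G) (hP : P ≤ S) : (Cfsg.groupFusionSystem (S : Subgroup G)).IsFullyCentralized P ↔ ∃ R : Sylow p ↥(Subgroup.centralizer (P : Set G)), (R : Subgroup ↥(Subgroup.centralizer (P : Set G))) = (Cfsg.FusionSystem.centralizerIn (S : Subgroup G) P).subgroupOf (Subgroup.centralizer (P : Set G)) := by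
  have h0 := exists_sylow_iff (p := p)
    (inf_le_right : (S : Subgroup G) ⊓ Subgroup.centralizer (P : Set G) ≤ _)
  have key := full_iff_isSylIn S (fun P => Subgroup.centralizer (P : Set G)) cj_centralizer
    (fun _ => Subgroup.centralizer_le_normalizer _) P hP
  exact ⟨fun h => h0.2 (key.1 h.2), fun h => ⟨hP, key.2 (h0.1 h)⟩⟩

end Cfsg.Agent.S5101
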