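import Cfsg.Statements.S5105
import Cfsg.Agent.Lib.Helper87.ModelAut
open Cfsg.Agent.Lib.Helper87

set_option autoImplicit false
open Cfsg

namespace Cfsg.Agent.S5105

/-- Model Theorem, rigidity: if G is a model of a constrained fusion system over a finite p-group S (through ι : S → G), then every automorphism of G fixing ι(S) elementwise is conjugation by ι(z) for some z in the centre of S. -/
theorem result {Ω : Type*} [Group Ω] {S : Subgroup Ω} [Finite S] (p : ℕ) [Fact p.Prime] (hS : IsPGroup p S) (F : Cfsg.FusionSystem S) (hF : F.IsConstrained p) {G : Type*} [Group G] (ι : S →* G) (hG : F.IsModel p G ι) (ψ : G ≃* G) (hψ : ∀ x : S, ψ (ι x) = ι x) : ∃ z : S, z ∈ Subgroup.center S ∧ ∀ g : G, ψ g = ι z * g * (ι z)⁻¹ := by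
  obtain ⟨hfin, ⟨hinj, -⟩, ⟨T, hT⟩, hC⟩ := hG
  obtain ⟨z, hz, hzc, hm⟩ := aut_fix_sylow p T hC ψ (fun x hx => by
    have hx' : x ∈ (T : Subgroup G) := hx
    rw [hT] at hx'
    obtain ⟨y, rfl⟩ := hx'
    exact hψ y)
  have hz' : z ∈ (T : Subgroup G) := hz
  rw [hT] at hz'
  obtain ⟨z₀, rfl⟩ := hz'
  refine ⟨z₀, ?_, hm⟩
  rw [Subgroup.mem_center_iff]
  intro y
  apply hinj
  rw [map_mul, map_mul]
  refine hzc (ι y) ?_
  show ι y ∈ (T : Subgroup G)
  rw [hT]
  exact ⟨y, rfl⟩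

end Cfsg.Agent.S5105
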