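import Cfsg.Statements.S5107
import Cfsg.Agent.Lib.Helper87.NormalCrit
import Cfsg.Agent.S5076
open Cfsg.Agent.Lib.Helper87
open scoped commutatorElement

set_option autoImplicit false
open Cfsg

namespace Cfsg.Agent.S5107

/-- If a Sylow p-subgroup S of a finite group G has nilpotency class at most two and its centre is strongly closed in S with respect to G, then every map of the fusion system of G on S is conjugation by an element of N_G(S), and S is the largest subgroup normal in that fusion system. -/
theorem result {G : Type*} [Group G] [Finite G] (p : ℕ) [Fact p.Prime] (S : Sylow p G) (hcl : ⁅(S : Subgroup G), (S : Subgroup G)⁆ ≤ (S : Subgroup G) ⊓ Subgroup.centralizer ((S : Subgroup G) : Set G)) (hZ : Cfsg.IsStronglyClosed ((S : Subgroup G) ⊓ Subgroup.centralizer ((S : Subgroup G) : Set G)) (S : Subgroup G)) : (∀ (P : Subgroup G) (φ : P →* G), φ ∈ (Cfsg.groupFusionSystem (S : Subgroup G)).Hom P → ∃ g ∈ Subgroup.normalizer ((S : Subgroup G) : Set G), ∀ x : P, φ x = g * (x : G) * g⁻¹) ∧ (Cfsg.groupFusionSystem (S : Subgroup G)).core =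 S := by
  have hSp : IsPGroup p (S : Subgroup G) := S.isPGroup'
  have hF := Cfsg.Agent.S5076.result p S
  set F := Cfsg.groupFusionSystem (S : Subgroup G) with hFdef
  set Z := (S : Subgroup G) ⊓ Subgroup.centralizer ((S : Subgroup G) : Set G) with hZdef
  have hZs : F.StronglyClosed Z := by
    rw [stronglyClosed_iff]
    refine ⟨inf_le_left, fun R f hf x hx hxZ => ?_⟩
    obtain ⟨-, g, hg⟩ := (mor_group_iff _ R f).1 hf
    rw [(hg x hx).1]
    exact hZ.2 x hxZ g (hg x hx).2
  have hSn : F.IsNormal (S : Subgroup G) := by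
    refine isNormal_of_series hSp hF (stronglyClosed_top F)
      (fun i => match i with | 0 => ⊥ | 1 => Z | _ => (S : Subgroup G)) ?_ 2 rfl
      (isNormal_bot F) (isPGroup_autGroup_bot F p) ?_
    · intro i
      match i with
      | 0 => exact stronglyClosed_bot F
      | 1 => exact hZs
      | (n + 2) => exact stronglyClosed_top F
    · intro i hi q hq x hx
      match i, hi with
      | 0, _ =>
        show x⁻¹ * (q * x * q⁻¹) ∈ (⊥ : Subgroup G)
        have hx' : x ∈ Z := hx
        have h1 : q * x = x * q := (Subgroup.mem_centralizer_iff.1 hx'.2) q hq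
        rw [Subgroup.mem_bot, h1]
        group
      | 1, _ =>
        show x⁻¹ * (q * x * q⁻¹) ∈ Z
        have h1 : x⁻¹ * (q * x * q⁻¹) = ⁅x⁻¹, q⁆ := by
          rw [commutatorElement_def]
          group
        rw [h1]
        exact hcl (Subgroup.commutator_mem_commutator (Subgroup.inv_mem _ hx) hq)
  constructor
  · intro P φ hφ
    have hf := Mor.of_hom hφ
    obtain ⟨f', hf', hag, hR⟩ := ((isNormal_iff F _).1 hSn).2 P _ hf
    rw [sup_eq_right.2 hf.le] at hf'
    obtain ⟨-, g, hg⟩ := (mor_group_iff _ _ f').1 hf'
    refine ⟨g, ?_, fun x => ?_⟩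
    · rw [Subgroup.mem_normalizer_iff]
      intro x
      constructor
      · intro hx
        exact (hg x hx).2
      · intro hx
        obtain ⟨y, hy, e⟩ := (hR _).1 hx
        rw [(hg y hy).1] at e
        have : y = x := mul_left_cancel (mul_right_cancel e)
        exact this ▸ hy
    · rw [← ext_coe, ← hag x x.2]
      exact (hg x (hf.le x.2)).1
  · apply le_antisymm
    · exact sSup_le (fun Q hQ => hQ.1)
    · exact le_sSup hSn

end Cfsg.Agent.S5107
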