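import Cfsg.Statements.S5112
import Cfsg.Agent.S3116
import Cfsg.Agent.Lib.Helper86.FusionFrobenius
import Cfsg.Agent.Lib.Helper87.FusionBasic

set_option autoImplicit false
open Cfsg

namespace Cfsg.Agent.S5112

open Cfsg.FusionSystem

theorem quat_aut (k : ℕ) (hk : 2 ≤ k) : IsPGroup 2 (MulAut (QuaternionGroup (2 ^ k))) := by
  have : NeZero (2 ^ k) := ⟨by positivity⟩
  have hne : NeZero (2 * 2 ^ k) := ⟨by positivity⟩
  refine Cfsg.Agent.S3116.aut_two_group (QuaternionGroup.a 1) (QuaternionGroup.xa 0) (k + 1) ?_ ?_ ?_ ?_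
  · rw [QuaternionGroup.orderOf_a_one, pow_succ']
  · rintro (i | i)
    · left
      rw [Subgroup.mem_zpowers_iff]
      refine ⟨(i.val : ℤ), ?_⟩
      rw [zpow_natCast, QuaternionGroup.a_one_pow]
      congr 1
      exact ZMod.natCast_zmod_val i
    · right
      refine ⟨i.val, ?_⟩
      rw [QuaternionGroup.a_one_pow, QuaternionGroup.xa_mul_a, zero_add]
      congr 1
      exact (ZMod.natCast_zmod_val i).symm
  · intro h
    obtain ⟨j, hj⟩ := Subgroup.mem_zpowers_iff.1 h
    obtain ⟨m, hm⟩ : ∃ m : ℕ, QuaternionGroup.a (1 : ZMod (2 * 2 ^ k)) ^ j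
        = QuaternionGroup.a 1 ^ m := by
      have hfin : IsOfFinOrder (QuaternionGroup.a (1 : ZMod (2 * 2 ^ k))) := by
        rw [← orderOf_pos_iff, QuaternionGroup.orderOf_a_one]; positivity
      have h1 : QuaternionGroup.a (1 : ZMod (2 * 2 ^ k)) ^ j ∈
          Subgroup.zpowers (QuaternionGroup.a (1 : ZMod (2 * 2 ^ k))) := ⟨j, rfl⟩
      rw [← hfin.mem_powers_iff_mem_zpowers] at h1
      obtain ⟨m, hm⟩ := h1
      exact ⟨m, hm.symm⟩
    rw [hm, QuaternionGroup.a_one_pow] at hj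
    cases hj
  · rintro (i | i) hg
    · exfalso
      apply hg
      rw [Subgroup.mem_zpowers_iff]
      refine ⟨(i.val : ℤ), ?_⟩
      rw [zpow_natCast, QuaternionGroup.a_one_pow]
      congr 1
      exact ZMod.natCast_zmod_val i
    · rw [QuaternionGroup.orderOf_xa]
      have h8 : 2 ^ 3 ≤ 2 ^ (k + 1) := Nat.pow_le_pow_right (by norm_num) (by omega)
      omega

/-- If S is a dihedral or generalized quaternion 2-group of order at least 16, then in every saturated fusion system over S (at the prime 2) the automorphism group Aut_F(S) consists of the inner automorphisms of S. -/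
theorem result {Ω : Type*} [Group Ω] {S : Subgroup Ω} [Finite S] (n : ℕ) (hn : 4 ≤ n) (hshape : Nonempty (S ≃* DihedralGroup (2 ^ (n - 1))) ∨ Nonempty (S ≃* QuaternionGroup (2 ^ (n - 2)))) (F : Cfsg.FusionSystem S) (hF : F.IsSaturated 2) : F.autGroup S = Cfsg.Inn S := by
  have : Fact (Nat.Prime 2) := ⟨Nat.prime_two⟩
  have h8 : 2 ^ 3 ≤ 2 ^ (n - 1) := Nat.pow_le_pow_right (by norm_num) (by omega)
  have hS : IsPGroup 2 S := by
    rcases hshape with ⟨⟨e⟩⟩ | ⟨⟨e⟩⟩
    · apply IsPGroup.of_card (n := n)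
      rw [Nat.card_congr e.toEquiv, DihedralGroup.nat_card, ← pow_succ']
      congr 1; omega
    · have : NeZero (2 ^ (n - 2)) := ⟨by positivity⟩
      apply IsPGroup.of_card (n := n)
      rw [Nat.card_congr e.toEquiv, Nat.card_eq_fintype_card, QuaternionGroup.card]
      have : (4 : ℕ) = 2 ^ 2 := by norm_num
      rw [this, ← pow_add]
      congr 1; omega
  have hA : IsPGroup 2 (MulAut S) := by
    rcases hshape with ⟨⟨e⟩⟩ | ⟨⟨e⟩⟩
    · exact Cfsg.Agent.S3116.result hS (Or.inl ⟨2 ^ (n - 1), by omega, ⟨e⟩⟩)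
    · exact (quat_aut (n - 2) (by omega)).of_equiv (MulAut.congr e).symm
  have haut : IsPGroup 2 (F.autGroup S) := hA.to_subgroup _
  obtain ⟨-, R, hR⟩ := Cfsg.Agent.Lib.Helper86.isFullyAutomized_self hS F hF
  have htop : (⊤ : Subgroup (F.autGroup S)) = R := R.3 (haut.to_subgroup ⊤) le_top
  rw [Cfsg.Agent.Lib.Helper87.inn_eq_autInducedBy]
  apply le_antisymm
  · intro α hα
    have h1 : (⟨α, hα⟩ : F.autGroup S) ∈ (R : Subgroup (F.autGroup S)) := by
      rw [← htop]; exact Subgroup.mem_top _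
    rw [hR] at h1
    exact Subgroup.mem_subgroupOf.1 h1
  · intro α hα
    obtain ⟨s, hs, es⟩ := (Cfsg.Agent.Lib.Helper87.mem_autInducedBy_iff S S α).1 hα
    apply Subgroup.subset_closure
    show S.subtype.comp α.toMonoidHom ∈ F.Hom S
    have h2 := F.conj_mem (P := S) (g := s) le_rfl hs
    have h3 : S.subtype.comp α.toMonoidHom = conjHom S s := by
      ext x
      exact es x
    rw [h3]; exact h2

end Cfsg.Agent.S5112
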