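import Cfsg.Statements.S5114
import Cfsg.Agent.Lib.Helper87.PrimeIndex
open Cfsg.Agent.Lib.Helper87

set_option autoImplicit false
open Cfsg

namespace Cfsg.Agent.S5114

/-- Let F be a saturated fusion system over a finite p-group S and E a fusion system over S contained in F. If Aut_E(P) contains the subgroup of Aut_F(P) generated by its elements of p-power order for every subgroup P that is centric in F, then the same holds for every subgroup of S (E has index prime to p in F), every map of F with source a subgroup P of S is an element of Aut_F(S) composed with a map of E, and a subgroup is centric in E exactly when it is centric in F. -/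
theorem result {Ω : Type*} [Group Ω] {S : Subgroup Ω} [Finite S] (p : ℕ) [Fact p.Prime] (hS : IsPGroup p S) (F : Cfsg.FusionSystem S) (hF : F.IsSaturated p) (E : Cfsg.FusionSystem S) (hEF : E.IsSubsystemOf F) (h : ∀ P : Subgroup Ω, F.IsCentric P → (Subgroup.closure {α : ↥(F.autGroup P) | ∃ k : ℕ, orderOf α = p ^ k}).map (F.autGroup P).subtype ≤ E.autGroup P) : E.HasPrimeToPIndexIn F p ∧ (∀ (P : Subgroup Ω) (φ : P →* Ω), φ ∈ F.Hom P → ∃ α ∈ F.autGroup S, ∃ φ₀ ∈ E.Hom P, ∀ (x : P) (hx : φ₀ x ∈ S), φ x = ((α ⟨φ₀ x, hx⟩ : S) : Ω)) ∧ ∀ P : Subgroup Ω, E.IsCentric P ↔ F.IsCentric P := by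
  have h' : ∀ P : Subgroup Ω, F.IsCentric P → OpP F p P ≤ E.autGroup P := fun P hP => by
    rw [← OpP_eq]; exact h P hP
  refine ⟨⟨hEF, fun P hP => by rw [OpP_eq]; exact OpP_le_of_centric hS hF h' hP⟩, ?_,
    centric_iff_of_prime_index hS hF hEF h'⟩
  intro P φ hφ
  obtain ⟨a, f₀, ha, hf₀, e⟩ := frattini_prime_index hS hF h' P _ (Mor.of_hom hφ)
  obtain ⟨α, hα, eα⟩ := ha.exists_aut
  obtain ⟨φ₀, hφ₀, e₀⟩ := hf₀.mor
  refine ⟨α, hα, φ₀, hφ₀, fun x hx => ?_⟩
  rw [eα, ← ext_coe φ x, e x x.2]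
  show a (f₀ x) = a (φ₀ x)
  rw [e₀]

end Cfsg.Agent.S5114
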