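import Cfsg.Statements.S5128
import Cfsg.Agent.Lib.Helper87.StronglyClosed
open Cfsg.Agent.Lib.Helper87

set_option autoImplicit false
open Cfsg

namespace Cfsg.Agent.S5128

/-- In a saturated fusion system over a finite p-group S, the product of two strongly closed subgroups is strongly closed. -/
theorem result {Ω : Type*} [Group Ω] {S : Subgroup Ω} [Finite S] (p : ℕ) [Fact p.Prime] (hS : IsPGroup p S) (F : Cfsg.FusionSystem S) (hF : F.IsSaturated p) (T₁ T₂ : Subgroup Ω) (h₁ : F.StronglyClosed T₁) (h₂ : F.StronglyClosed T₂) : F.StronglyClosed (T₁ ⊔ T₂) := by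
  rw [stronglyClosed_iff]
  refine ⟨sup_le h₁.1 h₂.1, fun R f hf x hx hxT => ?_⟩
  obtain ⟨f', hf', hmod⟩ := exists_lift_mod hS hF h₁ R f hf
  obtain ⟨t₁, ht₁, t₂, ht₂, rfl⟩ := mem_sup_of_normalizes
    (fun a ha b hb => StronglyClosed.conj_mem h₂ (h₁.1 ha) hb) hxT
  have ht₁' : t₁ ∈ R ⊔ T₁ := (le_sup_right : T₁ ≤ R ⊔ T₁) ht₁
  have ht₂' : t₂ ∈ R ⊔ T₁ := by
    have h3 : t₂ = t₁⁻¹ * (t₁ * t₂) := by group
    rw [h3]
    exact Subgroup.mul_mem _ (Subgroup.inv_mem _ ht₁') ((le_sup_left : R ≤ R ⊔ T₁) hx)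
  have h4 : f (t₁ * t₂) = f' (t₁ * t₂) * ((f (t₁ * t₂))⁻¹ * f' (t₁ * t₂))⁻¹ := by group
  rw [h4]
  refine Subgroup.mul_mem _ ?_ ?_
  rw [hf'.map_mul ht₁' ht₂']
  refine Subgroup.mul_mem _ ?_ ?_
  · exact (le_sup_left : T₁ ≤ T₁ ⊔ T₂) (StronglyClosed.map_mem h₁ hf' ht₁' ht₁)
  · exact (le_sup_right : T₂ ≤ T₁ ⊔ T₂) (StronglyClosed.map_mem h₂ hf' ht₂' ht₂)
  · exact (le_sup_left : T₁ ≤ T₁ ⊔ T₂) (T₁.inv_mem (hmod _ hx))

end Cfsg.Agent.S5128
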