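import Cfsg.Statements.S5130
import Cfsg.Agent.Lib.Helper87.DirectProd

set_option autoImplicit false
open Cfsg Cfsg.FusionSystem Cfsg.Agent.Lib.Helper87

namespace Cfsg.Agent.S5130

/-- Let F be a saturated fusion system over a finite p-group S that is the direct product of two subgroups S₁ and S₂, each strongly closed in F. Let R be the full subsystem of F over S₁ (all maps of F between subgroups of S₁) and R′ the subsystem over S₁ of those maps that extend to the subgroup generated with S₂ fixing S₂ elementwise. Then R and R′ are saturated, R′ is normal in F and in R, and R is weakly normal in F. -/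
theorem result {Ω : Type*} [Group Ω] {S : Subgroup Ω} [Finite S] (p : ℕ) [Fact p.Prime] (hS : IsPGroup p S) (F : Cfsg.FusionSystem S) (hF : F.IsSaturated p) (S₁ S₂ : Subgroup Ω) (hprod : Cfsg.IsInternalDirectProduct S₁ S₂ S) (h₁ : F.StronglyClosed S₁) (h₂ : F.StronglyClosed S₂) (R R' : Cfsg.FusionSystem S₁) (hR : ∀ P : Subgroup Ω, P ≤ S₁ → R.Hom P = F.Hom P) (hR' : ∀ P : Subgroup Ω, P ≤ S₁ → R'.Hom P = F.centralizerHom S₂ P) : R.IsSaturated p ∧ R'.IsSaturated p ∧ R'.IsNormalIn F p ∧ R'.IsNormalIn R p ∧ R.IsWeaklyNormalIn F p := by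
  have h : DP F S₁ S₂ := ⟨hprod, h₁, h₂⟩
  have hfin1 : Finite S₁ := finite_of_le h₁.1
  have hS1C : S₁ ≤ centralizerIn S S₂ := h.symm.le_cent
  have mor_R : ∀ P f, Mor R P f ↔ P ≤ S₁ ∧ Mor F P f := by
    intro P f
    constructor
    · rintro ⟨φ, hφ, e⟩
      have hP := (R.le_of_mem hφ).1
      exact ⟨hP, φ, hR P hP ▸ hφ, e⟩
    · rintro ⟨hP, φ, hφ, e⟩
      exact ⟨φ, (hR P hP).symm ▸ hφ, e⟩
  have mor_R' : ∀ P f, Mor R' P f ↔ P ≤ S₁ ∧ ExtC F S₂ P f := by
    intro P f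
    constructor
    · rintro ⟨φ, hφ, e⟩
      have hP := (R'.le_of_mem hφ).1
      rw [hR' P hP] at hφ
      exact ⟨hP, ((mem_centralizerHom_iff F S₂ P φ).1 hφ).2.2.congr (fun x hx => by
        rw [ext_apply φ hx, e])⟩
    · rintro ⟨hP, hext⟩
      obtain ⟨φ, hφ, e⟩ := hext.mor
      refine ⟨φ, ?_, e⟩
      rw [hR' P hP, mem_centralizerHom_iff]
      refine ⟨hP.trans hS1C, fun x hx => hS1C ?_, hext.congr (fun x hx => by
        rw [ext_apply φ hx, e])⟩
      exact StronglyClosed.map_mem h₁ (Mor.of_hom hφ) hx (hP hx)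
  have hRs : R.IsSaturated p := full_subsystem_saturated hF h₁ (fun s hs => by
    obtain ⟨a, ha, b, hb, e⟩ := h.decomp hs
    exact ⟨a, ha, b, h.le_cent hb, e⟩) mor_R
  have hR's : R'.IsSaturated p := by
    obtain ⟨C, hC⟩ := Cfsg.Agent.S5097.result F S₂ h₂.1
    have hfc : F.IsFullyCentralized S₂ := by
      refine ⟨h₂.1, fun Q hQ => ?_⟩
      obtain ⟨f, hf⟩ := (isConj_iff F S₂ Q).1 hQ
      have hle : Q ≤ S₂ := by
        intro y hy
        obtain ⟨x, hx, rfl⟩ := hf.surj hy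
        exact StronglyClosed.map_mem h₂ hf.mor hx hx
      have : Q = S₂ := (eq_of_le_of_card_le'' h₂.1 hle hf.card_eq.le)
      rw [this]
    have hCs := centralizerSystem_saturated hS hF hfc hC
    have hCmor := mor_centralizerSystem_iff hC
    refine full_subsystem_saturated hCs ?_ ?_ ?_
    · rw [stronglyClosed_iff]
      exact ⟨hS1C, fun Q f hf x hx hx1 =>
        StronglyClosed.map_mem h₁ ((hCmor Q f).1 hf).2.2.mor hx hx1⟩
    · intro s hs
      obtain ⟨a, ha, b, hb, e⟩ := h.decomp ((centralizerIn_le S S₂) hs)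
      refine ⟨a, ha, b, (mem_centralizerIn_iff _ _ _).2 ⟨?_, fun x hx => h.comm hx hb⟩, e⟩
      have h1 : b = a⁻¹ * s := by rw [e]; group
      rw [h1]
      exact Subgroup.mul_mem _ (Subgroup.inv_mem _ (hS1C ha)) hs
    · intro P f
      rw [mor_R', hCmor]
      constructor
      · rintro ⟨hP, hext⟩
        exact ⟨hP, hP.trans hS1C, fun x hx =>
          hS1C (StronglyClosed.map_mem h₁ hext.mor hx (hP hx)), hext⟩
      · rintro ⟨hP, -, -, hext⟩
        exact ⟨hP, hext⟩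
  have hinv := h.invF hS hF mor_R'
  have hfrat := h.fratF hS hF mor_R'
  have hsub : R'.IsSubsystemOf F := isSubsystemOf_of_mor (fun P f hf => ((mor_R' P f).1 hf).2.mor)
  have hsub' : R'.IsSubsystemOf R := isSubsystemOf_of_mor (fun P f hf =>
    (mor_R P f).2 ⟨((mor_R' P f).1 hf).1, ((mor_R' P f).1 hf).2.mor⟩)
  have hsubR : R.IsSubsystemOf F := isSubsystemOf_of_mor (fun P f hf => ((mor_R P f).1 hf).2)
  refine ⟨hRs, hR's, ⟨⟨hR's, hF, (isInvariantIn_iff _ _).2 ⟨hsub, h₁, hinv, hfrat⟩⟩,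
    fun α hα => extension_of_extGood (h.extGood mor_R' hα)⟩,
    ⟨⟨hR's, hRs, (isInvariantIn_iff _ _).2 ⟨hsub', stronglyClosed_top R, ?_, ?_⟩⟩,
    fun α hα => extension_of_extGood (mem_extGood_self R (autGroup_mono hsub' S₁ hα))⟩,
    ⟨hRs, hF, (isInvariantIn_iff _ _).2 ⟨hsubR, h₁, ?_, ?_⟩⟩⟩
  · intro P f hf a ha X hX
    exact hinv P f hf a ⟨((mor_R _ _).1 ha.mor).2, ha.2⟩ X hX
  · intro P f hP hf
    obtain ⟨a, f₀, ha, hf₀, e⟩ := hfrat P f hP ((mor_R _ _).1 hf).2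
    exact ⟨a, f₀, ⟨(mor_R _ _).2 ⟨le_rfl, ha.mor⟩, ha.2⟩, hf₀, e⟩
  · intro P f hf a ha X hX
    obtain ⟨hP, hfF⟩ := (mor_R _ _).1 hf
    obtain ⟨a', ha', k1, k2⟩ := ha.symm
    have hXS : X ≤ S₁ := by
      intro y hy
      obtain ⟨x, hx, rfl⟩ := (hX y).1 hy
      exact ha.map_mem (hP hx)
    have hXP : ∀ y ∈ X, a' y ∈ P := by
      intro y hy
      obtain ⟨x, hx, rfl⟩ := (hX y).1 hy
      rw [k1 x (hP hx)]
      exact hx
    refine ⟨a ∘ f ∘ a', (mor_R _ _).2 ⟨hXS, ((ha'.mor.mono hXS).comp hfF hXP).comp ha.mor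
      (fun y hy => hf.mem (hXP y hy))⟩, fun x hx => ?_⟩
    show a (f (a' (a x))) = a (f x)
    rw [k1 x (hP hx)]
  · intro P f hP hf
    exact ⟨id, f, Iso.refl F h₁.1, (mor_R _ _).2 ⟨hP, hf⟩, fun _ _ => rfl⟩

end Cfsg.Agent.S5130
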