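import Cfsg.Statements.S5139
import Cfsg.Agent.Lib.Helper87.PPower
import Cfsg.Agent.Lib.Helper87.NormalSubgroupSystem
import Cfsg.Agent.Lib.Helper87.HyperfocalGroup
import Cfsg.Agent.S5093

set_option autoImplicit false
open Cfsg

namespace Cfsg.Agent.S5139

open Cfsg.Agent.Lib.Helper87 Cfsg.FusionSystem in
theorem residual_le_subgroup {G : Type*} [Group G] [Finite G] (p : ℕ) [Fact p.Prime]
    (S : Sylow p G) (P : Subgroup G) (hP : P ≤ (S : Subgroup G) ⊓ Cfsg.pResidual p G) :
    (Cfsg.pResidual p ((Cfsg.groupFusionSystem (S : Subgroup G)).autGroup P)).map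
      ((Cfsg.groupFusionSystem (S : Subgroup G)).autGroup P).subtype ≤
    (Cfsg.fusionSystemOfSubgroup (Cfsg.pResidual p G) ((S : Subgroup G) ⊓ Cfsg.pResidual p G)
      inf_le_right).autGroup P := by
  rw [Cfsg.Agent.Lib.Helper2.map_pResidual_subtype]
  refine (Subgroup.closure_le _).2 ?_
  rintro α ⟨hα, hc⟩
  have hPS : P ≤ (S : Subgroup G) := hP.trans inf_le_left
  obtain ⟨-, g, hg⟩ := (mor_group_iff _ _ _).1 ((mem_autGroup_iff _ hPS α).1 hα)
  have e : ∀ x : P, ((α x : P) : G) = g * x * g⁻¹ := fun x => by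
    rw [← autFun_coe α, (hg x x.2).1]
  obtain ⟨g', hg', e'⟩ := exists_coprime_inducing hc e
  rw [SetLike.mem_coe, mem_autGroup_iff _ hP α, mor_subgroup_iff]
  refine ⟨hP, g', Cfsg.Agent.Lib.Helper2.mem_pResidual_of_coprime hg', fun x hx => ?_⟩
  have h1 : autFun α x = g' * x * g'⁻¹ := by rw [autFun_apply α hx, e' ⟨x, hx⟩]
  exact ⟨h1, h1 ▸ hP (autFun_mem α hx)⟩


/-- Let G be a finite group with Sylow p-subgroup S and O^p(G) the subgroup generated by the elements of order prime to p. Then the p-residual subsystem of the fusion system of G on S — the saturated subsystem of p-power index over the hyperfocal subgroup — is the fusion system of O^p(G) on S ∩ O^p(G): its maps are exactly the conjugation maps by elements of O^p(G) between subgroups of S ∩ O^p(G). -/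
theorem result {G : Type*} [Group G] [Finite G] (p : ℕ) [Fact p.Prime] (S : Sylow p G) (E : Cfsg.FusionSystem ((Cfsg.groupFusionSystem (S : Subgroup G)).hyperfocalSubgroup p)) (hE : (Cfsg.groupFusionSystem (S : Subgroup G)).IsPResidual p E) : ∃ h : (S : Subgroup G) ⊓ Cfsg.pResidual p G ≤ Cfsg.pResidual p G, ∀ P : Subgroup G, E.Hom P = (Cfsg.fusionSystemOfSubgroup (Cfsg.pResidual p G) ((S : Subgroup G) ⊓ Cfsg.pResidual p G) h).Hom P := by
  have heq := Cfsg.Agent.S5093.result p S
  refine ⟨inf_le_right, fun P => ?_⟩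
  have hsyl := Cfsg.Agent.Lib.Helper87.isSylIn_inf_normal S (Cfsg.pResidual p G)
  have hinv := (Cfsg.Agent.Lib.Helper87.isInvariantIn_iff _ _).1
    (Cfsg.Agent.Lib.Helper87.invariant_normal_subgroup S (Cfsg.pResidual p G))
  have hTp : IsPGroup p ((Cfsg.groupFusionSystem (S : Subgroup G)).hyperfocalSubgroup p) :=
    S.isPGroup'.to_le (Cfsg.Agent.Lib.Helper87.hyperfocal_le _ p)
  have h1 := Cfsg.Agent.Lib.Helper87.isSubsystemOf_of_mor
    (Cfsg.Agent.Lib.Helper87.subsystem_of_residual_le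
      (E₀ := Cfsg.fusionSystemOfSubgroup (Cfsg.pResidual p G)
        ((S : Subgroup G) ⊓ Cfsg.pResidual p G) inf_le_right) hTp hE.1 hE.2.1 heq.le
      (fun P hP => residual_le_subgroup p S P (hP.trans heq.le)))
  have h2 := Cfsg.Agent.Lib.Helper87.isSubsystemOf_of_mor
    (Cfsg.Agent.Lib.Helper87.subsystem_of_residual_le (E₀ := E) hsyl.2.1
      (Cfsg.Agent.Lib.Helper87.saturated_subgroup hsyl) hinv.1 heq.ge
      (fun P hP => hE.2.2.2 P (hP.trans heq.ge)))
  exact Set.Subset.antisymm (h1 P) (h2 P)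

end Cfsg.Agent.S5139
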