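import Cfsg.Statements.S5160
import Cfsg.Agent.Lib.Helper88.GoingUp

set_option autoImplicit false
open Cfsg

namespace Cfsg.Agent.S5160

open Cfsg.FusionSystem Cfsg.Agent.Lib.Helper87 Cfsg.Agent.Lib.Helper88

/-- Let G be a finite group with nontrivial Sylow p-subgroup S and F its fusion system on S. Suppose (a) no nontrivial proper subgroup of S is strongly closed in F, and (b) the automorphisms of S induced by G are generated by those induced, for R running over the fully normalized radical centric subgroups of F, by the subgroup of N_G(R) generated by its elements of p-power order. Then F is simple. -/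
theorem result {G : Type*} [Group G] [Finite G] (p : ℕ) [Fact p.Prime] (S : Sylow p G) (hS1 : (S : Subgroup G) ≠ ⊥) (ha : ∀ T : Subgroup G, (Cfsg.groupFusionSystem (S : Subgroup G)).StronglyClosed T → T = ⊥ ∨ T = (S : Subgroup G)) (hb : Cfsg.autInducedBy ⊤ (S : Subgroup G) = ⨆ (R : Subgroup G) (_ : (Cfsg.groupFusionSystem (S : Subgroup G)).IsFullyNormalized R ∧ (Cfsg.groupFusionSystem (S : Subgroup G)).IsRadical p R ∧ (Cfsg.groupFusionSystem (S : Subgroup G)).IsCentric R), Cfsg.autInducedBy (Subgroup.closure {g : G | g ∈ Subgroup.normalizer (R : Set G) ∧ ∃ k : ℕ, orderOf g = p ^ k}) (S : Subgroup G)) : (Cfsg.groupFusionSystem (S : Subgroup G)).IsSimple p := by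
  classical
  have hSp : IsPGroup p (S : Subgroup G) := S.isPGroup'
  have hF : (Cfsg.groupFusionSystem (S : Subgroup G)).IsSaturated p := Deps.s5076 p S
  refine ⟨hF, hS1, fun T E hE => ?_⟩
  have hinv : E.IsInvariantIn (Cfsg.groupFusionSystem (S : Subgroup G)) := hE.1.2.2
  have hEsat : E.IsSaturated p := hE.1.1
  rcases ha T hinv.2.1 with hT | hT
  · exact Or.inl hT
  right
  refine ⟨hT, ?_⟩
  subst hT
  apply hom_eq_of_autGroup_le hinv
  have h1 : (Cfsg.groupFusionSystem (S : Subgroup G)).autGroup (S : Subgroup G)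
      = Cfsg.autInducedBy ⊤ (S : Subgroup G) := by
    ext α
    rw [mem_autGroup_iff _ le_rfl, mor_group_iff, mem_autInducedBy_iff]
    constructor
    · rintro ⟨-, g, hg⟩
      exact ⟨g, Subgroup.mem_top g, fun x => by rw [← (hg x x.2).1, autFun_coe]⟩
    · rintro ⟨g, -, hg⟩
      refine ⟨le_rfl, g, fun x hx => ⟨by rw [autFun_apply α hx, hg], ?_⟩⟩
      rw [← hg ⟨x, hx⟩]
      exact (α _).2
  rw [h1, hb]
  refine iSup_le fun R => iSup_le fun hR => ?_
  obtain ⟨hRfn, -, hRc⟩ := hR
  have hRS : R ≤ (S : Subgroup G) := hRc.1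
  have hRfa : (Cfsg.groupFusionSystem (S : Subgroup G)).IsFullyAutomized p R :=
    (((Deps.s5077 p hSp _).1 hF).1 R hRfn).2
  -- every element of the subgroup generated by the p-elements of N(R) induces a map of E on R
  have hK : ∀ g ∈ Subgroup.closure {g : G | g ∈ Subgroup.normalizer (R : Set G) ∧ ∃ k : ℕ, orderOf g = p ^ k},
      g ∈ Subgroup.normalizer (R : Set G) ∧ Iso E R R (fun x => g * x * g⁻¹) := by
    intro g hg
    induction hg using Subgroup.closure_induction with
    | mem g hg =>
      obtain ⟨hgN, k, hk⟩ := hg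
      refine ⟨hgN, ?_⟩
      let β : MulAut R := R.normalizerMonoidHom ⟨g, hgN⟩
      have hβx : ∀ x : R, ((β x : R) : G) = g * x * g⁻¹ := fun x => rfl
      have hβF : β ∈ (Cfsg.groupFusionSystem (S : Subgroup G)).autGroup R := by
        rw [mem_autGroup_iff _ hRS, mor_group_iff]
        refine ⟨hRS, g, fun x hx => ⟨by rw [autFun_apply β hx, hβx], ?_⟩⟩
        rw [← hβx ⟨x, hx⟩]
        exact hRS (β _).2
      have hβp : β ^ p ^ k = 1 := by
        show (R.normalizerMonoidHom ⟨g, hgN⟩) ^ p ^ k = 1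
        rw [← map_pow]
        have : (⟨g, hgN⟩ : Subgroup.normalizer (R : Set G)) ^ p ^ k = 1 := by
          apply Subtype.ext
          show g ^ p ^ k = 1
          rw [← hk]
          exact pow_orderOf_eq_one g
        rw [this, map_one]
      have hβE := pElement_mem_autGroup hinv hRfa hβF ⟨k, hβp⟩
      rw [mem_autGroup_iff E hRS] at hβE
      exact (iso_autFun hβE).congr (fun x hx => by rw [autFun_apply β hx, hβx])
    | one =>
      exact ⟨Subgroup.one_mem _, (Iso.refl E hRS).congr (fun x _ => by simp)⟩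
    | mul a b _ _ iha ihb =>
      refine ⟨Subgroup.mul_mem _ iha.1 ihb.1, (ihb.2.trans iha.2).congr (fun x _ => ?_)⟩
      show a * (b * x * b⁻¹) * a⁻¹ = a * b * x * (a * b)⁻¹
      group
    | inv a _ iha =>
      obtain ⟨j, hj, hj1, -⟩ := iha.2.symm
      refine ⟨Subgroup.inv_mem _ iha.1, hj.congr (fun y hy => ?_)⟩
      obtain ⟨x, hx, rfl⟩ := iha.2.surj hy
      rw [hj1 x hx]
      group
  intro α hα
  obtain ⟨g, hg, e⟩ := (mem_autInducedBy_iff _ _ α).1 hα
  have hαF : α ∈ (Cfsg.groupFusionSystem (S : Subgroup G)).autGroup (S : Subgroup G) := by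
    rw [h1, mem_autInducedBy_iff]
    exact ⟨g, Subgroup.mem_top g, e⟩
  rw [mem_autGroup_iff _ le_rfl] at hαF
  rw [mem_autGroup_iff E le_rfl]
  refine mor_top_of_centric hSp hEsat hF hinv.1 (iso_autFun hαF) hRc ?_
  exact (hK g hg).2.1.congr (fun x hx => by rw [autFun_apply α (hRS hx), e])

end Cfsg.Agent.S5160
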