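import Cfsg.Statements.S5163
import Cfsg.Agent.Lib.Helper89.UniSLNorm
-- import your own Cfsg.Agent.* helpers here

set_option autoImplicit false
open Cfsg

namespace Cfsg.Agent.S5163

/-- For a finite field K of characteristic p and n ≥ 3, the p-fusion system of the projective special linear group PSL_n(K) on a Sylow p-subgroup is simple. -/
theorem result {K : Type*} [Field K] [Fintype K] (p : ℕ) [Fact p.Prime] [CharP K p] (n : ℕ) (hn : 3 ≤ n) (S : Sylow p (Matrix.ProjectiveSpecialLinearGroup (Fin n) K)) : (Cfsg.groupFusionSystem (S : Subgroup (Matrix.ProjectiveSpecialLinearGroup (Fin n) K))).IsSimple p := by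
  classical
  have hfinSL : Finite (Matrix.SpecialLinearGroup (Fin n) K) := Subtype.finite
  have hfin : Finite (Matrix.ProjectiveSpecialLinearGroup (Fin n) K) :=
    Finite.of_surjective _ (QuotientGroup.mk'_surjective
      (Subgroup.center (Matrix.SpecialLinearGroup (Fin n) K)))
  have hsurj := QuotientGroup.mk'_surjective (Subgroup.center (Matrix.SpecialLinearGroup (Fin n) K))
  have hker := QuotientGroup.ker_mk' (Subgroup.center (Matrix.SpecialLinearGroup (Fin n) K))
  have hcop : (Nat.card (Subgroup.center (Matrix.SpecialLinearGroup (Fin n) K))).Coprime p := by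
    rw [Cfsg.Agent.Lib.Helper6.card_center_SL_field n (by omega)]
    obtain ⟨f, hf0, hf⟩ := Cfsg.Agent.Lib.Helper89.UT.exists_card_eq (K := K) p
    rw [Nat.card_eq_fintype_card] at hf
    refine Nat.Coprime.coprime_dvd_left (Nat.gcd_dvd_right _ _) ?_
    refine (Nat.Coprime.symm ?_)
    rw [Nat.Prime.coprime_iff_not_dvd (Fact.out : p.Prime)]
    intro hd
    have h5 : p ∣ Fintype.card K := by
      rw [hf]
      exact dvd_pow_self p hf0.ne'
    have h6 : 1 ≤ Fintype.card K := Fintype.card_pos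
    have h7 : p ∣ 1 := (Nat.dvd_sub_iff_right h6 h5).1 hd
    exact (Fact.out : p.Prime).one_lt.ne' (Nat.dvd_one.1 h7)
  have h1 : Cfsg.Agent.Lib.Helper89.GenHyp p ⊥ ((Cfsg.Agent.Lib.Helper89.UT.U n K).map
      (QuotientGroup.mk' (Subgroup.center (Matrix.SpecialLinearGroup (Fin n) K)))) := by
    refine Cfsg.Agent.Lib.Helper89.GenHyp.map _ hsurj (by rw [hker]) (by rw [hker]; exact hcop)
      (Cfsg.Agent.Lib.Helper89.UT.isPGroup_U p) ?_
    rw [hker]
    exact Cfsg.Agent.Lib.Helper89.UT.genHyp_U p hn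
  let S₀ : Sylow p (Matrix.ProjectiveSpecialLinearGroup (Fin n) K) :=
    (Cfsg.Agent.Lib.Helper89.UT.sylU (K := K) (n := n) p (by omega)).mapSurjective hsurj
  obtain ⟨c, hc⟩ := MulAction.exists_smul_eq (Matrix.ProjectiveSpecialLinearGroup (Fin n) K) S₀ S
  have h2 := Cfsg.Agent.Lib.Helper89.GenHyp.map_equiv (MulAut.conj c) S₀.2 h1
  have h3 : (S : Subgroup (Matrix.ProjectiveSpecialLinearGroup (Fin n) K)) =
      ((Cfsg.Agent.Lib.Helper89.UT.U n K).map
      (QuotientGroup.mk' (Subgroup.center (Matrix.SpecialLinearGroup (Fin n) K)))).map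
        (MulAut.conj c).toMonoidHom := by
    rw [← hc]
    rfl
  apply Cfsg.Agent.Lib.Helper89.simple_of_genHyp S
  rw [h3]
  exact h2

end Cfsg.Agent.S5163
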