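import Cfsg.Statements.S5164

set_option autoImplicit false
open Cfsg

namespace Cfsg.Agent.S5164

open Equiv
open scoped commutatorElement

theorem comm_of_lt {n p : ℕ} [Fact p.Prime] {Γ : Type*} [Group Γ] [Finite Γ] [MulAction Γ (Fin n)]
    [FaithfulSMul Γ (Fin n)] (hΓ : IsPGroup p Γ) (hn : n < p ^ 2) (g h : Γ) : g * h = h * g := by
  have hp : p.Prime := Fact.out
  have key : ∀ x : Fin n, commutator Γ ≤ MulAction.stabilizer Γ x := by
    intro x
    obtain ⟨k, hk⟩ := hΓ.index (MulAction.stabilizer Γ x)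
    have hle : (MulAction.stabilizer Γ x).index ≤ n := by
      rw [MulAction.index_stabilizer]
      calc (MulAction.orbit Γ x).ncard ≤ (Set.univ : Set (Fin n)).ncard :=
            Set.ncard_le_ncard (Set.subset_univ _) (Set.toFinite _)
        _ = n := by rw [Set.ncard_univ, Nat.card_eq_fintype_card, Fintype.card_fin]
    have hk2 : k < 2 := by
      by_contra hcon
      push Not at hcon
      have : p ^ 2 ≤ p ^ k := Nat.pow_le_pow_right hp.pos hcon
      omega
    have hnormal : (MulAction.stabilizer Γ x).Normal := by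
      interval_cases k
      · rw [pow_zero, Subgroup.index_eq_one] at hk
        rw [hk]; infer_instance
      · rw [pow_one] at hk
        apply Subgroup.normal_of_index_eq_minFac_card
        obtain ⟨m, hm⟩ := IsPGroup.iff_card.mp hΓ
        have hm0 : m ≠ 0 := by
          rintro rfl
          rw [pow_zero] at hm
          have := Subgroup.index_dvd_card (MulAction.stabilizer Γ x)
          rw [hm, hk] at this
          exact hp.one_lt.ne' (Nat.dvd_one.mp this)
        rw [hk, hm, hp.pow_minFac hm0]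
    rw [← Subgroup.Normal.quotient_commutative_iff_commutator_le]
    have hcard : Nat.card (Γ ⧸ MulAction.stabilizer Γ x) = p ^ k := by
      rw [← Subgroup.index_eq_card]; exact hk
    interval_cases k
    · rw [pow_zero] at hcard
      have := (Nat.card_eq_one_iff_unique.mp hcard).1
      exact ⟨⟨fun a b => Subsingleton.elim _ _⟩⟩
    · rw [pow_one] at hcard
      have := isCyclic_of_prime_card hcard
      exact IsCyclic.isMulCommutative
  have h1 : ⁅g, h⁆ = 1 := by
    apply FaithfulSMul.eq_of_smul_eq_smul (α := Fin n)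
    intro x
    rw [one_smul]
    exact key x (Subgroup.commutator_mem_commutator (Subgroup.mem_top g) (Subgroup.mem_top h))
  exact commutatorElement_eq_one_iff_mul_comm.mp h1

/-- Heisenberg-type subgroup of permutations of `ZMod p × ZMod p`. -/
def heis (p : ℕ) : Subgroup (Perm (ZMod p × ZMod p)) where
  carrier := {f | ∃ s t u : ZMod p, ∀ i j, f (i, j) = (i + s, j + t * i + u)}
  mul_mem' := by
    rintro f g ⟨s, t, u, hf⟩ ⟨s', t', u', hg⟩
    refine ⟨s' + s, t' + t, u' + t * s' + u, fun i j => ?_⟩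
    rw [Perm.mul_apply, hg, hf]
    ext <;> simp <;> ring
  one_mem' := ⟨0, 0, 0, fun i j => by simp⟩
  inv_mem' := by
    rintro f ⟨s, t, u, hf⟩
    refine ⟨-s, -t, -u + t * s, fun i j => ?_⟩
    rw [Perm.inv_eq_iff_eq, hf]
    ext <;> simp <;> ring

theorem heis_isPGroup (p : ℕ) [Fact p.Prime] : IsPGroup p (heis p) := by
  rintro ⟨f, s, t, u, hf⟩
  refine ⟨2, ?_⟩
  have c1 : ∀ m : ℕ, ∃ w : ZMod p, ∀ i j, (f ^ m) (i, j) = (i + m * s, j + m * t * i + w) := by
    intro m
    induction m with
    | zero => exact ⟨0, fun i j => by simp⟩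
    | succ m ih =>
      obtain ⟨w, hw⟩ := ih
      refine ⟨u + m * t * s + w, fun i j => ?_⟩
      rw [pow_succ, Perm.mul_apply, hf, hw]
      ext <;> simp <;> ring
  obtain ⟨w, hw⟩ := c1 p
  have c2 : ∀ m : ℕ, ∀ i j, ((f ^ p) ^ m) (i, j) = (i, j + m * w) := by
    intro m
    induction m with
    | zero => intro i j; simp
    | succ m ih =>
      intro i j
      rw [pow_succ, Perm.mul_apply, hw, ih]
      ext <;> simp <;> ring
  apply Subtype.ext
  rw [Subgroup.coe_pow, Subgroup.coe_one, sq, pow_mul]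
  ext ⟨i, j⟩ <;> rw [c2] <;> simp

def heisA (p : ℕ) : Perm (ZMod p × ZMod p) :=
  ⟨fun x => (x.1 + 1, x.2), fun x => (x.1 - 1, x.2), fun x => by simp, fun x => by simp⟩

def heisB (p : ℕ) : Perm (ZMod p × ZMod p) :=
  ⟨fun x => (x.1, x.2 + x.1), fun x => (x.1, x.2 - x.1), fun x => by simp, fun x => by simp⟩

theorem heisA_mem (p : ℕ) : heisA p ∈ heis p := ⟨1, 0, 0, fun i j => by simp [heisA]⟩
theorem heisB_mem (p : ℕ) : heisB p ∈ heis p := ⟨0, 1, 0, fun i j => by simp [heisB]⟩
theorem heis_ne (p : ℕ) [Fact p.Prime] : heisA p * heisB p ≠ heisB p * heisA p := by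
  intro h
  have := congrArg (fun f : Perm (ZMod p × ZMod p) => (f (0, 0)).2) h
  simp [heisA, heisB] at this

def d8x : Perm (Fin 6) := swap 0 2 * swap 1 3
def d8t : Perm (Fin 6) := swap 0 1 * swap 4 5

def d8list : List (Perm (Fin 6)) :=
  [1, d8x, d8t, d8x * d8t, d8t * d8x, d8x * d8t * d8x, d8t * d8x * d8t, d8x * d8t * d8x * d8t]

set_option maxRecDepth 100000 in
theorem d8_mul : ∀ a ∈ d8list, ∀ b ∈ d8list, a * b ∈ d8list := by decide

set_option maxRecDepth 100000 in
theorem d8_pow : ∀ a ∈ d8list, a ^ 4 = 1 ∧ Perm.sign a = 1 ∧ a⁻¹ ∈ d8list := by decide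

theorem d8_ne : d8x * d8t ≠ d8t * d8x := by decide

def d8 : Subgroup (Perm (Fin 6)) where
  carrier := {f | f ∈ d8list}
  mul_mem' := fun {a b} ha hb => d8_mul a ha b hb
  one_mem' := by simp [d8list]
  inv_mem' := fun {a} ha => (d8_pow a ha).2.2

theorem d8_isPGroup : IsPGroup 2 d8 := by
  rintro ⟨f, hf⟩
  refine ⟨2, ?_⟩
  apply Subtype.ext
  rw [Subgroup.coe_pow, Subgroup.coe_one]
  exact (d8_pow f hf).1

/-- A nonabelian `p`-subgroup of the alternating group prevents abelian Sylow `p`-subgroups. -/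
theorem not_comm_of_subgroup {n p : ℕ} [Fact p.Prime] (S : Sylow p (alternatingGroup (Fin n)))
    (K : Subgroup (Perm (Fin n))) (hK : IsPGroup p K) (hKA : K ≤ alternatingGroup (Fin n))
    (a b : Perm (Fin n)) (ha : a ∈ K) (hb : b ∈ K) (hab : a * b ≠ b * a) :
    ¬ IsMulCommutative S := by
  intro hcomm
  have hK' : IsPGroup p (K.subgroupOf (alternatingGroup (Fin n))) := hK.comap_subtype
  obtain ⟨Q, hQ⟩ := hK'.exists_le_sylow
  obtain ⟨g, hg⟩ := MulAction.exists_smul_eq (alternatingGroup (Fin n)) Q S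
  have ha' : (⟨a, hKA ha⟩ : alternatingGroup (Fin n)) ∈ Q := hQ (Subgroup.mem_subgroupOf.mpr ha)
  have hb' : (⟨b, hKA hb⟩ : alternatingGroup (Fin n)) ∈ Q := hQ (Subgroup.mem_subgroupOf.mpr hb)
  have hmem : ∀ x ∈ Q, g * x * g⁻¹ ∈ S := by
    intro x hx
    rw [← hg]
    exact Subgroup.smul_mem_pointwise_smul x (MulAut.conj g) _ hx
  have h1 := (isMulCommutative_iff.mp hcomm) ⟨_, hmem _ ha'⟩ ⟨_, hmem _ hb'⟩
  have h2 := congrArg (fun x : S => ((x : alternatingGroup (Fin n)) : Perm (Fin n))) h1
  simp only [Subgroup.coe_mul, MulMemClass.mk_mul_mk, Subgroup.coe_inv] at h2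
  apply hab
  have h3 : (g : Perm (Fin n)) * (a * b) * (g : Perm (Fin n))⁻¹
      = (g : Perm (Fin n)) * (b * a) * (g : Perm (Fin n))⁻¹ := by
    calc (g : Perm (Fin n)) * (a * b) * (g : Perm (Fin n))⁻¹
        = (g : Perm (Fin n)) * a * (g : Perm (Fin n))⁻¹ * ((g : Perm (Fin n)) * b * (g : Perm (Fin n))⁻¹) := by group
      _ = (g : Perm (Fin n)) * b * (g : Perm (Fin n))⁻¹ * ((g : Perm (Fin n)) * a * (g : Perm (Fin n))⁻¹) := h2
      _ = _ := by group
  exact mul_left_cancel (mul_right_cancel h3)

/-- For n ≥ 6 and a prime p, a nontrivial Sylow p-subgroup of the alternating group of degree n is abelian if and only if n < p². -/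
theorem result (n p : ℕ) (hn : 6 ≤ n) [Fact p.Prime] (S : Sylow p (alternatingGroup (Fin n))) (hS : (S : Subgroup (alternatingGroup (Fin n))) ≠ ⊥) : IsMulCommutative S ↔ n < p ^ 2 := by
  have hp : p.Prime := Fact.out
  constructor
  · intro hcomm
    by_contra hlt
    push Not at hlt
    revert hcomm
    by_cases hp2 : p = 2
    · subst hp2
      let φ := Perm.viaEmbeddingHom (Fin.castLEEmb hn)
      have hφ : Function.Injective φ := Perm.viaEmbeddingHom_injective _
      refine not_comm_of_subgroup S (d8.map φ) (d8_isPGroup.map φ) ?_ (φ d8x) (φ d8t)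
        (Subgroup.mem_map_of_mem _ (by simp [d8, d8list]))
        (Subgroup.mem_map_of_mem _ (by simp [d8, d8list])) ?_
      · rintro _ ⟨f, hf, rfl⟩
        rw [Perm.mem_alternatingGroup]
        have : Perm.sign (φ f) = Perm.sign f := by
          classical
          have h := Perm.sign_extendDomain f (Equiv.ofInjective (Fin.castLEEmb hn).1 (Fin.castLEEmb hn).2)
          convert h using 2
          ext x
          simp only [φ, Perm.viaEmbeddingHom_apply, Perm.viaEmbedding]
          congr
        rw [this]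
        exact (d8_pow f hf).2.1
      · rw [← map_mul, ← map_mul]
        exact fun h => d8_ne (hφ h)
    · have hcard : Fintype.card (ZMod p × ZMod p) ≤ Fintype.card (Fin n) := by
        rw [Fintype.card_prod, ZMod.card, Fintype.card_fin, ← sq]; exact hlt
      obtain ⟨ι⟩ := Function.Embedding.nonempty_of_card_le hcard
      let φ := Perm.viaEmbeddingHom ι
      have hφ : Function.Injective φ := Perm.viaEmbeddingHom_injective _
      have hKp : IsPGroup p ((heis p).map φ) := (heis_isPGroup p).map φ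
      refine not_comm_of_subgroup S ((heis p).map φ) hKp ?_ (φ (heisA p)) (φ (heisB p))
        (Subgroup.mem_map_of_mem _ (heisA_mem p))
        (Subgroup.mem_map_of_mem _ (heisB_mem p)) ?_
      · intro f hf
        rw [Perm.mem_alternatingGroup]
        obtain ⟨k, hk⟩ := hKp ⟨f, hf⟩
        have hk' : f ^ p ^ k = 1 := by
          have := congrArg Subtype.val hk
          simpa using this
        have hs : (Perm.sign f) ^ p ^ k = 1 := by rw [← map_pow, hk', map_one]
        rcases Int.units_eq_one_or (Perm.sign f) with h | h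
        · exact h
        · rw [h, Odd.neg_one_pow ((hp.odd_of_ne_two hp2).pow)] at hs
          exact absurd hs (by decide)
      · rw [← map_mul, ← map_mul]
        exact fun h => heis_ne p (hφ h)
  · intro hlt
    exact isMulCommutative_iff.mpr (comm_of_lt S.isPGroup' hlt)

end Cfsg.Agent.S5164
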