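import Cfsg.Statements.S5171
import Cfsg.Agent.Lib.Helper89.SpGen
-- import your own Cfsg.Agent.* helpers here

set_option autoImplicit false
open Cfsg

namespace Cfsg.Agent.S5171

/-- For a finite field K of characteristic p and m ≥ 2, excluding the case m = 2 with K of two elements, the p-fusion system of the projective symplectic group PSp_{2m}(K) on a Sylow p-subgroup is simple. -/
theorem result {K : Type*} [Field K] [Fintype K] (p : ℕ) [Fact p.Prime] [CharP K p] (m : ℕ) (hm : 2 ≤ m) (hex : m = 2 → 3 ≤ Fintype.card K) (S : Sylow p (Cfsg.PSp m K)) : (Cfsg.groupFusionSystem (S : Subgroup (Cfsg.PSp m K))).IsSimple p := by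
  classical
  have hfinSp : Finite (Matrix.symplecticGroup (Fin m) K) := Cfsg.Agent.Lib.Helper89.SpF.finite_Sp
  have hfin : Finite (Cfsg.PSp m K) :=
    Finite.of_surjective _ (QuotientGroup.mk'_surjective
      (Subgroup.center (Matrix.symplecticGroup (Fin m) K)))
  have hsurj := QuotientGroup.mk'_surjective (Subgroup.center (Matrix.symplecticGroup (Fin m) K))
  have hker := QuotientGroup.ker_mk' (Subgroup.center (Matrix.symplecticGroup (Fin m) K))
  have hcop : (Nat.card (Subgroup.center (Matrix.symplecticGroup (Fin m) K))).Coprime p :=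
    Cfsg.Agent.Lib.Helper89.SpF.coprime_card_center p (by omega)
  have h1 : Cfsg.Agent.Lib.Helper89.GenHyp p ⊥ ((Cfsg.Agent.Lib.Helper89.SpF.U m K).map
      (QuotientGroup.mk' (Subgroup.center (Matrix.symplecticGroup (Fin m) K)))) := by
    refine Cfsg.Agent.Lib.Helper89.GenHyp.map _ hsurj (by rw [hker]) (by rw [hker]; exact hcop)
      (Cfsg.Agent.Lib.Helper89.SpF.isPGroup_U p) ?_
    rw [hker]
    exact Cfsg.Agent.Lib.Helper89.SpF.genHyp_U p hm
      (fun h => by rw [Nat.card_eq_fintype_card]; exact hex h)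
  obtain ⟨P, hP⟩ := Cfsg.Agent.Lib.Helper89.SpF.exists_sylow_U (F := K) (m := m) p
  let S₀ : Sylow p (Cfsg.PSp m K) := P.mapSurjective hsurj
  obtain ⟨c, hc⟩ := MulAction.exists_smul_eq (Cfsg.PSp m K) S₀ S
  have h2 := Cfsg.Agent.Lib.Helper89.GenHyp.map_equiv (MulAut.conj c)
    ((Cfsg.Agent.Lib.Helper89.SpF.isPGroup_U p).map _) h1
  have h3 : (S : Subgroup (Cfsg.PSp m K)) =
      ((Cfsg.Agent.Lib.Helper89.SpF.U m K).map
      (QuotientGroup.mk' (Subgroup.center (Matrix.symplecticGroup (Fin m) K)))).map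
        (MulAut.conj c).toMonoidHom := by
    rw [← hc, ← hP]
    rfl
  apply Cfsg.Agent.Lib.Helper89.simple_of_genHyp S
  rw [h3]
  exact h2

end Cfsg.Agent.S5171
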