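import Cfsg.Statements.S5172
import Cfsg.Agent.Lib.Helper89.SUGen
-- import your own Cfsg.Agent.* helpers here

set_option autoImplicit false
open Cfsg

namespace Cfsg.Agent.S5172

/-- For a finite field K with q² elements of characteristic p and n ≥ 4, the p-fusion system of the projective special unitary group PSU_n(q) (realised over K) on a Sylow p-subgroup is simple. -/
theorem result {K : Type*} [Field K] [Fintype K] (p q : ℕ) [Fact p.Prime] [CharP K p] (hK : Fintype.card K = q ^ 2) (n : ℕ) (hn : 4 ≤ n) (S : Sylow p (Cfsg.PSU n K q)) : (Cfsg.groupFusionSystem (S : Subgroup (Cfsg.PSU n K q))).IsSimple p := by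
  classical
  have hfinSU : Finite ↥(Cfsg.SU n K q) := Cfsg.Agent.Lib.Helper89.SUF.finite_SU
  have hfin : Finite (Cfsg.PSU n K q) :=
    Finite.of_surjective _ (QuotientGroup.mk'_surjective (Subgroup.center ↥(Cfsg.SU n K q)))
  have hsurj := QuotientGroup.mk'_surjective (Subgroup.center ↥(Cfsg.SU n K q))
  have hker := QuotientGroup.ker_mk' (Subgroup.center ↥(Cfsg.SU n K q))
  have hcop : (Nat.card (Subgroup.center ↥(Cfsg.SU n K q))).Coprime p := by
    rw [Cfsg.Agent.Lib.Helper50.Herm.card_center_SU hK n (by omega)]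
    refine Nat.Coprime.coprime_dvd_left (Nat.gcd_dvd_right _ _) ?_
    refine (Nat.Coprime.symm ?_)
    rw [Nat.Prime.coprime_iff_not_dvd (Fact.out : p.Prime)]
    intro hd
    have h5 : p ∣ q := by
      obtain ⟨f, hf0, hf⟩ := Cfsg.Agent.Lib.Helper89.UT.exists_card_eq (K := K) p
      rw [Nat.card_eq_fintype_card, hK] at hf
      have h6 : p ∣ q ^ 2 := by
        rw [hf]
        exact dvd_pow_self p hf0.ne'
      exact (Fact.out : p.Prime).dvd_of_dvd_pow h6
    have h7 : p ∣ 1 := (Nat.dvd_add_right h5).1 hd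
    exact (Fact.out : p.Prime).one_lt.ne' (Nat.dvd_one.1 h7)
  obtain ⟨b, hb⟩ := Cfsg.Agent.Lib.Helper89.SUF.exists_WB (n := n) hK
  have h1 : Cfsg.Agent.Lib.Helper89.GenHyp p ⊥ ((Cfsg.Agent.Lib.Helper89.SUF.U hb).map
      (QuotientGroup.mk' (Subgroup.center ↥(Cfsg.SU n K q)))) := by
    refine Cfsg.Agent.Lib.Helper89.GenHyp.map _ hsurj (by rw [hker]) (by rw [hker]; exact hcop)
      (Cfsg.Agent.Lib.Helper89.SUF.isPGroup_U hb p) ?_
    rw [hker]
    exact Cfsg.Agent.Lib.Helper89.SUF.genHyp_U hK hb p hn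
  obtain ⟨P, hP⟩ := Cfsg.Agent.Lib.Helper89.SUF.exists_sylow_U hK hb p
  let S₀ : Sylow p (Cfsg.PSU n K q) := P.mapSurjective hsurj
  obtain ⟨c, hc⟩ := MulAction.exists_smul_eq (Cfsg.PSU n K q) S₀ S
  have h2 := Cfsg.Agent.Lib.Helper89.GenHyp.map_equiv (MulAut.conj c)
    ((Cfsg.Agent.Lib.Helper89.SUF.isPGroup_U hb p).map _) h1
  have h3 : (S : Subgroup (Cfsg.PSU n K q)) =
      ((Cfsg.Agent.Lib.Helper89.SUF.U hb).map
      (QuotientGroup.mk' (Subgroup.center ↥(Cfsg.SU n K q)))).map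
        (MulAut.conj c).toMonoidHom := by
    rw [← hc, ← hP]
    rfl
  apply Cfsg.Agent.Lib.Helper89.simple_of_genHyp S
  rw [h3]
  exact h2

end Cfsg.Agent.S5172
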