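import Cfsg.Statements.S5345
-- import your own Cfsg.Agent.* helpers here

set_option autoImplicit false
open Cfsg

namespace Cfsg.Agent.S5345

theorem two_group_closure {G : Type*} [Group G] (E : Set G) (h2 : ∀ e ∈ E, e ^ 2 = 1)
    (hc : ∀ a ∈ E, ∀ b ∈ E, a * b = b * a) : IsPGroup 2 (Subgroup.closure E) := by
  have hcomm : IsMulCommutative (Subgroup.closure E) := Subgroup.isMulCommutative_closure hc
  have key : ∀ x ∈ Subgroup.closure E, x ^ 2 = 1 := by
    intro x hx
    induction hx using Subgroup.closure_induction with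
    | mem x hx => exact h2 x hx
    | one => simp
    | mul x y hx hy ihx ihy =>
      have : Commute x y := setLike_mul_comm hx hy
      rw [this.mul_pow, ihx, ihy, one_mul]
    | inv x hx ih => rw [inv_pow, ih, inv_one]
  intro g
  refine ⟨1, ?_⟩
  apply Subtype.ext
  simpa using key g g.2

theorem comm_of_mem {G : Type*} [Group G] {D : Set G} (hD : Cfsg.IsThreeTranspositionSet D)
    (T : Subgroup G) (hT : IsPGroup 2 T) (d e : G) (hd : d ∈ D) (he : e ∈ D) (hdT : d ∈ T) (heT : e ∈ T) :
    d * e = e * d := by
  have hd2 : d * d = 1 := by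
    have := hD.1 d hd
    rw [← pow_two, ← this, pow_orderOf_eq_one]
  have he2 : e * e = 1 := by
    have := hD.1 e he
    rw [← pow_two, ← this, pow_orderOf_eq_one]
  have hsq : (d * e) ^ 2 = 1 := by
    rcases hD.2 d hd e he with h | h
    · exact h
    · obtain ⟨k, hk⟩ := hT ⟨d * e, T.mul_mem hdT heT⟩
      have hk' : (d * e) ^ (2 ^ k) = 1 := by
        have := congrArg Subtype.val hk
        simpa using this
      have h1 : orderOf (d * e) ∣ 2 ^ k := orderOf_dvd_of_pow_eq_one hk'
      have h3 : orderOf (d * e) ∣ 3 := orderOf_dvd_of_pow_eq_one h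
      have hcop : Nat.Coprime (2 ^ k) 3 := Nat.Coprime.pow_left k (by norm_num)
      have : orderOf (d * e) = 1 := Nat.eq_one_of_dvd_coprimes hcop h1 h3
      rw [orderOf_eq_one_iff] at this
      rw [this, one_pow]
  have h4 : d * e * (d * e) = 1 := by rw [← pow_two]; exact hsq
  calc d * e = d * e * (d * e * (e * d)) := by
        have : d * e * (e * d) = 1 := by
          calc d * e * (e * d) = d * (e * e) * d := by group
            _ = 1 := by rw [he2, mul_one, hd2]
        rw [this, mul_one]
    _ = (d * e * (d * e)) * (e * d) := by group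
    _ = e * d := by rw [h4, one_mul]

/-- Let D be a conjugation-invariant generating set of 3-transpositions of a finite group G and T a Sylow 2-subgroup of G. Then the members of D lying in T generate an abelian subgroup, and their number is the width of D (the largest number of pairwise commuting members of D). -/
theorem result {G : Type*} [Group G] [Finite G] {D : Set G} (hD : Cfsg.IsThreeTranspositionGroup D) (T : Sylow 2 G) : IsMulCommutative (Subgroup.closure {d : G | d ∈ D ∧ d ∈ T}) ∧ {d : G | d ∈ D ∧ d ∈ T}.ncard = Cfsg.commutingWidth D := by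
  obtain ⟨hD3, hconj, -⟩ := hD
  have hcomm : ∀ a ∈ {d : G | d ∈ D ∧ d ∈ T}, ∀ b ∈ {d : G | d ∈ D ∧ d ∈ T}, a * b = b * a := by
    rintro a ⟨ha, haT⟩ b ⟨hb, hbT⟩
    exact comm_of_mem hD3 T T.2 a b ha hb haT hbT
  refine ⟨Subgroup.isMulCommutative_closure hcomm, ?_⟩
  unfold Cfsg.commutingWidth
  apply le_antisymm
  · apply le_csSup
    · refine ⟨Nat.card G, ?_⟩
      rintro n ⟨E, -, -, -, rfl⟩
      rw [← Nat.card_coe_set_eq]
      exact Nat.card_le_card_of_injective _ Subtype.val_injective
    · exact ⟨_, fun d hd => hd.1, Set.toFinite _, fun a ha b hb => hcomm a ha b hb, rfl⟩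
  · apply csSup_le
    · exact ⟨_, ∅, Set.empty_subset _, Set.finite_empty, by simp, rfl⟩
    · rintro n ⟨E, hED, -, hEc, rfl⟩
      have h2 : ∀ e ∈ E, e ^ 2 = 1 := by
        intro e he
        have := hD3.1 e (hED he)
        rw [← this, pow_orderOf_eq_one]
      have hp := two_group_closure E h2 (fun a ha b hb => (hEc a ha b hb).eq)
      obtain ⟨T', hT'⟩ := hp.exists_le_sylow
      obtain ⟨g, hg⟩ := MulAction.exists_smul_eq G T' T
      apply Set.ncard_le_ncard_of_injOn (fun x => g * x * g⁻¹) _ _ (Set.toFinite _)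
      · intro e he
        refine ⟨hconj g e (hED he), ?_⟩
        show g * e * g⁻¹ ∈ (T : Subgroup G)
        rw [← hg]
        exact ⟨e, hT' (Subgroup.subset_closure he), rfl⟩
      · intro a _ b _ hab
        exact mul_left_cancel (mul_right_cancel hab)

end Cfsg.Agent.S5345
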