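import Cfsg.Statements.S5346
import Cfsg.Agent.Lib.Helper91.WidthOne

set_option autoImplicit false
open Cfsg

namespace Cfsg.Agent.S5346


open Cfsg.Agent.Lib.Helper91

theorem braided_of_noncommuting {G : Type*} [Group G] {D : Set G} (hS : IsThreeTranspositionSet D)
    (hconj : ∀ g : G, ∀ d ∈ D, g * d * g⁻¹ ∈ D)
    (hnc : ∀ a ∈ D, ∀ b ∈ D, Commute a b → a = b) : Braided D where
  sq := fun x hx => tt_sq hS hx
  br := by
    intro x hx y hy
    by_cases h : Commute x y
    · rw [hnc x hx y hy h]
    · exact tt_braid hS hx hy h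
  cj := by
    intro x hx y hy
    have := hconj x y hy
    rwa [tt_inv hS hx] at this

theorem width_set_bdd {G : Type*} [Group G] [Finite G] (D : Set G) :
    BddAbove {n : ℕ | ∃ E : Set G, E ⊆ D ∧ E.Finite ∧ (∀ a ∈ E, ∀ b ∈ E, Commute a b) ∧ E.ncard = n} := by
  refine ⟨Nat.card G, ?_⟩
  rintro n ⟨E, -, -, -, rfl⟩
  rw [← Set.ncard_univ]
  exact Set.ncard_le_ncard (Set.subset_univ _) (Set.toFinite _)

/-- Let D be a conjugation-invariant generating set of 3-transpositions of a finite group G and d a member of D. Then D has width 1 (no two different members of D commute) if and only if G is the product of the subgroup generated by d with the largest normal 3-subgroup of G. -/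
theorem result {G : Type*} [Group G] [Finite G] {D : Set G} (hD : Cfsg.IsThreeTranspositionGroup D) {d : G} (hd : d ∈ D) : Cfsg.commutingWidth D = 1 ↔ Subgroup.zpowers d ⊔ Cfsg.pCore 3 G = ⊤ := by
  obtain ⟨hS, hconj, hgen⟩ := hD
  have : Fact (Nat.Prime 3) := ⟨Nat.prime_three⟩
  have hnorm : (pCore 3 G).Normal := pCore_normal' 3
  constructor
  · intro hw
    have hnc : ∀ a ∈ D, ∀ b ∈ D, Commute a b → a = b := by
      intro a ha b hb hab
      by_contra hne
      have h2 : 2 ≤ commutingWidth D := by
        apply le_csSup (width_set_bdd D)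
        refine ⟨{a, b}, ?_, Set.toFinite _, ?_, Set.ncard_pair hne⟩
        · rintro x (rfl | rfl)
          · exact ha
          · exact hb
        · rintro x (rfl | rfl) y (rfl | rfl)
          · exact Commute.refl _
          · exact hab
          · exact hab.symm
          · exact Commute.refl _
      omega
    have W := braided_of_noncommuting hS hconj hnc
    rw [eq_top_iff, ← hgen, Subgroup.closure_le]
    intro x hx
    have h1 : d * x ∈ pCore 3 G := W.mul_mem_pCore hconj hd hx
    have h2 : x = d * (d * x) := by rw [← mul_assoc, tt_sq hS hd, one_mul]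
    show x ∈ Subgroup.zpowers d ⊔ pCore 3 G
    rw [h2]
    exact mul_mem (Subgroup.mem_sup_left (Subgroup.mem_zpowers d)) (Subgroup.mem_sup_right h1)
  · intro htop
    have hp3 : IsPGroup 3 (pCore 3 G) := pCore_isPGroup' 3
    -- every member of D is in d * O_3
    have hcoset : ∀ a ∈ D, d * a ∈ pCore 3 G := by
      intro a ha
      have ham : a ∈ Subgroup.zpowers d ⊔ pCore 3 G := by rw [htop]; trivial
      rw [Subgroup.mem_sup_of_normal_right] at ham
      obtain ⟨y, hy, n, hn, rfl⟩ := ham
      obtain ⟨k, rfl⟩ := Subgroup.mem_zpowers_iff.mp hy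
      rcases Int.even_or_odd k with ⟨j, hj⟩ | ⟨j, hj⟩
      · exfalso
        have h1 : d ^ k = 1 := by
          rw [hj, ← two_mul, zpow_mul, zpow_two, tt_sq hS hd, one_zpow]
        rw [h1, one_mul] at ha
        have := eq_one_of_mem_pGroup_of_pow hp3 hn (m := 2) (by norm_num)
          (by rw [pow_two]; exact tt_sq hS ha)
        exact tt_ne_one hS ha this
      · have h1 : d ^ k = d := by
          rw [hj, zpow_add, zpow_mul, zpow_two, tt_sq hS hd, one_zpow, one_mul, zpow_one]
        rw [h1, ← mul_assoc, tt_sq hS hd, one_mul]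
        exact hn
    have hnc : ∀ a ∈ D, ∀ b ∈ D, Commute a b → a = b := by
      intro a ha b hb hab
      have h1 : a * b ∈ pCore 3 G := by
        have : a * b = (d * a)⁻¹ * (d * b) := by
          rw [mul_inv_rev, tt_inv hS ha, mul_assoc, inv_mul_cancel_left]
        rw [this]
        exact mul_mem (inv_mem (hcoset a ha)) (hcoset b hb)
      have h2 : (a * b) ^ 2 = 1 := by
        rw [hab.mul_pow, pow_two, pow_two, tt_sq hS ha, tt_sq hS hb, one_mul]
      have h3 := eq_one_of_mem_pGroup_of_pow hp3 h1 (m := 2) (by norm_num) h2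
      rw [← tt_inv hS hb]
      exact eq_inv_of_mul_eq_one_left h3
    have hone : (1 : ℕ) ∈ {n : ℕ | ∃ E : Set G, E ⊆ D ∧ E.Finite ∧
        (∀ a ∈ E, ∀ b ∈ E, Commute a b) ∧ E.ncard = n} :=
      ⟨{d}, by simpa using hd, Set.toFinite _, by simp, by simp⟩
    apply le_antisymm
    · apply csSup_le ⟨1, hone⟩
      rintro n ⟨E, hE, -, hc, rfl⟩
      rw [Set.ncard_le_one (Set.toFinite _)]
      intro a ha b hb
      exact hnc a (hE ha) b (hE hb) (hc a ha b hb)
    · exact le_csSup (width_set_bdd D) hone

end Cfsg.Agent.S5346
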