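import Cfsg.Statements.S5355
import Cfsg.Agent.Lib.Helper91.VClass
import Cfsg.Agent.S5344

set_option autoImplicit false
open Cfsg

namespace Cfsg.Agent.S5355


open Cfsg.Agent.Lib.Helper91

theorem lemT {G : Type*} [Group G] {D : Set G} (hS : IsThreeTranspositionSet D)
    (hconj : ∀ g : G, ∀ d ∈ D, g * d * g⁻¹ ∈ D) {u u' c : G} (hc : c ∈ D) (hne : u ≠ u')
    (hV : VRel D u u') (hnc : ¬ Commute u c) :
    (u * u') * c * (u * u') ∈ D ∧ Commute ((u * u') * c * (u * u')) c ∧
      (u * u') * c * (u * u') ≠ c := by
  have hu := hV.1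
  have hu' := hV.2.1
  have hcomm : u * u' = u' * u := hV.commute.eq
  have hnc' : ¬ Commute u' c := fun h => hnc ((hV.2.2 c hc).mpr h)
  have b1 := tt_braid hS hu hc hnc
  have b2 := tt_braid hS hu' hc hnc'
  have s1 := tt_sq hS hu
  have s2 := tt_sq hS hu'
  have s3 := tt_sq hS hc
  refine ⟨?_, ?_, ?_⟩
  · have h1 := hconj u _ (hconj u' c hc)
    rw [tt_inv hS hu, tt_inv hS hu'] at h1
    have e : u * u' * c * (u * u') = u * (u' * c * u') * u := by
      rw [show u * u' * c * (u * u') = u * u' * c * (u' * u) by rw [hcomm]]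
      simp only [mul_assoc]
    rw [e]; exact h1
  · show (u * u') * c * (u * u') * c = c * ((u * u') * c * (u * u'))
    grind (acSteps := 100000)
  · intro h
    apply hne
    grind (acSteps := 100000)

theorem w_tsr {G : Type*} [Group G] (d a v : G) (hd : d * d = 1) (ha : a * a = 1) (hv : v * v = 1)
    (h1 : d * a * d = a * d * a) (h2 : a * v * a = v * a * v) (h3 : d * v = v * d) :
    (a * d * a) * (a * v * a) = (d * v) * (a * (d * a * v * a * d)) ∧
    (d * v) * (d * v) = 1 := by
  constructor <;> grind (acSteps := 100000)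

/-- Let D be a conjugacy class of 3-transpositions generating the finite group G, with at least two members, and d a member of D. Suppose that every member of D commuting with d commutes with exactly the same members of D as d does, and that exactly one member of D other than d commutes with d. Then G is isomorphic to the symmetric group of degree 4. -/
theorem result {G : Type*} [Group G] [Finite G] {D : Set G} (hD : Cfsg.IsThreeTranspositionClass D) (hD2 : ∃ a ∈ D, ∃ b ∈ D, a ≠ b) {d : G} (hd : d ∈ D) (hV : {y : G | y ∈ D ∧ Commute d y} = {v : G | v ∈ D ∧ ∀ e ∈ D, Commute v e ↔ Commute d e}) (hm : {y : G | y ∈ D ∧ Commute d y}.ncard = 2) : Nonempty (G ≃* Equiv.Perm (Fin 4)) := by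
  have hG := tt_class_toGroup hD
  obtain ⟨hS, hconj, hgen⟩ := id hG
  -- the partner of d
  obtain ⟨x, y, hxy, hset⟩ := Set.ncard_eq_two.mp hm
  have hdm : d ∈ {y : G | y ∈ D ∧ Commute d y} := ⟨hd, Commute.refl d⟩
  obtain ⟨v, hvd, hset'⟩ : ∃ v, v ≠ d ∧ {y : G | y ∈ D ∧ Commute d y} = {d, v} := by
    rw [hset] at hdm
    rcases hdm with rfl | rfl
    · exact ⟨y, hxy.symm, hset⟩
    · exact ⟨x, hxy, by rw [hset, Set.pair_comm]⟩
  have hvm : v ∈ {y : G | y ∈ D ∧ Commute d y} := by rw [hset']; simp
  have hvD : v ∈ D := hvm.1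
  have hVdv : VRel D d v := by
    have : v ∈ {v : G | v ∈ D ∧ ∀ e ∈ D, Commute v e ↔ Commute d e} := by rw [← hV]; exact hvm
    exact ⟨hd, hvD, fun e he => (this.2 e he).symm⟩
  -- centralizers of conjugates
  have hcent : ∀ g : G, ∀ y ∈ D, Commute (g * d * g⁻¹) y → y = g * d * g⁻¹ ∨ y = g * v * g⁻¹ := by
    intro g y hy hc
    have h1 : g⁻¹ * y * g ∈ D := by
      have := hconj g⁻¹ y hy
      rwa [inv_inv] at this
    have h2 : Commute d (g⁻¹ * y * g) := (commute_conj_iff g d y).mp hc
    have h3 : g⁻¹ * y * g ∈ ({d, v} : Set G) := by rw [← hset']; exact ⟨h1, h2⟩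
    rcases h3 with h | h
    · left; rw [← h]; group
    · right
      rw [Set.mem_singleton_iff] at h
      rw [← h]; group
  obtain ⟨a, ha, hda⟩ := tt_exists_not_commute hD hD2 hd
  have hva : ¬ Commute v a := fun h => hda ((hVdv.2.2 a ha).mpr h)
  have hav : ¬ Commute a v := fun h => hva h.symm
  obtain ⟨φ, hinj, f1, f2, f3⟩ := Cfsg.Agent.S5344.result hS hd ha hvD hvd.symm hVdv.commute hda hav
  have s1 := tt_sq hS hd
  have s2 := tt_sq hS ha
  have s3 := tt_sq hS hvD
  have b1 := tt_braid hS hd ha hda
  have b2 := tt_braid hS ha hvD hav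
  have i1 := tt_inv hS hd
  have i2 := tt_inv hS ha
  have i3 := tt_inv hS hvD
  have r1 : d ∈ φ.range := ⟨_, f1⟩
  have r2 : a ∈ φ.range := ⟨_, f2⟩
  have r3 : v ∈ φ.range := ⟨_, f3⟩
  -- a = (d a) d (d a)⁻¹,  e = a d a⁻¹
  have ea : (d * a) * d * (d * a)⁻¹ = a := by
    rw [mul_inv_rev, i1, i2]
    calc d * a * d * (a * d) = d * (a * d * a) * d := by group
      _ = d * (d * a * d) * d := by rw [b1]
      _ = (d * d) * a * (d * d) := by group
      _ = a := by rw [s1, one_mul, mul_one]
  have ea' : (d * a) * v * (d * a)⁻¹ = d * a * v * a * d := by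
    rw [mul_inv_rev, i1, i2]; group
  have hVa : VRel D a (d * a * v * a * d) := by
    have := hVdv.conj hconj (d * a)
    rwa [ea, ea'] at this
  have hVe : VRel D (a * d * a) (a * v * a) := by
    have := hVdv.conj hconj a
    rwa [i2] at this
  have hsurj : Function.Surjective φ := by
    rw [← MonoidHom.range_eq_top, eq_top_iff, ← hgen, Subgroup.closure_le]
    intro c hc
    rw [SetLike.mem_coe]
    by_cases c1 : Commute d c
    · have : c ∈ ({d, v} : Set G) := by rw [← hset']; exact ⟨hc, c1⟩
      rcases this with rfl | h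
      · exact r1
      · rw [Set.mem_singleton_iff] at h; rw [h]; exact r3
    by_cases c2 : Commute a c
    · have h := hcent (d * a) c hc (by rw [ea]; exact c2)
      rw [ea, ea'] at h
      rcases h with rfl | rfl
      · exact r2
      · exact mul_mem (mul_mem (mul_mem (mul_mem r1 r2) r3) r2) r1
    by_cases c3 : Commute (a * d * a) c
    · have h := hcent a c hc (by rw [i2]; exact c3)
      rw [i2] at h
      rcases h with rfl | rfl
      · exact mul_mem (mul_mem r2 r1) r2
      · exact mul_mem (mul_mem r2 r3) r2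
    exfalso
    have ne_a : a ≠ d * a * v * a * d := by
      intro h
      have h1 : (d * a) * d * (d * a)⁻¹ = (d * a) * v * (d * a)⁻¹ := by rw [ea, ea']; exact h
      exact hvd (mul_left_cancel (mul_right_cancel h1)).symm
    have ne_e : a * d * a ≠ a * v * a := by
      intro h
      exact hvd (mul_left_cancel (mul_right_cancel h)).symm
    obtain ⟨t1, t2, t3⟩ := lemT hS hconj hc hvd.symm hVdv c1
    obtain ⟨u1, u2, u3⟩ := lemT hS hconj hc ne_a hVa c2
    obtain ⟨w1, w2, w3⟩ := lemT hS hconj hc ne_e hVe c3
    obtain ⟨k, hk⟩ := tt_class_isConj hD hd hc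
    have uniq : ∀ y ∈ D, Commute y c → y ≠ c → y = k * v * k⁻¹ := by
      intro y hy hyc hne
      rcases hcent k y hy (by rw [hk]; exact hyc.symm) with h | h
      · exact absurd (h.trans hk) hne
      · exact h
    have q1 := uniq _ t1 t2 t3
    have q2 := uniq _ u1 u2 u3
    obtain ⟨e1, e2⟩ := w_tsr d a v s1 s2 s3 b1 b2 hVdv.commute.eq
    apply w3
    rw [e1]
    set t := d * v with ht
    set s := a * (d * a * v * a * d) with hs
    have q3 : s * c * s = t * c * t := q2.trans q1.symm
    have hts : Commute t s := by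
      have hsD : (s * c * s) = t * c * t := q3
      have e3 : (a * d * a) * (a * v * a) * ((a * d * a) * (a * v * a)) = 1 := by
        have hc' := hVe.commute
        calc (a * d * a) * (a * v * a) * ((a * d * a) * (a * v * a))
            = (a * d * a) * (a * v * a) * ((a * v * a) * (a * d * a)) := by rw [hc'.eq]
          _ = (a * d * a) * ((a * v * a) * (a * v * a)) * (a * d * a) := by group
          _ = 1 := by rw [tt_sq hS hVe.2.1, mul_one, tt_sq hS hVe.1]
      have e4 : s * s = 1 := by
        have hc' := hVa.commute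
        calc s * s = a * (d * a * v * a * d) * ((d * a * v * a * d) * a) := by rw [hs, hc'.eq]
          _ = a * ((d * a * v * a * d) * (d * a * v * a * d)) * a := by group
          _ = 1 := by rw [tt_sq hS hVa.2.1, mul_one, s2]
      rw [e1] at e3
      show t * s = s * t
      calc t * s = t * s * ((t * s) * (s * t)) := by
            have : (t * s) * (s * t) = 1 := by
              calc (t * s) * (s * t) = t * (s * s) * t := by group
                _ = 1 := by rw [e4, mul_one, e2]
            rw [this, mul_one]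
        _ = (t * s * (t * s)) * (s * t) := by group
        _ = s * t := by rw [e3, one_mul]
    calc t * s * c * (t * s) = t * s * c * (s * t) := by rw [hts.eq]
      _ = t * (s * c * s) * t := by group
      _ = t * (t * c * t) * t := by rw [q3]
      _ = (t * t) * c * (t * t) := by group
      _ = c := by rw [e2, one_mul, mul_one]
  exact ⟨(MulEquiv.ofBijective φ ⟨hinj, hsurj⟩).symm⟩

end Cfsg.Agent.S5355
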