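import Cfsg.Statements.S5356
import Cfsg.Agent.Lib.Helper91.TTSplit

set_option autoImplicit false
open Cfsg Cfsg.Agent.Lib.Helper91

namespace Cfsg.Agent.S5356

/-- Let D be a conjugacy class of 3-transpositions generating the finite group G, with at least two members, and d a member of D such that every member of D commuting with d commutes with exactly the same members of D as d. Then there is a Sylow 3-subgroup P of G normalized by d such that G is generated by d, P and the largest normal 2-subgroup of G. -/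
theorem result {G : Type*} [Group G] [Finite G] {D : Set G} (hD : Cfsg.IsThreeTranspositionClass D) (hD2 : ∃ a ∈ D, ∃ b ∈ D, a ≠ b) {d : G} (hd : d ∈ D) (hV : {y : G | y ∈ D ∧ Commute d y} = {v : G | v ∈ D ∧ ∀ e ∈ D, Commute v e ↔ Commute d e}) : ∃ P : Sylow 3 G, d ∈ Subgroup.normalizer (P : Set G) ∧ Subgroup.zpowers d ⊔ (P : Subgroup G) ⊔ Cfsg.pCore 2 G = ⊤ := by
  obtain ⟨hS, hconj, hgen⟩ := tt_class_toGroup hD
  apply exists_invariant_sylow hD hD2 hd
  intro b hb y hy hc
  obtain ⟨g, rfl⟩ := tt_class_isConj hD hd hb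
  have hy' : g⁻¹ * y * g ∈ D := by
    have := hconj g⁻¹ y hy
    rwa [inv_inv] at this
  have hc' : Commute d (g⁻¹ * y * g) := (commute_conj_iff g d y).mp hc
  have h1 : g⁻¹ * y * g ∈ {y : G | y ∈ D ∧ Commute d y} := ⟨hy', hc'⟩
  rw [hV] at h1
  have h2 : VRel D d (g⁻¹ * y * g) := ⟨hd, hy', fun e he => (h1.2 e he).symm⟩
  have h3 := h2.conj hconj g
  have e : g * (g⁻¹ * y * g) * g⁻¹ = y := by group
  rwa [e] at h3

end Cfsg.Agent.S5356
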