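import Cfsg.Statements.S5358
import Cfsg.Agent.Lib.Helper91.Reflection

set_option autoImplicit false
open scoped MatrixGroups
open Cfsg

namespace Cfsg.Agent.S5358

/-- Let Q be a non-degenerate quadratic form on the n-dimensional coordinate space over the field with three elements and u, v vectors of the same non-zero norm Q(u) = Q(v) spanning different lines (v ≠ u and v ≠ −u). Then the reflection matrices of u and v commute if and only if u and v are orthogonal for the polar form of Q. -/
theorem result (n : ℕ) (Q : QuadraticForm (ZMod 3) (Fin n → ZMod 3)) (hQ : (QuadraticMap.polarBilin Q).Nondegenerate) (u v : Fin n → ZMod 3) (hu : Q u ≠ 0) (huv : Q u = Q v) (h1 : v ≠ u) (h2 : v ≠ -u) : Commute (Cfsg.reflectionMatrix (⇑Q) u) (Cfsg.reflectionMatrix (⇑Q) v) ↔ QuadraticMap.polar (⇑Q) u v = 0 := by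
  have hv : Q v ≠ 0 := huv ▸ hu
  set c := (Q u)⁻¹ with hc
  have hc0 : c ≠ 0 := inv_ne_zero hu
  have hcv : (Q v)⁻¹ = c := by rw [hc, huv]
  set B := QuadraticMap.polar (⇑Q) with hB
  have hBcomm : ∀ x y, B x y = B y x := fun x y => QuadraticMap.polar_comm _ x y
  have hBsub : ∀ x y z, B x (y - z) = B x y - B x z := fun x y z => QuadraticMap.polar_sub_right Q x y z
  have hBsmul : ∀ (a : ZMod 3) x y, B x (a • y) = a * B x y := fun a x y => by
    rw [hB, QuadraticMap.polar_smul_right, smul_eq_mul]
  have key : ∀ x, (Cfsg.reflectionMatrix (⇑Q) u * Cfsg.reflectionMatrix (⇑Q) v).mulVec x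
      - (Cfsg.reflectionMatrix (⇑Q) v * Cfsg.reflectionMatrix (⇑Q) u).mulVec x
      = (c * c * B u v) • (B v x • u - B u x • v) := by
    intro x
    rw [← Matrix.mulVec_mulVec, ← Matrix.mulVec_mulVec]
    simp only [Cfsg.Agent.Lib.Helper91.reflectionMatrix_mulVec, hcv, ← hc, ← hB]
    rw [hBsub, hBsub, hBsmul, hBsmul, hBcomm v u]
    ext i
    simp only [Pi.sub_apply, Pi.smul_apply, smul_eq_mul]
    ring
  constructor
  · intro hcomm
    by_contra hne
    have h0 := key v
    rw [hcomm.eq, sub_self] at h0
    have h1' : B v v • u - B u v • v = 0 := by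
      have hne' : c * c * B u v ≠ 0 := mul_ne_zero (mul_ne_zero hc0 hc0) hne
      exact (smul_eq_zero.mp h0.symm).resolve_left hne'
    have hvv : B v v = 2 * Q v := by
      rw [hB, QuadraticMap.polar_self]; simp
    have hvv0 : B v v ≠ 0 := by
      rw [hvv]
      exact mul_ne_zero (by decide) hv
    have hcase : ∀ α β : ZMod 3, α ≠ 0 → β ≠ 0 → α = β ∨ α = -β := by decide
    have h2' : B v v • u = B u v • v := sub_eq_zero.mp h1'
    rcases hcase _ _ hvv0 hne with h | h
    · rw [h] at h2'
      exact h1 ((smul_right_injective _ hne h2').symm)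
    · rw [h, neg_smul, ← smul_neg] at h2'
      exact h2 ((smul_right_injective _ hne h2').symm)
  · intro h0
    have : Cfsg.reflectionMatrix (⇑Q) u * Cfsg.reflectionMatrix (⇑Q) v
        = Cfsg.reflectionMatrix (⇑Q) v * Cfsg.reflectionMatrix (⇑Q) u := by
      apply Matrix.toLin'.injective
      apply LinearMap.ext
      intro x
      rw [Matrix.toLin'_apply, Matrix.toLin'_apply]
      have := key x
      rw [show B u v = 0 from h0, mul_zero, zero_smul] at this
      exact sub_eq_zero.mp this
    exact this

end Cfsg.Agent.S5358
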