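import Cfsg.Statements.S5361
import Cfsg.Agent.Lib.Helper91.TTPrim

set_option autoImplicit false
open Cfsg Cfsg.Agent.Lib.Helper91 Cfsg.Agent.Lib.Helper28
open scoped commutatorElement

namespace Cfsg.Agent.S5361

/-- Let D be a conjugacy class of 3-transpositions generating the finite group G, and suppose the centre of G is trivial and some two different members of D commute. Then the following are equivalent: (1) the commutator subgroup of G is simple (possibly of prime order); (2) G acts primitively on D by conjugation; (3) the largest normal 2-subgroup and the largest normal 3-subgroup of G are trivial and the commuting graph of D is connected. -/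
theorem result {G : Type*} [Group G] [Finite G] {D : Set G} (hD : Cfsg.IsThreeTranspositionClass D) (hZ : Subgroup.center G = ⊥) (hw : ∃ a ∈ D, ∃ b ∈ D, a ≠ b ∧ Commute a b) : (IsSimpleGroup (commutator G) ↔ Cfsg.IsPrimitiveUnderConj D) ∧ (Cfsg.IsPrimitiveUnderConj D ↔ (Cfsg.pCore 2 G = ⊥ ∧ Cfsg.pCore 3 G = ⊥ ∧ (Cfsg.commutingGraph D).Connected)) := by
  have hG := tt_class_toGroup hD
  obtain ⟨hS, hconj, hgen⟩ := id hG
  have hD2 : ∃ a ∈ D, ∃ b ∈ D, a ≠ b := by
    obtain ⟨a, ha, b, hb, hab, -⟩ := hw
    exact ⟨a, ha, b, hb, hab⟩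
  have f2 : Fact (Nat.Prime 2) := ⟨Nat.prime_two⟩
  have f3 : Fact (Nat.Prime 3) := ⟨Nat.prime_three⟩
  -- (3) ⇒ (2)
  have h32 : (pCore 2 G = ⊥ ∧ pCore 3 G = ⊥ ∧ (commutingGraph D).Connected) →
      IsPrimitiveUnderConj D := by
    rintro ⟨h2, h3, hc⟩
    have h2' : pCore 2 G ≤ Subgroup.center G := by rw [h2]; exact bot_le
    have h3' : pCore 3 G ≤ Subgroup.center G := by rw [h3]; exact bot_le
    obtain ⟨L, hLn, hL, -, hF⟩ := exists_quasisimple_normal hD hD2 h2' h3'
    exact primitive_of_index_le_two hD hD2 h2' h3' hLn hL.2 hF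
      (index_le_two_of_connected hD hLn hL.2 hc)
  -- (2) ⇒ (3)
  have h23 : IsPrimitiveUnderConj D →
      (pCore 2 G = ⊥ ∧ pCore 3 G = ⊥ ∧ (commutingGraph D).Connected) := by
    intro hprim
    refine ⟨?_, ?_, connected_of_primitive hG hprim hw⟩
    · rw [eq_bot_iff, ← hZ]; exact pCore_two_le_center_of_primitive hG hprim
    · rw [eq_bot_iff, ← hZ]; exact pCore_three_le_center_of_primitive hG hprim hw
  -- (2) ⇒ (1)
  have h21 : IsPrimitiveUnderConj D → IsSimpleGroup (commutator G) := by
    intro hprim
    obtain ⟨L, hLn, hL, -, hidx, hF⟩ := structure_of_primitive hG hprim hw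
    have hcomm : commutator G = L := by
      apply le_antisymm (commutator_le_of_index_le_two hidx)
      rw [commutator_def, ← isPerfect_of_isComponent hL]
      exact Subgroup.commutator_mono le_top le_top
    rw [hcomm]
    apply isSimpleGroup_of_isQuasisimple hL.2
    rw [eq_bot_iff]
    rintro ⟨x, hx⟩ hxc
    have h1 : x ∈ L ⊓ Subgroup.centralizer (L : Set G) := by
      refine Subgroup.mem_inf.mpr ⟨hx, ?_⟩
      rw [Subgroup.mem_centralizer_iff]
      intro y hy
      exact congrArg Subtype.val (Subgroup.mem_center_iff.mp hxc ⟨y, hy⟩)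
    have h2 := inf_centralizer_le_center hG (pCore_two_le_center_of_primitive hG hprim)
      (pCore_three_le_center_of_primitive hG hprim hw) hLn h1
    rw [hZ, Subgroup.mem_bot] at h2
    rw [Subgroup.mem_bot]
    exact Subtype.ext h2
  -- (1) ⇒ (2)
  have h12 : IsSimpleGroup (commutator G) → IsPrimitiveUnderConj D := by
    intro hsimple
    have hmul : ∀ a ∈ D, ∀ b ∈ D, a * b ∈ commutator G := by
      intro a ha b hb
      obtain ⟨g, rfl⟩ := tt_class_isConj hD ha hb
      have e : a * (g * a * g⁻¹) = ⁅a, g⁆ := by
        rw [commutatorElement_def, tt_inv hS ha]; group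
      rw [e, commutator_def]
      exact Subgroup.commutator_mem_commutator (Subgroup.mem_top a) (Subgroup.mem_top g)
    have hn2 : ¬ commutator G ≤ pCore 2 G := by
      intro hle
      obtain ⟨d, hd, -⟩ := id hD2
      have hc : d ∈ Subgroup.center G := by
        apply mem_center_of_commute_gen hgen
        intro e he
        rcases hS.2 d hd e he with h | h
        · exact tt_commute_of_sq hS hd he h
        · have h1 := eq_one_of_mem_pGroup_of_pow (pCore_isPGroup' 2) (hle (hmul d hd e he)) (m := 3)
            (by norm_num) h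
          have : d = e := by rw [eq_inv_of_mul_eq_one_left h1, tt_inv hS he]
          rw [this]
      rw [hZ, Subgroup.mem_bot] at hc
      exact tt_ne_one hS hd hc
    have hn3 : ¬ commutator G ≤ pCore 3 G := by
      intro hle
      obtain ⟨a, ha, b, hb, hab, hc⟩ := hw
      have h2 : (a * b) ^ 2 = 1 := by
        rw [hc.mul_pow, pow_two, pow_two, tt_sq hS ha, tt_sq hS hb, one_mul]
      have h1 := eq_one_of_mem_pGroup_of_pow (pCore_isPGroup' 3) (hle (hmul a ha b hb)) (m := 2)
        (by norm_num) h2
      apply hab
      rw [eq_inv_of_mul_eq_one_left h1, tt_inv hS hb]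
    have hcen : ∀ N : Subgroup G, N.Normal → ¬ commutator G ≤ N → N ≤ Subgroup.center G := by
      intro N hN hnle
      have hn : ((N ⊓ commutator G).subgroupOf (commutator G)).Normal := by
        have : (N ⊓ commutator G).Normal := inferInstance
        infer_instance
      rcases hn.eq_bot_or_eq_top with h | h
      · intro n hn'
        apply mem_center_of_commute_gen hgen
        intro d hd
        have m1 : ⁅n, d⁆ ∈ commutator G := by
          rw [commutator_def]
          exact Subgroup.commutator_mem_commutator (Subgroup.mem_top n) (Subgroup.mem_top d)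
        have m2 : ⁅n, d⁆ ∈ N := by
          rw [commutatorElement_def, mul_assoc, mul_assoc]
          refine mul_mem hn' ?_
          rw [← mul_assoc]
          exact hN.conj_mem _ (inv_mem hn') d
        have m3 : (⟨_, m1⟩ : commutator G) ∈ (N ⊓ commutator G).subgroupOf (commutator G) := by
          rw [Subgroup.mem_subgroupOf]; exact ⟨m2, m1⟩
        rw [h, Subgroup.mem_bot] at m3
        have m4 : ⁅n, d⁆ = 1 := congrArg Subtype.val m3
        exact commutatorElement_eq_one_iff_commute.mp m4
      · exfalso
        apply hnle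
        intro x hx
        have h1 : (⟨x, hx⟩ : commutator G) ∈ (N ⊓ commutator G).subgroupOf (commutator G) := by
          rw [h]; trivial
        rw [Subgroup.mem_subgroupOf] at h1
        exact h1.1
    have h2' := hcen _ (pCore_normal' 2) hn2
    have h3' := hcen _ (pCore_normal' 3) hn3
    obtain ⟨L, hLn, hL, -, hF⟩ := exists_quasisimple_normal hD hD2 h2' h3'
    have hLle : commutator G ≤ L := by
      by_contra hnle
      exact not_le_center_of_isQuasisimple hL.2 (hcen L hLn hnle)
    obtain ⟨d, hd, -⟩ := id hD2
    have hidx : L.index ≤ 2 := by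
      apply index_le_two_of_image hS hgen hLn hd
      intro x hx
      apply QuotientGroup.eq.mpr
      rw [tt_inv hS hx]
      exact hLle (hmul x hx d hd)
    exact primitive_of_index_le_two hD hD2 h2' h3' hLn hL.2 hF hidx
  exact ⟨⟨h12, h21⟩, ⟨h23, h32⟩⟩

end Cfsg.Agent.S5361
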