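import Cfsg.Statements.S5363

set_option autoImplicit false
open Cfsg

namespace Cfsg.Agent.S5363

/-- Let D be a conjugation-invariant set of involutions of a finite group G. Then every product of two members of D has odd order or order 2 if and only if, for every a in D and every b in D different from a and commuting with a, the members of D commuting with a b are exactly those commuting with both a and b. -/
theorem result {G : Type*} [Group G] [Finite G] {D : Set G} (hinv : ∀ d ∈ D, orderOf d = 2) (hconj : ∀ g : G, ∀ d ∈ D, g * d * g⁻¹ ∈ D) : (∀ a ∈ D, ∀ b ∈ D, Odd (orderOf (a * b)) ∨ orderOf (a * b) = 2) ↔ ∀ a ∈ D, ∀ b ∈ D, b ≠ a → Commute a b → {y : G | y ∈ D ∧ Commute (a * b) y} = {y : G | y ∈ D ∧ Commute a y} ∩ {y : G | y ∈ D ∧ Commute b y} := by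
  have hsq : ∀ d ∈ D, d * d = 1 := by
    intro d hd
    have := pow_orderOf_eq_one d
    rw [hinv d hd, pow_two] at this
    exact this
  have hinv' : ∀ d ∈ D, d⁻¹ = d := fun d hd => inv_eq_of_mul_eq_one_left (hsq d hd)
  constructor
  · intro H a ha b hb hba hab
    ext y
    simp only [Set.mem_ofPred_eq, Set.mem_inter_iff]
    constructor
    · rintro ⟨hy, hcy⟩
      have key : Commute a y := by
        rcases H y hy a ha with hodd | h2
        · -- y * b = (y * a) * (a * b)
          have e1 : y * b = (y * a) * (a * b) := by
            calc y * b = y * (a * a) * b := by rw [hsq a ha, mul_one]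
              _ = (y * a) * (a * b) := by group
          have hc1 : Commute (y * a) (a * b) := by
            apply Commute.mul_left hcy.symm
            exact Commute.mul_right (Commute.refl a) hab
          have hab2 : orderOf (a * b) = 2 := by
            apply orderOf_eq_prime
            · rw [pow_two]
              calc a * b * (a * b) = a * (b * a) * b := by group
                _ = a * (a * b) * b := by rw [hab.eq]
                _ = (a * a) * (b * b) := by group
                _ = 1 := by rw [hsq a ha, hsq b hb, one_mul]
            · intro h1
              apply hba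
              have : b = a⁻¹ := eq_inv_of_mul_eq_one_right h1
              rw [this, hinv' a ha]
          have hcop : Nat.Coprime (orderOf (y * a)) (orderOf (a * b)) := by
            rw [hab2]
            exact Nat.Coprime.symm (Nat.coprime_two_left.mpr hodd)
          have hord := hc1.orderOf_mul_eq_mul_orderOf_of_coprime hcop
          rw [← e1, hab2] at hord
          have hm1 : orderOf (y * a) = 1 := by
            rcases H y hy b hb with h | h
            · rw [hord] at h
              exact absurd h (by simp)
            · rw [hord] at h
              omega
          have hya : y * a = 1 := orderOf_eq_one_iff.mp hm1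
          have : y = a := by
            have : y = a⁻¹ := eq_inv_of_mul_eq_one_left hya
            rw [this, hinv' a ha]
          rw [this]
        · have h3 : (y * a) * (y * a) = 1 := by
            have := pow_orderOf_eq_one (y * a)
            rw [h2, pow_two] at this
            exact this
          show a * y = y * a
          calc a * y = (y * y) * a * y * (a * a) := by rw [hsq y hy, hsq a ha, one_mul, mul_one]
            _ = y * ((y * a) * (y * a)) * a := by group
            _ = y * a := by rw [h3, mul_one]
      refine ⟨⟨hy, key⟩, hy, ?_⟩
      have e2 : b = a * (a * b) := by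
        rw [← mul_assoc, hsq a ha, one_mul]
      rw [e2]
      exact Commute.mul_left key hcy
    · rintro ⟨⟨hy, h1⟩, -, h2⟩
      exact ⟨hy, Commute.mul_left h1 h2⟩
  · intro H a ha b hb
    rcases Nat.even_or_odd (orderOf (a * b)) with heven | hodd
    · right
      obtain ⟨k, hk⟩ := heven
      have hpos : 0 < orderOf (a * b) := orderOf_pos _
      have hkpos : 0 < k := by omega
      set r := a * b with hr
      set z := r ^ k with hz
      have hzz : z * z = 1 := by
        rw [hz, ← pow_add, ← hk, pow_orderOf_eq_one]
      have hz1 : z ≠ 1 := by
        apply pow_ne_one_of_lt_orderOf (by omega) (by omega)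
      have hzinv : z⁻¹ = z := inv_eq_of_mul_eq_one_left hzz
      have hara : a * r * a⁻¹ = r⁻¹ := by
        rw [hr, hinv' a ha, mul_inv_rev, hinv' a ha, hinv' b hb]
        calc a * (a * b) * a = (a * a) * b * a := by group
          _ = b * a := by rw [hsq a ha, one_mul]
      have harp : ∀ i : ℕ, a * r ^ i * a⁻¹ = (r ^ i)⁻¹ := by
        intro i
        rw [← conj_pow, hara, inv_pow]
      have haz : Commute a z := by
        have := harp k
        rw [← hz, hzinv] at this
        show a * z = z * a
        calc a * z = (a * z * a⁻¹) * a := by group
          _ = z * a := by rw [this]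
      have hrz : Commute r z := (Commute.refl r).pow_right k
      have hbz : Commute b z := by
        have e : b = a * r := by rw [hr, ← mul_assoc, hsq a ha, one_mul]
        rw [e]
        exact Commute.mul_left haz hrz
      have hc : a * z ∈ D := by
        rcases Nat.even_or_odd' k with ⟨i, hi | hi⟩
        · -- a z = r^{-i} a r^i
          have : a * z = (r ^ i)⁻¹ * a * ((r ^ i)⁻¹)⁻¹ := by
            rw [inv_inv, ← harp i, hz, hi, two_mul, pow_add]
            group
          rw [this]
          exact hconj _ a ha
        · have e : b = a * r := by rw [hr, ← mul_assoc, hsq a ha, one_mul]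
          have : a * z = (r ^ i)⁻¹ * b * ((r ^ i)⁻¹)⁻¹ := by
            rw [inv_inv, ← harp i, hz, hi, e, pow_add, two_mul, pow_add, pow_one]
            have hcomm : r * r ^ i = r ^ i * r := ((Commute.refl r).pow_right i).eq
            calc a * (r ^ i * r ^ i * r) = a * r ^ i * (r ^ i * r) := by group
              _ = a * r ^ i * (r * r ^ i) := by rw [hcomm]
              _ = a * r ^ i * a⁻¹ * (a * r) * r ^ i := by group
          rw [this]
          exact hconj _ b hb
      have hne : a * z ≠ a := by
        intro h
        apply hz1
        exact mul_eq_left.mp h
      have hcomm : Commute a (a * z) := Commute.mul_right (Commute.refl a) haz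
      have hH := H a ha (a * z) hc hne hcomm
      have hb' : b ∈ {y : G | y ∈ D ∧ Commute (a * (a * z)) y} := by
        refine ⟨hb, ?_⟩
        rw [← mul_assoc, hsq a ha, one_mul]
        exact hbz.symm
      rw [hH] at hb'
      have hab : Commute a b := hb'.1.2
      have hr2 : r ^ 2 = 1 := by
        rw [hr, pow_two]
        calc a * b * (a * b) = a * (b * a) * b := by group
          _ = a * (a * b) * b := by rw [hab.eq]
          _ = (a * a) * (b * b) := by group
          _ = 1 := by rw [hsq a ha, hsq b hb, one_mul]
      have hdvd : orderOf r ∣ 2 := orderOf_dvd_of_pow_eq_one hr2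
      have := Nat.le_of_dvd (by norm_num) hdvd
      omega
    · left; exact hodd

end Cfsg.Agent.S5363
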