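import Cfsg.Statements.S5364

set_option autoImplicit false
open Cfsg

namespace Cfsg.Agent.S5364

/-- Let D be a conjugation-invariant set of involutions of a finite group G and t an involution in the centre of G such that d t does not lie in D for any d in D. If the images of the members of D in G modulo the subgroup generated by t satisfy the 3-transposition order conditions (each has order 2 and any two have product of order at most 3), then so do the members of D. -/
theorem result {G : Type*} [Group G] [Finite G] {D : Set G} (hinv : ∀ d ∈ D, orderOf d = 2) (hconj : ∀ g : G, ∀ d ∈ D, g * d * g⁻¹ ∈ D) (t : G) (ht : orderOf t = 2) (htZ : t ∈ Subgroup.center G) (hDt : ∀ d ∈ D, d * t ∉ D) [(Subgroup.zpowers t).Normal] (himg : Cfsg.IsThreeTranspositionSet ((QuotientGroup.mk : G → G ⧸ Subgroup.zpowers t) '' D)) : Cfsg.IsThreeTranspositionSet D := by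
  have ht2 : t * t = 1 := by
    have := pow_orderOf_eq_one t
    rw [ht, pow_two] at this
    exact this
  have hmem : ∀ x : G, x ∈ Subgroup.zpowers t → x = 1 ∨ x = t := by
    intro x hx
    obtain ⟨k, rfl⟩ := Subgroup.mem_zpowers_iff.mp hx
    rcases Int.even_or_odd' k with ⟨m, rfl | rfl⟩
    · left
      rw [zpow_mul, zpow_two, ht2, one_zpow]
    · right
      rw [zpow_add, zpow_mul, zpow_two, ht2, one_zpow, one_mul, zpow_one]
  have hsq : ∀ d ∈ D, d * d = 1 := by
    intro d hd
    have := pow_orderOf_eq_one d
    rw [hinv d hd, pow_two] at this
    exact this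
  have hinv' : ∀ d ∈ D, d⁻¹ = d := fun d hd => inv_eq_of_mul_eq_one_left (hsq d hd)
  have htc : ∀ x : G, x * t = t * x := fun x => (Subgroup.mem_center_iff.mp htZ x)
  refine ⟨hinv, ?_⟩
  intro d hd e he
  have himg2 := himg.2 (QuotientGroup.mk d) ⟨d, hd, rfl⟩ (QuotientGroup.mk e) ⟨e, he, rfl⟩
  have hede : e * d * e ∈ D := by
    have := hconj e d hd
    rwa [hinv' e he] at this
  have hded : d * e * d ∈ D := by
    have := hconj d e he
    rwa [hinv' d hd] at this
  rcases himg2 with h | h
  · left
    have h' : (d * e) ^ 2 ∈ Subgroup.zpowers t := by
      rw [← QuotientGroup.eq_one_iff]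
      simpa using h
    rcases hmem _ h' with h1 | h1
    · exact h1
    · exfalso
      apply hDt d hd
      have : d * t = e * d * e := by
        rw [← h1, pow_two]
        calc d * (d * e * (d * e)) = (d * d) * (e * d * e) := by group
          _ = e * d * e := by rw [hsq d hd, one_mul]
      rw [this]
      exact hede
  · right
    have h' : (d * e) ^ 3 ∈ Subgroup.zpowers t := by
      rw [← QuotientGroup.eq_one_iff]
      simpa using h
    rcases hmem _ h' with h1 | h1
    · exact h1
    · exfalso
      apply hDt (e * d * e) hede
      have : e * d * e * t = d * e * d := by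
        rw [← h1, pow_succ, pow_two]
        calc e * d * e * (d * e * (d * e) * (d * e))
            = e * d * (e * d * e * d * e * d) * e := by group
          _ = e * d * ((e * d * e) * (d * e * d)) * e := by group
          _ = d * e * d := ?_
        have h2 : (d * e * d) * (e * d * e) = t := by
          rw [← h1, pow_succ, pow_two]; group
        have h3 : (e * d * e) * (d * e * d) = t := by
          have h4 : (e * d * e) * (d * e * d) = (d * e * d)⁻¹ * ((d * e * d) * (e * d * e)) * (d * e * d) := by group
          rw [h4, h2, mul_assoc, ← htc, ← mul_assoc, inv_mul_cancel, one_mul]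
        rw [h3]
        calc e * d * t * e = t * (e * d * e) := by
              rw [mul_assoc (e * d), ← htc e, ← mul_assoc, htc]
          _ = (d * e * d) * (e * d * e) * (e * d * e) := by rw [h2]
          _ = d * e * d * ((e * d * e) * (e * d * e)) := by group
          _ = d * e * d := by rw [hsq _ hede, mul_one]
      rw [this]
      exact hded

end Cfsg.Agent.S5364
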