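import Cfsg.Statements.S5367
import Cfsg.Agent.Lib.Helper91.FSpaceS4
import Cfsg.Agent.Lib.Helper91.FSpace9

set_option autoImplicit false
open Cfsg Cfsg.Agent.Lib.Helper91

namespace Cfsg.Agent.S5367

/-- Let D be a conjugation-invariant generating set of 3-transpositions of a finite group G. Then the line system on D whose lines are the triples {x, y, y x y⁻¹} for non-commuting members x, y of D is a Fischer space: two points lie on at most one line, lines have three points, and two different meeting lines generate a subspace isomorphic to the dual affine plane of order two or to the affine plane of order three. -/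
theorem result {G : Type*} [Group G] [Finite G] {D : Set G} (hD : Cfsg.IsThreeTranspositionGroup D) : Cfsg.IsFischerSpace (Cfsg.threeTranspositionLines D) := by
  obtain ⟨hS, hconj, -⟩ := hD
  refine ⟨ttLines_partialLinear hS, fun l hl => ttLines_ncard hconj hl, ?_⟩
  rintro l hl m hm hlm ⟨a, hal, ham⟩
  obtain ⟨b, hbl, hba⟩ := exists_ne_on_line hl a
  obtain ⟨c, hcm, hca⟩ := exists_ne_on_line hm a
  obtain ⟨hab, rfl⟩ := line_eq hS hl hal hbl hba.symm
  obtain ⟨hac, rfl⟩ := line_eq hS hm ham hcm hca.symm
  by_cases hbc : Commute (b : G) (c : G)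
  · left
    exact span_dual hS hconj a b c hab hac hbc (by rintro rfl; exact hlm rfl)
  by_cases h4 : Commute (b : G) ((a : G) * c * (a : G)⁻¹)
  · left
    let c' : D := ⟨(a : G) * c * (a : G)⁻¹, hconj a c c.2⟩
    have hc'm : c' ∈ ln a c := by
      right; right
      show (a : G) * c * (a : G)⁻¹ = (c : G) * a * (c : G)⁻¹
      rw [tt_inv hS a.2, tt_inv hS c.2]
      exact tt_braid hS a.2 c.2 hac
    have hc'a : a ≠ c' := by
      intro h
      have h1 : (a : G) = (a : G) * c * (a : G)⁻¹ := congrArg Subtype.val h
      apply hca
      apply Subtype.ext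
      calc (c : G) = (a : G)⁻¹ * ((a : G) * c * (a : G)⁻¹) * a := by group
        _ = a := by rw [← h1]; group
    obtain ⟨hac', e⟩ := line_eq hS hm ham hc'm hc'a
    rw [e] at hlm ⊢
    exact span_dual hS hconj a b c' hab hac' h4 (by rintro rfl; exact hlm rfl)
  · right
    exact span_affine hS hconj a b c hab hac hbc h4

end Cfsg.Agent.S5367
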