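import Cfsg.Statements.S5392
import Cfsg.Agent.S5552
import Cfsg.Agent.S1567
import Cfsg.Agent.Lib.Helper9.CoCenter

set_option autoImplicit false
open Cfsg

namespace Cfsg.Agent.S5392

open Cfsg.Agent.Lib.Helper11 Cfsg.Agent.Lib.Helper9 Cfsg.Agent.S5546 Cfsg.Agent.S5552

def PP (i j : GolayPt) : ↥leechLattice := ⟨single4 i + single4 j, plus_mem _ _⟩
def MM (i j : GolayPt) : ↥leechLattice := ⟨single4 i - single4 j, minus_mem _ _⟩

theorem E8_eq_add (i j : GolayPt) : E8 i = PP i j + MM i j := by
  apply Subtype.ext
  show single4 i + single4 i = (single4 i + single4 j) + (single4 i - single4 j)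
  abel

theorem E8_eq_sub (i j : GolayPt) : E8 j = PP i j - MM i j := by
  apply Subtype.ext
  show single4 j + single4 j = (single4 i + single4 j) - (single4 i - single4 j)
  abel

theorem PP_add_PP (i j : GolayPt) : PP i j + PP i j = E8 i + E8 j := by
  apply Subtype.ext
  show (single4 i + single4 j) + (single4 i + single4 j) = (single4 i + single4 i) + (single4 j + single4 j)
  abel

theorem exists_two : ∀ i : GolayPt, ∃ j k : GolayPt, i ≠ j ∧ i ≠ k ∧ j ≠ k := by decide

theorem smul_neg' (g : ↥Co0) (a : ↥leechLattice) : g • (-a) = -(g • a) := by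
  rw [← addHom_apply, map_neg, addHom_apply]

theorem E8_at (i k : GolayPt) : ((E8 i : ↥leechLattice) : GolayPt → ℤ) k = if k = i then 8 else 0 :=
  E8_apply i k

theorem negE8_at (i k : GolayPt) :
    ((-E8 i : ↥leechLattice) : GolayPt → ℤ) k = if k = i then -8 else 0 := by
  show -((E8 i).1 k) = _
  rw [E8_apply]
  split_ifs <;> simp

theorem faithful (g : ↥Co0) (hg : ∀ v : ↥leechLattice, ∃ w : ↥leechLattice,
    ((g • v : ↥leechLattice) : GolayPt → ℤ) - (v : GolayPt → ℤ) = 2 • (w : GolayPt → ℤ)) :
    g = 1 ∨ g = negEl := by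
  have hA : ∀ m : ↥leechLattice, sqNorm (m : GolayPt → ℤ) = 32 → g • m = m ∨ g • m = -m := by
    intro m hm
    by_cases h : g • m = m
    · exact Or.inl h
    · right
      obtain ⟨w, hw⟩ := hg m
      have hn : sqNorm ((g • m : ↥leechLattice) : GolayPt → ℤ) = 32 := by rw [← hm]; exact g.2.2 m
      rcases Cfsg.Agent.S5592.result (g • m).1 m.1 (g • m).2 m.2 (fun h' => h (Subtype.ext h'))
        (by rw [hn]; norm_num) (by rw [hm]; norm_num) ⟨w.1, w.2, hw⟩ with h1 | h1
      · exact Subtype.ext h1
      · rw [hn] at h1; norm_num at h1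
  have hR : ∀ i j : GolayPt, i ≠ j →
      g • E8 i = E8 i ∨ g • E8 i = -E8 i ∨ g • E8 i = E8 j ∨ g • E8 i = -E8 j := by
    intro i j hij
    have e1 : g • E8 i = g • PP i j + g • MM i j := by rw [← smul_add', ← E8_eq_add]
    rcases hA (PP i j) (norm_plus i j hij) with h1 | h1 <;>
      rcases hA (MM i j) (norm_minus i j hij) with h2 | h2
    · left; rw [e1, h1, h2, ← E8_eq_add]
    · right; right; left; rw [e1, h1, h2, E8_eq_sub i j]; abel
    · right; right; right; rw [e1, h1, h2, E8_eq_sub i j]; abel
    · right; left; rw [e1, h1, h2, E8_eq_add i j]; abel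
  have hC : ∀ i : GolayPt, g • E8 i = E8 i ∨ g • E8 i = -E8 i := by
    intro i
    obtain ⟨j, k, hij, hik, hjk⟩ := exists_two i
    rcases hR i j hij with h | h | h | h
    · exact Or.inl h
    · exact Or.inr h
    · exfalso
      rcases hR i k hik with h' | h' | h' | h' <;> rw [h] at h' <;>
        have h2 := congrFun (congrArg Subtype.val h') j <;>
        simp only [E8_at, negE8_at, if_true, if_neg hij.symm, if_neg hjk] at h2 <;> omega
    · exfalso
      rcases hR i k hik with h' | h' | h' | h' <;> rw [h] at h' <;>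
        have h2 := congrFun (congrArg Subtype.val h') j <;>
        simp only [E8_at, negE8_at, if_true, if_neg hij.symm, if_neg hjk] at h2 <;> omega
  have hD : ∀ i j : GolayPt, i ≠ j → (g • E8 i = E8 i ↔ g • E8 j = E8 j) := by
    intro i j hij
    have e1 : g • PP i j + g • PP i j = g • E8 i + g • E8 j := by
      rw [← smul_add', ← smul_add', PP_add_PP]
    have hne : ∀ l : GolayPt, E8 l ≠ -E8 l := by
      intro l h
      have h2 := congrFun (congrArg Subtype.val h) l
      simp only [E8_at, negE8_at, if_true] at h2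
      omega
    have hval : ∀ a b : ↥leechLattice, ∀ l, ((a + b : ↥leechLattice) : GolayPt → ℤ) l = a.1 l + b.1 l :=
      fun a b l => rfl
    have hvaln : ∀ a : ↥leechLattice, ∀ l, ((-a : ↥leechLattice) : GolayPt → ℤ) l = -(a.1 l) :=
      fun a l => rfl
    have hPi : (PP i j).1 i = 4 := by
      show single4 i i + single4 j i = 4
      simp [single4, hij]
    have hPj : (PP i j).1 j = 4 := by
      show single4 i j + single4 j j = 4
      simp [single4, hij.symm]
    rcases hC i with h1 | h1 <;> rcases hC j with h2 | h2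
    · exact ⟨fun _ => h2, fun _ => h1⟩
    · exfalso
      rcases hA (PP i j) (norm_plus i j hij) with h3 | h3 <;> rw [h1, h2, h3] at e1
      · have h4 := congrFun (congrArg Subtype.val e1) j
        simp only [hval, hvaln, hPj, E8_apply, if_true, if_neg hij.symm] at h4
        omega
      · have h4 := congrFun (congrArg Subtype.val e1) i
        simp only [hval, hvaln, hPi, E8_apply, if_true, if_neg hij] at h4
        omega
    · exfalso
      rcases hA (PP i j) (norm_plus i j hij) with h3 | h3 <;> rw [h1, h2, h3] at e1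
      · have h4 := congrFun (congrArg Subtype.val e1) i
        simp only [hval, hvaln, hPi, E8_apply, if_true, if_neg hij] at h4
        omega
      · have h4 := congrFun (congrArg Subtype.val e1) j
        simp only [hval, hvaln, hPj, E8_apply, if_true, if_neg hij.symm] at h4
        omega
    · constructor
      · intro h; rw [h1] at h; exact absurd h.symm (hne i)
      · intro h; rw [h2] at h; exact absurd h.symm (hne j)
  have hform : ∀ v : ↥leechLattice, (8 : ℤ) • (g • v) = ∑ i, (v.1 i) • (g • E8 i) := by
    intro v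
    have h2 := congrArg (addHom g) (eight_smul v)
    rw [map_zsmul, map_sum] at h2
    simp only [map_zsmul, addHom_apply] at h2
    exact h2
  have hcancel : ∀ a b : ↥leechLattice, (8 : ℤ) • a = (8 : ℤ) • b → a = b := by
    intro a b h
    apply Subtype.ext
    funext l
    have h2 := congrFun (congrArg Subtype.val h) l
    have e : ∀ c : ↥leechLattice, (((8 : ℤ) • c : ↥leechLattice) : GolayPt → ℤ) l = 8 * c.1 l :=
      fun c => rfl
    rw [e, e] at h2
    omega
  rcases hC none with h0 | h0
  · left
    have hall : ∀ i, g • E8 i = E8 i := by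
      intro i
      by_cases hi : i = none
      · rw [hi]; exact h0
      · exact (hD none i (Ne.symm hi)).1 h0
    apply co0_ext
    intro v
    rw [one_smul]
    apply hcancel
    rw [hform, eight_smul]
    simp only [hall]
  · right
    have hall : ∀ i, g • E8 i = -E8 i := by
      intro i
      rcases hC i with h | h
      · exfalso
        by_cases hi : i = none
        · rw [hi, h0] at h
          have h2 := congrFun (congrArg Subtype.val h) none
          simp only [E8_at, negE8_at, if_true] at h2
          omega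
        · have := (hD none i (Ne.symm hi)).2 h
          rw [h0] at this
          have h2 := congrFun (congrArg Subtype.val this) none
          simp only [E8_at, negE8_at, if_true] at h2
          omega
      · exact h
    apply co0_ext
    intro v
    rw [negEl_apply]
    apply hcancel
    rw [hform, smul_neg, eight_smul]
    simp only [hall, smul_neg, Finset.sum_neg_distrib]

def vv' : ↥leechLattice := ⟨single4 pa + single4 pc, plus_mem _ _⟩

theorem n_u2v' : sqNorm ((u2 - vv' : ↥leechLattice) : GolayPt → ℤ) = 48 := by decide +kernel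
theorem n_u1v' : sqNorm ((u1 + vv' : ↥leechLattice) : GolayPt → ℤ) = 64 := by decide +kernel
theorem n_diff : sqNorm ((vv - vv' : ↥leechLattice) : GolayPt → ℤ) = 32 := by decide +kernel

/-- The Leech lattice modulo twice itself is a faithful irreducible module for the first Conway group: an automorphism of the rank-24 lattice built from the length-24 code that moves every lattice vector only by twice a lattice vector lies in the centre of the automorphism group (the centre consists of ±1, which act trivially there, so the kernel is exactly the centre), and an additive subgroup lying between twice the lattice and the lattice that is invariant under all lattice automorphisms is one of the two. -/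
theorem result : (∀ g : ↥Cfsg.Co0, (∀ v : ↥Cfsg.leechLattice, ∃ w : ↥Cfsg.leechLattice, ((g • v : ↥Cfsg.leechLattice) : Cfsg.GolayPt → ℤ) - (v : Cfsg.GolayPt → ℤ) = 2 • (w : Cfsg.GolayPt → ℤ)) → g ∈ Subgroup.center ↥Cfsg.Co0) ∧ ∀ M : AddSubgroup (Cfsg.GolayPt → ℤ), (∀ v ∈ Cfsg.leechLattice, (2 : ℤ) • v ∈ M) → M ≤ Cfsg.leechLattice → (∀ g : ↥Cfsg.Co0, ∀ v : ↥Cfsg.leechLattice, (v : Cfsg.GolayPt → ℤ) ∈ M → ((g • v : ↥Cfsg.leechLattice) : Cfsg.GolayPt → ℤ) ∈ M) → (∀ x ∈ M, ∃ w ∈ Cfsg.leechLattice, x = (2 : ℤ) • w) ∨ M = Cfsg.leechLattice := by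
  constructor
  · intro g hg
    rcases faithful g hg with rfl | rfl
    · exact Subgroup.one_mem _
    · rw [Subgroup.mem_center_iff]
      exact negEl_comm
  · intro M h2 hM hinv
    by_cases hall : ∀ x ∈ M, ∃ w ∈ leechLattice, x = (2 : ℤ) • w
    · exact Or.inl hall
    right
    push Not at hall
    obtain ⟨x, hxM, hx⟩ := hall
    obtain ⟨y, hy, hyn, z, hz, hxy⟩ := mod2_main.2 x (hM hxM)
    have hyM : y ∈ M := by
      have : y = x - (2 : ℤ) • z := by
        have e : (2 : ℤ) • z = 2 • z := by
          funext i; simp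
        rw [e, ← hxy]; abel
      rw [this]
      exact M.sub_mem hxM (h2 z hz)
    have hy0 : y ≠ 0 := by
      rintro rfl
      apply hx z hz
      rw [sub_zero] at hxy
      rw [hxy]
      funext i; simp
    -- a minimal vector in `M`
    have hmin : ∃ m : ↥leechLattice, sqNorm (m : GolayPt → ℤ) = 32 ∧ (m : GolayPt → ℤ) ∈ M := by
      rcases norm_cases hy hyn with h | h | h | h
      · exact absurd h hy0
      · exact ⟨⟨y, hy⟩, h, hyM⟩
      · obtain ⟨g1, hg1⟩ := Cfsg.Agent.S0401.result ⟨y, hy⟩ (u2 - vv') h n_u2v'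
        obtain ⟨g2, hg2⟩ := Cfsg.Agent.S0401.result ⟨y, hy⟩ (u2 - vv) h n_u2v
        have m1 := hinv g1 ⟨y, hy⟩ hyM
        have m2 := hinv g2 ⟨y, hy⟩ hyM
        rw [hg1] at m1
        rw [hg2] at m2
        refine ⟨vv - vv', n_diff, ?_⟩
        have e : ((vv - vv' : ↥leechLattice) : GolayPt → ℤ) =
            ((u2 - vv' : ↥leechLattice) : GolayPt → ℤ) - ((u2 - vv : ↥leechLattice) : GolayPt → ℤ) := by
          show vv.1 - vv'.1 = (u2.1 - vv'.1) - (u2.1 - vv.1)
          abel
        rw [e]
        exact M.sub_mem m1 m2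
      · obtain ⟨g1, hg1⟩ := trans64 ⟨y, hy⟩ (u1 + vv) h n_u1v
        obtain ⟨g2, hg2⟩ := trans64 ⟨y, hy⟩ (u1 + vv') h n_u1v'
        have m1 := hinv g1 ⟨y, hy⟩ hyM
        have m2 := hinv g2 ⟨y, hy⟩ hyM
        rw [hg1] at m1
        rw [hg2] at m2
        refine ⟨vv - vv', n_diff, ?_⟩
        have e : ((vv - vv' : ↥leechLattice) : GolayPt → ℤ) =
            ((u1 + vv : ↥leechLattice) : GolayPt → ℤ) - ((u1 + vv' : ↥leechLattice) : GolayPt → ℤ) := by
          show vv.1 - vv'.1 = (u1.1 + vv.1) - (u1.1 + vv'.1)
          abel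
        rw [e]
        exact M.sub_mem m1 m2
    obtain ⟨m, hm, hmM⟩ := hmin
    apply le_antisymm hM
    rw [← Cfsg.Agent.S1567.result, AddSubgroup.closure_le]
    rintro w ⟨hw, hwn⟩
    obtain ⟨g, hg⟩ := Cfsg.Agent.S0400.result m ⟨w, hw⟩ hm hwn
    have := hinv g m hmM
    rw [hg] at this
    exact this

end Cfsg.Agent.S5392
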