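import Cfsg.Statements.S5393
import Cfsg.Agent.Lib.Helper34.GolayModule

set_option autoImplicit false
open Cfsg

namespace Cfsg.Agent.S5393

/-- The length-24 code built from the squares modulo 23 contains the all-ones word, and the code modulo the all-ones word is an irreducible module over the field with two elements for the code's automorphism group: a subspace of the code that contains the all-ones word and is invariant under every coordinate permutation preserving the code is either the span of the all-ones word or the whole code. -/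
theorem result : (fun _ : Cfsg.GolayPt => (1 : ZMod 2)) ∈ Cfsg.golayCode ∧ ∀ W : Submodule (ZMod 2) (Cfsg.GolayPt → ZMod 2), (fun _ => (1 : ZMod 2)) ∈ W → W ≤ Cfsg.golayCode → (∀ σ ∈ Cfsg.M24, ∀ w ∈ W, (fun p => w (σ.symm p)) ∈ W) → W = Submodule.span (ZMod 2) {fun _ => (1 : ZMod 2)} ∨ W = Cfsg.golayCode := by
  refine ⟨Cfsg.Agent.Lib.Helper34.one_mem_code, ?_⟩
  intro W h1 hle hW
  by_cases hspan : W ≤ Submodule.span (ZMod 2) {fun _ => (1 : ZMod 2)}
  · left
    exact le_antisymm hspan (Submodule.span_le.2 (by simpa using h1))
  · right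
    obtain ⟨w, hw, hnot⟩ := SetLike.not_le_iff_exists.1 hspan
    apply le_antisymm hle
    apply Cfsg.Agent.Lib.Helper34.code_le_of_mem hW (s := Cfsg.support₂ w)
      ((Cfsg.Agent.Lib.Helper34.mem_code_iff_support w).1 (hle hw)) ?_ ?_
      (by rw [Cfsg.Agent.Lib.Helper34.ind_support]; exact hw)
    · intro h0
      apply hnot
      rw [← Cfsg.Agent.Lib.Helper34.ind_support w, h0, Cfsg.Agent.Lib.Helper34.ind_empty]
      exact Submodule.zero_mem _
    · intro h1'
      apply hnot
      rw [← Cfsg.Agent.Lib.Helper34.ind_support w, h1', Cfsg.Agent.Lib.Helper34.ind_univ]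
      exact Submodule.subset_span rfl

end Cfsg.Agent.S5393
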