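import Cfsg.Statements.S5394
import Cfsg.Agent.Lib.Helper94.GolayClassFacts

set_option autoImplicit false
open Cfsg

namespace Cfsg.Agent.S5394

open Cfsg.Agent.Lib.Helper94

/-- The automorphism group of the length-24 code built from the squares modulo 23 has exactly two conjugacy classes of involutions: an involution either fixes exactly the eight points of an octad or has no fixed points, both kinds occur, and any two involutions of the same kind are conjugate in the group. -/
theorem result : (∀ g ∈ Cfsg.M24, orderOf g = 2 → (Finset.univ.filter fun p => g p = p) ∈ Cfsg.octads ∨ ∀ p, g p ≠ p) ∧ (∃ g ∈ Cfsg.M24, orderOf g = 2 ∧ (Finset.univ.filter fun p => g p = p) ∈ Cfsg.octads) ∧ (∃ g ∈ Cfsg.M24, orderOf g = 2 ∧ ∀ p, g p ≠ p) ∧ ∀ g ∈ Cfsg.M24, ∀ h ∈ Cfsg.M24, orderOf g = 2 → orderOf h = 2 → ((∀ p, g p ≠ p) ↔ (∀ p, h p ≠ p)) → ∃ k ∈ Cfsg.M24, k * g * k⁻¹ = h := by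
  refine ⟨?_, ⟨permOf tA, permOf_mem_M24 tA_in, order_tA, fixed_tA_octad⟩,
    ⟨permOf tB, permOf_mem_M24 tB_in, order_tB, no_fixed_tB⟩, ?_⟩
  · intro g hg h2
    rcases invol_fixed hg h2 with h | h
    · exact Or.inl h.1
    · exact Or.inr h.1
  · intro g hg h hh g2 h2 hiff
    have key : ∀ x : Equiv.Perm Cfsg.GolayPt, (Finset.univ.filter fun p => x p = p) ∈ Cfsg.octads →
        ¬ ∀ p, x p ≠ p := by
      intro x hx hn
      have h8 : (Finset.univ.filter fun p => x p = p).card = 8 := hx.2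
      rw [card_fixed_eq_zero hn] at h8
      exact absurd h8 (by norm_num)
    rcases invol_fixed hg g2 with ⟨a1, k1, hk1, e1⟩ | ⟨a1, k1, hk1, e1⟩ <;>
      rcases invol_fixed hh h2 with ⟨a2, k2, hk2, e2⟩ | ⟨a2, k2, hk2, e2⟩
    · exact conj_of_same_rep hk1 hk2 e1 e2
    · exact absurd (hiff.2 a2) (key g a1)
    · exact absurd (hiff.1 a1) (key h a2)
    · exact conj_of_same_rep hk1 hk2 e1 e2

end Cfsg.Agent.S5394
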