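import Cfsg.Statements.S5396
-- import your own Cfsg.Agent.* helpers here
import Cfsg.Agent.Lib.Helper92.ES2Ext

set_option autoImplicit false
open Cfsg

namespace Cfsg.Agent.S5396

open Cfsg.Agent.Lib.Helper92

/-- For every n ≥ 1 there exist finite extraspecial 2-groups of order 2^(2n+1) whose 2-rank (the largest rank of an elementary abelian subgroup) is n, and ones whose 2-rank is n + 1 (so for each such order there are two non-isomorphic extraspecial 2-groups, told apart by their 2-rank). -/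
theorem result (n : ℕ) (hn : 1 ≤ n) : ∀ r ∈ ({n, n + 1} : Set ℕ), ∃ (E : Type) (_ : Group E) (_ : Finite E), Cfsg.IsExtraspecial 2 E ∧ Nat.card E = 2 ^ (2 * n + 1) ∧ sSup {k : ℕ | ∃ A : Subgroup E, Cfsg.IsElementaryAbelian 2 A ∧ Nat.card A = 2 ^ k} = r := by
  have : Fact (Nat.Prime 2) := ⟨Nat.prime_two⟩
  intro r hr
  rcases hr with rfl | rfl
  · -- minus type
    obtain ⟨m, rfl⟩ : ∃ m, r = m + 1 := ⟨r - 1, by omega⟩
    obtain ⟨E, i1, i2, z, h, hc, hN⟩ := ES2.exists_minus m
    refine ⟨E, i1, i2, h.isExtraspecial hc (by omega), hc, ?_⟩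
    apply IsGreatest.csSup_eq
    constructor
    · obtain ⟨A, hAc, hA2, hcard⟩ := (ES2.exists_big _ E z h (m + 1) rfl hc).2 hN
      refine ⟨A, ⟨isMulCommutative_of_commute hAc, hA2⟩, ?_⟩
      have hdvd : Nat.card A ∣ 2 ^ (2 * (m + 1) + 1) := hc ▸ Subgroup.card_subgroup_dvd_card A
      obtain ⟨k, -, hk⟩ := (Nat.dvd_prime_pow Nat.prime_two).1 hdvd
      have h1 : ¬ 2 ^ (m + 1 + 1) ≤ Nat.card A := fun h1 =>
        ES2.minus_no_big _ E z h (m + 1) rfl hc hN A hAc hA2 h1
      rw [hk] at hcard h1 ⊢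
      have h2 : m + 1 ≤ k := (Nat.pow_le_pow_iff_right (by norm_num)).1 hcard
      have h3 : ¬ m + 1 + 1 ≤ k := fun h3 => h1 (Nat.pow_le_pow_right (by norm_num) h3)
      congr 1
      omega
    · rintro k ⟨A, ⟨hAc, hA2⟩, hk⟩
      by_contra hlt
      push Not at hlt
      refine ES2.minus_no_big _ E z h (m + 1) rfl hc hN A (commute_of_isMulCommutative hAc) hA2 ?_
      rw [hk]
      exact Nat.pow_le_pow_right (by norm_num) hlt
  · obtain ⟨E, i1, i2, z, h, hc, hN⟩ := ES2.exists_plus n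
    refine ⟨E, i1, i2, h.isExtraspecial hc (by omega), hc, ?_⟩
    apply IsGreatest.csSup_eq
    constructor
    · obtain ⟨A, hAc, hA2, hcard⟩ := (ES2.exists_big _ E z h n rfl hc).1 hN
      refine ⟨A, ⟨isMulCommutative_of_commute hAc, hA2⟩, ?_⟩
      exact le_antisymm (ES2.card_abelian_le _ E z h n rfl hc A hAc) hcard
    · rintro k ⟨A, ⟨hAc, hA2⟩, hk⟩
      have := ES2.card_abelian_le _ E z h n rfl hc A (commute_of_isMulCommutative hAc)
      rw [hk] at this
      exact (Nat.pow_le_pow_iff_right (by norm_num)).1 this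

end Cfsg.Agent.S5396
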