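import Cfsg.Statements.S5420
-- import your own Cfsg.Agent.* helpers here
import Cfsg.Agent.Lib.Helper92.LargeES

set_option autoImplicit false
open Cfsg

namespace Cfsg.Agent.S5420

open Cfsg.Agent.Lib.Helper92

/-- Let Q be an extraspecial 2-subgroup of the finite group G whose centralizer in G is its centre Z and which is normal in the centralizer of Z. If Z lies in the largest normal 2-subgroup of G, then Q is a large extraspecial 2-subgroup of G: it normalizes no non-trivial subgroup of G of odd order. -/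
theorem result {G : Type*} [Group G] [Finite G] (Q : Subgroup G) (hL1 : Cfsg.IsExtraspecial 2 ↥Q) (hL2 : Subgroup.centralizer (Q : Set G) = ((Subgroup.center ↥Q).map Q.subtype)) (hL3 : Subgroup.centralizer (((Subgroup.center ↥Q).map Q.subtype) : Set G) ≤ Subgroup.normalizer (Q : Set G)) (hZ : ((Subgroup.center ↥Q).map Q.subtype) ≤ Cfsg.pCore 2 G) : Cfsg.IsLargeExtraspecial Q := by
  refine ⟨hL1, hL2, hL3, ?_⟩
  intro K hK hQK
  apply eq_bot_of_odd_of_le_centralizer_ZZ hL1 hL2 hL3 hK hQK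
  intro k hk
  rw [Subgroup.mem_centralizer_iff]
  intro x hx
  have hxQ : x ∈ Q := ZZ_le Q hx
  have h1 : x * k * x⁻¹ * k⁻¹ ∈ K :=
    K.mul_mem ((Subgroup.mem_normalizer_iff.1 (hQK hxQ) _).1 hk) (K.inv_mem hk)
  have h2 : x * k * x⁻¹ * k⁻¹ ∈ Cfsg.pCore 2 G := by
    have hx' := hZ hx
    have : k * x⁻¹ * k⁻¹ ∈ Cfsg.pCore 2 G :=
      (inferInstance : (Cfsg.pCore 2 G).Normal).conj_mem _ (inv_mem hx') k
    have h := mul_mem hx' this
    have e : x * (k * x⁻¹ * k⁻¹) = x * k * x⁻¹ * k⁻¹ := by group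
    rwa [e] at h
  have h3 := eq_one_of_mem_odd_of_mem_two_group hK (pCore_isPGroup 2 G) h1 h2
  calc x * k = (x * k * x⁻¹ * k⁻¹) * (k * x) := by group
    _ = k * x := by rw [h3, one_mul]

end Cfsg.Agent.S5420
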