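import Cfsg.Statements.S5424
-- import your own Cfsg.Agent.* helpers here
import Cfsg.Agent.Lib.Helper92.TransvSL2
import Cfsg.Agent.Lib.Helper28.Cores

set_option autoImplicit false
open Cfsg

namespace Cfsg.Agent.S5424

open Cfsg.Agent.Lib Cfsg.Agent.Lib.Helper92 Cfsg.Agent.Lib.Helper92.TSL

/-- Let G be the special linear group of degree n + 2 over the field with two elements, n ≥ 2, let z be a transvection, and let Q be the largest normal 2-subgroup of the centralizer C of z. Then Q is extraspecial of order 2^(2n+1) with an elementary abelian subgroup of order 2^(n+1) (plus type), Q is a large extraspecial 2-subgroup of G, and C is the split extension of Q by the special linear group of degree n over the field with two elements. -/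
theorem result (n : ℕ) (hn : 2 ≤ n) (z : Matrix.SpecialLinearGroup (Fin (n + 2)) (ZMod 2)) (hz : (z : Matrix (Fin (n + 2)) (Fin (n + 2)) (ZMod 2)) = Matrix.transvection 0 1 1) (Q : Subgroup (Matrix.SpecialLinearGroup (Fin (n + 2)) (ZMod 2))) (hQ : Q = (Cfsg.pCore 2 ↥(Subgroup.centralizer ({z} : Set (Matrix.SpecialLinearGroup (Fin (n + 2)) (ZMod 2))))).map (Subgroup.centralizer ({z} : Set (Matrix.SpecialLinearGroup (Fin (n + 2)) (ZMod 2)))).subtype) : Cfsg.IsExtraspecial 2 ↥Q ∧ Nat.card ↥Q = 2 ^ (2 * n + 1) ∧ (∃ E : Subgroup (Matrix.SpecialLinearGroup (Fin (n + 2)) (ZMod 2)), E ≤ Q ∧ Cfsg.IsElementaryAbelian 2 E ∧ Nat.card ↥E = 2 ^ (n + 1)) ∧ Cfsg.IsLargeExtraspecial Q ∧ ∃ K : Subgroup (Matrix.SpecialLinearGroup (Fin (n + 2)) (ZMod 2)), K ≤ Subgroup.centralizer ({z} : Set (Matrix.SpecialLinearGroup (Fin (n + 2)) (ZMod 2))) ∧ Q ⊓ K = ⊥ ∧ Q ⊔ K = Subgroup.centralizer ({z} : Set (Matrix.SpecialLinearGroup (Fin (n + 2)) (ZMod 2))) ∧ Nonempty (↥K ≃* Matrix.SpecialLinearGroup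 (Fin n) (ZMod 2)) := by
  have : Fact (Nat.Prime 2) := ⟨Nat.prime_two⟩
  have hz' : (z : Matrix (Fin (n + 2)) (Fin (n + 2)) (ZMod 2)) = MM f1 0 := by
    rw [hz, transv_eq_MM]
  have hES := esdata hz'
  have hC : ∀ c : SLn n, c ∈ Subgroup.centralizer ({z} : Set (SLn n)) ↔ Commute c z := by
    intro c
    rw [Subgroup.mem_centralizer_singleton_iff]
    exact ⟨fun h => h, fun h => h⟩
  have hQ0C : Q0 n ≤ Subgroup.centralizer ({z} : Set (SLn n)) :=
    fun g hg => (hC g).2 (hES.zc g hg)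
  have hKC : (kap (n := n)).range ≤ Subgroup.centralizer ({z} : Set (SLn n)) := by
    rintro _ ⟨A, rfl⟩
    exact (hC _).2 (kap_commute hz' A)
  have hnorm : ((Q0 n).subgroupOf (Subgroup.centralizer ({z} : Set (SLn n)))).Normal := by
    constructor
    intro a ha c
    rw [Subgroup.mem_subgroupOf] at ha ⊢
    exact hES.norm c ((hC _).1 c.2) a ha
  have hle : (Q0 n).subgroupOf (Subgroup.centralizer ({z} : Set (SLn n))) ≤
      Cfsg.pCore 2 ↥(Subgroup.centralizer ({z} : Set (SLn n))) :=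
    Helper28.le_pCore hnorm hES.two.comap_subtype
  have hQeq : Q = Q0 n := by
    rw [hQ]
    apply le_antisymm
    · rintro _ ⟨r, hr, rfl⟩
      obtain ⟨A, hA⟩ := exists_decomp hz' ((hC r.1).1 r.2)
      let N : Subgroup (SLs n) := ((Cfsg.pCore 2 ↥(Subgroup.centralizer ({z} : Set (SLn n)))).map
        (Subgroup.centralizer ({z} : Set (SLn n))).subtype).comap kap
      have hmemN : ∀ B : SLs n, B ∈ N ↔ (⟨kap B, hKC ⟨B, rfl⟩⟩ :
          ↥(Subgroup.centralizer ({z} : Set (SLn n)))) ∈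
          Cfsg.pCore 2 ↥(Subgroup.centralizer ({z} : Set (SLn n))) := by
        intro B
        constructor
        · rintro ⟨x, hx, hxB⟩
          have : x = ⟨kap B, hKC ⟨B, rfl⟩⟩ := Subtype.ext hxB
          rwa [← this]
        · intro h
          exact ⟨_, h, rfl⟩
      have hNn : N.Normal := by
        constructor
        intro B hB D
        rw [hmemN] at hB ⊢
        have h1 := (inferInstance : (Cfsg.pCore 2
          ↥(Subgroup.centralizer ({z} : Set (SLn n)))).Normal).conj_mem _ hB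
          ⟨kap D, hKC ⟨D, rfl⟩⟩
        have e : (⟨kap (D * B * D⁻¹), hKC ⟨_, rfl⟩⟩ : ↥(Subgroup.centralizer ({z} : Set (SLn n))))
            = ⟨kap D, hKC ⟨D, rfl⟩⟩ * ⟨kap B, hKC ⟨B, rfl⟩⟩ * ⟨kap D, hKC ⟨D, rfl⟩⟩⁻¹ := by
          apply Subtype.ext
          simp [map_mul, map_inv]
        rw [e]; exact h1
      have hNp : IsPGroup 2 N := by
        intro B
        obtain ⟨k, hk⟩ := Helper28.pCore_isPGroup 2 ⟨_, (hmemN B.1).1 B.2⟩
        refine ⟨k, ?_⟩
        apply Subtype.ext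
        apply kap_injective
        have := congrArg (fun x : ↥(Cfsg.pCore 2 ↥(Subgroup.centralizer ({z} : Set (SLn n)))) =>
          ((x : ↥(Subgroup.centralizer ({z} : Set (SLn n)))) : SLn n)) hk
        simpa using this
      have hN := normal_two_subgroup_eq_bot hn N hNn hNp
      have hAN : A ∈ N := by
        rw [hmemN]
        have h1 : (⟨(r : SLn n) * (kap A)⁻¹, hQ0C hA⟩ : ↥(Subgroup.centralizer ({z} : Set (SLn n))))
            ∈ Cfsg.pCore 2 ↥(Subgroup.centralizer ({z} : Set (SLn n))) :=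
          hle (Subgroup.mem_subgroupOf.2 hA)
        have h2 := Subgroup.mul_mem _ (Subgroup.inv_mem _ h1) hr
        have e : (⟨(r : SLn n) * (kap A)⁻¹, hQ0C hA⟩ : ↥(Subgroup.centralizer ({z} : Set (SLn n))))⁻¹ * r
            = ⟨kap A, hKC ⟨A, rfl⟩⟩ := by
          apply Subtype.ext
          simp
        rwa [e] at h2
      rw [hN, Subgroup.mem_bot] at hAN
      rw [hAN, map_one, inv_one, mul_one] at hA
      exact hA
    · intro g hg
      exact ⟨⟨g, hQ0C hg⟩, hle (Subgroup.mem_subgroupOf.2 hg), rfl⟩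
  subst hQeq
  obtain ⟨g, hg1, hg2⟩ := exists_conj (by omega) hz'
  have hL := hES.isLargeExtraspecial_of_conj g hg1 hg2
  refine ⟨hL.1, card_Q0, ⟨E0 n, E0_le, E0_elem, card_E0⟩, hL, (kap (n := n)).range, hKC,
    Q0_inf_range, ?_, ⟨(MonoidHom.ofInjective kap_injective).symm⟩⟩
  apply le_antisymm (sup_le hQ0C hKC)
  intro c hc
  obtain ⟨A, hA⟩ := exists_decomp hz' ((hC c).1 hc)
  have e : c = (c * (kap A)⁻¹) * kap A := by group
  rw [e]
  exact Subgroup.mul_mem_sup hA ⟨A, rfl⟩

end Cfsg.Agent.S5424
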