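import Cfsg.Statements.S5426
-- import your own Cfsg.Agent.* helpers here
import Cfsg.Agent.Lib.Helper92.LargeStruct4
import Cfsg.Agent.Lib.Helper37.CharP

set_option autoImplicit false
open Cfsg

namespace Cfsg.Agent.S5426

open Cfsg.Agent.Lib Cfsg.Agent.Lib.Helper92 Cfsg.Agent.Lib.Helper92.LS

/-- Let Q be a large extraspecial 2-subgroup of the finite group G (extraspecial; centralizer equal to its centre; normal in the centralizer of its centre; normalizing no non-trivial subgroup of odd order) with centre generated by z, and let M be the normal closure of z in G. Then one of the following holds: Q is normal in G; or M is abelian and the generalized Fitting subgroup of G is its largest normal 2-subgroup; or M is the generalized Fitting subgroup of G and is a non-abelian simple group; or M is the generalized Fitting subgroup of G and is the direct product of a non-abelian simple subgroup L and its conjugate u L u⁻¹ by some u in Q (the two meet trivially and commute elementwise), with z = z₁ (u z₁ u⁻¹) for some z₁ in L whose centralizer in L is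 a Sylow 2-subgroup of L with Frattini subgroup inside the subgroup generated by z₁, and Q is not the largest normal 2-subgroup of the centralizer of z. -/
theorem result {G : Type*} [Group G] [Finite G] (Q : Subgroup G) (hQ : Cfsg.IsLargeExtraspecial Q) (z : G) (hz : ((Subgroup.center ↥Q).map Q.subtype) = Subgroup.zpowers z) (M : Subgroup G) (hM : M = Subgroup.normalClosure ({z} : Set G)) : Q.Normal ∨ (IsMulCommutative ↥M ∧ Cfsg.generalizedFittingSubgroup G = Cfsg.pCore 2 G) ∨ (M = Cfsg.generalizedFittingSubgroup G ∧ IsSimpleGroup ↥M ∧ ¬ IsMulCommutative ↥M) ∨ (M = Cfsg.generalizedFittingSubgroup G ∧ ∃ (L : Subgroup G) (u : G), u ∈ Q ∧ IsSimpleGroup ↥L ∧ ¬ IsMulCommutative ↥L ∧ L ⊓ (L).map (MulAut.conj u).toMonoidHom = ⊥ ∧ (∀ x ∈ L, ∀ y ∈ (L).map (MulAut.conj u).toMonoidHom, x * y = y * x) ∧ L ⊔ (L).map (MulAut.conj u).toMonoidHom = M ∧ ∃ z₁ ∈ L, z = z₁ * (u * z₁ * u⁻¹) ∧ (∃ R : Sylow 2 ↥L, (R : Subgroup ↥L) = (Subgroup.centralizer ({z₁} : Set G)).subgroupOf L ∧ (frattini ↥(R : Subgroup ↥L)).map ((L.subtype).comp (R : Subgroup ↥L).subtype) ≤ Subgroup.zpowers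 z₁) ∧ Q ≠ (Cfsg.pCore 2 ↥(Subgroup.centralizer ({z} : Set G))).map (Subgroup.centralizer ({z} : Set G)).subtype) := by
  have : Fact (Nat.Prime 2) := ⟨Nat.prime_two⟩
  obtain ⟨h, hsq⟩ := ESData.of_large hQ hz
  have hodd := hQ.2.2.2
  have hO : Cfsg.pPrimeCore 2 G = ⊥ := by
    apply hodd
    · exact Nat.coprime_two_right.1 (Helper28.pPrimeCore_coprime (G := G) 2)
    · have := Helper28.pPrimeCore_characteristic (G := G) 2
      rw [Subgroup.normalizer_eq_top]; exact le_top
  by_cases hO2 : Cfsg.pCore 2 G = ⊥
  · -- no normal 2-subgroup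
    have hF : Cfsg.fittingSubgroup G = ⊥ :=
      le_bot_iff.1 (hO2 ▸ Helper37.fitting_le_pCore_of_pPrimeCore_eq_bot hO)
    have hFs : Cfsg.generalizedFittingSubgroup G = Cfsg.layer G := by
      unfold Cfsg.generalizedFittingSubgroup
      rw [hF, sup_bot_eq]
    have hEn : (Cfsg.layer G).Normal := Helper28.layer_normal
    have hT1 : Subgroup.centralizer (Cfsg.layer G : Set G) = ⊥ := by
      have h1 := Helper28.centralizer_genFitting_le (G := G)
      rw [hFs] at h1
      have hn : (Subgroup.centralizer (Cfsg.layer G : Set G)).Normal := inferInstance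
      have hcm : IsMulCommutative ↥(Subgroup.centralizer (Cfsg.layer G : Set G)) := by
        refine ⟨⟨fun a b => ?_⟩⟩
        apply Subtype.ext
        exact Subgroup.mem_centralizer_iff.1 b.2 a (h1 a.2)
      have := Helper28.le_fitting hn Helper28.isNilpotent_of_isMulCommutative
      rw [hF] at this
      exact le_bot_iff.1 this
    have hEne : Cfsg.layer G ≠ ⊥ := by
      intro e
      rw [e] at hT1
      have : z ∈ Subgroup.centralizer (((⊥ : Subgroup G) : Subgroup G) : Set G) := by
        rw [Subgroup.mem_centralizer_iff]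
        intro x hx
        rw [Subgroup.mem_bot.1 hx]; simp
      rw [hT1, Subgroup.mem_bot] at this
      exact h.z1 this
    have hzE : z ∈ Cfsg.layer G := by
      have hev : 2 ∣ Nat.card ↥(Cfsg.layer G) := by
        by_contra hcon
        apply hEne
        apply hodd
        · exact Nat.odd_iff.2 (Nat.two_dvd_ne_zero.1 hcon)
        · rw [Subgroup.normalizer_eq_top]; exact le_top
      obtain ⟨t, ht⟩ := exists_prime_orderOf_dvd_card' 2 hev
      obtain ⟨S₀, hS₀⟩ := h.two.exists_le_sylow
      have ht' : orderOf (t : G) = 2 ^ 1 := by rw [Subgroup.orderOf_coe, ht]; rfl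
      obtain ⟨g, hg⟩ := exists_conj_mem_sylow S₀ (isPGroup_zpowers_of_orderOf ht')
      have hmem : g * t * g⁻¹ ∈ (S₀ : Subgroup G) ⊓ Cfsg.layer G :=
        ⟨hg _ (Subgroup.mem_zpowers _), hEn.conj_mem _ t.2 g⟩
      have hne : (S₀ : Subgroup G) ⊓ Cfsg.layer G ≠ ⊥ := by
        intro e
        rw [e, Subgroup.mem_bot] at hmem
        have h1 : (t : G) = 1 := by
          have : (t : G) = g⁻¹ * (g * t * g⁻¹) * g := by group
          rw [this, hmem]; group
        rw [h1, orderOf_one] at ht'
        omega
      have := h.z_mem_of_two_group _ (S₀.2.to_le inf_le_left) hne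
        (le_normalizer_of_conj_mem (fun q hq x hx =>
          ⟨(S₀ : Subgroup G).mul_mem ((S₀ : Subgroup G).mul_mem (hS₀ hq) hx.1)
            ((S₀ : Subgroup G).inv_mem (hS₀ hq)), hEn.conj_mem _ hx.2 q⟩))
      exact this.2
    obtain ⟨L, hL⟩ : ∃ L : Subgroup G, Cfsg.IsComponent L := by
      by_contra hcon
      push Not at hcon
      apply hEne
      rw [eq_bot_iff, Helper27.layer_le_iff]
      intro K hK
      exact absurd hK (hcon K)
    obtain ⟨z₁, hz₁L, c, hc, hzc⟩ := exists_proj hL hzE
    have H : Cfg Q z L z₁ c := ⟨h, hL, comp_inf_centralizer hT1 hL, hz₁L, hc, hzc⟩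
    obtain ⟨hs, hna⟩ := comp_simple hT1 hL
    have hME : M = Cfsg.layer G := by
      apply le_antisymm
      · rw [hM]
        exact Subgroup.normalClosure_le_normal (Set.singleton_subset_iff.2 hzE)
      · rw [Helper27.layer_le_iff]
        intro K hK
        have hMn : M.Normal := by rw [hM]; infer_instance
        rcases Helper28.IsComponent.le_or_commutator_eq_bot_of_normal hK hMn with h1 | h1
        · exact h1
        · exfalso
          apply h.no_comp hK
          intro k hk
          apply Helper28.commute_of_commutator_eq_bot h1 hk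
          rw [hM]
          exact Subgroup.subset_normalClosure (Set.mem_singleton z)
    by_cases hall : ∀ q ∈ Q, L.map (MulAut.conj q).toMonoidHom = L
    · right; right; left
      have hz₁z : z₁ = z := by
        rcases h.cent z₁ (fun q hq => mul_inv_eq_iff_eq_mul.1 (H.fix hq (hall q hq))) with e | e
        · exact absurd e H.z₁_ne
        · exact e
      have hKL : ∀ K : Subgroup G, Cfsg.IsComponent K → K = L := by
        intro K hK
        by_contra hne
        apply h.no_comp hK
        intro k hk
        rw [← hz₁z]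
        exact (Subgroup.mem_centralizer_iff.1 (le_centralizer_of_ne hK hL hne hk) z₁ hz₁L).symm
      have hEL : Cfsg.layer G = L :=
        le_antisymm (Helper27.layer_le_iff.2 (fun K hK => (hKL K hK).le)) (Helper27.comp_le_layer hL)
      have hML : M = L := hME.trans hEL
      refine ⟨hME.trans hFs.symm, ?_, ?_⟩
      · rw [hML]; exact hs
      · rw [hML]; exact hna
    · right; right; right
      push Not at hall
      obtain ⟨u, hu, hne⟩ := hall
      obtain ⟨hz', hcomps, hX, hQL⟩ := two H hsq hs hna hu hne
      obtain ⟨R, hR⟩ := sylow_of_two H hu hcomps hX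
      have hL'L := le_centralizer_of_ne (Helper27.comp_conj hL u) hL hne
      refine ⟨hME.trans hFs.symm, L, u, hu, hs, hna, ?_, ?_, ?_, z₁, hz₁L, hz',
        ⟨R, hR, frattini_le_of_two hX R hR⟩, ne_pCore_of_two H hs hna hX hQL⟩
      · exact le_bot_iff.1 ((inf_le_inf_left L hL'L).trans_eq H.h0)
      · intro x hx y hy
        exact Subgroup.mem_centralizer_iff.1 (hL'L hy) x hx
      · rw [hME]
        apply le_antisymm
        · exact sup_le (Helper27.comp_le_layer hL) (Helper27.comp_le_layer (Helper27.comp_conj hL u))
        · rw [Helper27.layer_le_iff]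
          intro K hK
          rcases hcomps K hK with e | e
          · rw [e]; exact le_sup_left
          · rw [e]; exact le_sup_right
  · right; left
    have hRp : IsPGroup 2 ↥(Cfsg.pCore 2 G) := Helper28.pCore_isPGroup 2
    have hRc := Helper28.pCore_characteristic (G := G) 2
    have hRn : (Cfsg.pCore 2 G).Normal := inferInstance
    have hAne := Helper12.inf_centralizer_ne_bot (Cfsg.pCore 2 G) hRp (Cfsg.pCore 2 G) le_rfl
      Subgroup.le_normalizer hO2
    have hAn : (Cfsg.pCore 2 G ⊓ Subgroup.centralizer (Cfsg.pCore 2 G : Set G)).Normal :=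
      inferInstance
    have hzA := h.z_mem_of_two_group _ (hRp.to_le inf_le_left) hAne
      (by rw [Subgroup.normalizer_eq_top]; exact le_top)
    have hMA : M ≤ Cfsg.pCore 2 G ⊓ Subgroup.centralizer (Cfsg.pCore 2 G : Set G) := by
      rw [hM]
      exact Subgroup.normalClosure_le_normal (Set.singleton_subset_iff.2 hzA)
    constructor
    · refine ⟨⟨fun a b => ?_⟩⟩
      apply Subtype.ext
      exact Subgroup.mem_centralizer_iff.1 (hMA b.2).2 a (hMA a.2).1
    · apply Helper37.genFitting_eq_pCore_of hO
      intro K hK
      have hs : Group.IsSolvable ↥(Cfsg.pCore 2 G) := by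
        have := hRp.isNilpotent
        infer_instance
      have h1 := Helper27.comp_comm_solvable hK hs
        (by rw [Subgroup.normalizer_eq_top]; exact le_top)
      exact h.no_comp hK (fun k hk => Helper28.commute_of_commutator_eq_bot h1 hk hzA.1)

end Cfsg.Agent.S5426
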