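import Cfsg.Statements.S5431
-- import your own Cfsg.Agent.* helpers here
import Cfsg.Agent.Lib.Helper92.ESPair3

set_option autoImplicit false
open Cfsg

namespace Cfsg.Agent.S5431

open Cfsg.Agent.Lib.Helper92
open scoped commutatorElement

variable {G : Type*} [Group G] {Q P : Subgroup G} {z s : G}

theorem E_le_R (h : PairData Q P z s) : Q ⊓ P ≤ PR Q P z s := by
  intro e he
  rw [Subgroup.mem_inf] at he
  exact Subgroup.mem_sup_right (Subgroup.mem_inf.2 ⟨he.1,
    Subgroup.mem_centralizer_singleton_iff.2 (h.hP.zc e he.2)⟩)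

theorem Y_le_normalizer_E (h : PairData Q P z s) :
    PY z s ≤ Subgroup.normalizer ((Q ⊓ P : Subgroup G) : Set G) := by
  apply le_normalizer_of_conj_mem
  intro c hc e he
  rw [Subgroup.mem_inf] at he ⊢
  exact ⟨h.hQ.norm c (mem_PY.1 hc).1 e he.1, h.hP.norm c (mem_PY.1 hc).2 e he.2⟩

theorem z_mem_E (h : PairData Q P z s) : z ∈ Q ⊓ P := Subgroup.mem_inf.2 ⟨h.hQ.zQ, h.zP⟩
theorem s_mem_E (h : PairData Q P z s) : s ∈ Q ⊓ P := Subgroup.mem_inf.2 ⟨h.sQ, h.hP.zQ⟩

theorem comm_R_R (h : PairData Q P z s) : ∀ x ∈ PR Q P z s, ∀ y ∈ PR Q P z s,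
    x * y * x⁻¹ * y⁻¹ ∈ Q ⊓ P := by
  have hgen : ∀ t ∈ (((P ⊓ Subgroup.centralizer {z} : Subgroup G) : Set G) ∪
      ((Q ⊓ Subgroup.centralizer {s} : Subgroup G) : Set G)),
      t ∈ Subgroup.normalizer ((Q ⊓ P : Subgroup G) : Set G) := by
    rintro t (ht | ht)
    · exact Y_le_normalizer_E h (h.R_le_Y (Subgroup.mem_sup_left ht))
    · exact Y_le_normalizer_E h (h.R_le_Y (Subgroup.mem_sup_right ht))
  have hmix : ∀ a ∈ P ⊓ Subgroup.centralizer {z}, ∀ b ∈ Q ⊓ Subgroup.centralizer {s},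
      a * b * a⁻¹ * b⁻¹ ∈ Q ⊓ P := by
    intro a ha b hb
    have haY := mem_PY.1 (h.R_le_Y (Subgroup.mem_sup_left ha))
    have hbY := mem_PY.1 (h.R_le_Y (Subgroup.mem_sup_right hb))
    rw [Subgroup.mem_inf] at ha hb ⊢
    constructor
    · exact Q.mul_mem (h.hQ.norm a haY.1 b hb.1) (Q.inv_mem hb.1)
    · have e : a * b * a⁻¹ * b⁻¹ = a * (b * a⁻¹ * b⁻¹) := by group
      rw [e]
      exact P.mul_mem ha.1 (h.hP.norm b hbY.2 a⁻¹ (P.inv_mem ha.1))
  intro x hx y hy
  rw [PR, sup_eq_closure_union] at hx hy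
  refine comm_mem_closure hgen hgen ?_ x hx y hy
  rintro a (ha | ha) b (hb | hb)
  · rcases h.hP.comm a (Subgroup.mem_inf.1 ha).1 b (Subgroup.mem_inf.1 hb).1 with h1 | h1
    · rw [h1]; exact one_mem _
    · rw [h1]; exact s_mem_E h
  · exact hmix a ha b hb
  · exact comm_mem_symm (hmix b hb a ha)
  · rcases h.hQ.comm a (Subgroup.mem_inf.1 ha).1 b (Subgroup.mem_inf.1 hb).1 with h1 | h1
    · rw [h1]; exact one_mem _
    · rw [h1]; exact z_mem_E h

theorem sq_R (h : PairData Q P z s) : ∀ x ∈ PR Q P z s, x * x ∈ Q ⊓ P := by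
  intro x hx
  have hc := comm_R_R h
  rw [PR, sup_eq_closure_union] at hx hc
  refine sq_mem_closure hc ?_ x hx
  rintro a (ha | ha)
  · rcases h.sqP a (Subgroup.mem_inf.1 ha).1 with h1 | h1
    · rw [h1]; exact one_mem _
    · rw [h1]; exact s_mem_E h
  · rcases h.sqQ a (Subgroup.mem_inf.1 ha).1 with h1 | h1
    · rw [h1]; exact one_mem _
    · rw [h1]; exact z_mem_E h

theorem z_mem_V : z ∈ Subgroup.closure ({z, s} : Set G) := Subgroup.subset_closure (by simp)
theorem s_mem_V : s ∈ Subgroup.closure ({z, s} : Set G) := Subgroup.subset_closure (by simp)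

theorem X_le_normalizer_V (h : PairData Q P z s) :
    Q ⊔ P ≤ Subgroup.normalizer (Subgroup.closure ({z, s} : Set G) : Set G) := by
  have hzs : z * s ∈ Subgroup.closure ({z, s} : Set G) := mul_mem z_mem_V s_mem_V
  apply sup_le
  · apply le_normalizer_of_conj_mem
    intro a ha v hv
    have h1 : a * z * a⁻¹ = z := conj_eq_of_commute (h.hQ.zc a ha)
    have h2 : a * s * a⁻¹ ∈ Subgroup.closure ({z, s} : Set G) := by
      rcases h.hQ.conj_cases ha h.sQ with h2 | h2
      · rw [h2]; exact s_mem_V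
      · rw [h2]; exact hzs
    rcases h.mem_V.1 hv with rfl | rfl | rfl | rfl
    · simp
    · rw [h1]; exact z_mem_V
    · exact h2
    · have e : a * (z * s) * a⁻¹ = (a * z * a⁻¹) * (a * s * a⁻¹) := by group
      rw [e, h1]; exact mul_mem z_mem_V h2
  · apply le_normalizer_of_conj_mem
    intro a ha v hv
    have h1 : a * s * a⁻¹ = s := conj_eq_of_commute (h.hP.zc a ha)
    have h2 : a * z * a⁻¹ ∈ Subgroup.closure ({z, s} : Set G) := by
      rcases h.hP.conj_cases ha h.zP with h2 | h2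
      · rw [h2]; exact z_mem_V
      · rw [h2]; exact mul_mem s_mem_V z_mem_V
    rcases h.mem_V.1 hv with rfl | rfl | rfl | rfl
    · simp
    · exact h2
    · rw [h1]; exact s_mem_V
    · have e : a * (z * s) * a⁻¹ = (a * z * a⁻¹) * (a * s * a⁻¹) := by group
      rw [e, h1]; exact mul_mem h2 s_mem_V

theorem comm_X_E (h : PairData Q P z s) : ∀ x ∈ Q ⊔ P, ∀ e ∈ Q ⊓ P,
    x * e * x⁻¹ * e⁻¹ ∈ Subgroup.closure ({z, s} : Set G) := by
  intro x hx e he
  rw [sup_eq_closure_union] at hx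
  rw [Subgroup.mem_inf] at he
  refine comm_mem_closure_left ?_ ?_ x hx
  · rintro a (ha | ha)
    · exact X_le_normalizer_V h (Subgroup.mem_sup_left ha)
    · exact X_le_normalizer_V h (Subgroup.mem_sup_right ha)
  · rintro a (ha | ha)
    · rcases h.hQ.comm a ha e he.1 with h1 | h1
      · rw [h1]; exact one_mem _
      · rw [h1]; exact z_mem_V
    · rcases h.hP.comm a ha e he.2 with h1 | h1
      · rw [h1]; exact one_mem _
      · rw [h1]; exact s_mem_V

theorem center_R (h : PairData Q P z s) {c : G} :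
    (c ∈ PR Q P z s ∧ ∀ r ∈ PR Q P z s, Commute r c) ↔ c ∈ Subgroup.closure ({z, s} : Set G) := by
  constructor
  · rintro ⟨-, hc⟩
    obtain ⟨q, hqQ, hq⟩ := h.hQ.exists_q h.sQ h.hP.z1 h.ne
    rw [h.mem_V]
    apply h.hQ.centralizer_CQ h.sQ h.hP.zz hqQ hq
    intro u hu hus
    exact hc u (Subgroup.mem_sup_right (Subgroup.mem_inf.2 ⟨hu,
      Subgroup.mem_centralizer_singleton_iff.2 hus⟩))
  · intro hc
    constructor
    · have : Subgroup.closure ({z, s} : Set G) ≤ PR Q P z s := by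
        rw [Subgroup.closure_le]
        rintro x (rfl | rfl)
        · exact E_le_R h (z_mem_E h)
        · exact E_le_R h (s_mem_E h)
      exact this hc
    · intro r hr
      have h1 := h.R_le_Y hr
      rw [← h.centralizer_V, Subgroup.mem_centralizer_iff] at h1
      exact (h1 c hc).symm

/-- Let Q be a large extraspecial 2-subgroup of the finite group G (extraspecial; centralizer equal to its centre; normal in the centralizer of its centre; normalizing no non-trivial subgroup of odd order) with centre generated by z, an involution, of width w ≥ 2 (order 2^(2w+1)); let g be an element outside the centralizer H of z with g z g⁻¹ in Q; write V for the subgroup generated by z and g z g⁻¹, X for the subgroup generated by Q and g Q g⁻¹, R for the subgroup generated by the centralizer of z in g Q g⁻¹ and the centralizer of g z g⁻¹ in Q, and E for the intersection of Q and g Q g⁻¹. Then V is the centre of R, E lies in the second centre of R, R is nilpotent of class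 at most 3, E and R/E are elementary abelian, R/E is the direct product of the images of the centralizer of g z g⁻¹ in Q and of the centralizer of z in g Q g⁻¹ (R is their product and they meet in E), and the commutator subgroup of X and E lies in V. -/
theorem result {G : Type*} [Group G] [Finite G] (Q : Subgroup G) (hQ : Cfsg.IsLargeExtraspecial Q) (z : G) (hz : ((Subgroup.center ↥Q).map Q.subtype) = Subgroup.zpowers z) (hz2 : orderOf z = 2) (w : ℕ) (hw : 2 ≤ w) (hcard : Nat.card ↥Q = 2 ^ (2 * w + 1)) (g : G) (hgH : g ∉ Subgroup.centralizer ({z} : Set G)) (hgQ : g * z * g⁻¹ ∈ Q) (V X R E : Subgroup G) (hV : V = Subgroup.closure ({z, g * z * g⁻¹} : Set G)) (hX : X = Q ⊔ (Q).map (MulAut.conj g).toMonoidHom) (hR : R = ((Q).map (MulAut.conj g).toMonoidHom ⊓ Subgroup.centralizer ({z} : Set G)) ⊔ (Q ⊓ Subgroup.centralizer ({g * z * g⁻¹} : Set G))) (hE : E = Q ⊓ (Q).map (MulAut.conj g).toMonoidHom) : (Subgroup.center ↥R).map R.subtype = V ∧ E ≤ (Subgroup.upperCentralSeries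 ↥R 2).map R.subtype ∧ Subgroup.upperCentralSeries ↥R 3 = ⊤ ∧ Cfsg.IsElementaryAbelian 2 E ∧ (∀ x ∈ R, ∀ y ∈ R, x * y * x⁻¹ * y⁻¹ ∈ E ∧ x ^ 2 ∈ E) ∧ ((Q).map (MulAut.conj g).toMonoidHom ⊓ Subgroup.centralizer ({z} : Set G)) ⊓ (Q ⊓ Subgroup.centralizer ({g * z * g⁻¹} : Set G)) = E ∧ ⁅X, E⁆ ≤ V := by
  have h := PairData.of_large Q hQ z hz hz2 w hw hcard g hgH hgQ
  subst hV hX hR hE
  generalize g * z * g⁻¹ = s at h
  generalize Q.map (MulAut.conj g).toMonoidHom = P at h
  change (Subgroup.center ↥(PR Q P z s)).map (PR Q P z s).subtype = _ ∧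
    _ ≤ (Subgroup.upperCentralSeries ↥(PR Q P z s) 2).map (PR Q P z s).subtype ∧
    Subgroup.upperCentralSeries ↥(PR Q P z s) 3 = ⊤ ∧ _ ∧
    (∀ x ∈ PR Q P z s, ∀ y ∈ PR Q P z s, _) ∧ _ ∧ _
  have hcen : ∀ c : ↥(PR Q P z s), c ∈ Subgroup.center ↥(PR Q P z s) ↔
      (c : G) ∈ Subgroup.closure ({z, s} : Set G) := by
    intro c
    rw [← center_R h, Subgroup.mem_center_iff]
    constructor
    · intro hc
      exact ⟨c.2, fun r hr => congrArg Subtype.val (hc ⟨r, hr⟩)⟩
    · rintro ⟨-, hc⟩ r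
      exact Subtype.ext (hc r r.2)
  have hZ2 : ∀ e : ↥(PR Q P z s), (e : G) ∈ Q ⊓ P →
      e ∈ Subgroup.upperCentralSeries ↥(PR Q P z s) 2 := by
    intro e he
    rw [Subgroup.mem_upperCentralSeries_succ_iff]
    intro y
    rw [Subgroup.upperCentralSeries_one, hcen]
    apply comm_mem_symm
    exact comm_X_E h y (h.R_le_X y.2) e he
  refine ⟨?_, ?_, ?_, ?_, ?_, ?_, ?_⟩
  · ext c
    constructor
    · rintro ⟨c, hc, rfl⟩
      exact (hcen c).1 hc
    · intro hc
      exact ⟨⟨c, ((center_R h).2 hc).1⟩, (hcen _).2 hc, rfl⟩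
  · intro e he
    exact ⟨⟨e, E_le_R h he⟩, hZ2 _ he, rfl⟩
  · rw [eq_top_iff]
    intro x _
    rw [Subgroup.mem_upperCentralSeries_succ_iff]
    intro y
    exact hZ2 _ (comm_R_R h x x.2 y y.2)
  · constructor
    · refine ⟨⟨fun a b => Subtype.ext ?_⟩⟩
      have ha := Subgroup.mem_inf.1 a.2
      have hb := Subgroup.mem_inf.1 b.2
      have h1 : (a : G) * b * (a : G)⁻¹ * (b : G)⁻¹ = 1 := by
        rcases h.hQ.comm a ha.1 b hb.1 with h1 | h1
        · exact h1
        · rcases h.hP.comm a ha.2 b hb.2 with h2 | h2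
          · exact h2
          · exact absurd (h2.symm.trans h1) h.ne
      show (a : G) * b = b * a
      calc (a : G) * b = ((a : G) * b * (a : G)⁻¹ * (b : G)⁻¹) * (b * a) := by group
        _ = b * a := by rw [h1, one_mul]
    · intro a ha
      rw [Subgroup.mem_inf] at ha
      rw [sq]
      rcases h.sqQ a ha.1 with h1 | h1
      · exact h1
      · rcases h.sqP a ha.2 with h2 | h2
        · exact h2
        · exact absurd (h2.symm.trans h1) h.ne
  · intro x hx y hy
    refine ⟨comm_R_R h x hx y hy, ?_⟩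
    rw [sq]; exact sq_R h x hx
  · ext e
    simp only [Subgroup.mem_inf]
    constructor
    · rintro ⟨⟨h1, -⟩, h2, -⟩
      exact ⟨h2, h1⟩
    · rintro ⟨h1, h2⟩
      exact ⟨⟨h2, Subgroup.mem_centralizer_singleton_iff.2 (h.hQ.zc e h1)⟩, h1,
        Subgroup.mem_centralizer_singleton_iff.2 (h.hP.zc e h2)⟩
  · rw [Subgroup.commutator_le]
    intro x hx e he
    rw [commutatorElement_def]
    exact comm_X_E h x hx e he

end Cfsg.Agent.S5431
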