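import Cfsg.Statements.S5430
-- import your own Cfsg.Agent.* helpers here
import Cfsg.Agent.Lib.Helper92.ESPair3
import Cfsg.Agent.Lib.Helper92.S3Quot
import Cfsg.Agent.Lib.Helper1.Cores
import Cfsg.Agent.S5431

set_option autoImplicit false
open Cfsg

namespace Cfsg.Agent.S5430

open Cfsg.Agent.Lib.Helper92

variable {G : Type*} [Group G] {Q P : Subgroup G} {z s : G}

/-- explicit action of the six coset representatives -/
structure Act (z s q p : G) : Prop where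
  qz : q * z * q⁻¹ = z
  qs : q * s * q⁻¹ = z * s
  pz : p * z * p⁻¹ = z * s
  ps : p * s * p⁻¹ = s
  zz : z * z = 1
  ss : s * s = 1
  zs : z * s = s * z

theorem Act.qzs {z s q p : G} (A : Act z s q p) : q * (z * s) * q⁻¹ = s := by
  calc q * (z * s) * q⁻¹ = (q * z * q⁻¹) * (q * s * q⁻¹) := by group
    _ = (z * z) * s := by rw [A.qz, A.qs]; group
    _ = s := by rw [A.zz, one_mul]

theorem Act.pzs {z s q p : G} (A : Act z s q p) : p * (z * s) * p⁻¹ = z := by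
  calc p * (z * s) * p⁻¹ = (p * z * p⁻¹) * (p * s * p⁻¹) := by group
    _ = z * (s * s) := by rw [A.pz, A.ps]; group
    _ = z := by rw [A.ss, mul_one]

theorem Act.qp_z {z s q p : G} (A : Act z s q p) : (q * p) * z * (q * p)⁻¹ = s := by
  calc (q * p) * z * (q * p)⁻¹ = q * (p * z * p⁻¹) * q⁻¹ := by group
    _ = s := by rw [A.pz, A.qzs]

theorem Act.qp_s {z s q p : G} (A : Act z s q p) : (q * p) * s * (q * p)⁻¹ = z * s := by
  calc (q * p) * s * (q * p)⁻¹ = q * (p * s * p⁻¹) * q⁻¹ := by group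
    _ = z * s := by rw [A.ps, A.qs]

theorem Act.pq_z {z s q p : G} (A : Act z s q p) : (p * q) * z * (p * q)⁻¹ = z * s := by
  calc (p * q) * z * (p * q)⁻¹ = p * (q * z * q⁻¹) * p⁻¹ := by group
    _ = z * s := by rw [A.qz, A.pz]

theorem Act.pq_s {z s q p : G} (A : Act z s q p) : (p * q) * s * (p * q)⁻¹ = z := by
  calc (p * q) * s * (p * q)⁻¹ = p * (q * s * q⁻¹) * p⁻¹ := by group
    _ = z := by rw [A.qs, A.pzs]

theorem Act.qpq_z {z s q p : G} (A : Act z s q p) : (q * p * q) * z * (q * p * q)⁻¹ = s := by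
  calc (q * p * q) * z * (q * p * q)⁻¹ = (q * p) * (q * z * q⁻¹) * (q * p)⁻¹ := by group
    _ = s := by rw [A.qz, A.qp_z]

theorem Act.qpq_s {z s q p : G} (A : Act z s q p) : (q * p * q) * s * (q * p * q)⁻¹ = z := by
  calc (q * p * q) * s * (q * p * q)⁻¹ = q * (p * (q * s * q⁻¹) * p⁻¹) * q⁻¹ := by group
    _ = z := by rw [A.qs, A.pzs, A.qz]

theorem Act.n_z {z s q p : G} (A : Act z s q p) : (q * p * q⁻¹) * z * (q * p * q⁻¹)⁻¹ = s := by
  have h1 : q⁻¹ * z * q = z := by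
    calc q⁻¹ * z * q = q⁻¹ * (q * z * q⁻¹) * q := by rw [A.qz]
      _ = z := by group
  calc (q * p * q⁻¹) * z * (q * p * q⁻¹)⁻¹ = (q * p) * (q⁻¹ * z * q) * (q * p)⁻¹ := by group
    _ = s := by rw [h1, A.qp_z]

theorem Act.n_s {z s q p : G} (A : Act z s q p) : (q * p * q⁻¹) * s * (q * p * q⁻¹)⁻¹ = z := by
  have h1 : q⁻¹ * s * q = z * s := by
    calc q⁻¹ * s * q = q⁻¹ * (q * (z * s) * q⁻¹) * q := by rw [A.qzs]
      _ = z * s := by group
  calc (q * p * q⁻¹) * s * (q * p * q⁻¹)⁻¹ = q * (p * (q⁻¹ * s * q) * p⁻¹) * q⁻¹ := by group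
    _ = z := by rw [h1, A.pzs, A.qz]

theorem exists_act (h : PairData Q P z s) : ∃ q ∈ Q, ∃ p ∈ P, Act z s q p := by
  obtain ⟨q, hqQ, hq⟩ := h.hQ.exists_q h.sQ h.hP.z1 h.ne
  obtain ⟨p, hpP, hp⟩ := h.hP.exists_q h.zP h.hQ.z1 h.ne.symm
  exact ⟨q, hqQ, p, hpP, conj_eq_of_commute (h.hQ.zc q hqQ), hq, by rw [hp, h.zs.eq],
    conj_eq_of_commute (h.hP.zc p hpP), h.hQ.zz, h.hP.zz, h.zs.eq⟩

theorem braid (h : PairData Q P z s) {q p : G} (hq : q ∈ Q) (hp : p ∈ P) (A : Act z s q p) :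
    p⁻¹ * ((q * p * q⁻¹) * q * (q * p * q⁻¹)⁻¹) ∈ PR Q P z s := by
  apply Subgroup.mem_sup_left
  have h1 : (q * p * q⁻¹) * q * (q * p * q⁻¹)⁻¹ ∈ P := h.swQ _ A.n_z q hq
  rw [Subgroup.mem_inf, Subgroup.mem_centralizer_singleton_iff]
  refine ⟨P.mul_mem (P.inv_mem hp) h1, ?_⟩
  apply (commute_of_conj_eq _).eq
  have h2 : (q * p * q⁻¹)⁻¹ * z * (q * p * q⁻¹) = s := by
    calc (q * p * q⁻¹)⁻¹ * z * (q * p * q⁻¹)
        = (q * p * q⁻¹)⁻¹ * ((q * p * q⁻¹) * s * (q * p * q⁻¹)⁻¹) * (q * p * q⁻¹) := by rw [A.n_s]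
      _ = s := by group
  have h3 : (q * p * q⁻¹) * (z * s) * (q * p * q⁻¹)⁻¹ = z * s := by
    calc (q * p * q⁻¹) * (z * s) * (q * p * q⁻¹)⁻¹
        = ((q * p * q⁻¹) * z * (q * p * q⁻¹)⁻¹) * ((q * p * q⁻¹) * s * (q * p * q⁻¹)⁻¹) := by group
      _ = z * s := by rw [A.n_z, A.n_s, A.zs]
  have h4 : p⁻¹ * (z * s) * p = z := by
    calc p⁻¹ * (z * s) * p = p⁻¹ * (p * z * p⁻¹) * p := by rw [A.pz]
      _ = z := by group
  generalize q * p * q⁻¹ = n at *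
  calc p⁻¹ * (n * q * n⁻¹) * z * (p⁻¹ * (n * q * n⁻¹))⁻¹
      = p⁻¹ * (n * (q * (n⁻¹ * z * n) * q⁻¹) * n⁻¹) * p := by group
    _ = z := by rw [h2, A.qs, h3, h4]

theorem exists_t (h : PairData Q P z s) {a b : G}
    (ha : a ∈ Subgroup.closure ({z, s} : Set G)) (hb : b ∈ Subgroup.closure ({z, s} : Set G))
    (ha1 : a ≠ 1) (hb1 : b ≠ 1) (hab : a ≠ b) :
    ∃ t ∈ Q ⊔ P, t * z * t⁻¹ = a ∧ t * s * t⁻¹ = b := by
  obtain ⟨q, hq, p, hp, A⟩ := exists_act h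
  have hqX : q ∈ Q ⊔ P := Subgroup.mem_sup_left hq
  have hpX : p ∈ Q ⊔ P := Subgroup.mem_sup_right hp
  rcases h.mem_V.1 ha with rfl | rfl | rfl | rfl
  · exact absurd rfl ha1
  · rcases h.mem_V.1 hb with rfl | rfl | rfl | rfl
    · exact absurd rfl hb1
    · exact absurd rfl hab
    · exact ⟨1, one_mem _, by simp, by simp⟩
    · exact ⟨q, hqX, A.qz, A.qs⟩
  · rcases h.mem_V.1 hb with rfl | rfl | rfl | rfl
    · exact absurd rfl hb1
    · exact ⟨q * p * q, mul_mem (mul_mem hqX hpX) hqX, A.qpq_z, A.qpq_s⟩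
    · exact absurd rfl hab
    · exact ⟨q * p, mul_mem hqX hpX, A.qp_z, A.qp_s⟩
  · rcases h.mem_V.1 hb with rfl | rfl | rfl | rfl
    · exact absurd rfl hb1
    · exact ⟨p * q, mul_mem hpX hqX, A.pq_z, A.pq_s⟩
    · exact ⟨p, hpX, A.pz, A.ps⟩
    · exact absurd rfl hab

theorem normalizer_V (h : PairData Q P z s) :
    Subgroup.normalizer (Subgroup.closure ({z, s} : Set G) : Set G) = (Q ⊔ P) ⊔ PY z s := by
  apply le_antisymm
  · intro n hn
    have hz : n * z * n⁻¹ ∈ Subgroup.closure ({z, s} : Set G) :=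
      (Subgroup.mem_normalizer_iff.1 hn z).1 Cfsg.Agent.S5431.z_mem_V
    have hs : n * s * n⁻¹ ∈ Subgroup.closure ({z, s} : Set G) :=
      (Subgroup.mem_normalizer_iff.1 hn s).1 Cfsg.Agent.S5431.s_mem_V
    have hz1 : n * z * n⁻¹ ≠ 1 := by
      intro h1
      apply h.hQ.z1
      calc z = n⁻¹ * (n * z * n⁻¹) * n := by group
        _ = 1 := by rw [h1]; group
    have hs1 : n * s * n⁻¹ ≠ 1 := by
      intro h1
      apply h.hP.z1
      calc s = n⁻¹ * (n * s * n⁻¹) * n := by group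
        _ = 1 := by rw [h1]; group
    have hne : n * z * n⁻¹ ≠ n * s * n⁻¹ := by
      intro h1
      apply h.ne
      calc s = n⁻¹ * (n * s * n⁻¹) * n := by group
        _ = n⁻¹ * (n * z * n⁻¹) * n := by rw [h1]
        _ = z := by group
    obtain ⟨t, ht, htz, hts⟩ := exists_t h hz hs hz1 hs1 hne
    have e : n = t * (t⁻¹ * n) := by group
    rw [e]
    refine Subgroup.mul_mem _ (Subgroup.mem_sup_left ht) (Subgroup.mem_sup_right ?_)
    rw [mem_PY]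
    constructor
    · apply commute_of_conj_eq
      calc t⁻¹ * n * z * (t⁻¹ * n)⁻¹ = t⁻¹ * (n * z * n⁻¹) * t := by group
        _ = t⁻¹ * (t * z * t⁻¹) * t := by rw [htz]
        _ = z := by group
    · apply commute_of_conj_eq
      calc t⁻¹ * n * s * (t⁻¹ * n)⁻¹ = t⁻¹ * (n * s * n⁻¹) * t := by group
        _ = t⁻¹ * (t * s * t⁻¹) * t := by rw [hts]
        _ = s := by group
  · apply sup_le (Cfsg.Agent.S5431.X_le_normalizer_V h)
    rw [← h.centralizer_V]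
    exact Subgroup.centralizer_le_normalizer _

theorem quot (h : PairData Q P z s) :
    ∃ hN : ((PR Q P z s).subgroupOf (Q ⊔ P)).Normal,
      Nonempty (↥(Q ⊔ P) ⧸ (PR Q P z s).subgroupOf (Q ⊔ P) ≃* Equiv.Perm (Fin 3)) ∧
      ∀ x ∈ Q ⊔ P, x ∈ PY z s → x ∈ PR Q P z s := by
  have hN : ((PR Q P z s).subgroupOf (Q ⊔ P)).Normal :=
    (Subgroup.normal_subgroupOf_iff_le_normalizer h.R_le_X).2 h.X_le_normalizer_R
  refine ⟨hN, ?_⟩
  obtain ⟨q, hq, p, hp, A⟩ := exists_act h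
  have hqX : q ∈ Q ⊔ P := Subgroup.mem_sup_left hq
  have hpX : p ∈ Q ⊔ P := Subgroup.mem_sup_right hp
  have hzR : z ∈ PR Q P z s := Cfsg.Agent.S5431.E_le_R h (Cfsg.Agent.S5431.z_mem_E h)
  have hsR : s ∈ PR Q P z s := Cfsg.Agent.S5431.E_le_R h (Cfsg.Agent.S5431.s_mem_E h)
  set N := (PR Q P z s).subgroupOf (Q ⊔ P) with hNdef
  let d : ↥(Q ⊔ P) ⧸ N := QuotientGroup.mk ⟨q, hqX⟩
  let e : ↥(Q ⊔ P) ⧸ N := QuotientGroup.mk ⟨p, hpX⟩
  have hmk1 : ∀ x : ↥(Q ⊔ P), (QuotientGroup.mk x : ↥(Q ⊔ P) ⧸ N) = 1 ↔ (x : G) ∈ PR Q P z s := by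
    intro x
    rw [QuotientGroup.eq_one_iff, hNdef, Subgroup.mem_subgroupOf]
  have hd : d * d = 1 := by
    show (QuotientGroup.mk (⟨q, hqX⟩ * ⟨q, hqX⟩ : ↥(Q ⊔ P)) : ↥(Q ⊔ P) ⧸ N) = 1
    rw [hmk1]
    show q * q ∈ _
    rcases h.sqQ q hq with h1 | h1
    · rw [h1]; exact one_mem _
    · rw [h1]; exact hzR
  have he : e * e = 1 := by
    show (QuotientGroup.mk (⟨p, hpX⟩ * ⟨p, hpX⟩ : ↥(Q ⊔ P)) : ↥(Q ⊔ P) ⧸ N) = 1
    rw [hmk1]
    show p * p ∈ _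
    rcases h.sqP p hp with h1 | h1
    · rw [h1]; exact one_mem _
    · rw [h1]; exact hsR
  have hdi : d⁻¹ = d := inv_eq_of_mul_eq_one_left hd
  have hei : e⁻¹ = e := inv_eq_of_mul_eq_one_left he
  have hbr : e⁻¹ * ((d * e * d⁻¹) * d * (d * e * d⁻¹)⁻¹) = 1 := by
    show (QuotientGroup.mk ((⟨p, hpX⟩ : ↥(Q ⊔ P))⁻¹ * ((⟨q, hqX⟩ * ⟨p, hpX⟩ * ⟨q, hqX⟩⁻¹) * ⟨q, hqX⟩ *
      (⟨q, hqX⟩ * ⟨p, hpX⟩ * ⟨q, hqX⟩⁻¹)⁻¹)) : ↥(Q ⊔ P) ⧸ N) = 1
    rw [hmk1]
    exact braid h hq hp A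
  have h3 : (d * e) ^ 3 = 1 := by
    have h4 : e * d * e * d * e * d = 1 := by
      rw [← hbr, hdi, hei]
      simp only [mul_inv_rev, hdi, hei, mul_assoc]
      rw [← mul_assoc d d, hd, one_mul]
    calc (d * e) ^ 3 = d * (e * d * e * d * e * d) * d⁻¹ := by
          rw [pow_succ, pow_succ, pow_one]; group
      _ = 1 := by rw [h4]; group
  have hqY : q ∉ PY z s := by
    intro h1
    have := conj_eq_of_commute (mem_PY.1 h1).2
    rw [A.qs] at this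
    exact h.zs_ne_s this
  have hpY : p ∉ PY z s := by
    intro h1
    have := conj_eq_of_commute (mem_PY.1 h1).1
    rw [A.pz] at this
    exact h.zs_ne_z this
  have hd1 : d ≠ 1 := by
    intro h1
    exact hqY (h.R_le_Y ((hmk1 _).1 h1))
  have hmkeq : ∀ x t : ↥(Q ⊔ P), (QuotientGroup.mk x : ↥(Q ⊔ P) ⧸ N) = QuotientGroup.mk t →
      (x : G) ∈ PY z s → (t : G) ∈ PY z s := by
    intro x t hxt hx
    have h1 : (QuotientGroup.mk (x⁻¹ * t) : ↥(Q ⊔ P) ⧸ N) = 1 := by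
      rw [QuotientGroup.mk_mul, QuotientGroup.mk_inv, hxt]; group
    have h2 := h.R_le_Y ((hmk1 _).1 h1)
    have e : (t : G) = x * ((x⁻¹ * t : ↥(Q ⊔ P)) : G) := by simp
    rw [e]
    exact mul_mem hx h2
  have hne : d ≠ e := by
    intro h1
    have h2 : (QuotientGroup.mk ((⟨q, hqX⟩ : ↥(Q ⊔ P))⁻¹ * ⟨p, hpX⟩) : ↥(Q ⊔ P) ⧸ N) = 1 := by
      show d⁻¹ * e = 1
      rw [h1]; group
    have h3 := mem_PY.1 (h.R_le_Y ((hmk1 _).1 h2))
    have h4 : Commute (q⁻¹ * p) z := h3.1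
    have h5 : Commute p z := by
      have := (h.hQ.zc q hq).mul_left h4
      rwa [mul_inv_cancel_left] at this
    have h6 := conj_eq_of_commute h5
    rw [A.pz] at h6
    exact h.zs_ne_z h6
  have htop : Subgroup.closure ({d, e} : Set (↥(Q ⊔ P) ⧸ N)) = ⊤ := by
    have hdW : d ∈ Subgroup.closure ({d, e} : Set (↥(Q ⊔ P) ⧸ N)) :=
      Subgroup.subset_closure (by simp)
    have heW : e ∈ Subgroup.closure ({d, e} : Set (↥(Q ⊔ P) ⧸ N)) :=
      Subgroup.subset_closure (by simp)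
    have hQW : Q ≤ ((Subgroup.closure ({d, e} : Set (↥(Q ⊔ P) ⧸ N))).comap
        (QuotientGroup.mk' N)).map (Q ⊔ P).subtype := by
      intro a ha
      refine ⟨⟨a, Subgroup.mem_sup_left ha⟩, ?_, rfl⟩
      show (QuotientGroup.mk ⟨a, Subgroup.mem_sup_left ha⟩ : ↥(Q ⊔ P) ⧸ N) ∈
        Subgroup.closure ({d, e} : Set (↥(Q ⊔ P) ⧸ N))
      rcases h.hQ.dichotomy h.sQ A.qs ha with h1 | h1
      · have h2 : (QuotientGroup.mk ⟨a, Subgroup.mem_sup_left ha⟩ : ↥(Q ⊔ P) ⧸ N) = 1 :=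
          (hmk1 _).2 (Subgroup.mem_sup_right (Subgroup.mem_inf.2 ⟨ha,
            Subgroup.mem_centralizer_singleton_iff.2 h1⟩))
        rw [h2]; exact one_mem _
      · have h2 : (QuotientGroup.mk ((⟨q, hqX⟩ : ↥(Q ⊔ P))⁻¹ * ⟨a, Subgroup.mem_sup_left ha⟩) :
            ↥(Q ⊔ P) ⧸ N) = 1 :=
          (hmk1 _).2 (Subgroup.mem_sup_right (Subgroup.mem_inf.2 ⟨Q.mul_mem (Q.inv_mem hq) ha,
            Subgroup.mem_centralizer_singleton_iff.2 h1⟩))
        rw [QuotientGroup.mk_mul, QuotientGroup.mk_inv] at h2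
        have h3 : (QuotientGroup.mk ⟨a, Subgroup.mem_sup_left ha⟩ : ↥(Q ⊔ P) ⧸ N) = d :=
          (inv_mul_eq_one.1 h2).symm
        rw [h3]; exact hdW
    have hPW : P ≤ ((Subgroup.closure ({d, e} : Set (↥(Q ⊔ P) ⧸ N))).comap
        (QuotientGroup.mk' N)).map (Q ⊔ P).subtype := by
      intro a ha
      refine ⟨⟨a, Subgroup.mem_sup_right ha⟩, ?_, rfl⟩
      show (QuotientGroup.mk ⟨a, Subgroup.mem_sup_right ha⟩ : ↥(Q ⊔ P) ⧸ N) ∈
        Subgroup.closure ({d, e} : Set (↥(Q ⊔ P) ⧸ N))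
      rcases h.hP.dichotomy h.zP (A.pz.trans A.zs) ha with h1 | h1
      · have h2 : (QuotientGroup.mk ⟨a, Subgroup.mem_sup_right ha⟩ : ↥(Q ⊔ P) ⧸ N) = 1 :=
          (hmk1 _).2 (Subgroup.mem_sup_left (Subgroup.mem_inf.2 ⟨ha,
            Subgroup.mem_centralizer_singleton_iff.2 h1⟩))
        rw [h2]; exact one_mem _
      · have h2 : (QuotientGroup.mk ((⟨p, hpX⟩ : ↥(Q ⊔ P))⁻¹ * ⟨a, Subgroup.mem_sup_right ha⟩) :
            ↥(Q ⊔ P) ⧸ N) = 1 :=
          (hmk1 _).2 (Subgroup.mem_sup_left (Subgroup.mem_inf.2 ⟨P.mul_mem (P.inv_mem hp) ha,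
            Subgroup.mem_centralizer_singleton_iff.2 h1⟩))
        rw [QuotientGroup.mk_mul, QuotientGroup.mk_inv] at h2
        have h3 : (QuotientGroup.mk ⟨a, Subgroup.mem_sup_right ha⟩ : ↥(Q ⊔ P) ⧸ N) = e :=
          (inv_mul_eq_one.1 h2).symm
        rw [h3]; exact heW
    rw [eq_top_iff]
    intro y _
    obtain ⟨x, rfl⟩ := QuotientGroup.mk_surjective y
    obtain ⟨x', hx', hxx⟩ := (sup_le hQW hPW) x.2
    have : x' = x := Subtype.ext hxx
    rw [← this]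
    exact hx'
  refine ⟨equiv_perm_of_gens hd he h3 hd1 hne htop, ?_⟩
  intro x hx hxY
  rcases six_elements hd he h3 htop (QuotientGroup.mk ⟨x, hx⟩) with h1 | h1 | h1 | h1 | h1 | h1
  · exact (hmk1 _).1 h1
  · exact absurd (hmkeq ⟨x, hx⟩ ⟨q, hqX⟩ h1 hxY) hqY
  · exact absurd (hmkeq ⟨x, hx⟩ ⟨p, hpX⟩ h1 hxY) hpY
  · exfalso
    have h2 := hmkeq ⟨x, hx⟩ ((Subtype.mk q hqX : ↥(Q ⊔ P)) * Subtype.mk p hpX) h1 hxY
    have h4 : q * p * z * (q * p)⁻¹ = z := conj_eq_of_commute (mem_PY.1 h2).1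
    rw [A.qp_z] at h4
    exact h.ne h4
  · exfalso
    have h2 := hmkeq ⟨x, hx⟩ ((Subtype.mk p hpX : ↥(Q ⊔ P)) * Subtype.mk q hqX) h1 hxY
    have h4 : p * q * z * (p * q)⁻¹ = z := conj_eq_of_commute (mem_PY.1 h2).1
    rw [A.pq_z] at h4
    exact h.zs_ne_z h4
  · exfalso
    have h2 := hmkeq ⟨x, hx⟩ ((Subtype.mk q hqX : ↥(Q ⊔ P)) * Subtype.mk p hpX * Subtype.mk q hqX) h1 hxY
    have h4 : q * p * q * z * (q * p * q)⁻¹ = z := conj_eq_of_commute (mem_PY.1 h2).1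
    rw [A.qpq_z] at h4
    exact h.ne h4

/-- Let Q be a large extraspecial 2-subgroup of the finite group G (extraspecial; centralizer equal to its centre; normal in the centralizer of its centre; normalizing no non-trivial subgroup of odd order) with centre generated by z, an involution, of width w ≥ 2 (order 2^(2w+1)); let g be an element outside the centralizer H of z with g z g⁻¹ in Q; write V for the subgroup generated by z and g z g⁻¹, X for the subgroup generated by Q and g Q g⁻¹, R for the subgroup generated by the centralizer of z in g Q g⁻¹ and the centralizer of g z g⁻¹ in Q, and E for the intersection of Q and g Q g⁻¹. Then R is the centralizer of V in X and is the largest normal 2-subgroup of X, and X/R is isomorphic to the symmetric group of degree 3; moreover the normalizer of V is the product of X and the centralizer of V in H, X is normal in it, and modulo R it is the direct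 product of X/R and of the centralizer of V in H modulo R. -/
theorem result {G : Type*} [Group G] [Finite G] (Q : Subgroup G) (hQ : Cfsg.IsLargeExtraspecial Q) (z : G) (hz : ((Subgroup.center ↥Q).map Q.subtype) = Subgroup.zpowers z) (hz2 : orderOf z = 2) (w : ℕ) (hw : 2 ≤ w) (hcard : Nat.card ↥Q = 2 ^ (2 * w + 1)) (g : G) (hgH : g ∉ Subgroup.centralizer ({z} : Set G)) (hgQ : g * z * g⁻¹ ∈ Q) (V X R E : Subgroup G) (hV : V = Subgroup.closure ({z, g * z * g⁻¹} : Set G)) (hX : X = Q ⊔ (Q).map (MulAut.conj g).toMonoidHom) (hR : R = ((Q).map (MulAut.conj g).toMonoidHom ⊓ Subgroup.centralizer ({z} : Set G)) ⊔ (Q ⊓ Subgroup.centralizer ({g * z * g⁻¹} : Set G))) (hE : E = Q ⊓ (Q).map (MulAut.conj g).toMonoidHom) : R = X ⊓ Subgroup.centralizer (V : Set G) ∧ R = (Cfsg.pCore 2 ↥X).map X.subtype ∧ (∃ h : (R.subgroupOf X).Normal, Nonempty (↥X ⧸ R.subgroupOf X ≃* Equiv.Perm (Fin 3))) ∧ Subgroup.normalizer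 (V : Set G) = X ⊔ (Subgroup.centralizer ({z} : Set G) ⊓ Subgroup.centralizer (V : Set G)) ∧ (∀ y ∈ Subgroup.normalizer (V : Set G), ∀ x ∈ X, y * x * y⁻¹ ∈ X) ∧ R ≤ Subgroup.centralizer ({z} : Set G) ⊓ Subgroup.centralizer (V : Set G) ∧ (∀ x ∈ X, ∀ c ∈ Subgroup.centralizer ({z} : Set G) ⊓ Subgroup.centralizer (V : Set G), x * c * x⁻¹ * c⁻¹ ∈ R) ∧ X ⊓ (Subgroup.centralizer ({z} : Set G) ⊓ Subgroup.centralizer (V : Set G)) = R := by
  have h := PairData.of_large Q hQ z hz hz2 w hw hcard g hgH hgQ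
  subst hV hX hR hE
  generalize g * z * g⁻¹ = s at h
  generalize Q.map (MulAut.conj g).toMonoidHom = P at h
  rw [h.Cz_inf_centralizer_V, h.centralizer_V, normalizer_V h]
  obtain ⟨hN, ⟨φ⟩, hXY⟩ := quot h
  have h1 : PR Q P z s = (Q ⊔ P) ⊓ PY z s := by
    apply le_antisymm
    · exact le_inf h.R_le_X h.R_le_Y
    · intro x hx
      rw [Subgroup.mem_inf] at hx
      exact hXY x hx.1 hx.2
  refine ⟨h1, ?_, ⟨hN, ⟨φ⟩⟩, rfl, ?_, h.R_le_Y, fun x hx c hc => h.comm_X_Y hx hc, h1.symm⟩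
  · apply le_antisymm
    · have h2 : (PR Q P z s).subgroupOf (Q ⊔ P) ≤ Cfsg.pCore 2 ↥(Q ⊔ P) :=
        Cfsg.Agent.Lib.Helper1.le_pCore hN h.R_isPGroup.comap_subtype
      have h3 := Subgroup.map_mono (f := (Q ⊔ P).subtype) h2
      rwa [Subgroup.map_subgroupOf_eq_of_le h.R_le_X] at h3
    · have hK := Cfsg.Agent.Lib.Helper1.pCore_normal 2 ↥(Q ⊔ P)
      have h2 := normal_two_subgroup_of_equiv φ
        ((Cfsg.pCore 2 ↥(Q ⊔ P)).map (QuotientGroup.mk' ((PR Q P z s).subgroupOf (Q ⊔ P))))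
        (hK.map _ (QuotientGroup.mk'_surjective _))
        ((Cfsg.Agent.Lib.Helper1.pCore_isPGroup 2 ↥(Q ⊔ P)).map _)
      rintro _ ⟨x, hx, rfl⟩
      have h3 : QuotientGroup.mk' ((PR Q P z s).subgroupOf (Q ⊔ P)) x ∈
          (Cfsg.pCore 2 ↥(Q ⊔ P)).map (QuotientGroup.mk' ((PR Q P z s).subgroupOf (Q ⊔ P))) :=
        ⟨x, hx, rfl⟩
      rw [h2, Subgroup.mem_bot, QuotientGroup.mk'_apply, QuotientGroup.eq_one_iff,
        Subgroup.mem_subgroupOf] at h3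
      exact h3
  · have h2 : (Q ⊔ P) ⊔ PY z s ≤ Subgroup.normalizer ((Q ⊔ P : Subgroup G) : Set G) := by
      apply sup_le Subgroup.le_normalizer
      apply le_normalizer_of_conj_mem
      intro c hc x hx
      exact h.Y_conj_X hx hc
    intro y hy x hx
    exact conj_mem_of_le_normalizer h2 hy hx

end Cfsg.Agent.S5430
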