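import Cfsg.Statements.S5428
-- import your own Cfsg.Agent.* helpers here
import Cfsg.Agent.Lib.Helper92.FStarES
import Cfsg.Agent.Lib.Helper92.ESLarge
import Cfsg.Agent.Lib.Helper92.ESQuot
import Cfsg.Agent.Lib.Helper92.ESCoprime
import Cfsg.Agent.Lib.Helper11.TwoComplement
import Cfsg.Agent.Lib.Helper27.Layer
import Cfsg.Agent.S5430

set_option autoImplicit false
open Cfsg

namespace Cfsg.Agent.S5428

open Cfsg.Agent.Lib.Helper92

theorem D_cases {G : Type*} [Group G] [Finite G] {A D : Subgroup G} {z : G} (hzD : z ∈ D)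
    (hz : orderOf z = 2) (hO : (Cfsg.oddCore ↥D).map D.subtype ≤ A)
    (h4 : ¬ 4 ∣ Nat.card ↥D) : ∀ d ∈ D, d ∈ A ∨ d * z ∈ A := by
  have : Fact (Nat.Prime 2) := ⟨Nat.prime_two⟩
  obtain ⟨T⟩ : Nonempty (Sylow 2 D) := inferInstance
  obtain ⟨k, hk⟩ := IsPGroup.iff_card.1 T.2
  have hk1 : k ≤ 1 := by
    by_contra hcon
    apply h4
    have h1 : 2 ^ 2 ∣ 2 ^ k := pow_dvd_pow 2 (by omega)
    have h2 : 2 ^ k ∣ Nat.card D := hk ▸ Subgroup.card_subgroup_dvd_card _
    exact h1.trans h2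
  have hT : IsCyclic (T : Subgroup D) := by
    interval_cases k
    · have : Subsingleton (T : Subgroup D) := by
        rw [← Finite.card_le_one_iff_subsingleton, hk]; norm_num
      infer_instance
    · exact isCyclic_of_prime_card (p := 2) (by rw [hk]; norm_num)
  obtain ⟨N, hN, hodd, k', hk'⟩ := Cfsg.Agent.Lib.Helper11.NC_of_cyclic_sylow T hT
  have hNO : N ≤ Cfsg.oddCore ↥D := le_sSup ⟨hN, Nat.coprime_two_right.2 hodd⟩
  have hzN : (⟨z, hzD⟩ : D) ∉ N := by
    intro h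
    have h1 := orderOf_dvd_natCard (⟨⟨z, hzD⟩, h⟩ : N)
    rw [Subgroup.orderOf_mk, Subgroup.orderOf_mk, hz] at h1
    exact (Nat.not_even_iff_odd.2 hodd) (even_iff_two_dvd.2 h1)
  have hk'1 : k' ≤ 1 := by
    by_contra hcon
    apply h4
    have h1 : 2 ^ 2 ∣ 2 ^ k' := pow_dvd_pow 2 (by omega)
    have h2 : 2 ^ k' ∣ Nat.card D := hk' ▸ Subgroup.index_dvd_card _
    exact h1.trans h2
  have hidx : N.index = 2 := by
    interval_cases k'
    · exfalso
      apply hzN
      have : N = ⊤ := Subgroup.index_eq_one.1 (by rw [hk']; norm_num)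
      rw [this]; trivial
    · rw [hk']; norm_num
  intro d hd
  by_cases hdN : (⟨d, hd⟩ : D) ∈ N
  · left
    exact hO ⟨_, hNO hdN, rfl⟩
  · right
    have h1 : (⟨d, hd⟩ : D) * ⟨z, hzD⟩ ∈ N := by
      rw [Subgroup.mul_mem_iff_of_index_two hidx]
      exact ⟨fun h => absurd h hdN, fun h => absurd h hzN⟩
    exact hO ⟨_, hNO h1, rfl⟩

theorem mem_centralizer_sup {G : Type*} [Group G] {A R : Subgroup G} {c : G} :
    c ∈ Subgroup.centralizer ((A ⊔ R : Subgroup G) : Set G) ↔
      (∀ a ∈ A, Commute a c) ∧ (∀ r ∈ R, Commute r c) := by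
  constructor
  · intro hc
    rw [Subgroup.mem_centralizer_iff] at hc
    exact ⟨fun a ha => hc a (Subgroup.mem_sup_left ha), fun r hr => hc r (Subgroup.mem_sup_right hr)⟩
  · rintro ⟨h1, h2⟩
    have h3 : A ⊔ R ≤ Subgroup.centralizer ({c} : Set G) := by
      apply sup_le
      · intro a ha
        exact Subgroup.mem_centralizer_singleton_iff.2 (h1 a ha)
      · intro r hr
        exact Subgroup.mem_centralizer_singleton_iff.2 (h2 r hr)
    rw [Subgroup.mem_centralizer_iff]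
    intro x hx
    exact Subgroup.mem_centralizer_singleton_iff.1 (h3 hx)

/-- Let z be an involution of the finite group G whose centralizer C has generalized Fitting subgroup Q extraspecial (as a 2-group), let A be a subgroup of C of odd order, and let R be the centralizer of A in Q; suppose R has order at least 32, the largest normal subgroup of odd order of the centralizer of the subgroup generated by A and R lies in A, the order of that centralizer is not divisible by 4, and g is an element of G with g z g⁻¹ in R but outside the centre Z of Q. Let M be the subgroup generated by A and the centralizer of A (A is normal in it). Then: the centralizer in M of the subgroup generated by R and A, joined with A, equals the subgroup generated by A and Z; the image of R in M/A is a large extraspecial 2-subgroup of M/A; and g z g⁻¹ is conjugate to z inside the subgroup generated by R and the centralizer of A in g Q g⁻¹. -/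
theorem result {G : Type*} [Group G] [Finite G] (z : G) (hz : orderOf z = 2) (Q : Subgroup G) (hQC : Q ≤ Subgroup.centralizer ({z} : Set G)) (hF : (Cfsg.generalizedFittingSubgroup ↥(Subgroup.centralizer ({z} : Set G))).map (Subgroup.centralizer ({z} : Set G)).subtype = Q) (hQ : Cfsg.IsExtraspecial 2 ↥Q) (A : Subgroup G) (hA : A ≤ Subgroup.centralizer ({z} : Set G)) (hAodd : Odd (Nat.card ↥A)) (R : Subgroup G) (hR : R = Q ⊓ Subgroup.centralizer (A : Set G)) (hR32 : 32 ≤ Nat.card ↥R) (hO : (Cfsg.oddCore ↥(Subgroup.centralizer ((A ⊔ R : Subgroup G) : Set G))).map (Subgroup.centralizer ((A ⊔ R : Subgroup G) : Set G)).subtype ≤ A) (h4 : ¬ 4 ∣ Nat.card ↥(Subgroup.centralizer ((A ⊔ R : Subgroup G) : Set G))) (g : G) (hgR : g * z * g⁻¹ ∈ R) (hgZ : g * z * g⁻¹ ∉ ((Subgroup.center ↥Q).map Q.subtype)) (M : Subgroup G) (hM : M = Subgroup.centralizer (A : Set G) ⊔ A) [hn : (A.subgroupOf M).Normal] : (M ⊓ Subgroup.centralizer ((R ⊔ A : Subgroup G) : Set G))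 ⊔ A = A ⊔ ((Subgroup.center ↥Q).map Q.subtype) ∧ Cfsg.IsLargeExtraspecial ((R.subgroupOf M).map (QuotientGroup.mk' (A.subgroupOf M))) ∧ ∃ x ∈ R ⊔ ((Q).map (MulAut.conj g).toMonoidHom ⊓ Subgroup.centralizer (A : Set G)), x * (g * z * g⁻¹) * x⁻¹ = z := by
  obtain ⟨hL2, hL3, hZ, hES, hzall⟩ := es_of_fstar z hz Q hF hQ
  have hzZ : z ∈ ((Subgroup.center ↥Q).map Q.subtype) := by
    rw [hZ]; exact Subgroup.mem_zpowers z
  have hne : g * z * g⁻¹ ≠ z := by
    intro h
    apply hgZ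
    rw [h]; exact hzZ
  have hmemR : ∀ x, x ∈ R ↔ x ∈ Q ∧ ∀ a ∈ A, Commute a x := by
    intro x
    rw [hR, Subgroup.mem_inf, Subgroup.mem_centralizer_iff]
    exact Iff.rfl
  have hAz : ∀ a ∈ A, Commute a z := fun a ha => Subgroup.mem_centralizer_singleton_iff.1 (hA ha)
  have hsR := (hmemR _).1 hgR
  have hP' := hES.conj g
  have hzP' := hES.z_mem_conj g hsR.1 hne
  generalize g * z * g⁻¹ = s at *
  generalize Q.map (MulAut.conj g).toMonoidHom = P' at *
  obtain ⟨q, hq, hqA, hqs⟩ := hES.exists_q_CQA hAodd hAz hsR.1 hsR.2 hP'.z1 hne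
  obtain ⟨p, hp, hpA, hpz⟩ := hP'.exists_q_CQA hAodd hsR.2 hzP' hAz hES.z1 hne.symm
  have hzs : Commute z s := (hES.zc s hsR.1).symm
  have Ac : Cfsg.Agent.S5430.Act z s q p :=
    ⟨conj_eq_of_commute (hES.zc q hq), hqs, by rw [hpz, hzs.eq],
      conj_eq_of_commute (hP'.zc p hp), hES.zz, hP'.zz, hzs.eq⟩
  have hzR : z ∈ R := (hmemR z).2 ⟨hES.zQ, hAz⟩
  have hqR : q ∈ R := (hmemR q).2 ⟨hq, hqA⟩
  have hzD : z ∈ Subgroup.centralizer ((A ⊔ R : Subgroup G) : Set G) :=
    mem_centralizer_sup.2 ⟨hAz, fun r hr => hES.zc r ((hmemR r).1 hr).1⟩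
  have hD := D_cases hzD hz hO h4
  have hzA : z ∉ A := by
    intro h
    exact hES.z1 (eq_one_of_mem_odd_of_mem_two_group hAodd hES.two h hES.zQ)
  have hCN : Subgroup.centralizer (A : Set G) ≤ Subgroup.normalizer (A : Set G) :=
    Subgroup.centralizer_le_normalizer _
  subst hM
  have hnA : ∀ a ∈ A, Commute a (q * p * q⁻¹) := fun a ha =>
    ((hqA a ha).mul_right (hpA a ha)).mul_right (hqA a ha).inv_right
  refine ⟨?_, ?_, ?_⟩
  · apply le_antisymm
    · apply sup_le _ le_sup_left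
      intro d hd
      rw [Subgroup.mem_inf, sup_comm R A] at hd
      rcases hD d hd.2 with h1 | h1
      · exact Subgroup.mem_sup_left h1
      · have e : d = (d * z) * z⁻¹ := by group
        rw [e]
        exact mul_mem (Subgroup.mem_sup_left h1) (inv_mem (Subgroup.mem_sup_right hzZ))
    · apply sup_le le_sup_right
      intro x hx
      apply Subgroup.mem_sup_left
      rcases hzall x hx with rfl | rfl
      · exact one_mem _
      · rw [Subgroup.mem_inf, sup_comm R A]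
        exact ⟨Subgroup.mem_sup_left (Subgroup.mem_centralizer_iff.2 hAz), hzD⟩
  · have hPM : R ≤ Subgroup.centralizer (A : Set G) ⊔ A := by
      rw [hR]; exact inf_le_right.trans le_sup_left
    have hDat := ESData.quot (M := Subgroup.centralizer (A : Set G) ⊔ A) (A := A)
      (P := R) (z := z) hPM hzR hzA
      (by rw [hES.zz]; exact one_mem _)
      (by
        intro a ha
        rw [comm_eq_one_of_commute (hES.zc a ((hmemR a).1 ha).1)]; exact one_mem _)
      (by
        intro a ha b hb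
        rcases hES.comm a ((hmemR a).1 ha).1 b ((hmemR b).1 hb).1 with h1 | h1
        · left; rw [h1]; exact one_mem _
        · right; rw [h1, mul_inv_cancel]; exact one_mem _)
      (by
        intro c hcM hc
        obtain ⟨c₀, hc₀, a₀, ha₀, rfl⟩ :=
          (Cfsg.Agent.Lib.Helper27.mem_sup_of_left_le_normalizer hCN).1 hcM
        have hc₀A : ∀ a ∈ A, Commute a c₀ := fun a ha => (Subgroup.mem_centralizer_iff.1 hc₀) a ha
        have hc₀R : ∀ r ∈ R, Commute r c₀ := by
          intro r hr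
          have hrA := ((hmemR r).1 hr).2
          have h1 := hc r hr
          have e : r * (c₀ * a₀) * r⁻¹ * (c₀ * a₀)⁻¹ = r * c₀ * r⁻¹ * c₀⁻¹ := by
            have h2 : a₀ * r⁻¹ * a₀⁻¹ = r⁻¹ := conj_eq_of_commute (hrA a₀ ha₀).inv_right
            calc r * (c₀ * a₀) * r⁻¹ * (c₀ * a₀)⁻¹ = r * c₀ * (a₀ * r⁻¹ * a₀⁻¹) * c₀⁻¹ := by group
              _ = r * c₀ * r⁻¹ * c₀⁻¹ := by rw [h2]
          rw [e] at h1
          obtain ⟨k, hk⟩ := hES.two ⟨r, ((hmemR r).1 hr).1⟩
          have hk' : r ^ 2 ^ k = 1 := congrArg Subtype.val hk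
          have h3 : c₀ * r⁻¹ * c₀⁻¹ = r⁻¹ * (r * c₀ * r⁻¹ * c₀⁻¹) := by group
          have h4 : (c₀ * r⁻¹ * c₀⁻¹) ^ 2 ^ k = 1 := by
            rw [conj_pow, inv_pow, hk', inv_one]; group
          have h5 : Commute r⁻¹ (r * c₀ * r⁻¹ * c₀⁻¹) := (hrA _ h1).symm.inv_left
          rw [h3, h5.mul_pow, inv_pow, hk', inv_one, one_mul] at h4
          exact commute_of_comm_eq_one (eq_one_of_pow_two_pow hAodd h1 h4)
        rcases hD c₀ (mem_centralizer_sup.2 ⟨hc₀A, hc₀R⟩) with h1 | h1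
        · left; exact A.mul_mem h1 ha₀
        · right
          have e : c₀ * a₀ * z⁻¹ = (c₀ * z) * a₀ := by
            calc c₀ * a₀ * z⁻¹ = c₀ * (a₀ * z) := by rw [hES.zinv]; group
              _ = c₀ * (z * a₀) := by rw [(hAz a₀ ha₀).eq]
              _ = (c₀ * z) * a₀ := by group
          rw [e]; exact A.mul_mem h1 ha₀)
      (by
        intro c hcM hc r hr
        obtain ⟨c₀, hc₀, a₀, ha₀, rfl⟩ :=
          (Cfsg.Agent.Lib.Helper27.mem_sup_of_left_le_normalizer hCN).1 hcM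
        have hc₀A : ∀ a ∈ A, Commute a c₀ := fun a ha => (Subgroup.mem_centralizer_iff.1 hc₀) a ha
        have hrA := ((hmemR r).1 hr).2
        have e1 : c₀ * a₀ * z * (c₀ * a₀)⁻¹ * z⁻¹ = c₀ * z * c₀⁻¹ * z⁻¹ := by
          have h2 : a₀ * z * a₀⁻¹ = z := conj_eq_of_commute (hAz a₀ ha₀)
          calc c₀ * a₀ * z * (c₀ * a₀)⁻¹ * z⁻¹ = c₀ * (a₀ * z * a₀⁻¹) * c₀⁻¹ * z⁻¹ := by group
            _ = c₀ * z * c₀⁻¹ * z⁻¹ := by rw [h2]
        rw [e1] at hc
        have hzsq : z ^ 2 ^ 1 = 1 := by rw [pow_one, sq]; exact hES.zz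
        have h3 : c₀ * z * c₀⁻¹ = (c₀ * z * c₀⁻¹ * z⁻¹) * z := by group
        have h4 : (c₀ * z * c₀⁻¹) ^ 2 ^ 1 = 1 := by
          rw [conj_pow, hzsq]; group
        rw [h3, (hAz _ hc).mul_pow, hzsq, mul_one] at h4
        have hc₀z : Commute c₀ z := commute_of_comm_eq_one (eq_one_of_pow_two_pow hAodd hc h4)
        refine ⟨c₀ * r * c₀⁻¹, (hmemR _).2 ⟨hES.norm c₀ hc₀z r ((hmemR r).1 hr).1, fun a ha =>
          ((hc₀A a ha).mul_right (hrA a ha)).mul_right (hc₀A a ha).inv_right⟩, ?_⟩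
        have e2 : c₀ * a₀ * r * (c₀ * a₀)⁻¹ = c₀ * r * c₀⁻¹ := by
          have h2 : a₀ * r * a₀⁻¹ = r := conj_eq_of_commute (hrA a₀ ha₀)
          calc c₀ * a₀ * r * (c₀ * a₀)⁻¹ = c₀ * (a₀ * r * a₀⁻¹) * c₀⁻¹ := by group
            _ = c₀ * r * c₀⁻¹ := by rw [h2]
        rw [e2, mul_inv_cancel]; exact one_mem _)
      (hES.two.to_le (by rw [hR]; exact inf_le_left))
    refine hDat.isLargeExtraspecial_of_conj
      (QuotientGroup.mk' _ ⟨q * p * q⁻¹,
        Subgroup.mem_sup_left (Subgroup.mem_centralizer_iff.2 hnA)⟩) ?_ ?_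
    · rw [← map_inv, ← map_mul, ← map_mul]
      refine ⟨_, ?_, rfl⟩
      rw [SetLike.mem_coe, Subgroup.mem_subgroupOf]
      show q * p * q⁻¹ * z * (q * p * q⁻¹)⁻¹ ∈ R
      rw [Ac.n_z]; exact hgR
    · rw [← map_inv, ← map_mul, ← map_mul]
      intro h
      rw [QuotientGroup.mk'_apply, QuotientGroup.mk'_apply, QuotientGroup.eq,
        Subgroup.mem_subgroupOf] at h
      have h1 : (q * p * q⁻¹ * z * (q * p * q⁻¹)⁻¹)⁻¹ * z ∈ A := h
      rw [Ac.n_z] at h1
      have h2 := eq_one_of_mem_odd_of_mem_two_group hAodd hES.two h1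
        (Q.mul_mem (Q.inv_mem hsR.1) hES.zQ)
      exact hne (inv_mul_eq_one.1 h2)
  · refine ⟨q * p * q⁻¹, ?_, Ac.n_s⟩
    have h1 : q ∈ R ⊔ (P' ⊓ Subgroup.centralizer (A : Set G)) := Subgroup.mem_sup_left hqR
    have h2 : p ∈ R ⊔ (P' ⊓ Subgroup.centralizer (A : Set G)) :=
      Subgroup.mem_sup_right (Subgroup.mem_inf.2 ⟨hp, Subgroup.mem_centralizer_iff.2 hpA⟩)
    exact mul_mem (mul_mem h1 h2) (inv_mem h1)

end Cfsg.Agent.S5428
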