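import Cfsg.Statements.S5429
-- import your own Cfsg.Agent.* helpers here
import Cfsg.Agent.Lib.Helper92.FStarES
import Cfsg.Agent.Lib.Helper92.ESLarge
import Cfsg.Agent.Lib.Helper92.ESQuot
import Cfsg.Agent.S5430

set_option autoImplicit false
open Cfsg

namespace Cfsg.Agent.S5429

open Cfsg.Agent.Lib.Helper92

/-- there is an element of `C_Q(t)` moving `s`, unless `s ∈ ⟨z, t⟩` -/
theorem exists_move {G : Type*} [Group G] {Q : Subgroup G} {z t s : G} (h : ESData Q z)
    (ht : t ∈ Q) (htt : t * t = 1) (ht1 : t ≠ 1) (htz : t ≠ z) (hs : s ∈ Q) (hs1 : s ≠ 1)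
    (hsz : s ≠ z) (hst : s ≠ t) (hszt : s ≠ z * t) :
    ∃ q ∈ Q, Commute q t ∧ q * s * q⁻¹ = z * s := by
  by_contra hcon
  push Not at hcon
  obtain ⟨r, hr, hrt⟩ := h.exists_q ht ht1 htz
  have hc : ∀ u ∈ Q, Commute u t → Commute u s := by
    intro u hu hut
    rcases h.conj_cases hu hs with h1 | h1
    · exact commute_of_conj_eq h1
    · exact absurd h1 (hcon u hu hut)
  rcases h.centralizer_CQ ht htt hr hrt hc with h1 | h1 | h1 | h1
  · exact hs1 h1
  · exact hsz h1
  · exact hst h1
  · exact hszt h1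

/-- Let z be an involution of the finite group G with centralizer C whose generalized Fitting subgroup Q is extraspecial of width at least 3 (order 2^(2w+1), w ≥ 3); let g be an element of G with g z g⁻¹ in Q but outside the centre Z of Q, and t an involution lying in both Q and g Q g⁻¹ that is not conjugate to z; write P for the centralizer of t in Q and suppose that the elements of C acting trivially by conjugation on P modulo the subgroup generated by t and z are exactly the elements of Q. Then the image of P in the centralizer of t modulo the subgroup generated by t is a large extraspecial 2-subgroup there, and g z g⁻¹ is conjugate to z inside the subgroup generated by P and the centralizer of t in g Q g⁻¹. -/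
theorem result {G : Type*} [Group G] [Finite G] (z : G) (hz : orderOf z = 2) (Q : Subgroup G) (hQC : Q ≤ Subgroup.centralizer ({z} : Set G)) (hF : (Cfsg.generalizedFittingSubgroup ↥(Subgroup.centralizer ({z} : Set G))).map (Subgroup.centralizer ({z} : Set G)).subtype = Q) (hQ : Cfsg.IsExtraspecial 2 ↥Q) (w : ℕ) (hw : 3 ≤ w) (hcard : Nat.card ↥Q = 2 ^ (2 * w + 1)) (g : G) (hgQ : g * z * g⁻¹ ∈ Q) (hgZ : g * z * g⁻¹ ∉ ((Subgroup.center ↥Q).map Q.subtype)) (t : G) (ht : orderOf t = 2) (htQ : t ∈ Q ⊓ (Q).map (MulAut.conj g).toMonoidHom) (htz : ¬ IsConj z t) (P : Subgroup G) (hP : P = Q ⊓ Subgroup.centralizer ({t} : Set G)) (hCP : ∀ c ∈ Subgroup.centralizer ({z} : Set G), (∀ x ∈ P, ∃ y ∈ Subgroup.closure ({t, z} : Set G), c * x * c⁻¹ = x * y) ↔ c ∈ Q) [hn : ((Subgroup.zpowers t).subgroupOf (Subgroup.centralizer ({t} : Set G))).Normal] : Cfsg.IsLargeExtraspecial ((P.subgroupOf (Subgroup.centralizer ({t} : Set G))).map (QuotientGroup.mk' ((Subgroup.zpowers t).subgroupOf (Subgroup.centralizer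 ({t} : Set G))))) ∧ ∃ x ∈ P ⊔ ((Q).map (MulAut.conj g).toMonoidHom ⊓ Subgroup.centralizer ({t} : Set G)), x * (g * z * g⁻¹) * x⁻¹ = z := by
  obtain ⟨hL2, hL3, hZ, hES, hzall⟩ := es_of_fstar z hz Q hF hQ
  have hne : g * z * g⁻¹ ≠ z := by
    intro h
    apply hgZ
    rw [h, hZ]; exact Subgroup.mem_zpowers z
  have hP' := hES.conj g
  have hzP' := hES.z_mem_conj g hgQ hne
  have hconj_s : IsConj z (g * z * g⁻¹) := isConj_iff.2 ⟨g, rfl⟩
  generalize g * z * g⁻¹ = s at *
  generalize Q.map (MulAut.conj g).toMonoidHom = P' at *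
  rw [Subgroup.mem_inf] at htQ
  have htt : t * t = 1 := mul_self_eq_one_of_orderOf_two ht
  have ht1 : t ≠ 1 := by
    rintro rfl
    rw [orderOf_one] at ht; omega
  have htz' : t ≠ z := by
    rintro rfl
    exact htz (IsConj.refl _)
  have hts : t ≠ s := by
    rintro rfl
    exact htz hconj_s
  obtain ⟨qt, hqt, hqtt⟩ := hES.exists_q htQ.1 ht1 htz'
  obtain ⟨pt, hpt, hptt⟩ := hP'.exists_q htQ.2 ht1 hts
  have hnzt : ¬ IsConj z (z * t) := by
    intro h
    apply htz
    rw [← hqtt] at h
    exact h.trans (isConj_iff.2 ⟨qt⁻¹, by group⟩)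
  have hnst : ¬ IsConj z (s * t) := by
    intro h
    apply htz
    rw [← hptt] at h
    exact h.trans (isConj_iff.2 ⟨pt⁻¹, by group⟩)
  obtain ⟨q, hq, hqt', hqs⟩ := exists_move hES htQ.1 htt ht1 htz' hgQ hP'.z1 hne hts.symm
    (by rintro rfl; exact hnzt hconj_s)
  obtain ⟨p, hp, hpt', hpz⟩ := exists_move hP' htQ.2 htt ht1 hts hzP' hES.z1 hne.symm htz'.symm
    (by intro h; apply hnst; rw [← h])
  have hzs : Commute z s := (hES.zc s hgQ).symm
  have A : Cfsg.Agent.S5430.Act z s q p :=
    ⟨conj_eq_of_commute (hES.zc q hq), hqs, by rw [hpz, hzs.eq],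
      conj_eq_of_commute (hP'.zc p hp), hES.zz, hP'.zz, hzs.eq⟩
  have hzt : Commute z t := (hES.zc t htQ.1).symm
  have hst : Commute s t := (hP'.zc t htQ.2).symm
  have hmemP : ∀ x, x ∈ P ↔ x ∈ Q ∧ Commute x t := by
    intro x
    rw [hP, Subgroup.mem_inf, Subgroup.mem_centralizer_singleton_iff]
    exact Iff.rfl
  have hmemA : ∀ x, x ∈ Subgroup.zpowers t ↔ x = 1 ∨ x = t := by
    intro x
    constructor
    · exact mem_zpowers_of_orderOf_two ht
    · rintro (rfl | rfl)
      · exact one_mem _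
      · exact Subgroup.mem_zpowers _
  have hqP : q ∈ P := (hmemP q).2 ⟨hq, hqt'⟩
  have hnt : Commute (q * p * q⁻¹) t := (hqt'.mul_left hpt').mul_left hqt'.inv_left
  constructor
  swap
  · refine ⟨q * p * q⁻¹, ?_, A.n_s⟩
    have h1 : q ∈ P ⊔ (P' ⊓ Subgroup.centralizer ({t} : Set G)) := Subgroup.mem_sup_left hqP
    have h2 : p ∈ P ⊔ (P' ⊓ Subgroup.centralizer ({t} : Set G)) :=
      Subgroup.mem_sup_right (Subgroup.mem_inf.2 ⟨hp, Subgroup.mem_centralizer_singleton_iff.2 hpt'⟩)
    exact mul_mem (mul_mem h1 h2) (inv_mem h1)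
  have hPM : P ≤ Subgroup.centralizer ({t} : Set G) := by rw [hP]; exact inf_le_right
  have hzP : z ∈ P := (hmemP z).2 ⟨hES.zQ, hzt⟩
  have hsP : s ∈ P := (hmemP s).2 ⟨hgQ, hst⟩
  have hcz : ∀ c : G, c * z * c⁻¹ * z⁻¹ ∈ Subgroup.zpowers t → Commute c z := by
    intro c hc
    rcases (hmemA _).1 hc with h1 | h1
    · exact commute_of_comm_eq_one h1
    · exfalso
      apply hnzt
      rw [isConj_iff]
      refine ⟨c, ?_⟩
      calc c * z * c⁻¹ = (c * z * c⁻¹ * z⁻¹) * z := by group
        _ = z * t := by rw [h1, hzt.eq]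
  have hD := ESData.quot (M := Subgroup.centralizer ({t} : Set G)) (A := Subgroup.zpowers t)
    (P := P) (z := z) hPM hzP
    (by rw [hmemA]; push Not; exact ⟨hES.z1, htz'.symm⟩)
    (by rw [hES.zz]; exact one_mem _)
    (by
      intro a ha
      rw [comm_eq_one_of_commute (hES.zc a ((hmemP a).1 ha).1)]; exact one_mem _)
    (by
      intro a ha b hb
      rcases hES.comm a ((hmemP a).1 ha).1 b ((hmemP b).1 hb).1 with h1 | h1
      · left; rw [h1]; exact one_mem _
      · right; rw [h1, mul_inv_cancel]; exact one_mem _)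
    (by
      intro c hcM hc
      have hct : Commute c t := Subgroup.mem_centralizer_singleton_iff.1 hcM
      have hcz' : Commute c z := hcz c (comm_mem_symm (hc z hzP))
      have hcQ : c ∈ Q := by
        rw [← hCP c (Subgroup.mem_centralizer_singleton_iff.2 hcz')]
        intro x hx
        refine ⟨x⁻¹ * c * x⁻¹⁻¹ * c⁻¹, ?_, by group⟩
        have h1 := hc x⁻¹ (P.inv_mem hx)
        have h2 : Subgroup.zpowers t ≤ Subgroup.closure ({t, z} : Set G) := by
          rw [Subgroup.zpowers_le]; exact Subgroup.subset_closure (by simp)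
        exact h2 h1
      have hall : ∀ u ∈ Q, Commute u t → Commute u c := by
        intro u hu hut
        apply commute_of_comm_eq_one
        rcases hES.comm u hu c hcQ with h1 | h1
        · exact h1
        · rcases (hmemA _).1 (hc u ((hmemP u).2 ⟨hu, hut⟩)) with h2 | h2
          · exact h2
          · exact absurd (h2.symm.trans h1) htz'
      rcases hES.centralizer_CQ htQ.1 htt hqt hqtt hall with h1 | h1 | h1 | h1
      · left; rw [h1]; exact one_mem _
      · right; rw [h1, mul_inv_cancel]; exact one_mem _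
      · left; rw [h1]; exact Subgroup.mem_zpowers _
      · right
        rw [h1, hzt.eq, mul_inv_cancel_right]; exact Subgroup.mem_zpowers _)
    (by
      intro c hcM hc a ha
      have hct : Commute c t := Subgroup.mem_centralizer_singleton_iff.1 hcM
      have hcz' : Commute c z := hcz c hc
      refine ⟨c * a * c⁻¹, ?_, by rw [mul_inv_cancel]; exact one_mem _⟩
      rw [hmemP]
      exact ⟨hES.norm c hcz' a ((hmemP a).1 ha).1,
        (hct.mul_left ((hmemP a).1 ha).2).mul_left hct.inv_left⟩)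
    (hES.two.to_le (by rw [hP]; exact inf_le_left))
  refine hD.isLargeExtraspecial_of_conj
    (QuotientGroup.mk' _ ⟨q * p * q⁻¹, Subgroup.mem_centralizer_singleton_iff.2 hnt⟩) ?_ ?_
  · rw [← map_inv, ← map_mul, ← map_mul]
    refine ⟨_, ?_, rfl⟩
    rw [SetLike.mem_coe, Subgroup.mem_subgroupOf]
    show q * p * q⁻¹ * z * (q * p * q⁻¹)⁻¹ ∈ P
    rw [A.n_z]; exact hsP
  · rw [← map_inv, ← map_mul, ← map_mul]
    intro h
    rw [QuotientGroup.mk'_apply, QuotientGroup.mk'_apply, QuotientGroup.eq,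
      Subgroup.mem_subgroupOf] at h
    have h1 : (q * p * q⁻¹ * z * (q * p * q⁻¹)⁻¹)⁻¹ * z ∈ Subgroup.zpowers t := h
    rw [A.n_z] at h1
    rcases (hmemA _).1 h1 with h2 | h2
    · apply hne
      exact (inv_mul_eq_one.1 h2)
    · apply hnst
      have : z = s * t := by rw [← h2]; group
      rw [← this]

end Cfsg.Agent.S5429
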