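import Cfsg.Statements.S5432
-- import your own Cfsg.Agent.* helpers here
import Cfsg.Agent.Lib.Helper92.MdlFin

set_option autoImplicit false
open Cfsg

namespace Cfsg.Agent.S5432

open Cfsg.Agent.Lib.Helper92

/-- Let E be an extraspecial 2-group of order 2^(2n+1), n ≥ 1. If E contains an elementary abelian subgroup of order 2^(n+1) (plus type), then its outer automorphism group is isomorphic to the full isometry group of the hyperbolic quadratic form in dimension 2n over the field with two elements; otherwise (minus type) it is isomorphic to the full isometry group of the elliptic quadratic form in dimension 2n over that field. -/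
theorem result {E : Type*} [Group E] [Finite E] (hE : Cfsg.IsExtraspecial 2 E) (n : ℕ) (hn : 1 ≤ n) (hcard : Nat.card E = 2 ^ (2 * n + 1)) : ((∃ A : Subgroup E, Cfsg.IsElementaryAbelian 2 A ∧ Nat.card ↥A = 2 ^ (n + 1)) → Nonempty (Cfsg.Out E ≃* Cfsg.isometryGroup (ZMod 2) (Cfsg.quadFormPlus n (ZMod 2)))) ∧ ((¬ ∃ A : Subgroup E, Cfsg.IsElementaryAbelian 2 A ∧ Nat.card ↥A = 2 ^ (n + 1)) → Nonempty (Cfsg.Out E ≃* Cfsg.isometryGroup (ZMod 2) (Cfsg.quadFormMinus (n - 1) (ZMod 2) 1 1))) := by
  obtain ⟨z, h⟩ := ES2.exists_of hE.1.2.2.le hE.2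
  obtain ⟨m, hm, hNN⟩ := ES2.count_aux _ E z h rfl
  have hmn : m = n := by
    rw [hcard] at hm
    have := Nat.pow_right_injective (le_refl 2) hm
    omega
  subst hmn
  constructor
  · rintro ⟨A, hA, hAc⟩
    rcases hNN with hNN | ⟨_, hNN⟩
    · exact out_plus h m hn hcard hNN
    · exfalso
      exact ES2.minus_no_big _ E z h m rfl hcard hNN A (commute_of_isMulCommutative hA.1) hA.2
        hAc.ge
  · intro hno
    rcases hNN with hNN | ⟨_, hNN⟩
    · exfalso
      apply hno
      obtain ⟨A, hAc, hA2, hcardA⟩ := (ES2.exists_big _ E z h m rfl hcard).1 hNN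
      exact ⟨A, ⟨isMulCommutative_of_commute hAc, hA2⟩,
        le_antisymm (ES2.card_abelian_le _ E z h m rfl hcard A hAc) hcardA⟩
    · exact out_minus h m hn hcard hNN

end Cfsg.Agent.S5432
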