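import Cfsg.Statements.S5433
-- import your own Cfsg.Agent.* helpers here
import Cfsg.Agent.Lib.Helper92.Basic

set_option autoImplicit false
open Cfsg

namespace Cfsg.Agent.S5433

open Cfsg.Agent.Lib.Helper92

/-- Let Q be a large extraspecial 2-subgroup of the finite group G (extraspecial; centralizer equal to its centre; normal in the centralizer of its centre; normalizing no non-trivial subgroup of odd order), and L a normal subgroup of G containing Q. Then G is the product of L and the normalizer of Q. -/
theorem result {G : Type*} [Group G] [Finite G] (Q : Subgroup G) (hQ : Cfsg.IsLargeExtraspecial Q) (L : Subgroup G) [L.Normal] (hQL : Q ≤ L) : L ⊔ Subgroup.normalizer (Q : Set G) = ⊤ := by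
  obtain ⟨hES, hC, hN, -⟩ := hQ
  haveI : Fact (Nat.Prime 2) := ⟨Nat.prime_two⟩
  have hZcard : Nat.card ((Subgroup.center ↥Q).map Q.subtype) = 2 := by
    rw [Subgroup.card_map_of_injective Q.subtype_injective]; exact hES.2
  obtain ⟨z, hzZ, hz1, hzord, hzall, hZz⟩ := exists_gen_of_card_two _ hZcard
  have hQp : IsPGroup 2 (Q.subgroupOf L) := hES.1.1.comap_subtype
  obtain ⟨P, hP⟩ := hQp.exists_le_sylow
  have hfr := Sylow.normalizer_sup_eq_top P
  have hQT : Q ≤ (P : Subgroup L).map L.subtype := by
    intro q hq
    exact ⟨⟨q, hQL hq⟩, hP (by simpa [Subgroup.mem_subgroupOf] using hq), rfl⟩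
  have hTp : IsPGroup 2 ((P : Subgroup L).map L.subtype) := P.2.map _
  have hzQ : z ∈ Q := by
    obtain ⟨y, -, rfl⟩ := hzZ
    exact y.2
  have hnt : Nontrivial ((P : Subgroup L).map L.subtype) :=
    ⟨⟨⟨z, hQT hzQ⟩, 1, fun h => hz1 (congrArg Subtype.val h)⟩⟩
  have hcent : ∀ c : G, c ∈ (P : Subgroup L).map L.subtype → c ≠ 1 →
      (∀ t ∈ (P : Subgroup L).map L.subtype, t * c = c * t) → c = z := by
    intro c _ hc1 hc
    have : c ∈ Subgroup.centralizer (Q : Set G) := by
      rw [Subgroup.mem_centralizer_iff]
      intro q hq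
      exact hc q (hQT hq)
    rw [hC] at this
    rcases hzall c this with h | h
    · exact absurd h hc1
    · exact h
  haveI := hTp.center_nontrivial
  obtain ⟨c, hc1⟩ := exists_ne (1 : Subgroup.center ((P : Subgroup L).map L.subtype))
  have hcz : ((c : (P : Subgroup L).map L.subtype) : G) = z := by
    apply hcent _ c.1.2
    · intro h
      exact hc1 (Subtype.ext (Subtype.ext h))
    · intro t ht
      have := Subgroup.mem_center_iff.1 c.2 ⟨t, ht⟩
      exact congrArg Subtype.val this
  have hzT : z ∈ (P : Subgroup L).map L.subtype := hQT hzQ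
  have hzc : ∀ t ∈ (P : Subgroup L).map L.subtype, t * z = z * t := by
    intro t ht
    have := Subgroup.mem_center_iff.1 c.2 ⟨t, ht⟩
    have h2 := congrArg Subtype.val this
    rw [← hcz]
    exact h2
  have hle : Subgroup.normalizer (((P : Subgroup L).map L.subtype : Subgroup G) : Set G) ≤
      Subgroup.normalizer (Q : Set G) := by
    intro g hg
    apply hN
    have hgz : g * z * g⁻¹ = z := by
      apply hcent
      · exact (Subgroup.mem_normalizer_iff.1 hg z).1 hzT
      · intro h
        apply hz1
        have : z = g⁻¹ * (g * z * g⁻¹) * g := by group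
        rw [this, h]; group
      · intro t ht
        have ht' : g⁻¹ * t * g ∈ (P : Subgroup L).map L.subtype :=
          (Subgroup.mem_normalizer_iff''.1 hg t).1 ht
        have := hzc _ ht'
        calc t * (g * z * g⁻¹) = g * ((g⁻¹ * t * g) * z) * g⁻¹ := by group
          _ = g * (z * (g⁻¹ * t * g)) * g⁻¹ := by rw [this]
          _ = g * z * g⁻¹ * t := by group
    rw [Subgroup.mem_centralizer_iff]
    intro x hx
    rcases hzall x hx with rfl | rfl
    · simp
    · calc x * g = (g * x * g⁻¹) * g := by rw [hgz]
        _ = g * x := by group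
  rw [eq_top_iff, ← hfr, sup_comm]
  exact sup_le_sup_left hle L

end Cfsg.Agent.S5433
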