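import Cfsg.Statements.S5434
-- import your own Cfsg.Agent.* helpers here
import Cfsg.Agent.Lib.Helper92.ESSub
import Cfsg.Agent.Lib.Helper30.Coprime

set_option autoImplicit false
open Cfsg

namespace Cfsg.Agent.S5434

open Cfsg.Agent.Lib.Helper92
open scoped commutatorElement

theorem eq_one_of_sq_of_odd {G : Type*} [Group G] {A : Subgroup G} (hA : Odd (Nat.card A)) {a : G}
    (ha : a ∈ A) (haa : a * a = 1) : a = 1 := by
  have h1 : orderOf a ∣ 2 := orderOf_dvd_of_pow_eq_one (by rw [sq]; exact haa)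
  have h2 : orderOf a ∣ Nat.card A := by
    have := orderOf_dvd_natCard (⟨a, ha⟩ : A)
    rwa [Subgroup.orderOf_mk] at this
  have : orderOf a = 1 := Nat.eq_one_of_dvd_coprimes (Nat.coprime_two_left.2 hA) h1 h2
  exact orderOf_eq_one_iff.1 this

/-- Let Q be a large extraspecial 2-subgroup of the finite group G (extraspecial; centralizer equal to its centre; normal in the centralizer of its centre; normalizing no non-trivial subgroup of odd order), and A a non-trivial subgroup of odd order of the normalizer of Q. Then Q is the central product of the centralizer of A in Q and the commutator subgroup [Q, A] (they generate Q and commute elementwise), [Q, A] is extraspecial, and the centralizer of A in Q is either the centre of Q or extraspecial. -/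
theorem result {G : Type*} [Group G] [Finite G] (Q : Subgroup G) (hQ : Cfsg.IsLargeExtraspecial Q) (A : Subgroup G) (hA : A ≤ Subgroup.normalizer (Q : Set G)) (hAodd : Odd (Nat.card ↥A)) (hA1 : A ≠ ⊥) : (Q ⊓ Subgroup.centralizer (A : Set G)) ⊔ ⁅Q, A⁆ = Q ∧ (∀ x ∈ Q ⊓ Subgroup.centralizer (A : Set G), ∀ y ∈ ⁅Q, A⁆, x * y = y * x) ∧ Cfsg.IsExtraspecial 2 ↥⁅Q, A⁆ ∧ (Q ⊓ Subgroup.centralizer (A : Set G) = ((Subgroup.center ↥Q).map Q.subtype) ∨ Cfsg.IsExtraspecial 2 ↥(Q ⊓ Subgroup.centralizer (A : Set G))) := by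
  obtain ⟨hL1, hL2, hL3, hL4⟩ := hQ
  obtain ⟨z, h, hzZ, hzord, hzall, hZz⟩ := ESData.exists_of hL1 hL2 hL3
  have : Fact (Nat.Prime 2) := ⟨Nat.prime_two⟩
  have hcop : (Nat.card A).Coprime (Nat.card Q) := by
    obtain ⟨n, hn⟩ := IsPGroup.iff_card.1 h.two
    rw [hn]; exact Nat.Coprime.pow_right n (Nat.coprime_two_right.2 hAodd)
  have hsolv : Group.IsSolvable A ∨ Group.IsSolvable Q := by
    right
    have := h.two.isNilpotent
    infer_instance
  have hsup := Cfsg.Agent.Lib.Helper30.commutator_sup_centralizer hA hcop hsolv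
  have hPQ : ⁅Q, A⁆ ≤ Q := Cfsg.Agent.Lib.Helper30.commutator_le_of_le_normalizer hA
  have hAz : ∀ a ∈ A, Commute a z := by
    intro a ha
    apply commute_of_conj_eq
    have h1 : ∀ b ∈ Q, Commute b (a * z * a⁻¹) := by
      intro b hb
      have hb' : a⁻¹ * b * a ∈ Q := by
        have := conj_mem_of_le_normalizer hA (A.inv_mem ha) hb
        rwa [inv_inv] at this
      have h2 := h.zc _ hb'
      show b * (a * z * a⁻¹) = a * z * a⁻¹ * b
      calc b * (a * z * a⁻¹) = a * ((a⁻¹ * b * a) * z) * a⁻¹ := by group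
        _ = a * (z * (a⁻¹ * b * a)) * a⁻¹ := by rw [h2.eq]
        _ = a * z * a⁻¹ * b := by group
    rcases h.cent _ h1 with h2 | h2
    · exfalso
      apply h.z1
      calc z = a⁻¹ * (a * z * a⁻¹) * a := by group
        _ = 1 := by rw [h2]; group
    · exact h2
  have hzC : z ∈ Q ⊓ Subgroup.centralizer (A : Set G) := by
    rw [Subgroup.mem_inf, Subgroup.mem_centralizer_iff]
    exact ⟨h.zQ, fun a ha => hAz a ha⟩
  have h3 : ⁅⁅Q, A⁆, Q ⊓ Subgroup.centralizer (A : Set G)⁆ = ⊥ := by
    apply Subgroup.commutator_commutator_eq_bot_of_rotate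
    · have h4 : ⁅A, Q ⊓ Subgroup.centralizer (A : Set G)⁆ = ⊥ := by
        rw [Subgroup.commutator_eq_bot_iff_le_centralizer, Subgroup.le_centralizer_iff]
        exact inf_le_right
      rw [h4, Subgroup.commutator_bot_left]
    · rw [eq_bot_iff]
      have h4 : ⁅Q ⊓ Subgroup.centralizer (A : Set G), Q⁆ ≤ Subgroup.zpowers z := by
        rw [Subgroup.commutator_le]
        intro c hc b hb
        rw [commutatorElement_def]
        rcases h.comm c hc.1 b hb with h5 | h5
        · rw [h5]; exact one_mem _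
        · rw [h5]; exact Subgroup.mem_zpowers z
      have h5 : ⁅Subgroup.zpowers z, A⁆ = ⊥ := by
        rw [Subgroup.commutator_eq_bot_iff_le_centralizer, Subgroup.zpowers_le]
        exact hzC.2
      calc ⁅⁅Q ⊓ Subgroup.centralizer (A : Set G), Q⁆, A⁆ ≤ ⁅Subgroup.zpowers z, A⁆ :=
            Subgroup.commutator_mono h4 le_rfl
        _ = ⊥ := h5
  have hcommute : ∀ x ∈ Q ⊓ Subgroup.centralizer (A : Set G), ∀ y ∈ ⁅Q, A⁆, x * y = y * x := by
    rw [Subgroup.commutator_eq_bot_iff_le_centralizer] at h3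
    intro x hx y hy
    exact Subgroup.mem_centralizer_iff.1 (h3 hy) x hx
  have hall : ∀ t : G, (∀ y ∈ ⁅Q, A⁆, Commute y t) →
      (∀ x ∈ Q ⊓ Subgroup.centralizer (A : Set G), Commute x t) → ∀ b ∈ Q, Commute b t := by
    intro t h1 h2 b hb
    obtain ⟨m, hm, c, hc, rfl⟩ :=
      Cfsg.Agent.Lib.Helper30.exists_commutator_mul_centralizer hA hcop hsolv hb
    exact (h1 m hm).mul_left (h2 c hc)
  have hPne : ∃ r ∈ ⁅Q, A⁆, r ≠ 1 ∧ r ≠ z := by
    by_contra hcon
    push Not at hcon
    apply hA1
    rw [eq_bot_iff]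
    intro a ha
    have hconj : ∀ b ∈ Q, a * b * a⁻¹ = b ∨ a * b * a⁻¹ = z * b := by
      intro b hb
      have h1 : ⁅b, a⁆⁻¹ ∈ ⁅Q, A⁆ := inv_mem (Subgroup.commutator_mem_commutator hb ha)
      have e : ⁅b, a⁆⁻¹ = a * b * a⁻¹ * b⁻¹ := by rw [commutatorElement_def]; group
      rw [e] at h1
      by_cases h2 : a * b * a⁻¹ * b⁻¹ = 1
      · left
        calc a * b * a⁻¹ = (a * b * a⁻¹ * b⁻¹) * b := by group
          _ = b := by rw [h2, one_mul]
      · right
        have h4 := hcon _ h1 h2
        calc a * b * a⁻¹ = (a * b * a⁻¹ * b⁻¹) * b := by group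
          _ = z * b := by rw [h4]
    have haz : a * z * a⁻¹ = z := conj_eq_of_commute (hAz a ha)
    have hsq : ∀ b ∈ Q, Commute b (a * a) := by
      intro b hb
      symm
      apply commute_of_conj_eq
      rcases hconj b hb with h1 | h1
      · calc a * a * b * (a * a)⁻¹ = a * (a * b * a⁻¹) * a⁻¹ := by group
          _ = b := by rw [h1, h1]
      · calc a * a * b * (a * a)⁻¹ = a * (a * b * a⁻¹) * a⁻¹ := by group
          _ = a * (z * b) * a⁻¹ := by rw [h1]
          _ = (a * z * a⁻¹) * (a * b * a⁻¹) := by group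
          _ = z * (z * b) := by rw [haz, h1]
          _ = (z * z) * b := by group
          _ = b := by rw [h.zz, one_mul]
    rcases h.cent _ hsq with h1 | h1
    · exact eq_one_of_sq_of_odd hAodd ha h1
    · exfalso
      apply h.z1
      exact eq_one_of_mem_odd_of_mem_two_group hAodd h.two (h1 ▸ A.mul_mem ha ha) h.zQ
  have hzP : z ∈ ⁅Q, A⁆ := by
    obtain ⟨r, hr, hr1, hrz⟩ := hPne
    by_contra hzP
    have h1 : ∀ y ∈ ⁅Q, A⁆, Commute y r := by
      intro y hy
      rcases h.comm y (hPQ hy) r (hPQ hr) with h2 | h2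
      · show y * r = r * y
        calc y * r = (y * r * y⁻¹ * r⁻¹) * (r * y) := by group
          _ = r * y := by rw [h2, one_mul]
      · exfalso
        apply hzP
        rw [← h2]
        exact mul_mem (mul_mem (mul_mem hy hr) (inv_mem hy)) (inv_mem hr)
    rcases h.cent r (hall r h1 (fun x hx => hcommute x hx r hr)) with h2 | h2
    · exact hr1 h2
    · exact hrz h2
  refine ⟨by rw [sup_comm]; exact hsup, hcommute, ?_, ?_⟩
  · apply isExtraspecial_of_sub hzP h.z1 h.zz
      (fun a ha b hb => h.comm a (hPQ ha) b (hPQ hb)) (fun a ha => h.zc a (hPQ ha)) _ hPne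
      (h.two.to_le hPQ)
    intro c hc hcc
    exact h.cent c (hall c hcc (fun x hx => hcommute x hx c hc))
  · by_cases hCne : ∃ r ∈ Q ⊓ Subgroup.centralizer (A : Set G), r ≠ 1 ∧ r ≠ z
    · right
      apply isExtraspecial_of_sub hzC h.z1 h.zz
        (fun a ha b hb => h.comm a ha.1 b hb.1) (fun a ha => h.zc a ha.1) _ hCne
        (h.two.to_le inf_le_left)
      intro c hc hcc
      exact h.cent c (hall c (fun y hy => (hcommute c hc y hy).symm) hcc)
    · left
      push Not at hCne
      apply le_antisymm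
      · intro c hc
        by_cases hc1 : c = 1
        · rw [hc1]; exact one_mem _
        · rw [hCne c hc hc1]; exact hzZ
      · intro c hc
        rcases hzall c hc with rfl | rfl
        · exact one_mem _
        · exact hzC

end Cfsg.Agent.S5434
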