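import Cfsg.Statements.S5437
-- import your own Cfsg.Agent.* helpers here
import Cfsg.Agent.Lib.Helper92.Conj

set_option autoImplicit false
open Cfsg

namespace Cfsg.Agent.S5437

open Cfsg.Agent.Lib.Helper92

/-- Let I be a set of involutions of the finite group G closed under conjugation, and H a subgroup of G. The following are equivalent: (1) for every member x of I lying in H, the conjugates of x lying in H form a single H-class and the centralizer of x lies in H; (2) for every g outside H, no member of I lies in both H and g H g⁻¹; (3) every member of I lying in H fixes exactly one coset in the action of G on the cosets of H. -/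
theorem result {G : Type*} [Group G] [Finite G] (I : Set G) (hI : ∀ x ∈ I, orderOf x = 2) (hIc : ∀ g : G, ∀ x ∈ I, g * x * g⁻¹ ∈ I) (H : Subgroup G) : ((∀ x ∈ I, x ∈ H → (∀ g : G, g * x * g⁻¹ ∈ H → ∃ h ∈ H, h * x * h⁻¹ = g * x * g⁻¹) ∧ Subgroup.centralizer ({x} : Set G) ≤ H) ↔ (∀ g : G, g ∉ H → ∀ x ∈ I, ¬ (x ∈ H ∧ x ∈ (H : Subgroup G).map (MulAut.conj g).toMonoidHom))) ∧ ((∀ g : G, g ∉ H → ∀ x ∈ I, ¬ (x ∈ H ∧ x ∈ (H : Subgroup G).map (MulAut.conj g).toMonoidHom)) ↔ ∀ x ∈ I, x ∈ H → ∃! c : G ⧸ H, x • c = c) := by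
  refine ⟨⟨?_, ?_⟩, ⟨?_, ?_⟩⟩
  · intro h1 g hg x hxI hx
    obtain ⟨hxH, hxg⟩ := hx
    rw [mem_map_conj_iff] at hxg
    have hyI : g⁻¹ * x * g ∈ I := by
      have := hIc g⁻¹ x hxI
      rwa [inv_inv] at this
    obtain ⟨hfus, hcen⟩ := h1 _ hyI hxg
    have e : g * (g⁻¹ * x * g) * g⁻¹ = x := by group
    obtain ⟨h, hh, hhe⟩ := hfus g (by rw [e]; exact hxH)
    have hc : h⁻¹ * g ∈ Subgroup.centralizer ({g⁻¹ * x * g} : Set G) := by
      rw [Subgroup.mem_centralizer_singleton_iff]
      calc h⁻¹ * g * (g⁻¹ * x * g) = h⁻¹ * (g * (g⁻¹ * x * g) * g⁻¹) * g := by group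
        _ = h⁻¹ * (h * (g⁻¹ * x * g) * h⁻¹) * g := by rw [hhe]
        _ = g⁻¹ * x * g * (h⁻¹ * g) := by group
    have := H.mul_mem hh (hcen hc)
    rw [mul_inv_cancel_left] at this
    exact hg this
  · intro h2 x hxI hxH
    refine ⟨?_, ?_⟩
    · intro g hgx
      by_cases hg : g ∈ H
      · exact ⟨g, hg, rfl⟩
      · exact absurd ⟨hgx, conj_mem_map_conj hxH⟩ (h2 g hg _ (hIc g x hxI))
    · intro c hc
      by_contra hcH
      apply h2 c hcH x hxI
      refine ⟨hxH, ?_⟩
      rw [mem_map_conj_iff]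
      rw [Subgroup.mem_centralizer_singleton_iff] at hc
      have : c⁻¹ * x * c = x := by
        calc c⁻¹ * x * c = c⁻¹ * (x * c) := by group
          _ = c⁻¹ * (c * x) := by rw [hc]
          _ = x := by group
      rw [this]; exact hxH
  · intro h2 x hxI hxH
    refine ⟨((1 : G) : G ⧸ H), ?_, ?_⟩
    · show x • ((1 : G) : G ⧸ H) = ((1 : G) : G ⧸ H)
      rw [smul_coset_eq_iff]; simpa using hxH
    · intro c hc
      induction c using QuotientGroup.induction_on with
      | H g =>
        have hc' : x • (g : G ⧸ H) = (g : G ⧸ H) := hc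
        rw [smul_coset_eq_iff] at hc'
        by_contra hne
        have hg : g ∉ H := by
          intro hg
          apply hne
          rw [QuotientGroup.eq]
          simpa using hg
        exact h2 g hg x hxI ⟨hxH, mem_map_conj_iff.2 hc'⟩
  · intro h3 g hg x hxI hx
    obtain ⟨hxH, hxg⟩ := hx
    rw [mem_map_conj_iff] at hxg
    obtain ⟨c, -, huniq⟩ := h3 x hxI hxH
    have e1 := huniq (g : G ⧸ H) (smul_coset_eq_iff.2 hxg)
    have e2 := huniq ((1 : G) : G ⧸ H) (smul_coset_eq_iff.2 (by simpa using hxH))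
    have e3 : ((1 : G) : G ⧸ H) = (g : G ⧸ H) := e2.trans e1.symm
    rw [QuotientGroup.eq] at e3
    apply hg
    simpa using e3

end Cfsg.Agent.S5437
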