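import Cfsg.Statements.S5438
-- import your own Cfsg.Agent.* helpers here
import Cfsg.Agent.Lib.Helper92.Conj
import Cfsg.Agent.Lib.Helper92.SylowConj

set_option autoImplicit false
open Cfsg

namespace Cfsg.Agent.S5438

open Cfsg.Agent.Lib.Helper92

/-- Let z be a 2-central involution of the finite group G (an involution central in some Sylow 2-subgroup) and H a subgroup containing z such that the coset H is the only coset of H fixed by z (in the action of G on the cosets of H). Then H has odd index in G, and for every 2-element x of H the conjugates of x lying in H form a single H-class. -/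
theorem result {G : Type*} [Group G] [Finite G] (z : G) (hz : Cfsg.IsTwoCentralInvolution z) (H : Subgroup G) (hzH : z ∈ H) (hfix : ∀ g : G, g⁻¹ * z * g ∈ H → g ∈ H) : Odd H.index ∧ ∀ x ∈ H, (∃ k : ℕ, orderOf x = 2 ^ k) → ∀ g : G, g * x * g⁻¹ ∈ H → ∃ h ∈ H, h * x * h⁻¹ = g * x * g⁻¹ := by
  obtain ⟨hz2, P, hzP, hzc⟩ := hz
  have : Fact (Nat.Prime 2) := ⟨Nat.prime_two⟩
  have hPH : (P : Subgroup G) ≤ H := by
    intro p hp
    apply hfix
    have : p⁻¹ * z * p = z := by
      calc p⁻¹ * z * p = p⁻¹ * (z * p) := by group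
        _ = p⁻¹ * (p * z) := by rw [hzc p hp]
        _ = z := by group
    rw [this]; exact hzH
  refine ⟨?_, ?_⟩
  · have h1 : ¬ 2 ∣ (P : Subgroup G).index := P.not_dvd_index
    have h2 : H.index ∣ (P : Subgroup G).index := Subgroup.index_dvd_of_le hPH
    rw [← Nat.not_even_iff_odd, even_iff_two_dvd]
    exact fun h => h1 (h.trans h2)
  · rintro x hxH ⟨k, hk⟩ g hgx
    have key : ∀ w : G, (∀ g, g⁻¹ * w * g ∈ H → g ∈ H) → ∀ T : Subgroup G, IsPGroup 2 T →
        w ∈ T → T ≤ H := by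
      intro w hw T hT hwT
      obtain ⟨c, hc⟩ := exists_conj_mem_sylow P hT
      have hcH : c⁻¹ ∈ H := hw c⁻¹ (by rw [inv_inv]; exact hPH (hc w hwT))
      intro t ht
      have h1 := hPH (hc t ht)
      have e : t = c⁻¹ * (c * t * c⁻¹) * c := by group
      rw [e]; exact H.mul_mem (H.mul_mem hcH h1) (by simpa using H.inv_mem hcH)
    have conjz : ∀ y ∈ H, orderOf y = 2 ^ k → ∃ w, (∀ g, g⁻¹ * w * g ∈ H → g ∈ H) ∧
        w * y = y * w ∧ orderOf w = 2 := by
      intro y hy hyk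
      obtain ⟨c, hcH, hc⟩ := exists_conj_mem_sylow_of_le P hPH (isPGroup_zpowers_of_orderOf hyk)
        (by rwa [Subgroup.zpowers_le])
      have hcy := hc y (Subgroup.mem_zpowers y)
      refine ⟨c⁻¹ * z * c, ?_, ?_, ?_⟩
      · intro g hg
        have h1 : (c * g)⁻¹ * z * (c * g) ∈ H := by
          have e : (c * g)⁻¹ * z * (c * g) = g⁻¹ * (c⁻¹ * z * c) * g := by group
          rw [e]; exact hg
        exact (H.mul_mem_cancel_left hcH).1 (hfix _ h1)
      · have h1 := hzc _ hcy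
        calc c⁻¹ * z * c * y = c⁻¹ * (z * (c * y * c⁻¹)) * c := by group
          _ = c⁻¹ * ((c * y * c⁻¹) * z) * c := by rw [h1]
          _ = y * (c⁻¹ * z * c) := by group
      · have h1 := (MulAut.conj c⁻¹).orderOf_eq z
        rw [MulAut.conj_apply, inv_inv] at h1
        rw [h1, hz2]
    have hgk : orderOf (g * x * g⁻¹) = 2 ^ k := by
      have h1 := (MulAut.conj g).orderOf_eq x
      rw [MulAut.conj_apply] at h1
      rw [h1, hk]
    obtain ⟨w₁, hw₁, hw₁x, hw₁o⟩ := conjz x hxH hk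
    obtain ⟨w', hw', hw'x, hw'o⟩ := conjz _ hgx hgk
    have hm₁ : w₁ ∈ Subgroup.centralizer ({x} : Set G) := by
      rw [Subgroup.mem_centralizer_singleton_iff]; exact hw₁x
    have hm₂ : g⁻¹ * w' * g ∈ Subgroup.centralizer ({x} : Set G) := by
      rw [Subgroup.mem_centralizer_singleton_iff]
      calc g⁻¹ * w' * g * x = g⁻¹ * (w' * (g * x * g⁻¹)) * g := by group
        _ = g⁻¹ * ((g * x * g⁻¹) * w') * g := by rw [hw'x]
        _ = x * (g⁻¹ * w' * g) := by group
    have ho₂ : orderOf (g⁻¹ * w' * g) = 2 := by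
      have h1 := (MulAut.conj g⁻¹).orderOf_eq w'
      rw [MulAut.conj_apply, inv_inv] at h1
      rw [h1, hw'o]
    obtain ⟨T₁, hT₁⟩ := (isPGroup_zpowers_of_orderOf (p := 2) (k := 1)
      (x := (⟨w₁, hm₁⟩ : Subgroup.centralizer ({x} : Set G)))
      (by rw [Subgroup.orderOf_mk, hw₁o, pow_one])).exists_le_sylow
    obtain ⟨T₂, hT₂⟩ := (isPGroup_zpowers_of_orderOf (p := 2) (k := 1)
      (x := (⟨g⁻¹ * w' * g, hm₂⟩ : Subgroup.centralizer ({x} : Set G)))
      (by rw [Subgroup.orderOf_mk, ho₂, pow_one])).exists_le_sylow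
    obtain ⟨c, hc⟩ := sylow_conj T₁ T₂
    have hc1 := hc _ (hT₁ (Subgroup.mem_zpowers _))
    have hTle := key w' hw' (((T₂ : Subgroup (Subgroup.centralizer ({x} : Set G))).map
      (Subgroup.centralizer ({x} : Set G)).subtype).map (MulAut.conj g).toMonoidHom)
      ((T₂.2.map _).map _) (by
        rw [mem_map_conj_iff]
        exact ⟨_, hT₂ (Subgroup.mem_zpowers _), rfl⟩)
    have h2 : g * ((c : G) * w₁ * (c : G)⁻¹) * g⁻¹ ∈ H := by
      apply hTle
      apply conj_mem_map_conj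
      exact ⟨_, hc1, rfl⟩
    have h3 : (g * (c : G))⁻¹ ∈ H := by
      apply hw₁
      have e : (g * (c : G))⁻¹⁻¹ * w₁ * (g * (c : G))⁻¹ = g * ((c : G) * w₁ * (c : G)⁻¹) * g⁻¹ := by
        group
      rw [e]; exact h2
    refine ⟨g * (c : G), by simpa using H.inv_mem h3, ?_⟩
    have hcx : (c : G) * x = x * (c : G) := Subgroup.mem_centralizer_singleton_iff.1 c.2
    calc g * (c : G) * x * (g * (c : G))⁻¹ = g * ((c : G) * x) * (c : G)⁻¹ * g⁻¹ := by group
      _ = g * (x * (c : G)) * (c : G)⁻¹ * g⁻¹ := by rw [hcx]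
      _ = g * x * g⁻¹ := by group

end Cfsg.Agent.S5438
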