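import Cfsg.Statements.S5439
-- import your own Cfsg.Agent.* helpers here
import Cfsg.Agent.Lib.Helper92.Conj
import Cfsg.Agent.Lib.Helper92.Dihedral

set_option autoImplicit false
open Cfsg

namespace Cfsg.Agent.S5439

open Cfsg.Agent.Lib.Helper92

/-- Let I and J be two different conjugacy classes of involutions of the finite group G and H a subgroup such that every member of I ∪ J fixes exactly one coset in the action on the cosets of H, and such that for every a in I ∩ H and every b in (I ∪ J) ∩ H different from a and commuting with it, the centralizer of a b lies in H. Then H = G. -/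
theorem result {G : Type*} [Group G] [Finite G] (I J : Set G) (a₀ b₀ : G) (ha₀ : orderOf a₀ = 2) (hb₀ : orderOf b₀ = 2) (hI : I = {x | IsConj a₀ x}) (hJ : J = {x | IsConj b₀ x}) (hIJ : I ≠ J) (H : Subgroup G) (hfix : ∀ x ∈ I ∪ J, ∃! c : G ⧸ H, x • c = c) (hcent : ∀ a ∈ I, a ∈ H → ∀ b ∈ I ∪ J, b ∈ H → a ≠ b → a * b = b * a → Subgroup.centralizer ({a * b} : Set G) ≤ H) : H = ⊤ := by
  have hord : ∀ {a x : G}, orderOf a = 2 → IsConj a x → x * x = 1 := by
    intro a x ha hax
    obtain ⟨c, rfl⟩ := isConj_iff.1 hax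
    have h := mul_self_eq_one_of_orderOf_two ha
    calc c * a * c⁻¹ * (c * a * c⁻¹) = c * (a * a) * c⁻¹ := by group
      _ = 1 := by rw [h]; group
  have huniq : ∀ x ∈ I ∪ J, x ∈ H → ∀ g : G, g⁻¹ * x * g ∈ H → g ∈ H := by
    intro x hx hxH g hg
    obtain ⟨c, -, hu⟩ := hfix x hx
    have e1 := hu (g : G ⧸ H) (smul_coset_eq_iff.2 hg)
    have e2 := hu ((1 : G) : G ⧸ H) (smul_coset_eq_iff.2 (by simpa using hxH))
    have e3 : ((1 : G) : G ⧸ H) = (g : G ⧸ H) := e2.trans e1.symm
    rw [QuotientGroup.eq] at e3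
    simpa using e3
  have claimA : ∀ u ∈ I, u ∈ H → ∀ v ∈ J, v ∈ H := by
    intro u huI huH v hvJ
    have huI' : IsConj a₀ u := by rw [hI] at huI; exact huI
    have hvJ' : IsConj b₀ v := by rw [hJ] at hvJ; exact hvJ
    have huu := hord ha₀ huI'
    have hvv := hord hb₀ hvJ'
    rcases dihedral_conj_or_central huu hvv (orderOf_pos _) with hc | ⟨w, hw1, hww, hwu, hwv, hcw, -⟩
    · exfalso
      apply hIJ
      have hab : IsConj a₀ b₀ := (huI'.trans hc).trans hvJ'.symm
      rw [hI, hJ]
      ext x
      exact ⟨fun h => hab.symm.trans h, fun h => hab.trans h⟩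
    · have hwH : w ∈ H := by
        apply huniq u (Or.inl huI) huH
        have : w⁻¹ * u * w = u := by
          calc w⁻¹ * u * w = w⁻¹ * (u * w) := by group
            _ = w⁻¹ * (w * u) := by rw [hwu]
            _ = u := by group
        rw [this]; exact huH
      have huw : u * w ∈ I ∪ J := by
        rcases hcw with h | h
        · left; rw [hI]; exact huI'.trans h
        · right; rw [hJ]; exact hvJ'.trans h
      have hle := hcent u huI huH (u * w) huw (H.mul_mem huH hwH)
        (by
          intro h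
          apply hw1
          have : u * 1 = u * w := by rw [mul_one]; exact h
          exact (mul_left_cancel this).symm)
        (by
          calc u * (u * w) = u * (w * u) := by rw [hwu]
            _ = u * w * u := by group)
      apply hle
      have e : u * (u * w) = w := by
        calc u * (u * w) = (u * u) * w := by group
          _ = w := by rw [huu, one_mul]
      rw [e, Subgroup.mem_centralizer_singleton_iff]
      exact hwv.symm
  have ha₀I : a₀ ∈ I := by rw [hI]; exact IsConj.refl a₀
  have hb₀J : b₀ ∈ J := by rw [hJ]; exact IsConj.refl b₀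
  obtain ⟨c, hc, -⟩ := hfix a₀ (Or.inl ha₀I)
  induction c using QuotientGroup.induction_on with
  | H g₀ =>
    have hc' : a₀ • (g₀ : G ⧸ H) = (g₀ : G ⧸ H) := hc
    rw [smul_coset_eq_iff] at hc'
    have hu₀ : g₀⁻¹ * a₀ * g₀ ∈ I := by
      rw [hI]
      exact isConj_iff.2 ⟨g₀⁻¹, by rw [inv_inv]⟩
    have hJH := claimA _ hu₀ hc'
    rw [eq_top_iff]
    intro g _
    have h1 : g⁻¹ ∈ H := by
      apply huniq b₀ (Or.inr hb₀J) (hJH b₀ hb₀J)
      apply hJH
      rw [hJ]
      exact isConj_iff.2 ⟨g⁻¹⁻¹, by rw [inv_inv]⟩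
    simpa using H.inv_mem h1

end Cfsg.Agent.S5439
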