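import Cfsg.Statements.S5459
-- import your own Cfsg.Agent.* helpers here
import Cfsg.Agent.Lib.Helper92.Basic

set_option autoImplicit false
open Cfsg

namespace Cfsg.Agent.S5459

open Cfsg.Agent.Lib.Helper92
open scoped commutatorElement

/-- the commuting relation on elements -/
def crel {X : Type*} [Group X] (D : Set X) (a b : X) : Prop := a ∈ D ∧ b ∈ D ∧ Commute a b

theorem reachable_of_rtg {X : Type*} [Group X] {D : Set X} {x y : X}
    (h : Relation.ReflTransGen (crel D) x y) (hx : x ∈ D) :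
    ∃ hy : y ∈ D, (Cfsg.commutingGraph D).Reachable ⟨x, hx⟩ ⟨y, hy⟩ := by
  induction h with
  | refl => exact ⟨hx, SimpleGraph.Reachable.refl _⟩
  | @tail b c _ hbc ih =>
    obtain ⟨hb, hr⟩ := ih
    refine ⟨hbc.2.1, ?_⟩
    by_cases hbc' : b = c
    · subst hbc'
      exact hr
    · refine hr.trans (SimpleGraph.Adj.reachable ?_)
      rw [Cfsg.commutingGraph, SimpleGraph.fromRel_adj]
      exact ⟨fun h => hbc' (congrArg Subtype.val h), Or.inl hbc.2.2⟩

theorem rtg_of_reachable {X : Type*} [Group X] {D : Set X} {x y : D}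
    (h : (Cfsg.commutingGraph D).Reachable x y) :
    Relation.ReflTransGen (crel D) (x : X) (y : X) := by
  rw [SimpleGraph.reachable_iff_reflTransGen] at h
  refine Relation.ReflTransGen.lift (fun a : D => (a : X)) ?_ _ _ h
  intro a b hab
  show crel D (a : X) (b : X)
  rw [Cfsg.commutingGraph, SimpleGraph.fromRel_adj] at hab
  rcases hab.2 with h | h
  · exact ⟨a.2, b.2, h⟩
  · exact ⟨a.2, b.2, h.symm⟩

theorem rtg_symm {X : Type*} [Group X] {D : Set X} {x y : X}
    (h : Relation.ReflTransGen (crel D) x y) : Relation.ReflTransGen (crel D) y x := by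
  induction h with
  | refl => exact Relation.ReflTransGen.refl
  | tail _ hbc ih => exact Relation.ReflTransGen.head ⟨hbc.2.1, hbc.1, hbc.2.2.symm⟩ ih

theorem memc {X : Type*} [Group X] {a b : X} : b ∈ conjugatesOf a ↔ IsConj a b := Iff.rfl

theorem comm_central {X : Type*} [Group X] {c₁ c₂ : X} (h₁ : ∀ x, c₁ * x = x * c₁)
    (h₂ : ∀ x, c₂ * x = x * c₂) (l₁ l₂ : X) :
    (c₁ * l₁) * (c₂ * l₂) * (c₁ * l₁)⁻¹ * (c₂ * l₂)⁻¹ = l₁ * l₂ * l₁⁻¹ * l₂⁻¹ := by
  have e₁ : ∀ x, c₁ * x * c₁⁻¹ = x := fun x => by rw [h₁, mul_inv_cancel_right]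
  have e₂ : ∀ x, c₂ * x * c₂⁻¹ = x := fun x => by rw [h₂, mul_inv_cancel_right]
  calc (c₁ * l₁) * (c₂ * l₂) * (c₁ * l₁)⁻¹ * (c₂ * l₂)⁻¹
      = (c₁ * (l₁ * c₂ * l₂ * l₁⁻¹) * c₁⁻¹) * l₂⁻¹ * c₂⁻¹ := by group
    _ = (l₁ * c₂ * l₂ * l₁⁻¹) * l₂⁻¹ * c₂⁻¹ := by rw [e₁]
    _ = l₁ * (c₂ * (l₂ * l₁⁻¹ * l₂⁻¹) * c₂⁻¹) := by group
    _ = l₁ * (l₂ * l₁⁻¹ * l₂⁻¹) := by rw [e₂]
    _ = l₁ * l₂ * l₁⁻¹ * l₂⁻¹ := by group

theorem exists_sqrt_of_odd {X : Type*} [Group X] {Z : Subgroup X} (h : Odd (Nat.card Z)) {t : X}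
    (ht : t ∈ Z) : ∃ c ∈ Z, c * c = t := by
  obtain ⟨k, hk⟩ := h
  refine ⟨t ^ (k + 1), Z.pow_mem ht _, ?_⟩
  have h1 : t ^ (2 * k + 1) = 1 := by
    have := pow_card_eq_one' (x := (⟨t, ht⟩ : Z))
    rw [hk] at this
    exact congrArg Subtype.val this
  calc t ^ (k + 1) * t ^ (k + 1) = t ^ (2 * k + 1) * t := by
        rw [← pow_add, ← pow_succ]; congr 1; omega
    _ = t := by rw [h1, one_mul]

/-- Let G be a finite group with a quasisimple normal subgroup L and an involution d such that G is generated by L and d, the centre of L has odd order, and d inverts every element of the centre of L. If the commuting graph on the conjugacy class of the image of d in G modulo the centre of L is connected, then the commuting graph on the conjugacy class of d is connected. -/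
theorem result {G : Type*} [Group G] [Finite G] (L : Subgroup G) [L.Normal] (hL : Cfsg.IsQuasisimple ↥L) (d : G) (hd : orderOf d = 2) (hgen : L ⊔ Subgroup.zpowers d = ⊤) (hodd : Odd (Nat.card ↥(Subgroup.center ↥L))) (hinv : ∀ c ∈ (Subgroup.center ↥L).map L.subtype, d * c * d⁻¹ = c⁻¹) [hn : ((Subgroup.center ↥L).map L.subtype).Normal] (hconn : (Cfsg.commutingGraph (conjugatesOf (QuotientGroup.mk d : G ⧸ (Subgroup.center ↥L).map L.subtype))).Connected) : (Cfsg.commutingGraph (conjugatesOf d)).Connected := by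
  set Z : Subgroup G := (Subgroup.center ↥L).map L.subtype with hZ
  have hZodd : Odd (Nat.card Z) := by
    rw [hZ, Subgroup.card_map_of_injective L.subtype_injective]; exact hodd
  have hdd : d * d = 1 := mul_self_eq_one_of_orderOf_two hd
  have hdD : d ∈ conjugatesOf d := mem_conjugatesOf_self
  have hDconj : ∀ g : G, ∀ y ∈ conjugatesOf d, g * y * g⁻¹ ∈ conjugatesOf d := by
    intro g y hy
    rw [memc] at hy ⊢
    exact hy.trans (isConj_iff.2 ⟨g, rfl⟩)
  have hDsq : ∀ y ∈ conjugatesOf d, y * y = 1 := by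
    intro y hy
    obtain ⟨g, rfl⟩ := isConj_iff.1 (memc.1 hy)
    calc g * d * g⁻¹ * (g * d * g⁻¹) = g * (d * d) * g⁻¹ := by group
      _ = 1 := by rw [hdd]; group
  have hDinv : ∀ y ∈ conjugatesOf d, ∀ c ∈ Z, y * c * y⁻¹ = c⁻¹ := by
    intro y hy c hc
    obtain ⟨g, rfl⟩ := isConj_iff.1 (memc.1 hy)
    have h1 : g⁻¹ * c * g ∈ Z := by
      have := hn.conj_mem c hc g⁻¹
      rwa [inv_inv] at this
    calc g * d * g⁻¹ * c * (g * d * g⁻¹)⁻¹ = g * (d * (g⁻¹ * c * g) * d⁻¹) * g⁻¹ := by group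
      _ = g * (g⁻¹ * c * g)⁻¹ * g⁻¹ := by rw [hinv _ h1]
      _ = c⁻¹ := by group
  have hconjZ : ∀ y ∈ conjugatesOf d, ∀ c ∈ Z, c * y * c⁻¹ = c * c * y := by
    intro y hy c hc
    have h1 := hDinv y hy c⁻¹ (Z.inv_mem hc)
    rw [inv_inv] at h1
    calc c * y * c⁻¹ = c * (y * c⁻¹ * y⁻¹) * y := by group
      _ = c * c * y := by rw [h1]
  have hrconj : ∀ (g x y : G), Relation.ReflTransGen (crel (conjugatesOf d)) x y →
      Relation.ReflTransGen (crel (conjugatesOf d)) (g * x * g⁻¹) (g * y * g⁻¹) := by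
    intro g x y h
    refine Relation.ReflTransGen.lift (fun a => g * a * g⁻¹) ?_ _ _ h
    intro a b hab
    show crel _ (g * a * g⁻¹) (g * b * g⁻¹)
    refine ⟨hDconj g a hab.1, hDconj g b hab.2.1, ?_⟩
    have := hab.2.2.eq
    show g * a * g⁻¹ * (g * b * g⁻¹) = g * b * g⁻¹ * (g * a * g⁻¹)
    calc g * a * g⁻¹ * (g * b * g⁻¹) = g * (a * b) * g⁻¹ := by group
      _ = g * (b * a) * g⁻¹ := by rw [this]
      _ = g * b * g⁻¹ * (g * a * g⁻¹) := by group
  let S : Subgroup G :=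
    { carrier := {g | Relation.ReflTransGen (crel (conjugatesOf d)) d (g * d * g⁻¹)}
      one_mem' := by
        show Relation.ReflTransGen _ d (1 * d * 1⁻¹)
        simp only [one_mul, inv_one, mul_one]
        exact Relation.ReflTransGen.refl
      mul_mem' := by
        intro a b ha hb
        show Relation.ReflTransGen _ d (a * b * d * (a * b)⁻¹)
        have h1 := hrconj a _ _ hb
        have e : a * (b * d * b⁻¹) * a⁻¹ = a * b * d * (a * b)⁻¹ := by group
        rw [e] at h1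
        exact Relation.ReflTransGen.trans ha h1
      inv_mem' := by
        intro a ha
        show Relation.ReflTransGen _ d (a⁻¹ * d * a⁻¹⁻¹)
        have h1 := hrconj a⁻¹ _ _ ha
        have e : a⁻¹ * (a * d * a⁻¹) * a⁻¹⁻¹ = d := by group
        rw [e] at h1
        exact rtg_symm h1 }
  have hSmem : ∀ g, g ∈ S ↔ Relation.ReflTransGen (crel (conjugatesOf d)) d (g * d * g⁻¹) :=
    fun g => Iff.rfl
  have hlift : ∀ ybar : G ⧸ Z, Relation.ReflTransGen
      (crel (conjugatesOf (QuotientGroup.mk d : G ⧸ Z))) (QuotientGroup.mk d) ybar →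
      ∃ y : G, (QuotientGroup.mk y : G ⧸ Z) = ybar ∧ y ∈ conjugatesOf d ∧
        Relation.ReflTransGen (crel (conjugatesOf d)) d y := by
    intro ybar h
    induction h with
    | refl => exact ⟨d, rfl, hdD, Relation.ReflTransGen.refl⟩
    | @tail bbar wbar _ hbc ih =>
      obtain ⟨y, hy, hyD, hyr⟩ := ih
      obtain ⟨gbar, hg⟩ := isConj_iff.1 (memc.1 hbc.2.1)
      obtain ⟨h, rfl⟩ := QuotientGroup.mk_surjective gbar
      have hw0D : h * d * h⁻¹ ∈ conjugatesOf d := hDconj h d hdD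
      have hw : (QuotientGroup.mk (h * d * h⁻¹) : G ⧸ Z) = wbar := by
        rw [← hg]; rfl
      have hcomm : (QuotientGroup.mk (y * (h * d * h⁻¹)) : G ⧸ Z) =
          QuotientGroup.mk ((h * d * h⁻¹) * y) := by
        have := hbc.2.2.eq
        rw [← hy, ← hw] at this
        exact this
      rw [eq_comm, QuotientGroup.eq] at hcomm
      generalize h * d * h⁻¹ = w0 at hw0D hw hcomm
      obtain ⟨c₁, hc₁, hc₁t⟩ := exists_sqrt_of_odd hZodd hcomm
      obtain ⟨c, hc, hcc⟩ := exists_sqrt_of_odd hZodd hc₁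
      have hyy := hDsq y hyD
      have hww := hDsq w0 hw0D
      have hyinv : y⁻¹ = y := inv_eq_of_mul_eq_one_left hyy
      have hwinv : w0⁻¹ = w0 := inv_eq_of_mul_eq_one_left hww
      have hwD : c * w0 * c⁻¹ ∈ conjugatesOf d := hDconj c w0 hw0D
      refine ⟨c * w0 * c⁻¹, ?_, hwD, hyr.tail ⟨hyD, hwD, ?_⟩⟩
      · rw [← hw]
        rw [QuotientGroup.eq]
        have h1 : w0⁻¹ * c * w0 ∈ Z := by
          have := hn.conj_mem c hc w0⁻¹
          rwa [inv_inv] at this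
        have e : (c * w0 * c⁻¹)⁻¹ * w0 = c * (w0⁻¹ * c * w0)⁻¹ := by group
        rw [e]
        exact Z.mul_mem hc (Z.inv_mem h1)
      · show y * (c * w0 * c⁻¹) = c * w0 * c⁻¹ * y
        rw [hconjZ w0 hw0D c hc, hcc]
        have h2 := hDinv y hyD c₁ hc₁
        have h3 : c₁ * c₁ = y * w0 * y * w0 := by
          rw [hc₁t, mul_inv_rev, hyinv, hwinv]; group
        have h4 : y * c₁ = c₁⁻¹ * y := by
          calc y * c₁ = (y * c₁ * y⁻¹) * y := by group
            _ = c₁⁻¹ * y := by rw [h2]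
        calc y * (c₁ * w0) = (y * c₁) * w0 := by group
          _ = c₁⁻¹ * y * w0 := by rw [h4]
          _ = c₁⁻¹ * (y * w0 * y * w0) * (w0 * w0) * w0⁻¹ * (y * y) * y⁻¹ := by
            rw [hww, hyy, hwinv, hyinv]
            have : y * w0 * y * w0 * 1 * w0 * 1 * y = y * w0 * (y * (w0 * w0) * y) := by group
            rw [mul_assoc c₁⁻¹, mul_assoc c₁⁻¹, mul_assoc c₁⁻¹, mul_assoc c₁⁻¹, mul_assoc c₁⁻¹,
              this, hww, mul_one, hyy, mul_one]
          _ = c₁⁻¹ * (c₁ * c₁) * w0 * y := by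
            rw [hww, hyy, hwinv, hyinv, h3]; group
          _ = c₁ * w0 * y := by group
  have hZS : ∀ g : G, ∃ c ∈ Z, c * g ∈ S := by
    intro g
    have hgD : g * d * g⁻¹ ∈ conjugatesOf d := hDconj g d hdD
    have hgbar : (QuotientGroup.mk (g * d * g⁻¹) : G ⧸ Z) ∈
        conjugatesOf (QuotientGroup.mk d : G ⧸ Z) := by
      rw [memc, isConj_iff]
      exact ⟨QuotientGroup.mk g, rfl⟩
    have hreach := hconn.preconnected ⟨QuotientGroup.mk d, mem_conjugatesOf_self⟩ ⟨_, hgbar⟩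
    obtain ⟨y, hy, hyD, hyr⟩ := hlift _ (rtg_of_reachable hreach)
    rw [eq_comm, QuotientGroup.eq] at hy
    obtain ⟨c, hc, hcc⟩ := exists_sqrt_of_odd hZodd (Z.inv_mem hy)
    refine ⟨c, hc, ?_⟩
    rw [hSmem]
    have e : c * g * d * (c * g)⁻¹ = y := by
      have h1 := hconjZ _ hgD c hc
      have h2 := hDinv _ hgD _ hy
      calc c * g * d * (c * g)⁻¹ = c * (g * d * g⁻¹) * c⁻¹ := by group
        _ = c * c * (g * d * g⁻¹) := h1
        _ = ((g * d * g⁻¹)⁻¹ * y)⁻¹ * (g * d * g⁻¹) := by rw [hcc]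
        _ = ((g * d * g⁻¹) * ((g * d * g⁻¹)⁻¹ * y) * (g * d * g⁻¹)⁻¹) * (g * d * g⁻¹) := by rw [h2]
        _ = y := by group
    rw [e]; exact hyr
  have hLS : L ≤ S := by
    have hperf : commutator L = ⊤ := hL.1.commutator_eq_top
    have hle : (⊤ : Subgroup L) ≤ S.comap L.subtype := by
      rw [← hperf, commutator_def, Subgroup.commutator_le]
      intro l₁ _ l₂ _
      obtain ⟨c₁, ⟨c₁', hc₁', rfl⟩, hc₁S⟩ := hZS l₁
      obtain ⟨c₂, ⟨c₂', hc₂', rfl⟩, hc₂S⟩ := hZS l₂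
      have e := comm_central (fun x => ((Subgroup.mem_center_iff.1 hc₁') x).symm)
        (fun x => ((Subgroup.mem_center_iff.1 hc₂') x).symm) l₁ l₂
      rw [Subgroup.mem_comap, commutatorElement_def, ← e]
      have := S.mul_mem (S.mul_mem (S.mul_mem hc₁S hc₂S) (S.inv_mem hc₁S)) (S.inv_mem hc₂S)
      exact this
    intro l hl
    exact hle (Subgroup.mem_top (⟨l, hl⟩ : L))
  have hdS : d ∈ S := by
    rw [hSmem]
    have : d * d * d⁻¹ = d := by group
    rw [this]
  have hS : S = ⊤ := by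
    rw [eq_top_iff, ← hgen]
    exact sup_le hLS (by rw [Subgroup.zpowers_le]; exact hdS)
  rw [SimpleGraph.connected_iff_exists_forall_reachable]
  refine ⟨⟨d, hdD⟩, ?_⟩
  rintro ⟨w, hw⟩
  obtain ⟨g, rfl⟩ := isConj_iff.1 (memc.1 hw)
  have hg : g ∈ S := by rw [hS]; exact Subgroup.mem_top g
  obtain ⟨_, hr⟩ := reachable_of_rtg ((hSmem g).1 hg) hdD
  exact hr

end Cfsg.Agent.S5459
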