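import Cfsg.Statements.S5541
-- import your own Cfsg.Agent.* helpers here

set_option autoImplicit false
open Cfsg

namespace Cfsg.Agent.S5541

theorem form_bijective {H : Type*} [Group H] {U : Type*} [AddCommGroup U] [Module ℝ U] [FiniteDimensional ℝ U]
    (ρ : Representation ℝ H U)
    (hirr : ∀ W : Submodule ℝ U, (∀ g : H, W.map (ρ g) ≤ W) → W = ⊥ ∨ W = ⊤) (B : LinearMap.BilinForm ℝ U)
    (hB0 : B ≠ 0) (hBi : ∀ (g : H) (u v : U), B (ρ g u) (ρ g v) = B u v) : Function.Bijective B := by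
  have hinj : Function.Injective B := by
    rw [← LinearMap.ker_eq_bot]
    have hinv : ∀ g : H, (LinearMap.ker B).map (ρ g) ≤ LinearMap.ker B := by
      intro g x hx
      obtain ⟨u, hu, rfl⟩ := hx
      rw [SetLike.mem_coe, LinearMap.mem_ker] at hu
      rw [LinearMap.mem_ker]
      ext v
      have h1 : ρ g (ρ g⁻¹ v) = v := by
        rw [← Module.End.mul_apply, ← map_mul]; simp
      have := hBi g u (ρ g⁻¹ v)
      rw [h1, hu] at this
      simpa using this
    rcases hirr (LinearMap.ker B) hinv with h | h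
    · exact h
    · exfalso; apply hB0
      exact LinearMap.ker_eq_top.1 h
  refine ⟨hinj, ?_⟩
  exact (LinearMap.injective_iff_surjective_of_finrank_eq_finrank (Subspace.dual_finrank_eq).symm).1 hinj

/-- Let ρ be a representation of a group H on a finite-dimensional real vector space U whose only ρ-invariant subspaces are the zero subspace and U, and suppose U carries a non-zero ρ-invariant symmetric bilinear form. Then the following are equivalent: (1) there is a non-zero ρ-equivariant commutative bilinear product on U of which every ρ-equivariant bilinear product is a scalar multiple; (2) there is a non-zero ρ-invariant trilinear form on U that is symmetric under all permutations of its arguments and of which every ρ-invariant trilinear form is a scalar multiple. -/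
theorem result {H : Type*} [Group H] {U : Type*} [AddCommGroup U] [Module ℝ U] [FiniteDimensional ℝ U] (ρ : Representation ℝ H U) (hirr : ∀ W : Submodule ℝ U, (∀ g : H, W.map (ρ g) ≤ W) → W = ⊥ ∨ W = ⊤) (B : LinearMap.BilinForm ℝ U) (hB0 : B ≠ 0) (hBs : ∀ u v, B u v = B v u) (hBi : ∀ (g : H) (u v : U), B (ρ g u) (ρ g v) = B u v) : (∃ m : U →ₗ[ℝ] U →ₗ[ℝ] U, m ≠ 0 ∧ (∀ u v, m u v = m v u) ∧ (∀ (g : H) (u v : U), m (ρ g u) (ρ g v) = ρ g (m u v)) ∧ ∀ m' : U →ₗ[ℝ] U →ₗ[ℝ] U, (∀ (g : H) (u v : U), m' (ρ g u) (ρ g v) = ρ g (m' u v)) → ∃ c : ℝ, m' = c • m) ↔ (∃ t : U →ₗ[ℝ] U →ₗ[ℝ] U →ₗ[ℝ] ℝ, t ≠ 0 ∧ (∀ u v w, t u v w = t v u w ∧ t u v w = t u w v) ∧ (∀ (g : H) (u v w : U), t (ρ g u) (ρ g v) (ρ g w) = t u v w) ∧ ∀ t' : U →ₗ[ℝ] U →ₗ[ℝ] U →ₗ[ℝ] ℝ, (∀ (g : H) (u v w : U), t' (ρ g u) (ρ g v) (ρ g w) = t' u v w) → ∃ c : ℝ, t' = c • t) := by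
  have hbij := form_bijective ρ hirr B hB0 hBi
  have hinj := hbij.1
  obtain ⟨E, hE⟩ : ∃ E : U ≃ₗ[ℝ] Module.Dual ℝ U, ∀ x, E x = B x := ⟨LinearEquiv.ofBijective B hbij, fun x => rfl⟩
  have hext : ∀ x y : U, (∀ w, B x w = B y w) → x = y := fun x y h => hinj (LinearMap.ext h)
  have hgg : ∀ (g : H) (v : U), ρ g (ρ g⁻¹ v) = v := by
    intro g v
    rw [← Module.End.mul_apply, ← map_mul]; simp
  -- from an invariant trilinear form to an equivariant product
  have toProd : ∀ t : U →ₗ[ℝ] U →ₗ[ℝ] U →ₗ[ℝ] ℝ, ∃ m : U →ₗ[ℝ] U →ₗ[ℝ] U, ∀ u v w, B (m u v) w = t u v w := by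
    intro t
    refine ⟨t.compr₂ (E.symm : Module.Dual ℝ U →ₗ[ℝ] U), ?_⟩
    intro u v w
    rw [LinearMap.compr₂_apply, ← hE]
    simp
  have equiv_of_inv : ∀ (t : U →ₗ[ℝ] U →ₗ[ℝ] U →ₗ[ℝ] ℝ) (m : U →ₗ[ℝ] U →ₗ[ℝ] U),
      (∀ u v w, B (m u v) w = t u v w) → (∀ (g : H) (u v w : U), t (ρ g u) (ρ g v) (ρ g w) = t u v w) →
      ∀ (g : H) (u v : U), m (ρ g u) (ρ g v) = ρ g (m u v) := by
    intro t m hm ht g u v
    apply hext
    intro w
    rw [hm]
    have h1 := ht g u v (ρ g⁻¹ w)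
    rw [hgg] at h1
    rw [h1, ← hm]
    have h2 := hBi g (m u v) (ρ g⁻¹ w)
    rw [hgg] at h2
    exact h2.symm
  have inv_of_equiv : ∀ (m : U →ₗ[ℝ] U →ₗ[ℝ] U),
      (∀ (g : H) (u v : U), m (ρ g u) (ρ g v) = ρ g (m u v)) →
      ∀ (g : H) (u v w : U), (m.compr₂ B) (ρ g u) (ρ g v) (ρ g w) = (m.compr₂ B) u v w := by
    intro m hm g u v w
    rw [LinearMap.compr₂_apply, LinearMap.compr₂_apply, hm, hBi]
  constructor
  · rintro ⟨m, hm0, hmc, hme, hmu⟩
    have ht0 : m.compr₂ B ≠ 0 := by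
      intro h
      apply hm0
      ext u v
      apply hext
      intro w
      have := congrArg (fun t : U →ₗ[ℝ] U →ₗ[ℝ] U →ₗ[ℝ] ℝ => t u v w) h
      simpa using this
    have huniq : ∀ t' : U →ₗ[ℝ] U →ₗ[ℝ] U →ₗ[ℝ] ℝ,
        (∀ (g : H) (u v w : U), t' (ρ g u) (ρ g v) (ρ g w) = t' u v w) → ∃ c : ℝ, t' = c • m.compr₂ B := by
      intro t' ht'
      obtain ⟨m', hm'⟩ := toProd t'
      obtain ⟨c, hc⟩ := hmu m' (equiv_of_inv t' m' hm' ht')
      refine ⟨c, ?_⟩
      ext u v w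
      rw [← hm', hc]
      simp
    refine ⟨m.compr₂ B, ht0, ?_, inv_of_equiv m hme, huniq⟩
    have hs1 : ∀ u v w, (m.compr₂ B) u v w = (m.compr₂ B) v u w := by
      intro u v w
      rw [LinearMap.compr₂_apply, LinearMap.compr₂_apply, hmc]
    obtain ⟨t, htdef⟩ : ∃ t, t = m.compr₂ B := ⟨_, rfl⟩
    rw [← htdef] at ht0 huniq hs1 ⊢
    have htinv : ∀ (g : H) (u v w : U), t (ρ g u) (ρ g v) (ρ g w) = t u v w := by
      rw [htdef]; exact inv_of_equiv m hme
    obtain ⟨c, hc⟩ := huniq (LinearMap.lflip.toLinearMap ∘ₗ t) (by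
      intro g u v w
      simp only [LinearMap.comp_apply, LinearEquiv.coe_coe, LinearMap.lflip_apply]
      exact htinv g u w v)
    have hc' : ∀ u v w, t u w v = c * t u v w := by
      intro u v w
      have := congrArg (fun s : U →ₗ[ℝ] U →ₗ[ℝ] U →ₗ[ℝ] ℝ => s u v w) hc
      simpa using this
    obtain ⟨u₀, v₀, w₀, hne⟩ : ∃ u v w, t u v w ≠ 0 := by
      by_contra hcon
      push_neg at hcon
      apply ht0
      ext u v w
      simpa using hcon u v w
    have hcc : c * c = 1 := by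
      have h1 := hc' u₀ v₀ w₀
      have h2 := hc' u₀ w₀ v₀
      rw [h1] at h2
      have : (c * c - 1) * t u₀ v₀ w₀ = 0 := by linarith
      rcases mul_eq_zero.1 this with h | h
      · linarith
      · exact absurd h hne
    have hc1 : c = 1 := by
      have : (c - 1) * (c + 1) = 0 := by ring_nf; linarith
      rcases mul_eq_zero.1 this with h | h
      · linarith
      · exfalso
        have hcm : c = -1 := by linarith
        apply hne
        have e1 := hc' u₀ v₀ w₀
        have e2 := hs1 u₀ w₀ v₀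
        have e3 := hc' w₀ u₀ v₀
        have e4 := hs1 w₀ v₀ u₀
        have e5 := hc' v₀ w₀ u₀
        have e6 := hs1 v₀ u₀ w₀
        rw [hcm] at e1 e3 e5
        linarith
    intro u v w
    refine ⟨hs1 u v w, ?_⟩
    have := hc' u v w
    rw [hc1, one_mul] at this
    exact this.symm
  · rintro ⟨t, ht0, hts, hti, htu⟩
    obtain ⟨m, hm⟩ := toProd t
    refine ⟨m, ?_, ?_, equiv_of_inv t m hm hti, ?_⟩
    · intro h
      apply ht0
      ext u v w
      rw [← hm, h]
      simp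
    · intro u v
      apply hext
      intro w
      rw [hm, hm]
      exact (hts u v w).1
    · intro m' hm'
      obtain ⟨c, hc⟩ := htu (m'.compr₂ B) (inv_of_equiv m' hm')
      refine ⟨c, ?_⟩
      ext u v
      apply hext
      intro w
      have := congrArg (fun s : U →ₗ[ℝ] U →ₗ[ℝ] U →ₗ[ℝ] ℝ => s u v w) hc
      simp only [LinearMap.compr₂_apply, LinearMap.smul_apply, smul_eq_mul] at this
      rw [this, ← hm]
      simp

end Cfsg.Agent.S5541
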