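import Cfsg.Statements.S5543
-- import your own Cfsg.Agent.* helpers here

set_option autoImplicit false
open Cfsg

namespace Cfsg.Agent.S5543

open Cfsg.Axial in
theorem fusion_quarter {V : Type*} [AddCommGroup V] [Module ℝ V] {mul : V →ₗ[ℝ] V →ₗ[ℝ] V}
    {B : LinearMap.BilinForm ℝ V} {μ : V ≃ₗ[ℝ] V} {a : V} (h : IsMajoranaPair mul B μ a)
    {u v : V} (hu : mul a u = (1 / 4 : ℝ) • u) (hv : mul a v = (1 / 4 : ℝ) • v) :
    mul a (mul a (mul u v)) = mul a (mul u v) := by
  obtain ⟨-, -, ⟨⟨-, -, -, hf⟩, -⟩, -⟩ := h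
  have h1 : (1 / 4 : ℝ) ∈ majoranaSpectrum := by
    simp [majoranaSpectrum]
  have hu' : u ∈ eigen mul a (1 / 4) := by
    rw [eigen, Module.End.mem_eigenspace_iff]; exact hu
  have hv' : v ∈ eigen mul a (1 / 4) := by
    rw [eigen, Module.End.mem_eigenspace_iff]; exact hv
  have h2 := hf _ h1 _ h1 u hu' v hv'
  have h3 : monsterLaw (1 / 4 : ℝ) (1 / 32) (1 / 4) (1 / 4) = {1, 0} := by
    unfold monsterLaw
    rw [if_neg (by norm_num), if_neg (by norm_num), if_pos (by norm_num)]
  rw [h3] at h2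
  have h4 : eigenSum mul a {1, 0} ≤ LinearMap.ker ((mul a) ∘ₗ (mul a) - mul a) := by
    unfold eigenSum
    refine iSup₂_le ?_
    intro c hc z hz
    rw [eigen, Module.End.mem_eigenspace_iff] at hz
    rw [LinearMap.mem_ker, LinearMap.sub_apply, LinearMap.comp_apply, hz, map_smul, hz]
    rcases hc with rfl | hc
    · simp
    · rw [Set.mem_singleton_iff] at hc; subst hc; simp
  have h5 := h4 h2
  rw [LinearMap.mem_ker, LinearMap.sub_apply, LinearMap.comp_apply, sub_eq_zero] at h5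
  exact h5

theorem core {V : Type*} [AddCommGroup V] [Module ℝ V] (mul : V →ₗ[ℝ] V →ₗ[ℝ] V)
    (B : LinearMap.BilinForm ℝ V) {X : Type*} [CommGroup X] (hX : ∀ x : X, x * x = 1) (a : X → V)
    (hfus : ∀ x : X, x ≠ 1 → ∀ u v : V, mul (a x) u = (1 / 4 : ℝ) • u → mul (a x) v = (1 / 4 : ℝ) • v →
      mul (a x) (mul (a x) (mul u v)) = mul (a x) (mul u v))
    (hid : ∀ x : X, x ≠ 1 → mul (a x) (a x) = a x)
    (h1 : ∀ x : X, x ≠ 1 → B (a x) (a x) = 1)
    (h2A : ∀ x y : X, x ≠ 1 → y ≠ 1 → x ≠ y → mul (a x) (a y) = (1 / 8 : ℝ) • (a x + a y - a (x * y)))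
    (x y w : X) (hx : x ≠ 1) (hy : y ≠ 1) (hxy : y ≠ x) (hw1 : w ≠ 1) (hwx : w ≠ x) (hwy : w ≠ y)
    (hwxy : w ≠ x * y) : False := by
  have inv_eq : ∀ z : X, z⁻¹ = z := fun z => inv_eq_of_mul_eq_one_left (hX z)
  have ne_one : ∀ p q : X, p ≠ q → p * q ≠ 1 := by
    intro p q hpq h
    apply hpq
    rw [← inv_eq q]; exact eq_inv_of_mul_eq_one_left h
  have cancel : ∀ p q : X, p * (p * q) = q := by
    intro p q; rw [← mul_assoc, hX, one_mul]
  have eig : ∀ q : X, q ≠ 1 → q ≠ x → mul (a x) (a q - a (x * q)) = (1 / 4 : ℝ) • (a q - a (x * q)) := by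
    intro q hq hqx
    have e1 := h2A x q hx hq (Ne.symm hqx)
    have e2 := h2A x (x * q) hx (ne_one _ _ (Ne.symm hqx)) (by
      intro h; apply hq; exact (mul_eq_left (a := x)).1 h.symm)
    rw [cancel] at e2
    rw [map_sub, e1, e2]
    module
  have hyw : y * w ≠ 1 := ne_one _ _ (Ne.symm hwy)
  have hywx : y * w ≠ x := by
    intro h; apply hwxy
    rw [← h, mul_comm (y * w) y, cancel]
  have E1 := eig y hy hxy
  have E2 := eig w hw1 hwx
  have E3 := eig (y * w) hyw hywx
  have hxw1 : x * w ≠ 1 := ne_one _ _ (Ne.symm hwx)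
  have hxy1 : x * y ≠ 1 := ne_one _ _ (Ne.symm hxy)
  have P1 := h2A y w hy hw1 (Ne.symm hwy)
  have P2 := h2A y (x * w) hy hxw1 (by
    intro h; apply hwxy; rw [h, cancel])
  have P3 := h2A (x * y) w hxy1 hw1 (Ne.symm hwxy)
  have P4 := h2A (x * y) (x * w) hxy1 hxw1 (by
    intro h; exact hwy (mul_left_cancel h).symm)
  have g2 : y * (x * w) = x * (y * w) := by rw [mul_left_comm]
  have g3 : x * y * w = x * (y * w) := by rw [mul_assoc]
  have g4 : x * y * (x * w) = y * w := by rw [mul_mul_mul_comm, hX, one_mul]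
  rw [g2] at P2
  rw [g3] at P3
  rw [g4] at P4
  have prod : mul (a y - a (x * y)) (a w - a (x * w)) = (-(1 / 4 : ℝ)) • (a (y * w) - a (x * (y * w))) := by
    simp only [map_sub, LinearMap.sub_apply]
    rw [P1, P2, P3, P4]
    module
  have F := hfus x hx _ _ E1 E2
  rw [prod] at F
  simp only [map_smul, E3] at F
  have hz : a (y * w) - a (x * (y * w)) = 0 := by
    have : ((3 / 64 : ℝ)) • (a (y * w) - a (x * (y * w))) = 0 := by
      have h0 : (-(1 / 4 : ℝ)) • (1 / 4 : ℝ) • (1 / 4 : ℝ) • (a (y * w) - a (x * (y * w)))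
          - (-(1 / 4 : ℝ)) • (1 / 4 : ℝ) • (a (y * w) - a (x * (y * w))) = 0 := sub_eq_zero.2 F
      rw [← h0]; module
    exact (smul_eq_zero.1 this).resolve_left (by norm_num)
  have heq : a (x * (y * w)) = a (y * w) := (sub_eq_zero.1 hz).symm
  have hxyw1 : x * (y * w) ≠ 1 := ne_one _ _ (Ne.symm hywx)
  have Q := h2A (y * w) (x * (y * w)) hyw hxyw1 (by
    intro h; apply hx; exact (mul_eq_right (b := y * w)).1 h.symm)
  have g5 : y * w * (x * (y * w)) = x := by rw [mul_left_comm, hX, mul_one]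
  rw [g5, heq, hid _ hyw] at Q
  have hax : a x = (-6 : ℝ) • a (y * w) := by
    have h8 : (8 : ℝ) • a (y * w) - (8 : ℝ) • ((1 / 8 : ℝ) • (a (y * w) + a (y * w) - a x)) = 0 := by
      rw [← Q]; simp
    have h9 : a x - (-6 : ℝ) • a (y * w)
        = (8 : ℝ) • a (y * w) - (8 : ℝ) • ((1 / 8 : ℝ) • (a (y * w) + a (y * w) - a x)) := by module
    rw [h8] at h9
    exact sub_eq_zero.1 h9
  have n1 := h1 x hx
  rw [hax] at n1
  simp only [map_smul, LinearMap.smul_apply, h1 _ hyw, smul_eq_mul] at n1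
  norm_num at n1

/-- Let V be a finite-dimensional real vector space with a commutative bilinear product and a positive-definite symmetric bilinear form that associates with the product and satisfies the Norton inequality (the Majorana setting of the definitions). Let X be a group of linear automorphisms of V in which every element squares to the identity, and suppose every non-identity element x of X is a Majorana involution with an axial vector a(x) of squared length 1, such that for any two distinct non-identity x, y the product a(x) ∘ a(y) equals (1/8)(a(x) + a(y) − a(xy)) (the dihedral subalgebra of type 2A whose third axis belongs to the involution xy). Then X has order at most 4. -/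
theorem result {V : Type*} [AddCommGroup V] [Module ℝ V] [FiniteDimensional ℝ V] (mul : V →ₗ[ℝ] V →ₗ[ℝ] V) (B : LinearMap.BilinForm ℝ V) (hV : Cfsg.Axial.IsMajoranaAmbient mul B) (X : Subgroup (V ≃ₗ[ℝ] V)) (hX : ∀ x ∈ X, x * x = 1) (ax : (V ≃ₗ[ℝ] V) → V) (hax : ∀ x ∈ X, x ≠ 1 → Cfsg.Axial.IsMajoranaPair mul B x (ax x)) (h1 : ∀ x ∈ X, x ≠ 1 → B (ax x) (ax x) = 1) (h2A : ∀ x ∈ X, ∀ y ∈ X, x ≠ 1 → y ≠ 1 → x ≠ y → mul (ax x) (ax y) = (1 / 8 : ℝ) • (ax x + ax y - ax (x * y))) : Nat.card ↥X ≤ 4 := by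
  classical
  by_contra hcard
  push_neg at hcard
  haveI : Finite X := Nat.finite_of_card_ne_zero (by omega)
  haveI := Fintype.ofFinite X
  rw [Nat.card_eq_fintype_card] at hcard
  have key : ∀ s : Finset X, s.card ≤ 4 → ∃ z, z ∉ s := by
    intro s hs
    by_contra hc
    push_neg at hc
    have : s = Finset.univ := Finset.eq_univ_iff_forall.2 hc
    rw [this, Finset.card_univ] at hs
    omega
  have hX' : ∀ x : X, x * x = 1 := fun x => Subtype.ext (hX x.1 x.2)
  letI : CommGroup X :=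
    { (inferInstance : Group X) with
      mul_comm := by
        intro p q
        have h1 := hX' (p * q)
        have hp := hX' p
        have hq := hX' q
        calc p * q = p * (p * q * (p * q)) * q := by rw [h1]; group
          _ = (p * p) * (q * p) * (q * q) := by group
          _ = q * p := by rw [hp, hq]; group }
  obtain ⟨x, hx⟩ := key {1} (by simp)
  obtain ⟨y, hy⟩ := key {1, x} (le_trans Finset.card_le_two (by norm_num))
  obtain ⟨w, hw⟩ := key {1, x, y, x * y} Finset.card_le_four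
  simp only [Finset.mem_insert, Finset.mem_singleton, not_or] at hx hy hw
  have ne1 : ∀ z : X, z ≠ 1 → (z : V ≃ₗ[ℝ] V) ≠ 1 := fun z hz h => hz (Subtype.ext h)
  refine core mul B hX' (fun z => ax z.1) ?_ ?_ ?_ ?_ x y w hx hy.1 hy.2 hw.1 hw.2.1 hw.2.2.1 hw.2.2.2
  · intro z hz u v hu hv
    exact fusion_quarter (hax z.1 z.2 (ne1 z hz)) hu hv
  · intro z hz
    exact (hax z.1 z.2 (ne1 z hz)).2.2.1.1.2.1
  · intro z hz
    exact h1 z.1 z.2 (ne1 z hz)
  · intro p q hp hq hpq
    exact h2A p.1 p.2 q.1 q.2 (ne1 p hp) (ne1 q hq) (fun h => hpq (Subtype.ext h))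

end Cfsg.Agent.S5543
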