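import Cfsg.Statements.S5545
-- import your own Cfsg.Agent.* helpers here

set_option autoImplicit false
open Cfsg

namespace Cfsg.Agent.S5545

open Cfsg.Axial

theorem eigen_map {V : Type*} [AddCommGroup V] [Module ℝ V] (mul : V →ₗ[ℝ] V →ₗ[ℝ] V) (ν : V ≃ₗ[ℝ] V)
    (hν : ∀ u v, ν (mul u v) = mul (ν u) (ν v)) (a : V) (c : ℝ) :
    eigen mul (ν a) c = (eigen mul a c).map (ν : V →ₗ[ℝ] V) := by
  ext z
  simp only [eigen, Module.End.mem_eigenspace_iff, Submodule.mem_map]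
  constructor
  · intro h
    refine ⟨ν.symm z, ?_, by simp⟩
    apply ν.injective
    rw [hν, map_smul]; simpa using h
  · rintro ⟨y, hy, rfl⟩
    show mul (ν a) (ν y) = c • ν y
    rw [← hν, hy, map_smul]

theorem eigenSum_map {V : Type*} [AddCommGroup V] [Module ℝ V] (mul : V →ₗ[ℝ] V →ₗ[ℝ] V) (ν : V ≃ₗ[ℝ] V)
    (hν : ∀ u v, ν (mul u v) = mul (ν u) (ν v)) (a : V) (S : Set ℝ) :
    eigenSum mul (ν a) S = (eigenSum mul a S).map (ν : V →ₗ[ℝ] V) := by
  simp only [eigenSum, Submodule.map_iSup, eigen_map mul ν hν]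

theorem pair_transport {V : Type*} [AddCommGroup V] [Module ℝ V] {mul : V →ₗ[ℝ] V →ₗ[ℝ] V}
    {B : LinearMap.BilinForm ℝ V} {μ : V ≃ₗ[ℝ] V} {a : V} (ν : V ≃ₗ[ℝ] V)
    (hν : ∀ u v, ν (mul u v) = mul (ν u) (ν v)) (h : IsMajoranaPair mul B μ a) (hc : ν * μ = μ * ν) :
    IsMajoranaPair mul B μ (ν a) := by
  obtain ⟨h1, h2, ⟨⟨h3, h4, h5, h6⟩, h7⟩, h8, h9⟩ := h
  have hcomm : ∀ z, μ (ν z) = ν (μ z) := by
    intro z
    have := congrArg (fun f : V ≃ₗ[ℝ] V => f z) hc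
    simpa using this.symm
  refine ⟨h1, h2, ⟨⟨?_, ?_, ?_, ?_⟩, ?_⟩, ?_, ?_⟩
  · intro h0; apply h3; exact (map_eq_zero_iff ν ν.injective).1 h0
  · rw [← hν, h4]
  · rw [eigenSum_map mul ν hν, h5, Submodule.map_top]
    exact LinearMap.range_eq_top.2 ν.surjective
  · intro c hc' d hd u hu v hv
    rw [eigen_map mul ν hν] at hu hv
    obtain ⟨u', hu', rfl⟩ := hu
    obtain ⟨v', hv', rfl⟩ := hv
    rw [eigenSum_map mul ν hν]
    refine ⟨mul u' v', h6 c hc' d hd u' hu' v' hv', ?_⟩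
    exact hν u' v'
  · rw [eigen_map mul ν hν, h7, Submodule.map_span, Set.image_singleton]; rfl
  · intro v hv
    rw [eigenSum_map mul ν hν] at hv
    obtain ⟨v', hv', rfl⟩ := hv
    have := h8 v' hv'
    show μ (ν v') = ν v'
    rw [hcomm]
    exact congrArg ν this
  · intro v hv
    rw [eigen_map mul ν hν] at hv
    obtain ⟨v', hv', rfl⟩ := hv
    have := h9 v' hv'
    show μ (ν v') = -(ν v')
    rw [hcomm, ← map_neg]
    exact congrArg ν this

theorem decomp {V : Type*} [AddCommGroup V] [Module ℝ V] {mul : V →ₗ[ℝ] V →ₗ[ℝ] V}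
    {B : LinearMap.BilinForm ℝ V} {μ : V ≃ₗ[ℝ] V} {a : V} (h : IsMajoranaPair mul B μ a) (b : V)
    (hb : μ b = b) : ∃ (l : ℝ) (u v : V), b = l • a + u + v ∧ mul a u = 0 ∧ mul a v = (1 / 4 : ℝ) • v ∧
      mul a (mul u u) = 0 ∧ mul a (mul u v) = (1 / 4 : ℝ) • mul u v ∧
      mul a (mul a (mul v v)) = mul a (mul v v) := by
  obtain ⟨h1, h2, ⟨⟨h3, h4, h5, h6⟩, h7⟩, h8, h9⟩ := h
  have hb' : b ∈ eigenSum mul a majoranaSpectrum := by rw [h5]; trivial
  simp only [eigenSum, majoranaSpectrum, iSup_insert, iSup_singleton] at hb'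
  obtain ⟨b1, hb1, r1, hr1, e1⟩ := Submodule.mem_sup.1 hb'
  obtain ⟨b0, hb0, r2, hr2, e2⟩ := Submodule.mem_sup.1 hr1
  obtain ⟨bq, hbq, bt, hbt, e3⟩ := Submodule.mem_sup.1 hr2
  have m1 : eigen mul a 1 ≤ eigenSum mul a {1, 0, 1 / 4} := by
    simp only [eigenSum, iSup_insert, iSup_singleton]; exact le_sup_left
  have m0 : eigen mul a 0 ≤ eigenSum mul a {1, 0, 1 / 4} := by
    simp only [eigenSum, iSup_insert, iSup_singleton]; exact le_trans le_sup_left le_sup_right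
  have mq : eigen mul a (1 / 4) ≤ eigenSum mul a {1, 0, 1 / 4} := by
    simp only [eigenSum, iSup_insert, iSup_singleton]; exact le_trans le_sup_right le_sup_right
  have f1 : μ b1 = b1 := h8 b1 (m1 hb1)
  have f0 : μ b0 = b0 := h8 b0 (m0 hb0)
  have fq : μ bq = bq := h8 bq (mq hbq)
  have ft : μ bt = -bt := h9 bt hbt
  have hbt0 : bt = 0 := by
    have e : b = b1 + (b0 + (bq + bt)) := by rw [e3, e2, e1]
    have e' : μ b = b1 + (b0 + (bq + -bt)) := by
      rw [e, map_add, map_add, map_add, f1, f0, fq, ft]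
    rw [hb, e] at e'
    have : (2 : ℝ) • bt = 0 := by
      have h0 : b1 + (b0 + (bq + bt)) - (b1 + (b0 + (bq + -bt))) = 0 := sub_eq_zero.2 e'
      rw [← h0]; module
    exact (smul_eq_zero.1 this).resolve_left (by norm_num)
  rw [h7] at hb1
  obtain ⟨l, rfl⟩ := Submodule.mem_span_singleton.1 hb1
  have s0 : (0 : ℝ) ∈ majoranaSpectrum := by simp [majoranaSpectrum]
  have sq : (1 / 4 : ℝ) ∈ majoranaSpectrum := by simp [majoranaSpectrum]
  have L00 : monsterLaw (1 / 4 : ℝ) (1 / 32) 0 0 = {0} := by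
    unfold monsterLaw
    rw [if_neg (by norm_num), if_neg (by norm_num), if_neg (by norm_num), if_neg (by norm_num),
      if_pos rfl]
  have L0q : monsterLaw (1 / 4 : ℝ) (1 / 32) 0 (1 / 4) = {1 / 4} := by
    unfold monsterLaw
    rw [if_neg (by norm_num), if_neg (by norm_num), if_neg (by norm_num), if_pos (by norm_num)]
  have Lqq : monsterLaw (1 / 4 : ℝ) (1 / 32) (1 / 4) (1 / 4) = {1, 0} := by
    unfold monsterLaw
    rw [if_neg (by norm_num), if_neg (by norm_num), if_pos (by norm_num)]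
  have F00 := h6 _ s0 _ s0 b0 hb0 b0 hb0
  have F0q := h6 _ s0 _ sq b0 hb0 bq hbq
  have Fqq := h6 _ sq _ sq bq hbq bq hbq
  rw [L00] at F00
  rw [L0q] at F0q
  rw [Lqq] at Fqq
  simp only [eigenSum, iSup_singleton] at F00 F0q
  rw [eigen, Module.End.mem_eigenspace_iff] at F00 F0q hb0 hbq
  refine ⟨l, b0, bq, ?_, by simpa using hb0, hbq, by simpa using F00, F0q, ?_⟩
  · rw [← e1, ← e2, ← e3, hbt0]; abel
  · have h4' : eigenSum mul a {1, 0} ≤ LinearMap.ker ((mul a) ∘ₗ (mul a) - mul a) := by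
      unfold eigenSum
      refine iSup₂_le ?_
      intro c hc z hz
      rw [eigen, Module.End.mem_eigenspace_iff] at hz
      rw [LinearMap.mem_ker, LinearMap.sub_apply, LinearMap.comp_apply, hz, map_smul, hz]
      rcases hc with rfl | hc
      · simp
      · rw [Set.mem_singleton_iff] at hc; subst hc; simp
    have h5' := h4' Fqq
    rw [LinearMap.mem_ker, LinearMap.sub_apply, LinearMap.comp_apply, sub_eq_zero] at h5'
    exact h5'

theorem one_side {V : Type*} [AddCommGroup V] [Module ℝ V] (mul : V →ₗ[ℝ] V →ₗ[ℝ] V)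
    (hcomm : ∀ u v, mul u v = mul v u) (a b s u v : V) (l : ℝ)
    (haa : mul a a = a) (hbb : mul b b = b) (hab : mul a b = s)
    (hdec : b = l • a + u + v) (hu : mul a u = 0) (hv : mul a v = (1 / 4 : ℝ) • v)
    (F00 : mul a (mul u u) = 0) (F0q : mul a (mul u v) = (1 / 4 : ℝ) • mul u v)
    (Fqq : mul a (mul a (mul v v)) = mul a (mul v v)) :
    v = (4 : ℝ) • s - (4 * l) • a ∧ u = b + (3 * l) • a - (4 : ℝ) • s ∧
    mul a s = (3 * l / 4) • a + (1 / 4 : ℝ) • s ∧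
    mul u v = (1 / 2 - l / 4) • v ∧ (l ^ 2) • a + mul u u + mul v v = l • a + u := by
  have hs : s = l • a + (1 / 4 : ℝ) • v := by
    rw [← hab, hdec]
    simp only [map_add, map_smul, haa, hu, hv]
    module
  have hv' : v = (4 : ℝ) • s - (4 * l) • a := by rw [hs]; module
  have hu' : u = b + (3 * l) • a - (4 : ℝ) • s := by rw [hs, hdec]; module
  have has : mul a s = (3 * l / 4) • a + (1 / 4 : ℝ) • s := by
    rw [hs]
    simp only [map_add, map_smul, haa, hv]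
    module
  have hua : mul u a = 0 := by rw [hcomm, hu]
  have hva : mul v a = (1 / 4 : ℝ) • v := by rw [hcomm, hv]
  have hvu : mul v u = mul u v := hcomm v u
  have hsq : b = (l ^ 2) • a + (l / 2) • v + mul u u + (2 : ℝ) • mul u v + mul v v := by
    have h0 : mul b b = (l ^ 2) • a + (l / 2) • v + mul u u + (2 : ℝ) • mul u v + mul v v := by
      rw [hdec]
      simp only [map_add, map_smul, LinearMap.add_apply, LinearMap.smul_apply, haa, hu, hv, hua, hva, hvu]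
      module
    rw [← h0, hbb]
  obtain ⟨p, hp⟩ : ∃ p : V, p = (l ^ 2) • a + mul u u + mul v v - l • a - u := ⟨_, rfl⟩
  obtain ⟨q, hq⟩ : ∃ q : V, q = (l / 2) • v + (2 : ℝ) • mul u v - v := ⟨_, rfl⟩
  have hpq : p = -q := by
    have h0 : p + q = ((l ^ 2) • a + (l / 2) • v + mul u u + (2 : ℝ) • mul u v + mul v v) - (l • a + u + v) := by
      rw [hp, hq]; module
    rw [← hsq, ← hdec, sub_self] at h0
    exact eq_neg_of_add_eq_zero_left h0
  have hadq : mul a q = (1 / 4 : ℝ) • q := by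
    rw [hq]
    simp only [map_add, map_sub, map_smul, hv, F0q]
    module
  have hadp : mul a (mul a p) = mul a p := by
    rw [hp]
    simp only [map_add, map_sub, map_smul, haa, hu, F00, Fqq, map_zero]
  have hq0 : q = 0 := by
    rw [hpq] at hadp
    simp only [map_neg, hadq, map_smul] at hadp
    have : (3 / 16 : ℝ) • q = 0 := by
      have h0 : -((1 / 4 : ℝ) • (1 / 4 : ℝ) • q) - -((1 / 4 : ℝ) • q) = 0 := sub_eq_zero.2 hadp
      rw [← h0]; module
    exact (smul_eq_zero.1 this).resolve_left (by norm_num)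
  have hp0 : p = 0 := by rw [hpq, hq0, neg_zero]
  refine ⟨hv', hu', has, ?_, ?_⟩
  · have h0 : mul u v - (1 / 2 - l / 4) • v = (1 / 2 : ℝ) • q := by rw [hq]; module
    rw [hq0, smul_zero] at h0
    exact sub_eq_zero.1 h0
  · have h0 : (l ^ 2) • a + mul u u + mul v v - (l • a + u) = p := by rw [hp]; module
    rw [hp0] at h0
    exact sub_eq_zero.1 h0

theorem sq_formula {V : Type*} [AddCommGroup V] [Module ℝ V] (mul : V →ₗ[ℝ] V →ₗ[ℝ] V)
    (hcomm : ∀ u v, mul u v = mul v u) (a b s u v : V) (l : ℝ)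
    (haa : mul a a = a) (hab : mul a b = s)
    (hv : v = (4 : ℝ) • s - (4 * l) • a) (hu : u = b + (3 * l) • a - (4 : ℝ) • s)
    (has : mul a s = (3 * l / 4) • a + (1 / 4 : ℝ) • s) (hbs : mul b s = (3 * l / 4) • b + (1 / 4 : ℝ) • s)
    (huv : mul u v = (1 / 2 - l / 4) • v) :
    (16 : ℝ) • mul s s = (3 * l) • b + (8 * l ^ 2 + 2 * l) • a + (4 * l - 1) • s := by
  have hba : mul b a = s := by rw [hcomm, hab]
  have hsa : mul s a = (3 * l / 4) • a + (1 / 4 : ℝ) • s := by rw [hcomm, has]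
  rw [hu, hv] at huv
  simp only [map_add, map_sub, map_smul, LinearMap.add_apply, LinearMap.sub_apply, LinearMap.smul_apply,
    haa, hab, hba, has, hsa, hbs] at huv
  have h0 := sub_eq_zero.2 huv
  have h1 : (16 : ℝ) • mul s s - ((3 * l) • b + (8 * l ^ 2 + 2 * l) • a + (4 * l - 1) • s) = 0 := by
    rw [← neg_eq_zero, ← h0]
    module
  exact sub_eq_zero.1 h1

/-- Let V be a finite-dimensional real vector space with a commutative bilinear product and a positive-definite symmetric bilinear form that associates with the product and satisfies the Norton inequality (the Majorana setting of the definitions). Let μ₀, μ₁ be commuting Majorana involutions with distinct axial vectors a₀ ≠ a₁ of squared length 1, each involution having no other axial vector. Then either a₀ and a₁ are orthogonal with a₀ ∘ a₁ = 0 (type 2B), or their inner product is 1/8 and, with a₂ = a₀ + a₁ − 8 a₀ ∘ a₁, the vector a₂ is an idempotent and a₀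 ∘ a₂ = (1/8)(a₀ + a₂ − a₁), a₁ ∘ a₂ = (1/8)(a₁ + a₂ − a₀) (type 2A: the three idempotents span a subalgebra with aᵢ ∘ aⱼ = (1/8)(aᵢ + aⱼ − aₖ)). -/
theorem result {V : Type*} [AddCommGroup V] [Module ℝ V] [FiniteDimensional ℝ V] (mul : V →ₗ[ℝ] V →ₗ[ℝ] V) (B : LinearMap.BilinForm ℝ V) (hV : Cfsg.Axial.IsMajoranaAmbient mul B) (μ₀ μ₁ : V ≃ₗ[ℝ] V) (a₀ a₁ : V) (h₀ : Cfsg.Axial.IsMajoranaPair mul B μ₀ a₀) (h₁ : Cfsg.Axial.IsMajoranaPair mul B μ₁ a₁) (hu₀ : ∀ a : V, Cfsg.Axial.IsMajoranaPair mul B μ₀ a → a = a₀) (hu₁ : ∀ a : V, Cfsg.Axial.IsMajoranaPair mul B μ₁ a → a = a₁) (hn₀ : B a₀ a₀ = 1) (hn₁ : B a₁ a₁ = 1) (hc : μ₀ * μ₁ = μ₁ * μ₀) (hne : a₀ ≠ a₁) : (B a₀ a₁ = 0 ∧ mul a₀ a₁ = 0) ∨ (B a₀ a₁ = 1 / 8 ∧ mul (a₀ + a₁ - (8 : ℝ) • mul a₀ a₁) (a₀ + a₁ - (8 : ℝ) • mul a₀ a₁) = a₀ + a₁ - (8 : ℝ) • mul a₀ a₁ ∧ mul a₀ (a₀ + a₁ - (8 : ℝ) • mul a₀ a₁) = (1 / 8 : ℝ) • (a₀ + (a₀ + a₁ - (8 : ℝ) • mul a₀ a₁) - a₁) ∧ mul a₁ (a₀ + a₁ -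 (8 : ℝ) • mul a₀ a₁) = (1 / 8 : ℝ) • (a₁ + (a₀ + a₁ - (8 : ℝ) • mul a₀ a₁) - a₀)) := by
  obtain ⟨hcomm, hsym, hpos, hassoc, -⟩ := hV
  have hcomm' : ∀ u v, mul u v = mul v u := hcomm
  have fix1 : μ₀ a₁ = a₁ := hu₁ _ (pair_transport μ₀ h₀.1 h₁ hc)
  have fix0 : μ₁ a₀ = a₀ := hu₀ _ (pair_transport μ₁ h₁.1 h₀ hc.symm)
  obtain ⟨l, u, v, hdec, hu, hv, F00, F0q, Fqq⟩ := decomp h₀ a₁ fix1
  obtain ⟨l', u', v', hdec', hu', hv', F00', F0q', Fqq'⟩ := decomp h₁ a₀ fix0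
  have haa : mul a₀ a₀ = a₀ := h₀.2.2.1.1.2.1
  have hbb : mul a₁ a₁ = a₁ := h₁.2.2.1.1.2.1
  have orth0 : ∀ a w : V, mul a a = a → mul a w = 0 → B a w = 0 := by
    intro a w ha hw
    have := hassoc a a w
    rw [ha, hw, map_zero] at this
    exact this.symm
  have orthq : ∀ a w : V, mul a a = a → mul a w = (1 / 4 : ℝ) • w → B a w = 0 := by
    intro a w ha hw
    have := hassoc a a w
    rw [ha, hw, map_smul, smul_eq_mul] at this
    linarith
  have hl : B a₀ a₁ = l := by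
    rw [hdec]
    simp only [map_add, map_smul, hn₀, orth0 a₀ u haa hu, orthq a₀ v haa hv, smul_eq_mul]
    ring
  have hl' : B a₁ a₀ = l' := by
    rw [hdec']
    simp only [map_add, map_smul, hn₁, orth0 a₁ u' hbb hu', orthq a₁ v' hbb hv', smul_eq_mul]
    ring
  have hll : l' = l := by rw [← hl, ← hl', hsym]
  subst hll
  obtain ⟨s, hs⟩ : ∃ s : V, s = mul a₀ a₁ := ⟨_, rfl⟩
  have hab : mul a₀ a₁ = s := hs.symm
  have hba : mul a₁ a₀ = s := by rw [hcomm', hab]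
  obtain ⟨A1, A2, A3, A4, A5⟩ := one_side mul hcomm' a₀ a₁ s u v l' haa hbb hab hdec hu hv F00 F0q Fqq
  obtain ⟨B1, B2, B3, B4, B5⟩ := one_side mul hcomm' a₁ a₀ s u' v' l' hbb haa hba hdec' hu' hv' F00' F0q' Fqq'
  have S1 := sq_formula mul hcomm' a₀ a₁ s u v l' haa hab A1 A2 A3 B3 A4
  have S2 := sq_formula mul hcomm' a₁ a₀ s u' v' l' hbb hba B1 B2 B3 A3 B4
  have hkey : (8 * l' ^ 2 - l') • (a₀ - a₁) = 0 := by
    have h0 : ((3 * l') • a₁ + (8 * l' ^ 2 + 2 * l') • a₀ + (4 * l' - 1) • s)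
        - ((3 * l') • a₀ + (8 * l' ^ 2 + 2 * l') • a₁ + (4 * l' - 1) • s) = 0 := by
      rw [← S1, ← S2, sub_self]
    rw [← h0]; module
  have hlval : l' = 0 ∨ l' = 1 / 8 := by
    rcases smul_eq_zero.1 hkey with h | h
    · have : l' * (8 * l' - 1) = 0 := by ring_nf; ring_nf at h; linarith
      rcases mul_eq_zero.1 this with h' | h'
      · left; exact h'
      · right; linarith
    · exact absurd (sub_eq_zero.1 h) hne
  rw [hab, hl]
  rcases hlval with h0 | h8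
  · left
    refine ⟨h0, ?_⟩
    have e1 := congrArg (B a₀) A5
    simp only [map_add, map_smul, h0] at e1
    have e2 : B a₀ (mul u u) = 0 := by rw [hassoc, hu]; simp
    have e3 : B a₀ (mul v v) = (1 / 4 : ℝ) * B v v := by rw [hassoc, hv]; simp
    rw [e2, e3, orth0 a₀ u haa hu] at e1
    have hvv : B v v = 0 := by
      simp at e1
      linarith
    have hv0 : v = 0 := by
      by_contra hne'
      have := hpos v hne'
      linarith
    rw [hv0, h0] at A1
    have : (4 : ℝ) • s = 0 := by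
      have h1 : (4 : ℝ) • s - (4 * 0 : ℝ) • a₀ = 0 := A1.symm
      rw [← h1]; module
    exact (smul_eq_zero.1 this).resolve_left (by norm_num)
  · right
    refine ⟨h8, ?_⟩
    subst h8
    have hT : mul s s = (3 / 128 : ℝ) • a₀ + (3 / 128 : ℝ) • a₁ - (1 / 32 : ℝ) • s := by
      have h1 : mul s s = (1 / 16 : ℝ) • ((16 : ℝ) • mul s s) := by module
      rw [h1, S1]; module
    have hsa : mul s a₀ = (3 * (1 / 8) / 4 : ℝ) • a₀ + (1 / 4 : ℝ) • s := by rw [hcomm', A3]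
    have hsb : mul s a₁ = (3 * (1 / 8) / 4 : ℝ) • a₁ + (1 / 4 : ℝ) • s := by rw [hcomm', B3]
    refine ⟨?_, ?_, ?_⟩
    · simp only [map_add, map_sub, map_smul, LinearMap.add_apply, LinearMap.sub_apply, LinearMap.smul_apply,
        haa, hbb, hab, hba, A3, B3, hsa, hsb, hT]
      module
    · simp only [map_add, map_sub, map_smul, LinearMap.add_apply, LinearMap.sub_apply, LinearMap.smul_apply,
        haa, hbb, hab, hba, A3, B3, hsa, hsb, hT]
      module
    · simp only [map_add, map_sub, map_smul, LinearMap.add_apply, LinearMap.sub_apply, LinearMap.smul_apply,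
        haa, hbb, hab, hba, A3, B3, hsa, hsb, hT]
      module

end Cfsg.Agent.S5545
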