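import Cfsg.Statements.S5550
import Cfsg.Agent.Lib.Helper34.GolaySyndrome

set_option autoImplicit false
open Cfsg

namespace Cfsg.Agent.S5550

/-- Let u be a word of the length-24 binary Golay code of the definitions (possibly zero or all-ones) and w any binary word of length 24 outside the code. Then some automorphism of the code (a coordinate permutation preserving it) fixes u but moves w to a word not congruent to w modulo the code: the stabilizer of a codeword fixes no non-zero element of the quotient of the space of all words by the code. -/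
theorem result (u : (Cfsg.GolayPt → ZMod 2)) (hu : u ∈ Cfsg.golayCode) (w : (Cfsg.GolayPt → ZMod 2)) (hw : w ∉ Cfsg.golayCode) : ∃ σ ∈ Cfsg.M24, (fun p => u (σ.symm p)) = u ∧ (fun p => w (σ.symm p)) - w ∉ Cfsg.golayCode := by
  obtain ⟨g, hg, h1, h2⟩ := Cfsg.Agent.Lib.Helper34.stabilizer_moves
    ((Cfsg.Agent.Lib.Helper34.mem_code_iff_support u).1 hu) (Cfsg.support₂ w)
    (fun h => hw ((Cfsg.Agent.Lib.Helper34.mem_code_iff_support w).2 h))
  refine ⟨g, hg, ?_, ?_⟩
  · have := Cfsg.Agent.Lib.Helper34.act_ind g (Cfsg.support₂ u)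
    rw [h1, Cfsg.Agent.Lib.Helper34.ind_support] at this
    exact this
  · have e := Cfsg.Agent.Lib.Helper34.act_ind g (Cfsg.support₂ w)
    rw [Cfsg.Agent.Lib.Helper34.ind_support] at e
    rw [e]
    intro hc
    apply h2
    rw [← Cfsg.Agent.Lib.Helper34.ind_mem_code_iff, Cfsg.Agent.Lib.Helper34.ind_symmDiff,
      Cfsg.Agent.Lib.Helper34.ind_support]
    have e2 : ∀ v : Cfsg.GolayPt → ZMod 2, v + w = v - w := by
      intro v
      funext p
      simp only [Pi.add_apply, Pi.sub_apply]
      exact (CharTwo.sub_eq_add _ _).symm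
    rw [e2]
    exact hc

end Cfsg.Agent.S5550
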