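import Cfsg.Statements.S5599
import Cfsg.Agent.Lib.Helper94.GolayClassFacts

set_option autoImplicit false
open scoped Pointwise
open Cfsg

namespace Cfsg.Agent.S5599

open Cfsg.Agent.Lib.Helper94

theorem mem_M22 (x : Equiv.Perm Cfsg.GolayPt) :
    x ∈ Cfsg.Spor.M22 ↔ x ∈ Cfsg.M24 ∧ x none = none ∧ x (some 0) = some 0 := by
  simp only [Cfsg.Spor.M22, Cfsg.Spor.M23, Subgroup.mem_inf, MulAction.mem_stabilizer_iff, Equiv.Perm.smul_def,
    and_assoc]

theorem pair_cases {b : Equiv.Perm Cfsg.GolayPt}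
    (h : b • ({none, some 0} : Finset Cfsg.GolayPt) = {none, some 0}) :
    (b none = none ∧ b (some 0) = some 0) ∨ (b none = some 0 ∧ b (some 0) = none) := by
  have h1 : b none ∈ ({none, some 0} : Finset Cfsg.GolayPt) := by
    rw [← h]; exact Finset.smul_mem_smul_finset (by simp)
  have h2 : b (some 0) ∈ ({none, some 0} : Finset Cfsg.GolayPt) := by
    rw [← h]; exact Finset.smul_mem_smul_finset (by simp)
  have hne : b none ≠ b (some 0) := fun e => by
    have := b.injective e
    exact absurd this (by simp)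
  simp only [Finset.mem_insert, Finset.mem_singleton] at h1 h2
  rcases h1 with h1 | h1 <;> rcases h2 with h2 | h2
  · exact absurd (h1.trans h2.symm) hne
  · exact Or.inl ⟨h1, h2⟩
  · exact Or.inr ⟨h1, h2⟩
  · exact absurd (h1.trans h2.symm) hne

theorem pair_smul {b : Equiv.Perm Cfsg.GolayPt} (h1 : b none = some 0) (h2 : b (some 0) = none) :
    b • ({none, some 0} : Finset Cfsg.GolayPt) = {none, some 0} := by
  rw [Finset.smul_finset_insert, Finset.smul_finset_singleton]
  show ({b none, b (some 0)} : Finset Cfsg.GolayPt) = _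
  rw [h1, h2, Finset.pair_comm]

/-- an element of the group centralising the two-point stabiliser and interchanging the two points does not
exist. -/
theorem no_central_swap (c : Equiv.Perm Cfsg.GolayPt) (hc : c ∈ Cfsg.M24) (h1 : c none = some 0)
    (h2 : c (some 0) = none) (hcomm : ∀ x ∈ Cfsg.Spor.M22, c * x = x * c) : False := by
  have hfix : ∀ p : Cfsg.GolayPt, p ≠ none → p ≠ some 0 → c p = p := by
    intro p hp1 hp2
    by_contra hne
    have hq1 : c p ≠ none := fun h => hp2 (c.injective (h.trans h2.symm))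
    have hq2 : c p ≠ some 0 := fun h => hp1 (c.injective (h.trans h1.symm))
    obtain ⟨r, hr⟩ := exists_not_mem {none, some 0, p, c p} (lt_of_le_of_lt Finset.card_le_four (by norm_num))
    simp only [Finset.mem_insert, Finset.mem_singleton, not_or] at hr
    have n0 : (none : Cfsg.GolayPt) ≠ some 0 := by simp
    obtain ⟨x, hx, x1, x2, x3, x4, _⟩ := five_trans none (some 0) p (c p) r none (some 0) p r (c p)
      (by
        simp only [List.nodup_cons, List.mem_cons, List.not_mem_nil, or_false, not_or, not_false_eq_true,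
          List.nodup_nil, and_true]
        exact ⟨⟨n0, hp1.symm, hq1.symm, fun h => hr.1 h.symm⟩, ⟨hp2.symm, hq2.symm, fun h => hr.2.1 h.symm⟩,
          ⟨fun h => hne h.symm, fun h => hr.2.2.1 h.symm⟩, fun h => hr.2.2.2 h.symm⟩)
      (by
        simp only [List.nodup_cons, List.mem_cons, List.not_mem_nil, or_false, not_or, not_false_eq_true,
          List.nodup_nil, and_true]
        exact ⟨⟨n0, hp1.symm, fun h => hr.1 h.symm, hq1.symm⟩, ⟨hp2.symm, fun h => hr.2.1 h.symm, hq2.symm⟩,
          ⟨fun h => hr.2.2.1 h.symm, fun h => hne h.symm⟩, hr.2.2.2⟩)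
    have hxc := hcomm x ((mem_M22 x).2 ⟨hx, x1, x2⟩)
    have := congrArg (fun f : Equiv.Perm Cfsg.GolayPt => f p) hxc
    simp only [Equiv.Perm.mul_apply, x3, x4] at this
    exact hr.2.2.2 this.symm
  have hcc : c * c = 1 := by
    apply Equiv.ext
    intro p
    rw [Equiv.Perm.mul_apply]
    by_cases hp1 : p = none
    · rw [hp1, h1, h2]; rfl
    · by_cases hp2 : p = some 0
      · rw [hp2, h2, h1]; rfl
      · rw [hfix p hp1 hp2, hfix p hp1 hp2]; rfl
  have hc1 : c ≠ 1 := by
    intro h
    rw [h] at h1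
    exact absurd h1 (by simp)
  have ho : orderOf c = 2 := orderOf_eq_prime (by rw [sq, hcc]) hc1
  rcases invol_fixed hc ho with ⟨h8, _⟩ | ⟨h0, _⟩
  · have h8' : (Finset.univ.filter fun p => c p = p).card = 8 := h8.2
    have hsub : Finset.univ \ {none, some 0} ⊆ Finset.univ.filter fun p => c p = p := by
      intro p hp
      simp only [Finset.mem_sdiff, Finset.mem_univ, true_and, Finset.mem_insert, Finset.mem_singleton,
        not_or] at hp
      simp only [Finset.mem_filter, Finset.mem_univ, true_and]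
      exact hfix p hp.1 hp.2
    have := Finset.card_le_card hsub
    rw [h8', Finset.card_sdiff_of_subset (Finset.subset_univ _), Finset.card_univ, card_golayPt] at this
    have h2' : ({none, some 0} : Finset Cfsg.GolayPt).card ≤ 2 := Finset.card_le_two
    omega
  · exact h0 (some 1) (hfix (some 1) (by simp) (by decide))

/-- In the automorphism group of the length-24 code, the two-point Mathieu group (permutations of the code's group fixing the extra point and the residue 0) has index 2 in the setwise stabiliser of that pair of points, and an element of the code's group interchanging the two points normalises the two-point group and induces on it, by conjugation, an automorphism that is not inner. -/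
theorem result (g : Equiv.Perm Cfsg.GolayPt) (hg : g ∈ Cfsg.M24) (h₁ : g none = some 0) (h₂ : g (some 0) = none) : Cfsg.Spor.M22.relIndex (Cfsg.M24 ⊓ MulAction.stabilizer (Equiv.Perm Cfsg.GolayPt) ({none, some 0} : Finset Cfsg.GolayPt)) = 2 ∧ (∀ x ∈ Cfsg.Spor.M22, g * x * g⁻¹ ∈ Cfsg.Spor.M22) ∧ ¬ ∃ h ∈ Cfsg.Spor.M22, ∀ x ∈ Cfsg.Spor.M22, g * x * g⁻¹ = h * x * h⁻¹ := by
  have hginv1 : g⁻¹ none = some 0 := by rw [Equiv.Perm.inv_eq_iff_eq, h₂]
  have hginv2 : g⁻¹ (some 0) = none := by rw [Equiv.Perm.inv_eq_iff_eq, h₁]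
  refine ⟨?_, ?_, ?_⟩
  · rw [Subgroup.relIndex_eq_two_iff_exists_notMem_and]
    refine ⟨g, ⟨hg, pair_smul h₁ h₂⟩, ?_, ?_⟩
    · intro h
      have := ((mem_M22 g).1 h).2.1
      rw [h₁] at this
      exact absurd this (by simp)
    · rintro b ⟨hb, hbs⟩
      rcases pair_cases hbs with ⟨b1, b2⟩ | ⟨b1, b2⟩
      · exact Or.inr ((mem_M22 b).2 ⟨hb, b1, b2⟩)
      · left
        rw [mem_M22]
        refine ⟨Cfsg.M24.mul_mem hb hg, ?_, ?_⟩
        · rw [Equiv.Perm.mul_apply, h₁, b2]
        · rw [Equiv.Perm.mul_apply, h₂, b1]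
  · intro x hx
    obtain ⟨hxM, x1, x2⟩ := (mem_M22 x).1 hx
    rw [mem_M22]
    refine ⟨conj_mem_M24 hg hxM, ?_, ?_⟩
    · rw [Equiv.Perm.mul_apply, Equiv.Perm.mul_apply, hginv1, x2, h₂]
    · rw [Equiv.Perm.mul_apply, Equiv.Perm.mul_apply, hginv2, x1, h₁]
  · rintro ⟨h, hh, hx⟩
    obtain ⟨hhM, hh1, hh2⟩ := (mem_M22 h).1 hh
    have hhinv1 : h⁻¹ none = none := by rw [Equiv.Perm.inv_eq_iff_eq, hh1]
    have hhinv2 : h⁻¹ (some 0) = some 0 := by rw [Equiv.Perm.inv_eq_iff_eq, hh2]
    apply no_central_swap (h⁻¹ * g) (Cfsg.M24.mul_mem (Cfsg.M24.inv_mem hhM) hg)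
    · rw [Equiv.Perm.mul_apply, h₁, hhinv2]
    · rw [Equiv.Perm.mul_apply, h₂, hhinv1]
    · intro x hxm
      have e := hx x hxm
      calc h⁻¹ * g * x = h⁻¹ * (g * x * g⁻¹) * g := by group
        _ = h⁻¹ * (h * x * h⁻¹) * g := by rw [e]
        _ = x * (h⁻¹ * g) := by group

end Cfsg.Agent.S5599
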