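import Cfsg.Statements.S5600
import Cfsg.Agent.Lib.Helper94.SixSets
import Cfsg.Agent.Lib.Helper94.PermIso

set_option autoImplicit false
open scoped Pointwise
open Cfsg

namespace Cfsg.Agent.S5600

open Cfsg.Agent.Lib.Helper94

theorem card_fix_conj (E : Finset Cfsg.GolayPt) (l : List ℕ) {k : Equiv.Perm Cfsg.GolayPt} (hk : k ∈ Cfsg.M24)
    (h : ∀ p, p ∈ E ↔ ∃ t ∈ l, k p = pt t) :
    Nat.card {g : Equiv.Perm Cfsg.GolayPt // g ∈ Cfsg.M24 ∧ ∀ p ∈ E, g p = p} = Nat.card (fixG l) := by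
  apply Nat.card_congr
  apply Equiv.subtypeEquiv (MulAut.conj k).toEquiv
  intro g
  show _ ↔ k * g * k⁻¹ ∈ fixG l
  rw [mem_fixG, Cfsg.M24.mul_mem_cancel_right (Cfsg.M24.inv_mem hk), Cfsg.M24.mul_mem_cancel_left hk]
  apply and_congr_right
  intro _
  constructor
  · intro hf t ht
    have hp : k⁻¹ (pt t) ∈ E := (h _).2 ⟨t, ht, by simp⟩
    have e : pt t = k (k⁻¹ (pt t)) := by simp
    rw [e, conj_apply, hf _ hp]
  · intro hf p hp
    obtain ⟨t, ht, e⟩ := (h p).1 hp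
    have := hf t ht
    rw [← e, conj_apply] at this
    exact k.injective this

theorem main6 (x1 x2 x3 x4 x5 x6 : Cfsg.GolayPt) (hnd : [x1, x2, x3, x4, x5, x6].Nodup)
    (E : Finset Cfsg.GolayPt) (hE : E = {x1, x2, x3, x4, x5, x6}) :
    (∀ σ : Equiv.Perm ↥E, ∃ g ∈ Cfsg.M24, ∀ p : ↥E, g p = σ p) ∧
    ((∃ o ∈ Cfsg.octads, E ⊆ o) →
      Nat.card {g : Equiv.Perm Cfsg.GolayPt // g ∈ Cfsg.M24 ∧ ∀ p ∈ E, g p = p} = 16) ∧
    ((¬ ∃ o ∈ Cfsg.octads, E ⊆ o) →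
      Nat.card {g : Equiv.Perm Cfsg.GolayPt // g ∈ Cfsg.M24 ∧ ∀ p ∈ E, g p = p} = 3) := by
  have hmem : ∀ x, x ∈ E ↔ x = x1 ∨ x = x2 ∨ x = x3 ∨ x = x4 ∨ x = x5 ∨ x = x6 := by
    intro x; rw [hE]; simp only [Finset.mem_insert, Finset.mem_singleton]
  obtain ⟨k, hk, k1, k2, k3, k4, k5, hcase⟩ := six_to_base x1 x2 x3 x4 x5 x6 hnd
  rw [← hE] at hcase
  refine ⟨?_, ?_, ?_⟩
  · intro σ
    have m1 : x1 ∈ E := (hmem _).2 (by simp)
    have m2 : x2 ∈ E := (hmem _).2 (by simp)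
    have m3 : x3 ∈ E := (hmem _).2 (by simp)
    have m4 : x4 ∈ E := (hmem _).2 (by simp)
    have m5 : x5 ∈ E := (hmem _).2 (by simp)
    have m6 : x6 ∈ E := (hmem _).2 (by simp)
    have hnd' : [((σ ⟨x1, m1⟩ : ↥E) : Cfsg.GolayPt), (σ ⟨x2, m2⟩ : ↥E), (σ ⟨x3, m3⟩ : ↥E), (σ ⟨x4, m4⟩ : ↥E),
        (σ ⟨x5, m5⟩ : ↥E), (σ ⟨x6, m6⟩ : ↥E)].Nodup := by
      have e : [((σ ⟨x1, m1⟩ : ↥E) : Cfsg.GolayPt), (σ ⟨x2, m2⟩ : ↥E), (σ ⟨x3, m3⟩ : ↥E), (σ ⟨x4, m4⟩ : ↥E),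
          (σ ⟨x5, m5⟩ : ↥E), (σ ⟨x6, m6⟩ : ↥E)] =
          ([⟨x1, m1⟩, ⟨x2, m2⟩, ⟨x3, m3⟩, ⟨x4, m4⟩, ⟨x5, m5⟩, ⟨x6, m6⟩] : List ↥E).map
            (fun z => ((σ z : ↥E) : Cfsg.GolayPt)) := rfl
      rw [e]
      apply List.Nodup.map (fun a b hab => σ.injective (Subtype.ext hab))
      have e2 : [x1, x2, x3, x4, x5, x6] =
          ([⟨x1, m1⟩, ⟨x2, m2⟩, ⟨x3, m3⟩, ⟨x4, m4⟩, ⟨x5, m5⟩, ⟨x6, m6⟩] : List ↥E).map Subtype.val := rfl
      rw [e2] at hnd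
      exact List.Nodup.of_map _ hnd
    obtain ⟨k', hk', l1, l2, l3, l4, l5, hcase'⟩ := six_to_base _ _ _ _ _ _ hnd'
    have hY : ({((σ ⟨x1, m1⟩ : ↥E) : Cfsg.GolayPt), ((σ ⟨x2, m2⟩ : ↥E) : Cfsg.GolayPt),
        ((σ ⟨x3, m3⟩ : ↥E) : Cfsg.GolayPt), ((σ ⟨x4, m4⟩ : ↥E) : Cfsg.GolayPt),
        ((σ ⟨x5, m5⟩ : ↥E) : Cfsg.GolayPt), ((σ ⟨x6, m6⟩ : ↥E) : Cfsg.GolayPt)} : Finset Cfsg.GolayPt) = E := by
      ext x
      simp only [Finset.mem_insert, Finset.mem_singleton]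
      constructor
      · rintro (rfl | rfl | rfl | rfl | rfl | rfl) <;> exact Subtype.coe_prop _
      · intro hx
        have hz := (σ⁻¹ ⟨x, hx⟩ : ↥E).2
        have hσ : ∀ (y : Cfsg.GolayPt) (hy : y ∈ E), ((σ⁻¹ ⟨x, hx⟩ : ↥E) : Cfsg.GolayPt) = y →
            x = ((σ ⟨y, hy⟩ : ↥E) : Cfsg.GolayPt) := by
          intro y hy e
          have : (σ⁻¹ ⟨x, hx⟩ : ↥E) = ⟨y, hy⟩ := Subtype.ext e
          rw [← this]; simp
        rcases (hmem _).1 hz with e | e | e | e | e | e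
        · exact Or.inl (hσ _ m1 e)
        · exact Or.inr (Or.inl (hσ _ m2 e))
        · exact Or.inr (Or.inr (Or.inl (hσ _ m3 e)))
        · exact Or.inr (Or.inr (Or.inr (Or.inl (hσ _ m4 e))))
        · exact Or.inr (Or.inr (Or.inr (Or.inr (Or.inl (hσ _ m5 e)))))
        · exact Or.inr (Or.inr (Or.inr (Or.inr (Or.inr (hσ _ m6 e)))))
    rw [hY] at hcase'
    have h66 : k x6 = k' ((σ ⟨x6, m6⟩ : ↥E) : Cfsg.GolayPt) := by
      rcases hcase with ⟨a, ha⟩ | ⟨a, ha⟩ <;> rcases hcase' with ⟨b, hb⟩ | ⟨b, hb⟩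
      · rw [a, b]
      · exact absurd ha hb
      · exact absurd hb ha
      · rw [a, b]
    refine ⟨k'⁻¹ * k, Cfsg.M24.mul_mem (Cfsg.M24.inv_mem hk') hk, ?_⟩
    rintro ⟨p, hp⟩
    show (k'⁻¹ * k) p = _
    rw [Equiv.Perm.mul_apply, Equiv.Perm.inv_eq_iff_eq]
    rcases (hmem p).1 hp with rfl | rfl | rfl | rfl | rfl | rfl
    · rw [k1, l1]
    · rw [k2, l2]
    · rw [k3, l3]
    · rw [k4, l4]
    · rw [k5, l5]
    · rw [h66]
  · intro ho
    rcases hcase with ⟨k6, _⟩ | ⟨_, hno⟩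
    · rw [card_fix_conj E [5, 3, 2, 1, 0, 23] hk, card_fixG6']
      intro p
      rw [hmem]
      simp only [List.mem_cons, List.not_mem_nil, or_false, exists_eq_or_imp, exists_eq_left]
      rw [← k1, ← k2, ← k3, ← k4, ← k5, ← k6]
      simp only [EmbeddingLike.apply_eq_iff_eq]
      tauto
    · exact absurd ho hno
  · intro hno
    rcases hcase with ⟨_, ho⟩ | ⟨k6, _⟩
    · exact absurd ho hno
    · rw [card_fix_conj E [4, 3, 2, 1, 0, 23] hk, card_fixG6]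
      intro p
      rw [hmem]
      simp only [List.mem_cons, List.not_mem_nil, or_false, exists_eq_or_imp, exists_eq_left]
      rw [← k1, ← k2, ← k3, ← k4, ← k5, ← k6]
      simp only [EmbeddingLike.apply_eq_iff_eq]
      tauto

theorem smul_eq_of_maps {g : Equiv.Perm Cfsg.GolayPt} {E : Finset Cfsg.GolayPt} (h : ∀ p ∈ E, g p ∈ E) :
    g • E = E := by
  apply Finset.eq_of_subset_of_card_le
  · intro x hx
    obtain ⟨y, hy, rfl⟩ := Finset.mem_smul_finset.1 hx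
    exact h y hy
  · rw [Finset.card_smul_finset]

theorem card_setwise (E : Finset Cfsg.GolayPt) (hE : E.card = 6)
    (hs : ∀ σ : Equiv.Perm ↥E, ∃ g ∈ Cfsg.M24, ∀ p : ↥E, g p = σ p)
    (h3 : Nat.card {g : Equiv.Perm Cfsg.GolayPt // g ∈ Cfsg.M24 ∧ ∀ p ∈ E, g p = p} = 3) :
    Nat.card ↥(MulAction.stabilizer Cfsg.M24 E) = 2160 := by
  have hA : ∀ (g : ↥(MulAction.stabilizer Cfsg.M24 E)) (x : Cfsg.GolayPt),
      ((Cfsg.M24.subtype.comp (Subgroup.subtype _)) g) x ∈ E ↔ x ∈ E := by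
    intro g x
    have h1 : ((g : ↥Cfsg.M24) : Equiv.Perm Cfsg.GolayPt) • E = E := g.2
    show ((g : ↥Cfsg.M24) : Equiv.Perm Cfsg.GolayPt) x ∈ E ↔ x ∈ E
    have h2 := Finset.smul_mem_smul_finset_iff (s := E) (b := x) ((g : ↥Cfsg.M24) : Equiv.Perm Cfsg.GolayPt)
    rw [h1] at h2
    exact h2
  set ρ := restrictHom (Cfsg.M24.subtype.comp (Subgroup.subtype (MulAction.stabilizer Cfsg.M24 E))) E hA with hρ
  have hsurj : Function.Surjective ρ := by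
    intro σ
    obtain ⟨g, hg, hgσ⟩ := hs σ
    have hgE : g • E = E := smul_eq_of_maps (fun p hp => by rw [hgσ ⟨p, hp⟩]; exact Subtype.coe_prop _)
    refine ⟨⟨⟨g, hg⟩, hgE⟩, ?_⟩
    apply Equiv.ext
    intro x
    apply Subtype.ext
    exact hgσ x
  have h1 := Subgroup.card_mul_index ρ.ker
  rw [Subgroup.index_ker, MonoidHom.range_eq_top.2 hsurj, Subgroup.card_top, Nat.card_eq_fintype_card (α := Equiv.Perm ↥E),
    Fintype.card_perm, Fintype.card_coe, hE] at h1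
  have hker : Nat.card ρ.ker = 3 := by
    rw [← h3]
    apply Nat.card_congr
    exact {
      toFun := fun x => ⟨((x.1 : ↥Cfsg.M24) : Equiv.Perm Cfsg.GolayPt), (x.1 : ↥Cfsg.M24).2, fun p hp => by
        have := congrArg (fun τ : Equiv.Perm ↥E => ((τ ⟨p, hp⟩ : ↥E) : Cfsg.GolayPt)) (MonoidHom.mem_ker.1 x.2)
        exact this⟩
      invFun := fun g => ⟨⟨⟨g.1, g.2.1⟩, smul_eq_of_maps (fun p hp => by rw [g.2.2 p hp]; exact hp)⟩, by
        rw [MonoidHom.mem_ker]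
        apply Equiv.ext
        intro p
        apply Subtype.ext
        exact g.2.2 p.1 p.2⟩
      left_inv := fun _ => rfl
      right_inv := fun _ => rfl }
  rw [hker] at h1
  have : Nat.factorial 6 = 720 := by decide
  omega

/-- Although the group of the length-24 code is only 5-transitive on the 24 points, it induces the full symmetric group on every 6-element subset: every permutation of a 6-set E is the restriction of an element of the group mapping E to itself. The pointwise stabiliser of E has order 16 when E lies in an octad and order 3 otherwise; in the latter case the setwise stabiliser of E has order 2160. -/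
theorem result (E : Finset Cfsg.GolayPt) (hE : E.card = 6) : (∀ σ : Equiv.Perm ↥E, ∃ g ∈ Cfsg.M24, ∀ p : ↥E, g p = σ p) ∧ ((∃ o ∈ Cfsg.octads, E ⊆ o) → Nat.card {g : Equiv.Perm Cfsg.GolayPt // g ∈ Cfsg.M24 ∧ ∀ p ∈ E, g p = p} = 16) ∧ ((¬ ∃ o ∈ Cfsg.octads, E ⊆ o) → Nat.card {g : Equiv.Perm Cfsg.GolayPt // g ∈ Cfsg.M24 ∧ ∀ p ∈ E, g p = p} = 3 ∧ Nat.card ↥(MulAction.stabilizer Cfsg.M24 E) = 2160) := by
  obtain ⟨a, t1, ha, e1, h1⟩ := Finset.card_eq_succ.1 hE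
  obtain ⟨b, t2, hb, e2, h2⟩ := Finset.card_eq_succ.1 h1
  obtain ⟨c, t3, hc, e3, h3⟩ := Finset.card_eq_succ.1 h2
  obtain ⟨d, e, f, hde, hdf, hef, e4⟩ := Finset.card_eq_three.1 h3
  subst e4
  subst e3
  subst e2
  simp only [Finset.mem_insert, Finset.mem_singleton, not_or] at ha hb hc
  obtain ⟨r1, r2, r3⟩ := main6 a b c d e f (by
    simp only [List.nodup_cons, List.mem_cons, List.not_mem_nil, or_false, not_or, not_false_eq_true,
      List.nodup_nil, and_true]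
    exact ⟨ha, hb, hc, ⟨hde, hdf⟩, hef⟩) E e1.symm
  exact ⟨r1, r2, fun hno => ⟨r3 hno, card_setwise E hE r1 (r3 hno)⟩⟩

end Cfsg.Agent.S5600
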