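import Cfsg.Statements.S5601
import Cfsg.Agent.Lib.Helper94.GolayClassFacts

set_option autoImplicit false
open scoped Pointwise
open Cfsg

namespace Cfsg.Agent.S5601

open Cfsg.Agent.Lib.Helper94

theorem exists_gen_of_card_prime {G : Type*} [Group G] {p : ℕ} [Fact p.Prime] (X : Subgroup G)
    (h : Nat.card X = p) : ∃ x : G, orderOf x = p ∧ X = Subgroup.zpowers x := by
  have := isCyclic_of_prime_card h
  obtain ⟨g, hg⟩ := IsCyclic.exists_generator (α := X)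
  refine ⟨g, ?_, ?_⟩
  · rw [Subgroup.orderOf_coe, orderOf_eq_card_of_forall_mem_zpowers hg, h]
  · ext y
    constructor
    · intro hy
      obtain ⟨n, hn⟩ := hg ⟨y, hy⟩
      exact ⟨n, by have := congrArg Subtype.val hn; simpa using this⟩
    · rintro ⟨n, rfl⟩
      exact X.zpow_mem g.2 n

theorem fixed_zpowers (x : ↥Cfsg.M24) :
    {p : Cfsg.GolayPt | ∀ y ∈ Subgroup.zpowers x, ((y : ↥Cfsg.M24) : Equiv.Perm Cfsg.GolayPt) p = p}.ncard =
      (Finset.univ.filter fun p => (x : Equiv.Perm Cfsg.GolayPt) p = p).card := by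
  have e : {p : Cfsg.GolayPt | ∀ y ∈ Subgroup.zpowers x, ((y : ↥Cfsg.M24) : Equiv.Perm Cfsg.GolayPt) p = p} =
      ↑(Finset.univ.filter fun p => (x : Equiv.Perm Cfsg.GolayPt) p = p) := by
    ext p
    simp only [Set.mem_ofPred_eq, Finset.coe_filter, Finset.mem_univ, true_and]
    constructor
    · intro h
      exact h x (Subgroup.mem_zpowers x)
    · rintro h y ⟨n, rfl⟩
      simp only [Subgroup.coe_zpow]
      exact Equiv.Perm.zpow_apply_eq_self_of_apply_eq_self h n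
  rw [e, Set.ncard_coe_finset]

theorem conj_zpowers (k x y : ↥Cfsg.M24) (h : k * x * k⁻¹ = y) :
    MulAut.conj k • Subgroup.zpowers x = Subgroup.zpowers y := by
  have e : MulAut.conj k • Subgroup.zpowers x = (Subgroup.zpowers x).map (MulAut.conj k).toMonoidHom := rfl
  rw [e, MonoidHom.map_zpowers, ← h]
  rfl

/-- The group of the length-24 code has exactly two conjugacy classes of subgroups of order 3: a subgroup of order 3 fixes either exactly 6 of the 24 points or none of them, both cases occur, and two subgroups of order 3 with the same number of fixed points are conjugate. -/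
theorem result : (∀ X : Subgroup ↥Cfsg.M24, Nat.card X = 3 → {p : Cfsg.GolayPt | ∀ x ∈ X, ((x : ↥Cfsg.M24) : Equiv.Perm Cfsg.GolayPt) p = p}.ncard = 6 ∨ {p : Cfsg.GolayPt | ∀ x ∈ X, ((x : ↥Cfsg.M24) : Equiv.Perm Cfsg.GolayPt) p = p}.ncard = 0) ∧ (∃ X : Subgroup ↥Cfsg.M24, Nat.card X = 3 ∧ {p : Cfsg.GolayPt | ∀ x ∈ X, ((x : ↥Cfsg.M24) : Equiv.Perm Cfsg.GolayPt) p = p}.ncard = 6) ∧ (∃ X : Subgroup ↥Cfsg.M24, Nat.card X = 3 ∧ {p : Cfsg.GolayPt | ∀ x ∈ X, ((x : ↥Cfsg.M24) : Equiv.Perm Cfsg.GolayPt) p = p}.ncard = 0) ∧ ∀ X Y : Subgroup ↥Cfsg.M24, Nat.card X = 3 → Nat.card Y = 3 → {p : Cfsg.GolayPt | ∀ x ∈ X, ((x : ↥Cfsg.M24) : Equiv.Perm Cfsg.GolayPt) p = p}.ncard = {p : Cfsg.GolayPt | ∀ x ∈ Y, ((x : ↥Cfsg.M24) : Equiv.Perm Cfsg.GolayPt) p = p}.ncard → ∃ k : ↥Cfsg.M24, MulAut.conj k • X = Y := by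
  have : Fact (Nat.Prime 3) := ⟨by norm_num⟩
  refine ⟨?_, ?_, ?_, ?_⟩
  · intro X hX
    obtain ⟨x, hx, rfl⟩ := exists_gen_of_card_prime X hX
    rw [fixed_zpowers]
    rcases ord3_fixed x.2 (by rw [Subgroup.orderOf_coe]; exact hx) with h | h
    · exact Or.inl h.1
    · exact Or.inr (card_fixed_eq_zero h.1)
  · refine ⟨Subgroup.zpowers ⟨permOf xA, permOf_mem_M24 xA_in⟩, ?_, ?_⟩
    · rw [Nat.card_zpowers, ← Subgroup.orderOf_coe]; exact order_xA
    · rw [fixed_zpowers]; exact card_fixed_xA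
  · refine ⟨Subgroup.zpowers ⟨permOf xB, permOf_mem_M24 xB_in⟩, ?_, ?_⟩
    · rw [Nat.card_zpowers, ← Subgroup.orderOf_coe]; exact order_xB
    · rw [fixed_zpowers]; exact card_fixed_eq_zero no_fixed_xB
  · intro X Y hX hY
    obtain ⟨x, hx, rfl⟩ := exists_gen_of_card_prime X hX
    obtain ⟨y, hy, rfl⟩ := exists_gen_of_card_prime Y hY
    rw [fixed_zpowers, fixed_zpowers]
    intro hxy
    have main : ∃ k ∈ Cfsg.M24, k * (x : Equiv.Perm Cfsg.GolayPt) * k⁻¹ = y := by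
      rcases ord3_fixed x.2 (by rw [Subgroup.orderOf_coe]; exact hx) with ⟨a1, k1, hk1, e1⟩ | ⟨a1, k1, hk1, e1⟩ <;>
        rcases ord3_fixed y.2 (by rw [Subgroup.orderOf_coe]; exact hy) with ⟨a2, k2, hk2, e2⟩ | ⟨a2, k2, hk2, e2⟩
      · exact conj_of_same_rep hk1 hk2 e1 e2
      · rw [a1, card_fixed_eq_zero a2] at hxy
        exact absurd hxy (by norm_num)
      · rw [a2, card_fixed_eq_zero a1] at hxy
        exact absurd hxy (by norm_num)
      · exact conj_of_same_rep hk1 hk2 e1 e2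
    obtain ⟨k, hk, e⟩ := main
    exact ⟨⟨k, hk⟩, conj_zpowers _ _ _ (Subtype.ext e)⟩

end Cfsg.Agent.S5601
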