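import Cfsg.Statements.S5604
import Cfsg.Agent.Lib.Helper94.Norm7

set_option autoImplicit false
open scoped Pointwise
open Cfsg

namespace Cfsg.Agent.S5604

open Cfsg.Agent.Lib.Helper94

/-- the element of order seven inside the group. -/
noncomputable def z0 : ↥Cfsg.M24 := ⟨permOf w1, permOf_mem_M24 w1_in⟩

theorem order_z0 : orderOf z0 = 7 := by
  rw [← order_w1]
  exact (Subgroup.orderOf_coe z0).symm

theorem fact7 : (Nat.card ↥Cfsg.M24).factorization 7 = 1 := by
  rw [card_M24]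
  have e : (244823040 : ℕ) = 7 ^ 1 * 34974720 := by norm_num
  rw [e, Nat.factorization_mul (by norm_num) (by norm_num), Nat.Prime.factorization_pow (by norm_num)]
  simp only [Finsupp.coe_add, Pi.add_apply, Finsupp.single_eq_same]
  rw [Nat.factorization_eq_zero_of_not_dvd (by norm_num)]

theorem mem_norm_iff (n : ↥Cfsg.M24) :
    n ∈ Subgroup.normalizer ((Subgroup.zpowers z0 : Subgroup ↥Cfsg.M24) : Set ↥Cfsg.M24) ↔
      Phi7 (n : Equiv.Perm Cfsg.GolayPt) := by
  rw [mem_normalizer_zpowers_iff]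
  constructor
  · intro h
    rw [mem_zpowers_iff_mem_range_orderOf, order_z0, Finset.mem_image] at h
    obtain ⟨j, hj, e⟩ := h
    rw [Finset.mem_range] at hj
    have e' : permOf w1 ^ j = (n : Equiv.Perm Cfsg.GolayPt) * permOf w1 * (n : Equiv.Perm Cfsg.GolayPt)⁻¹ :=
      congrArg Subtype.val e
    have e2 : (n : Equiv.Perm Cfsg.GolayPt) * permOf w1 = permOf w1 ^ j * (n : Equiv.Perm Cfsg.GolayPt) := by
      rw [e']; group
    interval_cases j
    · exfalso
      apply w1_ne_one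
      rw [pow_zero, one_mul] at e2
      exact mul_left_cancel (e2.trans (mul_one _).symm)
    · exact ⟨w1, by simp, by rw [e2, pow_one]⟩
    · exact ⟨w2, by simp, by rw [e2, pw2]⟩
    · exact ⟨w3, by simp, by rw [e2, pw3]⟩
    · exact ⟨w4, by simp, by rw [e2, pw4]⟩
    · exact ⟨w5, by simp, by rw [e2, pw5]⟩
    · exact ⟨w6, by simp, by rw [e2, pw6]⟩
  · rintro ⟨w, hw, e⟩
    have key : ∀ j : ℕ, permOf w = permOf w1 ^ j → n * z0 * n⁻¹ ∈ Subgroup.zpowers z0 := by
      intro j hj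
      have : n * z0 * n⁻¹ = z0 ^ j := by
        apply Subtype.ext
        show (n : Equiv.Perm Cfsg.GolayPt) * permOf w1 * (n : Equiv.Perm Cfsg.GolayPt)⁻¹ = permOf w1 ^ j
        rw [e, hj]; group
      rw [this]
      exact Subgroup.pow_mem _ (Subgroup.mem_zpowers z0) j
    simp only [List.mem_cons, List.not_mem_nil, or_false] at hw
    rcases hw with rfl | rfl | rfl | rfl | rfl | rfl
    · exact key 1 (pow_one _).symm
    · exact key 2 pw2
    · exact key 3 pw3
    · exact key 4 pw4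
    · exact key 5 pw5
    · exact key 6 pw6

theorem mem_cent_iff (n : ↥Cfsg.M24) :
    n ∈ Subgroup.centralizer ((Subgroup.zpowers z0 : Subgroup ↥Cfsg.M24) : Set ↥Cfsg.M24) ↔
      Phi7c (n : Equiv.Perm Cfsg.GolayPt) := by
  rw [mem_centralizer_zpowers_iff, Phi7c]
  constructor
  · intro h
    exact congrArg Subtype.val h
  · intro h
    exact Subtype.ext h

theorem card_sub_of_iff (H : Subgroup ↥Cfsg.M24) (Φ : Equiv.Perm Cfsg.GolayPt → Prop)
    (h : ∀ n : ↥Cfsg.M24, n ∈ H ↔ Φ (n : Equiv.Perm Cfsg.GolayPt)) :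
    Nat.card ↥H = Nat.card {g : Equiv.Perm Cfsg.GolayPt // g ∈ Cfsg.M24 ∧ Φ g} := by
  apply Nat.card_congr
  exact {
    toFun := fun x => ⟨x.1.1, x.1.2, (h x.1).1 x.2⟩
    invFun := fun g => ⟨⟨g.1, g.2.1⟩, (h _).2 g.2.2⟩
    left_inv := fun _ => rfl
    right_inv := fun _ => rfl }

/-- For a subgroup S of order 7 of the group of the length-24 code (a Sylow 7-subgroup): the normaliser of S has order 126, the centraliser of S has order 42 and is non-abelian, and the whole normaliser leaves some trio invariant. (These are the orders of a Frobenius group of order 21 times a symmetric group of degree 3; the isomorphism type itself is not asserted here.) -/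
theorem result (S : Subgroup ↥Cfsg.M24) (hS : Nat.card S = 7) : Nat.card ↥(Subgroup.normalizer (S : Set ↥Cfsg.M24)) = 126 ∧ Nat.card ↥(Subgroup.centralizer (S : Set ↥Cfsg.M24)) = 42 ∧ (∃ x ∈ Subgroup.centralizer (S : Set ↥Cfsg.M24), ∃ y ∈ Subgroup.centralizer (S : Set ↥Cfsg.M24), x * y ≠ y * x) ∧ ∃ T ∈ Cfsg.trios, ∀ n ∈ Subgroup.normalizer (S : Set ↥Cfsg.M24), ((n : ↥Cfsg.M24) : Equiv.Perm Cfsg.GolayPt) • T = T := by
  haveI : Fact (Nat.Prime 7) := ⟨by norm_num⟩
  have h0 : Nat.card (Subgroup.zpowers z0 : Subgroup ↥Cfsg.M24) = 7 := by rw [Nat.card_zpowers, order_z0]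
  obtain ⟨k, rfl⟩ := exists_conj_of_card S (Subgroup.zpowers z0) (by rw [hS, fact7, pow_one])
    (by rw [h0, fact7, pow_one])
  rw [normalizer_map_conj, centralizer_map_conj, card_map_conj, card_map_conj]
  refine ⟨?_, ?_, ?_, ?_⟩
  · rw [card_sub_of_iff _ _ mem_norm_iff, card_Phi7]
  · rw [card_sub_of_iff _ _ mem_cent_iff, card_Phi7c]
  · refine ⟨k * ⟨permOf x7, permOf_mem_M24 x7_in⟩ * k⁻¹, ?_, k * ⟨permOf y7, permOf_mem_M24 y7_in⟩ * k⁻¹, ?_, ?_⟩
    · exact ⟨_, (mem_cent_iff _).2 x7_Phi, rfl⟩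
    · exact ⟨_, (mem_cent_iff _).2 y7_Phi, rfl⟩
    · intro h
      apply xy7
      have h1 : (⟨permOf x7, permOf_mem_M24 x7_in⟩ : ↥Cfsg.M24) * ⟨permOf y7, permOf_mem_M24 y7_in⟩ =
          ⟨permOf y7, permOf_mem_M24 y7_in⟩ * ⟨permOf x7, permOf_mem_M24 x7_in⟩ := by
        have e1 : ∀ a b : ↥Cfsg.M24, a * b = k⁻¹ * ((k * a * k⁻¹) * (k * b * k⁻¹)) * k := by
          intro a b; group
        rw [e1, h, ← e1]
      exact congrArg Subtype.val h1
  · refine ⟨(k : Equiv.Perm Cfsg.GolayPt) • unT c7, smul_mem_trios k.2 (unT_mem c7_mem), ?_⟩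
    rintro _ ⟨n, hn, rfl⟩
    show ((k : Equiv.Perm Cfsg.GolayPt) * (n : Equiv.Perm Cfsg.GolayPt) * (k : Equiv.Perm Cfsg.GolayPt)⁻¹) •
      (k : Equiv.Perm Cfsg.GolayPt) • unT c7 = _
    rw [smul_smul, inv_mul_cancel_right, mul_smul, Phi7_trio _ n.2 ((mem_norm_iff n).1 hn)]

end Cfsg.Agent.S5604
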