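import Cfsg.Statements.S5607
import Cfsg.Agent.Lib.Helper94.Cent2B

set_option autoImplicit false
open scoped Pointwise
open Cfsg

namespace Cfsg.Agent.S5607

open Cfsg.Agent.Lib.Helper94

/-- For a fixed-point-free involution t of the group of the length-24 code: its centraliser in that group has order 7680, is transitive on the 24 points, and is contained, together with t, in the stabiliser of some sextet. -/
theorem result (t : Equiv.Perm Cfsg.GolayPt) (ht : t ∈ Cfsg.M24) (h₂ : orderOf t = 2) (h₀ : ∀ p, t p ≠ p) : Nat.card {c : Equiv.Perm Cfsg.GolayPt // c ∈ Cfsg.M24 ∧ c * t = t * c} = 7680 ∧ (∀ p q : Cfsg.GolayPt, ∃ c ∈ Cfsg.M24, c * t = t * c ∧ c p = q) ∧ ∃ S ∈ Cfsg.sextets, t • S = S ∧ ∀ c ∈ Cfsg.M24, c * t = t * c → c • S = S := by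
  obtain ⟨k, hk, e⟩ := conj_to_t0 ht h₂ h₀
  have hcomm : ∀ c : Equiv.Perm Cfsg.GolayPt, (k * c * k⁻¹) * permOf t0 = permOf t0 * (k * c * k⁻¹) ↔
      c * t = t * c := by
    intro c
    rw [← e]
    constructor
    · intro h
      have h1 : k * (c * t) * k⁻¹ = k * (t * c) * k⁻¹ := by
        calc k * (c * t) * k⁻¹ = (k * c * k⁻¹) * (k * t * k⁻¹) := by group
          _ = (k * t * k⁻¹) * (k * c * k⁻¹) := h
          _ = k * (t * c) * k⁻¹ := by group
      exact mul_left_cancel (mul_right_cancel h1)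
    · intro h
      calc (k * c * k⁻¹) * (k * t * k⁻¹) = k * (c * t) * k⁻¹ := by group
        _ = k * (t * c) * k⁻¹ := by rw [h]
        _ = (k * t * k⁻¹) * (k * c * k⁻¹) := by group
  have hmem : ∀ c : Equiv.Perm Cfsg.GolayPt, k * c * k⁻¹ ∈ Cfsg.M24 ↔ c ∈ Cfsg.M24 := by
    intro c
    rw [Cfsg.M24.mul_mem_cancel_right (Cfsg.M24.inv_mem hk), Cfsg.M24.mul_mem_cancel_left hk]
  refine ⟨?_, ?_, ?_⟩
  · rw [← card_comm_t0]
    apply Nat.card_congr
    apply Equiv.subtypeEquiv (MulAut.conj k).toEquiv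
    intro c
    show _ ↔ (k * c * k⁻¹ ∈ Cfsg.M24 ∧ (k * c * k⁻¹) * permOf t0 = permOf t0 * (k * c * k⁻¹))
    rw [hmem, hcomm]
  · intro p q
    obtain ⟨c, hc, hcc, hcp⟩ := trans_comm_t0 (k p) (k q)
    have e1 : k * (k⁻¹ * c * k) * k⁻¹ = c := by group
    refine ⟨k⁻¹ * c * k, (hmem _).1 (by rw [e1]; exact hc), (hcomm _).1 (by rw [e1]; exact hcc), ?_⟩
    rw [Equiv.Perm.mul_apply, Equiv.Perm.mul_apply, hcp]
    simp
  · refine ⟨k⁻¹ • S0, smul_mem_sextets (Cfsg.M24.inv_mem hk) S0_mem, ?_, ?_⟩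
    · have : t = k⁻¹ * permOf t0 * k := by rw [← e]; group
      rw [this, mul_smul, mul_smul, smul_inv_smul, t0_S0]
    · intro c hc hct
      have h1 := comm_S0 ((hmem c).2 hc) ((hcomm c).2 hct)
      rw [mul_smul, mul_smul] at h1
      rw [eq_inv_smul_iff]
      exact h1

end Cfsg.Agent.S5607
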