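import Cfsg.Statements.S5608
import Cfsg.Agent.Lib.Helper94.GolaySalt

set_option autoImplicit false
open scoped Pointwise
open Cfsg

namespace Cfsg.Agent.S5608

open Cfsg.Agent.Lib.Helper94

def cond6 (a b : ℕ) : Bool := (Nat.beq a 6 && Nat.beq b 8) || (Nat.beq a 0 && Nat.beq b 0)

def chk6aux (P2 P3 : ℕ) : Bool :=
  !(Nat.beq (mulS P3 P3) idS) || (Nat.beq P3 idS || (Nat.beq P2 idS ||
    cond6 (popc (fixMaskS (mulS P2 P2))) (popc (fixMaskS P3))))

def chk6 (P : ℕ) : Bool := force (mulS P P) fun P2 => force (mulS P2 P) fun P3 => chk6aux P2 P3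

/-- the property of an element `y` of order six to be checked. -/
def Prop6 (y : Equiv.Perm Cfsg.GolayPt) : Prop :=
  y ^ 6 = 1 → y ^ 3 ≠ 1 → y ^ 2 ≠ 1 →
    ((Finset.univ.filter fun p => (y ^ 4) p = p).card = 6 ∧ (Finset.univ.filter fun p => (y ^ 3) p = p).card = 8) ∨
    ((Finset.univ.filter fun p => (y ^ 4) p = p).card = 0 ∧ (Finset.univ.filter fun p => (y ^ 3) p = p).card = 0)

theorem chk6_spec (g : Equiv.Perm Cfsg.GolayPt) (h : chk6 (codeS g) = true) : Prop6 g := by
  intro h6 h3 h2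
  have c2 : mulS (codeS g) (codeS g) = codeS (g ^ 2) := by rw [sq, mulS_codeS]
  have c3 : mulS (codeS (g ^ 2)) (codeS g) = codeS (g ^ 3) := by rw [mulS_codeS, ← pow_succ]
  have c6 : mulS (codeS (g ^ 3)) (codeS (g ^ 3)) = codeS (g ^ 6) := by rw [mulS_codeS, ← pow_add]
  have c4 : mulS (codeS (g ^ 2)) (codeS (g ^ 2)) = codeS (g ^ 4) := by rw [mulS_codeS, ← pow_add]
  rw [chk6, force_eq, force_eq, c2, c3, chk6aux, c6, c4, ← card_fixedS, ← card_fixedS] at h
  simp only [Bool.or_eq_true, Bool.not_eq_true', beq_idS] at h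
  rcases h with h | h | h | h
  · have := (beq_idS (g ^ 6)).2 h6
    rw [this] at h
    exact absurd h (by simp)
  · exact absurd h h3
  · exact absurd h h2
  · simpa only [cond6, Bool.or_eq_true, Bool.and_eq_true, Nat.beq_eq] using h

set_option maxRecDepth 100000 in
theorem chk6_all : failS chk6 tupAllL = 0 := by
  decide +kernel

theorem prop6_all : ∀ g ∈ Cfsg.M24, Prop6 g := by
  apply forall_classS Prop6 _ chk6 (fun g _ h => chk6_spec g h) chk6_all
  intro k _ g _ h h6 h3 h2
  have e : ∀ n : ℕ, (k * g * k⁻¹) ^ n = k * g ^ n * k⁻¹ := fun n => conj_pow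
  have hne : ∀ n : ℕ, g ^ n ≠ 1 → (k * g * k⁻¹) ^ n ≠ 1 := by
    intro n hn hc
    rw [e, mul_inv_eq_one] at hc
    exact hn (mul_left_cancel (hc.trans (mul_one k).symm))
  have := h (by rw [e, h6]; group) (hne 3 h3) (hne 2 h2)
  rw [e, e, card_fixed_conj, card_fixed_conj] at this
  exact this

/-- If an element of order 3 and an involution of the group of the length-24 code commute, then either the element of order 3 has exactly 6 fixed points and the involution exactly 8, or both are fixed-point-free. -/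
theorem result (x s : Equiv.Perm Cfsg.GolayPt) (hx : x ∈ Cfsg.M24) (hs : s ∈ Cfsg.M24) (h₃ : orderOf x = 3) (h₂ : orderOf s = 2) (hc : Commute x s) : ((Finset.univ.filter fun p => x p = p).card = 6 ∧ (Finset.univ.filter fun p => s p = p).card = 8) ∨ ((Finset.univ.filter fun p => x p = p).card = 0 ∧ (Finset.univ.filter fun p => s p = p).card = 0) := by
  have hx3 : x ^ 3 = 1 := by rw [← h₃]; exact pow_orderOf_eq_one x
  have hs2 : s ^ 2 = 1 := by rw [← h₂]; exact pow_orderOf_eq_one s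
  have hx1 : x ≠ 1 := by intro h; rw [h, orderOf_one] at h₃; omega
  have hs1 : s ≠ 1 := by intro h; rw [h, orderOf_one] at h₂; omega
  have y3 : (x * s) ^ 3 = s := by
    rw [hc.mul_pow, hx3, one_mul, pow_succ, hs2, one_mul]
  have y4 : (x * s) ^ 4 = x := by
    rw [hc.mul_pow, pow_succ x 3, hx3, one_mul, show (4 : ℕ) = 2 * 2 from rfl, pow_mul, hs2, one_pow, mul_one]
  have y2 : (x * s) ^ 2 = x ^ 2 := by rw [hc.mul_pow, hs2, mul_one]
  have y6 : (x * s) ^ 6 = 1 := by
    rw [hc.mul_pow, show (6 : ℕ) = 3 * 2 from rfl, pow_mul, hx3, one_pow, one_mul, mul_comm 3 2, pow_mul, hs2,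
      one_pow]
  have h := prop6_all (x * s) (Cfsg.M24.mul_mem hx hs) y6 (by rw [y3]; exact hs1) (by
    rw [y2]
    intro h2
    apply hx1
    have : x ^ 3 = x ^ 2 * x := pow_succ x 2
    rw [hx3, h2, one_mul] at this
    exact this.symm)
  rw [y3, y4] at h
  exact h

end Cfsg.Agent.S5608
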