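import Cfsg.Statements.S5609
import Cfsg.Agent.Lib.Helper33.SetFam
import Cfsg.Agent.Lib.Helper33.Orbit3

set_option autoImplicit false
open scoped Pointwise
open Cfsg

namespace Cfsg.Agent.S5609

open Cfsg.Agent.Lib.Helper33

theorem pair_ind (P : Finset GolayPt → Finset GolayPt → Prop)
    (hP : ∀ g ∈ M24, ∀ x y, P x y → P (g • x) (g • y)) (k : ℕ) (hk : k < 759)
    (h0 : P (unmask (fld24 octTab 0)) (unmask (fld24 octTab k)))
    {o o' : Finset GolayPt} (ho : o ∈ octads) (ho' : o' ∈ octads)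
    (hr : (o ∩ o').card = (unmask (fld24 octTab 0) ∩ unmask (fld24 octTab k)).card) : P o o' := by
  obtain ⟨a, ha⟩ := oct_rank.trans o ho
  have hk' : unmask (fld24 octTab k) ∈ octads := (codeFam_spec oct_fam).2.1 k hk
  have h1 : (unmask (fld24 octTab 0) ∩ (a • o')).card =
      (unmask (fld24 octTab 0) ∩ unmask (fld24 octTab k)).card := by
    rw [← hr, ← ha]
    exact card_inter_smul a.1 o o'
  obtain ⟨b, hb, hb'⟩ := oct_rank.trans₂ _ hk' _ (oct_rank.smul_mem a o' ho') h1.symm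
  have h2 := hP b.1 b.2 _ _ h0
  have hb1 : b.1 • unmask (fld24 octTab 0) = unmask (fld24 octTab 0) := hb
  have hb2 : b.1 • unmask (fld24 octTab k) = a • o' := hb'
  rw [hb1, hb2, ← ha] at h2
  have h3 := hP (a⁻¹).1 (a⁻¹).2 _ _ h2
  have e1 : (a⁻¹).1 • (a • o) = o := inv_smul_smul a o
  have e2 : (a⁻¹).1 • (a • o') = o' := inv_smul_smul a o'
  rwa [e1, e2] at h3

theorem disj_smul (g : Equiv.Perm GolayPt) {x y : Finset GolayPt} (h : Disjoint x y) :
    Disjoint (g • x) (g • y) := by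
  rw [Finset.disjoint_iff_inter_eq_empty] at h ⊢
  rw [← Finset.smul_finset_inter, h, Finset.smul_finset_empty]

theorem disj_unmask {a b : ℕ} (h : Nat.land a b = 0) : Disjoint (unmask a) (unmask b) := by
  rw [Finset.disjoint_iff_inter_eq_empty, ← unmask_and]
  have : a &&& b = 0 := h
  rw [this, unmask_zero]

theorem case4 {o o' : Finset GolayPt} (ho : o ∈ octads) (ho' : o' ∈ octads) (h : (o ∩ o').card = 4) :
    ∃ m ∈ octads, Disjoint o m ∧ Disjoint m o' := by
  refine pair_ind (fun o o' => ∃ m ∈ octads, Disjoint o m ∧ Disjoint m o') ?_ 1 (by norm_num) ?_ ho ho' ?_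
  · rintro g hg x y ⟨m, hm, h1, h2⟩
    exact ⟨g • m, smul_mem_octads hg hm, disj_smul g h1, disj_smul g h2⟩
  · exact ⟨unmask (fld24 octTab 730), (codeFam_spec oct_fam).2.1 730 (by norm_num),
      disj_unmask (by decide +kernel), disj_unmask (by decide +kernel)⟩
  · rw [h, card_inter_unmask _ _ (fld24_lt _ _)]
    decide +kernel

theorem case2 {o o' : Finset GolayPt} (ho : o ∈ octads) (ho' : o' ∈ octads) (h : (o ∩ o').card = 2) :
    ∃ m ∈ octads, ∃ m' ∈ octads, Disjoint o m ∧ Disjoint m m' ∧ Disjoint m' o' := by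
  refine pair_ind (fun o o' => ∃ m ∈ octads, ∃ m' ∈ octads, Disjoint o m ∧ Disjoint m m' ∧ Disjoint m' o')
    ?_ 281 (by norm_num) ?_ ho ho' ?_
  · rintro g hg x y ⟨m, hm, m', hm', h1, h2, h3⟩
    exact ⟨g • m, smul_mem_octads hg hm, g • m', smul_mem_octads hg hm', disj_smul g h1, disj_smul g h2,
      disj_smul g h3⟩
  · exact ⟨unmask (fld24 octTab 729), (codeFam_spec oct_fam).2.1 729 (by norm_num),
      unmask (fld24 octTab 95), (codeFam_spec oct_fam).2.1 95 (by norm_num),
      disj_unmask (by decide +kernel), disj_unmask (by decide +kernel), disj_unmask (by decide +kernel)⟩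
  · rw [h, card_inter_unmask _ _ (fld24_lt _ _)]
    decide +kernel

theorem case2' {o o' m : Finset GolayPt} (ho : o ∈ octads) (ho' : o' ∈ octads) (hm : m ∈ octads)
    (h : (o ∩ o').card = 2) (h1 : Disjoint o m) (h2 : Disjoint m o') : False := by
  have hs := supports_symmDiff (supports_symmDiff ho.1 ho'.1) hm.1
  have hc := card_of_mem_supports hs
  have hd : Disjoint (symmDiff o o') m := by
    rw [Finset.disjoint_left]
    intro p hp hpm
    rw [Finset.mem_symmDiff] at hp
    rcases hp with hp | hp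
    · exact Finset.disjoint_left.1 h1 hp.1 hpm
    · exact Finset.disjoint_left.1 h2 hpm hp.1
  have e1 : symmDiff (symmDiff o o') m = symmDiff o o' ∪ m := by
    rw [symmDiff_eq_sup_sdiff_inf]
    have : (symmDiff o o') ⊓ m = ⊥ := disjoint_iff.1 hd
    rw [this]
    simp
  have e2 : (symmDiff o o').card = 12 := by
    have h3 : symmDiff o o' = (o \ o') ∪ (o' \ o) := rfl
    rw [h3, Finset.card_union_of_disjoint (by
      rw [Finset.disjoint_left]
      intro p hp hp'
      exact (Finset.mem_sdiff.1 hp).2 (Finset.mem_sdiff.1 hp').1)]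
    have h4 := Finset.card_sdiff_add_card_inter o o'
    have h5 := Finset.card_sdiff_add_card_inter o' o
    rw [Finset.inter_comm o' o] at h5
    rw [ho.2] at h4
    rw [ho'.2] at h5
    omega
  rw [e1, Finset.card_union_of_disjoint hd, e2, hm.2] at hc
  omega

theorem adj_iff (a b : ↥octads) : (blockGraph octads).Adj a b ↔ Disjoint a.1 b.1 := by
  unfold blockGraph
  rw [SimpleGraph.fromRel_adj]
  constructor
  · rintro ⟨_, h | h⟩
    · exact h
    · exact h.symm
  · intro h
    refine ⟨?_, Or.inl h⟩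
    rintro rfl
    have := Finset.disjoint_self_iff_empty _ |>.1 h
    have h8 := a.2.2
    rw [this] at h8
    simp at h8

theorem dist_eq (a b : ↥octads) (hne : a ≠ b) :
    (blockGraph octads).Reachable a b ∧
    (((a.1 ∩ b.1).card = 0 ∧ (blockGraph octads).dist a b = 1) ∨
     ((a.1 ∩ b.1).card = 4 ∧ (blockGraph octads).dist a b = 2) ∨
     ((a.1 ∩ b.1).card = 2 ∧ (blockGraph octads).dist a b = 3)) := by
  have hJ := oct_rank.relJ' {0, 2, 4, 8} oct_relJ a.2 b.2
  simp only [Finset.mem_insert, Finset.mem_singleton] at hJ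
  have hnadj : (a.1 ∩ b.1).card ≠ 0 → ¬ (blockGraph octads).Adj a b := by
    intro h0 hadj
    rw [adj_iff, Finset.disjoint_iff_inter_eq_empty] at hadj
    rw [hadj] at h0
    simp at h0
  rcases hJ with h | h | h | h
  · have hadj : (blockGraph octads).Adj a b := by
      rw [adj_iff, Finset.disjoint_iff_inter_eq_empty]
      exact Finset.card_eq_zero.1 h
    exact ⟨hadj.reachable, Or.inl ⟨h, SimpleGraph.dist_eq_one_iff_adj.2 hadj⟩⟩
  · obtain ⟨m, hm, m', hm', h1, h2, h3⟩ := case2 a.2 b.2 h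
    have w : (blockGraph octads).Walk a b :=
      SimpleGraph.Walk.cons ((adj_iff a ⟨m, hm⟩).2 h1) (SimpleGraph.Walk.cons ((adj_iff ⟨m, hm⟩ ⟨m', hm'⟩).2 h2)
        (SimpleGraph.Walk.cons ((adj_iff ⟨m', hm'⟩ b).2 h3) SimpleGraph.Walk.nil))
    have hw : (blockGraph octads).dist a b ≤ 3 := by
      have := SimpleGraph.dist_le (SimpleGraph.Walk.cons ((adj_iff a ⟨m, hm⟩).2 h1)
        (SimpleGraph.Walk.cons ((adj_iff ⟨m, hm⟩ ⟨m', hm'⟩).2 h2)
        (SimpleGraph.Walk.cons ((adj_iff ⟨m', hm'⟩ b).2 h3) SimpleGraph.Walk.nil)))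
      simpa using this
    have hr : (blockGraph octads).Reachable a b := ⟨w⟩
    refine ⟨hr, Or.inr (Or.inr ⟨h, ?_⟩)⟩
    have h0 : (blockGraph octads).dist a b ≠ 0 := fun h0 => hne (hr.dist_eq_zero_iff.1 h0)
    have h1' : (blockGraph octads).dist a b ≠ 1 := fun h1' =>
      hnadj (by rw [h]; norm_num) (SimpleGraph.dist_eq_one_iff_adj.1 h1')
    have h2' : (blockGraph octads).dist a b ≠ 2 := by
      intro h2'
      obtain ⟨p, hp⟩ := hr.exists_walk_length_eq_dist
      rw [h2'] at hp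
      cases p with
      | nil => simp at hp
      | cons e q =>
        cases q with
        | nil => simp at hp
        | cons e' q' =>
          cases q' with
          | nil => exact case2' a.2 b.2 (Subtype.mem _) h ((adj_iff _ _).1 e) ((adj_iff _ _).1 e')
          | cons _ _ => simp at hp
    omega
  · obtain ⟨m, hm, h1, h2⟩ := case4 a.2 b.2 h
    have hw : (blockGraph octads).dist a b ≤ 2 := by
      have := SimpleGraph.dist_le (SimpleGraph.Walk.cons ((adj_iff a ⟨m, hm⟩).2 h1)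
        (SimpleGraph.Walk.cons ((adj_iff ⟨m, hm⟩ b).2 h2) SimpleGraph.Walk.nil))
      simpa using this
    have hr : (blockGraph octads).Reachable a b :=
      ⟨SimpleGraph.Walk.cons ((adj_iff a ⟨m, hm⟩).2 h1)
        (SimpleGraph.Walk.cons ((adj_iff ⟨m, hm⟩ b).2 h2) SimpleGraph.Walk.nil)⟩
    refine ⟨hr, Or.inr (Or.inl ⟨h, ?_⟩)⟩
    have h0 : (blockGraph octads).dist a b ≠ 0 := fun h0 => hne (hr.dist_eq_zero_iff.1 h0)
    have h1' : (blockGraph octads).dist a b ≠ 1 := fun h1' =>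
      hnadj (by rw [h]; norm_num) (SimpleGraph.dist_eq_one_iff_adj.1 h1')
    omega
  · exfalso
    apply hne
    exact Subtype.ext (octad_eq_of_inter a.2 b.2 (by rw [h]; norm_num))


/-- In the graph on the 759 octads of the length-24 code in which two octads are adjacent when they are disjoint, the graph is connected (of diameter 3) and two distinct octads are at distance 1, 2 or 3 exactly when they meet in 0, 4 or 2 points respectively. -/
theorem result (o o' : Finset Cfsg.GolayPt) (ho : o ∈ Cfsg.octads) (ho' : o' ∈ Cfsg.octads) (hne : o ≠ o') : (Cfsg.blockGraph Cfsg.octads).Connected ∧ ((Cfsg.blockGraph Cfsg.octads).dist ⟨o, ho⟩ ⟨o', ho'⟩ = 1 ↔ (o ∩ o').card = 0) ∧ ((Cfsg.blockGraph Cfsg.octads).dist ⟨o, ho⟩ ⟨o', ho'⟩ = 2 ↔ (o ∩ o').card = 4) ∧ ((Cfsg.blockGraph Cfsg.octads).dist ⟨o, ho⟩ ⟨o', ho'⟩ = 3 ↔ (o ∩ o').card = 2) := by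
  have hne' : (⟨o, ho⟩ : ↥Cfsg.octads) ≠ ⟨o', ho'⟩ := fun h => hne (congrArg Subtype.val h)
  refine ⟨?_, ?_⟩
  · haveI : Nonempty ↥Cfsg.octads := ⟨⟨o, ho⟩⟩
    refine SimpleGraph.Connected.mk ?_
    intro a b
    by_cases hab : a = b
    · rw [hab]
    · exact (dist_eq a b hab).1
  · have h := (dist_eq ⟨o, ho⟩ ⟨o', ho'⟩ hne').2
    simp only at h
    rcases h with ⟨h1, h2⟩ | ⟨h1, h2⟩ | ⟨h1, h2⟩ <;> rw [h1, h2] <;> norm_num

end Cfsg.Agent.S5609
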