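import Cfsg.Statements.S5610
import Cfsg.Agent.Lib.Helper33.MixOctTr
import Cfsg.Agent.Lib.Helper33.MixOctSx

set_option autoImplicit false
open scoped Pointwise
open Cfsg

namespace Cfsg.Agent.S5610

/-- The stabiliser of an octad in the group of the length-24 code has exactly three orbits on the 3795 trios, of sizes 15, 420 and 3360, and exactly three orbits on the 1771 sextets, of sizes 35, 840 and 896. -/
theorem result (o : Finset Cfsg.GolayPt) (ho : o ∈ Cfsg.octads) : (∃ X₁ ∈ Cfsg.trios, ∃ X₂ ∈ Cfsg.trios, ∃ X₃ ∈ Cfsg.trios, (MulAction.orbit ↥(MulAction.stabilizer Cfsg.M24 o) X₁).ncard = 15 ∧ (MulAction.orbit ↥(MulAction.stabilizer Cfsg.M24 o) X₂).ncard = 420 ∧ (MulAction.orbit ↥(MulAction.stabilizer Cfsg.M24 o) X₃).ncard = 3360 ∧ Cfsg.trios = MulAction.orbit ↥(MulAction.stabilizer Cfsg.M24 o) X₁ ∪ MulAction.orbit ↥(MulAction.stabilizer Cfsg.M24 o) X₂ ∪ MulAction.orbit ↥(MulAction.stabilizer Cfsg.M24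 o) X₃) ∧ (∃ Y₁ ∈ Cfsg.sextets, ∃ Y₂ ∈ Cfsg.sextets, ∃ Y₃ ∈ Cfsg.sextets, (MulAction.orbit ↥(MulAction.stabilizer Cfsg.M24 o) Y₁).ncard = 35 ∧ (MulAction.orbit ↥(MulAction.stabilizer Cfsg.M24 o) Y₂).ncard = 840 ∧ (MulAction.orbit ↥(MulAction.stabilizer Cfsg.M24 o) Y₃).ncard = 896 ∧ Cfsg.sextets = MulAction.orbit ↥(MulAction.stabilizer Cfsg.M24 o) Y₁ ∪ MulAction.orbit ↥(MulAction.stabilizer Cfsg.M24 o) Y₂ ∪ MulAction.orbit ↥(MulAction.stabilizer Cfsg.M24 o) Y₃) := by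
  have ha := Cfsg.Agent.Lib.Helper33.oct_rank.trans o ho
  refine ⟨?_, ?_⟩
  · exact Cfsg.Agent.Lib.Helper33.octTr_mix.orbits3 ha Cfsg.Agent.Lib.Helper33.octTrSz_64
      Cfsg.Agent.Lib.Helper33.octTrSz_32 Cfsg.Agent.Lib.Helper33.octTrSz_24 (by norm_num) (by norm_num) (by norm_num)
      (fun y hy => by
        rcases Cfsg.Agent.Lib.Helper33.octTr_relJ y hy with h | h | h
        · exact Or.inl h
        · exact Or.inr (Or.inr h)
        · exact Or.inr (Or.inl h))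
  · exact Cfsg.Agent.Lib.Helper33.octSx_mix.orbits3 ha Cfsg.Agent.Lib.Helper33.octSxSz_32
      Cfsg.Agent.Lib.Helper33.octSxSz_16 Cfsg.Agent.Lib.Helper33.octSxSz_14 (by norm_num) (by norm_num) (by norm_num)
      (fun y hy => by
        rcases Cfsg.Agent.Lib.Helper33.octSx_relJ y hy with h | h | h
        · exact Or.inl h
        · exact Or.inr (Or.inr h)
        · exact Or.inr (Or.inl h))

end Cfsg.Agent.S5610
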