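import Cfsg.Statements.S5611
import Cfsg.Agent.Lib.Helper33.MixSxOct
import Cfsg.Agent.Lib.Helper33.MixSxTr

set_option autoImplicit false
open scoped Pointwise
open Cfsg

namespace Cfsg.Agent.S5611

/-- The stabiliser of a sextet in the group of the length-24 code has exactly three orbits on the 759 octads, of sizes 15, 360 and 384, and exactly four orbits on the 3795 trios, of sizes 15, 180, 720 and 2880. -/
theorem result (S : Finset (Finset Cfsg.GolayPt)) (hS : S ∈ Cfsg.sextets) : (∃ X₁ ∈ Cfsg.octads, ∃ X₂ ∈ Cfsg.octads, ∃ X₃ ∈ Cfsg.octads, (MulAction.orbit ↥(MulAction.stabilizer Cfsg.M24 S) X₁).ncard = 15 ∧ (MulAction.orbit ↥(MulAction.stabilizer Cfsg.M24 S) X₂).ncard = 360 ∧ (MulAction.orbit ↥(MulAction.stabilizer Cfsg.M24 S) X₃).ncard = 384 ∧ Cfsg.octads = MulAction.orbit ↥(MulAction.stabilizer Cfsg.M24 S) X₁ ∪ MulAction.orbit ↥(MulAction.stabilizer Cfsg.M24 S) X₂ ∪ MulAction.orbit ↥(MulAction.stabilizer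 Cfsg.M24 S) X₃) ∧ (∃ Y₁ ∈ Cfsg.trios, ∃ Y₂ ∈ Cfsg.trios, ∃ Y₃ ∈ Cfsg.trios, ∃ Y₄ ∈ Cfsg.trios, (MulAction.orbit ↥(MulAction.stabilizer Cfsg.M24 S) Y₁).ncard = 15 ∧ (MulAction.orbit ↥(MulAction.stabilizer Cfsg.M24 S) Y₂).ncard = 180 ∧ (MulAction.orbit ↥(MulAction.stabilizer Cfsg.M24 S) Y₃).ncard = 720 ∧ (MulAction.orbit ↥(MulAction.stabilizer Cfsg.M24 S) Y₄).ncard = 2880 ∧ Cfsg.trios = MulAction.orbit ↥(MulAction.stabilizer Cfsg.M24 S) Y₁ ∪ MulAction.orbit ↥(MulAction.stabilizer Cfsg.M24 S) Y₂ ∪ MulAction.orbit ↥(MulAction.stabilizer Cfsg.M24 S) Y₃ ∪ MulAction.orbit ↥(MulAction.stabilizer Cfsg.M24 S) Y₄) := by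
  have ha := Cfsg.Agent.Lib.Helper33.sx_rank.trans S hS
  refine ⟨?_, ?_⟩
  · exact Cfsg.Agent.Lib.Helper33.sxOct_mix.orbits3 ha Cfsg.Agent.Lib.Helper33.sxOctSz_32
      Cfsg.Agent.Lib.Helper33.sxOctSz_16 Cfsg.Agent.Lib.Helper33.sxOctSz_14 (by norm_num) (by norm_num) (by norm_num)
      (fun y hy => by
        rcases Cfsg.Agent.Lib.Helper33.sxOct_relJ y hy with h | h | h
        · exact Or.inl h
        · exact Or.inr (Or.inr h)
        · exact Or.inr (Or.inl h))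
  · exact Cfsg.Agent.Lib.Helper33.sxTr_mix.orbits4 ha Cfsg.Agent.Lib.Helper33.sxTrSz_96
      Cfsg.Agent.Lib.Helper33.sxTrSz_64 Cfsg.Agent.Lib.Helper33.sxTrSz_48 Cfsg.Agent.Lib.Helper33.sxTrSz_44
      (by norm_num) (by norm_num) (by norm_num) (by norm_num)
      (fun y hy => by
        rcases Cfsg.Agent.Lib.Helper33.sxTr_relJ y hy with h | h | h | h
        · exact Or.inr (Or.inl h)
        · exact Or.inl h
        · exact Or.inr (Or.inr (Or.inr h))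
        · exact Or.inr (Or.inr (Or.inl h)))

end Cfsg.Agent.S5611
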