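import Cfsg.Statements.S5612
import Cfsg.Agent.Lib.Helper33.MixTrOct
import Cfsg.Agent.Lib.Helper33.MixTrSx

set_option autoImplicit false
open scoped Pointwise
open Cfsg

namespace Cfsg.Agent.S5612

/-- The stabiliser of a trio in the group of the length-24 code has exactly three orbits on the 759 octads, of sizes 3, 84 and 672, and exactly four orbits on the 1771 sextets, of sizes 7, 84, 336 and 1344. -/
theorem result (T : Finset (Finset Cfsg.GolayPt)) (hT : T ∈ Cfsg.trios) : (∃ X₁ ∈ Cfsg.octads, ∃ X₂ ∈ Cfsg.octads, ∃ X₃ ∈ Cfsg.octads, (MulAction.orbit ↥(MulAction.stabilizer Cfsg.M24 T) X₁).ncard = 3 ∧ (MulAction.orbit ↥(MulAction.stabilizer Cfsg.M24 T) X₂).ncard = 84 ∧ (MulAction.orbit ↥(MulAction.stabilizer Cfsg.M24 T) X₃).ncard = 672 ∧ Cfsg.octads = MulAction.orbit ↥(MulAction.stabilizer Cfsg.M24 T) X₁ ∪ MulAction.orbit ↥(MulAction.stabilizer Cfsg.M24 T) X₂ ∪ MulAction.orbit ↥(MulAction.stabilizer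 Cfsg.M24 T) X₃) ∧ (∃ Y₁ ∈ Cfsg.sextets, ∃ Y₂ ∈ Cfsg.sextets, ∃ Y₃ ∈ Cfsg.sextets, ∃ Y₄ ∈ Cfsg.sextets, (MulAction.orbit ↥(MulAction.stabilizer Cfsg.M24 T) Y₁).ncard = 7 ∧ (MulAction.orbit ↥(MulAction.stabilizer Cfsg.M24 T) Y₂).ncard = 84 ∧ (MulAction.orbit ↥(MulAction.stabilizer Cfsg.M24 T) Y₃).ncard = 336 ∧ (MulAction.orbit ↥(MulAction.stabilizer Cfsg.M24 T) Y₄).ncard = 1344 ∧ Cfsg.sextets = MulAction.orbit ↥(MulAction.stabilizer Cfsg.M24 T) Y₁ ∪ MulAction.orbit ↥(MulAction.stabilizer Cfsg.M24 T) Y₂ ∪ MulAction.orbit ↥(MulAction.stabilizer Cfsg.M24 T) Y₃ ∪ MulAction.orbit ↥(MulAction.stabilizer Cfsg.M24 T) Y₄) := by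
  have ha := Cfsg.Agent.Lib.Helper33.tr_rank.trans T hT
  refine ⟨?_, ?_⟩
  · exact Cfsg.Agent.Lib.Helper33.trOct_mix.orbits3 ha Cfsg.Agent.Lib.Helper33.trOctSz_64
      Cfsg.Agent.Lib.Helper33.trOctSz_32 Cfsg.Agent.Lib.Helper33.trOctSz_24 (by norm_num) (by norm_num) (by norm_num)
      (fun y hy => by
        rcases Cfsg.Agent.Lib.Helper33.trOct_relJ y hy with h | h | h
        · exact Or.inl h
        · exact Or.inr (Or.inr h)
        · exact Or.inr (Or.inl h))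
  · exact Cfsg.Agent.Lib.Helper33.trSx_mix.orbits4 ha Cfsg.Agent.Lib.Helper33.trSxSz_96
      Cfsg.Agent.Lib.Helper33.trSxSz_64 Cfsg.Agent.Lib.Helper33.trSxSz_48 Cfsg.Agent.Lib.Helper33.trSxSz_44
      (by norm_num) (by norm_num) (by norm_num) (by norm_num)
      (fun y hy => by
        rcases Cfsg.Agent.Lib.Helper33.trSx_relJ y hy with h | h | h | h
        · exact Or.inr (Or.inl h)
        · exact Or.inr (Or.inr (Or.inr h))
        · exact Or.inl h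
        · exact Or.inr (Or.inr (Or.inl h)))

end Cfsg.Agent.S5612
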