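import Cfsg.Statements.S5613
import Cfsg.Agent.Lib.Helper94.OrbStab
import Cfsg.Agent.Lib.Helper94.GolayFixed
import Cfsg.Agent.Lib.Helper33.OctData

set_option autoImplicit false
open scoped Pointwise
open Cfsg

namespace Cfsg.Agent.S5613

open Cfsg.Agent.Lib.Helper94

theorem ncard_octads' : Cfsg.octads.ncard = 759 := by
  have h := octad_count (fun _ => True) (fun _ => true) (fun _ _ => by simp)
  have e : {x | x ∈ Cfsg.octads ∧ True} = Cfsg.octads := by ext; simp
  rw [e] at h
  rw [h]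
  decide +kernel

theorem key (o o' : Finset Cfsg.GolayPt) (ho : o ∈ Cfsg.octads) (ho' : o' ∈ Cfsg.octads) :
    244823040 = 759 * (Cfsg.Agent.Lib.Helper33.octSz (o ∩ o').card *
      Nat.card ↥(MulAction.stabilizer Cfsg.M24 o ⊓ MulAction.stabilizer Cfsg.M24 o')) := by
  have h := card_eq_orbit_orbit_mul (G := ↥Cfsg.M24) o o'
  rw [card_M24, Cfsg.Agent.Lib.Helper33.oct_rank.orbit_eq ho, ncard_octads',
    Cfsg.Agent.Lib.Helper33.oct_rank.ncard_orbit_stabilizer ho ho'] at h
  exact h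

/-- In the group of the length-24 code, the joint stabiliser of two octads has order 10752, 1152 or 720 according as the octads meet in 0, 4 or 2 points. -/
theorem result (o o' : Finset Cfsg.GolayPt) (ho : o ∈ Cfsg.octads) (ho' : o' ∈ Cfsg.octads) : ((o ∩ o').card = 0 → Nat.card ↥(MulAction.stabilizer Cfsg.M24 o ⊓ MulAction.stabilizer Cfsg.M24 o') = 10752) ∧ ((o ∩ o').card = 4 → Nat.card ↥(MulAction.stabilizer Cfsg.M24 o ⊓ MulAction.stabilizer Cfsg.M24 o') = 1152) ∧ ((o ∩ o').card = 2 → Nat.card ↥(MulAction.stabilizer Cfsg.M24 o ⊓ MulAction.stabilizer Cfsg.M24 o') = 720) := by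
  have h := key o o' ho ho'
  refine ⟨?_, ?_, ?_⟩
  · intro h0
    rw [h0, Cfsg.Agent.Lib.Helper33.octSz_0] at h
    omega
  · intro h0
    rw [h0, Cfsg.Agent.Lib.Helper33.octSz_4] at h
    omega
  · intro h0
    rw [h0, Cfsg.Agent.Lib.Helper33.octSz_2] at h
    omega

end Cfsg.Agent.S5613
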