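import Cfsg.Statements.S5614
import Cfsg.Agent.Lib.Helper94.GolayPairs
import Cfsg.Agent.Lib.Helper94.PermIso

set_option autoImplicit false
open scoped Pointwise
open Cfsg

namespace Cfsg.Agent.S5614

open Cfsg.Agent.Lib.Helper94

/-- In the group of the length-24 code, the joint stabiliser of two octads meeting in exactly two points is isomorphic to the symmetric group of degree 6. -/
theorem result (o o' : Finset Cfsg.GolayPt) (ho : o ∈ Cfsg.octads) (ho' : o' ∈ Cfsg.octads) (h₂ : (o ∩ o').card = 2) : Nonempty (↥(MulAction.stabilizer Cfsg.M24 o ⊓ MulAction.stabilizer Cfsg.M24 o') ≃* Equiv.Perm (Fin 6)) := by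
  have hcard : Nat.card ↥(MulAction.stabilizer Cfsg.M24 o ⊓ MulAction.stabilizer Cfsg.M24 o') = Nat.factorial 6 := by
    have h := card_stab_two_octads o o' ho ho'
    rw [h₂, Cfsg.Agent.Lib.Helper33.octSz_2] at h
    have : Nat.factorial 6 = 720 := by decide
    omega
  have h6 : (o \ o').card = 6 := by
    have h1 := Finset.card_sdiff_add_card_inter o o'
    have h8 : o.card = 8 := ho.2
    omega
  have hA : ∀ (g : ↥(MulAction.stabilizer Cfsg.M24 o ⊓ MulAction.stabilizer Cfsg.M24 o')) (x : Cfsg.GolayPt),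
      ((Cfsg.M24.subtype.comp (Subgroup.subtype _)) g) x ∈ o \ o' ↔ x ∈ o \ o' := by
    intro g x
    have h1 : ((g : ↥Cfsg.M24) : Equiv.Perm Cfsg.GolayPt) • o = o := g.2.1
    have h2 : ((g : ↥Cfsg.M24) : Equiv.Perm Cfsg.GolayPt) • o' = o' := g.2.2
    have h3 : ((g : ↥Cfsg.M24) : Equiv.Perm Cfsg.GolayPt) • (o \ o') = o \ o' := by
      rw [Finset.smul_finset_sdiff, h1, h2]
    show ((g : ↥Cfsg.M24) : Equiv.Perm Cfsg.GolayPt) x ∈ o \ o' ↔ x ∈ o \ o'
    conv_lhs => rw [← h3]
    exact Finset.smul_mem_smul_finset_iff _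
  apply mulEquiv_perm_of_card (Cfsg.M24.subtype.comp (Subgroup.subtype _)) (o \ o') h6 hA _ hcard
  intro g hf
  apply Subtype.ext
  apply Subtype.ext
  exact eq_one_of_fix_sdiff ho ho' h₂ (g : ↥Cfsg.M24).2 g.2.2 hf

end Cfsg.Agent.S5614
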