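import Cfsg.Statements.S5616
import Cfsg.Agent.Lib.Helper33.MixTriadSx

set_option autoImplicit false
open scoped Pointwise
open Cfsg

namespace Cfsg.Agent.S5616

/-- Let Y be a set of 3 of the 24 points. The sextets of the length-24 code whose tetrads meeting Y number 1, 2 or 3 are respectively 21, 630 and 1120 in number, and two sextets with the same number of tetrads meeting Y are conjugate under the setwise stabiliser of Y in the code's group. -/
theorem result (Y : Finset Cfsg.GolayPt) (hY : Y.card = 3) : {S : Finset (Finset Cfsg.GolayPt) | S ∈ Cfsg.sextets ∧ (S.filter fun t => (t ∩ Y).Nonempty).card = 1}.ncard = 21 ∧ {S : Finset (Finset Cfsg.GolayPt) | S ∈ Cfsg.sextets ∧ (S.filter fun t => (t ∩ Y).Nonempty).card = 2}.ncard = 630 ∧ {S : Finset (Finset Cfsg.GolayPt) | S ∈ Cfsg.sextets ∧ (S.filter fun t => (t ∩ Y).Nonempty).card = 3}.ncard = 1120 ∧ ∀ S S' : Finset (Finset Cfsg.GolayPt), S ∈ Cfsg.sextets → S' ∈ Cfsg.sextets → (S.filter fun t => (t ∩ Y).Nonempty).card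 = (S'.filter fun t => (t ∩ Y).Nonempty).card → ∃ g ∈ Cfsg.M24, g • Y = Y ∧ g • S = S' := by
  have ha := Cfsg.Agent.Lib.Helper33.triad_rank.trans Y hY
  have D := Cfsg.Agent.Lib.Helper33.triadSx_mix
  refine ⟨?_, ?_, ?_, ?_⟩
  · exact (D.count' ha 1).trans Cfsg.Agent.Lib.Helper33.triadSxSz_1
  · exact (D.count' ha 2).trans Cfsg.Agent.Lib.Helper33.triadSxSz_2
  · exact (D.count' ha 3).trans Cfsg.Agent.Lib.Helper33.triadSxSz_3
  · intro S S' hS hS' h
    obtain ⟨g, hg, hg'⟩ := D.trans₂' ha hS hS' h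
    exact ⟨g.1, g.2, hg, hg'⟩

end Cfsg.Agent.S5616
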