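import Cfsg.Statements.S5617
import Cfsg.Agent.Lib.Helper33.MixDpSx

set_option autoImplicit false
open scoped Pointwise
open Cfsg

namespace Cfsg.Agent.S5617

/-- The setwise stabiliser, in the group of the length-24 code, of a complementary pair of dodecads has exactly three orbits on the 1771 sextets, of sizes 396, 495 and 880. -/
theorem result (d : Finset Cfsg.GolayPt) (hd : d ∈ Cfsg.dodecads) : ∃ X₁ ∈ Cfsg.sextets, ∃ X₂ ∈ Cfsg.sextets, ∃ X₃ ∈ Cfsg.sextets, (MulAction.orbit ↥(MulAction.stabilizer Cfsg.M24 ({d, Finset.univ \ d} : Finset (Finset Cfsg.GolayPt))) X₁).ncard = 396 ∧ (MulAction.orbit ↥(MulAction.stabilizer Cfsg.M24 ({d, Finset.univ \ d} : Finset (Finset Cfsg.GolayPt))) X₂).ncard = 495 ∧ (MulAction.orbit ↥(MulAction.stabilizer Cfsg.M24 ({d, Finset.univ \ d} : Finset (Finset Cfsg.GolayPt))) X₃).ncard = 880 ∧ Cfsg.sextets = MulAction.orbit ↥(MulAction.stabilizer Cfsg.M24 ({d, Finset.univ \ d} : Finset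 (Finset Cfsg.GolayPt))) X₁ ∪ MulAction.orbit ↥(MulAction.stabilizer Cfsg.M24 ({d, Finset.univ \ d} : Finset (Finset Cfsg.GolayPt))) X₂ ∪ MulAction.orbit ↥(MulAction.stabilizer Cfsg.M24 ({d, Finset.univ \ d} : Finset (Finset Cfsg.GolayPt))) X₃ := by
  have ha : ∃ g : ↥Cfsg.M24, g • ({d, Finset.univ \ d} : Finset (Finset Cfsg.GolayPt)) =
      {Cfsg.Agent.Lib.Helper33.unmask (Cfsg.Agent.Lib.Helper33.fld24 Cfsg.Agent.Lib.Helper33.dodTab 0),
        Finset.univ \ Cfsg.Agent.Lib.Helper33.unmask (Cfsg.Agent.Lib.Helper33.fld24 Cfsg.Agent.Lib.Helper33.dodTab 0)} := by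
    obtain ⟨g, hg⟩ := Cfsg.Agent.Lib.Helper33.dod_rank.trans d hd
    refine ⟨g, ?_⟩
    have h1 : g • ({d, Finset.univ \ d} : Finset (Finset Cfsg.GolayPt)) =
      g.1 • ({d, Finset.univ \ d} : Finset (Finset Cfsg.GolayPt)) := rfl
    have h2 : g.1 • d = Cfsg.Agent.Lib.Helper33.unmask (Cfsg.Agent.Lib.Helper33.fld24 Cfsg.Agent.Lib.Helper33.dodTab 0) := hg
    rw [h1, Cfsg.Agent.Lib.Helper33.smul_pair, h2]
  exact Cfsg.Agent.Lib.Helper33.dpSx_mix.orbits3 ha Cfsg.Agent.Lib.Helper33.dpSxSz_48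
      Cfsg.Agent.Lib.Helper33.dpSxSz_64 Cfsg.Agent.Lib.Helper33.dpSxSz_60 (by norm_num) (by norm_num) (by norm_num)
      (fun y hy => by
        rcases Cfsg.Agent.Lib.Helper33.dpSx_relJ y hy with h | h | h
        · exact Or.inr (Or.inr h)
        · exact Or.inl h
        · exact Or.inr (Or.inl h))

end Cfsg.Agent.S5617
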