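import Cfsg.Statements.S5618
import Cfsg.Agent.Lib.Helper94.M12Facts
import Cfsg.Agent.Lib.Helper94.GolayPerm

set_option autoImplicit false
open scoped Pointwise
open Cfsg

namespace Cfsg.Agent.S5618

open Cfsg.Agent.Lib.Helper94

/-- For a dodecad d of the length-24 code and a hexad C on it (a 6-point intersection of d with an octad): the joint stabiliser of d and C in the code's group is isomorphic to the symmetric group of degree 6, and it acts faithfully both on the six points of C and on the six points of d outside C. -/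
theorem result (d : Finset Cfsg.GolayPt) (hd : d ∈ Cfsg.dodecads) (C : Finset Cfsg.GolayPt) (hC : C ∈ Cfsg.hexadsOn d) : Nonempty (↥(MulAction.stabilizer Cfsg.M24 d ⊓ MulAction.stabilizer Cfsg.M24 C) ≃* Equiv.Perm (Fin 6)) ∧ (∀ g ∈ MulAction.stabilizer Cfsg.M24 d ⊓ MulAction.stabilizer Cfsg.M24 C, (∀ p ∈ C, ((g : ↥Cfsg.M24) : Equiv.Perm Cfsg.GolayPt) p = p) → g = 1) ∧ ∀ g ∈ MulAction.stabilizer Cfsg.M24 d ⊓ MulAction.stabilizer Cfsg.M24 C, (∀ p ∈ d \ C, ((g : ↥Cfsg.M24) : Equiv.Perm Cfsg.GolayPt) p = p) → g = 1 := by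
  obtain ⟨hC6, o, ho, hoC⟩ := hC
  have hCd : C ⊆ d := by rw [← hoC]; exact Finset.inter_subset_right
  have hCo : C ⊆ o := by rw [← hoC]; exact Finset.inter_subset_left
  have hd12 : d.card = 12 := hd.2
  refine ⟨?_, fun g hg hf => m12_fix5 hd hCd (by omega) hg.1 hf,
    fun g hg hf => m12_fix5 hd Finset.sdiff_subset (by rw [Finset.card_sdiff_of_subset hCd]; omega) hg.1 hf⟩
  have hA : ∀ (g : ↥(MulAction.stabilizer Cfsg.M24 d ⊓ MulAction.stabilizer Cfsg.M24 C)) (x : Cfsg.GolayPt),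
      ((Cfsg.M24.subtype.comp (Subgroup.subtype _)) g) x ∈ C ↔ x ∈ C := by
    intro g x
    exact smul_mem_iff_of_smul_eq (g := ((g : ↥Cfsg.M24) : Equiv.Perm Cfsg.GolayPt)) g.2.2 x
  apply mulEquiv_perm_of_surj (Cfsg.M24.subtype.comp (Subgroup.subtype _)) C hC6 hA
  · intro g hf
    exact Subtype.ext (m12_fix5 hd hCd (by omega) g.2.1 hf)
  · intro σ
    have hcard : Fintype.card (Fin 5) ≤ Fintype.card ↥C := by simp [hC6]
    obtain ⟨x⟩ := Function.Embedding.nonempty_of_card_le hcard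
    obtain ⟨g0, hg0, _⟩ := Cfsg.Agent.Lib.Helper9.m12_sharp d hd (x.trans (Function.Embedding.subtype _))
      ((x.trans σ.toEmbedding).trans (Function.Embedding.subtype _)) (fun i => hCd (x i).2)
      (fun i => hCd (σ (x i)).2)
    have hγd : ((g0 : ↥Cfsg.M24) : Equiv.Perm Cfsg.GolayPt) • d = d := g0.2
    have hγo : ((g0 : ↥Cfsg.M24) : Equiv.Perm Cfsg.GolayPt) • o = o := by
      apply octad_eq_of_inter ((smul_mem_octads_iff (g0 : ↥Cfsg.M24).2 o).2 ho) ho
      have hsub : Finset.univ.map ((x.trans σ.toEmbedding).trans (Function.Embedding.subtype _)) ⊆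
          ((g0 : ↥Cfsg.M24) : Equiv.Perm Cfsg.GolayPt) • o ∩ o := by
        intro p hp
        obtain ⟨i, _, rfl⟩ := Finset.mem_map.1 hp
        rw [Finset.mem_inter]
        constructor
        · rw [← hg0 i]
          exact Finset.smul_mem_smul_finset (hCo (x i).2)
        · exact hCo (σ (x i)).2
      have := Finset.card_le_card hsub
      simpa using this
    have hγC : ((g0 : ↥Cfsg.M24) : Equiv.Perm Cfsg.GolayPt) • C = C := by
      rw [← hoC, Finset.smul_finset_inter, hγo, hγd]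
    refine ⟨⟨(g0 : ↥Cfsg.M24), ⟨g0.2, hγC⟩⟩, ?_⟩
    have hτ := perm_eq_of_agree5 (by simp [hC6]) σ
      (restrictHom (Cfsg.M24.subtype.comp (Subgroup.subtype _)) C hA ⟨(g0 : ↥Cfsg.M24), ⟨g0.2, hγC⟩⟩) x
      (fun i => Subtype.ext (hg0 i))
    intro u
    rw [← hτ]
    rfl

end Cfsg.Agent.S5618
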