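import Cfsg.Statements.S5619
import Cfsg.Agent.Lib.Helper94.M9Base

set_option autoImplicit false
open scoped Pointwise
open Cfsg

namespace Cfsg.Agent.S5619

open Cfsg.Agent.Lib.Helper94

theorem conf_to_base {d : Finset Cfsg.GolayPt} (hd : d ∈ Cfsg.dodecads) {p q r : Cfsg.GolayPt} (hp : p ∈ d)
    (hq : q ∈ d) (hr : r ∈ d) (hpq : p ≠ q) (hpr : p ≠ r) (hqr : q ≠ r) :
    ∃ k ∈ Cfsg.M24, k • d = unm 11472927 ∧ k p = pt 23 ∧ k q = pt 0 ∧ k r = pt 1 := by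
  have hB : 1 < (d \ {p, q, r}).card := by
    have h1 := Finset.le_card_sdiff ({p, q, r} : Finset Cfsg.GolayPt) d
    have h2 : ({p, q, r} : Finset Cfsg.GolayPt).card ≤ 3 := Finset.card_le_three
    have h3 : d.card = 12 := hd.2
    omega
  obtain ⟨a, ha, b, hb, hab⟩ := Finset.one_lt_card.1 hB
  simp only [Finset.mem_sdiff, Finset.mem_insert, Finset.mem_singleton, not_or] at ha hb
  have hnd : [p, q, r, a, b].Nodup := by
    simp only [List.nodup_cons, List.mem_cons, List.not_mem_nil, or_false, not_or, not_false_eq_true,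
      List.nodup_nil, and_true]
    exact ⟨⟨hpq, hpr, fun h => ha.2.1 h.symm, fun h => hb.2.1 h.symm⟩,
      ⟨hqr, fun h => ha.2.2.1 h.symm, fun h => hb.2.2.1 h.symm⟩,
      ⟨fun h => ha.2.2.2 h.symm, fun h => hb.2.2.2 h.symm⟩, hab⟩
  let x : Fin 5 ↪ Cfsg.GolayPt := ⟨fun i => [p, q, r, a, b].get i, List.nodup_iff_injective_get.1 hnd⟩
  let y : Fin 5 ↪ Cfsg.GolayPt :=
    ⟨fun i => [pt 23, pt 0, pt 1, pt 2, pt 3].get i, List.nodup_iff_injective_get.1 base5_nodup⟩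
  have hx : ∀ i, x i ∈ d := by
    intro i
    fin_cases i
    exacts [hp, hq, hr, ha.1, hb.1]
  have hy : ∀ i, y i ∈ unm 11472927 := by
    intro i
    rw [mem_unm]
    fin_cases i <;> decide +kernel
  obtain ⟨u, hu, hud, hux⟩ := Cfsg.Agent.Lib.Helper9.dod5_to_base hd x hx
  obtain ⟨v, hv, hvd, hvy⟩ := Cfsg.Agent.Lib.Helper9.dod5_to_base D9_mem y hy
  refine ⟨v⁻¹ * u, Cfsg.M24.mul_mem (Cfsg.M24.inv_mem hv) hu, ?_, ?_, ?_, ?_⟩
  · rw [mul_smul, hud, ← hvd, inv_smul_smul]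
  · have h1 := hux 0
    have h2 := hvy 0
    rw [Equiv.Perm.mul_apply, Equiv.Perm.inv_eq_iff_eq]
    exact h1.trans h2.symm
  · have h1 := hux 1
    have h2 := hvy 1
    rw [Equiv.Perm.mul_apply, Equiv.Perm.inv_eq_iff_eq]
    exact h1.trans h2.symm
  · have h1 := hux 2
    have h2 := hvy 2
    rw [Equiv.Perm.mul_apply, Equiv.Perm.inv_eq_iff_eq]
    exact h1.trans h2.symm

theorem stab4_equiv (k : ↥Cfsg.M24) (d : Finset Cfsg.GolayPt) (p q r : Cfsg.GolayPt) :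
    Nonempty (↥(MulAction.stabilizer Cfsg.M24 d ⊓ MulAction.stabilizer Cfsg.M24 p ⊓
      MulAction.stabilizer Cfsg.M24 q ⊓ MulAction.stabilizer Cfsg.M24 r) ≃*
      ↥(MulAction.stabilizer Cfsg.M24 (k • d) ⊓ MulAction.stabilizer Cfsg.M24 (k • p) ⊓
      MulAction.stabilizer Cfsg.M24 (k • q) ⊓ MulAction.stabilizer Cfsg.M24 (k • r))) := by
  have hi : Function.Injective (MulAut.conj k).toMonoidHom := (MulAut.conj k).injective
  rw [MulAction.stabilizer_smul_eq_stabilizer_map_conj, MulAction.stabilizer_smul_eq_stabilizer_map_conj,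
    MulAction.stabilizer_smul_eq_stabilizer_map_conj, MulAction.stabilizer_smul_eq_stabilizer_map_conj,
    ← Subgroup.map_inf _ _ _ hi, ← Subgroup.map_inf _ _ _ hi, ← Subgroup.map_inf _ _ _ hi]
  exact ⟨Subgroup.equivMapOfInjective _ _ hi⟩

theorem facts (d : Finset Cfsg.GolayPt) (hd : d ∈ Cfsg.dodecads) (p q r : Cfsg.GolayPt) (hp : p ∈ d) (hq : q ∈ d)
    (hr : r ∈ d) (hpq : p ≠ q) (hpr : p ≠ r) (hqr : q ≠ r) :
    M9Facts ↥(MulAction.stabilizer Cfsg.M24 d ⊓ MulAction.stabilizer Cfsg.M24 p ⊓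
      MulAction.stabilizer Cfsg.M24 q ⊓ MulAction.stabilizer Cfsg.M24 r) := by
  obtain ⟨k, hk, e1, e2, e3, e4⟩ := conf_to_base hd hp hq hr hpq hpr hqr
  obtain ⟨φ⟩ := stab4_equiv ⟨k, hk⟩ d p q r
  apply M9Facts.of_equiv φ
  apply m9Facts_of_mem
  intro x
  have f1 : (⟨k, hk⟩ : ↥Cfsg.M24) • d = unm 11472927 := e1
  have f2 : (⟨k, hk⟩ : ↥Cfsg.M24) • p = pt 23 := e2
  have f3 : (⟨k, hk⟩ : ↥Cfsg.M24) • q = pt 0 := e3
  have f4 : (⟨k, hk⟩ : ↥Cfsg.M24) • r = pt 1 := e4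
  rw [f1, f2, f3, f4]
  simp only [Subgroup.mem_inf, MulAction.mem_stabilizer_iff, and_assoc]
  rfl

/-- In the group of the length-24 code, the subgroup fixing a dodecad setwise and three of its points individually (a group of order 72) has a normal Sylow 3-subgroup that is elementary abelian of order 9, and its Sylow 2-subgroups are quaternion of order 8. -/
theorem result (d : Finset Cfsg.GolayPt) (hd : d ∈ Cfsg.dodecads) (p q r : Cfsg.GolayPt) (hp : p ∈ d) (hq : q ∈ d) (hr : r ∈ d) (hpq : p ≠ q) (hpr : p ≠ r) (hqr : q ≠ r) : (∀ Q : Sylow 3 ↥(MulAction.stabilizer Cfsg.M24 d ⊓ MulAction.stabilizer Cfsg.M24 p ⊓ MulAction.stabilizer Cfsg.M24 q ⊓ MulAction.stabilizer Cfsg.M24 r), (Q : Subgroup ↥(MulAction.stabilizer Cfsg.M24 d ⊓ MulAction.stabilizer Cfsg.M24 p ⊓ MulAction.stabilizer Cfsg.M24 q ⊓ MulAction.stabilizer Cfsg.M24 r)).Normal ∧ Nat.card ↥Q = 9 ∧ ∀ x ∈ (Q : Subgroup ↥(MulAction.stabilizer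 Cfsg.M24 d ⊓ MulAction.stabilizer Cfsg.M24 p ⊓ MulAction.stabilizer Cfsg.M24 q ⊓ MulAction.stabilizer Cfsg.M24 r)), x ^ 3 = 1) ∧ ∀ P : Sylow 2 ↥(MulAction.stabilizer Cfsg.M24 d ⊓ MulAction.stabilizer Cfsg.M24 p ⊓ MulAction.stabilizer Cfsg.M24 q ⊓ MulAction.stabilizer Cfsg.M24 r), Nonempty (↥P ≃* QuaternionGroup 2) := by
  have h := facts d hd p q r hp hq hr hpq hpr hqr
  exact ⟨fun Q => h.sylow3 Q, fun P => h.sylow2 P⟩

end Cfsg.Agent.S5619
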