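import Cfsg.Statements.S5620
import Cfsg.Agent.Lib.Helper94.GolayClassFacts
import Cfsg.Agent.Lib.Helper9.M12Gen

set_option autoImplicit false
open scoped Pointwise
open Cfsg

namespace Cfsg.Agent.S5620

open Cfsg.Agent.Lib.Helper94

/-- an element of the group mapping the dodecad of squares to its complement and `0` to the extra point. -/
def gD : ℕ := 0x810000000020001000000000100800000000080000800000040000040000040100000000020000800040000000040000010010000000020000008000040000200000008000800000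

theorem gD_in : inM24 gD = true := by decide +kernel

theorem sqD_eq : Cfsg.Spor.squareDodecad = unm 340831 := by
  have h := vec_gen_qr 0
  have e : genL.getD (0 : ZMod 23).val 0 = 340831 := by decide +kernel
  rw [e] at h
  rw [Cfsg.Spor.squareDodecad, ← h, support₂_vec]

theorem sqD_mem : Cfsg.Spor.squareDodecad ∈ Cfsg.dodecads := by
  rw [sqD_eq]; exact unm_mem_dodecads (by decide +kernel)

theorem compl_eq : Finset.univ \ Cfsg.Spor.squareDodecad = unm 16436384 := by
  rw [← msk_eq_iff (by norm_num), msk_sdiff, msk_univ, sqD_eq, msk_unm (by norm_num)]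
  decide +kernel

theorem gD_smul : permOf gD • Cfsg.Spor.squareDodecad = Finset.univ \ Cfsg.Spor.squareDodecad := by
  rw [compl_eq, ← msk_eq_iff (by norm_num), applyM_permOf (validM_of_inM24 gD_in), sqD_eq, msk_unm (by norm_num)]
  decide +kernel

theorem gD_zero : permOf gD (some 0) = none := by
  rw [permOf_apply_eq_iff (validM_of_inM24 gD_in)]
  decide +kernel

theorem mem_M11 (x : Equiv.Perm Cfsg.GolayPt) : x ∈ Cfsg.Spor.M11 ↔
    x ∈ Cfsg.M24 ∧ x • Cfsg.Spor.squareDodecad = Cfsg.Spor.squareDodecad ∧ x (some 0) = some 0 := by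
  simp only [Cfsg.Spor.M11, Cfsg.Spor.M12, Subgroup.mem_inf, MulAction.mem_stabilizer_iff, Equiv.Perm.smul_def,
    and_assoc]

theorem mem_M11' (x : Equiv.Perm Cfsg.GolayPt) :
    x ∈ Cfsg.Spor.M12 ⊓ MulAction.stabilizer (Equiv.Perm Cfsg.GolayPt) (none : Cfsg.GolayPt) ↔
    x ∈ Cfsg.M24 ∧ x • Cfsg.Spor.squareDodecad = Cfsg.Spor.squareDodecad ∧ x none = none := by
  simp only [Cfsg.Spor.M12, Subgroup.mem_inf, MulAction.mem_stabilizer_iff, Equiv.Perm.smul_def,
    and_assoc]

theorem mem_conj_smul (k y : Equiv.Perm Cfsg.GolayPt) (H : Subgroup (Equiv.Perm Cfsg.GolayPt)) :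
    y ∈ MulAut.conj k • H ↔ k⁻¹ * y * k ∈ H := by
  rw [Subgroup.mem_pointwise_smul_iff_inv_smul_mem]
  have : (MulAut.conj k)⁻¹ • y = k⁻¹ * y * k := by
    rw [MulAut.smul_def, ← map_inv, MulAut.conj_apply, inv_inv]
  rw [this]

theorem smul_compl_iff (y : Equiv.Perm Cfsg.GolayPt) (d : Finset Cfsg.GolayPt) :
    y • (Finset.univ \ d) = Finset.univ \ d ↔ y • d = d := by
  rw [Finset.smul_finset_sdiff, Finset.smul_finset_univ]
  constructor
  · intro h
    have := congrArg (fun s => Finset.univ \ s) h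
    simpa using this
  · intro h
    rw [h]

theorem conj_gD : MulAut.conj (permOf gD) • Cfsg.Spor.M11 =
    Cfsg.Spor.M12 ⊓ MulAction.stabilizer (Equiv.Perm Cfsg.GolayPt) (none : Cfsg.GolayPt) := by
  have hg := permOf_mem_M24 gD_in
  ext y
  rw [mem_conj_smul, mem_M11, mem_M11']
  have h1 : (permOf gD)⁻¹ * y * permOf gD ∈ Cfsg.M24 ↔ y ∈ Cfsg.M24 := by
    rw [Cfsg.M24.mul_mem_cancel_right hg, Cfsg.M24.mul_mem_cancel_left (Cfsg.M24.inv_mem hg)]
  have h2 : ((permOf gD)⁻¹ * y * permOf gD) • Cfsg.Spor.squareDodecad = Cfsg.Spor.squareDodecad ↔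
      y • Cfsg.Spor.squareDodecad = Cfsg.Spor.squareDodecad := by
    rw [mul_smul, mul_smul, gD_smul, inv_smul_eq_iff, gD_smul, smul_compl_iff]
  have h3 : ((permOf gD)⁻¹ * y * permOf gD) (some 0) = some 0 ↔ y none = none := by
    rw [Equiv.Perm.mul_apply, Equiv.Perm.mul_apply, gD_zero, Equiv.Perm.inv_eq_iff_eq, gD_zero]
  rw [h1, h2, h3]

/-- Inside the stabiliser of the dodecad of squares (a Mathieu group of degree 12), the stabiliser of the residue 0 (a point of the dodecad) and the stabiliser of the extra point (a point outside the dodecad) are isomorphic but not conjugate; conjugation by a suitable element of the code's group that maps the dodecad of squares onto its complement carries the first onto the second. -/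
theorem result : Nonempty (↥(Cfsg.Spor.M12 ⊓ MulAction.stabilizer (Equiv.Perm Cfsg.GolayPt) (none : Cfsg.GolayPt)) ≃* ↥Cfsg.Spor.M11) ∧ (¬ ∃ k ∈ Cfsg.Spor.M12, MulAut.conj k • Cfsg.Spor.M11 = Cfsg.Spor.M12 ⊓ MulAction.stabilizer (Equiv.Perm Cfsg.GolayPt) (none : Cfsg.GolayPt)) ∧ ∃ g ∈ Cfsg.M24, g • Cfsg.Spor.squareDodecad = Finset.univ \ Cfsg.Spor.squareDodecad ∧ MulAut.conj g • Cfsg.Spor.M11 = Cfsg.Spor.M12 ⊓ MulAction.stabilizer (Equiv.Perm Cfsg.GolayPt) (none : Cfsg.GolayPt) := by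
  refine ⟨?_, ?_, ⟨permOf gD, permOf_mem_M24 gD_in, gD_smul, conj_gD⟩⟩
  · exact ⟨((Subgroup.equivSMul (MulAut.conj (permOf gD)) Cfsg.Spor.M11).trans
      (MulEquiv.subgroupCongr conj_gD)).symm⟩
  · rintro ⟨k, hk, e⟩
    have hkM : k ∈ Cfsg.M24 := hk.1
    have hkd : k • Cfsg.Spor.squareDodecad = Cfsg.Spor.squareDodecad := hk.2
    have h0 : (some 0 : Cfsg.GolayPt) ∈ Cfsg.Spor.squareDodecad := by
      rw [sqD_eq, mem_unm]; decide
    have hp : k (some 0) ∈ Cfsg.Spor.squareDodecad := by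
      have := Finset.smul_mem_smul_finset (a := k) h0
      rwa [hkd] at this
    have hout : ∀ i : Fin 3, (![none, some 5, some 7] : Fin 3 → Cfsg.GolayPt) i ∉ Cfsg.Spor.squareDodecad := by
      rw [sqD_eq]
      intro i
      rw [mem_unm]
      fin_cases i <;> decide
    have hout' : ∀ i : Fin 3, (![some 5, none, some 7] : Fin 3 → Cfsg.GolayPt) i ∉ Cfsg.Spor.squareDodecad := by
      rw [sqD_eq]
      intro i
      rw [mem_unm]
      fin_cases i <;> decide
    obtain ⟨γ, hγ, hγi⟩ := Cfsg.Agent.Lib.Helper9.m11_three_trans Cfsg.Spor.squareDodecad sqD_mem (k (some 0)) hp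
      ⟨![none, some 5, some 7], by decide⟩ ⟨![some 5, none, some 7], by decide⟩ hout hout'
    have hγ0 : (γ : Equiv.Perm Cfsg.GolayPt) none = some 5 := hγi 0
    have hγd : (γ : Equiv.Perm Cfsg.GolayPt) • Cfsg.Spor.squareDodecad = Cfsg.Spor.squareDodecad := hγ.1
    have hγp : (γ : Equiv.Perm Cfsg.GolayPt) (k (some 0)) = k (some 0) := hγ.2
    have hmem : (γ : Equiv.Perm Cfsg.GolayPt) ∈ MulAut.conj k • Cfsg.Spor.M11 := by
      rw [mem_conj_smul, mem_M11]
      refine ⟨Cfsg.M24.mul_mem (Cfsg.M24.mul_mem (Cfsg.M24.inv_mem hkM) γ.2) hkM, ?_, ?_⟩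
      · rw [mul_smul, mul_smul, hkd, hγd, inv_smul_eq_iff, hkd]
      · rw [Equiv.Perm.mul_apply, Equiv.Perm.mul_apply, hγp]
        simp
    rw [e, mem_M11'] at hmem
    rw [hmem.2.2] at hγ0
    exact absurd hγ0 (by simp)

end Cfsg.Agent.S5620
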