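import Cfsg.Statements.S5625
import Cfsg.Agent.Lib.Helper10.Steiner2

set_option autoImplicit false
open Cfsg

namespace Cfsg.Agent.S5625

/-- In any Steiner system S(5, 8, 24) and for any set Y of three points, the blocks meeting Y in exactly 3, 2, 1 and 0 points number 21, 168, 360 and 210 respectively (so there are 759 blocks in all). -/
theorem result (α : Type*) [Fintype α] [DecidableEq α] (hα : Fintype.card α = 24) (B : Set (Finset α)) (hB : Cfsg.IsSteinerSystem 5 8 B) (Y : Finset α) (hY : Y.card = 3) : {b : Finset α | b ∈ B ∧ (b ∩ Y).card = 3}.ncard = 21 ∧ {b : Finset α | b ∈ B ∧ (b ∩ Y).card = 2}.ncard = 168 ∧ {b : Finset α | b ∈ B ∧ (b ∩ Y).card = 1}.ncard = 360 ∧ {b : Finset α | b ∈ B ∧ (b ∩ Y).card = 0}.ncard = 210 := by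
  open Cfsg.Agent.Lib.Helper10 Finset in
  have m0 := momZ hα hB Y 0 (by norm_num) 759 (by decide) (by decide)
  have m1 := momZ hα hB Y 1 (by norm_num) 253 (by decide) (by decide)
  have m2 := momZ hα hB Y 2 (by norm_num) 77 (by decide) (by decide)
  have m3 := momZ hα hB Y 3 (by norm_num) 21 (by decide) (by decide)
  rw [hY] at m0 m1 m2 m3
  have hle : ∀ d : Finset α, (d ∩ Y).card = 0 ∨ (d ∩ Y).card = 1 ∨ (d ∩ Y).card = 2 ∨
      (d ∩ Y).card = 3 := by
    intro d
    have : (d ∩ Y).card ≤ 3 := by rw [← hY]; exact card_le_card inter_subset_right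
    omega
  have k3 := card_filter_eq_sum (blocksThrough B ∅) (fun d => (d ∩ Y).card = 3)
    (fun d => ((((d ∩ Y).card).choose 3 : ℕ) : ℤ))
    (by
      intro d _
      rcases hle d with h | h | h | h <;> simp only [h] <;> decide)
  have k2 := card_filter_eq_sum (blocksThrough B ∅) (fun d => (d ∩ Y).card = 2)
    (fun d => ((((d ∩ Y).card).choose 2 : ℕ) : ℤ) - 3 * ((((d ∩ Y).card).choose 3 : ℕ) : ℤ))
    (by
      intro d _
      rcases hle d with h | h | h | h <;> simp only [h] <;> decide)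
  have k1 := card_filter_eq_sum (blocksThrough B ∅) (fun d => (d ∩ Y).card = 1)
    (fun d => ((((d ∩ Y).card).choose 1 : ℕ) : ℤ) - 2 * ((((d ∩ Y).card).choose 2 : ℕ) : ℤ)
      + 3 * ((((d ∩ Y).card).choose 3 : ℕ) : ℤ))
    (by
      intro d _
      rcases hle d with h | h | h | h <;> simp only [h] <;> decide)
  have k0 := card_filter_eq_sum (blocksThrough B ∅) (fun d => (d ∩ Y).card = 0)
    (fun d => ((((d ∩ Y).card).choose 0 : ℕ) : ℤ) - ((((d ∩ Y).card).choose 1 : ℕ) : ℤ)
      + ((((d ∩ Y).card).choose 2 : ℕ) : ℤ) - ((((d ∩ Y).card).choose 3 : ℕ) : ℤ))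
    (by
      intro d _
      rcases hle d with h | h | h | h <;> simp only [h] <;> decide)
  rw [m3] at k3
  rw [sum_sub_distrib, ← mul_sum, m2, m3] at k2
  rw [sum_add_distrib, sum_sub_distrib, ← mul_sum, ← mul_sum, m1, m2, m3] at k1
  rw [sum_sub_distrib, sum_add_distrib, sum_sub_distrib, m0, m1, m2, m3] at k0
  rw [ncard_sep_eq_card_filter B (fun b => (b ∩ Y).card = 3),
    ncard_sep_eq_card_filter B (fun b => (b ∩ Y).card = 2),
    ncard_sep_eq_card_filter B (fun b => (b ∩ Y).card = 1),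
    ncard_sep_eq_card_filter B (fun b => (b ∩ Y).card = 0)]
  have c0 : (Nat.choose 3 0) = 1 := by decide
  have c1 : (Nat.choose 3 1) = 3 := by decide
  have c2 : (Nat.choose 3 2) = 3 := by decide
  have c3 : (Nat.choose 3 3) = 1 := by decide
  rw [c3] at k3
  rw [c2, c3] at k2
  rw [c1, c2, c3] at k1
  rw [c0, c1, c2, c3] at k0
  refine ⟨?_, ?_, ?_, ?_⟩ <;> omega

end Cfsg.Agent.S5625
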