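import Cfsg.Statements.S5626
import Cfsg.Agent.Lib.Helper10.Design21

set_option autoImplicit false
open Cfsg

namespace Cfsg.Agent.S5626

/-- Uniqueness of the projective plane of order 4: any two Steiner systems S(2, 5, 21) (21 points, lines of 5 points, two points on exactly one line) are isomorphic. -/
theorem result {α β : Type*} [Fintype α] [DecidableEq α] [Fintype β] [DecidableEq β] (hα : Fintype.card α = 21) (hβ : Fintype.card β = 21) {L : Set (Finset α)} {L' : Set (Finset β)} (hL : Cfsg.IsSteinerSystem 2 5 L) (hL' : Cfsg.IsSteinerSystem 2 5 L') : Cfsg.SetSystemIso L L' := by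
  open Cfsg.Agent.Lib.Helper10 in
  exact iso_of_labelled (v := 21) (t := 2) (k := 5) (by norm_num) hα hβ hL hL' (by norm_num)
    cover21 (labelled21 hα hL) (labelled21 hβ hL')

end Cfsg.Agent.S5626
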