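import Cfsg.Statements.S5631
-- import your own Cfsg.Agent.* helpers here
import Cfsg.Agent.Lib.Helper95.Glue2
import Cfsg.Agent.Lib.Helper95.SLGen
import Cfsg.Agent.Lib.Helper95.SympMax
import Cfsg.Agent.Lib.Helper97.FullVec

set_option autoImplicit false
open Cfsg

namespace Cfsg.Agent.S5631


open Cfsg.Agent.Lib.Helper95 Cfsg.Agent.Lib.Helper97 Module

lemma fullSub_eq_top_of_stab {K V : Type*} [Field K] [AddCommGroup V] [Module K V]
    [FiniteDimensional K V] {W : Submodule K V} (M : Subgroup (V ≃ₗ[K] V))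
    (hM : slGrp K V ⊓ stabGrp W ≤ M) {g : V ≃ₗ[K] V} (hg : g ∈ M) (hgW : g ∉ stabGrp W) :
    fullSub M = ⊤ := by
  have h1 : ∀ v ∈ W, Full M v := by
    intro v hv φ hφ
    refine ⟨hφ, hM (Subgroup.mem_inf.2 ⟨LinearEquiv.transvection.det_eq_one _, ?_⟩)⟩
    intro x
    rw [LinearEquiv.transvection.apply]
    exact (W.add_mem_iff_left (W.smul_mem _ hv)).symm
  have h2 : ∀ (ψ : Dual K V), (∀ x ∈ W, ψ x = 0) → ∀ y, ψ y = 0 → TX M y ψ := by
    intro ψ hψ y hy
    refine ⟨hy, hM (Subgroup.mem_inf.2 ⟨LinearEquiv.transvection.det_eq_one _, ?_⟩)⟩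
    apply mem_stabGrp_of_forall
    intro x hx
    rw [LinearEquiv.transvection.apply, hψ x hx, zero_smul, add_zero]
    exact hx
  obtain ⟨w, hw, hgw⟩ : ∃ w ∈ W, g w ∉ W := by
    by_contra hcon
    push Not at hcon
    exact hgW (mem_stabGrp_of_forall hcon)
  have hu : g w ∈ fullSub M := fullSub_conj (h1 w hw) hg
  obtain ⟨ψ, hψu, hψW⟩ := Submodule.exists_dual_map_eq_bot_of_notMem hgw inferInstance
  have hψW' : ∀ x ∈ W, ψ x = 0 := by
    intro x hx
    have : ψ x ∈ W.map ψ := ⟨x, hx, rfl⟩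
    rw [hψW] at this
    simpa using this
  refine fullSub_eq_top_of_ker hu hψu (fun y hy => ?_)
  have h3 := fullSub_conj hu ((h2 ψ hψW' y hy).mem hy)
  rw [LinearEquiv.transvection.apply] at h3
  have h4 := (fullSub M).sub_mem h3 hu
  rw [add_sub_cancel_left] at h4
  have h5 := (fullSub M).smul_mem (ψ (g w))⁻¹ h4
  rwa [smul_smul, inv_mul_cancel₀ hψu, one_smul] at h5

lemma exists_sl_not_stab {K V : Type*} [Field K] [AddCommGroup V] [Module K V]
    {W : Submodule K V} (hW0 : W ≠ ⊥) (hW1 : W ≠ ⊤) :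
    ∃ g ∈ slGrp K V, g ∉ stabGrp W := by
  obtain ⟨w, hw, hw0⟩ := Submodule.exists_mem_ne_zero_of_ne_bot hW0
  obtain ⟨x, hx⟩ : ∃ x, x ∉ W := by
    by_contra hcon
    push Not at hcon
    exact hW1 (eq_top_iff.2 fun x _ => hcon x)
  have hwx : w ∉ Submodule.span K {x} := by
    intro h
    obtain ⟨c, rfl⟩ := Submodule.mem_span_singleton.1 h
    have hc : c ≠ 0 := by rintro rfl; simp at hw0
    apply hx
    have := W.smul_mem c⁻¹ hw
    rwa [smul_smul, inv_mul_cancel₀ hc, one_smul] at this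
  obtain ⟨f, hfw, hfx⟩ := Submodule.exists_dual_map_eq_bot_of_notMem hwx inferInstance
  have hfx' : f x = 0 := by
    have : f x ∈ (Submodule.span K {x}).map f := ⟨x, Submodule.mem_span_singleton_self x, rfl⟩
    rw [hfx] at this
    simpa using this
  refine ⟨LinearEquiv.transvection hfx', LinearEquiv.transvection.det_eq_one _, fun h => ?_⟩
  have h1 := (h w).1 hw
  rw [LinearEquiv.transvection.apply] at h1
  have h2 := (W.add_mem_iff_right hw).1 h1
  apply hx
  have := W.smul_mem (f w)⁻¹ h2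
  rwa [smul_smul, inv_mul_cancel₀ hfw, one_smul] at this

/-- For a finite field F and n ≥ 13, the stabiliser in SL_n(F) of any proper non-zero subspace W of F^n is a maximal subgroup of SL_n(F). Here SL_n(F) is the kernel of the determinant inside GL_n(F) and the stabiliser is the set of elements of determinant one mapping W onto itself. -/
theorem result {F : Type*} [Field F] [Fintype F] (n : ℕ) (hn : 13 ≤ n) (W : Submodule F (Fin n → F)) (hW0 : W ≠ ⊥) (hW1 : W ≠ ⊤) : Cfsg.Geo.IsMaximalIn (Cfsg.Geo.specialLinear (Fin n) F) (Cfsg.Geo.subspaceStabilizer W ⊓ Cfsg.Geo.specialLinear (Fin n) F) := by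
  have : Nontrivial (Fin n) := Fin.nontrivial_iff_two_le.2 (by omega)
  refine isMaximalIn_transfer (S' := stabGrp W) mem_specialLinear_iff'
    (fun g => mem_subspaceStabilizer_iff W g) (exists_sl_not_stab hW0 hW1) ?_
  intro M' h1 _ g hg hgS
  apply slGrp_le_of_transvections
  exact transvection_mem_of_fullSub_eq_top (fullSub_eq_top_of_stab M' h1 hg hgS)

end Cfsg.Agent.S5631
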