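import Cfsg.Statements.S5632
-- import your own Cfsg.Agent.* helpers here
import Cfsg.Agent.S5631

set_option autoImplicit false
open Cfsg

namespace Cfsg.Agent.S5632


open Cfsg.Agent.Lib.Helper95 Cfsg.Agent.Lib.Helper97 Module

lemma exists_sl_stab_not_stab {K V : Type*} [Field K] [AddCommGroup V] [Module K V]
    [FiniteDimensional K V] {W U : Submodule K V} (hWU : W < U) (hU1 : U ≠ ⊤) :
    ∃ g ∈ slGrp K V, g ∈ stabGrp W ∧ g ∉ stabGrp W ⊓ stabGrp U := by
  obtain ⟨u, hu, huW⟩ := SetLike.exists_of_lt hWU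
  obtain ⟨x, hx⟩ : ∃ x, x ∉ U := by
    by_contra hcon
    push Not at hcon
    exact hU1 (eq_top_iff.2 fun x _ => hcon x)
  have hux : u ∉ W ⊔ Submodule.span K {x} := by
    intro h
    obtain ⟨w, hw, y, hy, rfl⟩ := Submodule.mem_sup.1 h
    obtain ⟨c, rfl⟩ := Submodule.mem_span_singleton.1 hy
    have h1 : c • x ∈ U := (U.add_mem_iff_right (hWU.le hw)).1 hu
    by_cases hc : c = 0
    · subst hc
      apply huW
      simpa using hw
    · apply hx
      have := U.smul_mem c⁻¹ h1
      rwa [smul_smul, inv_mul_cancel₀ hc, one_smul] at this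
  obtain ⟨f, hfu, hf⟩ := Submodule.exists_dual_map_eq_bot_of_notMem hux inferInstance
  have hf' : ∀ y ∈ W ⊔ Submodule.span K {x}, f y = 0 := by
    intro y hy
    have : f y ∈ (W ⊔ Submodule.span K {x}).map f := ⟨y, hy, rfl⟩
    rw [hf] at this
    simpa using this
  have hfx : f x = 0 := hf' x (Submodule.mem_sup_right (Submodule.mem_span_singleton_self x))
  refine ⟨LinearEquiv.transvection hfx, LinearEquiv.transvection.det_eq_one _, ?_, fun h => ?_⟩
  · apply mem_stabGrp_of_forall
    intro y hy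
    rw [LinearEquiv.transvection.apply, hf' y (Submodule.mem_sup_left hy), zero_smul, add_zero]
    exact hy
  · have h1 := ((Subgroup.mem_inf.1 h).2 u).1 hu
    rw [LinearEquiv.transvection.apply] at h1
    have h2 := (U.add_mem_iff_right hu).1 h1
    apply hx
    have := U.smul_mem (f u)⁻¹ h2
    rwa [smul_smul, inv_mul_cancel₀ hfu, one_smul] at this

/-- For a finite field F and subspaces 0 < W < U of F^n with dim W + dim U = n, the elements of SL_n(F) stabilising both W and U form a subgroup that is not maximal in SL_n(F): some subgroup lies strictly between it and SL_n(F). -/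
theorem result {F : Type*} [Field F] [Fintype F] (n : ℕ) (W U : Submodule F (Fin n → F)) (hW0 : W ≠ ⊥) (hWU : W < U) (hdim : Module.finrank F W + Module.finrank F U = n) : ∃ K : Subgroup (Matrix.GeneralLinearGroup (Fin n) F), Cfsg.Geo.subspaceStabilizer W ⊓ Cfsg.Geo.subspaceStabilizer U ⊓ Cfsg.Geo.specialLinear (Fin n) F < K ∧ K < Cfsg.Geo.specialLinear (Fin n) F := by
  have hU1 : U ≠ ⊤ := by
    rintro rfl
    have h1 : Module.finrank F (⊤ : Submodule F (Fin n → F)) = n := by simp
    have h2 : 0 < Module.finrank F W := Module.finrank_pos_iff_exists_ne_zero.2 (by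
      obtain ⟨w, hw, hw0⟩ := Submodule.exists_mem_ne_zero_of_ne_bot hW0
      exact ⟨⟨w, hw⟩, fun h => hw0 (congrArg Subtype.val h)⟩)
    omega
  have hW1 : W ≠ ⊤ := fun h => by
    rw [h] at hWU
    exact not_top_lt hWU
  refine exists_between_transfer (S' := stabGrp W ⊓ stabGrp U) (L' := stabGrp W)
    mem_specialLinear_iff' (fun g => ?_) ?_ (exists_sl_stab_not_stab hWU hU1)
    (Cfsg.Agent.S5631.exists_sl_not_stab hW0 hW1)
  · rw [Subgroup.mem_inf, Subgroup.mem_inf, mem_subspaceStabilizer_iff, mem_subspaceStabilizer_iff]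
  · intro g hg
    exact (Subgroup.mem_inf.1 (Subgroup.mem_inf.1 hg).2).1

end Cfsg.Agent.S5632
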