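import Cfsg.Statements.S5633
-- import your own Cfsg.Agent.* helpers here
import Cfsg.Agent.S5631

set_option autoImplicit false
open Cfsg

namespace Cfsg.Agent.S5633

open Cfsg.Agent.Lib.Helper95 Cfsg.Agent.Lib.Helper97 Module

lemma exists_sl_stab_not_stab' {K V : Type*} [Field K] [AddCommGroup V] [Module K V]
    [FiniteDimensional K V] {W U : Submodule K V} (hW0 : W ≠ ⊥) (hU0 : U ≠ ⊥) (hWU : W ⊓ U = ⊥) :
    ∃ g ∈ slGrp K V, g ∈ stabGrp W ∧ g ∉ stabGrp W ⊓ stabGrp U := by
  obtain ⟨w, hw, hw0⟩ := Submodule.exists_mem_ne_zero_of_ne_bot hW0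
  obtain ⟨u, hu, hu0⟩ := Submodule.exists_mem_ne_zero_of_ne_bot hU0
  have huW : u ∉ W := by
    intro h
    have : u ∈ W ⊓ U := ⟨h, hu⟩
    rw [hWU] at this
    exact hu0 (by simpa using this)
  obtain ⟨f, hfu, hf⟩ := Submodule.exists_dual_map_eq_bot_of_notMem huW inferInstance
  have hf' : ∀ y ∈ W, f y = 0 := by
    intro y hy
    have : f y ∈ W.map f := ⟨y, hy, rfl⟩
    rw [hf] at this
    simpa using this
  have hfw : f w = 0 := hf' w hw
  refine ⟨LinearEquiv.transvection hfw, LinearEquiv.transvection.det_eq_one _, ?_, fun h => ?_⟩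
  · apply mem_stabGrp_of_forall
    intro y hy
    rw [LinearEquiv.transvection.apply, hf' y hy, zero_smul, add_zero]
    exact hy
  · have h1 := ((Subgroup.mem_inf.1 h).2 u).1 hu
    rw [LinearEquiv.transvection.apply] at h1
    have h2 := (U.add_mem_iff_right hu).1 h1
    have h3 : w ∈ U := by
      have := U.smul_mem (f u)⁻¹ h2
      rwa [smul_smul, inv_mul_cancel₀ hfu, one_smul] at this
    have : w ∈ W ⊓ U := ⟨hw, h3⟩
    rw [hWU] at this
    exact hw0 (by simpa using this)

/-- For a finite field F and complementary non-zero subspaces W ⊕ U = F^n with dim W < dim U, the elements of SL_n(F) stabilising both W and U form a subgroup that is not maximal in SL_n(F): some subgroup lies strictly between it and SL_n(F). -/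
theorem result {F : Type*} [Field F] [Fintype F] (n : ℕ) (W U : Submodule F (Fin n → F)) (hW0 : W ≠ ⊥) (hWU : W ⊓ U = ⊥) (hWU' : W ⊔ U = ⊤) (hdim : Module.finrank F W < Module.finrank F U) : ∃ K : Subgroup (Matrix.GeneralLinearGroup (Fin n) F), Cfsg.Geo.subspaceStabilizer W ⊓ Cfsg.Geo.subspaceStabilizer U ⊓ Cfsg.Geo.specialLinear (Fin n) F < K ∧ K < Cfsg.Geo.specialLinear (Fin n) F := by
  have hU0 : U ≠ ⊥ := by
    rintro rfl
    rw [finrank_bot] at hdim
    omega
  have hW1 : W ≠ ⊤ := by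
    rintro rfl
    rw [top_inf_eq] at hWU
    exact hU0 hWU
  refine exists_between_transfer (S' := stabGrp W ⊓ stabGrp U) (L' := stabGrp W)
    mem_specialLinear_iff' (fun g => ?_) ?_ (exists_sl_stab_not_stab' hW0 hU0 hWU)
    (Cfsg.Agent.S5631.exists_sl_not_stab hW0 hW1)
  · rw [Subgroup.mem_inf, Subgroup.mem_inf, mem_subspaceStabilizer_iff, mem_subspaceStabilizer_iff]
  · intro g hg
    exact (Subgroup.mem_inf.1 (Subgroup.mem_inf.1 hg).2).1

end Cfsg.Agent.S5633
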