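import Cfsg.Statements.S5635
-- import your own Cfsg.Agent.* helpers here
import Cfsg.Agent.Lib.Helper17.LinDec2

set_option autoImplicit false
open Cfsg

namespace Cfsg.Agent.S5635



/-- For a finite field F with q elements and n ≥ 13, let D be a decomposition of F^n into t ≥ 2 independent subspaces of equal dimension m spanning F^n, where m = 1 and q ≤ 4, or m = 2 and q = 2. Then the elements of SL_n(F) permuting the members of D form a subgroup that is not maximal: some subgroup lies strictly between it and SL_n(F). -/
theorem result {F : Type*} [Field F] [Fintype F] (n : ℕ) (hn : 13 ≤ n) {t : ℕ} (m : ℕ) (D : Fin t → Submodule F (Fin n → F)) (hD : Cfsg.Geo.IsMDecomposition m D) (h : (m = 1 ∧ Fintype.card F ≤ 4) ∨ (m = 2 ∧ Fintype.card F = 2)) : ∃ K : Subgroup (Matrix.GeneralLinearGroup (Fin n) F), Cfsg.Geo.decompositionStabilizer D ⊓ Cfsg.Geo.specialLinear (Fin n) F < K ∧ K < Cfsg.Geo.specialLinear (Fin n) F := by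
  open Cfsg.Agent.Lib.Helper95 Cfsg.Agent.Lib.Helper17.LinDec in
  classical
  have hint := DirectSum.isInternal_submodule_of_iSupIndep_of_iSup_eq_top hD.indep hD.iSup_eq_top
  have htm : n = t * m := by
    have e := LinearEquiv.ofBijective (DirectSum.coeLinearMap D) hint
    have h1 := e.finrank_eq
    rw [Module.finrank_directSum] at h1
    simp only [hD.finrank_eq, Finset.sum_const, Finset.card_univ, Fintype.card_fin, smul_eq_mul,
      Module.finrank_fin_fun] at h1
    exact h1.symm
  have ht2 := hD.two_le
  have hcast : ((Fintype.card F : ℕ) : F) = 0 := Nat.cast_card_eq_zero F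
  have hpow : ∀ a : F, a ≠ 0 → a ^ (Fintype.card F - 1) = 1 :=
    fun a ha => FiniteField.pow_card_sub_one_eq_one a ha
  have key : ∃ g ∈ slGrp F (Fin n → F), g ∈ QGrp D ∧
      ¬ ∃ τ : Equiv.Perm (Fin t), ∀ i, (D i).map (g : (Fin n → F) →ₗ[F] (Fin n → F)) = D (τ i) := by
    rcases h with ⟨rfl, hq⟩ | ⟨rfl, hq⟩
    · let v : ∀ i, Module.Basis (Fin 1) F (D i) := fun i => Module.finBasisOfFinrankEq F (D i) (hD.finrank_eq i)
      have ht : 4 ≤ t := by omega
      have hq2 : 1 < Fintype.card F := Fintype.one_lt_card
      have hq' : Fintype.card F = 2 ∨ Fintype.card F = 3 ∨ Fintype.card F = 4 := by omega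
      rcases hq' with hq' | hq' | hq'
      · rw [hq'] at hcast hpow
        push_cast at hcast
        have h4 : (4 : F) = 0 := by linear_combination 2 * hcast
        refine exists_h1_even hint v ht h4 (Qd_T_two hint v hpow _ ?_)
        rw [sum_chi ht]
        exact_mod_cast h4
      · rw [hq'] at hcast hpow
        push_cast at hcast
        exact exists_h1_three hint v ht hcast hpow
      · rw [hq'] at hcast hpow
        push_cast at hcast
        have h2 : (2 : F) = 0 := by
          have : (2 : F) ^ 2 = 0 := by linear_combination hcast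
          exact pow_eq_zero_iff (two_ne_zero) |>.1 this
        haveI : CharP F 2 := CharTwo.of_one_ne_zero_of_two_eq_zero one_ne_zero h2
        refine exists_h1_even hint v ht hcast (Qd_T_four hint v hpow _ (chi_mul_self 4) ?_)
        rw [sum_chi ht]
        exact_mod_cast hcast
    · let v : ∀ i, Module.Basis (Fin 2) F (D i) := fun i => Module.finBasisOfFinrankEq F (D i) (hD.finrank_eq i)
      have ht : 3 ≤ t := by omega
      rw [hq] at hcast
      push_cast at hcast
      have h11 : (1 : F) + 1 = 0 := by linear_combination hcast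
      have h2 : ∀ c : F, c = 0 ∨ c = 1 := by
        intro c
        by_contra hc
        push Not at hc
        have h3 : ({0, 1, c} : Finset F).card = 3 := by
          rw [Finset.card_insert_of_notMem, Finset.card_insert_of_notMem, Finset.card_singleton]
          · simp [hc.2.symm]
          · simp [hc.1.symm]
        have h4 := Finset.card_le_univ ({0, 1, c} : Finset F)
        omega
      exact exists_h1_planes hint v ht h2 h11
  have hm : 0 < m := hD.pos
  let v : ∀ i, Module.Basis (Fin m) F (D i) := fun i => Module.finBasisOfFinrankEq F (D i) (hD.finrank_eq i)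
  refine exists_between_transfer (S' := toLinGrp (Cfsg.Geo.decompositionStabilizer D))
    (L' := QGrp D) mem_specialLinear_iff' (fun g => glEquiv_mem_toLinGrp.symm) ?_ ?_ ?_
  · intro g hg
    obtain ⟨hg1, hg2⟩ := Subgroup.mem_inf.1 hg
    exact mem_QGrp_of_perm ((mem_toLinGrp_decompositionStabilizer D g).1 hg2)
  · obtain ⟨g, hg1, hg2, hg3⟩ := key
    exact ⟨g, hg1, hg2, fun h => hg3 ((mem_toLinGrp_decompositionStabilizer D g).1 h)⟩
  · exact exists_not_mem_QGrp hint v (i₁ := ⟨0, by omega⟩) (i₂ := ⟨1, by omega⟩) (by simp) ⟨0, hm⟩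

end Cfsg.Agent.S5635
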