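import Cfsg.Statements.S5642
-- import your own Cfsg.Agent.* helpers here
import Cfsg.Agent.Lib.Helper95.Glue3
import Cfsg.Agent.Lib.Helper95.SLGen
import Cfsg.Agent.Lib.Helper95.SLSymp

set_option autoImplicit false
open Cfsg

namespace Cfsg.Agent.S5642

open Cfsg.Agent.Lib.Helper95 in
/-- For a finite field F and n ≥ 13, let f be a non-degenerate symplectic form on F^n (so n is even). Then the elements of SL_n(F) that are similarities of f (f(gu, gv) = c f(u, v) for a non-zero scalar c depending on g) form a maximal subgroup of SL_n(F). -/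
theorem result {F : Type*} [Field F] [Fintype F] (n : ℕ) (hn : 13 ≤ n) (f : (Fin n → F) → (Fin n → F) → F) (hf : Cfsg.Geo.IsSymplecticForm f) : Cfsg.Geo.IsMaximalIn (Cfsg.Geo.specialLinear (Fin n) F) (Cfsg.Geo.similarityGroup f ⊓ Cfsg.Geo.specialLinear (Fin n) F) := by
  set B := bilinOf f hf.bilinear with hBdef
  have hB : B.IsAlt := fun x => hf.alternating x
  have hnd : B.Nondegenerate := bilinOf_nondegenerate f hf.bilinear hf.nondegenerate
  have hfr : Module.finrank F (Fin n → F) = n := by simp
  have : Nontrivial (Fin n) := Fin.nontrivial_iff_two_le.2 (by omega)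
  refine isMaximalIn_transfer (S' := toLinGrp (Cfsg.Geo.similarityGroup f)) mem_specialLinear_iff'
    (fun g => glEquiv_mem_toLinGrp.symm) ?_ ?_
  · obtain ⟨u, w, h, hns⟩ := exists_gtv_not_sim hB hnd (by omega)
    refine ⟨gtv B u w h, LinearEquiv.transvection.det_eq_one _, fun hmem => hns ?_⟩
    obtain ⟨c, hc⟩ := (mem_toLinGrp_similarityGroup f _).1 hmem
    exact ⟨c, hc⟩
  · intro M' h1 _ g hg hgS
    apply slGrp_le_of_transvections
    refine transvection_mem_of_not_sim hB hnd (by omega) ?_ hg ?_
    · intro v c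
      apply h1
      refine Subgroup.mem_inf.2 ⟨LinearEquiv.transvection.det_eq_one _, ?_⟩
      rw [mem_toLinGrp_similarityGroup]
      exact ⟨1, fun x y => by rw [Units.val_one, one_mul]; exact stv_mem_isoGrp hB v c x y⟩
    · rintro ⟨c, hc0, hc⟩
      apply hgS
      rw [mem_toLinGrp_similarityGroup]
      exact ⟨Units.mk0 c hc0, hc⟩

end Cfsg.Agent.S5642
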