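import Cfsg.Statements.S5643
-- import your own Cfsg.Agent.* helpers here
import Cfsg.Agent.Lib.Helper95.Glue3
import Cfsg.Agent.Lib.Helper95.SLGen
import Cfsg.Agent.Lib.Helper97.Unitary

set_option autoImplicit false
open Cfsg

namespace Cfsg.Agent.S5643


open Cfsg.Agent.Lib.Helper95 Cfsg.Agent.Lib.Helper97 Module

/-- For a finite field F and n ≥ 13, let σ be a field automorphism of F of order two and f a non-degenerate unitary form on F^n with respect to σ. Then the elements of SL_n(F) that are similarities of f form a maximal subgroup of SL_n(F). -/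
theorem result {F : Type*} [Field F] [Fintype F] (n : ℕ) (hn : 13 ≤ n) (σ : F ≃+* F) (f : (Fin n → F) → (Fin n → F) → F) (hf : Cfsg.Geo.IsUnitaryForm σ f) : Cfsg.Geo.IsMaximalIn (Cfsg.Geo.specialLinear (Fin n) F) (Cfsg.Geo.similarityGroup f ⊓ Cfsg.Geo.specialLinear (Fin n) F) := by
  have h : UF σ f := ⟨hf.ne_refl, hf.involutive, hf.add_left, hf.smul_left, hf.herm,
    fun v hv => (hf.nondegenerate v hv).1⟩
  have hfr : Module.finrank F (Fin n → F) = n := by simp
  have : Nontrivial (Fin n) := Fin.nontrivial_iff_two_le.2 (by omega)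
  refine isMaximalIn_transfer (S' := toLinGrp (Cfsg.Geo.similarityGroup f)) mem_specialLinear_iff'
    (fun g => glEquiv_mem_toLinGrp.symm) ?_ ?_
  · obtain ⟨u, φ, h0, hns⟩ := exists_transvection_not_sim h (by omega)
    exact ⟨LinearEquiv.transvection h0, LinearEquiv.transvection.det_eq_one _,
      fun hmem => hns ((mem_toLinGrp_similarityGroup f _).1 hmem)⟩
  · intro M' h1 _ g hg hgS
    apply slGrp_le_of_transvections
    apply transvection_mem_of_fullSub_eq_top
    refine fullSub_eq_top_of_not_sim h (by omega) ?_ hg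
      (fun hs => hgS ((mem_toLinGrp_similarityGroup f _).2 hs))
    intro v hv a ha
    have h0 : (a • h.hat v) v = 0 := by simp [hv]
    refine ⟨h0, h1 (Subgroup.mem_inf.2 ⟨LinearEquiv.transvection.det_eq_one _, ?_⟩)⟩
    rw [mem_toLinGrp_similarityGroup]
    exact ⟨1, fun x y => by
      rw [Units.val_one, one_mul]; exact unitary_transvection_isometry h hv ha h0 x y⟩

end Cfsg.Agent.S5643
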