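import Cfsg.Statements.S5644
-- import your own Cfsg.Agent.* helpers here
import Cfsg.Agent.Lib.Helper95.Glue3
import Cfsg.Agent.Lib.Helper95.SLGen
import Cfsg.Agent.Lib.Helper95.OrthSL

set_option autoImplicit false
open Cfsg

namespace Cfsg.Agent.S5644

open Cfsg.Agent.Lib.Helper95 in
/-- For a finite field F of odd order and n ≥ 13, let Q be a non-degenerate quadratic form on F^n (its polar form is non-degenerate). Then the elements of SL_n(F) that are similarities of Q (Q(gv) = c Q(v) for a non-zero scalar c depending on g) form a maximal subgroup of SL_n(F). -/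
theorem result {F : Type*} [Field F] [Fintype F] (n : ℕ) (hn : 13 ≤ n) (hodd : Odd (Fintype.card F)) (Q : (Fin n → F) → F) (hQ : Cfsg.Geo.IsNondegenerateQuadraticForm Q) : Cfsg.Geo.IsMaximalIn (Cfsg.Geo.specialLinear (Fin n) F) (Cfsg.Geo.quadSimilarityGroup Q ⊓ Cfsg.Geo.specialLinear (Fin n) F) := by
  set B := bilinOf (QuadraticMap.polar Q) hQ.polar_bilinear with hBdef
  have hBa : ∀ x y, B x y = QuadraticMap.polar Q x y := fun x y => rfl
  have hB : B.IsSymm := ⟨fun x y => QuadraticMap.polar_comm Q x y⟩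
  have hnd : B.Nondegenerate := bilinOf_nondegenerate _ hQ.polar_bilinear hQ.nondegenerate
  have h2 : (2 : F) ≠ 0 := by
    intro h
    have hc : CharP F 2 := CharTwo.of_one_ne_zero_of_two_eq_zero one_ne_zero h
    obtain ⟨k, hp, hk⟩ := FiniteField.card F 2
    rw [hk] at hodd
    have : Even (2 ^ (k : ℕ)) := (Nat.even_pow.2 ⟨even_two, k.pos.ne'⟩)
    exact (Nat.not_even_iff_odd.2 hodd) this
  have hU := exists_sq_add_sq (K := F) hodd
  have hBQ : ∀ x, B x x = 2 * Q x := by
    intro x
    rw [hBa, QuadraticMap.polar, ← two_smul F x, hQ.smul]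
    ring
  have hQB : ∀ (e : (Fin n → F) ≃ₗ[F] (Fin n → F)) (c : F),
      (∀ v, Q (e v) = c * Q v) ↔ (∀ x y, B (e x) (e y) = c * B x y) := by
    intro e c
    constructor
    · intro h x y
      rw [hBa, hBa, QuadraticMap.polar, QuadraticMap.polar, ← map_add, h, h, h]
      ring
    · intro h v
      have := h v v
      rw [hBQ, hBQ] at this
      have h3 : 2 * (Q (e v) - c * Q v) = 0 := by linear_combination this
      rcases mul_eq_zero.1 h3 with h4 | h4
      · exact absurd h4 h2
      · exact sub_eq_zero.1 h4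
  have hmemS : ∀ e : (Fin n → F) ≃ₗ[F] (Fin n → F),
      e ∈ toLinGrp (Cfsg.Geo.quadSimilarityGroup Q) ↔ ∃ c : Fˣ, ∀ v, Q (e v) = (c : F) * Q v := by
    intro e
    rw [mem_toLinGrp]
    change (∃ c : Fˣ, ∀ v, Q (Matrix.mulVec _ v) = (c : F) * Q v) ↔ _
    simp only [glEquiv_symm_mulVec]
  have hfr : Module.finrank F (Fin n → F) = n := by simp
  have : Nontrivial (Fin n) := Fin.nontrivial_iff_two_le.2 (by omega)
  refine isMaximalIn_transfer (S' := toLinGrp (Cfsg.Geo.quadSimilarityGroup Q)) mem_specialLinear_iff'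
    (fun g => glEquiv_mem_toLinGrp.symm) ?_ ?_
  · obtain ⟨u, w, h, hns⟩ := exists_gtv_not_ssim hB h2 hnd (by omega)
    refine ⟨gtv B u w h, LinearEquiv.transvection.det_eq_one _, fun hmem => hns ?_⟩
    obtain ⟨c, hc⟩ := (hmemS _).1 hmem
    exact ⟨c, (hQB _ _).1 hc⟩
  · intro M' h1 _ g hg hgS
    apply slGrp_le_of_transvections
    refine transvection_mem_of_not_ssim hB h2 ?_ hnd hU (by omega) hg ?_
    · intro a b ha hb
      apply h1
      refine Subgroup.mem_inf.2 ⟨?_, ?_⟩
      · change LinearEquiv.det _ = 1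
        rw [map_mul, rf_det, rf_det]
        simp
      · rw [hmemS]
        refine ⟨1, ?_⟩
        rw [hQB]
        intro x y
        rw [Units.val_one, one_mul, LinearEquiv.mul_apply, LinearEquiv.mul_apply, rf_isometry hB,
          rf_isometry hB]
    · rintro ⟨c, hc0, hc⟩
      apply hgS
      rw [hmemS]
      exact ⟨Units.mk0 c hc0, (hQB _ _).2 hc⟩

end Cfsg.Agent.S5644
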