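import Cfsg.Statements.S5645
-- import your own Cfsg.Agent.* helpers here
import Cfsg.Agent.Lib.Helper95.Glue2
import Cfsg.Agent.Lib.Helper95.SympMax2

set_option autoImplicit false
open Cfsg

namespace Cfsg.Agent.S5645

open Cfsg.Agent.Lib.Helper95 in
/-- For a finite field F and m ≥ 7, in the symplectic group Sp_2m(F) of the standard alternating form on F^(2m) (as a subgroup of GL_2m(F)), the stabiliser of any non-zero subspace on which the form vanishes identically is a maximal subgroup. -/
theorem result {F : Type*} [Field F] [Fintype F] (m : ℕ) (hm : 7 ≤ m) (W : Submodule F (Fin m ⊕ Fin m → F)) (hW0 : W ≠ ⊥) (hW : Cfsg.Geo.IsTotallySingularFor (Cfsg.sympForm m F) W) : Cfsg.Geo.IsMaximalIn (Cfsg.spGL m F) (Cfsg.Geo.subspaceStabilizer W ⊓ Cfsg.spGL m F) := by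
  have hB := sympB_isAlt (F := F) m
  have hnd := sympB_nondegenerate (F := F) m
  have hts : W ≤ (sympB m F).orthogonal W := by
    intro x hx
    rw [LinearMap.BilinForm.mem_orthogonal_iff]
    intro y hy
    rw [sympB_apply]
    exact hW y hy x hx
  refine isMaximalIn_transfer (mem_spGL_iff m) (mem_subspaceStabilizer_iff W)
    (exists_not_stab_singular hB hnd hts hW0) ?_
  intro M' h1 h2 g hg hgS
  exact isoGrp_le_of_singular hB hnd hts h1 hg (h2 hg) hgS

end Cfsg.Agent.S5645
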