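import Cfsg.Statements.S5646
-- import your own Cfsg.Agent.* helpers here
import Cfsg.Agent.Lib.Helper95.Glue
import Cfsg.Agent.Lib.Helper95.SympMax

set_option autoImplicit false
open Cfsg

namespace Cfsg.Agent.S5646

open Cfsg.Agent.Lib.Helper95 in
/-- For a finite field F and m ≥ 7, in the symplectic group Sp_2m(F) of the standard alternating form on F^(2m), the stabiliser of any non-zero subspace W on which the form is non-degenerate and with dim W < m is a maximal subgroup. -/
theorem result {F : Type*} [Field F] [Fintype F] (m : ℕ) (hm : 7 ≤ m) (W : Submodule F (Fin m ⊕ Fin m → F)) (hW0 : W ≠ ⊥) (hW : Cfsg.Geo.IsNondegenerateOn (Cfsg.sympForm m F) W) (hdim : Module.finrank F W < m) : Cfsg.Geo.IsMaximalIn (Cfsg.spGL m F) (Cfsg.Geo.subspaceStabilizer W ⊓ Cfsg.spGL m F) := by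
  have hB := sympB_isAlt (F := F) m
  have hnd := sympB_nondegenerate (F := F) m
  have hdis : Disjoint W ((sympB m F).orthogonal W) := by
    rw [Submodule.disjoint_def]
    intro x hx hx'
    by_contra hx0
    obtain ⟨⟨y, hy, hyx⟩, _⟩ := hW x hx hx0
    apply hyx
    rw [← sympB_apply]
    exact LinearMap.BilinForm.mem_orthogonal_iff.1 hx' y hy
  have hfr : Module.finrank F ((sympB m F).orthogonal W) = 2 * m - Module.finrank F W := by
    rw [LinearMap.BilinForm.finrank_orthogonal hnd, finrank_sum_fin]
  refine isMaximalIn_of inf_le_right ?_ ?_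
  · have hW1 : (sympB m F).orthogonal W ≠ ⊥ := by
      intro h
      rw [h, finrank_bot] at hfr
      omega
    obtain ⟨g, hg, hgW⟩ := exists_not_stab_nondeg hB hdis hW0 hW1
    refine ⟨glEquiv.symm g, ?_, ?_⟩
    · rw [mem_spGL_iff, MulEquiv.apply_symm_apply]; exact hg
    · intro h
      apply hgW
      have := (mem_subspaceStabilizer_iff W _).1 h.1
      rwa [MulEquiv.apply_symm_apply] at this
  · intro M hHM hMK g hgM hgH
    have hgK := hMK hgM
    have key : isoGrp (sympB m F) ≤ toLinGrp M := by
      refine isoGrp_le_of_nondeg hB hnd hdis hW0 (by omega) ?_ (glEquiv_mem_toLinGrp.2 hgM)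
        ((mem_spGL_iff m g).1 hgK) ?_
      · intro e he
        obtain ⟨he1, he2⟩ := Subgroup.mem_inf.1 he
        rw [mem_toLinGrp]
        apply hHM
        rw [Subgroup.mem_inf, mem_subspaceStabilizer_iff, mem_spGL_iff, MulEquiv.apply_symm_apply]
        exact ⟨he2, he1⟩
      · intro h
        exact hgH ⟨(mem_subspaceStabilizer_iff W g).2 h, hgK⟩
    intro x hx
    exact glEquiv_mem_toLinGrp.1 (key ((mem_spGL_iff m x).1 hx))

end Cfsg.Agent.S5646
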