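import Cfsg.Statements.S5647
-- import your own Cfsg.Agent.* helpers here
import Cfsg.Agent.Lib.Helper95.Glue4
import Cfsg.Agent.Lib.Helper95.SympDecomp

set_option autoImplicit false
open Cfsg

namespace Cfsg.Agent.S5647

open Cfsg.Agent.Lib.Helper95 in
/-- For a finite field F with q elements and m ≥ 7, let D be a decomposition of F^(2m) into t ≥ 2 pairwise orthogonal subspaces of equal dimension k on each of which the standard alternating form is non-degenerate, spanning F^(2m). Unless k = 2 and q = 2, the elements of Sp_2m(F) permuting the members of D form a maximal subgroup of Sp_2m(F). -/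
theorem result {F : Type*} [Field F] [Fintype F] (m : ℕ) (hm : 7 ≤ m) {t : ℕ} (k : ℕ) (D : Fin t → Submodule F (Fin m ⊕ Fin m → F)) (hD : Cfsg.Geo.IsNondegenerateMDecomposition (Cfsg.sympForm m F) k D) (hex : ¬ (k = 2 ∧ Fintype.card F = 2)) : Cfsg.Geo.IsMaximalIn (Cfsg.spGL m F) (Cfsg.Geo.decompositionStabilizer D ⊓ Cfsg.spGL m F) := by
  have hB := sympB_isAlt (F := F) m
  have hnd := sympB_nondegenerate (F := F) m
  have hndD : ∀ i, NondegOn (sympB m F) (D i) := by
    intro i u hu hu0
    obtain ⟨_, ⟨x, hx, hux⟩⟩ := hD.nondegenerate i u hu hu0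
    exact ⟨x, hx, by rwa [sympB_apply]⟩
  have hperp : ∀ i j, i ≠ j → ∀ x ∈ D i, ∀ y ∈ D j, sympB m F x y = 0 := by
    intro i j hij x hx y hy
    rw [sympB_apply]
    exact hD.orthogonal i j hij x hx y hy
  have hfr := hD.decomp.finrank_eq
  have hk := hD.decomp.pos
  have ht := hD.decomp.two_le
  have hex' : (∃ l : F, l ≠ 0 ∧ l ≠ 1) ∨ 3 ≤ k := by
    by_cases hc : Fintype.card F = 2
    · right
      have h1 : k ≠ 2 := fun h => hex ⟨h, hc⟩
      have h2 : k ≠ 1 := by
        have := finrank_ne_one_of_nondegOn hB (hndD ⟨0, by omega⟩)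
        rwa [hfr] at this
      omega
    · exact Or.inl (exists_ne_zero_one_of_card hc)
  have hne : ∀ i, D i ≠ ⊥ := by
    intro i h
    have := hfr i
    rw [h, finrank_bot] at this
    omega
  refine isMaximalIn_transfer (S' := toLinGrp (Cfsg.Geo.decompositionStabilizer D)) (mem_spGL_iff m)
    (fun g => glEquiv_mem_toLinGrp.symm) ?_ ?_
  · obtain ⟨g, hg, hgS⟩ := exists_not_decomp hB hndD hperp (i := ⟨0, by omega⟩) (j := ⟨1, by omega⟩)
      (by simp) (hne _) (hne _)
    exact ⟨g, hg, fun h => hgS ((mem_toLinGrp_decompositionStabilizer D g).1 h)⟩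
  · intro M' h1 h2 g hg hgS
    exact isoGrp_le_of_decomp hB hnd hk hndD hfr hperp hD.decomp.iSup_eq_top hex'
      (mem_toLinGrp_decompositionStabilizer D) h1 hg (h2 hg) hgS

end Cfsg.Agent.S5647
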