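import Cfsg.Statements.S5648
-- import your own Cfsg.Agent.* helpers here
import Cfsg.Agent.Lib.Helper17.SympDecTwo

set_option autoImplicit false
open Cfsg

namespace Cfsg.Agent.S5648



/-- Over the field with 2 elements and for m ≥ 7, let D be a decomposition of F^(2m) into t pairwise orthogonal non-degenerate 2-dimensional subspaces for the standard alternating form (t = m ≥ 2). Then the elements of Sp_2m(2) permuting the members of D form a subgroup that is not maximal: some subgroup lies strictly between it and Sp_2m(2). -/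
theorem result {F : Type*} [Field F] [Fintype F] (m : ℕ) (hm : 7 ≤ m) (hq : Fintype.card F = 2) {t : ℕ} (D : Fin t → Submodule F (Fin m ⊕ Fin m → F)) (hD : Cfsg.Geo.IsNondegenerateMDecomposition (Cfsg.sympForm m F) 2 D) : ∃ K : Subgroup (Matrix.GeneralLinearGroup (Fin m ⊕ Fin m) F), Cfsg.Geo.decompositionStabilizer D ⊓ Cfsg.spGL m F < K ∧ K < Cfsg.spGL m F := by
  open Cfsg.Agent.Lib.Helper95 Cfsg.Agent.Lib.Helper17.SympDecTwo in
  classical
  have hB := sympB_isAlt (F := F) m
  have hndD : ∀ i, NondegOn (sympB m F) (D i) := by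
    intro i u hu hu0
    obtain ⟨_, ⟨x, hx, hux⟩⟩ := hD.nondegenerate i u hu hu0
    exact ⟨x, hx, by rwa [sympB_apply]⟩
  have hperp : ∀ i j, i ≠ j → ∀ x ∈ D i, ∀ y ∈ D j, sympB m F x y = 0 := by
    intro i j hij x hx y hy
    rw [sympB_apply]
    exact hD.orthogonal i j hij x hx y hy
  have hfr := hD.decomp.finrank_eq
  have h2 : ∀ c : F, c = 0 ∨ c = 1 := by
    intro c
    by_contra hc
    push Not at hc
    have h3 : ({0, 1, c} : Finset F).card = 3 := by
      rw [Finset.card_insert_of_notMem, Finset.card_insert_of_notMem, Finset.card_singleton]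
      · simp [hc.2.symm]
      · simp [hc.1.symm]
    have h4 := Finset.card_le_univ ({0, 1, c} : Finset F)
    omega
  have h11 : (1 : F) + 1 = 0 := by
    rcases h2 (1 + 1) with h | h
    · exact h
    · exfalso
      have : (1 : F) = 0 := by linear_combination h
      exact one_ne_zero this
  have ht : t * 2 = 2 * m := by
    rw [← finrank_eq_mul hD.decomp.indep hD.decomp.iSup_eq_top hfr, finrank_sum_fin]
  have ht3 : 3 ≤ t := by omega
  refine exists_between_transfer (S' := toLinGrp (Cfsg.Geo.decompositionStabilizer D))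
    (L' := QGrp (sympB m F) D) (mem_spGL_iff m) (fun g => glEquiv_mem_toLinGrp.symm) ?_ ?_ ?_
  · intro g hg
    obtain ⟨hg1, hg2⟩ := Subgroup.mem_inf.1 hg
    exact mem_QGrp_of_perm hg1 ((mem_toLinGrp_decompositionStabilizer D g).1 hg2)
  · obtain ⟨g, hg1, hg2, hg3⟩ := exists_mem_QGrp_not_perm hB h2 h11 hndD hfr hperp
      (i := ⟨0, by omega⟩) (j := ⟨1, by omega⟩) (l := ⟨2, by omega⟩) (by simp) (by simp) (by simp)
    exact ⟨g, hg1, hg2, fun h => hg3 ((mem_toLinGrp_decompositionStabilizer D g).1 h)⟩
  · exact exists_not_mem_QGrp hB h2 h11 hndD hfr hperp (i := ⟨0, by omega⟩) (j := ⟨1, by omega⟩)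
      (by simp)

end Cfsg.Agent.S5648
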