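import Cfsg.Statements.S5649
-- import your own Cfsg.Agent.* helpers here
import Cfsg.Agent.Lib.Helper95.Glue4
import Cfsg.Agent.Lib.Helper95.SympDecomp
import Cfsg.Agent.Lib.Helper95.SympLagr

set_option autoImplicit false
open Cfsg

namespace Cfsg.Agent.S5649

open Cfsg.Agent.Lib.Helper95 in
/-- For a finite field F of odd order and m ≥ 7, let D be a decomposition of F^(2m) into two complementary subspaces of dimension m on each of which the standard alternating form vanishes identically. Then the elements of Sp_2m(F) preserving or interchanging the two subspaces form a maximal subgroup of Sp_2m(F). -/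
theorem result {F : Type*} [Field F] [Fintype F] (m : ℕ) (hm : 7 ≤ m) (hodd : Odd (Fintype.card F)) (D : Fin 2 → Submodule F (Fin m ⊕ Fin m → F)) (hD : Cfsg.Geo.IsMDecomposition m D) (hts : ∀ i, Cfsg.Geo.IsTotallySingularFor (Cfsg.sympForm m F) (D i)) : Cfsg.Geo.IsMaximalIn (Cfsg.spGL m F) (Cfsg.Geo.decompositionStabilizer D ⊓ Cfsg.spGL m F) := by
  have hB := sympB_isAlt (F := F) m
  have hnd := sympB_nondegenerate (F := F) m
  have hts' : ∀ i, ∀ x ∈ D i, ∀ y ∈ D i, sympB m F x y = 0 := by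
    intro i x hx y hy
    rw [sympB_apply]
    exact hts i x hx y hy
  have hfr := hD.finrank_eq
  have h2 : (2 : F) ≠ 0 := by
    intro h
    have hc : CharP F 2 := CharTwo.of_one_ne_zero_of_two_eq_zero one_ne_zero h
    obtain ⟨n, hp, hn⟩ := FiniteField.card F 2
    rw [hn] at hodd
    have : Even (2 ^ (n : ℕ)) := (Nat.even_pow.2 ⟨even_two, n.pos.ne'⟩)
    exact (Nat.not_even_iff_odd.2 hodd) this
  have hsup : D 0 ⊔ D 1 = ⊤ := by
    rw [← hD.iSup_eq_top]
    apply le_antisymm
    · exact sup_le (le_iSup D 0) (le_iSup D 1)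
    · apply iSup_le
      intro i
      fin_cases i
      · exact le_sup_left
      · exact le_sup_right
  have hdisj : Disjoint (D 0) (D 1) := hD.indep.pairwiseDisjoint (by simp)
  have hS1 : ∀ e : (Fin m ⊕ Fin m → F) ≃ₗ[F] (Fin m ⊕ Fin m → F),
      (∀ x ∈ D 0, e x ∈ D 0) → (∀ x ∈ D 1, e x ∈ D 1) →
      e ∈ toLinGrp (Cfsg.Geo.decompositionStabilizer D) := by
    intro e h0 h1
    rw [mem_toLinGrp_decompositionStabilizer]
    refine ⟨1, fun i => ?_⟩
    fin_cases i
    · exact map_eq_of_forall e h0 rfl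
    · exact map_eq_of_forall e h1 rfl
  have hS2 : ∀ e : (Fin m ⊕ Fin m → F) ≃ₗ[F] (Fin m ⊕ Fin m → F),
      (∀ x ∈ D 0, e x ∈ D 1) → (∀ x ∈ D 1, e x ∈ D 0) →
      e ∈ toLinGrp (Cfsg.Geo.decompositionStabilizer D) := by
    intro e h0 h1
    rw [mem_toLinGrp_decompositionStabilizer]
    refine ⟨Equiv.swap 0 1, fun i => ?_⟩
    fin_cases i
    · exact map_eq_of_forall e h0 (by rw [hfr, hfr])
    · exact map_eq_of_forall e h1 (by rw [hfr, hfr])
  refine isMaximalIn_transfer (S' := toLinGrp (Cfsg.Geo.decompositionStabilizer D)) (mem_spGL_iff m)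
    (fun g => glEquiv_mem_toLinGrp.symm) ?_ ?_
  · have hne0 : D 0 ≠ ⊥ := by
      intro h
      have := hfr 0
      rw [h, finrank_bot] at this
      omega
    obtain ⟨a, ha, ha0⟩ := Submodule.exists_mem_ne_zero_of_ne_bot hne0
    have hex : ∃ b ∈ D 1, sympB m F a b ≠ 0 := by
      by_contra hcon
      push Not at hcon
      apply ha0
      apply hnd.1
      intro z
      have hz : z ∈ D 0 ⊔ D 1 := by rw [hsup]; trivial
      obtain ⟨z₁, hz₁, z₂, hz₂, rfl⟩ := Submodule.mem_sup.1 hz
      rw [map_add, hts' 0 a ha z₁ hz₁, hcon z₂ hz₂, add_zero]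
    obtain ⟨b, hb, hab⟩ := hex
    have hb0 : b ≠ 0 := by
      rintro rfl
      simp at hab
    refine ⟨stv (sympB m F) hB b 1, stv_mem_isoGrp hB b 1, fun h => ?_⟩
    rw [mem_toLinGrp_decompositionStabilizer] at h
    obtain ⟨σ, hσ⟩ := h
    have hmem : stv (sympB m F) hB b 1 a ∈ D (σ 0) := by
      rw [← hσ 0]
      exact ⟨a, ha, rfl⟩
    rw [stv_apply, one_mul] at hmem
    have hcases : σ 0 = 0 ∨ σ 0 = 1 := by
      generalize σ 0 = j
      fin_cases j
      · left; rfl
      · right; rfl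
    rcases hcases with h | h
    · rw [h] at hmem
      have h1 : (sympB m F a b) • b ∈ D 0 := (Submodule.add_mem_iff_right _ ha).1 hmem
      have h2 : b ∈ D 0 := (Submodule.smul_mem_iff _ hab).1 h1
      exact hb0 (Submodule.disjoint_def.1 hdisj b h2 hb)
    · rw [h] at hmem
      have h1 : a ∈ D 1 := (Submodule.add_mem_iff_left _ (Submodule.smul_mem _ _ hb)).1 hmem
      exact ha0 (Submodule.disjoint_def.1 hdisj a ha h1)
  · intro M' h1 h2' g hg hgS
    exact isoGrp_le_of_lagr hB hnd h2 (hts' 0) (hts' 1) hsup (by rw [hfr]; omega) (by rw [hfr]; omega)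
      hS1 hS2 h1 hg (h2' hg) hgS

end Cfsg.Agent.S5649
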