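import Cfsg.Statements.S5652
-- import your own Cfsg.Agent.* helpers here
import Cfsg.Agent.Lib.Helper95.Glue2
import Cfsg.Agent.Lib.Helper95.SympQuad

set_option autoImplicit false
open Cfsg

namespace Cfsg.Agent.S5652

open Cfsg.Agent.Lib.Helper95 in
/-- For a finite field F of characteristic two and m ≥ 7, let Q be a non-degenerate quadratic form on F^(2m) whose polar form is the standard alternating form. Then the elements of Sp_2m(F) that are similarities of Q (they are exactly the isometries of Q) form a maximal subgroup of Sp_2m(F). -/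
theorem result {F : Type*} [Field F] [Fintype F] (m : ℕ) (hm : 7 ≤ m) (heven : ¬ Odd (Fintype.card F)) (Q : (Fin m ⊕ Fin m → F) → F) (hQ : Cfsg.Geo.IsNondegenerateQuadraticForm Q) (hpol : ∀ u v, QuadraticMap.polar Q u v = Cfsg.sympForm m F u v) : Cfsg.Geo.IsMaximalIn (Cfsg.spGL m F) (Cfsg.Geo.quadSimilarityGroup Q ⊓ Cfsg.spGL m F) := by
  have hB := sympB_isAlt (F := F) m
  have hnd := sympB_nondegenerate (F := F) m
  have hchar : ringChar F = 2 := by
    rw [FiniteField.even_card_iff_char_two]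
    exact Nat.even_iff.1 (Nat.not_odd_iff_even.1 heven)
  have : CharP F 2 := ringChar.of_eq hchar
  have hsq : ∀ a : F, ∃ b, b ^ 2 = a := by
    intro a
    obtain ⟨b, hb⟩ := FiniteField.isSquare_of_char_two hchar a
    exact ⟨b, by rw [hb, pow_two]⟩
  have hQs := hQ.smul
  have hQp : ∀ u v : Fin m ⊕ Fin m → F, Q (u + v) = Q u + Q v + sympB m F u v := by
    intro u v
    rw [sympB_apply, ← hpol, QuadraticMap.polar]
    ring
  have hfr : Module.finrank F (Fin m ⊕ Fin m → F) = 2 * m := finrank_sum_fin m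
  have : Nontrivial (Fin m ⊕ Fin m → F) := Module.nontrivial_of_finrank_pos (R := F) (by omega)
  have hS : ∀ e : (Fin m ⊕ Fin m → F) ≃ₗ[F] (Fin m ⊕ Fin m → F),
      e ∈ toLinGrp (Cfsg.Geo.quadSimilarityGroup Q) ↔ ∃ c : Fˣ, ∀ v, Q (e v) = (c : F) * Q v := by
    intro e
    rw [mem_toLinGrp]
    change (∃ c : Fˣ, ∀ v, Q (Matrix.mulVec _ v) = (c : F) * Q v) ↔ _
    simp only [glEquiv_symm_mulVec]
  refine isMaximalIn_transfer (S' := toLinGrp (Cfsg.Geo.quadSimilarityGroup Q)) (mem_spGL_iff m)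
    (fun g => glEquiv_mem_toLinGrp.symm) ?_ ?_
  · obtain ⟨g, hg, v, hv⟩ := exists_not_quad hB hQs hQp hsq hnd (by omega)
    refine ⟨g, hg, fun h => ?_⟩
    obtain ⟨c, hc⟩ := (hS g).1 h
    exact hv (quad_eq_of_sim hQp hnd hg hc v)
  · intro M' h1 h2 g hg hgS
    refine isoGrp_le_of_quad hB hQs hQp hsq hnd (by omega) ?_ hg (h2 hg) ?_
    · intro e he heQ
      exact h1 (Subgroup.mem_inf.2 ⟨he, (hS e).2 ⟨1, fun v => by simp [heQ v]⟩⟩)
    · by_contra hcon
      push Not at hcon
      exact hgS ((hS g).2 ⟨1, fun v => by simp [hcon v]⟩)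

end Cfsg.Agent.S5652
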