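import Cfsg.Statements.S5653
-- import your own Cfsg.Agent.* helpers here
import Cfsg.Agent.Lib.Helper97.SUParab
import Cfsg.Agent.Lib.Helper97.HermGlue

set_option autoImplicit false
open Cfsg

namespace Cfsg.Agent.S5653

open Cfsg.Agent.Lib.Helper95 Cfsg.Agent.Lib.Helper97


/-- Let F be the field with q² elements and n ≥ 13, and let SU_n(q) be the group of matrices of determinant one preserving the standard unitary form Σ u_i v_i^q on F^n (the intersection of the unitary group GU_n with the kernel of the determinant). The elements of SU_n(q) stabilising a non-zero subspace on which the form vanishes identically form a maximal subgroup of SU_n(q). -/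
theorem result {F : Type*} [Field F] [Fintype F] (n q : ℕ) (hF : Fintype.card F = q ^ 2) (hn : 13 ≤ n) (W : Submodule F (Fin n → F)) (hW0 : W ≠ ⊥) (hW : Cfsg.Geo.IsTotallySingularFor (Cfsg.hermForm n F q) W) : Cfsg.Geo.IsMaximalIn (Cfsg.GU n F q ⊓ Cfsg.Geo.specialLinear (Fin n) F) (Cfsg.Geo.subspaceStabilizer W ⊓ (Cfsg.GU n F q ⊓ Cfsg.Geo.specialLinear (Fin n) F)) := by
  have h := hermUF hF n
  have hfr : Module.finrank F (Fin n → F) = n := by simp
  refine isMaximalIn_transfer mem_SU_iff' (mem_subspaceStabilizer_iff W)
    (exists_su_not_stab h (by omega) hW0 hW) ?_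
  intro M' h1 h2 g hg hgS
  exact su_le_of_singular h (by omega) hW h1 hg (h2 hg).1 hgS

end Cfsg.Agent.S5653
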