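import Cfsg.Statements.S5654
-- import your own Cfsg.Agent.* helpers here
import Cfsg.Agent.Lib.Helper17.SUNondegC
import Cfsg.Agent.Lib.Helper97.HermGlue

set_option autoImplicit false
open Cfsg

namespace Cfsg.Agent.S5654



/-- Let F be the field with q² elements and n ≥ 13. In SU_n(q) (determinant-one isometries of the standard unitary form on F^n) the stabiliser of a non-zero subspace W on which the form is non-degenerate and with 2 dim W < n is a maximal subgroup. -/
theorem result {F : Type*} [Field F] [Fintype F] (n q : ℕ) (hF : Fintype.card F = q ^ 2) (hn : 13 ≤ n) (W : Submodule F (Fin n → F)) (hW0 : W ≠ ⊥) (hW : Cfsg.Geo.IsNondegenerateOn (Cfsg.hermForm n F q) W) (hdim : 2 * Module.finrank F W < n) : Cfsg.Geo.IsMaximalIn (Cfsg.GU n F q ⊓ Cfsg.Geo.specialLinear (Fin n) F) (Cfsg.Geo.subspaceStabilizer W ⊓ (Cfsg.GU n F q ⊓ Cfsg.Geo.specialLinear (Fin n) F)) := by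
  have h := Cfsg.Agent.Lib.Helper97.hermUF hF n
  have hfr : Module.finrank F (Fin n → F) = n := by simp
  have hW' : Cfsg.Agent.Lib.Helper17.SUNondeg.NDOn (Cfsg.hermForm n F q) W :=
    fun w hw hw0 => (hW w hw hw0).1
  have hp := Cfsg.Agent.Lib.Helper17.SUNondeg.finrank_perp h hW'
  refine Cfsg.Agent.Lib.Helper95.isMaximalIn_transfer Cfsg.Agent.Lib.Helper97.mem_SU_iff'
    (Cfsg.Agent.Lib.Helper95.mem_subspaceStabilizer_iff W)
    (Cfsg.Agent.Lib.Helper17.SUNondeg.exists_su_not_stab_nondeg h hW' hW0 (by omega)) ?_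
  intro M' h1 h2 g hg hgS
  exact Cfsg.Agent.Lib.Helper17.SUNondeg.su_le_of_nondeg h (by omega) hW' (by omega) (by omega)
    h1 hg (h2 hg).1 hgS

end Cfsg.Agent.S5654
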