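import Cfsg.Statements.S5656
-- import your own Cfsg.Agent.* helpers here
import Cfsg.Agent.Lib.Helper17.UnitDecTwo

set_option autoImplicit false
open Cfsg

namespace Cfsg.Agent.S5656



/-- Let F be the field with 4 elements (q = 2) and n ≥ 13. Let D be a decomposition of F^n into t pairwise orthogonal 2-dimensional subspaces, each non-degenerate for the standard unitary form Σ u_i v_i². Then the elements of SU_n(2) permuting the members of D form a subgroup that is not maximal: some subgroup lies strictly between it and SU_n(2). -/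
theorem result {F : Type*} [Field F] [Fintype F] (n : ℕ) (hF : Fintype.card F = 4) (hn : 13 ≤ n) {t : ℕ} (D : Fin t → Submodule F (Fin n → F)) (hD : Cfsg.Geo.IsNondegenerateMDecomposition (Cfsg.hermForm n F 2) 2 D) : ∃ K : Subgroup (Matrix.GeneralLinearGroup (Fin n) F), Cfsg.Geo.decompositionStabilizer D ⊓ (Cfsg.GU n F 2 ⊓ Cfsg.Geo.specialLinear (Fin n) F) < K ∧ K < (Cfsg.GU n F 2 ⊓ Cfsg.Geo.specialLinear (Fin n) F) := by
  open Cfsg.Agent.Lib.Helper95 Cfsg.Agent.Lib.Helper97 Cfsg.Agent.Lib.Helper17.UnitDecTwo in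
  have hF' : Fintype.card F = 2 ^ 2 := by rw [hF]; norm_num
  have h := hermUF hF' n
  have hσ : ∀ a, sigmaQ hF' a = a ^ 2 := fun a => rfl
  have h4 : ((4 : ℕ) : F) = 0 := by rw [← hF]; exact Nat.cast_card_eq_zero F
  have h11 : (1 : F) + 1 = 0 := by
    have h5 : ((1 : F) + 1) ^ 2 = 0 := by
      push_cast at h4
      linear_combination h4
    exact pow_eq_zero_iff (two_ne_zero) |>.1 h5
  have h3 : ∀ a : F, a ≠ 0 → a ^ 3 = 1 := by
    intro a ha
    have := FiniteField.pow_card_sub_one_eq_one a ha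
    rwa [hF] at this
  have hnd : ∀ i, ∀ w ∈ D i, w ≠ 0 → ∃ x ∈ D i, Cfsg.hermForm n F 2 x w ≠ 0 :=
    fun i w hw hw0 => (hD.nondegenerate i w hw hw0).1
  have hperp : ∀ i j, i ≠ j → ∀ x ∈ D i, ∀ y ∈ D j, Cfsg.hermForm n F 2 x y = 0 :=
    fun i j hij x hx y hy => hD.orthogonal i j hij x hx y hy
  have hfr := hD.decomp.finrank_eq
  have ht := hD.decomp.two_le
  refine exists_between_transfer (S' := toLinGrp (Cfsg.Geo.decompositionStabilizer D))
    (L' := PGrp (Cfsg.hermForm n F 2) D) mem_SU_iff' (fun g => glEquiv_mem_toLinGrp.symm) ?_ ?_ ?_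
  · intro g hg
    obtain ⟨hg1, hg2⟩ := Subgroup.mem_inf.1 hg
    exact mem_PGrp_of_perm hg1.1 ((mem_toLinGrp_decompositionStabilizer D g).1 hg2)
  · obtain ⟨g, hg1, hg2, hg3⟩ := exists_mem_PGrp_not_perm h hσ h11 h3 hnd hfr hperp
      (i := ⟨0, by omega⟩) (j := ⟨1, by omega⟩) (by simp)
    exact ⟨g, hg1, hg2, fun h => hg3 ((mem_toLinGrp_decompositionStabilizer D g).1 h)⟩
  · exact exists_not_mem_PGrp h hσ h11 hnd hfr hperp (i := ⟨0, by omega⟩) (j := ⟨1, by omega⟩)
      (by simp)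

end Cfsg.Agent.S5656
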