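import Cfsg.Statements.S5657
-- import your own Cfsg.Agent.* helpers here
import Cfsg.Agent.Lib.Helper97.SULagr
import Cfsg.Agent.Lib.Helper97.HermGlue
import Cfsg.Agent.Lib.Helper95.SympDecomp

set_option autoImplicit false
open Cfsg

namespace Cfsg.Agent.S5657

open Cfsg.Agent.Lib.Helper95 Cfsg.Agent.Lib.Helper97


/-- Let F be the field with q² elements and n = 2k ≥ 13. Let D be a decomposition of F^n into two complementary subspaces of dimension k on each of which the standard unitary form vanishes identically. Then the elements of SU_n(q) preserving or interchanging the two subspaces form a maximal subgroup of SU_n(q). -/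
theorem result {F : Type*} [Field F] [Fintype F] (n q : ℕ) (hF : Fintype.card F = q ^ 2) (hn : 13 ≤ n) (k : ℕ) (hk : 2 * k = n) (D : Fin 2 → Submodule F (Fin n → F)) (hD : Cfsg.Geo.IsMDecomposition k D) (hts : ∀ i, Cfsg.Geo.IsTotallySingularFor (Cfsg.hermForm n F q) (D i)) : Cfsg.Geo.IsMaximalIn (Cfsg.GU n F q ⊓ Cfsg.Geo.specialLinear (Fin n) F) (Cfsg.Geo.decompositionStabilizer D ⊓ (Cfsg.GU n F q ⊓ Cfsg.Geo.specialLinear (Fin n) F)) := by
  have h := hermUF hF n
  have hfrV : Module.finrank F (Fin n → F) = n := by simp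
  have hfr := hD.finrank_eq
  have hsup : D 0 ⊔ D 1 = ⊤ := by
    rw [← hD.iSup_eq_top]
    apply le_antisymm
    · exact sup_le (le_iSup D 0) (le_iSup D 1)
    · apply iSup_le
      intro i
      fin_cases i
      · exact le_sup_left
      · exact le_sup_right
  have hdisj : Disjoint (D 0) (D 1) := hD.indep.pairwiseDisjoint (by simp)
  have hS1 : ∀ e : (Fin n → F) ≃ₗ[F] (Fin n → F),
      (∀ x ∈ D 0, e x ∈ D 0) → (∀ x ∈ D 1, e x ∈ D 1) →
      e ∈ toLinGrp (Cfsg.Geo.decompositionStabilizer D) := by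
    intro e h0 h1
    rw [mem_toLinGrp_decompositionStabilizer]
    refine ⟨1, fun i => ?_⟩
    fin_cases i
    · exact map_eq_of_forall e h0 rfl
    · exact map_eq_of_forall e h1 rfl
  have hS2 : ∀ e : (Fin n → F) ≃ₗ[F] (Fin n → F),
      (∀ x ∈ D 0, e x ∈ D 1) → (∀ x ∈ D 1, e x ∈ D 0) →
      e ∈ toLinGrp (Cfsg.Geo.decompositionStabilizer D) := by
    intro e h0 h1
    rw [mem_toLinGrp_decompositionStabilizer]
    refine ⟨Equiv.swap 0 1, fun i => ?_⟩
    fin_cases i
    · exact map_eq_of_forall e h0 (by rw [hfr, hfr])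
    · exact map_eq_of_forall e h1 (by rw [hfr, hfr])
  refine isMaximalIn_transfer (S' := toLinGrp (Cfsg.Geo.decompositionStabilizer D)) mem_SU_iff'
    (fun g => glEquiv_mem_toLinGrp.symm) ?_ ?_
  · have hne0 : D 0 ≠ ⊥ := by
      intro h0
      have := hfr 0
      rw [h0, finrank_bot] at this
      omega
    obtain ⟨a, ha, ha0⟩ := Submodule.exists_mem_ne_zero_of_ne_bot hne0
    have hex : ∃ b ∈ D 1, Cfsg.hermForm n F q a b ≠ 0 := by
      obtain ⟨z, hz⟩ := h.nondeg a ha0
      have hz' : z ∈ D 0 ⊔ D 1 := by rw [hsup]; trivial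
      obtain ⟨z₁, hz₁, z₂, hz₂, rfl⟩ := Submodule.mem_sup.1 hz'
      rw [h.add_left, hts 0 z₁ hz₁ a ha, zero_add] at hz
      exact ⟨z₂, hz₂, ne_zero_comm' h hz⟩
    obtain ⟨b, hb, hab⟩ := hex
    have hb0 : b ≠ 0 := by
      rintro rfl
      exact hab (h.zero_right a)
    have hbb := hts 1 b hb b hb
    obtain ⟨s, hs0, hs⟩ := exists_skew _ h.ne_refl h.involutive
    have hl : s + sigmaQ hF s + s * sigmaQ hF s * Cfsg.hermForm n F q b b = 0 := by
      rw [hs, hbb]; ring
    obtain ⟨t, ht⟩ := exists_sim h hl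
    refine ⟨t, ⟨mem_UGrp_of_formula h hl ht, ?_⟩, fun hc => ?_⟩
    · change LinearEquiv.det t = 1
      apply Units.ext
      rw [det_of_formula h ht, hbb]; simp
    rw [mem_toLinGrp_decompositionStabilizer] at hc
    obtain ⟨τ, hτ⟩ := hc
    have hmem : t a ∈ D (τ 0) := by
      rw [← hτ 0]
      exact ⟨a, ha, rfl⟩
    rw [ht] at hmem
    have hcases : τ 0 = 0 ∨ τ 0 = 1 := by
      generalize τ 0 = j
      fin_cases j
      · left; rfl
      · right; rfl
    rcases hcases with h0 | h0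
    · rw [h0] at hmem
      have h1 : (s * Cfsg.hermForm n F q a b) • b ∈ D 0 := (Submodule.add_mem_iff_right _ ha).1 hmem
      have h2 : b ∈ D 0 := (Submodule.smul_mem_iff _ (mul_ne_zero hs0 hab)).1 h1
      exact hb0 (Submodule.disjoint_def.1 hdisj b h2 hb)
    · rw [h0] at hmem
      have h1 : a ∈ D 1 := (Submodule.add_mem_iff_left _ (Submodule.smul_mem _ _ hb)).1 hmem
      exact ha0 (Submodule.disjoint_def.1 hdisj a ha h1)
  · intro M' h1 h2' g hg hgS
    exact su_le_of_lagr h (by omega) (hts 0) (hts 1) hsup (by rw [hfr]; omega) (by rw [hfr]; omega)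
      hS1 hS2 h1 hg (h2' hg).1 hgS

end Cfsg.Agent.S5657
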