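import Cfsg.Statements.S5659
-- import your own Cfsg.Agent.* helpers here
import Cfsg.Agent.Lib.Helper97.SUSubO

set_option autoImplicit false
open Cfsg

namespace Cfsg.Agent.S5659

open Cfsg.Agent.Lib.Helper95 Cfsg.Agent.Lib.Helper97


/-- Let F be the field with q² elements, q odd, n ≥ 13, and F₀ the subfield with q elements. Let P be an invertible matrix such that the standard unitary form takes values in F₀ on the F₀-span of the columns of P (so it restricts to a non-degenerate symmetric bilinear form there). Then the elements of SU_n(q) lying in the subfield group of P form a maximal subgroup of SU_n(q). -/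
theorem result {F : Type*} [Field F] [Fintype F] (n q : ℕ) (hF : Fintype.card F = q ^ 2) (hn : 13 ≤ n) (hodd : Odd q) (F₀ : Subfield F) (hcard : Fintype.card F = Nat.card F₀ ^ 2) (P : Matrix.GeneralLinearGroup (Fin n) F) (hP : Cfsg.Geo.IsFormRationalStructure (Cfsg.hermForm n F q) F₀ 1 P) : Cfsg.Geo.IsMaximalIn (Cfsg.GU n F q ⊓ Cfsg.Geo.specialLinear (Fin n) F) (Cfsg.Geo.subfieldSubgroup F₀ P ⊓ (Cfsg.GU n F q ⊓ Cfsg.Geo.specialLinear (Fin n) F)) := by
  have h := hermUF hF n
  have hfrV : Module.finrank F (Fin n → F) = n := by simp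
  have hq : Nat.card F₀ = q := card_subfield_eq hF F₀ hcard
  have h2 : (2 : F) ≠ 0 := by
    intro h0
    have hc : CharP F 2 := CharTwo.of_one_ne_zero_of_two_eq_zero one_ne_zero h0
    obtain ⟨k, hp, hk⟩ := FiniteField.card F 2
    have hodd' : Odd (Fintype.card F) := by rw [hF]; exact hodd.pow
    rw [hk] at hodd'
    have : Even (2 ^ (k : ℕ)) := (Nat.even_pow.2 ⟨even_two, k.pos.ne'⟩)
    exact (Nat.not_even_iff_odd.2 hodd') this
  obtain ⟨ω, hω0, hω⟩ := exists_skew (sigmaQ hF) h.ne_refl h.involutive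
  have hωne : sigmaQ hF ω ≠ ω := by
    intro hc
    rw [hω] at hc
    have : (2 : F) * ω = 0 := by linear_combination -hc
    rcases mul_eq_zero.1 this with h3 | h3
    · exact h2 h3
    · exact hω0 h3
  obtain ⟨hdec, huniq⟩ := omega_decomp hF F₀ hcard hωne
  have hR := ratStr_ratVec F₀ P ω hdec huniq
  have hfix := mem_iff_sigmaQ hF F₀ hcard
  have hsym : ∀ u ∈ ratVec F₀ P, ∀ v ∈ ratVec F₀ P, Cfsg.hermForm n F q u v ∈ F₀ := by
    rintro _ ⟨u, hu, rfl⟩ _ ⟨v, hv, rfl⟩
    have := hP u v hu hv
    rwa [one_mul] at this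
  have hU := subfield_universal F₀ (by rw [hq]; exact hodd)
  refine isMaximalIn_transfer (S' := toLinGrp (Cfsg.Geo.subfieldSubgroup F₀ P)) mem_SU_iff'
    (fun g => glEquiv_mem_toLinGrp.symm) ?_ ?_
  · exact exists_su_not_orth_subfield h hR hfix hω hsym hU (by omega)
      (fun e he => exists_of_mem_toLinGrp_subfield he)
  · intro M' h1 h2' g hg hgS
    exact su_le_of_orth_subfield h hR hfix hω hsym h2 hU (by omega)
      (fun e c hc he => mem_toLinGrp_subfield_of e c hc he) h1 hg (h2' hg).1 hgS

end Cfsg.Agent.S5659
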