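import Cfsg.Statements.S5660
-- import your own Cfsg.Agent.* helpers here
import Cfsg.Agent.Lib.Helper97.SUSubSp

set_option autoImplicit false
open Cfsg

namespace Cfsg.Agent.S5660

open Cfsg.Agent.Lib.Helper95 Cfsg.Agent.Lib.Helper97


/-- Let F be the field with q² elements, n ≥ 13 even, and F₀ the subfield with q elements. Let ζ be a non-zero element with ζ + ζ^q = 0 and P an invertible matrix such that ζ times the standard unitary form takes values in F₀ on the F₀-span of the columns of P and the form vanishes on every pair (u, u) of that span (so ζ times the form restricts to a non-degenerate alternating form there). Then the elements of SU_n(q) lying in the subfield group of P form a maximal subgroup of SU_n(q). -/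
theorem result {F : Type*} [Field F] [Fintype F] (n q : ℕ) (hF : Fintype.card F = q ^ 2) (hn : 13 ≤ n) (heven : Even n) (F₀ : Subfield F) (hcard : Fintype.card F = Nat.card F₀ ^ 2) (ζ : F) (hζ0 : ζ ≠ 0) (hζ : ζ + ζ ^ q = 0) (P : Matrix.GeneralLinearGroup (Fin n) F) (hP : Cfsg.Geo.IsFormRationalStructure (Cfsg.hermForm n F q) F₀ ζ P) (halt : ∀ u : Fin n → F, (∀ i, u i ∈ F₀) → Cfsg.hermForm n F q (Matrix.mulVec (P : Matrix (Fin n) (Fin n) F) u) (Matrix.mulVec (P : Matrix (Fin n) (Fin n) F) u) = 0) : Cfsg.Geo.IsMaximalIn (Cfsg.GU n F q ⊓ Cfsg.Geo.specialLinear (Fin n) F) (Cfsg.Geo.subfieldSubgroup F₀ P ⊓ (Cfsg.GU n F q ⊓ Cfsg.Geo.specialLinear (Fin n) F)) := by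
  have h := hermUF hF n
  have hfrV : Module.finrank F (Fin n → F) = n := by simp
  obtain ⟨ω, -, hdec, huniq⟩ := exists_omega hF F₀ hcard
  have hR := ratStr_ratVec F₀ P ω hdec huniq
  have hfix := mem_iff_sigmaQ hF F₀ hcard
  have halt' : ∀ u ∈ ratVec F₀ P, Cfsg.hermForm n F q u u = 0 := by
    rintro _ ⟨u, hu, rfl⟩
    exact halt u hu
  refine isMaximalIn_transfer (S' := toLinGrp (Cfsg.Geo.subfieldSubgroup F₀ P)) mem_SU_iff'
    (fun g => glEquiv_mem_toLinGrp.symm) ?_ ?_
  · exact exists_su_not_symp_subfield h hR hfix halt' (by omega)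
      (fun e he => exists_of_mem_toLinGrp_subfield he)
  · intro M' h1 h2' g hg hgS
    exact su_le_of_symp_subfield h hR hfix halt' (by omega)
      (fun e c hc he => mem_toLinGrp_subfield_of e c hc he) h1 hg (h2' hg).1 hgS

end Cfsg.Agent.S5660
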