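import Cfsg.Statements.S5662
import Cfsg.Agent.Lib.Helper11.SpG.Main
import Cfsg.Agent.Lib.Helper80.AS.SF

set_option autoImplicit false
open Cfsg

namespace Cfsg.Agent.S5662

/-- Subgroup structure of the finite symplectic groups. Let F be a finite field and m ≥ 2 with (m, |F|) ≠ (2, 2), and let Sp_2m(F) be the group of invertible matrices preserving the standard alternating form on F^(2m). Let H be a subgroup of Sp_2m(F) whose product with the scalar matrices ±1 is not all of Sp_2m(F) (H does not cover PSp_2m(F)). Then either H is contained in a member of one of the eight geometric classes of subgroups of Sp_2m(F) (with the conditions built into InSymplecticClass), or H is in the residual class: modulo scalars it is almost simple, and the perfect preimage of its socle acts absolutely irreducibly, is realisable over no proper subfield, and fixes no non-degenerate quadratic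 form and no non-degenerate unitary form on F^(2m). -/
theorem result {F : Type*} [Field F] [Fintype F] (m : ℕ) (hm : 2 ≤ m) (hex : ¬ (m = 2 ∧ Fintype.card F = 2)) (H : Subgroup (Matrix.GeneralLinearGroup (Fin m ⊕ Fin m) F)) (hH : H ≤ Cfsg.spGL m F) (hproper : H ⊔ (Cfsg.Geo.scalars (Fin m ⊕ Fin m) F ⊓ Cfsg.spGL m F) ≠ Cfsg.spGL m F) : (∃ M : Subgroup (Matrix.GeneralLinearGroup (Fin m ⊕ Fin m) F), Cfsg.Geo.InSymplecticClass m F M ∧ H ≤ M) ∨ Cfsg.Geo.InSymplecticResidualClass H := by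
  have hf := Cfsg.Agent.Lib.Helper80.AS.sympForm_isSymplectic (F := F) m
  have hcard : Fintype.card (Fin m ⊕ Fin m) = 2 * m := by
    rw [Fintype.card_sum, Fintype.card_fin]
    ring
  rcases Cfsg.Agent.Lib.Helper11.SpG.mainP m (by omega) hcard (Cfsg.sympForm m F) hf H hH with h | h
  swap
  · exact Or.inr h
  left
  rcases h with ⟨W, h0, h1, h2⟩ | ⟨W, h0, h1, h2, h3⟩ | ⟨t, k, D, h1, h2⟩ | ⟨D, h0, h1, h2, h3⟩ |
    ⟨F₀, r, P, ζ, h0, h1, h2, h3, h4⟩ | ⟨R, p, k, h0, h1, h2, h3, h4, h5, h6, h7, h8, h9⟩ |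
    ⟨Q, h0, h1, h2, h3⟩ | ⟨r, K, h0, h1, h2, h3, h4⟩ | ⟨K, h0, h1, h2, h3, h4⟩ |
    ⟨n₁, n₂, e, P, f₁, f₂, h0, h1, h2, h3, h4, h5⟩ | ⟨k, t, e, P, f₁, h0, h1, h2, h3, h4, h5, h6⟩
  · exact ⟨_, Or.inl (Or.inl ⟨W, h0, h1, rfl⟩), le_inf h2 hH⟩
  · exact ⟨_, Or.inl (Or.inr (Or.inl ⟨W, h0, h1, h2, rfl⟩)), le_inf h3 hH⟩
  · exact ⟨_, Or.inl (Or.inr (Or.inr (Or.inl ⟨t, k, D, h1, rfl⟩))), le_inf h2 hH⟩
  · exact ⟨_, Or.inl (Or.inr (Or.inr (Or.inr (Or.inl ⟨D, h0, h1, h2, rfl⟩)))), le_inf h3 hH⟩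
  · exact ⟨_, Or.inl (Or.inr (Or.inr (Or.inr (Or.inr (Or.inl ⟨F₀, r, P, ζ, h0, h1, h2, h3, rfl⟩))))),
      le_inf h4 hH⟩
  · exact ⟨_, Or.inl (Or.inr (Or.inr (Or.inr (Or.inr (Or.inr (Or.inl
      ⟨R, p, k, h0, h1, h2, h3, h4, h5, h6, h7, h8, rfl⟩)))))), le_inf h9 hH⟩
  · exact ⟨_, Or.inl (Or.inr (Or.inr (Or.inr (Or.inr (Or.inr (Or.inr ⟨Q, h0, h1, h2, rfl⟩)))))),
      le_inf h3 hH⟩
  · exact ⟨_, Or.inr (Or.inl ⟨r, K, h0, h1, h2, h3, rfl⟩), le_inf h4 hH⟩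
  · exact ⟨_, Or.inr (Or.inr (Or.inl ⟨K, h0, h1, h2, h3, rfl⟩)), le_inf h4 hH⟩
  · exact ⟨_, Or.inr (Or.inr (Or.inr (Or.inl ⟨n₁, n₂, e, P, f₁, f₂, h0, h1, h2, h3, h4, rfl⟩))), le_inf h5 hH⟩
  · exact ⟨_, Or.inr (Or.inr (Or.inr (Or.inr ⟨k, t, e, P, f₁, h0, h1, h2, h3, h4, h5, rfl⟩))), le_inf h6 hH⟩

end Cfsg.Agent.S5662
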