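import Cfsg.Statements.S5665
-- import your own Cfsg.Agent.* helpers here
import Cfsg.Agent.Lib.Helper97.SpUnitGlue

set_option autoImplicit false
open Cfsg

namespace Cfsg.Agent.S5665

open Cfsg.Agent.Lib.Helper95 Cfsg.Agent.Lib.Helper97


/-- For a finite field F of odd order and m ≥ 7, let K be a subfield of the algebra of 2m × 2m matrices over F containing the scalars, of degree 2 over F, that is closed under adjoints for the standard alternating form on F^(2m) but whose elements are not all self-adjoint (so the adjoint map induces the automorphism of order two of K). Then the elements of Sp_2m(F) normalising K form a maximal subgroup of Sp_2m(F). -/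
theorem result {F : Type*} [Field F] [Fintype F] (m : ℕ) (hm : 7 ≤ m) (hodd : Odd (Fintype.card F)) (K : Subalgebra F (Matrix (Fin m ⊕ Fin m) (Fin m ⊕ Fin m) F)) (hK : Cfsg.Geo.IsFieldSubalgebra 2 K) (hac : Cfsg.Geo.IsAdjointClosedFor (Cfsg.sympForm m F) K) (hnsa : ¬ Cfsg.Geo.IsSelfAdjointFor (Cfsg.sympForm m F) K) : Cfsg.Geo.IsMaximalIn (Cfsg.spGL m F) (Cfsg.Geo.subalgebraNormalizer K ⊓ Cfsg.spGL m F) := by
  have h2 : (2 : F) ≠ 0 := by
    intro h
    have hc : CharP F 2 := CharTwo.of_one_ne_zero_of_two_eq_zero one_ne_zero h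
    obtain ⟨k, hp, hk⟩ := FiniteField.card F 2
    rw [hk] at hodd
    have : Even (2 ^ (k : ℕ)) := (Nat.even_pow.2 ⟨even_two, k.pos.ne'⟩)
    exact (Nat.not_even_iff_odd.2 hodd) this
  exact sp_unitary_maximal m hm h2 K hK hac hnsa

end Cfsg.Agent.S5665
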