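import Cfsg.Statements.S5667
-- import your own Cfsg.Agent.* helpers here
import Cfsg.Agent.Lib.Helper17.TensorSymp

set_option autoImplicit false
open Cfsg

namespace Cfsg.Agent.S5667

open scoped Kronecker MatrixGroups
open Matrix Module Cfsg.Agent.Lib.Helper17 Cfsg.Agent.Lib.Helper17.Tensor Cfsg.Agent.Lib.Helper17.TensorForm
  Cfsg.Agent.Lib.Helper17.TensorSymp Cfsg.Agent.Lib.Helper17.FrameThree
  Cfsg.Agent.Lib.Helper95 Cfsg.Agent.Lib.Helper97

/-- Over the field with 3 elements and for m ≥ 7, suppose the standard alternating form on F^(2m) is similar, through P and e, to the tensor product of a non-degenerate symplectic form f₁ on F^(n₁) and a non-degenerate symmetric bilinear form f₂ on F^3. Then the elements of Sp_2m(3) in the stabiliser of this tensor decomposition form a subgroup that is not maximal: some subgroup lies strictly between it and Sp_2m(3). -/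
theorem result {F : Type*} [Field F] [Fintype F] (m : ℕ) (hm : 7 ≤ m) (hq : Fintype.card F = 3) (n₁ : ℕ) (e : (Fin m ⊕ Fin m) ≃ Fin n₁ × Fin 3) (P : Matrix.GeneralLinearGroup (Fin m ⊕ Fin m) F) (f₁ : (Fin n₁ → F) → (Fin n₁ → F) → F) (f₂ : (Fin 3 → F) → (Fin 3 → F) → F) (hf₁ : Cfsg.Geo.IsSymplecticForm f₁) (hf₂ : Cfsg.Geo.IsSymmetricForm f₂) (hT : Cfsg.Geo.IsTensorFormStructure id (Cfsg.sympForm m F) f₁ f₂ e P) : ∃ K : Subgroup (Matrix.GeneralLinearGroup (Fin m ⊕ Fin m) F), Cfsg.Geo.tensorProductSubgroup n₁ 3 e P ⊓ Cfsg.spGL m F < K ∧ K < Cfsg.spGL m F := by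
  classical
  have h3 : (3 : F) = 0 := by
    have hcast : ((Fintype.card F : ℕ) : F) = 0 := Nat.cast_card_eq_zero F
    rw [hq] at hcast
    exact_mod_cast hcast
  have hF : ∀ a : F, a = 0 ∨ a = 1 ∨ a = -1 := by
    intro a
    by_contra hcon
    push Not at hcon
    have h10 : (1 : F) ≠ -1 := by
      intro h
      have : (1 : F) = 0 := by linear_combination h3 - h
      exact one_ne_zero this
    have h4 : ({0, 1, -1, a} : Finset F).card = 4 := by
      rw [Finset.card_insert_of_notMem, Finset.card_insert_of_notMem, Finset.card_insert_of_notMem,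
        Finset.card_singleton]
      · simp [hcon.2.2.symm]
      · simp [hcon.2.1.symm, h10]
      · simp [hcon.1.symm]
    have h5 := Finset.card_le_univ ({0, 1, -1, a} : Finset F)
    omega
  have hn₁ : 0 < n₁ := by
    have := Fintype.card_congr e
    simp only [Fintype.card_fin, Fintype.card_prod, Fintype.card_sum] at this
    rcases Nat.eq_zero_or_pos n₁ with h | h
    · rw [h] at this; omega
    · exact h
  obtain ⟨c, hc, hT⟩ := hT
  have hB : (pullB e P (sympB m F)).IsAlt := fun x => sympB_isAlt m _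
  have hT' : ∀ u w u' w', pullB e P (sympB m F) (tp u w) (tp u' w') = c * (f₁ u u' * f₂ w w') := by
    intro u w u' w'
    rw [pullB_apply, sympB_apply, Lmap_apply, Lmap_apply, hT, formOfGram_tp _ (fun a b => rfl),
      formOfGram_gram id f₁ hf₁.bilinear.add_left hf₁.bilinear.smul_left hf₁.bilinear.add_right
        hf₁.bilinear.smul_right,
      formOfGram_gram id f₂ hf₂.bilinear.add_left hf₂.bilinear.smul_left hf₂.bilinear.add_right
        hf₂.bilinear.smul_right]
  obtain ⟨ε, y, hy⟩ := exists_frame hF h3 hf₂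
  have hu₀ : (Pi.single ⟨0, hn₁⟩ 1 : Fin n₁ → F) ≠ 0 := by
    intro h0
    have := congrFun h0 ⟨0, hn₁⟩
    simp at this
  have hmem : ∀ g : GL (Fin n₁ × Fin 3) F,
      tIso e P g ∈ Cfsg.spGL m F ↔ glEquiv g ∈ isoGrp (pullB e P (sympB m F)) := by
    intro g
    rw [mem_spGL_iff, tIso_mem_isoGrp]
  rw [tensorProductSubgroup_eq]
  refine between_transfer (tIso e P) _ ((setStab F (TensorSymp.pureSet n₁ f₂)).comap glEquiv.toMonoidHom) _
    ?_ ?_ ?_
  · intro g hg hgB
    exact TensorSymp.kron_mem_setStab hf₁ hf₂ hc hT' hn₁ hg ((hmem g).1 hgB)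
  · obtain ⟨g, hg1, hg2, hg3⟩ := TensorSymp.exists_mem_not_kron hf₁ hf₂ hB hc hT' hF h3 hy hu₀
    exact ⟨g, hg1, (hmem g).2 hg2, hg3⟩
  · obtain ⟨g, hg1, hg2⟩ := TensorSymp.exists_not_mem hf₁ hf₂ hB hc hT' hF h3 hy hu₀
    exact ⟨g, (hmem g).2 hg1, hg2⟩

end Cfsg.Agent.S5667
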