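import Cfsg.Statements.S5671
-- import your own Cfsg.Agent.* helpers here
import Cfsg.Agent.Lib.Helper17.TensorUnit

set_option autoImplicit false
open Cfsg

namespace Cfsg.Agent.S5671

open scoped Kronecker MatrixGroups
open Matrix Module Cfsg.Agent.Lib.Helper17 Cfsg.Agent.Lib.Helper17.Tensor Cfsg.Agent.Lib.Helper17.TensorForm
  Cfsg.Agent.Lib.Helper17.TensorUnit
  Cfsg.Agent.Lib.Helper17.UnitDecTwo Cfsg.Agent.Lib.Helper95 Cfsg.Agent.Lib.Helper97

/-- Let F be the field with 4 elements (q = 2) and n = 2 n₂ ≥ 13. Suppose the standard unitary form Σ u_i v_i² on F^n is similar, through P and e, to the tensor product of non-degenerate unitary forms f₁ on F^2 and f₂ on F^(n₂). Then the elements of SU_n(2) in the stabiliser of this tensor decomposition form a subgroup that is not maximal: some subgroup lies strictly between it and SU_n(2). -/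
theorem result {F : Type*} [Field F] [Fintype F] (n : ℕ) (hF : Fintype.card F = 4) (hn : 13 ≤ n) (n₂ : ℕ) (e : Fin n ≃ Fin 2 × Fin n₂) (P : Matrix.GeneralLinearGroup (Fin n) F) (f₁ : (Fin 2 → F) → (Fin 2 → F) → F) (f₂ : (Fin n₂ → F) → (Fin n₂ → F) → F) (hf₁ : Cfsg.Geo.IsUnitaryFormPow 2 f₁) (hf₂ : Cfsg.Geo.IsUnitaryFormPow 2 f₂) (hT : Cfsg.Geo.IsTensorFormStructure (fun x : F => x ^ 2) (Cfsg.hermForm n F 2) f₁ f₂ e P) : ∃ K : Subgroup (Matrix.GeneralLinearGroup (Fin n) F), Cfsg.Geo.tensorProductSubgroup 2 n₂ e P ⊓ (Cfsg.GU n F 2 ⊓ Cfsg.Geo.specialLinear (Fin n) F) < K ∧ K < (Cfsg.GU n F 2 ⊓ Cfsg.Geo.specialLinear (Fin n) F) := by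
  classical
  have hF' : Fintype.card F = 2 ^ 2 := by rw [hF]; norm_num
  have hσ : ∀ a, sigmaQ hF' a = a ^ 2 := fun a => rfl
  have h11 : (1 : F) + 1 = 0 := by
    have hcast : ((Fintype.card F : ℕ) : F) = 0 := Nat.cast_card_eq_zero F
    rw [hF] at hcast
    push_cast at hcast
    have : ((1 : F) + 1) ^ 2 = 0 := by linear_combination hcast
    exact pow_eq_zero_iff (two_ne_zero) |>.1 this
  have h3 : ∀ a : F, a ≠ 0 → a ^ 3 = 1 := by
    intro a ha
    have := FiniteField.pow_card_sub_one_eq_one a ha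
    rwa [hF] at this
  have hn₂ : 7 ≤ n₂ := by
    have := Fintype.card_congr e
    simp only [Fintype.card_fin, Fintype.card_prod] at this
    omega
  have h₁ : UF (sigmaQ hF') f₁ := ⟨sigmaQ_ne_refl hF', pow_q_pow_q hF', hf₁.add_left, hf₁.smul_left,
    hf₁.herm, fun v hv => (hf₁.nondegenerate v hv).1⟩
  have h₂ : UF (sigmaQ hF') f₂ := ⟨sigmaQ_ne_refl hF', pow_q_pow_q hF', hf₂.add_left, hf₂.smul_left,
    hf₂.herm, fun v hv => (hf₂.nondegenerate v hv).1⟩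
  have hH : UF (sigmaQ hF') (pull e P (Cfsg.hermForm n F 2)) := UF_pull (hermUF hF' n) e P
  obtain ⟨c, hc, hT⟩ := hT
  have hT' : ∀ u w u' w', pull e P (Cfsg.hermForm n F 2) (tp u w) (tp u' w') =
      c * (f₁ u u' * f₂ w w') := by
    intro u w u' w'
    unfold pull
    rw [Lmap_apply, Lmap_apply, hT, formOfGram_tp _ (fun a b => mul_pow a b 2),
      formOfGram_gram (fun x : F => x ^ 2) f₁ h₁.add_left h₁.smul_left h₁.add_right h₁.smul_right,
      formOfGram_gram (fun x : F => x ^ 2) f₂ h₂.add_left h₂.smul_left h₂.add_right h₂.smul_right]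
  obtain ⟨x, -, y, -, hxx, hyy, hxy, hyx, hspan⟩ := exists_onb h₁ hσ (W := ⊤)
    (fun w _ hw => by obtain ⟨x, hx⟩ := h₁.nondeg w hw; exact ⟨x, trivial, hx⟩) (by simp)
  have hspan' : ∀ z : Fin 2 → F, ∃ α β : F, z = α • x + β • y := fun z => hspan z trivial
  obtain ⟨w₀, hw₀, hw₀₀⟩ : ∃ w₀ : Fin n₂ → F, w₀ ≠ 0 ∧ f₂ w₀ w₀ = 0 := by
    let j₀ : Fin n₂ := ⟨0, by omega⟩
    obtain ⟨w, -, hw, hw'⟩ := h₂.exists_iso_ne ⊤ (by simp; omega) (LinearMap.proj j₀)
      (Pi.single j₀ 1) trivial (by simp)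
    refine ⟨w, ?_, hw⟩
    rintro rfl
    simp at hw'
  have hmem : ∀ g : GL (Fin 2 × Fin n₂) F,
      tIso e P g ∈ Cfsg.GU n F 2 ⊓ Cfsg.Geo.specialLinear (Fin n) F ↔
      glEquiv g ∈ UGrp (pull e P (Cfsg.hermForm n F 2)) ⊓ slGrp F (Fin 2 × Fin n₂ → F) := by
    intro g
    rw [mem_SU_iff', tIso_mem_iff]
  rw [tensorProductSubgroup_eq]
  refine between_transfer (tIso e P) _ ((setStab F (pureSet f₁ n₂)).comap glEquiv.toMonoidHom) _
    ?_ ?_ ?_
  · intro g hg hgB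
    exact kron_mem_setStab h₂ hc hT' (by omega) hg ((hmem g).1 hgB).1
  · obtain ⟨g, hg1, hg2, hg3⟩ := exists_mem_not_kron h₁ h₂ hH hc hT' hxx hyy hxy hyx hσ h11 h3 hspan'
      hw₀ hw₀₀
    exact ⟨g, hg1, (hmem g).2 hg2, hg3⟩
  · obtain ⟨g, hg1, hg2⟩ := exists_not_mem h₁ h₂ hH hc hT' hxx hyy hxy hyx hσ h11 h3 hspan' hw₀ hw₀₀
    exact ⟨g, (hmem g).2 hg1, hg2⟩

end Cfsg.Agent.S5671
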