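import Cfsg.Statements.S5673
-- import your own Cfsg.Agent.* helpers here
import Cfsg.Agent.Lib.Lead.OG.Main

set_option autoImplicit false
open Cfsg

namespace Cfsg.Agent.S5673

/-- Subgroup structure of the odd-dimensional orthogonal groups. Let F be a finite field of odd order and m ≥ 3, let Q be the standard quadratic form x₀² + Σ x_i y_i on F^(2m+1), and let Ω be the commutator subgroup of its isometry group, viewed inside GL_(2m+1)(F). Let H be a subgroup of Ω whose product with the scalar matrices in Ω is not all of Ω. Then either H is contained in a member of one of the geometric classes of subgroups of the isometry group (with the conditions built into InOrthogonalOddClass), or H is in the residual class: modulo scalars it is almost simple, and the perfect preimage of its socle acts absolutely irreducibly, is realisable over no proper subfield, and fixes no non-degenerate unitary form. -/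
theorem result {F : Type*} [Field F] [Fintype F] (hodd : Odd (Fintype.card F)) (m : ℕ) (hm : 3 ≤ m) (H : Subgroup (Matrix.GeneralLinearGroup (Unit ⊕ (Fin m ⊕ Fin m)) F)) (hH : H ≤ Cfsg.Geo.omegaGL (Cfsg.quadFormOdd m F)) (hproper : H ⊔ (Cfsg.Geo.scalars (Unit ⊕ (Fin m ⊕ Fin m)) F ⊓ Cfsg.Geo.omegaGL (Cfsg.quadFormOdd m F)) ≠ Cfsg.Geo.omegaGL (Cfsg.quadFormOdd m F)) : (∃ M : Subgroup (Matrix.GeneralLinearGroup (Unit ⊕ (Fin m ⊕ Fin m)) F), Cfsg.Geo.InOrthogonalOddClass m F M ∧ H ≤ M) ∨ Cfsg.Geo.InOrthogonalResidualClass H := by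
  have h2 : (2 : F) ≠ 0 := by
    intro h
    have hc : CharP F 2 := CharTwo.of_one_ne_zero_of_two_eq_zero one_ne_zero h
    obtain ⟨n, hp, hn⟩ := FiniteField.card F 2
    rw [hn] at hodd
    have : Even (2 ^ (n : ℕ)) := (Nat.even_pow.2 ⟨even_two, n.pos.ne'⟩)
    exact (Nat.not_even_iff_odd.2 hodd) this
  have hQ' := Cfsg.Agent.Lib.Helper49.oddQF_nondegenerate (m := m) (F := F) h2
  have hcard : Fintype.card (Unit ⊕ (Fin m ⊕ Fin m)) = 2 * m + 1 := by
    simp only [Fintype.card_sum, Fintype.card_fin, Fintype.card_unit]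
    omega
  have hI : H ≤ Cfsg.isometryGroup F (Cfsg.quadFormOdd m F) :=
    hH.trans (Subgroup.map_subtype_le _)
  have key := Cfsg.Agent.Lib.Lead.OG.mainO h2 (Cfsg.Agent.Lib.Helper49.oddQF m F) hQ'
    (fun F₀ => Cfsg.Agent.Lib.Helper11.AschO.oddQF_disc m F₀) (k := m) hcard (by omega) H
    (by rw [Cfsg.Agent.Lib.Helper49.oddQF_coe]; exact hH)
  rw [Cfsg.Agent.Lib.Helper49.oddQF_coe] at key
  rcases key with hgeo | hres
  swap
  · exact Or.inr hres
  left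
  rcases hgeo with ⟨W, h0, h1, hle⟩ | ⟨W, h0, h1, h3, hle⟩ | ⟨t, k, D, h0, h1, hle⟩ | ⟨t, D, h0, h1, hle⟩ |
    ⟨r, K, h0, h1, h3, h4, hle⟩ | ⟨n₁, n₂, e, P, f₁, f₂, h0, h1, h3, h4, h5, hle⟩ | ⟨F₀, r, P, h0, h1, h3, hle⟩ |
    ⟨k, t, e, P, f₁, h0, h1, h3, h4, h5, hle⟩
  · exact ⟨_, Or.inl ⟨W, h0, h1, rfl⟩, le_inf hle hI⟩
  · exact ⟨_, Or.inr (Or.inl ⟨W, h0, h1, h3, rfl⟩), le_inf hle hI⟩
  · exact ⟨_, Or.inr (Or.inr (Or.inl ⟨t, k, D, h0, h1, rfl⟩)), le_inf hle hI⟩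
  · exact ⟨_, Or.inr (Or.inr (Or.inr (Or.inl ⟨t, D, h0, h1, rfl⟩))), le_inf hle hI⟩
  · exact ⟨_, Or.inr (Or.inr (Or.inr (Or.inr (Or.inl ⟨r, K, h0, by rw [← hcard]; exact h1, h3, h4, rfl⟩)))), le_inf hle hI⟩
  · exact ⟨_, Or.inr (Or.inr (Or.inr (Or.inr (Or.inr (Or.inl ⟨n₁, n₂, e, P, f₁, f₂, h0, h1, h3, h4, h5, rfl⟩))))),
      le_inf hle hI⟩
  · exact ⟨_, Or.inr (Or.inr (Or.inr (Or.inr (Or.inr (Or.inr (Or.inl ⟨F₀, r, P, h0, h1, h3, rfl⟩)))))), le_inf hle hI⟩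
  · exact ⟨_, Or.inr (Or.inr (Or.inr (Or.inr (Or.inr (Or.inr (Or.inr ⟨k, t, e, P, f₁, h0, h1, h3, h4, h5, rfl⟩)))))),
      le_inf hle hI⟩

end Cfsg.Agent.S5673
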