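import Cfsg.Statements.S5674
import Cfsg.Agent.Lib.Helper49.Parabolic
import Cfsg.Agent.Lib.Helper49.HypPairs

set_option autoImplicit false
open Cfsg
open Cfsg.Agent.Lib.Helper95
open Cfsg.Agent.Lib.Helper49 hiding glEquiv glEquiv_apply

namespace Cfsg.Agent.S5674

/-- Let F be a finite field of odd order, m ≥ 6, Q the standard quadratic form x₀² + Σ x_i y_i on F^(2m+1) and Ω the commutator subgroup of its isometry group inside GL_(2m+1)(F). The elements of Ω stabilising a non-zero subspace on which Q vanishes form a maximal subgroup of Ω. -/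
theorem result {F : Type*} [Field F] [Fintype F] (hodd : Odd (Fintype.card F)) (m : ℕ) (hm : 6 ≤ m) (W : Submodule F (Unit ⊕ (Fin m ⊕ Fin m) → F)) (hW0 : W ≠ ⊥) (hW : Cfsg.Geo.IsTotallySingularQuad (Cfsg.quadFormOdd m F) W) : Cfsg.Geo.IsMaximalIn (Cfsg.Geo.omegaGL (Cfsg.quadFormOdd m F)) (Cfsg.Geo.subspaceStabilizer W ⊓ Cfsg.Geo.omegaGL (Cfsg.quadFormOdd m F)) := by
  have h2 : (2 : F) ≠ 0 := by
    intro h
    have hc : CharP F 2 := CharTwo.of_one_ne_zero_of_two_eq_zero one_ne_zero h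
    obtain ⟨n, hp, hn⟩ := FiniteField.card F 2
    rw [hn] at hodd
    have : Even (2 ^ (n : ℕ)) := (Nat.even_pow.2 ⟨even_two, n.pos.ne'⟩)
    exact (Nat.not_even_iff_odd.2 hodd) this
  have hQ' := oddQF_nondegenerate (m := m) (F := F) h2
  rw [← oddQF_coe] at hW ⊢
  have hfr : Module.finrank F (Unit ⊕ (Fin m ⊕ Fin m) → F) = 2 * m + 1 := by
    rw [Module.finrank_fintype_fun_eq_card]
    simp; ring
  refine omega_maximal_of (oddQF m F) _ (stabGrp W) (mem_subspaceStabilizer_iff W)
    (exists_not_mem_stabGrp_of_singular hQ' (by rw [hfr]; omega) W hW hW0) ?_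
  intro M hM g hg hgW
  refine parabolic_max' hQ' (by rw [hfr]; omega) W hW ?_ M hM g hg hgW
  rw [hfr]
  by_cases h : 2 * Module.finrank F W + 3 ≤ 2 * m + 1
  · exact Or.inl h
  · right
    intro U hU
    have := two_mul_finrank_le_of_singular hQ' U hU
    rw [hfr] at this
    omega

end Cfsg.Agent.S5674
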