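import Cfsg.Statements.S5675
-- import your own Cfsg.Agent.* helpers here
import Cfsg.Agent.Lib.Helper95.OmStab
import Cfsg.Agent.Lib.Helper49.HypPairs

set_option autoImplicit false
open Cfsg

namespace Cfsg.Agent.S5675

open Cfsg.Agent.Lib.Helper95 QuadraticMap Module in
open Cfsg.Agent.Lib.Helper49 hiding glEquiv glEquiv_apply in
/-- Let F be a finite field of odd order q, m ≥ 6, Q the standard quadratic form on F^(2m+1) and Ω the commutator subgroup of its isometry group. Let W be a non-zero subspace of even dimension on which the polar form of Q is non-degenerate; exclude the case q = 3, dim W = 2 with Q vanishing on some line of W (a plus-type plane). Then the elements of Ω stabilising W (equivalently, stabilising its orthogonal complement, of odd dimension) form a maximal subgroup of Ω. -/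
theorem result {F : Type*} [Field F] [Fintype F] (hodd : Odd (Fintype.card F)) (m : ℕ) (hm : 6 ≤ m) (W : Submodule F (Unit ⊕ (Fin m ⊕ Fin m) → F)) (hW0 : W ≠ ⊥) (hev : Even (Module.finrank F W)) (hW : Cfsg.Geo.IsNondegenerateOn (QuadraticMap.polar (Cfsg.quadFormOdd m F)) W) (hex : ¬ (Fintype.card F = 3 ∧ Module.finrank F W = 2 ∧ Cfsg.Geo.IsPlusTypeOn (Cfsg.quadFormOdd m F) W)) : Cfsg.Geo.IsMaximalIn (Cfsg.Geo.omegaGL (Cfsg.quadFormOdd m F)) (Cfsg.Geo.subspaceStabilizer W ⊓ Cfsg.Geo.omegaGL (Cfsg.quadFormOdd m F)) := by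
  have h2 : (2 : F) ≠ 0 := by
    intro h
    have hc : CharP F 2 := CharTwo.of_one_ne_zero_of_two_eq_zero one_ne_zero h
    obtain ⟨n, hp, hn⟩ := FiniteField.card F 2
    rw [hn] at hodd
    have : Even (2 ^ (n : ℕ)) := (Nat.even_pow.2 ⟨even_two, n.pos.ne'⟩)
    exact (Nat.not_even_iff_odd.2 hodd) this
  have hQ' := oddQF_nondegenerate (m := m) (F := F) h2
  rw [← oddQF_coe] at hW hex ⊢
  have hWnd : (polarBilin (resQ (oddQF m F) W)).Nondegenerate := by
    apply nondegenerate_of_separatingLeft
    intro x hx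
    by_contra hx0
    obtain ⟨_, ⟨y, hy, hxy⟩⟩ := hW x x.2 (fun e => hx0 (Subtype.ext e))
    exact hxy (by have := hx ⟨y, hy⟩; simpa using this)
  have hsplit := osplit_of_nondeg hQ' W hWnd
  have hsum := Submodule.finrank_add_eq_of_isCompl (isCompl_qperp W hWnd)
  have hV : finrank F (Unit ⊕ (Fin m ⊕ Fin m) → F) = 2 * m + 1 := by
    rw [Module.finrank_fintype_fun_eq_card]
    simp; ring
  rw [hV] at hsum
  obtain ⟨r, hr⟩ := hev
  rcases lt_or_ge (finrank F (qperp (oddQF m F) W)) (finrank F W) with hlt | hge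
  · refine hsplit.stab_maximal_odd hQ' h2 (by omega) hlt ?_ ?_ W (Or.inl rfl)
    · intro h0
      rw [h0, finrank_bot] at hsum
      omega
    · intro _ a ha b hb ha0 hb0 hab
      exact hsplit.hex_of h2 ha hb ha0 (by rw [hb0]; exact neg_ne_zero.2 ha0) hab (by omega)
  · refine hsplit.symm.stab_maximal_odd hQ' h2 (by omega) (by omega) hW0 ?_ W (Or.inr rfl)
    intro h3 a ha b hb ha0 hb0 hab
    by_cases hfr : finrank F W = 2
    · exfalso
      apply hex
      refine ⟨h3, hfr, Submodule.span F {a + b}, ?_, ?_, ?_⟩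
      · rw [Submodule.span_singleton_le_iff_mem]; exact W.add_mem ha hb
      · intro w hw
        obtain ⟨c, rfl⟩ := Submodule.mem_span_singleton.1 hw
        rw [QuadraticMap.map_smul, qmap_add, hab, hb0]
        simp
      · rw [finrank_span_singleton, hfr]
        intro h0
        have hb' : b = -a := by rw [eq_neg_iff_add_eq_zero, add_comm]; exact h0
        rw [hb', QuadraticMap.map_neg] at hb0
        exact (mul_ne_zero h2 ha0) (by linear_combination hb0)
    · exact hsplit.symm.hex_of h2 ha hb ha0 (by rw [hb0]; exact neg_ne_zero.2 ha0) hab hfr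

end Cfsg.Agent.S5675
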