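import Cfsg.Statements.S5676
import Cfsg.Agent.Lib.Helper49.PlusPlane
import Cfsg.Agent.Lib.Helper49.HypPairs

set_option autoImplicit false
open Cfsg
open Cfsg.Agent.Lib.Helper95
open Cfsg.Agent.Lib.Helper49 hiding glEquiv glEquiv_apply

namespace Cfsg.Agent.S5676

/-- Let F be the field with 3 elements, m ≥ 6, Q the standard quadratic form on F^(2m+1) and Ω the commutator subgroup of its isometry group. Let W be a 2-dimensional subspace on which the polar form is non-degenerate and which contains a line on which Q vanishes. Then the elements of Ω stabilising W form a subgroup that is not maximal: some subgroup lies strictly between it and Ω. -/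
theorem result {F : Type*} [Field F] [Fintype F] (hq : Fintype.card F = 3) (m : ℕ) (hm : 6 ≤ m) (W : Submodule F (Unit ⊕ (Fin m ⊕ Fin m) → F)) (hdim : Module.finrank F W = 2) (hW : Cfsg.Geo.IsNondegenerateOn (QuadraticMap.polar (Cfsg.quadFormOdd m F)) W) (hplus : Cfsg.Geo.IsPlusTypeOn (Cfsg.quadFormOdd m F) W) : ∃ K : Subgroup (Matrix.GeneralLinearGroup (Unit ⊕ (Fin m ⊕ Fin m)) F), Cfsg.Geo.subspaceStabilizer W ⊓ Cfsg.Geo.omegaGL (Cfsg.quadFormOdd m F) < K ∧ K < Cfsg.Geo.omegaGL (Cfsg.quadFormOdd m F) := by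
  have h2 : (2 : F) ≠ 0 := two_ne_zero_of_odd_card hq (by decide)
  have hQ' := oddQF_nondegenerate m F h2
  rw [← oddQF_coe] at hW hplus ⊢
  obtain ⟨U, hUW, hUs, hUd⟩ := hplus
  have hU1 : 0 < Module.finrank F U := by omega
  obtain ⟨e, he0⟩ := Module.finrank_pos_iff_exists_ne_zero.1 hU1
  obtain ⟨a, h1, h2, h3⟩ := plus_plane_between (oddQF m F) hQ'
    (by
      rw [Module.finrank_fintype_fun_eq_card]
      simp only [Fintype.card_sum, Fintype.card_unit, Fintype.card_fin]; omega) (by omega) W hdim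
    (fun w hw hw0 => (hW w hw hw0).2)
    ⟨e, hUW e.2, fun h => he0 (Subtype.ext h), hUs e e.2⟩
  exact exists_between_transfer (mem_omegaGL_iff (oddQF m F)) (mem_subspaceStabilizer_iff W) h1 h2 h3

end Cfsg.Agent.S5676
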