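import Cfsg.Statements.S5677
import Cfsg.Agent.Lib.Helper49.DecMain
import Cfsg.Agent.Lib.Helper49.HypPairs
import Cfsg.Agent.Lib.Helper95.Glue4

set_option autoImplicit false
open Cfsg
open Cfsg.Agent.Lib.Helper95
open Cfsg.Agent.Lib.Helper49 hiding glEquiv glEquiv_apply

namespace Cfsg.Agent.S5677

/-- Let F be a finite field of odd order q, m ≥ 6, Q the standard quadratic form on F^(2m+1) and Ω the commutator subgroup of its isometry group. Let D be a decomposition of F^(2m+1) into t ≥ 2 pairwise orthogonal, pairwise Q-isometric subspaces of equal dimension k > 1 on which the polar form is non-degenerate. Unless q = 3 and k = 3, the elements of Ω permuting the members of D form a maximal subgroup of Ω. -/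
theorem result {F : Type*} [Field F] [Fintype F] (hodd : Odd (Fintype.card F)) (m : ℕ) (hm : 6 ≤ m) {t : ℕ} (k : ℕ) (hk : 1 < k) (D : Fin t → Submodule F (Unit ⊕ (Fin m ⊕ Fin m) → F)) (hD : Cfsg.Geo.IsOrthogonalMDecomposition (Cfsg.quadFormOdd m F) k D) (hex : ¬ (Fintype.card F = 3 ∧ k = 3)) : Cfsg.Geo.IsMaximalIn (Cfsg.Geo.omegaGL (Cfsg.quadFormOdd m F)) (Cfsg.Geo.decompositionStabilizer D ⊓ Cfsg.Geo.omegaGL (Cfsg.quadFormOdd m F)) := by
  have h2 : (2 : F) ≠ 0 := by
    intro h
    have hc : CharP F 2 := CharTwo.of_one_ne_zero_of_two_eq_zero one_ne_zero h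
    obtain ⟨n, hp, hn⟩ := FiniteField.card F 2
    rw [hn] at hodd
    have : Even (2 ^ (n : ℕ)) := (Nat.even_pow.2 ⟨even_two, n.pos.ne'⟩)
    exact (Nat.not_even_iff_odd.2 hodd) this
  have hQ' := oddQF_nondegenerate (m := m) (F := F) h2
  rw [← oddQF_coe] at hD ⊢
  have hfr : Module.finrank F (Unit ⊕ (Fin m ⊕ Fin m) → F) = 2 * m + 1 := by
    rw [Module.finrank_fintype_fun_eq_card]
    simp; ring
  have hmul := finrank_eq_mul_of_indep D hD.decomp.decomp.finrank_eq hD.decomp.decomp.indep
    hD.decomp.decomp.iSup_eq_top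
  rw [hfr] at hmul
  have hk3 : 3 ≤ k := by
    by_contra hlt
    have hk2 : k = 2 := by omega
    subst hk2
    omega
  have hO : ODec (oddQF m F) k D :=
    { two_le := hD.decomp.decomp.two_le
      finrank_eq := hD.decomp.decomp.finrank_eq
      top := hD.decomp.decomp.iSup_eq_top
      nd := fun i w hw hw0 => (hD.decomp.nondegenerate i w hw hw0).2
      orth := fun i j hij u hu v hv => hD.decomp.orthogonal i j hij u hu v hv
      iso := hD.isometric }
  have hex' : Fintype.card F ≠ 3 ∨ 4 ≤ k := by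
    by_cases h3 : Fintype.card F = 3
    · right
      by_contra hlt
      exact hex ⟨h3, by omega⟩
    · exact Or.inl h3
  refine omega_maximal_of (oddQF m F) _ (toLinGrp (Cfsg.Geo.decompositionStabilizer D))
    (fun g => glEquiv_mem_toLinGrp.symm) ?_ ?_
  · obtain ⟨g, hg, hgS⟩ := hO.exists_not_stabD h2 hk3 hQ'
    exact ⟨g, hg, fun h => hgS ((mem_toLinGrp_decompositionStabilizer D g.1).1 h)⟩
  · intro M hM g hg hgS
    exact hO.commutator_le h2 hk3 hex' hQ'
      (fun x hx hxS => hM x hx ((mem_toLinGrp_decompositionStabilizer D x.1).2 hxS)) hg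
      (fun h => hgS ((mem_toLinGrp_decompositionStabilizer D g.1).2 h))

end Cfsg.Agent.S5677
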