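import Cfsg.Statements.S5678
import Cfsg.Agent.Lib.Helper49.LocalF3
import Cfsg.Agent.Lib.Helper49.HypPairs
import Cfsg.Agent.Lib.Helper95.Glue4

set_option autoImplicit false
open Cfsg
open Cfsg.Agent.Lib.Helper95
open Cfsg.Agent.Lib.Helper49 hiding glEquiv glEquiv_apply

namespace Cfsg.Agent.S5678

/-- Let F be the field with 3 elements, m ≥ 6, Q the standard quadratic form on F^(2m+1) and Ω the commutator subgroup of its isometry group. Let D be a decomposition of F^(2m+1) into t pairwise orthogonal, pairwise Q-isometric 3-dimensional subspaces on which the polar form is non-degenerate. Then the elements of Ω permuting the members of D form a subgroup that is not maximal: some subgroup lies strictly between it and Ω. -/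
theorem result {F : Type*} [Field F] [Fintype F] (hq : Fintype.card F = 3) (m : ℕ) (hm : 6 ≤ m) {t : ℕ} (D : Fin t → Submodule F (Unit ⊕ (Fin m ⊕ Fin m) → F)) (hD : Cfsg.Geo.IsOrthogonalMDecomposition (Cfsg.quadFormOdd m F) 3 D) : ∃ K : Subgroup (Matrix.GeneralLinearGroup (Unit ⊕ (Fin m ⊕ Fin m)) F), Cfsg.Geo.decompositionStabilizer D ⊓ Cfsg.Geo.omegaGL (Cfsg.quadFormOdd m F) < K ∧ K < Cfsg.Geo.omegaGL (Cfsg.quadFormOdd m F) := by
  have h2 : (2 : F) ≠ 0 := two_ne_zero_of_card hq
  have hQ' := oddQF_nondegenerate (m := m) (F := F) h2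
  rw [← oddQF_coe] at hD ⊢
  have hfr : Module.finrank F (Unit ⊕ (Fin m ⊕ Fin m) → F) = 2 * m + 1 := by
    rw [Module.finrank_fintype_fun_eq_card]
    simp; ring
  have ht : 4 ≤ t := by
    have := finrank_le_mul_of_iSup_eq_top D hD.decomp.decomp.finrank_eq hD.decomp.decomp.iSup_eq_top
    rw [hfr] at this
    omega
  obtain ⟨X, h1, h3, h4⟩ := decomp_frame_between (Q := oddQF m F) hq hQ' ht D
    (fun i j hij u hu v hv => hD.decomp.orthogonal i j hij u hu v hv) hD.isometric
    (local3 hq (fun w hw hw0 => (hD.decomp.nondegenerate _ w hw hw0).2)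
      (hD.decomp.decomp.finrank_eq _))
  refine exists_between_transfer (S' := toLinGrp (Cfsg.Geo.decompositionStabilizer D))
    (L' := setStab X) (mem_omegaGL_iff (oddQF m F))
    (fun g => glEquiv_mem_toLinGrp.symm) ?_ ?_ h4
  · rintro g ⟨hg1, hg2⟩
    exact h1 g hg1 ((mem_toLinGrp_decompositionStabilizer D g).1 hg2)
  · obtain ⟨g, hg1, hg2, hg3⟩ := h3
    exact ⟨g, hg1, hg2, fun h => hg3 ((mem_toLinGrp_decompositionStabilizer D g).1 h)⟩

end Cfsg.Agent.S5678
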