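import Cfsg.Statements.S5682
-- import your own Cfsg.Agent.* helpers here
import Cfsg.Agent.Lib.Helper17.TensorOrth3
import Cfsg.Agent.Lib.Helper49.StdForms

set_option autoImplicit false
open Cfsg

namespace Cfsg.Agent.S5682

open scoped Kronecker MatrixGroups
open Matrix Module Cfsg.Agent.Lib.Helper17 Cfsg.Agent.Lib.Helper17.Tensor Cfsg.Agent.Lib.Helper17.TensorForm
  Cfsg.Agent.Lib.Helper17.TensorOmega Cfsg.Agent.Lib.Helper17.FrameThree
  Cfsg.Agent.Lib.Helper95
open Cfsg.Agent.Lib.Helper49 hiding glEquiv glEquiv_apply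

/-- Let F be the field with 3 elements, m ≥ 6, Q the standard quadratic form on F^(2m+1) and Ω the commutator subgroup of its isometry group. Suppose the polar form of Q is similar, through P and e, to the tensor product of non-degenerate symmetric bilinear forms f₁ on F^3 and f₂ on F^(n₂) with 3 < n₂. Then the elements of Ω in the stabiliser of this tensor decomposition form a subgroup that is not maximal: some subgroup lies strictly between it and Ω. -/
theorem result {F : Type*} [Field F] [Fintype F] (hq : Fintype.card F = 3) (m : ℕ) (hm : 6 ≤ m) (n₂ : ℕ) (h2 : 3 < n₂) (e : (Unit ⊕ (Fin m ⊕ Fin m)) ≃ Fin 3 × Fin n₂) (P : Matrix.GeneralLinearGroup (Unit ⊕ (Fin m ⊕ Fin m)) F) (f₁ : (Fin 3 → F) → (Fin 3 → F) → F) (f₂ : (Fin n₂ → F) → (Fin n₂ → F) → F) (hf₁ : Cfsg.Geo.IsSymmetricForm f₁) (hf₂ : Cfsg.Geo.IsSymmetricForm f₂) (hT : Cfsg.Geo.IsTensorFormStructure id (QuadraticMap.polar (Cfsg.quadFormOdd m F)) f₁ f₂ e P) : ∃ K : Subgroup (Matrix.GeneralLinearGroup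 (Unit ⊕ (Fin m ⊕ Fin m)) F), Cfsg.Geo.tensorProductSubgroup 3 n₂ e P ⊓ Cfsg.Geo.omegaGL (Cfsg.quadFormOdd m F) < K ∧ K < Cfsg.Geo.omegaGL (Cfsg.quadFormOdd m F) := by
  classical
  have h3 : (3 : F) = 0 := by
    have hcast : ((Fintype.card F : ℕ) : F) = 0 := Nat.cast_card_eq_zero F
    rw [hq] at hcast
    exact_mod_cast hcast
  have hF : ∀ a : F, a = 0 ∨ a = 1 ∨ a = -1 := by
    intro a
    by_contra hcon
    push Not at hcon
    have h10 : (1 : F) ≠ -1 := by
      intro h
      have : (1 : F) = 0 := by linear_combination h3 - h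
      exact one_ne_zero this
    have h4 : ({0, 1, -1, a} : Finset F).card = 4 := by
      rw [Finset.card_insert_of_notMem, Finset.card_insert_of_notMem, Finset.card_insert_of_notMem,
        Finset.card_singleton]
      · simp [hcon.2.2.symm]
      · simp [hcon.2.1.symm, h10]
      · simp [hcon.1.symm]
    have h5 := Finset.card_le_univ ({0, 1, -1, a} : Finset F)
    omega
  obtain ⟨c, hc, hT⟩ := hT
  rw [← oddQF_coe] at hT ⊢
  have hT' : ∀ u w u' w', QuadraticMap.polar (pullQ (Lmap e P) (oddQF m F)) (tp u w) (tp u' w') =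
      c * (f₁ u u' * f₂ w w') := by
    intro u w u' w'
    rw [polar_pullQ, Lmap_apply, Lmap_apply, hT, formOfGram_tp _ (fun a b => rfl),
      formOfGram_gram id f₁ hf₁.bilinear.add_left hf₁.bilinear.smul_left hf₁.bilinear.add_right
        hf₁.bilinear.smul_right,
      formOfGram_gram id f₂ hf₂.bilinear.add_left hf₂.bilinear.smul_left hf₂.bilinear.add_right
        hf₂.bilinear.smul_right]
  obtain ⟨ε, y, hy⟩ := exists_frame hF h3 hf₁
  obtain ⟨p, p', t, hpp', hpt, hp't, heq, hp0, ht0⟩ := TensorOrth3.exists_triple hF h3 (by omega) hf₂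
  rw [tensorProductSubgroup_eq]
  refine between_transfer (tIso e P) _ ((setStab F (TensorOrth3.pureSet f₁ n₂)).comap glEquiv.toMonoidHom) _
    ?_ ?_ ?_
  · intro g hg hgB
    exact TensorOrth3.kron_mem_setStab hf₂ hc hT' (by omega) hg (mem_OG_of_tIso_mem e P _ hgB)
  · obtain ⟨g, hg1, hg2, hg3⟩ := TensorOrth3.exists_mem_not_kron hf₁ hf₂ hc hT' hF h3 hy hpp' hpt hp't
      heq hp0 ht0
    exact ⟨g, hg1, tIso_mem_omegaGL e P _ hg2, hg3⟩
  · obtain ⟨g, hg1, hg2⟩ := TensorOrth3.exists_not_mem hf₁ hf₂ hc hT' hF h3 hy hpp' heq hp0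
    exact ⟨g, tIso_mem_omegaGL e P _ hg1, hg2⟩

end Cfsg.Agent.S5682
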