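import Cfsg.Statements.S5683
import Cfsg.Agent.Lib.Helper97.OSubGlue
import Cfsg.Agent.Lib.Helper49.HypPairs

set_option autoImplicit false
open Cfsg

namespace Cfsg.Agent.S5683

/-- Let F be a finite field of odd order, m ≥ 6, Q the standard quadratic form on F^(2m+1) and Ω the commutator subgroup of its isometry group. Let F₀ be a subfield with |F| = |F₀| ^ r for a prime r and P an invertible matrix such that Q takes values in F₀ on the F₀-span of the columns of P. Then the elements of Ω lying in the subfield group of P (the conjugate by P of the product of GL_(2m+1)(F₀) with the scalars) form a maximal subgroup of Ω. -/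
theorem result {F : Type*} [Field F] [Fintype F] (hodd : Odd (Fintype.card F)) (m : ℕ) (hm : 6 ≤ m) (F₀ : Subfield F) (r : ℕ) (hr : r.Prime) (hcard : Fintype.card F = Nat.card F₀ ^ r) (P : Matrix.GeneralLinearGroup (Unit ⊕ (Fin m ⊕ Fin m)) F) (hP : Cfsg.Geo.IsQuadFormRationalStructure (Cfsg.quadFormOdd m F) F₀ P) : Cfsg.Geo.IsMaximalIn (Cfsg.Geo.omegaGL (Cfsg.quadFormOdd m F)) (Cfsg.Geo.subfieldSubgroup F₀ P ⊓ Cfsg.Geo.omegaGL (Cfsg.quadFormOdd m F)) := by
  have h2 : (2 : F) ≠ 0 := by
    intro h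
    have hc : CharP F 2 := CharTwo.of_one_ne_zero_of_two_eq_zero one_ne_zero h
    obtain ⟨n, hp, hn⟩ := FiniteField.card F 2
    rw [hn] at hodd
    have : Even (2 ^ (n : ℕ)) := (Nat.even_pow.2 ⟨even_two, n.pos.ne'⟩)
    exact (Nat.not_even_iff_odd.2 hodd) this
  have hQ' := Cfsg.Agent.Lib.Helper49.oddQF_nondegenerate (m := m) (F := F) h2
  rw [← Cfsg.Agent.Lib.Helper49.oddQF_coe] at hP ⊢
  refine Cfsg.Agent.Lib.Helper97.OSub.orth_subfield_maximal
    (Cfsg.Agent.Lib.Helper49.oddQF m F) hQ' ?_ F₀ r hr hcard P 1 one_ne_zero ?_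
  · simp only [Fintype.card_sum, Fintype.card_unit, Fintype.card_fin]
    omega
  · intro v hv
    show 1 * (Cfsg.Agent.Lib.Helper49.oddQF m F) ((P : Matrix _ _ F).mulVec v) ∈ F₀
    rw [one_mul]
    exact hP v hv

end Cfsg.Agent.S5683
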