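import Cfsg.Statements.S5685
import Cfsg.Agent.Lib.Helper49.Parabolic

set_option autoImplicit false
open Cfsg
open Cfsg.Agent.Lib.Helper95
open Cfsg.Agent.Lib.Helper49 hiding glEquiv glEquiv_apply

namespace Cfsg.Agent.S5685

/-- Let F be a finite field with q elements, n ≥ 13 even, Q a non-degenerate quadratic form on F^n of plus type (some subspace of dimension n/2 is totally singular), and Ω the commutator subgroup of the isometry group of Q, viewed inside GL_n(F). The elements of Ω stabilising a non-zero subspace W on which Q vanishes, with dim W ≠ n/2 − 1, form a maximal subgroup of Ω. -/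
theorem result {F : Type*} [Field F] [Fintype F] {n : ℕ} (hn : 13 ≤ n) (heven : Even n) (Q : (Fin n → F) → F) (hQ : Cfsg.Geo.IsNondegenerateQuadraticForm Q) (hplus : Cfsg.Geo.IsPlusTypeOn Q ⊤) (W : Submodule F (Fin n → F)) (hW0 : W ≠ ⊥) (hW : Cfsg.Geo.IsTotallySingularQuad Q W) (hdim : 2 * (Module.finrank F W + 1) ≠ n) : Cfsg.Geo.IsMaximalIn (Cfsg.Geo.omegaGL Q) (Cfsg.Geo.subspaceStabilizer W ⊓ Cfsg.Geo.omegaGL Q) := by
  have hQ' := qfOf_nondegenerate Q hQ
  have hfr : Module.finrank F (Fin n → F) = n := by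
    rw [Module.finrank_fintype_fun_eq_card, Fintype.card_fin]
  have hWle := two_mul_finrank_le_of_singular hQ' W hW
  rw [hfr] at hWle
  refine omega_maximal_of (qfOf Q hQ) _ (stabGrp W) (mem_subspaceStabilizer_iff W)
    (exists_not_mem_stabGrp_of_singular hQ' (by rw [hfr]; omega) W hW hW0) ?_
  intro M hM g hg hgW
  refine parabolic_max' hQ' (by rw [hfr]; omega) W hW ?_ M hM g hg hgW
  rw [hfr]
  by_cases h : 2 * Module.finrank F W + 3 ≤ n
  · exact Or.inl h
  · right
    intro U hU
    have := two_mul_finrank_le_of_singular hQ' U hU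
    rw [hfr] at this
    obtain ⟨r, hr⟩ := heven
    omega

end Cfsg.Agent.S5685
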