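import Cfsg.Statements.S5686
import Cfsg.Agent.Lib.Helper49.LagrBetween2

set_option autoImplicit false
open Cfsg
open Cfsg.Agent.Lib.Helper95
open Cfsg.Agent.Lib.Helper49 hiding glEquiv glEquiv_apply

namespace Cfsg.Agent.S5686

/-- Let F be a finite field with q elements, n ≥ 13 even, Q a non-degenerate quadratic form on F^n of plus type (some subspace of dimension n/2 is totally singular), and Ω the commutator subgroup of the isometry group of Q, viewed inside GL_n(F). The elements of Ω stabilising a subspace of dimension n/2 − 1 on which Q vanishes form a subgroup that is not maximal: some subgroup lies strictly between it and Ω. -/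
theorem result {F : Type*} [Field F] [Fintype F] {n : ℕ} (hn : 13 ≤ n) (heven : Even n) (Q : (Fin n → F) → F) (hQ : Cfsg.Geo.IsNondegenerateQuadraticForm Q) (hplus : Cfsg.Geo.IsPlusTypeOn Q ⊤) (W : Submodule F (Fin n → F)) (hW : Cfsg.Geo.IsTotallySingularQuad Q W) (hdim : 2 * (Module.finrank F W + 1) = n) : ∃ K : Subgroup (Matrix.GeneralLinearGroup (Fin n) F), Cfsg.Geo.subspaceStabilizer W ⊓ Cfsg.Geo.omegaGL Q < K ∧ K < Cfsg.Geo.omegaGL Q := by
  have hQ' := qfOf_nondegenerate Q hQ
  have hfr : Module.finrank F (Fin n → F) = n := by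
    rw [Module.finrank_fintype_fun_eq_card, Fintype.card_fin]
  obtain ⟨U₀, -, hU₀s, hU₀d⟩ := hplus
  rw [finrank_top] at hU₀d
  have hU₀ : IsLagr (qfOf Q hQ) U₀ := isLagr_of_finrank hQ' hU₀s hU₀d
  obtain ⟨W₁, hW₁, hWW⟩ := exists_lagr_ge (qfOf Q hQ) hQ' (by rw [hfr]; omega) hU₀ (W := W) hW
    (by rw [hfr]; exact hdim)
  obtain ⟨h1, h2, h3⟩ := lagr_hyperplane_between (qfOf Q hQ) hQ' (by rw [hfr]; omega) hW₁ hWW
    (by rw [hfr]; exact hdim)
  exact exists_between_transfer (mem_omegaGL_iff (qfOf Q hQ)) (mem_subspaceStabilizer_iff W) h1 h2 h3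

end Cfsg.Agent.S5686
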