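import Cfsg.Statements.S5691
-- import your own Cfsg.Agent.* helpers here
import Cfsg.Agent.Lib.Helper95.OmVec

set_option autoImplicit false
open Cfsg

namespace Cfsg.Agent.S5691

open Cfsg.Agent.Lib.Helper95 QuadraticMap Module in
open Cfsg.Agent.Lib.Helper49 hiding glEquiv glEquiv_apply in
/-- Let F be a finite field with q elements, n ≥ 13 even, Q a non-degenerate quadratic form on F^n (of either type), and Ω the commutator subgroup of the isometry group of Q, viewed inside GL_n(F). Suppose q is even and v is a vector with Q(v) ≠ 0. Then the elements of Ω stabilising the line spanned by v form a maximal subgroup of Ω. -/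
theorem result {F : Type*} [Field F] [Fintype F] {n : ℕ} (hn : 13 ≤ n) (heven : Even n) (Q : (Fin n → F) → F) (hQ : Cfsg.Geo.IsNondegenerateQuadraticForm Q) (hchar : ¬ Odd (Fintype.card F)) (v : (Fin n → F)) (hv : Q v ≠ 0) : Cfsg.Geo.IsMaximalIn (Cfsg.Geo.omegaGL Q) (Cfsg.Geo.subspaceStabilizer (Submodule.span F {v}) ⊓ Cfsg.Geo.omegaGL Q) := by
  have hQ' := qfOf_nondegenerate Q hQ
  have h2 : (2 : F) = 0 := by
    have h3 : ringChar F = 2 := by
      rw [FiniteField.even_card_iff_char_two]
      exact Nat.even_iff.1 (Nat.not_odd_iff_even.1 hchar)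
    have : CharP F 2 := ringChar.of_eq h3
    exact CharTwo.two_eq_zero
  have hd : 8 < finrank F (Fin n → F) := by
    rw [Module.finrank_fintype_fun_eq_card, Fintype.card_fin]; omega
  have hv0 : v ≠ 0 := by
    rintro rfl
    exact hv (map_zero (qfOf Q hQ))
  refine omega_maximal_of (qfOf Q hQ) (Cfsg.Geo.subspaceStabilizer (Submodule.span F {v}))
    (stabGrp (Submodule.span F {v})) (mem_subspaceStabilizer_iff _) ?_ ?_
  · obtain ⟨y, hy0, hyq, hyp⟩ := quniv (qfOf Q hQ) hQ' (by omega) hv0 (Q v) 1
    have hy : (qfOf Q hQ) y ≠ 0 := by rw [hyq]; exact hv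
    refine ⟨refl _ y * refl _ v, refl_mul_refl_mem_commutator_of_eq _ hQ' _ _ hy hyq, fun hs => ?_⟩
    have h3 := (hs v).1 (Submodule.mem_span_singleton_self v)
    simp only [Subgroup.coe_mul, LinearEquiv.mul_apply, refl_coe_apply] at h3
    rw [reflLin_self _ v hv, map_neg, reflLin_apply, polar_comm, hyp, mul_one] at h3
    have h4 : ((qfOf Q hQ) y)⁻¹ • y ∈ Submodule.span F {v} := by
      have := Submodule.add_mem _ h3 (Submodule.mem_span_singleton_self v)
      have e : -(v - ((qfOf Q hQ) y)⁻¹ • y) + v = ((qfOf Q hQ) y)⁻¹ • y := by abel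
      rwa [e] at this
    have h5 : y ∈ Submodule.span F {v} := (Submodule.smul_mem_iff _ (inv_ne_zero hy)).1 h4
    obtain ⟨c, rfl⟩ := Submodule.mem_span_singleton.1 h5
    rw [polar_smul_right, polar_self] at hyp
    simp only [nsmul_eq_mul, smul_eq_mul] at hyp
    push_cast at hyp
    rw [h2] at hyp
    simp at hyp
  · intro M hM g hg hgS
    refine commutator_le_vec hQ' hd h2 (v := v) ?_ ⟨g, hg, exists_escape_vec hQ' hd hv0 g hgS⟩
    intro a b ha hb hab
    apply hM _ (refl_mul_refl_mem_commutator_of_eq _ hQ' _ _ ha.1 hab)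
    apply mem_stabGrp_span_of_smul (c := 1) one_ne_zero
    simp only [Subgroup.coe_mul, LinearEquiv.mul_apply, refl_coe_apply]
    rw [reflLin_of_polar_eq_zero _ b v (by rw [polar_comm]; exact hb.2),
      reflLin_of_polar_eq_zero _ a v (by rw [polar_comm]; exact ha.2), one_smul]

end Cfsg.Agent.S5691
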