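import Cfsg.Statements.S5693
import Cfsg.Agent.Lib.Helper49.LocalF3
import Cfsg.Agent.Lib.Helper95.Glue4
import Cfsg.Agent.Lib.Helper97.OD7.HYP2
import Cfsg.Agent.Lib.Helper97.OD7.C5
import Cfsg.Agent.Lib.Helper97.OD7.D3
import Cfsg.Agent.Lib.Helper97.OD7.E2
import Cfsg.Agent.Lib.Helper97.OD7.F4
import Cfsg.Agent.Lib.Helper97.OD7.G2L
import Cfsg.Agent.Lib.Helper97.OD7.G2

set_option autoImplicit false
open Cfsg
open Cfsg.Agent.Lib.Helper95
open Cfsg.Agent.Lib.Helper49 hiding glEquiv glEquiv_apply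
open Cfsg.Agent.Lib.Helper97.OD7

namespace Cfsg.Agent.S5693

/-- Let F be a finite field with q elements, n ≥ 13 even, Q a non-degenerate quadratic form on F^n of plus type (some subspace of dimension n/2 is totally singular), and Ω the commutator subgroup of the isometry group of Q, viewed inside GL_n(F). Let D be a decomposition of F^n into t ≥ 2 pairwise orthogonal, pairwise Q-isometric subspaces of equal dimension k on which the polar form is non-degenerate (with, for even k, all members of plus type or t even; for odd k, q odd and square discriminant), in one of the cases: k = 2 with q = 3; k = 2 with plus-type members and q ∈ {2, 4, 5}; k = 3 with q = 3; k = 4 with plus-type members and q = 2. Then the elements of Ω permuting the members of D form a subgroup that is not maximal: some subgroup lies strictly between it and Ω. -/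
theorem result {F : Type*} [Field F] [Fintype F] {n : ℕ} (hn : 13 ≤ n) (heven : Even n) (Q : (Fin n → F) → F) (hQ : Cfsg.Geo.IsNondegenerateQuadraticForm Q) (hplus : Cfsg.Geo.IsPlusTypeOn Q ⊤) {t : ℕ} (k : ℕ) (D : Fin t → Submodule F (Fin n → F)) (hD : Cfsg.Geo.IsOrthogonalMDecomposition Q k D) (hke : Even k → ((∀ i, Cfsg.Geo.IsPlusTypeOn Q (D i)) ∨ Even t)) (hko : Odd k → (Odd (Fintype.card F) ∧ Cfsg.Geo.HasSquareDiscriminant Q)) (hcase : ((k = 2 ∧ (Fintype.card F = 3 ∨ ((∀ i, Cfsg.Geo.IsPlusTypeOn Q (D i)) ∧ (Fintype.card F = 2 ∨ Fintype.card F = 4 ∨ Fintype.card F = 5)))) ∨ (k = 3 ∧ Fintype.card F = 3) ∨ (k = 4 ∧ Fintype.card F = 2 ∧ ∀ i, Cfsg.Geo.IsPlusTypeOn Q (D i)))) : ∃ K : Subgroup (Matrix.GeneralLinearGroup (Fin n) F), Cfsg.Geo.decompositionStabilizer D ⊓ Cfsg.Geo.omegaGL Q < K ∧ K < Cfsg.Geo.omegaGL Q := by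
  have hQ' := qfOf_nondegenerate Q hQ
  have hfr : Module.finrank F (Fin n → F) = n := by
    rw [Module.finrank_fintype_fun_eq_card, Fintype.card_fin]
  have htk : n ≤ t * k := by
    have := finrank_le_mul_of_iSup_eq_top D hD.decomp.decomp.finrank_eq hD.decomp.decomp.iSup_eq_top
    rwa [hfr] at this
  have ht : 4 ≤ t := by
    rcases hcase with ⟨rfl, -⟩ | ⟨rfl, -⟩ | ⟨rfl, -⟩ <;> omega
  have hnd : ∀ i, NDon (qfOf Q hQ) (D i) :=
    fun i w hw hw0 => (hD.decomp.nondegenerate i w hw hw0).2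
  have horth : ∀ i j, i ≠ j → ∀ u ∈ D i, ∀ v ∈ D j, QuadraticMap.polar (qfOf Q hQ) u v = 0 :=
    fun i j hij u hu v hv => hD.decomp.orthogonal i j hij u hu v hv
  have hfk := hD.decomp.decomp.finrank_eq
  -- singular vectors from plus type, `k = 2`
  have hsing : k = 2 → (∀ i, Cfsg.Geo.IsPlusTypeOn Q (D i)) → ∀ i, HypPl (qfOf Q hQ) (D i) := by
    intro hk hp i
    obtain ⟨U, hU, hs, hfU⟩ := hp i
    rw [hfk, hk] at hfU
    have hU1 : Module.finrank F U = 1 := by omega
    have hUb : U ≠ ⊥ := by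
      intro h
      rw [h, finrank_bot] at hU1
      omega
    obtain ⟨x, hx, hx0⟩ := Submodule.exists_mem_ne_zero_of_ne_bot hUb
    exact hypPl_of_sing (hnd i) (by rw [hfk, hk]) ⟨x, hU hx, hx0, hs x hx⟩
  have main : Btw (qfOf Q hQ) D := by
    rcases hcase with ⟨hk, hq | ⟨hp, hq | hq | hq⟩⟩ | ⟨hk, hq⟩ | ⟨hk, hq, hp⟩
    · by_cases hs : ∃ x ∈ D ⟨0, by omega⟩, x ≠ 0 ∧ (qfOf Q hQ) x = 0
      · refine btw_q3 hq hQ' ht D horth hnd (fun i => hypPl_of_sing (hnd i) (by rw [hfk, hk]) ?_)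
        obtain ⟨x, hx, hx0, hQx⟩ := hs
        obtain ⟨e, he⟩ := hD.isometric ⟨0, by omega⟩ i
        refine ⟨e ⟨x, hx⟩, Subtype.property _, ?_, ?_⟩
        · intro h0
          apply hx0
          have : e ⟨x, hx⟩ = 0 := Subtype.ext h0
          have h1 := (LinearEquiv.map_eq_zero_iff e).1 this
          exact congrArg Subtype.val h1
        · exact (he ⟨x, hx⟩).trans hQx
      · refine decomp_frame_between (Q := qfOf Q hQ) hq hQ' ht D horth hD.isometric
          (local2 hq (hnd _) (by rw [hfk, hk]) ?_)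
        intro x hx hQx
        by_contra hx0
        exact hs ⟨x, hx, hx0, hQx⟩
    · exact btw_q2 hq hQ' ht D horth hnd (hsing hk hp)
    · exact btw_q4 hq hQ' ht D horth hnd (hsing hk hp)
    · exact btw_q5 hq hQ' ht D horth hnd (hsing hk hp)
    · exact decomp_frame_between (Q := qfOf Q hQ) hq hQ' ht D horth hD.isometric
        (local3 hq (hnd _) (by rw [hfk, hk]))
    · refine btw_k4 hq hQ' (by rw [hfr]; omega) ht D horth hnd (fun i => ?_)
      obtain ⟨U, hU, hs, hfU⟩ := hp i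
      rw [hfk, hk] at hfU
      exact o4Pl_of_plus hq (hnd i) (by rw [hfk, hk]) ⟨U, hU, hs, by omega⟩
  obtain ⟨X, h1, h3, h4⟩ := main
  refine exists_between_transfer (S' := toLinGrp (Cfsg.Geo.decompositionStabilizer D))
    (L' := setStab X) (mem_omegaGL_iff (qfOf Q hQ))
    (fun g => glEquiv_mem_toLinGrp.symm) ?_ ?_ h4
  · rintro g ⟨hg1, hg2⟩
    exact h1 g hg1 ((mem_toLinGrp_decompositionStabilizer D g).1 hg2)
  · obtain ⟨g, hg1, hg2, hg3⟩ := h3
    exact ⟨g, hg1, hg2, fun h => hg3 ((mem_toLinGrp_decompositionStabilizer D g).1 h)⟩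

end Cfsg.Agent.S5693
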