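import Cfsg.Statements.S5695
import Cfsg.Agent.Lib.Helper49.LocalF3
import Cfsg.Agent.Lib.Helper95.Glue4

set_option autoImplicit false
open Cfsg
open Cfsg.Agent.Lib.Helper95
open Cfsg.Agent.Lib.Helper49 hiding glEquiv glEquiv_apply

namespace Cfsg.Agent.S5695

/-- Let F be a finite field with q elements, n ≥ 13 even, Q a non-degenerate quadratic form on F^n of minus type (no subspace of dimension n/2 is totally singular), and Ω the commutator subgroup of the isometry group of Q, viewed inside GL_n(F). Suppose q = 3 and let D be a decomposition of F^n into t ≥ 2 pairwise orthogonal, pairwise Q-isometric subspaces of equal dimension k ∈ {2, 3} on which the polar form is non-degenerate (for k = 3 the discriminant of Q is a square; for k = 2, t is odd and no member is of plus type). Then the elements of Ω permuting the members of D form a subgroup that is not maximal: some subgroup lies strictly between it and Ω. -/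
theorem result {F : Type*} [Field F] [Fintype F] {n : ℕ} (hn : 13 ≤ n) (heven : Even n) (Q : (Fin n → F) → F) (hQ : Cfsg.Geo.IsNondegenerateQuadraticForm Q) (hminus : ¬ Cfsg.Geo.IsPlusTypeOn Q ⊤) (hq : Fintype.card F = 3) {t : ℕ} (k : ℕ) (hk : k = 2 ∨ k = 3) (D : Fin t → Submodule F (Fin n → F)) (hD : Cfsg.Geo.IsOrthogonalMDecomposition Q k D) (hko : Odd k → Cfsg.Geo.HasSquareDiscriminant Q) (hke : Even k → (Odd t ∧ ∀ i, ¬ Cfsg.Geo.IsPlusTypeOn Q (D i))) : ∃ K : Subgroup (Matrix.GeneralLinearGroup (Fin n) F), Cfsg.Geo.decompositionStabilizer D ⊓ Cfsg.Geo.omegaGL Q < K ∧ K < Cfsg.Geo.omegaGL Q := by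
  have hQ' := qfOf_nondegenerate Q hQ
  have hfr : Module.finrank F (Fin n → F) = n := by
    rw [Module.finrank_fintype_fun_eq_card, Fintype.card_fin]
  have ht : 4 ≤ t := by
    have := finrank_le_mul_of_iSup_eq_top D hD.decomp.decomp.finrank_eq hD.decomp.decomp.iSup_eq_top
    rw [hfr] at this
    rcases hk with rfl | rfl <;> omega
  have hnd : ∀ i, NDon (qfOf Q hQ) (D i) :=
    fun i w hw hw0 => (hD.decomp.nondegenerate i w hw hw0).2
  obtain ⟨X, h1, h3, h4⟩ := decomp_frame_between (Q := qfOf Q hQ) hq hQ' ht D
    (fun i j hij u hu v hv => hD.decomp.orthogonal i j hij u hu v hv) hD.isometric (by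
      rcases hk with rfl | rfl
      · refine local2 hq (hnd _) (hD.decomp.decomp.finrank_eq _) ?_
        intro x hx hQx
        by_contra hx0
        apply (hke (by decide)).2 ⟨0, by omega⟩
        refine ⟨Submodule.span F {x}, ?_, ?_, ?_⟩
        · rw [Submodule.span_singleton_le_iff_mem]; exact hx
        · intro w hw
          obtain ⟨a, rfl⟩ := Submodule.mem_span_singleton.1 hw
          have : (qfOf Q hQ) (a • x) = 0 := by
            rw [QuadraticMap.map_smul, hQx]; simp
          exact this
        · rw [finrank_span_singleton hx0, hD.decomp.decomp.finrank_eq]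
      · exact local3 hq (hnd _) (hD.decomp.decomp.finrank_eq _))
  refine exists_between_transfer (S' := toLinGrp (Cfsg.Geo.decompositionStabilizer D))
    (L' := setStab X) (mem_omegaGL_iff (qfOf Q hQ))
    (fun g => glEquiv_mem_toLinGrp.symm) ?_ ?_ h4
  · rintro g ⟨hg1, hg2⟩
    exact h1 g hg1 ((mem_toLinGrp_decompositionStabilizer D g).1 hg2)
  · obtain ⟨g, hg1, hg2, hg3⟩ := h3
    exact ⟨g, hg1, hg2, fun h => hg3 ((mem_toLinGrp_decompositionStabilizer D g).1 h)⟩

end Cfsg.Agent.S5695
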