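import Cfsg.Statements.S5697
-- import your own Cfsg.Agent.* helpers here
import Cfsg.Agent.Lib.Helper95.OmGlue2
import Cfsg.Agent.Lib.Helper95.OmLagr

set_option autoImplicit false
open Cfsg

namespace Cfsg.Agent.S5697

open Cfsg.Agent.Lib.Helper95 QuadraticMap Module in
open Cfsg.Agent.Lib.Helper49 hiding glEquiv glEquiv_apply in
/-- Let F be a finite field with q elements, n ≥ 13 even, Q a non-degenerate quadratic form on F^n of plus type (some subspace of dimension n/2 is totally singular), and Ω the commutator subgroup of the isometry group of Q, viewed inside GL_n(F). Suppose n/2 is even and let D be a decomposition of F^n into two complementary subspaces of dimension n/2 on each of which Q vanishes. Then the elements of Ω preserving or interchanging the two subspaces form a maximal subgroup of Ω. -/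
theorem result {F : Type*} [Field F] [Fintype F] {n : ℕ} (hn : 13 ≤ n) (heven : Even n) (Q : (Fin n → F) → F) (hQ : Cfsg.Geo.IsNondegenerateQuadraticForm Q) (hplus : Cfsg.Geo.IsPlusTypeOn Q ⊤) (k : ℕ) (hk : 2 * k = n) (hke : Even k) (D : Fin 2 → Submodule F (Fin n → F)) (hD : Cfsg.Geo.IsMDecomposition k D) (hts : ∀ i, Cfsg.Geo.IsTotallySingularQuad Q (D i)) : Cfsg.Geo.IsMaximalIn (Cfsg.Geo.omegaGL Q) (Cfsg.Geo.decompositionStabilizer D ⊓ Cfsg.Geo.omegaGL Q) := by
  have hQ' := qfOf_nondegenerate Q hQ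
  have hfr := hD.finrank_eq
  have hk7 : 6 < k := by omega
  have hsup : D 0 ⊔ D 1 = ⊤ := by
    rw [← hD.iSup_eq_top]
    apply le_antisymm
    · exact sup_le (le_iSup D 0) (le_iSup D 1)
    · apply iSup_le
      intro i
      fin_cases i
      · exact le_sup_left
      · exact le_sup_right
  have hsplit : LSplit (qfOf Q hQ) (D 0) (D 1) :=
    ⟨hts 0, hts 1, fun x => by
      have hx : x ∈ D 0 ⊔ D 1 := by rw [hsup]; trivial
      obtain ⟨u, hu, u', hu', rfl⟩ := Submodule.mem_sup.1 hx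
      exact ⟨u, hu, u', hu', rfl⟩, hQ'⟩
  have hdV : finrank F (Fin n → F) = n := by simp
  have hS1 : ∀ e : (Fin n → F) ≃ₗ[F] (Fin n → F),
      (∀ x ∈ D 0, e x ∈ D 0) → (∀ x ∈ D 1, e x ∈ D 1) →
      e ∈ toLinGrp (Cfsg.Geo.decompositionStabilizer D) := by
    intro e h0 h1
    rw [mem_toLinGrp_decompositionStabilizer]
    refine ⟨1, fun i => ?_⟩
    fin_cases i
    · exact map_eq_of_forall e h0 rfl
    · exact map_eq_of_forall e h1 rfl
  have hS2 : ∀ e : (Fin n → F) ≃ₗ[F] (Fin n → F),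
      (∀ x ∈ D 0, e x ∈ D 1) → (∀ x ∈ D 1, e x ∈ D 0) →
      e ∈ toLinGrp (Cfsg.Geo.decompositionStabilizer D) := by
    intro e h0 h1
    rw [mem_toLinGrp_decompositionStabilizer]
    refine ⟨Equiv.swap 0 1, fun i => ?_⟩
    fin_cases i
    · exact map_eq_of_forall e h0 (by rw [hfr, hfr])
    · exact map_eq_of_forall e h1 (by rw [hfr, hfr])
  refine omega_maximal_of (qfOf Q hQ) (Cfsg.Geo.decompositionStabilizer D)
    (toLinGrp (Cfsg.Geo.decompositionStabilizer D)) (fun g => glEquiv_mem_toLinGrp.symm) ?_ ?_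
  · obtain ⟨g, hg, x, hx, hx0, hx1⟩ := hsplit.exists_moving (by rw [hfr]; omega)
      (by rw [hdV]; omega)
    refine ⟨g, hg, fun h => ?_⟩
    rw [mem_toLinGrp_decompositionStabilizer] at h
    obtain ⟨σ, hσ⟩ := h
    have hmem : g.1 x ∈ D (σ 1) := by
      rw [← hσ 1]
      exact ⟨x, hx, rfl⟩
    have hcases : σ 1 = 0 ∨ σ 1 = 1 := by
      generalize σ 1 = j
      fin_cases j
      · left; rfl
      · right; rfl
    rcases hcases with h | h
    · rw [h] at hmem; exact hx0 hmem
    · rw [h] at hmem; exact hx1 hmem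
  · intro M hM g hg hgS
    obtain ⟨s, hsΩ, hs0, hs1⟩ := hsplit.exists_swap (by rw [hfr]; exact hke)
    obtain ⟨u₀, hu₀, hn0, hn1⟩ := hsplit.exists_impure (by rw [hfr]; omega) (by rw [hfr]; omega) g
      (fun h => hgS (hS1 g.1 h.1 h.2)) (fun h => hgS (hS2 g.1 h.1 h.2))
    refine hsplit.commutator_le ?_ (by rw [hfr]; omega) (by rw [hfr]; omega) (by rw [hdV]; omega)
      (hM s hsΩ (hS2 s.1 hs0 hs1)) hs0 hs1 hg hu₀ hn0 hn1
    intro u hu v hv huv
    have hs : SPair (qfOf Q hQ) u v := ⟨hts 0 u hu, hts 1 v hv, huv⟩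
    refine ⟨hs, hM _ (sg_mem_commutator hQ' (by rw [hdV]; omega) hs) ?_⟩
    obtain ⟨h0, h1⟩ := hsplit.sg_stab hu hv hs
    exact hS1 _ h0 h1

end Cfsg.Agent.S5697
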