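import Cfsg.Statements.S5698
import Cfsg.Agent.Lib.Helper49.LagrBetween
import Cfsg.Agent.Lib.Helper95.Glue4

set_option autoImplicit false
open Cfsg
open Cfsg.Agent.Lib.Helper95
open Cfsg.Agent.Lib.Helper49 hiding glEquiv glEquiv_apply

namespace Cfsg.Agent.S5698

/-- Let F be a finite field with q elements, n ≥ 13 even, Q a non-degenerate quadratic form on F^n of plus type (some subspace of dimension n/2 is totally singular), and Ω the commutator subgroup of the isometry group of Q, viewed inside GL_n(F). Suppose n/2 is odd and let D be a decomposition of F^n into two complementary subspaces of dimension n/2 on each of which Q vanishes. Then the elements of Ω preserving or interchanging the two subspaces form a subgroup that is not maximal: some subgroup lies strictly between it and Ω. -/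
theorem result {F : Type*} [Field F] [Fintype F] {n : ℕ} (hn : 13 ≤ n) (heven : Even n) (Q : (Fin n → F) → F) (hQ : Cfsg.Geo.IsNondegenerateQuadraticForm Q) (hplus : Cfsg.Geo.IsPlusTypeOn Q ⊤) (k : ℕ) (hk : 2 * k = n) (hko : Odd k) (D : Fin 2 → Submodule F (Fin n → F)) (hD : Cfsg.Geo.IsMDecomposition k D) (hts : ∀ i, Cfsg.Geo.IsTotallySingularQuad Q (D i)) : ∃ K : Subgroup (Matrix.GeneralLinearGroup (Fin n) F), Cfsg.Geo.decompositionStabilizer D ⊓ Cfsg.Geo.omegaGL Q < K ∧ K < Cfsg.Geo.omegaGL Q := by
  have hQ' := qfOf_nondegenerate Q hQ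
  have hfr : Module.finrank F (Fin n → F) = n := by
    rw [Module.finrank_fintype_fun_eq_card, Fintype.card_fin]
  have hinf : D 0 ⊓ D 1 = ⊥ :=
    (hD.indep.pairwiseDisjoint (show (0 : Fin 2) ≠ 1 by decide)).eq_bot
  have hsup : D 0 ⊔ D 1 = ⊤ := by
    rw [← hD.iSup_eq_top]
    apply le_antisymm
    · exact sup_le (le_iSup D 0) (le_iSup D 1)
    · apply iSup_le
      intro i
      fin_cases i
      · exact le_sup_left
      · exact le_sup_right
  obtain ⟨h1, h2, h3⟩ := lagr_pair_between (qfOf Q hQ) hQ' (by rw [hfr]; omega)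
    (D₀ := D 0) (D₁ := D 1) (hts 0) (hts 1) hinf hsup (by rw [hD.finrank_eq, hfr]; exact hk)
    (by rw [hD.finrank_eq]; exact hko)
  refine exists_between_transfer (S' := toLinGrp (Cfsg.Geo.decompositionStabilizer D))
    (L' := stabGrp (D 0)) (mem_omegaGL_iff (qfOf Q hQ))
    (fun g => glEquiv_mem_toLinGrp.symm) ?_ ?_ h3
  · rintro g ⟨hg1, hg2⟩
    obtain ⟨σ, hσ⟩ := (mem_toLinGrp_decompositionStabilizer D g).1 hg2
    apply mem_stabGrp_of_map_eq
    have h4 := hσ 0
    obtain h5 | h5 : σ 0 = 0 ∨ σ 0 = 1 := by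
      generalize σ 0 = j
      fin_cases j
      · left; rfl
      · right; rfl
    · rw [h5] at h4; exact h4
    · rw [h5] at h4; exact absurd h4 (h1 g hg1)
  · obtain ⟨g, hg1, hg2, hg3⟩ := h2
    refine ⟨g, hg1, hg2, ?_⟩
    intro hg4
    obtain ⟨σ, hσ⟩ := (mem_toLinGrp_decompositionStabilizer D g).1 hg4
    apply hg3
    apply mem_stabGrp_of_map_eq
    have h4 := hσ 1
    obtain h5 | h5 : σ 1 = 0 ∨ σ 1 = 1 := by
      generalize σ 1 = j
      fin_cases j
      · left; rfl
      · right; rfl
    · exfalso
      have h6 : σ 0 = 1 := by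
        obtain h7 | h7 : σ 0 = 0 ∨ σ 0 = 1 := by
          generalize σ 0 = j
          fin_cases j
          · left; rfl
          · right; rfl
        · have := σ.injective (h7.trans h5.symm)
          exact absurd this (by decide)
        · exact h7
      have h8 := hσ 0
      rw [h6] at h8
      exact h1 g hg1 h8
    · rw [h5] at h4; exact h4

end Cfsg.Agent.S5698
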