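import Cfsg.Statements.S5699
-- import your own Cfsg.Agent.* helpers here
import Cfsg.Agent.Lib.Helper95.OmGlue2
import Cfsg.Agent.Lib.Helper99.AltDerange

set_option autoImplicit false
open Cfsg

namespace Cfsg.Agent.S5699

open Cfsg.Agent.Lib.Helper95 QuadraticMap Module in
open Cfsg.Agent.Lib.Helper49 hiding glEquiv glEquiv_apply in
/-- Let F be a finite field with q elements, n ≥ 13 even, Q a non-degenerate quadratic form on F^n (of either type), and Ω the commutator subgroup of the isometry group of Q, viewed inside GL_n(F). Let D be a decomposition of F^n into two orthogonal subspaces of odd dimension n/2 on which the polar form is non-degenerate and which are not Q-isometric to each other. Then the elements of Ω permuting (necessarily fixing) the two subspaces form a maximal subgroup of Ω. -/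
theorem result {F : Type*} [Field F] [Fintype F] {n : ℕ} (hn : 13 ≤ n) (heven : Even n) (Q : (Fin n → F) → F) (hQ : Cfsg.Geo.IsNondegenerateQuadraticForm Q) (k : ℕ) (hk : 2 * k = n) (hko : Odd k) (D : Fin 2 → Submodule F (Fin n → F)) (hD : Cfsg.Geo.IsNondegenerateMDecomposition (QuadraticMap.polar Q) k D) (hni : ¬ Cfsg.Geo.AreIsometricFor Q (D 0) (D 1)) : Cfsg.Geo.IsMaximalIn (Cfsg.Geo.omegaGL Q) (Cfsg.Geo.decompositionStabilizer D ⊓ Cfsg.Geo.omegaGL Q) := by
  have hQ' := qfOf_nondegenerate Q hQ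
  have hfr := hD.decomp.finrank_eq
  have hk7 : 6 < k := by omega
  have hsup : D 0 ⊔ D 1 = ⊤ := by
    rw [← hD.decomp.iSup_eq_top]
    apply le_antisymm
    · exact sup_le (le_iSup D 0) (le_iSup D 1)
    · apply iSup_le
      intro i
      fin_cases i
      · exact le_sup_left
      · exact le_sup_right
  have hnd : ∀ i, (polarBilin (resQ (qfOf Q hQ) (D i))).Nondegenerate := by
    intro i
    apply nondegenerate_of_separatingLeft
    intro x hx
    by_contra hx0
    obtain ⟨_, ⟨y, hy, hxy⟩⟩ := hD.nondegenerate i x x.2 (fun e => hx0 (Subtype.ext e))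
    exact hxy (by have := hx ⟨y, hy⟩; simpa using this)
  have hsplit : OSplit (qfOf Q hQ) (D 0) (D 1) :=
    ⟨hD.orthogonal 0 1 (by decide), fun x => by
      have hx : x ∈ D 0 ⊔ D 1 := by rw [hsup]; trivial
      obtain ⟨u, hu, u', hu', rfl⟩ := Submodule.mem_sup.1 hx
      exact ⟨u, hu, u', hu', rfl⟩, hnd 0, hnd 1⟩
  have h2 : (2 : F) ≠ 0 := by
    intro h
    have hev := Cfsg.Agent.Lib.Helper99.even_finrank_of_nondegOn (B := polarBilin (qfOf Q hQ))
      (W := D 0) (fun x => by
        change polar (qfOf Q hQ) x x = 0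
        rw [polar_self]; simp only [nsmul_eq_mul]; push_cast; rw [h, zero_mul])
      (fun v hv hv0 => by
        obtain ⟨_, ⟨y, hy, hxy⟩⟩ := hD.nondegenerate 0 v hv hv0
        exact ⟨y, hy, hxy⟩)
    rw [hfr] at hev
    exact (Nat.not_even_iff_odd.2 hko) hev
  have hd0 : 6 < finrank F (D 0) := by rw [hfr]; exact hk7
  have hd1 : 6 < finrank F (D 1) := by rw [hfr]; exact hk7
  have hS1 : ∀ e : (Fin n → F) ≃ₗ[F] (Fin n → F),
      (∀ x ∈ D 0, e x ∈ D 0) → (∀ x ∈ D 1, e x ∈ D 1) →
      e ∈ toLinGrp (Cfsg.Geo.decompositionStabilizer D) := by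
    intro e h0 h1
    rw [mem_toLinGrp_decompositionStabilizer]
    refine ⟨1, fun i => ?_⟩
    fin_cases i
    · exact map_eq_of_forall e h0 rfl
    · exact map_eq_of_forall e h1 rfl
  have hS2 : ∀ e : (Fin n → F) ≃ₗ[F] (Fin n → F),
      (∀ x ∈ D 0, e x ∈ D 1) → (∀ x ∈ D 1, e x ∈ D 0) →
      e ∈ toLinGrp (Cfsg.Geo.decompositionStabilizer D) := by
    intro e h0 h1
    rw [mem_toLinGrp_decompositionStabilizer]
    refine ⟨Equiv.swap 0 1, fun i => ?_⟩
    fin_cases i
    · exact map_eq_of_forall e h0 (by rw [hfr, hfr])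
    · exact map_eq_of_forall e h1 (by rw [hfr, hfr])
  refine omega_maximal_of (qfOf Q hQ) (Cfsg.Geo.decompositionStabilizer D)
    (toLinGrp (Cfsg.Geo.decompositionStabilizer D)) (fun g => glEquiv_mem_toLinGrp.symm) ?_ ?_
  · obtain ⟨a, ha, haq, -, -⟩ := hsplit.symm.perpU hd1 0 0 1
    obtain ⟨g, hg, x, hx, hx0, hx1⟩ := hsplit.exists_moving hQ' hd0
      ⟨a, ha, by rw [haq]; exact one_ne_zero⟩
    refine ⟨g, hg, fun h => ?_⟩
    rw [mem_toLinGrp_decompositionStabilizer] at h
    obtain ⟨σ, hσ⟩ := h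
    have hmem : g.1 x ∈ D (σ 0) := by
      rw [← hσ 0]
      exact ⟨x, hx, rfl⟩
    have hcases : σ 0 = 0 ∨ σ 0 = 1 := by
      generalize σ 0 = j
      fin_cases j
      · left; rfl
      · right; rfl
    rcases hcases with h | h
    · rw [h] at hmem; exact hx0 hmem
    · rw [h] at hmem; exact hx1 hmem
  · intro M hM g hg hgS
    refine hsplit.commutator_le_odd hQ' hd0 h2 ?_ ?_ ⟨g, hg, ?_⟩
    · intro _ a _ b _ _ _ _
      obtain ⟨x, hx, hxq, hxa, hxb⟩ := hsplit.symm.perpU hd1 a b 1
      refine ⟨x, hx, ?_, hxa, hxb⟩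
      rintro rfl
      rw [map_zero] at hxq
      exact zero_ne_one hxq
    · intro a b ha hb hab
      apply hM _ (refl_mul_refl_mem_commutator_of_eq _ hQ' _ _ ha.1 hab)
      apply hS1
      · intro x hx
        exact hsplit.refl_stab ha.2 (hsplit.refl_stab hb.2 hx)
      · intro x hx
        exact hsplit.symm.refl_stab ha.2.symm (hsplit.symm.refl_stab hb.2.symm hx)
    · apply hsplit.escape_pair hd0 hd1 h2 g
      · intro h
        exact hgS (hS1 g.1 h.1 h.2)
      · intro h
        exact hgS (hS2 g.1 h.1 h.2)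

end Cfsg.Agent.S5699
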