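import Cfsg.Statements.S5700
-- import your own Cfsg.Agent.* helpers here
import Cfsg.Agent.Lib.Helper95.OmFieldGlue

set_option autoImplicit false
open Cfsg

namespace Cfsg.Agent.S5700

open Cfsg.Agent.Lib.Helper95 QuadraticMap Module in
open Cfsg.Agent.Lib.Helper49 hiding glEquiv glEquiv_apply in
/-- Let F be a finite field with q elements, n ≥ 13 even, Q a non-degenerate quadratic form on F^n (of either type), and Ω the commutator subgroup of the isometry group of Q, viewed inside GL_n(F). Let K be a subfield of the algebra of n × n matrices over F containing the scalars, of degree 2 over F, closed under adjoints for the polar form of Q but not consisting of self-adjoint elements, and such that every k in K rescales Q (Q(k v) = c Q(v) for a constant c depending on k). Then the elements of Ω normalising K form a maximal subgroup of Ω. -/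
theorem result {F : Type*} [Field F] [Fintype F] {n : ℕ} (hn : 13 ≤ n) (heven : Even n) (Q : (Fin n → F) → F) (hQ : Cfsg.Geo.IsNondegenerateQuadraticForm Q) (K : Subalgebra F (Matrix (Fin n) (Fin n) F)) (hK : Cfsg.Geo.IsFieldSubalgebra 2 K) (hac : Cfsg.Geo.IsAdjointClosedFor (QuadraticMap.polar Q) K) (hnsa : ¬ Cfsg.Geo.IsSelfAdjointFor (QuadraticMap.polar Q) K) (hsc : ∀ k ∈ K, ∃ c : F, ∀ v : (Fin n → F), Q (Matrix.mulVec k v) = c * Q v) : Cfsg.Geo.IsMaximalIn (Cfsg.Geo.omegaGL Q) (Cfsg.Geo.subalgebraNormalizer K ⊓ Cfsg.Geo.omegaGL Q) := by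
  have hQ' := qfOf_nondegenerate Q hQ
  have hdV : finrank F (Fin n → F) = n := by simp
  have hn14 : 13 < n := by
    obtain ⟨j, hj⟩ := heven
    omega
  haveI : Nonempty (Fin n) := ⟨⟨0, by omega⟩⟩
  -- a non-self-adjoint element
  have hex : ∃ ω ∈ K, ¬ ∀ u v : Fin n → F, polar Q (Matrix.mulVec ω u) v
      = polar Q u (Matrix.mulVec ω v) := by
    by_contra hcon
    push Not at hcon
    exact hnsa hcon
  obtain ⟨ω, hω, hωn⟩ := hex
  have hns : ∀ c : F, ω ≠ c • 1 := by
    rintro c rfl
    apply hωn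
    intro u v
    rw [Matrix.smul_mulVec, Matrix.smul_mulVec, Matrix.one_mulVec, Matrix.one_mulVec]
    change polar (qfOf Q hQ) (c • u) v = polar (qfOf Q hQ) u (c • v)
    rw [polar_smul_left, polar_smul_right]
  obtain ⟨t, N, hq⟩ := quadK_of hK hω hns
  have hks : KStr (qfOf Q hQ) (Matrix.mulVecLin ω) t N := kstr_of hK (qfOf Q hQ) hQ' hac hsc hq hωn
  refine omega_maximal_of (qfOf Q hQ) (Cfsg.Geo.subalgebraNormalizer K)
    (toLinGrp (Cfsg.Geo.subalgebraNormalizer K)) (fun g => glEquiv_mem_toLinGrp.symm) ?_ ?_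
  · obtain ⟨g, hg, hgN⟩ := hks.exists_not_NK hQ' (by rw [hdV]; exact hn14)
    exact ⟨g, hg, fun h => hgN ((mem_normalizer_iff hq _ g).1 h)⟩
  · intro M hM g hg hgS
    refine hks.commutator_le hQ' (by rw [hdV]; exact hn14) ?_ hg
      (fun h => hgS ((mem_normalizer_iff hq _ g).2 h))
    intro u hu β
    have hs := hks.spair hu β
    refine ⟨hs, hM _ (sg_mem_commutator hQ' (by rw [hdV]; omega) hs) ?_⟩
    rw [mem_normalizer_iff hq]
    exact ⟨0, 1, fun x => by rw [hks.sg_comm hs x]; simp⟩

end Cfsg.Agent.S5700
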