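import Cfsg.Statements.S5705
-- import your own Cfsg.Agent.* helpers here
import Cfsg.Agent.Lib.Helper17.TensorO2

set_option autoImplicit false
open Cfsg

namespace Cfsg.Agent.S5705

open scoped Kronecker MatrixGroups
open Matrix Module Cfsg.Agent.Lib.Helper17 Cfsg.Agent.Lib.Helper17.Tensor Cfsg.Agent.Lib.Helper17.TensorForm
  Cfsg.Agent.Lib.Helper17.TensorOmega Cfsg.Agent.Lib.Helper17.TensorO2
  Cfsg.Agent.Lib.Helper95
open Cfsg.Agent.Lib.Helper49 hiding glEquiv glEquiv_apply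

/-- Let F be the field with 2 elements, n = 2 n₂ ≥ 13 even, Q a non-degenerate quadratic form on F^n of plus type and Ω the commutator subgroup of its isometry group. Suppose that, through P and e, the polar form of Q is similar to the tensor product of non-degenerate symplectic forms f₁ on F^2 and f₂ on F^(n₂), and Q vanishes on the images of all pure tensors. Then the elements of Ω in the stabiliser of this tensor decomposition form a subgroup that is not maximal: some subgroup lies strictly between it and Ω. -/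
theorem result {F : Type*} [Field F] [Fintype F] {n : ℕ} (hn : 13 ≤ n) (heven : Even n) (Q : (Fin n → F) → F) (hQ : Cfsg.Geo.IsNondegenerateQuadraticForm Q) (hplus : Cfsg.Geo.IsPlusTypeOn Q ⊤) (hq : Fintype.card F = 2) (n₂ : ℕ) (h2 : 2 < n₂) (e : (Fin n) ≃ Fin 2 × Fin n₂) (P : Matrix.GeneralLinearGroup (Fin n) F) (f₁ : (Fin 2 → F) → (Fin 2 → F) → F) (f₂ : (Fin n₂ → F) → (Fin n₂ → F) → F) (hf₁ : Cfsg.Geo.IsSymplecticForm f₁) (hf₂ : Cfsg.Geo.IsSymplecticForm f₂) (hT : Cfsg.Geo.IsTensorFormStructure id (QuadraticMap.polar Q) f₁ f₂ e P) (hpure : (∀ (x₁ : Fin 2 → F) (x₂ : Fin n₂ → F), Q (Matrix.mulVec (P : Matrix (Fin n) (Fin n) F) ((fun a : Fin 2 × Fin n₂ => x₁ a.1 * x₂ a.2) ∘ e)) = 0)) : ∃ K : Subgroup (Matrix.GeneralLinearGroup (Fin n) F), Cfsg.Geo.tensorProductSubgroup 2 n₂ e P ⊓ Cfsg.Geo.omegaGL Q < K ∧ K < Cfsg.Geo.omegaGL Q := by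
  classical
  have hcast : ((Fintype.card F : ℕ) : F) = 0 := Nat.cast_card_eq_zero F
  rw [hq] at hcast
  push_cast at hcast
  have h11 : (1 : F) + 1 = 0 := by linear_combination hcast
  have h01 : ∀ c : F, c = 0 ∨ c = 1 := by
    intro c
    by_contra hc
    push Not at hc
    have h3 : ({0, 1, c} : Finset F).card = 3 := by
      rw [Finset.card_insert_of_notMem, Finset.card_insert_of_notMem, Finset.card_singleton]
      · simp [hc.2.symm]
      · simp [hc.1.symm]
    have h4 := Finset.card_le_univ ({0, 1, c} : Finset F)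
    omega
  obtain ⟨c, hc, hT⟩ := hT
  have hT' : ∀ u w u' w', QuadraticMap.polar (pullQ (Lmap e P) (qfOf Q hQ)) (tp u w) (tp u' w') =
      c * (f₁ u u' * f₂ w w') := by
    intro u w u' w'
    rw [polar_pullQ, Lmap_apply, Lmap_apply, qfOf_coe, hT, formOfGram_tp _ (fun a b => rfl),
      formOfGram_gram id f₁ hf₁.bilinear.add_left hf₁.bilinear.smul_left hf₁.bilinear.add_right
        hf₁.bilinear.smul_right,
      formOfGram_gram id f₂ hf₂.bilinear.add_left hf₂.bilinear.smul_left hf₂.bilinear.add_right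
        hf₂.bilinear.smul_right]
  have hpure' : ∀ u w, pullQ (Lmap e P) (qfOf Q hQ) (tp u w) = 0 := by
    intro u w
    rw [pullQ_apply, Lmap_apply]
    exact hpure u w
  have hf₁xy : f₁ ![1, 0] ![0, 1] ≠ 0 := by
    intro h0
    have hx : (![1, 0] : Fin 2 → F) ≠ 0 := by
      intro h
      have := congrFun h 0
      simp at this
    obtain ⟨v, hv⟩ := (hf₁.nondegenerate _ hx).2
    apply hv
    have : v = v 0 • ![1, 0] + v 1 • ![0, 1] := by
      ext i; fin_cases i <;> simp
    rw [this, hf₁.bilinear.add_right, hf₁.bilinear.smul_right, hf₁.bilinear.smul_right,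
      hf₁.alternating, h0]
    ring
  have hQ' : ∀ a b, pullQ (Lmap e P) (qfOf Q hQ) (pr a b) = f₂ a b := by
    intro a b
    have h5 : pullQ (Lmap e P) (qfOf Q hQ) (pr a b) = pullQ (Lmap e P) (qfOf Q hQ) (tp ![1, 0] a) +
        pullQ (Lmap e P) (qfOf Q hQ) (tp ![0, 1] b) +
        QuadraticMap.polar (pullQ (Lmap e P) (qfOf Q hQ)) (tp ![1, 0] a) (tp ![0, 1] b) := by
      simp only [QuadraticMap.polar, pr]; ring
    rw [h5, hpure', hpure', hT', (h01 c).resolve_left hc, (h01 _).resolve_left hf₁xy]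
    ring
  obtain ⟨w₁, w₂, w₃, w₄, h12, h34, h31, h32, h41, h42, hw₃⟩ := exists_quad h11 hf₂ h01 h2
  rw [tensorProductSubgroup_eq]
  refine between_transfer (tIso e P) _ (extCent (kHom (Cfsg.Agent.S5638.om F, (1 : GL (Fin n₂) F)))) _
    ?_ ?_ ?_
  · intro g hg _
    exact (Cfsg.Agent.S5638.main h01 h11 (by omega)).1 g hg
  · obtain ⟨g, hg1, hg2, hg3⟩ := exists_mem_not_kron h11 hf₂ hQ' h01 h12 h31 h32 hw₃
    exact ⟨g, hg1, tIso_mem_omegaGL e P (qfOf Q hQ) hg2, hg3⟩
  · obtain ⟨g, hg1, hg2⟩ := exists_not_mem h11 hf₂ hQ' h12 h34 h32 h41 h42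
    exact ⟨g, tIso_mem_omegaGL e P (qfOf Q hQ) hg1, hg2⟩

end Cfsg.Agent.S5705
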