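import Cfsg.Statements.S5775
import Cfsg.Agent.Lib.Helper77.Asch.Final
import Cfsg.Agent.Lib.Helper77.Asch.SP34

set_option autoImplicit false
open Cfsg

namespace Cfsg.Agent.S5775

/-- Every maximal subgroup of SL_3(q) is of one of the listed geometric types or lies in the residual class. Let F be a finite field with q elements and H a maximal subgroup of SL_3(F) (viewed inside GL_3(F)). Then H is the intersection with SL_3(F) of one of: the stabiliser of a proper non-zero subspace; for q ≥ 5, the stabiliser of a decomposition of F^3 into three independent lines; for q ≠ 4, the normaliser of a degree-3 subfield of the matrix algebra; a subfield group for a subfield F₀ with |F| = |F₀|^r, r prime; for q = p ≡ 1 mod 3 prime, the normaliser of an absolutely irreducible 3-subgroup R of exponent 3 with centre of order 3, all of whose characteristic abelian subgroups are cyclic, of order 3^(1+2m) for some m ≥ 1, with F the smallest field of characteristic p containing the cube roots of unity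 (so R is extraspecial of order 27); for q odd, the similarity group of a non-degenerate quadratic form; the similarity group of a non-degenerate unitary form — or else H lies in the residual class of the linear case (modulo scalars H is almost simple, with absolutely irreducible perfect socle preimage realisable over no proper subfield and fixing no non-degenerate quadratic, symplectic or unitary form). -/
theorem result {F : Type*} [Field F] [Fintype F] (H : Subgroup (Matrix.GeneralLinearGroup (Fin 3) F)) (hH : Cfsg.Geo.IsMaximalIn (Cfsg.Geo.specialLinear (Fin 3) F) H) :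
    (∃ W : Submodule F (Fin 3 → F), W ≠ ⊥ ∧ W ≠ ⊤ ∧ H = Cfsg.Geo.subspaceStabilizer W ⊓ Cfsg.Geo.specialLinear (Fin 3) F) ∨
    (5 ≤ Fintype.card F ∧ ∃ D : Fin 3 → Submodule F (Fin 3 → F), Cfsg.Geo.IsMDecomposition 1 D ∧ H = Cfsg.Geo.decompositionStabilizer D ⊓ Cfsg.Geo.specialLinear (Fin 3) F) ∨
    (Fintype.card F ≠ 4 ∧ ∃ K : Subalgebra F (Matrix (Fin 3) (Fin 3) F), Cfsg.Geo.IsFieldSubalgebra 3 K ∧ H = Cfsg.Geo.subalgebraNormalizer K ⊓ Cfsg.Geo.specialLinear (Fin 3) F) ∨
    (∃ (F₀ : Subfield F) (r : ℕ) (P : Matrix.GeneralLinearGroup (Fin 3) F), r.Prime ∧ Fintype.card F = Nat.card F₀ ^ r ∧ H = Cfsg.Geo.subfieldSubgroup F₀ P ⊓ Cfsg.Geo.specialLinear (Fin 3) F) ∨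
    (∃ (p : ℕ) (R : Subgroup (Matrix.GeneralLinearGroup (Fin 3) F)), p.Prime ∧ Fintype.card F = p ∧ p % 3 = 1 ∧ Cfsg.Geo.IsLinearSymplecticTypeData 3 R ∧ H = Cfsg.Geo.subgroupNormalizer R ⊓ Cfsg.Geo.specialLinear (Fin 3) F) ∨
    (Odd (Fintype.card F) ∧ ∃ Q : (Fin 3 → F) → F, Cfsg.Geo.IsNondegenerateQuadraticForm Q ∧ H = Cfsg.Geo.quadSimilarityGroup Q ⊓ Cfsg.Geo.specialLinear (Fin 3) F) ∨
    (∃ (σ : F ≃+* F) (f : (Fin 3 → F) → (Fin 3 → F) → F), Cfsg.Geo.IsUnitaryForm σ f ∧ H = Cfsg.Geo.similarityGroup f ⊓ Cfsg.Geo.specialLinear (Fin 3) F) ∨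
    Cfsg.Geo.InLinearResidualClass H := by
  have hn : Nat.Prime 3 := by norm_num
  rcases Cfsg.Agent.Lib.Helper77.Asch.maximal_cases hn (by norm_num) H hH with
    h | h | ⟨K, hK, h⟩ | h | ⟨R, hR, h⟩ | h | h | h
  · exact Or.inl h
  · exact Or.inr (Or.inl h)
  · by_cases hq : Fintype.card F = 4
    · obtain ⟨F₀, r, P, hr, hc, hle⟩ := Cfsg.Agent.Lib.Helper77.Asch.singer_three_four hq K hK
      refine Or.inr (Or.inr (Or.inr (Or.inl ⟨F₀, r, P, hr, hc, ?_⟩)))
      exact Cfsg.Agent.Lib.Helper77.Asch.eq_of_le hH (h ▸ hle)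
        (Cfsg.Agent.Lib.Helper77.Asch.not_le_subfield (by norm_num) F₀
          (Cfsg.Agent.Lib.Helper77.Asch.subfield_ne_top F₀ r hr hc) P)
    · exact Or.inr (Or.inr (Or.inl ⟨hq, K, hK, h⟩))
  · exact Or.inr (Or.inr (Or.inr (Or.inl h)))
  · obtain ⟨p, e, hp, hnp, hch, hcard, he, hdvd, hord⟩ :=
      Cfsg.Agent.Lib.Helper77.Asch.c6_data (by norm_num) R hR
    have hle : e ≤ 2 := Nat.le_of_dvd (by norm_num) hdvd
    have he1 : e = 1 := by
      interval_cases e
      · exact absurd he (by decide)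
      · rfl
      · exact absurd he (by decide)
    subst he1
    refine Or.inr (Or.inr (Or.inr (Or.inr (Or.inl ⟨p, R, hp, by rw [hcard, pow_one], ?_, hR, h⟩))))
    rw [orderOf_eq_one_iff] at hord
    exact Cfsg.Agent.Lib.Helper77.Asch.mod_of_cast (r := 1) (by simpa using hord) (by norm_num)
  · exact Or.inr (Or.inr (Or.inr (Or.inr (Or.inr (Or.inl h)))))
  · exact Or.inr (Or.inr (Or.inr (Or.inr (Or.inr (Or.inr (Or.inl h))))))
  · exact Or.inr (Or.inr (Or.inr (Or.inr (Or.inr (Or.inr (Or.inr h))))))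

end Cfsg.Agent.S5775
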