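import Cfsg.Statements.S5790
import Cfsg.Agent.Lib.Helper66.ASP4.SYMP
import Cfsg.Agent.Lib.Helper66.ASP4.STAB
import Cfsg.Agent.Lib.Helper66.ASP4.SC1
import Cfsg.Agent.Lib.Helper66.ASP4.PSUBF
import Cfsg.Agent.Lib.Helper66.ASP4.PMONO
import Cfsg.Agent.Lib.Helper66.ASP4.FIX0
import Cfsg.Agent.Lib.Helper66.ASP4.QINV
import Cfsg.Agent.Lib.Helper66.ASP4.STRUCT
import Cfsg.Agent.Lib.Helper66.ASP4.SIMPLE
import Cfsg.Agent.Lib.Helper66.ASP4.RES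
import Cfsg.Agent.Lib.Helper66.ASP4.QF
import Cfsg.Agent.Lib.Helper66.ASP4.RAT
import Cfsg.Agent.Lib.Helper66.ASP4.UF
import Cfsg.Agent.Lib.Helper66.ASP4.PS1
import Cfsg.Agent.Lib.Helper66.ASP4.PS2
import Cfsg.Agent.Lib.Helper66.ASP4.PS3
import Cfsg.Agent.Lib.Helper66.ASP4.PS4
import Cfsg.Agent.Lib.Helper66.ASP4.PS5
import Cfsg.Agent.Lib.Helper66.ASP4.C1
import Cfsg.Agent.Lib.Helper77.Asch.AG0
import Cfsg.Agent.Lib.Helper77.Asch.SUBF2

set_option autoImplicit false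
open Cfsg

namespace Cfsg.Agent.S5790

open Cfsg.Geo Cfsg.Agent.Lib.Helper66.ASP4 Cfsg.Agent.Lib.Helper77.Asch
open scoped MatrixGroups Matrix

theorem main_key {G : Type*} [Group G] {I H : Subgroup G} (hH : IsMaximalIn I H) (X : Subgroup G)
    (h1 : H ≤ X) (h2 : ¬ I ≤ X) : H = X ⊓ I := by
  rcases hH.2 (X ⊓ I) (le_inf h1 hH.1.le) inf_le_right with h | h
  · exact h.symm
  · exact absurd (h ▸ inf_le_left) h2

theorem main_quadSim {F : Type*} [Field F] {ι : Type} [Fintype ι] [DecidableEq ι] (H : Subgroup (GL ι F))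
    (Q : (ι → F) → F) (h : FixesQuadForm (matrixSet H) Q) : H ≤ quadSimilarityGroup Q := by
  intro g hg
  refine ⟨1, fun v => ?_⟩
  rw [h _ ⟨g, hg, rfl⟩ v, Units.val_one, one_mul]

theorem main_ne_bot {F : Type*} [Field F] (H : Subgroup (GL (Fin 2 ⊕ Fin 2) F))
    (hirr : ActsIrreducibly (matrixSet H)) : H ≠ ⊥ := by
  rintro rfl
  have h := Cfsg.Agent.Lib.Helper66.ASP4.irr_stab (⊥ : Subgroup (GL (Fin 2 ⊕ Fin 2) F)) hirr
    (Submodule.span F {(Pi.single (Sum.inl 0) 1 : Fin 2 ⊕ Fin 2 → F)}) bot_le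
  have hv : (Pi.single (Sum.inl 0) 1 : Fin 2 ⊕ Fin 2 → F) ≠ 0 := by
    intro h
    have := congrFun h (Sum.inl 0)
    simp at this
  rcases h with h | h
  · rw [Submodule.span_singleton_eq_bot] at h
    exact hv h
  · have h1 := finrank_span_singleton (K := F) hv
    rw [h, finrank_top, Module.finrank_fintype_fun_eq_card] at h1
    simp at h1

theorem main_top_ne {F : Type*} [Field F] [Fintype F] (F₁ : Subfield F) (r : ℕ) (hr : r.Prime)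
    (h : Fintype.card F = Nat.card F₁ ^ r) : F₁ ≠ ⊤ := by
  rintro rfl
  have h1 : Nat.card (⊤ : Subfield F) = Fintype.card F := by
    rw [← Nat.card_eq_fintype_card]
    exact Nat.card_congr (Subfield.topEquiv (K := F)).toEquiv
  rw [h1] at h
  have h2 : 1 < Fintype.card F := Fintype.one_lt_card
  have h3 : Fintype.card F ^ 1 < Fintype.card F ^ r := Nat.pow_lt_pow_right h2 hr.one_lt
  rw [pow_one] at h3
  omega

/-- Every maximal subgroup of Sp_4(q), q ≥ 4 even, is of one of the listed geometric types or lies in the residual class. -/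
theorem result {F : Type*} [Field F] [Fintype F] (heven : ¬ Odd (Fintype.card F)) (h4 : 4 ≤ Fintype.card F) (H : Subgroup (Matrix.GeneralLinearGroup (Fin 2 ⊕ Fin 2) F)) (hH : Cfsg.Geo.IsMaximalIn (Cfsg.spGL 2 F) H) :
    (∃ W : Submodule F (Fin 2 ⊕ Fin 2 → F), W ≠ ⊥ ∧ Cfsg.Geo.IsTotallySingularFor (Cfsg.sympForm 2 F) W ∧ H = Cfsg.Geo.subspaceStabilizer W ⊓ Cfsg.spGL 2 F) ∨
    (∃ D : Fin 2 → Submodule F (Fin 2 ⊕ Fin 2 → F), Cfsg.Geo.IsNondegenerateMDecomposition (Cfsg.sympForm 2 F) 2 D ∧ H = Cfsg.Geo.decompositionStabilizer D ⊓ Cfsg.spGL 2 F) ∨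
    (∃ K : Subalgebra F (Matrix (Fin 2 ⊕ Fin 2) (Fin 2 ⊕ Fin 2) F), Cfsg.Geo.IsFieldSubalgebra 2 K ∧ Cfsg.Geo.IsSelfAdjointFor (Cfsg.sympForm 2 F) K ∧ (∀ k ∈ K, ∀ v : (Fin 2 ⊕ Fin 2 → F), (Cfsg.sympForm 2 F) (Matrix.mulVec k v) v = 0) ∧ H = Cfsg.Geo.subalgebraNormalizer K ⊓ Cfsg.spGL 2 F) ∨
    (∃ (F₀ : Subfield F) (r : ℕ) (P : Matrix.GeneralLinearGroup (Fin 2 ⊕ Fin 2) F) (ζ : F), r.Prime ∧ Fintype.card F = Nat.card F₀ ^ r ∧ ζ ≠ 0 ∧ Cfsg.Geo.IsFormRationalStructure (Cfsg.sympForm 2 F) F₀ ζ P ∧ H = Cfsg.Geo.subfieldSubgroup F₀ P ⊓ Cfsg.spGL 2 F) ∨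
    (∃ Q : (Fin 2 ⊕ Fin 2 → F) → F, Cfsg.Geo.IsNondegenerateQuadraticForm Q ∧ (∀ u v : (Fin 2 ⊕ Fin 2 → F), QuadraticMap.polar Q u v = (Cfsg.sympForm 2 F) u v) ∧ H = Cfsg.Geo.quadSimilarityGroup Q ⊓ Cfsg.spGL 2 F) ∨
    Cfsg.Geo.InSymplecticResidualClass H := by
  have : CharP F 2 := charTwo_of_not_odd heven
  have hle : H ≤ spGL 2 F := hH.1.le
  have hsymp : IsSymplecticForm (sympForm 2 F) := symp_isSymplectic 2
  -- the three geometric outcomes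
  have o2 : Out2 H → ∃ D : Fin 2 → Submodule F (Fin 2 ⊕ Fin 2 → F),
      IsNondegenerateMDecomposition (sympForm 2 F) 2 D ∧ H = decompositionStabilizer D ⊓ spGL 2 F := by
    rintro ⟨D, hD, hHD⟩
    exact ⟨D, hD, main_key hH _ hHD (Cfsg.Agent.Lib.Helper66.ASP4.not_le_decomp 2 2 le_rfl D hD.decomp)⟩
  have o3 : Out3 H → ∃ K : Subalgebra F (Matrix (Fin 2 ⊕ Fin 2) (Fin 2 ⊕ Fin 2) F), IsFieldSubalgebra 2 K ∧
      IsSelfAdjointFor (sympForm 2 F) K ∧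
      (∀ k ∈ K, ∀ v : (Fin 2 ⊕ Fin 2 → F), (sympForm 2 F) (Matrix.mulVec k v) v = 0) ∧
      H = subalgebraNormalizer K ⊓ spGL 2 F := by
    rintro ⟨K, hK, h1, h2, hHK⟩
    exact ⟨K, hK, h1, h2, main_key hH _ hHK (Cfsg.Agent.Lib.Helper66.ASP4.not_le_fieldNormalizer 2 2 le_rfl le_rfl K hK)⟩
  have o5 : Out5 2 H → ∃ Q : (Fin 2 ⊕ Fin 2 → F) → F, IsNondegenerateQuadraticForm Q ∧
      (∀ u v : (Fin 2 ⊕ Fin 2 → F), QuadraticMap.polar Q u v = (sympForm 2 F) u v) ∧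
      H = quadSimilarityGroup Q ⊓ spGL 2 F := by
    rintro ⟨Q, hQ, hpol, hfix⟩
    exact ⟨Q, hQ, hpol, main_key hH _ (main_quadSim H Q hfix) (Cfsg.Agent.Lib.Helper66.ASP4.not_le_quadSim 2 le_rfl h4 Q hQ hpol)⟩
  by_cases hirr : ActsIrreducibly (matrixSet H)
  swap
  · rcases reducible_case H hle hirr with ⟨W, h0, hts, hHW⟩ | h2
    · left
      refine ⟨W, h0, hts, main_key hH _ hHW (Cfsg.Agent.Lib.Helper66.ASP4.not_le_subspace 2 W h0 ?_)⟩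
      rintro rfl
      have hv : (Pi.single (Sum.inl 0) 1 : Fin 2 ⊕ Fin 2 → F) ≠ 0 := by
        intro h
        have := congrFun h (Sum.inl 0)
        simp at this
      obtain ⟨⟨x, hx⟩, -⟩ := hsymp.nondegenerate _ hv
      exact hx (hts _ Submodule.mem_top _ Submodule.mem_top)
    · exact Or.inr (Or.inl (o2 h2))
  have hne : H ≠ ⊥ := main_ne_bot H hirr
  obtain ⟨N, hm⟩ := exists_minOver H ⊥ (bot_lt_iff_ne_bot.2 hne)
  have hNne : N ≠ ⊥ := (bot_lt_iff_ne_bot.1 hm.lt)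
  have hcase : (∀ x ∈ N, ∀ y ∈ N, x * y = y * x) ∨ ⁅N, N⁆ = N := by
    rcases hm.min ⁅N, N⁆ bot_le (ag5_commutator_le_self N) (ag5_normBy_commutator hm.norm hm.norm) with h | h
    · left
      intro x hx y hy
      have := (Subgroup.commutator_eq_bot_iff_le_centralizer.1 h) hx
      rw [Subgroup.mem_centralizer_iff] at this
      exact (this y hy).symm
    · exact Or.inr h
  rcases struct H N hle hirr hm.le hm.norm hNne hcase with h2 | h3 | h5 | ⟨habs, hp⟩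
  · exact Or.inr (Or.inl (o2 h2))
  · exact Or.inr (Or.inr (Or.inl (o3 h3)))
  · exact Or.inr (Or.inr (Or.inr (Or.inr (Or.inl (o5 h5)))))
  have hNsp : N ≤ spGL 2 F := hm.le.trans hle
  have hfixN : NoFix N := noFix H N hirr hm.norm hNne
  have up5 : Out5 2 N → Out5 2 H := by
    rintro ⟨Q, hQ, hpol, hfix⟩
    exact ⟨Q, hQ, hpol, qinv 2 H N hle hm.norm hfixN Q hQ hpol hfix⟩
  have hfP : FixesForm (matrixSet N) (sympForm 2 F) := by
    rintro _ ⟨g, hg, rfl⟩ u v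
    exact hNsp hg u v
  rcases simple_or_out5 H N hle hirr hm habs hp with h5 | hs
  · exact Or.inr (Or.inr (Or.inr (Or.inr (Or.inl (o5 h5)))))
  by_cases hsub : ∃ F₀ : Subfield F, F₀ ≠ ⊤ ∧ RealisableOver F₀ (matrixSet N)
  · obtain ⟨F₀, hF₀, B, hB⟩ := hsub
    obtain ⟨F₁, r, h01, hr, hcard⟩ := exists_prime_subfield F₀ hF₀
    obtain ⟨ζ, hζ, hrat⟩ := rational_form N habs (sympForm 2 F) hsymp.bilinear hsymp.nondegenerate hfP F₀ B hB
    refine Or.inr (Or.inr (Or.inr (Or.inl ⟨F₁, r, B⁻¹, ζ, hr, hcard, hζ,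
      rational_mono _ hsymp.bilinear h01 ζ _ hrat, main_key hH _ ?_
        (Cfsg.Agent.Lib.Helper66.ASP4.not_le_subfield 2 (by norm_num) F₁ (main_top_ne F₁ r hr hcard) _)⟩)))
    refine le_trans ?_ ((Cfsg.Agent.Lib.Helper66.ASP4.normalizer_le_subfield N habs F₀ B hB).trans (Cfsg.Agent.Lib.Helper66.ASP4.subfieldSubgroup_mono h01 _))
    exact (ag5_normBy_iff H N).1 hm.norm
  · by_cases hq : ∃ Q : (Fin 2 ⊕ Fin 2 → F) → F, IsNondegenerateQuadraticForm Q ∧ FixesQuadForm (matrixSet N) Q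
    · obtain ⟨Q, hQ, hfix⟩ := hq
      exact Or.inr (Or.inr (Or.inr (Or.inr (Or.inl (o5 (up5 (out5_of_fixesQuad 2 N hNsp habs Q hQ hfix)))))))
    · by_cases hu : ∃ (σ : F ≃+* F) (f : (Fin 2 ⊕ Fin 2 → F) → (Fin 2 ⊕ Fin 2 → F) → F),
          IsUnitaryForm σ f ∧ FixesForm (matrixSet N) f
      · obtain ⟨σ, g, hg, hgP⟩ := hu
        exact absurd (realisable_of_unitary N habs (sympForm 2 F) hsymp.bilinear hsymp.nondegenerate hfP σ g hg hgP) hsub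
      · refine Or.inr (Or.inr (Or.inr (Or.inr (Or.inr ⟨N, ?_, hq, hu⟩))))
        refine residual_core H N hle hm.le hm.norm hNne hp hs habs ?_
        intro F₀ h0 h1
        exact hsub ⟨F₀, h0, h1⟩

end Cfsg.Agent.S5790
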