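import Cfsg.Statements.S5796
import Cfsg.Agent.Lib.Helper32.AschU.Final
import Cfsg.Agent.Lib.Helper14.SU5.Main

set_option autoImplicit false
open Cfsg

namespace Cfsg.Agent.S5796

theorem ar_order5 : ∀ a : ZMod 5, ∀ m : ℕ, m ≤ 5 → orderOf a = m →
    (m = 0 ∨ m = 1 ∨ m = 3 ∨ m = 5 ∨ (m = 2 ∧ a = 4) ∨ (m = 4 ∧ (a = 2 ∨ a = 3))) := by
  intro a m hm h
  have h1 : a ^ m = 1 := h ▸ pow_orderOf_eq_one a
  have h2 : ∀ j : ℕ, 0 < j → j < m → a ^ j ≠ 1 := fun j hj hjm => by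
    rw [← h] at hjm
    exact pow_ne_one_of_lt_orderOf hj.ne' hjm
  interval_cases m
  · simp
  · simp
  · have := h2 1 (by norm_num) (by norm_num)
    clear h h2; revert a; decide
  · simp
  · have h3 := h2 2 (by norm_num) (by norm_num)
    have h4 := h2 1 (by norm_num) (by norm_num)
    clear h h2; revert a; decide
  · simp

theorem ar5 (p k : ℕ) (hk : 0 < k) (h : orderOf (p : ZMod 5) = 2 * k) :
    (k = 1 ∧ p % 5 = 4) ∨ (k = 2 ∧ (p % 5 = 2 ∨ p % 5 = 3)) := by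
  have hle : 2 * k ≤ 5 := by
    rw [← h]
    have : orderOf (p : ZMod 5) ≤ Fintype.card (ZMod 5) := orderOf_le_card_univ
    have h7 : Fintype.card (ZMod 5) = 5 := ZMod.card 5
    omega
  have hval : ∀ c : ℕ, c < 5 → (p : ZMod 5) = (c : ZMod 5) → p % 5 = c := by
    intro c hc he
    have := (ZMod.natCast_eq_natCast_iff' p c 5).1 he
    rw [this, Nat.mod_eq_of_lt hc]
  rcases ar_order5 (p : ZMod 5) (2 * k) hle h with h0 | h0 | h0 | h0 | ⟨h0, ha⟩ | ⟨h0, ha⟩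
  · omega
  · omega
  · omega
  · omega
  · exact Or.inl ⟨by omega, hval 4 (by norm_num) (by simpa using ha)⟩
  · refine Or.inr ⟨by omega, ?_⟩
    rcases ha with ha | ha
    · exact Or.inl (hval 2 (by norm_num) (by simpa using ha))
    · exact Or.inr (hval 3 (by norm_num) (by simpa using ha))

/-- Every maximal subgroup of SU_5(q) is of one of the listed geometric types or lies in the residual class. Let F be the field with q² elements (characteristic p), f the standard unitary form Σ u_i v_i^q on F^5, and H a maximal subgroup of SU_5(q) (inside GL_5(F)). Then H is the intersection with SU_5(q) of one of: the stabiliser of a non-zero totally isotropic subspace; the stabiliser of a non-degenerate 1-space or 2-space; the stabiliser of a decomposition into five mutually orthogonal non-degenerate 1-spaces; for q ≥ 3, the normaliser of an adjoint-closed degree-5 subfield of the matrix algebra; a subfield group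 of odd prime index whose F₀-structure carries f; for q odd, a subfield group of index 2 whose F₀-structure carries f; for q = p ≡ 4 mod 5 or q = p² with p ≡ 2, 3 mod 5, the normaliser of an absolutely irreducible 5-group of exponent 5, order 125 and centre of order 5 with all characteristic abelian subgroups cyclic inside the similarity group of f — or else H lies in the residual class of the unitary case. -/
theorem result {F : Type*} [Field F] [Fintype F] (q : ℕ) (hF : Fintype.card F = q ^ 2) (H : Subgroup (Matrix.GeneralLinearGroup (Fin 5) F)) (hH : Cfsg.Geo.IsMaximalIn (Cfsg.GU 5 F q ⊓ Cfsg.Geo.specialLinear (Fin 5) F) H) :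
    (∃ W : Submodule F (Fin 5 → F), W ≠ ⊥ ∧ Cfsg.Geo.IsTotallySingularFor (Cfsg.hermForm 5 F q) W ∧ H = Cfsg.Geo.subspaceStabilizer W ⊓ (Cfsg.GU 5 F q ⊓ Cfsg.Geo.specialLinear (Fin 5) F)) ∨
    (∃ W : Submodule F (Fin 5 → F), W ≠ ⊥ ∧ Cfsg.Geo.IsNondegenerateOn (Cfsg.hermForm 5 F q) W ∧ 2 * Module.finrank F W < 5 ∧ H = Cfsg.Geo.subspaceStabilizer W ⊓ (Cfsg.GU 5 F q ⊓ Cfsg.Geo.specialLinear (Fin 5) F)) ∨
    (∃ D : Fin 5 → Submodule F (Fin 5 → F), Cfsg.Geo.IsNondegenerateMDecomposition (Cfsg.hermForm 5 F q) 1 D ∧ H = Cfsg.Geo.decompositionStabilizer D ⊓ (Cfsg.GU 5 F q ⊓ Cfsg.Geo.specialLinear (Fin 5) F)) ∨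
    (3 ≤ q ∧ ∃ K : Subalgebra F (Matrix (Fin 5) (Fin 5) F), Cfsg.Geo.IsFieldSubalgebra 5 K ∧ Cfsg.Geo.IsAdjointClosedFor (Cfsg.hermForm 5 F q) K ∧ H = Cfsg.Geo.subalgebraNormalizer K ⊓ (Cfsg.GU 5 F q ⊓ Cfsg.Geo.specialLinear (Fin 5) F)) ∨
    (∃ (F₀ : Subfield F) (r : ℕ) (P : Matrix.GeneralLinearGroup (Fin 5) F), r.Prime ∧ Odd r ∧ Fintype.card F = Nat.card F₀ ^ r ∧ Cfsg.Geo.IsFormRationalStructure (Cfsg.hermForm 5 F q) F₀ 1 P ∧ H = Cfsg.Geo.subfieldSubgroup F₀ P ⊓ (Cfsg.GU 5 F q ⊓ Cfsg.Geo.specialLinear (Fin 5) F)) ∨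
    (Odd q ∧ ∃ (F₀ : Subfield F) (P : Matrix.GeneralLinearGroup (Fin 5) F), Fintype.card F = Nat.card F₀ ^ 2 ∧ Cfsg.Geo.IsFormRationalStructure (Cfsg.hermForm 5 F q) F₀ 1 P ∧ H = Cfsg.Geo.subfieldSubgroup F₀ P ⊓ (Cfsg.GU 5 F q ⊓ Cfsg.Geo.specialLinear (Fin 5) F)) ∨
    (∃ (p : ℕ) (R : Subgroup (Matrix.GeneralLinearGroup (Fin 5) F)), p.Prime ∧ CharP F p ∧ ((q = p ∧ p % 5 = 4) ∨ (q = p ^ 2 ∧ (p % 5 = 2 ∨ p % 5 = 3))) ∧ Cfsg.Geo.IsSymplecticTypeGroup 5 R ∧ Cfsg.Geo.ActsAbsolutelyIrreducibly (Cfsg.Geo.matrixSet R) ∧ R ≤ Cfsg.Geo.similarityGroup (Cfsg.hermForm 5 F q) ∧ Nat.card R = 125 ∧ Nat.card (Subgroup.center R) = 5 ∧ H = Cfsg.Geo.subgroupNormalizer R ⊓ (Cfsg.GU 5 F q ⊓ Cfsg.Geo.specialLinear (Fin 5) F)) ∨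
    Cfsg.Geo.InUnitaryResidualClass H := by
  have h := Cfsg.Agent.Lib.Helper32.AschU.ufinal (n := 5) q hF (by norm_num) (by norm_num) H hH
  rcases h with h | h | h | ⟨K, hK, hadj, hHe⟩ | h | h | ⟨p, k, R, hp, hchar, hk, hqk, hord, hS, habs, hRU, hc1, hc2, hHe⟩ | h
  · exact Or.inl h
  · exact Or.inr (Or.inl h)
  · exact Or.inr (Or.inr (Or.inl h))
  · refine Or.inr (Or.inr (Or.inr (Or.inl ⟨?_, K, hK, hadj, hHe⟩)))
    by_contra hq
    have hq2 : q = 2 := by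
      have h1 : 1 < Fintype.card F := Fintype.one_lt_card
      rw [hF] at h1
      have h0 : q ≠ 0 := by rintro rfl; simp at h1
      have h1' : q ≠ 1 := by rintro rfl; simp at h1
      omega
    subst hq2
    rw [hHe] at hH
    exact Cfsg.Agent.Lib.Helper14.SU5.no_c3 hF K hK hadj hH
  · exact Or.inr (Or.inr (Or.inr (Or.inr (Or.inl h))))
  · exact Or.inr (Or.inr (Or.inr (Or.inr (Or.inr (Or.inl h)))))
  · refine Or.inr (Or.inr (Or.inr (Or.inr (Or.inr (Or.inr (Or.inl ⟨p, R, hp, hchar, ?_, hS, habs,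
      hRU.trans (Cfsg.Agent.Lib.Helper32.AschU.GU_le_sim q), by simpa using hc1, hc2, hHe⟩))))))
    rcases ar5 p k hk hord with ⟨rfl, h6⟩ | ⟨rfl, h35⟩
    · exact Or.inl ⟨by simpa using hqk, h6⟩
    · exact Or.inr ⟨hqk, h35⟩
  · exact Or.inr (Or.inr (Or.inr (Or.inr (Or.inr (Or.inr (Or.inr h))))))

end Cfsg.Agent.S5796
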