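import Cfsg.Statements.S5853
import Cfsg.Agent.Lib.Helper77.Asch.Final

set_option autoImplicit false
open Cfsg

namespace Cfsg.Agent.S5853

/-- Every maximal subgroup of SL_11(q) is of one of the listed geometric types or lies in the residual class. Let F be a finite field with q elements (p its characteristic) and H a maximal subgroup of SL_11(F) (inside GL_11(F)). Then H is the intersection with SL_11(F) of one of: the stabiliser of a proper non-zero subspace; for q ≥ 5, the stabiliser of a decomposition into 11 independent 1-spaces; the normaliser of a degree-11 subfield of the matrix algebra; a subfield group for a subfield F₀ with |F| = |F₀|^r, r prime; for q = p prime with p ≡ 1 mod 11, or q = p⁵ with p ≡ 3, 4, 5 or 9 mod 11, the normaliser of an absolutely irreducible 11-subgroup R of exponent 11 and order 11^(1+2m) with centre of order 11, all of whose characteristic abelian subgroups are cyclic, F being the smallest field of characteristic p containing the eleventh roots of unity (here R is extraspecial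 of order 11³); for q odd, the similarity group of a non-degenerate quadratic form; the similarity group of a non-degenerate unitary form — or else H lies in the residual class of the linear case (modulo scalars H is almost simple, with absolutely irreducible perfect socle preimage realisable over no proper subfield and fixing no non-degenerate quadratic, symplectic or unitary form). -/
theorem result {F : Type*} [Field F] [Fintype F] (H : Subgroup (Matrix.GeneralLinearGroup (Fin 11) F)) (hH : Cfsg.Geo.IsMaximalIn (Cfsg.Geo.specialLinear (Fin 11) F) H) :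
    (∃ W : Submodule F (Fin 11 → F), W ≠ ⊥ ∧ W ≠ ⊤ ∧ H = Cfsg.Geo.subspaceStabilizer W ⊓ Cfsg.Geo.specialLinear (Fin 11) F) ∨
    (5 ≤ Fintype.card F ∧ ∃ D : Fin 11 → Submodule F (Fin 11 → F), Cfsg.Geo.IsMDecomposition 1 D ∧ H = Cfsg.Geo.decompositionStabilizer D ⊓ Cfsg.Geo.specialLinear (Fin 11) F) ∨
    (∃ K : Subalgebra F (Matrix (Fin 11) (Fin 11) F), Cfsg.Geo.IsFieldSubalgebra 11 K ∧ H = Cfsg.Geo.subalgebraNormalizer K ⊓ Cfsg.Geo.specialLinear (Fin 11) F) ∨
    (∃ (F₀ : Subfield F) (r : ℕ) (P : Matrix.GeneralLinearGroup (Fin 11) F), r.Prime ∧ Fintype.card F = Nat.card F₀ ^ r ∧ H = Cfsg.Geo.subfieldSubgroup F₀ P ⊓ Cfsg.Geo.specialLinear (Fin 11) F) ∨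
    ((∃ p : ℕ, p.Prime ∧ CharP F p ∧ ((Fintype.card F = p ∧ p % 11 = 1) ∨ (Fintype.card F = p ^ 5 ∧ (p % 11 = 3 ∨ p % 11 = 4 ∨ p % 11 = 5 ∨ p % 11 = 9)))) ∧ ∃ R : Subgroup (Matrix.GeneralLinearGroup (Fin 11) F), Cfsg.Geo.IsLinearSymplecticTypeData 11 R ∧ H = Cfsg.Geo.subgroupNormalizer R ⊓ Cfsg.Geo.specialLinear (Fin 11) F) ∨
    (Odd (Fintype.card F) ∧ ∃ Q : (Fin 11 → F) → F, Cfsg.Geo.IsNondegenerateQuadraticForm Q ∧ H = Cfsg.Geo.quadSimilarityGroup Q ⊓ Cfsg.Geo.specialLinear (Fin 11) F) ∨
    (∃ (σ : F ≃+* F) (f : (Fin 11 → F) → (Fin 11 → F) → F), Cfsg.Geo.IsUnitaryForm σ f ∧ H = Cfsg.Geo.similarityGroup f ⊓ Cfsg.Geo.specialLinear (Fin 11) F) ∨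
    Cfsg.Geo.InLinearResidualClass H := by
  have hn : Nat.Prime 11 := by norm_num
  rcases Cfsg.Agent.Lib.Helper77.Asch.maximal_cases hn (by norm_num) H hH with
    h | h | h | h | ⟨R, hR, h⟩ | h | h | h
  · exact Or.inl h
  · exact Or.inr (Or.inl h)
  · exact Or.inr (Or.inr (Or.inl h))
  · exact Or.inr (Or.inr (Or.inr (Or.inl h)))
  · refine Or.inr (Or.inr (Or.inr (Or.inr (Or.inl ⟨?_, R, hR, h⟩))))
    obtain ⟨p, e, hp, hnp, hch, hcard, he, hdvd, hord⟩ :=
      Cfsg.Agent.Lib.Helper77.Asch.c6_data (by norm_num) R hR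
    have hle : e ≤ 10 := Nat.le_of_dvd (by norm_num) hdvd
    have he1 : e = 1 ∨ e = 5 := by
      interval_cases e
      · exact absurd he (by decide)
      · exact Or.inl rfl
      · exact absurd he (by decide)
      · exact absurd hdvd (by decide)
      · exact absurd he (by decide)
      · exact Or.inr rfl
      · exact absurd he (by decide)
      · exact absurd hdvd (by decide)
      · exact absurd he (by decide)
      · exact absurd hdvd (by decide)
      · exact absurd he (by decide)
    refine ⟨p, hp, hch, ?_⟩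
    rcases he1 with rfl | rfl
    · left
      refine ⟨by rw [hcard, pow_one], ?_⟩
      rw [orderOf_eq_one_iff] at hord
      exact Cfsg.Agent.Lib.Helper77.Asch.mod_of_cast (r := 1) (by simpa using hord) (by norm_num)
    · right
      refine ⟨hcard, ?_⟩
      have h1 : (p : ZMod 11) ^ 5 = 1 := by rw [← hord]; exact pow_orderOf_eq_one _
      have h2 : (p : ZMod 11) ≠ 1 := by
        intro h3
        rw [h3, orderOf_one] at hord
        exact absurd hord (by norm_num)
      have key : ∀ x : ZMod 11, x ^ 5 = 1 → x ≠ 1 → x = 3 ∨ x = 4 ∨ x = 5 ∨ x = 9 := by decide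
      rcases key _ h1 h2 with h3 | h3 | h3 | h3
      · exact Or.inl (Cfsg.Agent.Lib.Helper77.Asch.mod_of_cast (r := 3) (by simpa using h3) (by norm_num))
      · exact Or.inr (Or.inl (Cfsg.Agent.Lib.Helper77.Asch.mod_of_cast (r := 4) (by simpa using h3) (by norm_num)))
      · exact Or.inr (Or.inr (Or.inl
          (Cfsg.Agent.Lib.Helper77.Asch.mod_of_cast (r := 5) (by simpa using h3) (by norm_num))))
      · exact Or.inr (Or.inr (Or.inr
          (Cfsg.Agent.Lib.Helper77.Asch.mod_of_cast (r := 9) (by simpa using h3) (by norm_num))))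
  · exact Or.inr (Or.inr (Or.inr (Or.inr (Or.inr (Or.inl h)))))
  · exact Or.inr (Or.inr (Or.inr (Or.inr (Or.inr (Or.inr (Or.inl h))))))
  · exact Or.inr (Or.inr (Or.inr (Or.inr (Or.inr (Or.inr (Or.inr h))))))

end Cfsg.Agent.S5853
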