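import Cfsg.Statements.S5876
-- import your own Cfsg.Agent.* helpers here

set_option autoImplicit false
open Cfsg

namespace Cfsg.Agent.S5876

open scoped commutatorElement

/-- group theory part -/
lemma solvable_chain {Γ : Type*} [Group Γ] [Group.IsSolvable Γ] (g : Γ) :
    ∃ A : Subgroup Γ, A.Normal ∧ (∀ a ∈ A, ∀ b ∈ A, a * b = b * a) ∧
      (g ∈ A ∨ (∃ x : Γ, ⁅g, x⁆ ≠ 1 ∧ ⁅g, x⁆ ∈ A) ∨
        (∃ x w : Γ, ⁅⁅g, x⁆, w⁆ ≠ 1 ∧ ⁅⁅g, x⁆, w⁆ ∈ A)) := by
  classical
  by_cases h : ∃ B : Subgroup Γ, B.Normal ∧ ⁅⁅B, B⁆, B⁆ = ⊥ ∧ ∃ x ∈ B, ⁅g, x⁆ ≠ 1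
  · obtain ⟨B, hBn, hB2, x, hxB, hgx⟩ := h
    have hle : ⁅B, B⁆ ≤ Subgroup.centralizer (B : Set Γ) :=
      Subgroup.commutator_eq_bot_iff_le_centralizer.mp hB2
    refine ⟨B ⊓ Subgroup.centralizer (B : Set Γ), inferInstance, ?_, ?_⟩
    · rintro a ⟨ha1, ha2⟩ b ⟨hb1, hb2⟩
      exact (Subgroup.mem_centralizer_iff.mp hb2 a ha1)
    · have hyB : ⁅g, x⁆ ∈ B := by
        rw [commutatorElement_def]
        exact B.mul_mem (hBn.conj_mem x hxB g) (B.inv_mem hxB)
      by_cases hy : ⁅g, x⁆ ∈ Subgroup.centralizer (B : Set Γ)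
      · exact Or.inr (Or.inl ⟨x, hgx, hyB, hy⟩)
      · rw [Subgroup.mem_centralizer_iff] at hy
        push Not at hy
        obtain ⟨w, hwB, hw⟩ := hy
        refine Or.inr (Or.inr ⟨x, w, ?_, ?_, ?_⟩)
        · intro h1
          rw [commutatorElement_eq_one_iff_mul_comm] at h1
          exact hw h1.symm
        · exact Subgroup.commutator_le_left B B (Subgroup.commutator_mem_commutator hyB hwB)
        · exact hle (Subgroup.commutator_mem_commutator hyB hwB)
  · push Not at h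
    let D : Subgroup Γ := ⨅ B : {B : Subgroup Γ // B.Normal ∧ ⁅⁅B, B⁆, B⁆ = ⊥},
      Subgroup.centralizer ((B : Subgroup Γ) : Set Γ)
    have hDn : D.Normal := by
      apply Subgroup.normal_iInf_normal
      rintro ⟨B, hBn, hB2⟩
      exact Subgroup.normal_centralizer
    have hDle : ∀ B : Subgroup Γ, B.Normal → ⁅⁅B, B⁆, B⁆ = ⊥ → D ≤ Subgroup.centralizer (B : Set Γ) :=
      fun B h1 h2 => iInf_le (fun B : {B : Subgroup Γ // B.Normal ∧ ⁅⁅B, B⁆, B⁆ = ⊥} =>
        Subgroup.centralizer ((B : Subgroup Γ) : Set Γ)) ⟨B, h1, h2⟩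
    have hgD : g ∈ D := by
      rw [Subgroup.mem_iInf]
      rintro ⟨B, hBn, hB2⟩
      rw [Subgroup.mem_centralizer_iff]
      intro x hx
      have := h B hBn hB2 x hx
      rw [commutatorElement_eq_one_iff_mul_comm] at this
      exact this.symm
    let E : ℕ → Subgroup Γ := fun i => Nat.rec D (fun _ X => ⁅X, X⁆) i
    have hE0 : E 0 = D := rfl
    have hES : ∀ i, E (i + 1) = ⁅E i, E i⁆ := fun i => rfl
    have hEn : ∀ i, (E i).Normal := by
      intro i
      induction i with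
      | zero => exact hDn
      | succ i ih =>
        rw [hES]
        exact @Subgroup.commutator_normal _ _ (E i) (E i) ih ih
    have hED : ∀ i, E i ≤ D := by
      intro i
      induction i with
      | zero => exact le_rfl
      | succ i ih =>
        rw [hES]
        exact (@Subgroup.commutator_le_left _ _ (E i) (E i) (hEn i)).trans ih
    have hEder : ∀ i, E i ≤ derivedSeries Γ i := by
      intro i
      induction i with
      | zero => exact le_top
      | succ i ih =>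
        rw [hES, derivedSeries_succ]
        exact Subgroup.commutator_mono ih ih
    obtain ⟨m, hm⟩ := Group.IsSolvable.solvable (G := Γ)
    have hstep : ∀ i, E (i + 1) ≤ Subgroup.centralizer (D : Set Γ) → E i ≤ Subgroup.centralizer (D : Set Γ) := by
      intro i hi
      have h1 : ⁅⁅E i, E i⁆, E i⁆ = ⊥ := by
        rw [← hES, Subgroup.commutator_eq_bot_iff_le_centralizer]
        exact hi.trans (Subgroup.centralizer_le (hED i))
      have h2 := hDle (E i) (hEn i) h1
      exact Subgroup.le_centralizer_iff.mp h2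
    have hall : ∀ j, j ≤ m → E (m - j) ≤ Subgroup.centralizer (D : Set Γ) := by
      intro j
      induction j with
      | zero =>
        intro _
        have : E m ≤ ⊥ := hm ▸ hEder m
        exact this.trans bot_le
      | succ j ih =>
        intro hj
        apply hstep
        have : m - (j + 1) + 1 = m - j := by omega
        rw [this]
        exact ih (by omega)
    have hDD : D ≤ Subgroup.centralizer (D : Set Γ) := by
      have := hall m le_rfl
      simpa [hE0] using this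
    refine ⟨D, hDn, ?_, Or.inl hgD⟩
    intro a ha b hb
    exact (Subgroup.mem_centralizer_iff.mp (hDD hb) a ha)

section
variable {F : Type*} [Field F] {n : ℕ}

lemma mem_fx (g : Matrix (Fin n) (Fin n) F) (v : Fin n → F) :
    v ∈ Module.End.eigenspace (Matrix.toLin' g) 1 ↔ g.mulVec v = v := by
  rw [Module.End.mem_eigenspace_iff, Matrix.toLin'_apply, one_smul]

lemma gl_inj (x : Matrix.GeneralLinearGroup (Fin n) F) :
    Function.Injective (Matrix.toLin' (x : Matrix (Fin n) (Fin n) F)) := by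
  intro a b hab
  have := congrArg (fun v => ((x⁻¹ : Matrix.GeneralLinearGroup (Fin n) F) : Matrix (Fin n) (Fin n) F).mulVec v) hab
  simpa [Matrix.toLin'_apply, Matrix.mulVec_mulVec] using this

lemma gl_surj (x : Matrix.GeneralLinearGroup (Fin n) F) :
    Function.Surjective (Matrix.toLin' (x : Matrix (Fin n) (Fin n) F)) := by
  intro b
  refine ⟨((x⁻¹ : Matrix.GeneralLinearGroup (Fin n) F) : Matrix (Fin n) (Fin n) F).mulVec b, ?_⟩
  simp [Matrix.toLin'_apply, Matrix.mulVec_mulVec]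

lemma finrank_map_gl (x : Matrix.GeneralLinearGroup (Fin n) F) (U : Submodule F (Fin n → F)) :
    Module.finrank F (U.map (Matrix.toLin' (x : Matrix (Fin n) (Fin n) F))) = Module.finrank F U :=
  (LinearEquiv.finrank_eq (Submodule.equivMapOfInjective _ (gl_inj x) U)).symm

lemma fix_comm_bound (g x : Matrix.GeneralLinearGroup (Fin n) F) :
    2 * Module.finrank F (Module.End.eigenspace (Matrix.toLin' (g : Matrix (Fin n) (Fin n) F)) 1) ≤
      Module.finrank F (Module.End.eigenspace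
        (Matrix.toLin' ((⁅g, x⁆ : Matrix.GeneralLinearGroup (Fin n) F) : Matrix (Fin n) (Fin n) F)) 1) + n := by
  set U := Module.End.eigenspace (Matrix.toLin' (g : Matrix (Fin n) (Fin n) F)) 1 with hU
  set W := U.map (Matrix.toLin' (x : Matrix (Fin n) (Fin n) F)) with hW
  have hWU : Module.finrank F W = Module.finrank F U := finrank_map_gl x U
  have hle : U ⊓ W ≤ Module.End.eigenspace
        (Matrix.toLin' ((⁅g, x⁆ : Matrix.GeneralLinearGroup (Fin n) F) : Matrix (Fin n) (Fin n) F)) 1 := by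
    rintro v ⟨hv1, hv2⟩
    obtain ⟨u, hu, rfl⟩ := hv2
    rw [SetLike.mem_coe, hU, mem_fx] at hu hv1
    rw [mem_fx]
    rw [Matrix.toLin'_apply] at hv1 ⊢
    have hu' : ((g⁻¹ : Matrix.GeneralLinearGroup (Fin n) F) : Matrix (Fin n) (Fin n) F).mulVec u = u := by
      conv_lhs => rw [← hu]
      simp [Matrix.mulVec_mulVec]
    rw [commutatorElement_def]
    simp only [Units.val_mul, ← Matrix.mulVec_mulVec]
    have hx : ((x⁻¹ : Matrix.GeneralLinearGroup (Fin n) F) : Matrix (Fin n) (Fin n) F).mulVec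
        ((x : Matrix (Fin n) (Fin n) F).mulVec u) = u := by
      simp [Matrix.mulVec_mulVec]
    rw [hx, hu', hv1]
  have h1 := Submodule.finrank_sup_add_finrank_inf_eq U W
  have h2 : Module.finrank F (U ⊔ W : Submodule F (Fin n → F)) ≤ n := by
    have := Submodule.finrank_le (U ⊔ W)
    simpa using this
  have h3 := Submodule.finrank_mono hle
  omega

/-- double commutant of a subgroup of GL -/
def dc (A : Subgroup (Matrix.GeneralLinearGroup (Fin n) F)) : Subalgebra F (Matrix (Fin n) (Fin n) F) :=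
  Subalgebra.centralizer F ((Subalgebra.centralizer F (Cfsg.Geo.matrixSet A)) : Set (Matrix (Fin n) (Fin n) F))

lemma mem_comm_iff (A : Subgroup (Matrix.GeneralLinearGroup (Fin n) F)) (y : Matrix (Fin n) (Fin n) F) :
    y ∈ Subalgebra.centralizer F (Cfsg.Geo.matrixSet A) ↔
      ∀ a ∈ A, (a : Matrix (Fin n) (Fin n) F) * y = y * (a : Matrix (Fin n) (Fin n) F) := by
  rw [Subalgebra.mem_centralizer_iff]
  constructor
  · intro h a ha
    exact h _ ⟨a, ha, rfl⟩
  · rintro h _ ⟨a, ha, rfl⟩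
    exact h a ha

lemma mem_dc_iff (A : Subgroup (Matrix.GeneralLinearGroup (Fin n) F)) (x : Matrix (Fin n) (Fin n) F) :
    x ∈ dc A ↔ ∀ y : Matrix (Fin n) (Fin n) F,
      (∀ a ∈ A, (a : Matrix (Fin n) (Fin n) F) * y = y * (a : Matrix (Fin n) (Fin n) F)) → y * x = x * y := by
  unfold dc
  rw [Subalgebra.mem_centralizer_iff]
  constructor
  · intro h y hy
    exact h y ((mem_comm_iff A y).mpr hy)
  · intro h y hy
    exact h y ((mem_comm_iff A y).mp hy)

lemma dc_of_mem (A : Subgroup (Matrix.GeneralLinearGroup (Fin n) F)) (a : Matrix.GeneralLinearGroup (Fin n) F)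
    (ha : a ∈ A) : (a : Matrix (Fin n) (Fin n) F) ∈ dc A := by
  rw [mem_dc_iff]
  intro y hy
  exact (hy a ha).symm

lemma dc_comm (A : Subgroup (Matrix.GeneralLinearGroup (Fin n) F))
    (hc : ∀ a ∈ A, ∀ b ∈ A, a * b = b * a) (x y : Matrix (Fin n) (Fin n) F) (hx : x ∈ dc A) (hy : y ∈ dc A) :
    x * y = y * x := by
  rw [mem_dc_iff] at hx hy
  apply hy
  intro a ha
  apply hx
  intro b hb
  have := hc b hb a ha
  have h2 := congrArg (fun u : Matrix.GeneralLinearGroup (Fin n) F => (u : Matrix (Fin n) (Fin n) F)) this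
  simpa using h2

lemma dc_conj (A G : Subgroup (Matrix.GeneralLinearGroup (Fin n) F))
    (hn : ∀ g ∈ G, ∀ a ∈ A, g * a * g⁻¹ ∈ A) (g : Matrix.GeneralLinearGroup (Fin n) F) (hg : g ∈ G)
    (x : Matrix (Fin n) (Fin n) F) (hx : x ∈ dc A) :
    (g : Matrix (Fin n) (Fin n) F) * x * ((g⁻¹ : Matrix.GeneralLinearGroup (Fin n) F) : Matrix (Fin n) (Fin n) F) ∈ dc A := by
  rw [mem_dc_iff] at hx ⊢
  intro y hy
  set gm : Matrix (Fin n) (Fin n) F := (g : Matrix (Fin n) (Fin n) F) with hgm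
  set gi : Matrix (Fin n) (Fin n) F := ((g⁻¹ : Matrix.GeneralLinearGroup (Fin n) F) : Matrix (Fin n) (Fin n) F) with hgi
  have h1 : gm * gi = 1 := by simp [hgm, hgi]
  have h2 : gi * gm = 1 := by simp [hgm, hgi]
  have hy' : ∀ a ∈ A, (a : Matrix (Fin n) (Fin n) F) * (gi * y * gm) = (gi * y * gm) * (a : Matrix (Fin n) (Fin n) F) := by
    intro a ha
    have H := hy _ (hn g hg a ha)
    simp only [Units.val_mul] at H
    change gm * a * gi * y = y * (gm * a * gi) at H
    calc (a : Matrix (Fin n) (Fin n) F) * (gi * y * gm)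
        = (gi * gm) * a * (gi * y * gm) := by rw [h2, one_mul]
      _ = gi * (gm * a * gi * y) * gm := by simp only [mul_assoc]
      _ = gi * (y * (gm * a * gi)) * gm := by rw [H]
      _ = gi * y * gm * a * (gi * gm) := by simp only [mul_assoc]
      _ = (gi * y * gm) * a := by rw [h2, mul_one]
  have H := hx _ hy'
  calc y * (gm * x * gi) = (gm * gi) * y * (gm * x * gi) := by rw [h1, one_mul]
    _ = gm * ((gi * y * gm) * x) * gi := by simp only [mul_assoc]
    _ = gm * (x * (gi * y * gm)) * gi := by rw [H]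
    _ = gm * x * gi * y * (gm * gi) := by simp only [mul_assoc]
    _ = gm * x * gi * y := by rw [h1, mul_one]

lemma mat_ext_mulVec (x y : Matrix (Fin n) (Fin n) F) (h : ∀ v, x.mulVec v = y.mulVec v) : x = y := by
  apply Matrix.toLin'.injective
  refine LinearMap.ext fun v => ?_
  rw [Matrix.toLin'_apply, Matrix.toLin'_apply, h]

lemma minIdem_mul {R : Subalgebra F (Matrix (Fin n) (Fin n) F)} (hRc : ∀ x ∈ R, ∀ y ∈ R, x * y = y * x)
    (e : Matrix (Fin n) (Fin n) F) (heR : e ∈ R) (hee : e * e = e)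
    (hmin : ∀ e' ∈ R, e' * e' = e' → e' ≠ 0 → e.rank ≤ e'.rank)
    (f : Matrix (Fin n) (Fin n) F) (hfR : f ∈ R) (hff : f * f = f) : e * f = 0 ∨ e * f = e := by
  by_cases h0 : e * f = 0
  · exact Or.inl h0
  right
  have hfe : f * e = e * f := hRc f hfR e heR
  have hid : (e * f) * (e * f) = e * f := by
    calc (e * f) * (e * f) = e * (f * e) * f := by simp only [mul_assoc]
      _ = e * (e * f) * f := by rw [hfe]
      _ = (e * e) * (f * f) := by simp only [mul_assoc]
      _ = e * f := by rw [hee, hff]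
  have hr := hmin (e * f) (R.mul_mem heR hfR) hid h0
  have hle : LinearMap.range (e * f).mulVecLin ≤ LinearMap.range e.mulVecLin := by
    rw [Matrix.mulVecLin_mul]
    exact LinearMap.range_comp_le_range _ _
  have heq : LinearMap.range (e * f).mulVecLin = LinearMap.range e.mulVecLin :=
    Submodule.eq_of_le_of_finrank_le hle hr
  have key : (e * f) * e = e := by
    apply mat_ext_mulVec
    intro v
    have hv : e.mulVec v ∈ LinearMap.range (e * f).mulVecLin := by
      rw [heq]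
      exact ⟨v, rfl⟩
    obtain ⟨w, hw⟩ := hv
    rw [Matrix.mulVecLin_apply] at hw
    rw [← Matrix.mulVec_mulVec, ← hw, Matrix.mulVec_mulVec, hid]
  calc e * f = e * e * f := by rw [hee]
    _ = e * (e * f) := by rw [mul_assoc]
    _ = e * (f * e) := by rw [hfe]
    _ = (e * f) * e := by rw [mul_assoc]
    _ = e := key
lemma range_conj (g : Matrix.GeneralLinearGroup (Fin n) F) (x : Matrix (Fin n) (Fin n) F) :
    (LinearMap.range (Matrix.toLin' x)).map (Matrix.toLin' (g : Matrix (Fin n) (Fin n) F)) =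
      LinearMap.range (Matrix.toLin' ((g : Matrix (Fin n) (Fin n) F) * x *
        ((g⁻¹ : Matrix.GeneralLinearGroup (Fin n) F) : Matrix (Fin n) (Fin n) F))) := by
  rw [Matrix.toLin'_mul, Matrix.toLin'_mul,
    LinearMap.range_comp_of_range_eq_top _ (LinearMap.range_eq_top.mpr (gl_surj g⁻¹)), LinearMap.range_comp]

lemma prim_orbit [Fintype F] {G : Subgroup (Matrix.GeneralLinearGroup (Fin n) F)}
    (hirr : Cfsg.Geo.ActsIrreducibly (Cfsg.Geo.matrixSet G))
    (hprim : ∀ (m t : ℕ) (D : Fin t → Submodule F (Fin n → F)), 2 ≤ t → Cfsg.Geo.IsMDecomposition m D →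
      ¬ G ≤ Cfsg.Geo.decompositionStabilizer D)
    (e₀ : Matrix (Fin n) (Fin n) F) (he0 : e₀ ≠ 0) (hee : e₀ * e₀ = e₀)
    (horth : ∀ g ∈ G, ∀ h ∈ G,
      ((g : Matrix (Fin n) (Fin n) F) * e₀ * ((g⁻¹ : Matrix.GeneralLinearGroup (Fin n) F) : Matrix (Fin n) (Fin n) F)) *
      ((h : Matrix (Fin n) (Fin n) F) * e₀ * ((h⁻¹ : Matrix.GeneralLinearGroup (Fin n) F) : Matrix (Fin n) (Fin n) F)) = 0 ∨
      ((g : Matrix (Fin n) (Fin n) F) * e₀ * ((g⁻¹ : Matrix.GeneralLinearGroup (Fin n) F) : Matrix (Fin n) (Fin n) F)) =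
      ((h : Matrix (Fin n) (Fin n) F) * e₀ * ((h⁻¹ : Matrix.GeneralLinearGroup (Fin n) F) : Matrix (Fin n) (Fin n) F))) :
    e₀ = 1 := by
  classical
  let cj : Matrix.GeneralLinearGroup (Fin n) F → Matrix (Fin n) (Fin n) F → Matrix (Fin n) (Fin n) F :=
    fun g x => (g : Matrix (Fin n) (Fin n) F) * x * ((g⁻¹ : Matrix.GeneralLinearGroup (Fin n) F) : Matrix (Fin n) (Fin n) F)
  have cj_mul : ∀ g h x, cj g (cj h x) = cj (g * h) x := by
    intro g h x
    simp only [cj, mul_inv_rev, Units.val_mul, mul_assoc]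
  have cj_one : ∀ x, cj 1 x = x := by
    intro x
    simp [cj]
  let T : Set (Matrix (Fin n) (Fin n) F) := {x | ∃ g ∈ G, x = cj g e₀}
  have hT0 : e₀ ∈ T := ⟨1, G.one_mem, (cj_one _).symm⟩
  have hTcj : ∀ g ∈ G, ∀ x ∈ T, cj g x ∈ T := by
    rintro g hg _ ⟨h, hh, rfl⟩
    exact ⟨g * h, G.mul_mem hg hh, cj_mul g h e₀⟩
  have hTidem : ∀ x ∈ T, x * x = x := by
    rintro _ ⟨g, hg, rfl⟩
    calc cj g e₀ * cj g e₀ = (g : Matrix (Fin n) (Fin n) F) * (e₀ * e₀) *
          ((g⁻¹ : Matrix.GeneralLinearGroup (Fin n) F) : Matrix (Fin n) (Fin n) F) := by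
          simp [cj, mul_assoc]
      _ = cj g e₀ := by rw [hee]
  have hTorth : ∀ x ∈ T, ∀ y ∈ T, x ≠ y → x * y = 0 := by
    rintro _ ⟨g, hg, rfl⟩ _ ⟨h, hh, rfl⟩ hne
    rcases horth g hg h hh with h1 | h1
    · exact h1
    · exact absurd h1 hne
  let rg : Matrix (Fin n) (Fin n) F → Submodule F (Fin n → F) := fun x => LinearMap.range (Matrix.toLin' x)
  have hrg : ∀ (g : Matrix.GeneralLinearGroup (Fin n) F) x, (rg x).map (Matrix.toLin' (g : Matrix (Fin n) (Fin n) F)) = rg (cj g x) :=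
    fun g x => range_conj g x
  have hfinT : Finite T := Finite.of_injective (fun x : T => (x : Matrix (Fin n) (Fin n) F)) Subtype.val_injective
  let t := Nat.card T
  let φ : T ≃ Fin t := Finite.equivFin T
  let D : Fin t → Submodule F (Fin n → F) := fun i => rg (φ.symm i : Matrix (Fin n) (Fin n) F)
  have hDφ : ∀ x : T, D (φ x) = rg (x : Matrix (Fin n) (Fin n) F) := by
    intro x
    simp [D]
  have hmapD : ∀ g (hg : g ∈ G) (i : Fin t), (D i).map (Matrix.toLin' (g : Matrix (Fin n) (Fin n) F)) =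
      D (φ ⟨cj g (φ.symm i : Matrix (Fin n) (Fin n) F), hTcj g hg _ (φ.symm i).2⟩) := by
    intro g hg i
    rw [hDφ]
    exact hrg g _
  have hrg0 : rg e₀ ≠ ⊥ := by
    intro h
    apply he0
    apply mat_ext_mulVec
    intro v
    have : Matrix.toLin' e₀ v ∈ rg e₀ := ⟨v, rfl⟩
    rw [h, Submodule.mem_bot, Matrix.toLin'_apply] at this
    simp [this]
  have htop : iSup D = ⊤ := by
    have hinv : ∀ s ∈ Cfsg.Geo.matrixSet G, (iSup D).map (Matrix.toLin' s) ≤ iSup D := by
      rintro _ ⟨g, hg, rfl⟩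
      rw [Submodule.map_iSup]
      apply iSup_le
      intro i
      change (D i).map (Matrix.toLin' (g : Matrix (Fin n) (Fin n) F)) ≤ _
      rw [hmapD g hg i]
      exact le_iSup D _
    rcases hirr _ hinv with h | h
    · exfalso
      apply hrg0
      have h1 : rg e₀ ≤ iSup D := by
        rw [← hDφ ⟨e₀, hT0⟩]
        exact le_iSup D _
      rw [h] at h1
      exact le_bot_iff.mp h1
    · exact h
  have hfr : ∀ i, Module.finrank F (D i) = Module.finrank F (rg e₀) := by
    intro i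
    obtain ⟨g, hg, hx⟩ := (φ.symm i).2
    change Module.finrank F (rg (φ.symm i : Matrix (Fin n) (Fin n) F)) = _
    rw [hx, ← hrg]
    exact finrank_map_gl g _
  have hindep : iSupIndep D := by
    rw [iSupIndep_def]
    intro i
    have h1 : (⨆ (j) (_ : j ≠ i), D j) ≤ LinearMap.ker (Matrix.toLin' (φ.symm i : Matrix (Fin n) (Fin n) F)) := by
      apply iSup₂_le
      rintro j hj _ ⟨w, rfl⟩
      rw [LinearMap.mem_ker, Matrix.toLin'_apply, Matrix.toLin'_apply, Matrix.mulVec_mulVec]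
      have hne : (φ.symm i : Matrix (Fin n) (Fin n) F) ≠ (φ.symm j : Matrix (Fin n) (Fin n) F) := by
        intro h
        exact hj (φ.symm.injective (Subtype.ext h)).symm
      rw [hTorth _ (φ.symm i).2 _ (φ.symm j).2 hne]
      simp
    rw [Submodule.disjoint_def]
    rintro v ⟨w, rfl⟩ hv
    have h2 := h1 hv
    rw [LinearMap.mem_ker, Matrix.toLin'_apply, Matrix.toLin'_apply, Matrix.mulVec_mulVec,
      hTidem _ (φ.symm i).2] at h2
    rw [Matrix.toLin'_apply]
    exact h2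
  by_cases ht : 2 ≤ t
  · exfalso
    refine hprim (Module.finrank F (rg e₀)) t D ht ⟨ht, ?_, hfr, hindep, htop⟩ ?_
    · exact Module.finrank_pos_iff_exists_ne_zero.mpr (by
        obtain ⟨v, hv, hv0⟩ := (Submodule.ne_bot_iff _).mp hrg0
        exact ⟨⟨v, hv⟩, fun h => hv0 (congrArg Subtype.val h)⟩)
    · intro g hg
      let pT : Equiv.Perm T :=
        { toFun := fun x => ⟨cj g x, hTcj g hg x x.2⟩
          invFun := fun x => ⟨cj g⁻¹ x, hTcj g⁻¹ (G.inv_mem hg) x x.2⟩
          left_inv := by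
            intro x
            apply Subtype.ext
            change cj g⁻¹ (cj g x) = x
            rw [cj_mul, inv_mul_cancel, cj_one]
          right_inv := by
            intro x
            apply Subtype.ext
            change cj g (cj g⁻¹ x) = x
            rw [cj_mul, mul_inv_cancel, cj_one] }
      refine ⟨φ.symm.trans (pT.trans φ), fun i => ?_⟩
      rw [hmapD g hg i]
      rfl
  · have hsub : ∀ x ∈ T, x = e₀ := by
      intro x hx
      have h1 : Nat.card T ≤ 1 := by
        change t ≤ 1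
        omega
      have h2 : Subsingleton T := (Finite.card_le_one_iff_subsingleton).mp h1
      exact congrArg Subtype.val (Subsingleton.elim (⟨x, hx⟩ : T) ⟨e₀, hT0⟩)
    have hD : ∀ i, D i = rg e₀ := by
      intro i
      change rg (φ.symm i : Matrix (Fin n) (Fin n) F) = _
      rw [hsub _ (φ.symm i).2]
    have h3 : rg e₀ = ⊤ := by
      apply top_le_iff.mp
      rw [← htop]
      apply iSup_le
      intro i
      rw [hD i]
    apply mat_ext_mulVec
    intro v
    have hv : v ∈ rg e₀ := h3 ▸ Submodule.mem_top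
    obtain ⟨w, rfl⟩ := hv
    rw [Matrix.toLin'_apply, Matrix.mulVec_mulVec, hee, Matrix.one_mulVec]

lemma exists_idem_pow {M : Type*} [Monoid M] [Finite M] (r : M) : ∃ N, 0 < N ∧ r ^ N * r ^ N = r ^ N := by
  obtain ⟨i, j, hij, h⟩ : ∃ i j : ℕ, i < j ∧ r ^ i = r ^ j := by
    obtain ⟨i, j, hij, h⟩ := Finite.exists_ne_map_eq_of_infinite (fun k : ℕ => r ^ k)
    rcases lt_or_gt_of_ne hij with h1 | h1
    · exact ⟨i, j, h1, h⟩
    · exact ⟨j, i, h1, h.symm⟩
  obtain ⟨d, rfl⟩ : ∃ d, j = i + d := ⟨j - i, by omega⟩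
  have hd : 0 < d := by omega
  have hper : ∀ m, i ≤ m → r ^ (m + d) = r ^ m := by
    intro m hm
    obtain ⟨c, rfl⟩ : ∃ c, m = i + c := ⟨m - i, by omega⟩
    calc r ^ (i + c + d) = r ^ (i + d) * r ^ c := by rw [← pow_add]; congr 1; omega
      _ = r ^ i * r ^ c := by rw [← h]
      _ = r ^ (i + c) := by rw [← pow_add]
  have hper2 : ∀ k m, i ≤ m → r ^ (m + k * d) = r ^ m := by
    intro k
    induction k with
    | zero => intro m _; simp
    | succ k ih =>
      intro m hm
      have : m + (k + 1) * d = (m + k * d) + d := by ring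
      rw [this, hper _ (by omega), ih m hm]
  refine ⟨(i + 1) * d, by positivity, ?_⟩
  rw [← pow_add]
  apply hper2
  nlinarith

lemma rank_conj (g : Matrix.GeneralLinearGroup (Fin n) F) (x : Matrix (Fin n) (Fin n) F) :
    ((g : Matrix (Fin n) (Fin n) F) * x *
        ((g⁻¹ : Matrix.GeneralLinearGroup (Fin n) F) : Matrix (Fin n) (Fin n) F)).rank = x.rank := by
  have h := range_conj g x
  have h2 := finrank_map_gl g (LinearMap.range (Matrix.toLin' x))
  rw [h] at h2
  exact h2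

lemma nilp_mul_min {R : Subalgebra F (Matrix (Fin n) (Fin n) F)} (hRc : ∀ x ∈ R, ∀ y ∈ R, x * y = y * x)
    (y : Matrix (Fin n) (Fin n) F) (hyR : y ∈ R) (hy0 : y ≠ 0)
    (hmin : ∀ y' ∈ R, y' ≠ 0 → y.rank ≤ y'.rank)
    (x : Matrix (Fin n) (Fin n) F) (hxR : x ∈ R) (N : ℕ) (hx : x ^ N = 0) : x * y = 0 := by
  by_contra h0
  have hr := hmin (x * y) (R.mul_mem hxR hyR) h0
  have hle : LinearMap.range (x * y).mulVecLin ≤ LinearMap.range y.mulVecLin := by
    rw [hRc x hxR y hyR, Matrix.mulVecLin_mul]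
    exact LinearMap.range_comp_le_range _ _
  have heq : LinearMap.range (x * y).mulVecLin = LinearMap.range y.mulVecLin :=
    Submodule.eq_of_le_of_finrank_le hle hr
  have hall : ∀ k : ℕ, LinearMap.range (x ^ k * y).mulVecLin = LinearMap.range y.mulVecLin := by
    intro k
    induction k with
    | zero => simp
    | succ k ih =>
      rw [pow_succ, mul_assoc, Matrix.mulVecLin_mul, LinearMap.range_comp, heq, ← LinearMap.range_comp,
        ← Matrix.mulVecLin_mul, ih]
  have h1 := hall N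
  rw [hx, zero_mul] at h1
  apply hy0
  apply mat_ext_mulVec
  intro v
  have hv : y.mulVecLin v ∈ LinearMap.range y.mulVecLin := ⟨v, rfl⟩
  rw [← h1] at hv
  obtain ⟨w, hw⟩ := hv
  simp only [Matrix.mulVecLin_apply, Matrix.zero_mulVec] at hw
  rw [← hw, Matrix.zero_mulVec]

lemma fpf_of_abelian_normal [Fintype F] {G A : Subgroup (Matrix.GeneralLinearGroup (Fin n) F)}
    (hirr : Cfsg.Geo.ActsIrreducibly (Cfsg.Geo.matrixSet G))
    (hprim : ∀ (m t : ℕ) (D : Fin t → Submodule F (Fin n → F)), 2 ≤ t → Cfsg.Geo.IsMDecomposition m D →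
      ¬ G ≤ Cfsg.Geo.decompositionStabilizer D)
    (hn : ∀ g ∈ G, ∀ a ∈ A, g * a * g⁻¹ ∈ A) (hc : ∀ a ∈ A, ∀ b ∈ A, a * b = b * a)
    (z : Matrix.GeneralLinearGroup (Fin n) F) (hz : z ∈ A) (hz1 : z ≠ 1) :
    Module.End.eigenspace (Matrix.toLin' (z : Matrix (Fin n) (Fin n) F)) 1 = ⊥ := by
  classical
  have h10 : (1 : Matrix (Fin n) (Fin n) F) ≠ 0 := by
    intro h
    apply hz1
    apply Units.ext
    calc (z : Matrix (Fin n) (Fin n) F) = z * 1 := (mul_one _).symm
      _ = 0 := by rw [h, mul_zero]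
      _ = 1 := h.symm
  have hRc := dc_comm A hc
  have hRc' : ∀ x ∈ dc A, ∀ y ∈ dc A, x * y = y * x := fun x hx y hy => hRc x y hx hy
  obtain ⟨e₀, ⟨he₀R, he₀i, he₀0⟩, he₀min⟩ := Set.exists_min_image
    {e : Matrix (Fin n) (Fin n) F | e ∈ dc A ∧ e * e = e ∧ e ≠ 0} Matrix.rank (Set.toFinite _)
    ⟨1, (dc A).one_mem, one_mul 1, h10⟩
  have hmin : ∀ g : Matrix.GeneralLinearGroup (Fin n) F, ∀ e' ∈ dc A, e' * e' = e' → e' ≠ 0 →
      ((g : Matrix (Fin n) (Fin n) F) * e₀ *
        ((g⁻¹ : Matrix.GeneralLinearGroup (Fin n) F) : Matrix (Fin n) (Fin n) F)).rank ≤ e'.rank := by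
    intro g e' h1 h2 h3
    rw [rank_conj]
    exact he₀min e' ⟨h1, h2, h3⟩
  have hidem : ∀ g : Matrix.GeneralLinearGroup (Fin n) F,
      ((g : Matrix (Fin n) (Fin n) F) * e₀ * ((g⁻¹ : Matrix.GeneralLinearGroup (Fin n) F) : Matrix (Fin n) (Fin n) F)) *
      ((g : Matrix (Fin n) (Fin n) F) * e₀ * ((g⁻¹ : Matrix.GeneralLinearGroup (Fin n) F) : Matrix (Fin n) (Fin n) F)) =
      ((g : Matrix (Fin n) (Fin n) F) * e₀ * ((g⁻¹ : Matrix.GeneralLinearGroup (Fin n) F) : Matrix (Fin n) (Fin n) F)) := by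
    intro g
    have := Units.conj_pow g e₀ 2
    rw [pow_two, pow_two, he₀i] at this
    exact this
  have he₀1 : e₀ = 1 := by
    apply prim_orbit hirr hprim e₀ he₀0 he₀i
    intro g hg h hh
    have hgR := dc_conj A G hn g hg e₀ he₀R
    have hhR := dc_conj A G hn h hh e₀ he₀R
    rcases minIdem_mul hRc' _ hgR (hidem g) (hmin g) _ hhR (hidem h) with h1 | h1
    · exact Or.inl h1
    · rcases minIdem_mul hRc' _ hhR (hidem h) (hmin h) _ hgR (hidem g) with h2 | h2
      · left
        rw [hRc' _ hgR _ hhR, h2]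
      · right
        rw [← h1, hRc' _ hgR _ hhR, h2]
  have htriv : ∀ f ∈ dc A, f * f = f → f = 0 ∨ f = 1 := by
    intro f hf hff
    have := minIdem_mul hRc' e₀ he₀R he₀i (fun e' h1 h2 h3 => he₀min e' ⟨h1, h2, h3⟩) f hf hff
    rwa [he₀1, one_mul] at this
  set r : Matrix (Fin n) (Fin n) F := (z : Matrix (Fin n) (Fin n) F) - 1 with hr
  have hrR : r ∈ dc A := (dc A).sub_mem (dc_of_mem A z hz) (dc A).one_mem
  obtain ⟨N, hN, hNi⟩ := exists_idem_pow r
  rcases htriv (r ^ N) ((dc A).pow_mem hrR N) hNi with h0 | h1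
  · exfalso
    obtain ⟨y, ⟨hyR, hy0⟩, hymin⟩ := Set.exists_min_image
      {y : Matrix (Fin n) (Fin n) F | y ∈ dc A ∧ y ≠ 0} Matrix.rank (Set.toFinite _)
      ⟨1, (dc A).one_mem, h10⟩
    let V₀ : Submodule F (Fin n → F) := ⨅ g : G, LinearMap.ker (Matrix.toLin'
      (((g : Matrix.GeneralLinearGroup (Fin n) F) : Matrix (Fin n) (Fin n) F) * r *
        (((g : Matrix.GeneralLinearGroup (Fin n) F)⁻¹ : Matrix.GeneralLinearGroup (Fin n) F) : Matrix (Fin n) (Fin n) F)))
    have hV₀ : ∀ v, v ∈ V₀ ↔ ∀ g ∈ G, ((g : Matrix (Fin n) (Fin n) F) * r *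
        ((g⁻¹ : Matrix.GeneralLinearGroup (Fin n) F) : Matrix (Fin n) (Fin n) F)).mulVec v = 0 := by
      intro v
      simp only [V₀, Submodule.mem_iInf, LinearMap.mem_ker, Matrix.toLin'_apply, Subtype.forall]
    have hinv : ∀ s ∈ Cfsg.Geo.matrixSet G, V₀.map (Matrix.toLin' s) ≤ V₀ := by
      rintro _ ⟨h, hh, rfl⟩ _ ⟨v, hv, rfl⟩
      rw [SetLike.mem_coe, hV₀] at hv
      rw [hV₀]
      intro g hg
      have h1 := hv (h⁻¹ * g) (G.mul_mem (G.inv_mem hh) hg)
      have h2 : ((g : Matrix (Fin n) (Fin n) F) * r *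
          ((g⁻¹ : Matrix.GeneralLinearGroup (Fin n) F) : Matrix (Fin n) (Fin n) F)) * (h : Matrix (Fin n) (Fin n) F) =
          (h : Matrix (Fin n) (Fin n) F) * (((h⁻¹ * g : Matrix.GeneralLinearGroup (Fin n) F) : Matrix (Fin n) (Fin n) F) * r *
          (((h⁻¹ * g)⁻¹ : Matrix.GeneralLinearGroup (Fin n) F) : Matrix (Fin n) (Fin n) F)) := by
        simp only [mul_inv_rev, inv_inv, Units.val_mul, ← mul_assoc, Units.mul_inv, one_mul]
      change (_ : Matrix (Fin n) (Fin n) F).mulVec (Matrix.toLin' (h : Matrix (Fin n) (Fin n) F) v) = 0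
      rw [Matrix.toLin'_apply, Matrix.mulVec_mulVec, h2, ← Matrix.mulVec_mulVec, h1, Matrix.mulVec_zero]
    have hyV : LinearMap.range (Matrix.toLin' y) ≤ V₀ := by
      rintro _ ⟨w, rfl⟩
      rw [hV₀]
      intro g hg
      rw [Matrix.toLin'_apply, Matrix.mulVec_mulVec,
        nilp_mul_min hRc' y hyR hy0 (fun y' h1 h2 => hymin y' ⟨h1, h2⟩) _ (dc_conj A G hn g hg r hrR) N
          (by rw [Units.conj_pow, h0]; simp), Matrix.zero_mulVec]
    rcases hirr V₀ hinv with hb | ht
    · apply hy0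
      apply mat_ext_mulVec
      intro v
      have : Matrix.toLin' y v ∈ V₀ := hyV ⟨v, rfl⟩
      rw [hb, Submodule.mem_bot, Matrix.toLin'_apply] at this
      rw [this, Matrix.zero_mulVec]
    · apply hz1
      apply Units.ext
      have hr0 : r = 0 := by
        apply mat_ext_mulVec
        intro v
        have hv : v ∈ V₀ := ht ▸ Submodule.mem_top
        have := (hV₀ v).mp hv 1 G.one_mem
        simpa using this
      rw [hr, sub_eq_zero] at hr0
      simpa using hr0
  · rw [Submodule.eq_bot_iff]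
    intro v hv
    rw [mem_fx] at hv
    have hrv : r.mulVec v = 0 := by
      rw [hr, Matrix.sub_mulVec, hv, Matrix.one_mulVec, sub_self]
    obtain ⟨k, rfl⟩ : ∃ k, N = k + 1 := ⟨N - 1, by omega⟩
    have : (r ^ (k + 1)).mulVec v = 0 := by
      rw [pow_succ, ← Matrix.mulVec_mulVec, hrv, Matrix.mulVec_zero]
    rw [h1, Matrix.one_mulVec] at this
    exact this

end


/-- Fixed-point spaces in primitive soluble linear groups. Let F be a finite field and G a soluble subgroup of GL_n(F) that acts irreducibly on F^n and primitively (G preserves no decomposition of F^n into two or more independent subspaces of equal dimension). Then every non-identity element g of G has fixed-point space {v : g v = v} of dimension at most 3n/4. -/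
theorem result {F : Type*} [Field F] [Fintype F] {n : ℕ} (G : Subgroup (Matrix.GeneralLinearGroup (Fin n) F)) (hsol : IsSolvable G) (hirr : Cfsg.Geo.ActsIrreducibly (Cfsg.Geo.matrixSet G)) (hprim : ∀ (m t : ℕ) (D : Fin t → Submodule F (Fin n → F)), 2 ≤ t → Cfsg.Geo.IsMDecomposition m D → ¬ G ≤ Cfsg.Geo.decompositionStabilizer D) (g : Matrix.GeneralLinearGroup (Fin n) F) (hg : g ∈ G) (hg1 : g ≠ 1) :
    4 * Module.finrank F (Module.End.eigenspace (Matrix.toLin' (g : Matrix (Fin n) (Fin n) F)) 1) ≤ 3 * n := by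
  have hsol' : Group.IsSolvable G := hsol
  obtain ⟨A, hAn, hAc, hcases⟩ := solvable_chain (⟨g, hg⟩ : G)
  have hn : ∀ x ∈ G, ∀ a ∈ A.map G.subtype, x * a * x⁻¹ ∈ A.map G.subtype := by
    rintro x hx _ ⟨a, ha, rfl⟩
    have h1 : (⟨x, hx⟩ : G) * a * (⟨x, hx⟩ : G)⁻¹ ∈ A := hAn.conj_mem a ha ⟨x, hx⟩
    refine ⟨(⟨x, hx⟩ : G) * a * (⟨x, hx⟩ : G)⁻¹, h1, ?_⟩
    simp only [map_mul, map_inv, Subgroup.subtype_apply]
  have hc : ∀ a ∈ A.map G.subtype, ∀ b ∈ A.map G.subtype, a * b = b * a := by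
    rintro _ ⟨a, ha, rfl⟩ _ ⟨b, hb, rfl⟩
    rw [← map_mul, ← map_mul, hAc a ha b hb]
  have hfpf : ∀ z : G, z ∈ A → z ≠ 1 →
      Module.End.eigenspace (Matrix.toLin' ((z : Matrix.GeneralLinearGroup (Fin n) F) : Matrix (Fin n) (Fin n) F)) 1 = ⊥ :=
    fun z hz hz1 => fpf_of_abelian_normal hirr hprim hn hc z ⟨z, hz, rfl⟩ (fun h => hz1 (Subtype.ext h))
  have hcoe : ∀ a b : G, ((⁅a, b⁆ : G) : Matrix.GeneralLinearGroup (Fin n) F) =
      ⁅(a : Matrix.GeneralLinearGroup (Fin n) F), (b : Matrix.GeneralLinearGroup (Fin n) F)⁆ := by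
    intro a b
    simp only [commutatorElement_def, Subgroup.coe_mul, Subgroup.coe_inv]
  rcases hcases with h | ⟨x, hx1, hxA⟩ | ⟨x, w, hw1, hwA⟩
  · have h0 := hfpf ⟨g, hg⟩ h (fun h' => hg1 (congrArg Subtype.val h'))
    rw [h0, finrank_bot]
    omega
  · have b := fix_comm_bound g (x : Matrix.GeneralLinearGroup (Fin n) F)
    have h0 := hfpf _ hxA hx1
    rw [hcoe] at h0
    rw [h0, finrank_bot] at b
    omega
  · have b1 := fix_comm_bound g (x : Matrix.GeneralLinearGroup (Fin n) F)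
    have b2 := fix_comm_bound ⁅g, (x : Matrix.GeneralLinearGroup (Fin n) F)⁆ (w : Matrix.GeneralLinearGroup (Fin n) F)
    have h0 := hfpf _ hwA hw1
    rw [hcoe, hcoe] at h0
    rw [h0, finrank_bot] at b2
    omega

end Cfsg.Agent.S5876
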