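import Cfsg.Statements.S5944
-- import your own Cfsg.Agent.* helpers here

set_option autoImplicit false
open Cfsg

namespace Cfsg.Agent.S5944

open Equiv Equiv.Perm in
theorem general {α : Type*} [Fintype α] [DecidableEq α] (hn : Fintype.card α ≠ 4)
    (H : Subgroup (Perm α)) (hH : H ≠ ⊤) (hA : H ≠ alternatingGroup α) :
    Fintype.card α ≤ H.index := by
  by_contra hlt
  push Not at hlt
  have h0 : H.index ≠ 0 := Subgroup.index_ne_zero_of_finite
  have h1 : H.index ≠ 1 := fun h => hH (Subgroup.index_eq_one.mp h)
  have h2 : H.index ≠ 2 := fun h => hA (eq_alternatingGroup_of_index_eq_two h)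
  have h5 : 5 ≤ Fintype.card α := by omega
  have hsimple : IsSimpleGroup (alternatingGroup α) :=
    alternatingGroup.isSimpleGroup (by rwa [Nat.card_eq_fintype_card])
  have hdvd : H.normalCore.index ∣ H.index.factorial := by
    rw [Subgroup.normalCore_eq_ker, Subgroup.index_ker, Subgroup.index_eq_card, ← Nat.card_perm]
    exact Subgroup.card_subgroup_dvd_card (MulAction.toPermHom (Perm α) (Perm α ⧸ H)).range
  have hnorm : (H.normalCore.subgroupOf (alternatingGroup α)).Normal := inferInstance
  rcases hnorm.eq_bot_or_eq_top with hb | ht
  · -- the core meets the alternating group trivially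
    have hdisj : Disjoint H.normalCore (alternatingGroup α) := Subgroup.subgroupOf_eq_bot.mp hb
    have hinj : Function.Injective ((sign : Perm α →* ℤˣ).comp H.normalCore.subtype) := by
      rw [injective_iff_map_eq_one]
      intro x hx
      have hx' : (x : Perm α) ∈ H.normalCore ⊓ alternatingGroup α := ⟨x.2, hx⟩
      rw [hdisj.eq_bot, Subgroup.mem_bot] at hx'
      exact Subtype.ext hx'
    have hcard : Nat.card H.normalCore ≤ 2 := by
      have := Nat.card_le_card_of_injective _ hinj
      simpa using this
    have hmul := H.normalCore.card_mul_index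
    rw [Nat.card_eq_fintype_card (α := Perm α), Fintype.card_perm] at hmul
    have hle : H.normalCore.index ≤ H.index.factorial :=
      Nat.le_of_dvd (Nat.factorial_pos _) hdvd
    have hle2 : H.index.factorial ≤ (Fintype.card α - 1).factorial :=
      Nat.factorial_le (by omega)
    have hfac : (Fintype.card α).factorial = Fintype.card α * (Fintype.card α - 1).factorial :=
      (Nat.mul_factorial_pred (by omega)).symm
    have hpos : 0 < (Fintype.card α - 1).factorial := Nat.factorial_pos _
    have : (Fintype.card α).factorial ≤ 2 * (Fintype.card α - 1).factorial := by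
      rw [← hmul]
      exact Nat.mul_le_mul hcard (hle.trans hle2)
    rw [hfac] at this
    have := Nat.le_of_mul_le_mul_right this hpos
    omega
  · have hle : alternatingGroup α ≤ H :=
      (Subgroup.subgroupOf_eq_top.mp ht).trans H.normalCore_le
    have := Subgroup.index_dvd_of_le hle
    have hnt : Nontrivial α := Fintype.one_lt_card_iff_nontrivial.mp (by omega)
    rw [alternatingGroup.index_eq_two] at this
    have := Nat.le_of_dvd (by norm_num) this
    omega

/-- For n ≠ 4, every proper subgroup of the symmetric group S_n other than the alternating group A_n has index at least n. -/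
theorem result (n : ℕ) (hn : n ≠ 4) (H : Subgroup (Equiv.Perm (Fin n))) (hH : H ≠ ⊤) (hA : H ≠ alternatingGroup (Fin n)) : n ≤ H.index := by
  have := general (α := Fin n) (by simpa using hn) H hH hA
  simpa using this

end Cfsg.Agent.S5944
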