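import Cfsg.Statements.S5945
-- import your own Cfsg.Agent.* helpers here
import Cfsg.Agent.Lib.Helper98.IndexSix

set_option autoImplicit false
open Cfsg

namespace Cfsg.Agent.S5945

/-- The symmetric group S_6 has exactly 12 subgroups of index 6; each of them is isomorphic to S_5, and at least one of them is not the stabilizer of any point. -/
theorem result : Nat.card {H : Subgroup (Equiv.Perm (Fin 6)) // H.index = 6} = 12 ∧ (∀ H : Subgroup (Equiv.Perm (Fin 6)), H.index = 6 → Nonempty (H ≃* Equiv.Perm (Fin 5))) ∧ ∃ H : Subgroup (Equiv.Perm (Fin 6)), H.index = 6 ∧ ∀ a : Fin 6, H ≠ MulAction.stabilizer (Equiv.Perm (Fin 6)) a := by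
  have h6 : Fintype.card (Fin 6) = 6 := Fintype.card_fin 6
  refine ⟨Cfsg.Agent.Lib.Helper98.card_index_six h6, ?_, ?_⟩
  · intro H hH
    exact Cfsg.Agent.Lib.Helper98.nonempty_mulEquiv_of_index (by omega) H (by omega) 5 h6
  · obtain ⟨H₂, hH₂, hex⟩ := Cfsg.Agent.Lib.Helper98.exists_exotic h6
    exact ⟨H₂, hH₂, fun a h => hex a h.le⟩

end Cfsg.Agent.S5945
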