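import Cfsg.Statements.S5952
-- import your own Cfsg.Agent.* helpers here

set_option autoImplicit false
open Cfsg

namespace Cfsg.Agent.S5952

open Module Submodule in
lemma exists_le_finrank_eq {F V : Type*} [Field F] [AddCommGroup V] [Module F V] [FiniteDimensional F V]
    (C : Submodule F V) (k : ℕ) (hk : k ≤ finrank F C) : ∃ C' : Submodule F V, C' ≤ C ∧ finrank F C' = k := by
  classical
  let b := Module.finBasis F C
  let v : Fin k → V := fun i => (b (Fin.castLE hk i) : V)
  have hli : LinearIndependent F v := by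
    have h1 := b.linearIndependent.comp (Fin.castLE hk) (Fin.castLE_injective hk)
    exact h1.map' C.subtype (Submodule.ker_subtype C)
  refine ⟨span F (Set.range v), ?_, ?_⟩
  · rw [span_le]
    rintro _ ⟨i, rfl⟩
    exact (b (Fin.castLE hk i)).2
  · rw [finrank_span_eq_card hli, Fintype.card_fin]

open Module Submodule in
lemma finrank_eq_of_le_sup {F V : Type*} [Field F] [AddCommGroup V] [Module F V] [FiniteDimensional F V]
    (D S N : Submodule F V) (hSN : S ⊓ N = ⊥) (hD : D ≤ S ⊔ N) :
    finrank F D = finrank F ↥(D ⊓ S) + finrank F ↥((S ⊔ D) ⊓ N) := by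
  have h1 : S ⊔ D = S ⊔ (S ⊔ D) ⊓ N := by
    have h2 := sup_inf_assoc_of_le N (le_sup_left : S ≤ S ⊔ D)
    rw [inf_comm (S ⊔ D) N, ← h2]
    exact (inf_eq_right.2 (sup_le le_sup_left hD)).symm
  have h3 := Submodule.finrank_sup_add_finrank_inf_eq S D
  have h4 := Submodule.finrank_sup_add_finrank_inf_eq S ((S ⊔ D) ⊓ N)
  have h5 : S ⊓ ((S ⊔ D) ⊓ N) = ⊥ := by
    apply le_bot_iff.1
    rw [← hSN]
    exact inf_le_inf_left S inf_le_right
  rw [h5, finrank_bot, ← h1] at h4
  rw [inf_comm S D] at h3
  omega

/-- Which dimensions of invariant subspaces a semisimple linear map has. Let `V` be a finite-dimensional vector space over a field `F` and `f` an invertible semisimple linear map of `V`. Suppose `V` is the internal direct sum of the fixed space `C_V(f)` (the eigenspace for 1) and subspaces `U_1, …, U_s`, each `f`-invariant of dimension `a ≥ 1` on which `f` acts irreducibly (no `f`-invariant subspaces other than 0 and `U_j`). Let `0 < m < dim V` and `ℓ = m mod a`. Then `f` leaves some `m`-dimensional subspace invariant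 if and only if `dim C_V(f) ≥ m`, or `a ≤ m` and `dim C_V(f) ≥ ℓ`. -/
theorem result {F V : Type*} [Field F] [AddCommGroup V] [Module F V]
    [FiniteDimensional F V] (f : V →ₗ[F] V) (hf : Function.Bijective f) (hss : Module.End.IsSemisimple f)
    {s a : ℕ} (ha : 1 ≤ a) (U : Fin s → Submodule F V)
    (hUinv : ∀ j, (U j).map f ≤ U j) (hUdim : ∀ j, Module.finrank F ↥(U j) = a)
    (hUirr : ∀ j, ∀ W : Submodule F V, W ≤ U j → W.map f ≤ W → W = ⊥ ∨ W = U j)
    (hdec : DirectSum.IsInternal (fun o : Option (Fin s) => o.elim (Module.End.eigenspace f 1) U))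
    (m : ℕ) (hm : 0 < m) (hmV : m < Module.finrank F V) :
    (∃ W : Submodule F V, Module.finrank F ↥W = m ∧ W.map f ≤ W) ↔
    (m ≤ Module.finrank F ↥(Module.End.eigenspace f 1) ∨
      (a ≤ m ∧ m % a ≤ Module.finrank F ↥(Module.End.eigenspace f 1))) := by
  classical
  set C := Module.End.eigenspace f 1 with hC
  have hind := hdec.submodule_iSupIndep
  have htop := hdec.submodule_iSup_eq_top
  let S : ℕ → Submodule F V := fun k => ⨆ j : Fin s, ⨆ (_ : j.val < k), U j
  have hSle : ∀ k (j : Fin s), j.val < k → U j ≤ S k := fun k j hj => le_iSup₂_of_le j hj le_rfl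
  have hSmono : ∀ k l, k ≤ l → S k ≤ S l := by
    intro k l hkl
    exact iSup₂_le (fun j hj => hSle l j (by omega))
  have hS0 : S 0 = ⊥ := by
    apply le_bot_iff.1
    exact iSup₂_le (fun j hj => absurd hj (by omega))
  have hSsucc : ∀ k (hk : k < s), S (k + 1) = S k ⊔ U ⟨k, hk⟩ := by
    intro k hk
    apply le_antisymm
    · apply iSup₂_le
      intro j hj
      rcases Nat.lt_or_ge j.val k with h | h
      · exact le_sup_of_le_left (hSle k j h)
      · have : j = ⟨k, hk⟩ := Fin.ext (by simp; omega)
        rw [this]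
        exact le_sup_right
    · exact sup_le (hSmono _ _ (by omega)) (hSle _ _ (by simp))
  have hSU : ∀ k (hk : k < s), S k ⊓ U ⟨k, hk⟩ = ⊥ := by
    intro k hk
    have h1 := (hind (some ⟨k, hk⟩)).symm
    rw [disjoint_iff] at h1
    apply le_bot_iff.1
    rw [← h1]
    apply inf_le_inf _ le_rfl
    apply iSup₂_le
    intro j hj
    refine le_iSup₂_of_le (some j) ?_ le_rfl
    intro h
    have := Option.some.inj h
    rw [this] at hj
    simp at hj
  have hSC : S s ⊓ C = ⊥ := by
    have h1 := (hind none).symm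
    rw [disjoint_iff] at h1
    apply le_bot_iff.1
    rw [← h1]
    apply inf_le_inf _ le_rfl
    apply iSup₂_le
    intro j hj
    exact le_iSup₂_of_le (some j) (by simp) le_rfl
  have hSCtop : S s ⊔ C = ⊤ := by
    apply top_le_iff.1
    rw [← htop]
    apply iSup_le
    rintro (_ | j)
    · exact le_sup_right
    · exact le_sup_of_le_left (hSle s j j.2)
  have hSinv : ∀ k, (S k).map f ≤ S k := by
    intro k
    simp only [S, Submodule.map_iSup]
    exact iSup₂_le (fun j hj => (hUinv j).trans (hSle k j hj))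
  have hSdim : ∀ k, k ≤ s → Module.finrank F (S k) = k * a := by
    intro k
    induction k with
    | zero => intro _; rw [hS0]; simp
    | succ k ih =>
      intro hk
      have h1 := Submodule.finrank_sup_add_finrank_inf_eq (S k) (U ⟨k, hk⟩)
      rw [hSU, finrank_bot, ← hSsucc, ih (by omega), hUdim] at h1
      rw [add_zero] at h1
      rw [h1]; ring
  have hVdim : Module.finrank F V = s * a + Module.finrank F C := by
    have h1 := Submodule.finrank_sup_add_finrank_inf_eq (S s) C
    rw [hSC, hSCtop, finrank_bot, finrank_top, hSdim s le_rfl] at h1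
    omega
  constructor
  · rintro ⟨W, hWm, hWinv⟩
    have hdvd : ∀ k, k ≤ s → a ∣ Module.finrank F ↥(W ⊓ S k) := by
      intro k
      induction k with
      | zero => intro _; rw [hS0, inf_bot_eq, finrank_bot]; exact dvd_zero a
      | succ k ih =>
        intro hk
        have h1 := finrank_eq_of_le_sup (W ⊓ S (k + 1)) (S k) (U ⟨k, hk⟩) (hSU k hk)
          (by rw [← hSsucc]; exact inf_le_right)
        have h2 : W ⊓ S (k + 1) ⊓ S k = W ⊓ S k := by
          rw [inf_assoc, inf_eq_right.2 (hSmono k (k + 1) (by omega))]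
        rw [h2] at h1
        have h3 : ((S k ⊔ W ⊓ S (k + 1)) ⊓ U ⟨k, hk⟩).map f ≤ (S k ⊔ W ⊓ S (k + 1)) ⊓ U ⟨k, hk⟩ := by
          refine (Submodule.map_inf_le f).trans (inf_le_inf ?_ (hUinv _))
          rw [Submodule.map_sup]
          refine sup_le_sup (hSinv k) ((Submodule.map_inf_le f).trans (inf_le_inf hWinv (hSinv _)))
        rcases hUirr ⟨k, hk⟩ _ inf_le_right h3 with h4 | h4
        · rw [h4, finrank_bot, add_zero] at h1
          rw [h1]; exact ih (by omega)
        · rw [h4, hUdim] at h1
          rw [h1]; exact Dvd.dvd.add (ih (by omega)) dvd_rfl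
    have h1 := finrank_eq_of_le_sup W (S s) C hSC (by rw [hSCtop]; exact le_top)
    have h2 : Module.finrank F ↥((S s ⊔ W) ⊓ C) ≤ Module.finrank F C := Submodule.finrank_mono inf_le_right
    obtain ⟨t, ht⟩ := hdvd s le_rfl
    rw [ht, hWm] at h1
    rcases Nat.eq_zero_or_pos t with rfl | htpos
    · left; omega
    · right
      constructor
      · have : a * 1 ≤ a * t := Nat.mul_le_mul_left a htpos
        omega
      · rw [h1, Nat.mul_add_mod]
        exact (Nat.mod_le _ _).trans h2
  · intro h
    obtain ⟨k, c', hks, hc', hm'⟩ : ∃ k c', k ≤ s ∧ c' ≤ Module.finrank F C ∧ m = k * a + c' := by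
      rcases h with h | ⟨h1, h2⟩
      · exact ⟨0, m, by omega, h, by omega⟩
      · rcases Nat.lt_or_ge s (m / a) with h3 | h3
        · have h4 : s * a ≤ m := by
            have : s * a ≤ (m / a) * a := Nat.mul_le_mul_right a h3.le
            exact this.trans (Nat.div_mul_le_self m a)
          exact ⟨s, m - s * a, le_rfl, by omega, by omega⟩
        · exact ⟨m / a, m % a, h3, h2, by rw [mul_comm]; exact (Nat.div_add_mod m a).symm⟩
    obtain ⟨C', hC'le, hC'dim⟩ := exists_le_finrank_eq C c' hc'
    refine ⟨S k ⊔ C', ?_, ?_⟩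
    · have h1 := Submodule.finrank_sup_add_finrank_inf_eq (S k) C'
      have h2 : S k ⊓ C' = ⊥ := by
        apply le_bot_iff.1
        rw [← hSC]
        exact inf_le_inf (hSmono k s hks) hC'le
      rw [h2, finrank_bot, hSdim k hks, hC'dim] at h1
      omega
    · rw [Submodule.map_sup]
      refine sup_le_sup (hSinv k) ?_
      rintro _ ⟨v, hv, rfl⟩
      have h1 : v ∈ C := hC'le hv
      rw [hC, Module.End.mem_eigenspace_iff, one_smul] at h1
      rw [h1]
      exact hv

end Cfsg.Agent.S5952
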