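import Cfsg.Statements.S5957
import Cfsg.Agent.Lib.Helper99.Monomial
import Cfsg.Agent.Lib.Helper99.Grouping
import Cfsg.Agent.Lib.Helper99.Blocks

set_option autoImplicit false
open scoped MatrixGroups
open Cfsg

namespace Cfsg.Agent.S5957

/-- Involutions of PSL_n(q) and imprimitive subgroups. Here `T = PSL_n(F)` for a field `F` with `q = p^f` elements (`n ≥ 2`, `(n, q) ≠ (2, 2), (2, 3)`), `n = a·t` with `t ≥ 2`, and Ω is the set of direct-sum decompositions of `F^n` into `t` subspaces of dimension `a` (unordered; their number is the number of ordered ones divided by `t!`), whose stabilizers are the imprimitive subgroups of type GL_a(q) ≀ S_t (maximal except in some small cases; maximality is not assumed); an element of `T` of prime order `r` (a matrix `x` of determinant 1 with `x^r` scalar, `x` not scalar) fixes a point of Ω when it permutes the summands of some such decomposition. If the number of such decompositions is even, then every involution of `T` stabilizes one of them (the action is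 2-elusive). -/
theorem result {F : Type*} [Field F] [Fintype F] {p : ℕ} [Fact p.Prime] [CharP F p] {q : ℕ} (hq : Fintype.card F = q)
    (n a t : ℕ) (hn : 2 ≤ n) (hT : (n, q) ≠ (2, 2) ∧ (n, q) ≠ (2, 3)) (hat : n = a * t) (ha : 1 ≤ a) (ht : 2 ≤ t)
    (hΩ : 2 ∣ Nat.card {D : Fin t → Submodule F (Fin n → F) // Cfsg.Geo.IsMDecomposition a D} / Nat.factorial t)
    (x : Matrix.SpecialLinearGroup (Fin n) F)
    (hx1 : ∃ z : F, ((x ^ 2 : Matrix.SpecialLinearGroup (Fin n) F) : Matrix (Fin n) (Fin n) F) = z • (1 : Matrix (Fin n) (Fin n) F))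
    (hx2 : ∀ z : F, (x : Matrix (Fin n) (Fin n) F) ≠ z • (1 : Matrix (Fin n) (Fin n) F)) :
    ∃ D : Fin t → Submodule F (Fin n → F), Cfsg.Geo.IsMDecomposition a D ∧
        ∃ σ : Equiv.Perm (Fin t), ∀ j, (D j).map (Matrix.toLin' (x : Matrix (Fin n) (Fin n) F)) = D (σ j) := by
  classical
  obtain ⟨z, hz⟩ := hx1
  set T := Matrix.toLin' (x : Matrix (Fin n) (Fin n) F) with hTdef
  have hTT : ∀ v, T (T v) = z • v := by
    intro v
    have : T (T v) = Matrix.toLin' ((x ^ 2 : Matrix.SpecialLinearGroup (Fin n) F) : Matrix (Fin n) (Fin n) F) v := by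
      rw [pow_two, Matrix.SpecialLinearGroup.coe_mul, Matrix.toLin'_mul]
      rfl
    rw [this, hz]
    simp
  have hz0 : z ≠ 0 := by
    rintro rfl
    have h1 := (x ^ 2 : Matrix.SpecialLinearGroup (Fin n) F).det_coe
    have : Nonempty (Fin n) := ⟨⟨0, by omega⟩⟩
    rw [hz, zero_smul, Matrix.det_zero] at h1
    exact zero_ne_one h1
  have hinj : Function.Injective T := by
    rw [← LinearMap.ker_eq_bot, LinearMap.ker_eq_bot']
    intro v hv
    have := hTT v
    rw [hv, map_zero] at this
    exact (smul_eq_zero.1 this.symm).resolve_left hz0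
  obtain ⟨ι, _, _, b, π, c, hli, hspan, hπ, hb⟩ :=
    Cfsg.Agent.Lib.Helper99.exists_monomial_aux hTT _ ⊤ rfl (fun _ _ => trivial)
  have hcard : Fintype.card ι = a * t := by
    rw [← finrank_span_eq_card hli, hspan, finrank_top, Module.finrank_fin_fun, hat]
  obtain ⟨β, σ, hfib, hσ⟩ := Cfsg.Agent.Lib.Helper99.exists_blocks π hπ a t ha hcard
  refine ⟨Cfsg.Agent.Lib.Helper99.blockSpan b β, ⟨ht, ha, ?_, ?_, ?_⟩, σ, ?_⟩
  · intro j
    rw [Cfsg.Agent.Lib.Helper99.finrank_blockSpan hli, hfib]
  · exact Cfsg.Agent.Lib.Helper99.iSupIndep_blockSpan hli β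
  · exact Cfsg.Agent.Lib.Helper99.iSup_blockSpan hspan β
  · apply Cfsg.Agent.Lib.Helper99.map_blockSpan hli β hfib hinj σ
    intro k
    rw [hb, ← hσ]
    exact Submodule.smul_mem _ _ (Cfsg.Agent.Lib.Helper99.mem_blockSpan b β (π k))

end Cfsg.Agent.S5957
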