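import Cfsg.Statements.S5959
import Cfsg.Agent.Lib.Helper48.JordanDecomp
import Cfsg.Agent.Lib.Helper48.RegNilpConj

set_option autoImplicit false
open scoped MatrixGroups
open Cfsg

namespace Cfsg.Agent.S5959

/-- Elements of order `p` of PSL_n(q) and imprimitive subgroups: a necessary condition. Here `T = PSL_n(F)` for a field `F` with `q = p^f` elements (`n ≥ 2`, `(n, q) ≠ (2, 2), (2, 3)`), `n = a·t` with `t ≥ 2`, and Ω is the set of direct-sum decompositions of `F^n` into `t` subspaces of dimension `a` (unordered; their number is the number of ordered ones divided by `t!`), whose stabilizers are the imprimitive subgroups of type GL_a(q) ≀ S_t (maximal except in some small cases; maximality is not assumed); an element of `T` of prime order `r` (a matrix `x` of determinant 1 with `x^r` scalar, `x` not scalar) fixes a point of Ω when it permutes the summands of some such decomposition. Suppose `p > 2` divides the number of such decompositions. If every element of `T` of order `p` stabilizes such a decomposition, then every partition of `n` into parts of size at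 most `p` in which the part `p` occurs fewer than `a` times contains (as a sub-multiset) a partition of `a`. -/
theorem result {F : Type*} [Field F] [Fintype F] {p : ℕ} [Fact p.Prime] [CharP F p] {q : ℕ} (hq : Fintype.card F = q)
    (n a t : ℕ) (hn : 2 ≤ n) (hT : (n, q) ≠ (2, 2) ∧ (n, q) ≠ (2, 3)) (hat : n = a * t) (ha : 1 ≤ a) (ht : 2 ≤ t)
    (hp : 2 < p) (hΩ : p ∣ Nat.card {D : Fin t → Submodule F (Fin n → F) // Cfsg.Geo.IsMDecomposition a D} / Nat.factorial t)
    (h : ∀ x : Matrix.SpecialLinearGroup (Fin n) F,
      (∃ z : F, ((x ^ p : Matrix.SpecialLinearGroup (Fin n) F) : Matrix (Fin n) (Fin n) F) = z • (1 : Matrix (Fin n) (Fin n) F)) →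
      (∀ z : F, (x : Matrix (Fin n) (Fin n) F) ≠ z • (1 : Matrix (Fin n) (Fin n) F)) →
      ∃ D : Fin t → Submodule F (Fin n → F), Cfsg.Geo.IsMDecomposition a D ∧
        ∃ σ : Equiv.Perm (Fin t), ∀ j, (D j).map (Matrix.toLin' (x : Matrix (Fin n) (Fin n) F)) = D (σ j)) :
    (∀ μ : Multiset ℕ, (∀ b ∈ μ, 0 < b ∧ b ≤ p) → μ.sum = n → μ.count p < a → ∃ ν : Multiset ℕ, ν ≤ μ ∧ ν.sum = a) := by
  classical
  intro μ hμ hsum hcount
  by_cases hall : ∀ b ∈ μ, b ≤ 1
  · have h1 : μ = Multiset.replicate (Multiset.card μ) 1 := by
      rw [Multiset.eq_replicate_card]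
      intro b hb
      have := hμ b hb
      have := hall b hb
      omega
    have h2 : Multiset.card μ = n := by
      rw [h1] at hsum
      simpa using hsum
    refine ⟨Multiset.replicate a 1, ?_, by simp⟩
    rw [h1, h2, Multiset.replicate_le_replicate, hat]
    exact Nat.le_mul_of_pos_right a (by omega)
  · obtain ⟨u, hN, hJ⟩ := Cfsg.Agent.Lib.Helper48.exists_unit_jtype (F := F) μ hsum
    set U : Module.End F (Fin n → F) := (u : Module.End F (Fin n → F)) with hU
    have hNp : (U - 1) ^ p = 0 :=
      (Cfsg.Agent.Lib.Helper48.JType.pow_eq_zero_iff hJ hN p).2 (fun b hb => (hμ b hb).2)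
    have hUp : U ^ p = 1 := by
      have := Cfsg.Agent.Lib.Helper48.sub_one_pow_char_pow p U 1
      rw [pow_one, hNp] at this
      exact (sub_eq_zero.1 this.symm)
    have hN1 : U - 1 ≠ 0 := by
      intro h0
      apply hall
      have := (Cfsg.Agent.Lib.Helper48.JType.pow_eq_zero_iff hJ hN 1).1 (by rw [pow_one, h0])
      exact this
    have hdet : (LinearMap.toMatrix' U).det = 1 := by
      rw [LinearMap.det_toMatrix']
      have := Cfsg.Agent.Lib.Helper48.det_algebraMap_add_of_isNilpotent (U - 1) hN (1 : F)
      rw [map_one, one_pow, add_sub_cancel] at this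
      exact this
    let x : Matrix.SpecialLinearGroup (Fin n) F := ⟨LinearMap.toMatrix' U, hdet⟩
    have hx : Matrix.toLin' (x : Matrix (Fin n) (Fin n) F) = U := Matrix.toLin'_toMatrix' U
    obtain ⟨D, hD, σ, hσ⟩ := h x
      ⟨1, by
        rw [Matrix.SpecialLinearGroup.coe_pow, one_smul]
        apply Matrix.toLin'.injective
        rw [Matrix.toLin'_pow, hx, hUp, Matrix.toLin'_one]
        rfl⟩
      (by
        intro z hz
        have h1 : U = z • (1 : Module.End F (Fin n → F)) := by
          rw [← hx, hz, map_smul, Matrix.toLin'_one]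
          rfl
        have h2 : U - 1 = (z - 1) • (1 : Module.End F (Fin n → F)) := by
          rw [h1]
          refine LinearMap.ext fun v => ?_
          simp only [LinearMap.sub_apply, LinearMap.smul_apply, Module.End.one_apply, sub_smul,
            one_smul]
        obtain ⟨m, hm⟩ := hN
        rw [h2, smul_pow, one_pow] at hm
        have hnt : (1 : Module.End F (Fin n → F)) ≠ 0 := by
          intro h10
          apply hN1
          rw [h2, h10, smul_zero]
        have h3 : (z - 1) ^ m = 0 := by
          rcases smul_eq_zero.1 hm with h | h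
          · exact h
          · exact absurd h hnt
        have h4 : z - 1 = 0 := eq_zero_of_pow_eq_zero h3
        apply hN1
        rw [h2, h4, zero_smul])
    rw [hx] at hσ
    exact Cfsg.Agent.Lib.Helper48.exists_sub_partition_of_decomp p U μ
      (fun b hb => (hμ b hb).1) (fun b hb => (hμ b hb).2) hN hJ D hD.finrank_eq hD.indep
      hD.iSup_eq_top hD.pos (by omega) σ hσ hcount

end Cfsg.Agent.S5959
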