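import Cfsg.Statements.S5960
import Cfsg.Agent.Lib.Helper99.SympForm
import Cfsg.Agent.Lib.Helper99.PlanesBlocks

set_option autoImplicit false
open scoped MatrixGroups
open Cfsg

namespace Cfsg.Agent.S5960

/-- Involutions of PSp_n(q) and imprimitive subgroups. Here `T = PSp_n(q)`, `n = 2d ≥ 4`, `(n, q) ≠ (4, 2)`, realised through the symplectic matrices over the field `F` with `q` elements and the standard alternating form; `n = a·t` with `a` even and `t ≥ 2`, and Ω is the (nonempty) set of orthogonal decompositions of `F^n` into `t` nondegenerate subspaces of dimension `a` (unordered; counted as ordered ones divided by `t!`), whose stabilizers are the imprimitive subgroups of type Sp_a(q) ≀ S_t (maximality is not assumed); an element of `T` of prime order `r` (a symplectic matrix `x` with `x^r` scalar, `x` not scalar) fixes a point of Ω when it permutes the summands of some such decomposition. If the number of such decompositions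 is even, then every involution of `T` stabilizes one of them (the action is 2-elusive). -/
theorem result {F : Type*} [Field F] [Fintype F] {p : ℕ} [Fact p.Prime] [CharP F p] {q : ℕ} (hq : Fintype.card F = q)
    (d : ℕ) (hd : 2 ≤ d) (hT : (d, q) ≠ (2, 2))
    (a t : ℕ) (hat : 2 * d = a * t) (ha : 2 ≤ a) (hae : Even a) (ht : 2 ≤ t) (hΩ : 2 ∣ Nat.card {D : Fin t → Submodule F (Fin d ⊕ Fin d → F) // (Cfsg.Geo.IsMDecomposition a D ∧ (∀ j, ∀ u ∈ D j, u ≠ 0 → ∃ v ∈ D j, Cfsg.sympForm d F u v ≠ 0) ∧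
          (∀ j j', j ≠ j' → ∀ u ∈ D j, ∀ v ∈ D j', Cfsg.sympForm d F u v = 0))} / Nat.factorial t)
    (x : ↥(Matrix.symplecticGroup (Fin d) F))
    (hx1 : ∃ z : F, ((x ^ 2 : ↥(Matrix.symplecticGroup (Fin d) F)) : Matrix (Fin d ⊕ Fin d) (Fin d ⊕ Fin d) F) = z • (1 : Matrix (Fin d ⊕ Fin d) (Fin d ⊕ Fin d) F))
    (hx2 : ∀ z : F, (x : Matrix (Fin d ⊕ Fin d) (Fin d ⊕ Fin d) F) ≠ z • (1 : Matrix (Fin d ⊕ Fin d) (Fin d ⊕ Fin d) F)) :
    ∃ D : Fin t → Submodule F (Fin d ⊕ Fin d → F), (Cfsg.Geo.IsMDecomposition a D ∧ (∀ j, ∀ u ∈ D j, u ≠ 0 → ∃ v ∈ D j, Cfsg.sympForm d F u v ≠ 0) ∧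
          (∀ j j', j ≠ j' → ∀ u ∈ D j, ∀ v ∈ D j', Cfsg.sympForm d F u v = 0)) ∧
        ∃ σ : Equiv.Perm (Fin t), ∀ j, (D j).map (Matrix.toLin' (x : Matrix (Fin d ⊕ Fin d) (Fin d ⊕ Fin d) F)) = D (σ j) := by
  classical
  obtain ⟨z, hz⟩ := hx1
  set T := Matrix.toLin' (x : Matrix (Fin d ⊕ Fin d) (Fin d ⊕ Fin d) F) with hTdef
  have hTT : ∀ v, T (T v) = z • v := by
    intro v
    have : T (T v) = Matrix.toLin' ((x ^ 2 : ↥(Matrix.symplecticGroup (Fin d) F)) : Matrix (Fin d ⊕ Fin d) (Fin d ⊕ Fin d) F) v := by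
      rw [pow_two, Submonoid.coe_mul, Matrix.toLin'_mul]
      rfl
    rw [this, hz]
    simp
  have hIso : ∀ u v, Cfsg.Agent.Lib.Helper99.sympB d (T u) (T v) = Cfsg.Agent.Lib.Helper99.sympB d u v :=
    Cfsg.Agent.Lib.Helper99.sympB_iso d x
  have hAlt := Cfsg.Agent.Lib.Helper99.sympB_isAlt (F := F) d
  have hz0 : z ≠ 0 := by
    rintro rfl
    have hne : (Pi.single (Sum.inl ⟨0, by omega⟩) 1 : Fin d ⊕ Fin d → F) ≠ 0 := by
      intro h
      have := congrFun h (Sum.inl ⟨0, by omega⟩)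
      simp at this
    obtain ⟨y, _, hy⟩ := Cfsg.Agent.Lib.Helper99.sympB_nondeg d _ trivial hne
    have h3 := hIso (T (Pi.single (Sum.inl ⟨0, by omega⟩) 1)) (T y)
    rw [hTT, hTT, hIso] at h3
    simp only [zero_smul, map_zero] at h3
    exact hy h3.symm
  obtain ⟨a', ha'⟩ := hae
  have hdim : Module.finrank F (Fin d ⊕ Fin d → F) = 2 * a' * t := by
    rw [Module.finrank_pi, Fintype.card_sum, Fintype.card_fin]
    rw [ha'] at hat
    rw [← two_mul, hat, two_mul]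
  obtain ⟨D, h1, h2, h3, h4, h5, σ, h6⟩ := Cfsg.Agent.Lib.Helper99.exists_orth_blocks hAlt
    (Cfsg.Agent.Lib.Helper99.sympB_nondeg d) hz0 hIso hTT a' t (by omega) hdim
  refine ⟨D, ⟨⟨ht, by omega, ?_, h2, h3⟩, ?_, ?_⟩, σ, h6⟩
  · intro j
    rw [h1, ha', two_mul]
  · intro j u hu hu0
    obtain ⟨v, hv, huv⟩ := h4 j u hu hu0
    exact ⟨v, hv, by rw [← Cfsg.Agent.Lib.Helper99.sympB_apply]; exact huv⟩
  · intro j j' hjj u hu v hv
    rw [← Cfsg.Agent.Lib.Helper99.sympB_apply]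
    exact h5 j j' hjj u hu v hv

end Cfsg.Agent.S5960
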