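import Cfsg.Statements.S5961
import Cfsg.Agent.Lib.Helper25.Sd.Main
import Cfsg.Agent.Lib.Helper25.Sd.BRIDGE
import Cfsg.Agent.Lib.Helper25.Sd.CAUCHY
import Cfsg.Agent.Lib.Helper25.Sd.FREES
import Cfsg.Agent.Lib.Helper25.Sd.SCAL

set_option autoImplicit false
open scoped MatrixGroups
open Cfsg

namespace Cfsg.Agent.S5961

/-- Elements of odd prime order of PSp_n(q) and imprimitive subgroups. Here `T = PSp_n(q)`, `n = 2d ≥ 4`, `(n, q) ≠ (4, 2)`, realised through the symplectic matrices over the field `F` with `q` elements and the standard alternating form; `n = a·t` with `a` even and `t ≥ 2`, and Ω is the (nonempty) set of orthogonal decompositions of `F^n` into `t` nondegenerate subspaces of dimension `a` (unordered; counted as ordered ones divided by `t!`), whose stabilizers are the imprimitive subgroups of type Sp_a(q) ≀ S_t (maximality is not assumed); an element of `T` of prime order `r` (a symplectic matrix `x`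 with `x^r` scalar, `x` not scalar) fixes a point of Ω when it permutes the summands of some such decomposition. Let `r ≠ p` be an odd prime dividing the number of such decompositions, let `i` be the multiplicative order of `q` modulo `r`, `c = i` if `i` is even and `c = 2i` if `i` is odd, and write `k = n mod c`, `ℓ = a mod c`. Then every element of `T` of order `r` stabilizes such a decomposition if and only if `c ≤ a` and `k = t·ℓ`. -/
theorem result {F : Type*} [Field F] [Fintype F] {p : ℕ} [Fact p.Prime] [CharP F p] {q : ℕ} (hq : Fintype.card F = q)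
    (d : ℕ) (hd : 2 ≤ d) (hT : (d, q) ≠ (2, 2))
    (a t : ℕ) (hat : 2 * d = a * t) (ha : 2 ≤ a) (hae : Even a) (ht : 2 ≤ t)
    (r : ℕ) [Fact r.Prime] (hr2 : r ≠ 2) (hrp : r ≠ p) (hΩ : r ∣ Nat.card {D : Fin t → Submodule F (Fin d ⊕ Fin d → F) // (Cfsg.Geo.IsMDecomposition a D ∧ (∀ j, ∀ u ∈ D j, u ≠ 0 → ∃ v ∈ D j, Cfsg.sympForm d F u v ≠ 0) ∧
          (∀ j j', j ≠ j' → ∀ u ∈ D j, ∀ v ∈ D j', Cfsg.sympForm d F u v = 0))} / Nat.factorial t)
    (i c : ℕ) (hi : i = orderOf (q : ZMod r)) (hc : c = if Even i then i else 2 * i) :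
    (∀ x : ↥(Matrix.symplecticGroup (Fin d) F),
      (∃ z : F, ((x ^ r : ↥(Matrix.symplecticGroup (Fin d) F)) : Matrix (Fin d ⊕ Fin d) (Fin d ⊕ Fin d) F) = z • (1 : Matrix (Fin d ⊕ Fin d) (Fin d ⊕ Fin d) F)) →
      (∀ z : F, (x : Matrix (Fin d ⊕ Fin d) (Fin d ⊕ Fin d) F) ≠ z • (1 : Matrix (Fin d ⊕ Fin d) (Fin d ⊕ Fin d) F)) →
      ∃ D : Fin t → Submodule F (Fin d ⊕ Fin d → F), (Cfsg.Geo.IsMDecomposition a D ∧ (∀ j, ∀ u ∈ D j, u ≠ 0 → ∃ v ∈ D j, Cfsg.sympForm d F u v ≠ 0) ∧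
          (∀ j j', j ≠ j' → ∀ u ∈ D j, ∀ v ∈ D j', Cfsg.sympForm d F u v = 0)) ∧
        ∃ σ : Equiv.Perm (Fin t), ∀ j, (D j).map (Matrix.toLin' (x : Matrix (Fin d ⊕ Fin d) (Fin d ⊕ Fin d) F)) = D (σ j)) ↔
    (c ≤ a ∧ (2 * d) % c = t * (a % c)) := by
  classical
  subst hq hi
  have hr : r.Prime := Fact.out
  have hodd : Odd r := hr.odd_of_ne_two hr2
  have hcc : c = Cfsg.Agent.Lib.Helper25.Sd.cc F r := hc
  subst hcc
  have hB := Cfsg.Agent.Lib.Helper99.sympB_isAlt (F := F) d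
  have hnd := Cfsg.Agent.Lib.Helper99.sympB_nondeg (F := F) d
  have hcard : Fintype.card (Fin d ⊕ Fin d) = a * t := by
    rw [Fintype.card_sum, Fintype.card_fin, ← hat]
    omega
  have hcard2 : Fintype.card (Fin d ⊕ Fin d) = 2 * d := by rw [hcard, hat]
  have : Nontrivial (Fin d ⊕ Fin d → F) := by
    have : Nonempty (Fin d ⊕ Fin d) := ⟨Sum.inl ⟨0, by omega⟩⟩
    infer_instance
  have hP : ∀ D : Fin t → Submodule F (Fin d ⊕ Fin d → F),
      (Cfsg.Geo.IsMDecomposition a D ∧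
        (∀ j, ∀ u ∈ D j, u ≠ 0 → ∃ v ∈ D j, Cfsg.sympForm d F u v ≠ 0) ∧
        (∀ j j', j ≠ j' → ∀ u ∈ D j, ∀ v ∈ D j', Cfsg.sympForm d F u v = 0)) ↔
      Cfsg.Agent.Lib.Helper25.Sd.SDec (Cfsg.Agent.Lib.Helper99.sympB d) a D := by
    intro D
    constructor
    · rintro ⟨h1, h2, h3⟩
      refine ⟨h1, fun j u hu hu0 => ?_, fun j j' hjj u hu v hv => ?_⟩
      · obtain ⟨v, hv, hne⟩ := h2 j u hu hu0
        exact ⟨v, hv, by rw [Cfsg.Agent.Lib.Helper99.sympB_apply]; exact hne⟩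
      · rw [Cfsg.Agent.Lib.Helper99.sympB_apply]
        exact h3 j j' hjj u hu v hv
    · intro h
      refine ⟨h.dec, fun j u hu hu0 => ?_, fun j j' hjj u hu v hv => ?_⟩
      · obtain ⟨v, hv, hne⟩ := h.nd j u hu hu0
        exact ⟨v, hv, by rw [← Cfsg.Agent.Lib.Helper99.sympB_apply]; exact hne⟩
      · rw [← Cfsg.Agent.Lib.Helper99.sympB_apply]
        exact h.orth j j' hjj u hu v hv
  have hscal : ∀ z : F, Matrix.toLin' (z • (1 : Matrix (Fin d ⊕ Fin d) (Fin d ⊕ Fin d) F)) =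
      z • (1 : Module.End F (Fin d ⊕ Fin d → F)) := by
    intro z
    rw [map_smul, Matrix.toLin'_one]
    rfl
  rw [← hcard2]
  constructor
  · intro Hx
    have hΩ' : r ∣ Nat.card {D : Fin t → Submodule F (Fin d ⊕ Fin d → F) //
        Cfsg.Agent.Lib.Helper25.Sd.SDec (Cfsg.Agent.Lib.Helper99.sympB d) a D} := by
      rw [Nat.card_congr (Equiv.subtypeEquivRight hP)] at hΩ
      exact hΩ.trans (Nat.div_dvd_of_dvd Cfsg.Agent.Lib.Helper25.Sd.factorial_dvd_card_sdec)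
    obtain ⟨A, hA⟩ := Cfsg.Agent.Lib.Helper25.Sd.exists_order_r
      (Cfsg.Agent.Lib.Helper25.Sd.exd hrp hr2 hB hnd hcard ha hae ht) hΩ'
    have h₀ : Cfsg.Agent.Lib.Helper25.Sd.Ctx (Cfsg.Agent.Lib.Helper99.sympB d)
        (Matrix.toLin' (A : Matrix (Fin d ⊕ Fin d) (Fin d ⊕ Fin d) F)) r := by
      refine ⟨hB, Cfsg.Agent.Lib.Helper25.Sd.isIso_toLin A, ?_⟩
      rw [← Matrix.toLin'_pow]
      have h1 : A ^ r = 1 := by rw [← hA]; exact pow_orderOf_eq_one A
      have h2 : (A : Matrix (Fin d ⊕ Fin d) (Fin d ⊕ Fin d) F) ^ r = 1 := by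
        have := congrArg (fun y : ↥(Matrix.symplecticGroup (Fin d) F) =>
          (y : Matrix (Fin d ⊕ Fin d) (Fin d ⊕ Fin d) F)) h1
        simpa using this
      rw [h2, Matrix.toLin'_one]
      rfl
    have hT₀ : Matrix.toLin' (A : Matrix (Fin d ⊕ Fin d) (Fin d ⊕ Fin d) F) ≠ 1 := by
      intro h
      have h1 : (A : Matrix (Fin d ⊕ Fin d) (Fin d ⊕ Fin d) F) = 1 := by
        apply Matrix.toLin'.injective
        rw [h, Matrix.toLin'_one]
        rfl
      have h2 : A = 1 := Subtype.ext h1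
      rw [h2, orderOf_one] at hA
      exact hr.one_lt.ne hA
    refine Cfsg.Agent.Lib.Helper25.Sd.fw hrp hr2 hnd hcard ha ht h₀ hT₀ ?_
    intro T h hT1
    obtain ⟨x, hx⟩ := Cfsg.Agent.Lib.Helper25.Sd.exists_sp_of_isIso T h.iso
    obtain ⟨D, hD, σ, hσ⟩ := Hx x ⟨1, by
        have h1 : Matrix.toLin' ((x : Matrix (Fin d ⊕ Fin d) (Fin d ⊕ Fin d) F) ^ r) =
            Matrix.toLin' (1 : Matrix (Fin d ⊕ Fin d) (Fin d ⊕ Fin d) F) := by
          rw [Matrix.toLin'_pow, hx, h.pow, Matrix.toLin'_one]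
          rfl
        have h2 := Matrix.toLin'.injective h1
        rw [one_smul, ← h2]
        simp⟩ (by
        intro z hz
        apply Cfsg.Agent.Lib.Helper25.Sd.not_scalar h hnd hodd hT1 z
        rw [← hx, hz, hscal])
    exact ⟨D, (hP D).1 hD, σ, fun j => by rw [← hx]; exact hσ j⟩
  · rintro hR x ⟨z, hz⟩ -
    have hz' : (Matrix.toLin' (x : Matrix (Fin d ⊕ Fin d) (Fin d ⊕ Fin d) F)) ^ r =
        z • (1 : Module.End F (Fin d ⊕ Fin d → F)) := by
      rw [← Matrix.toLin'_pow, ← hscal, ← hz]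
      simp
    obtain ⟨hzz, hctx⟩ := Cfsg.Agent.Lib.Helper25.Sd.scal_ctx hB hnd
      (Cfsg.Agent.Lib.Helper25.Sd.isIso_toLin x) hodd hz'
    have hz0 : z ≠ 0 := by
      intro h
      rw [h, mul_zero] at hzz
      exact zero_ne_one hzz
    obtain ⟨D, hD, σ, hσ⟩ := Cfsg.Agent.Lib.Helper25.Sd.bw hrp hr2 hnd hcard ha hae ht hR hctx
    refine ⟨D, (hP D).2 hD, σ, fun j => ?_⟩
    rw [← hσ j, Submodule.map_smul _ _ _ hz0]

end Cfsg.Agent.S5961
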