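import Cfsg.Statements.S5962
import Cfsg.Agent.Lib.Helper99.SympForm

set_option autoImplicit false
open scoped MatrixGroups
open Cfsg

namespace Cfsg.Agent.S5962

open Cfsg.Agent.Lib.Helper99 in
lemma isCompl_of_iso {F : Type*} [Field F] (d : ℕ) {U W : Submodule F (Fin d ⊕ Fin d → F)}
    (hU : IsoOn (sympB d) U) (hW : IsoOn (sympB d) W) (h : U ⊔ W = ⊤) : IsCompl U W := by
  refine ⟨?_, codisjoint_iff.2 h⟩
  rw [Submodule.disjoint_def]
  intro v hvU hvW
  by_contra hv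
  obtain ⟨y, _, hy⟩ := sympB_nondeg d v trivial hv
  have hy' : y ∈ U ⊔ W := by rw [h]; trivial
  obtain ⟨a, ha, b, hb, rfl⟩ := Submodule.mem_sup.1 hy'
  apply hy
  rw [map_add, hU v hvU a ha, hW v hvW b hb, add_zero]

lemma map_eq_of_apply_mem {F V : Type*} [Field F] [AddCommGroup V] [Module F V] {T : V →ₗ[F] V} {z : F}
    (hz : z ≠ 0) (hT : ∀ v, T (T v) = z • v) {U W : Submodule F V} (h1 : ∀ v ∈ U, T v ∈ W)
    (h2 : ∀ v ∈ W, T v ∈ U) : U.map T = W := by
  apply le_antisymm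
  · rintro _ ⟨v, hv, rfl⟩
    exact h1 v hv
  · intro w hw
    refine ⟨z⁻¹ • T w, U.smul_mem _ (h2 w hw), ?_⟩
    rw [map_smul, hT, smul_smul, inv_mul_cancel₀ hz, one_smul]

/-- Involutions of PSp_n(q), q odd, and the subgroups GL_{n/2}(q).2. Here `T = PSp_n(q)`, `n = 2d ≥ 4`, `q` odd, realised through the symplectic matrices over the field `F` with `q` elements; Ω is the set of unordered pairs `{U, W}` of complementary totally isotropic `d`-spaces (`F^n = U ⊕ W`), whose stabilizers are the subgroups of type GL_d(q).2 (maximal except in some small cases; maximality is not assumed); an element of `T` of prime order `r` (a symplectic matrix `x` with `x^r` scalar, `x` not scalar) fixes such a pair when it fixes or interchanges `U` and `W`. If the number of such pairs is even, every involution of `T` fixes one of them (the action is 2-elusive). -/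
theorem result {F : Type*} [Field F] [Fintype F] {p : ℕ} [Fact p.Prime] [CharP F p] {q : ℕ} (hq : Fintype.card F = q)
    (d : ℕ) (hd : 2 ≤ d) (hT : (d, q) ≠ (2, 2)) (hodd : Odd q)
    (hΩ : 2 ∣ Nat.card {P : Submodule F (Fin d ⊕ Fin d → F) × Submodule F (Fin d ⊕ Fin d → F) // IsCompl P.1 P.2 ∧ (∀ u ∈ P.1, ∀ v ∈ P.1, Cfsg.sympForm d F u v = 0) ∧ (∀ u ∈ P.2, ∀ v ∈ P.2, Cfsg.sympForm d F u v = 0)} / 2)
    (x : ↥(Matrix.symplecticGroup (Fin d) F))
    (hx1 : ∃ z : F, ((x ^ 2 : ↥(Matrix.symplecticGroup (Fin d) F)) : Matrix (Fin d ⊕ Fin d) (Fin d ⊕ Fin d) F) = z • (1 : Matrix (Fin d ⊕ Fin d) (Fin d ⊕ Fin d) F))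
    (hx2 : ∀ z : F, (x : Matrix (Fin d ⊕ Fin d) (Fin d ⊕ Fin d) F) ≠ z • (1 : Matrix (Fin d ⊕ Fin d) (Fin d ⊕ Fin d) F)) :
    ∃ U W : Submodule F (Fin d ⊕ Fin d → F), IsCompl U W ∧ (∀ u ∈ U, ∀ v ∈ U, Cfsg.sympForm d F u v = 0) ∧ (∀ u ∈ W, ∀ v ∈ W, Cfsg.sympForm d F u v = 0) ∧
        ((U.map (Matrix.toLin' (x : Matrix (Fin d ⊕ Fin d) (Fin d ⊕ Fin d) F)) = U ∧ W.map (Matrix.toLin' (x : Matrix (Fin d ⊕ Fin d) (Fin d ⊕ Fin d) F)) = W) ∨
         (U.map (Matrix.toLin' (x : Matrix (Fin d ⊕ Fin d) (Fin d ⊕ Fin d) F)) = W ∧ W.map (Matrix.toLin' (x : Matrix (Fin d ⊕ Fin d) (Fin d ⊕ Fin d) F)) = U)) := by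
  classical
  have h2 : (2 : F) ≠ 0 := by
    apply Ring.two_ne_zero
    intro h
    have := FiniteField.even_card_of_char_two h
    rw [hq] at this
    rcases hodd with ⟨k, hk⟩
    omega
  obtain ⟨z, hz⟩ := hx1
  set T := Matrix.toLin' (x : Matrix (Fin d ⊕ Fin d) (Fin d ⊕ Fin d) F) with hTdef
  have hTT : ∀ v, T (T v) = z • v := by
    intro v
    have : T (T v) = Matrix.toLin' ((x ^ 2 : ↥(Matrix.symplecticGroup (Fin d) F)) : Matrix (Fin d ⊕ Fin d) (Fin d ⊕ Fin d) F) v := by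
      rw [pow_two, Submonoid.coe_mul, Matrix.toLin'_mul]
      rfl
    rw [this, hz]
    simp
  have hIso : ∀ u v, Cfsg.Agent.Lib.Helper99.sympB d (T u) (T v) = Cfsg.Agent.Lib.Helper99.sympB d u v :=
    Cfsg.Agent.Lib.Helper99.sympB_iso d x
  have hAlt := Cfsg.Agent.Lib.Helper99.sympB_isAlt (F := F) d
  have hzz : z * z = 1 := by
    have hne : (Pi.single (Sum.inl ⟨0, by omega⟩) 1 : Fin d ⊕ Fin d → F) ≠ 0 := by
      intro h
      have := congrFun h (Sum.inl ⟨0, by omega⟩)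
      simp at this
    obtain ⟨y, _, hy⟩ := Cfsg.Agent.Lib.Helper99.sympB_nondeg d _ trivial hne
    have h3 := hIso (T (Pi.single (Sum.inl ⟨0, by omega⟩) 1)) (T y)
    rw [hTT, hTT, hIso] at h3
    simp only [map_smul, LinearMap.smul_apply, smul_eq_mul] at h3
    have h4 : (z * z - 1) * Cfsg.Agent.Lib.Helper99.sympB d (Pi.single (Sum.inl ⟨0, by omega⟩) 1) y = 0 := by
      linear_combination h3
    have := (mul_eq_zero.1 h4).resolve_right hy
    linear_combination this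
  have hz0 : z ≠ 0 := by
    rintro rfl
    simp at hzz
  have hcases : z = 1 ∨ z = -1 := by
    have : (z - 1) * (z + 1) = 0 := by linear_combination hzz
    rcases mul_eq_zero.1 this with h | h
    · left; linear_combination h
    · right; linear_combination h
  have conv : ∀ U : Submodule F (Fin d ⊕ Fin d → F), Cfsg.Agent.Lib.Helper99.IsoOn (Cfsg.Agent.Lib.Helper99.sympB d) U →
      ∀ u ∈ U, ∀ v ∈ U, Cfsg.sympForm d F u v = 0 := by
    intro U hU u hu v hv
    rw [← Cfsg.Agent.Lib.Helper99.sympB_apply]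
    exact hU u hu v hv
  rcases hcases with h | h
  · obtain ⟨U, W, hU, hW, hsup, h4, h5⟩ := Cfsg.Agent.Lib.Helper99.exists_lagrangian_fix hAlt h2 (T := T) hIso
      (by intro v; rw [hTT, h, one_smul]) _ ⊤ rfl (Cfsg.Agent.Lib.Helper99.sympB_nondeg d) (fun _ _ => trivial)
    exact ⟨U, W, isCompl_of_iso d hU hW hsup, conv U hU, conv W hW,
      Or.inl ⟨map_eq_of_apply_mem hz0 hTT h4 h4, map_eq_of_apply_mem hz0 hTT h5 h5⟩⟩
  · obtain ⟨U, W, hU, hW, hsup, h4, h5⟩ := Cfsg.Agent.Lib.Helper99.exists_lagrangian_swap hAlt h2 (T := T) hIso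
      (by intro v; rw [hTT, h, neg_one_smul]) _ ⊤ rfl (Cfsg.Agent.Lib.Helper99.sympB_nondeg d) (fun _ _ => trivial)
    exact ⟨U, W, isCompl_of_iso d hU hW hsup, conv U hU, conv W hW,
      Or.inr ⟨map_eq_of_apply_mem hz0 hTT h4 h5, map_eq_of_apply_mem hz0 hTT h5 h4⟩⟩

end Cfsg.Agent.S5962
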