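import Cfsg.Statements.S5963
import Cfsg.Agent.Lib.Helper99.PolarArith
import Cfsg.Agent.Lib.Helper99.PolarDerange
import Cfsg.Agent.Lib.Helper99.PolarElt

set_option autoImplicit false
open scoped MatrixGroups
open Cfsg Cfsg.Agent.Lib.Helper99

namespace Cfsg.Agent.S5963

/-- Derangements of odd prime order of PSp_n(q), q odd, on pairs of complementary totally isotropic subspaces. Here `T = PSp_n(q)`, `n = 2d ≥ 4`, `q` odd, realised through the symplectic matrices over the field `F` with `q` elements; Ω is the set of unordered pairs `{U, W}` of complementary totally isotropic `d`-spaces (`F^n = U ⊕ W`), whose stabilizers are the subgroups of type GL_d(q).2 (maximal except in some small cases; maximality is not assumed); an element of `T` of prime order `r` (a symplectic matrix `x` with `x^r` scalar, `x` not scalar) fixes such a pair when it fixes or interchanges `U` and `W`. For every odd prime `r ≠ p` dividing the number of such pairs,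 some element of `T` of order `r` fixes no such pair (the action is never `r`-elusive for odd `r ≠ p`). -/
theorem result {F : Type*} [Field F] [Fintype F] {p : ℕ} [Fact p.Prime] [CharP F p] {q : ℕ} (hq : Fintype.card F = q)
    (d : ℕ) (hd : 2 ≤ d) (hT : (d, q) ≠ (2, 2)) (hodd : Odd q)
    (r : ℕ) [Fact r.Prime] (hr2 : r ≠ 2) (hrp : r ≠ p) (hΩ : r ∣ Nat.card {P : Submodule F (Fin d ⊕ Fin d → F) × Submodule F (Fin d ⊕ Fin d → F) // IsCompl P.1 P.2 ∧ (∀ u ∈ P.1, ∀ v ∈ P.1, Cfsg.sympForm d F u v = 0) ∧ (∀ u ∈ P.2, ∀ v ∈ P.2, Cfsg.sympForm d F u v = 0)} / 2) :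
    ∃ x : ↥(Matrix.symplecticGroup (Fin d) F),
      (∃ z : F, ((x ^ r : ↥(Matrix.symplecticGroup (Fin d) F)) : Matrix (Fin d ⊕ Fin d) (Fin d ⊕ Fin d) F) = z • (1 : Matrix (Fin d ⊕ Fin d) (Fin d ⊕ Fin d) F)) ∧
      (∀ z : F, (x : Matrix (Fin d ⊕ Fin d) (Fin d ⊕ Fin d) F) ≠ z • (1 : Matrix (Fin d ⊕ Fin d) (Fin d ⊕ Fin d) F)) ∧
      ¬ (∃ U W : Submodule F (Fin d ⊕ Fin d → F), IsCompl U W ∧ (∀ u ∈ U, ∀ v ∈ U, Cfsg.sympForm d F u v = 0) ∧ (∀ u ∈ W, ∀ v ∈ W, Cfsg.sympForm d F u v = 0) ∧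
        ((U.map (Matrix.toLin' (x : Matrix (Fin d ⊕ Fin d) (Fin d ⊕ Fin d) F)) = U ∧ W.map (Matrix.toLin' (x : Matrix (Fin d ⊕ Fin d) (Fin d ⊕ Fin d) F)) = W) ∨
         (U.map (Matrix.toLin' (x : Matrix (Fin d ⊕ Fin d) (Fin d ⊕ Fin d) F)) = W ∧ W.map (Matrix.toLin' (x : Matrix (Fin d ⊕ Fin d) (Fin d ⊕ Fin d) F)) = U))) := by
  classical
  have hr : r.Prime := Fact.out
  have hp : p.Prime := Fact.out
  subst hq
  have hrq : ¬ r ∣ Fintype.card F := by
    intro h
    obtain ⟨n, -, hn⟩ := FiniteField.card F p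
    rw [hn] at h
    exact hrp ((Nat.prime_dvd_prime_iff_eq hr hp).1 (hr.dvd_of_dvd_pow h))
  have hfin : Module.finrank F (Fin d ⊕ Fin d → F) = 2 * d := by
    simp [two_mul]
  have hN2 := two_dvd_card_pairs (sympB_isAlt (F := F) d) (sympB_nondeg d) hfin (by omega) hodd
  have hN : r ∣ Nat.card {P : Submodule F (Fin d ⊕ Fin d → F) × Submodule F (Fin d ⊕ Fin d → F) //
      IsCompl P.1 P.2 ∧ IsoOn (sympB d) P.1 ∧ IsoOn (sympB d) P.2} := by
    obtain ⟨t, ht⟩ := hN2
    have h1 : r ∣ Nat.card {P : Submodule F (Fin d ⊕ Fin d → F) × Submodule F (Fin d ⊕ Fin d → F) //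
      IsCompl P.1 P.2 ∧ IsoOn (sympB d) P.1 ∧ IsoOn (sympB d) P.2} / 2 := by
      simp only [IsoOn, sympB_apply]
      exact hΩ
    rw [ht] at h1 ⊢
    rw [Nat.mul_div_cancel_left _ (by norm_num)] at h1
    exact Dvd.dvd.mul_left h1 _
  have hex : ∃ i, 1 ≤ i ∧ i ≤ d ∧ r ∣ Fintype.card F ^ i + 1 :=
    (prime_dvd_of_dvd_card_pairs (sympB_isAlt (F := F) d) (sympB_nondeg d) hfin hr hN).resolve_left hrq
  have hiff : ∀ j : ℕ, r ∣ Fintype.card F ^ j + 1 ↔ ((Fintype.card F : ℕ) : ZMod r) ^ j = -1 := by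
    intro j
    rw [← ZMod.natCast_eq_zero_iff, eq_neg_iff_add_eq_zero]
    push_cast
    rfl
  obtain ⟨i, hi1, hid, hri, hmin'⟩ : ∃ i, 1 ≤ i ∧ i ≤ d ∧ r ∣ Fintype.card F ^ i + 1 ∧
      ∀ j, 1 ≤ j → j < i → ¬ r ∣ Fintype.card F ^ j + 1 := by
    obtain ⟨hi1, hid, hri⟩ := Nat.find_spec hex
    refine ⟨Nat.find hex, hi1, hid, hri, ?_⟩
    intro j hj1 hji h
    exact Nat.find_min hex hji ⟨hj1, by omega, h⟩
  obtain ⟨k, rfl⟩ : ∃ k, d = i + k := ⟨d - i, by omega⟩
  obtain ⟨x, hxr, hx1, hxfix⟩ := exists_symplectic_order_r (F := F) (r := r) i k hi1 hri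
  set T := Matrix.toLin' (x : Matrix (Fin (i + k) ⊕ Fin (i + k)) (Fin (i + k) ⊕ Fin (i + k)) F) with hT
  have hTiso : ∀ u v, sympB (i + k) (T u) (T v) = sympB (i + k) u v := fun u v => sympB_iso (i + k) x u v
  have hmin : ∀ j, 1 ≤ j → j < i → ((Fintype.card F : ℕ) : ZMod r) ^ j ≠ -1 := by
    intro j hj1 hji h
    exact hmin' j hj1 hji ((hiff j).2 h)
  refine ⟨x, ⟨1, ?_⟩, ?_, ?_⟩
  · rw [one_smul]
    apply Matrix.toLin'.injective
    have h1 : ∀ M : Matrix (Fin (i + k) ⊕ Fin (i + k)) (Fin (i + k) ⊕ Fin (i + k)) F,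
      Matrix.toLin' M = Matrix.toLinAlgEquiv' M := fun _ => rfl
    rw [SubmonoidClass.coe_pow, h1, map_pow, ← h1, ← hT, hxr, h1, map_one]
  · intro z hz
    have hTz : ∀ v, T v = z • v := by
      intro v
      rw [hT, hz, Matrix.toLin'_apply, Matrix.smul_mulVec, Matrix.one_mulVec]
    have hTpow : ∀ n : ℕ, ∀ v, (T ^ n) v = z ^ n • v := by
      intro n
      induction n with
      | zero => intro v; simp
      | succ n ih =>
        intro v
        rw [pow_succ', Module.End.mul_apply, ih, hTz, smul_smul, pow_succ']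
    let e : Fin (i + k) ⊕ Fin (i + k) → F := Pi.single (Sum.inl ⟨0, by omega⟩) 1
    have he : e ≠ 0 := by
      intro h
      have := congrFun h (Sum.inl ⟨0, by omega⟩)
      simp [e] at this
    obtain ⟨y, -, hy⟩ := sympB_nondeg (F := F) (i + k) e trivial he
    have hz2 : z ^ 2 = 1 := by
      have h1 := hTiso e y
      rw [hTz, hTz, map_smul, map_smul, LinearMap.smul_apply, smul_eq_mul, smul_eq_mul, ← mul_assoc] at h1
      have h2 := mul_right_cancel₀ hy (h1.trans (one_mul _).symm)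
      rw [pow_two]; exact h2
    have hzr : z ^ r = 1 := by
      have h1 := hTpow r e
      rw [hxr, Module.End.one_apply] at h1
      have h2 := congrFun h1 (Sum.inl ⟨0, by omega⟩)
      simpa [e] using h2.symm
    have hz1 : z = 1 := by
      have h1 := pow_gcd_eq_one.2 ⟨hzr, hz2⟩
      rw [(Nat.Prime.coprime_iff_not_dvd hr).2
        (fun h => hr2 ((Nat.prime_dvd_prime_iff_eq hr Nat.prime_two).1 h)), pow_one] at h1
      exact h1
    apply hx1
    apply LinearMap.ext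
    intro v
    rw [hTz, hz1, one_smul]
    rfl
  · rintro ⟨U, W, hc, hU, hW, ⟨hUU, hWW⟩ | ⟨hUW, hWU⟩⟩
    · have hU' : IsoOn (sympB (i + k)) U := by
        intro u hu v hv
        rw [sympB_apply]; exact hU u hu v hv
      have hW' : IsoOn (sympB (i + k)) W := by
        intro u hu v hv
        rw [sympB_apply]; exact hW u hu v hv
      refine false_of_fixed_pair (sympB_isAlt (F := F) (i + k)) (sympB_nondeg (i + k)) hfin hrq hr2 hTiso hxr hx1
        ((hiff i).1 hri) hmin (by omega) hc hU' hW' ?_ ?_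
      · intro u hu
        rw [← hUU]
        exact Submodule.mem_map_of_mem hu
      · intro u hu
        rw [← hWW]
        exact Submodule.mem_map_of_mem hu
    · have : Nonempty (Fin (i + k) ⊕ Fin (i + k)) := ⟨Sum.inl ⟨0, by omega⟩⟩
      exact false_of_swapped_pair (hr.odd_of_ne_two hr2) hxr hc hUW hWU

end Cfsg.Agent.S5963
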