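import Cfsg.Statements.S5964
import Cfsg.Agent.Lib.Helper99.SubfieldConj

set_option autoImplicit false
open scoped MatrixGroups
open Cfsg

namespace Cfsg.Agent.S5964

open Cfsg.Agent.Lib.Helper99

section

variable {F : Type*} [Field F] [Fintype F]

omit [Fintype F] in
lemma sq_apply {n : ℕ} (x : Matrix.SpecialLinearGroup (Fin n) F) {z : F}
    (hz : ((x ^ 2 : Matrix.SpecialLinearGroup (Fin n) F) : Matrix (Fin n) (Fin n) F) = z • (1 : Matrix (Fin n) (Fin n) F)) :
    ∀ v, Matrix.toLin' (x : Matrix (Fin n) (Fin n) F) (Matrix.toLin' (x : Matrix (Fin n) (Fin n) F) v) = z • v := by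
  intro v
  have : Matrix.toLin' (x : Matrix (Fin n) (Fin n) F) (Matrix.toLin' (x : Matrix (Fin n) (Fin n) F) v)
      = Matrix.toLin' ((x ^ 2 : Matrix.SpecialLinearGroup (Fin n) F) : Matrix (Fin n) (Fin n) F) v := by
    rw [pow_two, Matrix.SpecialLinearGroup.coe_mul, Matrix.toLin'_mul]
    rfl
  rw [this, hz]
  simp

omit [Fintype F] in
lemma pow_eq_one_of_sq {n : ℕ} (x : Matrix.SpecialLinearGroup (Fin n) F) {z : F}
    (hz : ((x ^ 2 : Matrix.SpecialLinearGroup (Fin n) F) : Matrix (Fin n) (Fin n) F) = z • (1 : Matrix (Fin n) (Fin n) F)) :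
    z ^ n = 1 := by
  have h1 := (x ^ 2).2
  rw [hz, Matrix.det_smul, Matrix.det_one, mul_one, Fintype.card_fin] at h1
  exact h1

theorem backward_even (hev : Fintype.card F % 2 = 0) (n : ℕ) (hn : 2 ≤ n) (F₀ : Subfield F)
    (x : Matrix.SpecialLinearGroup (Fin n) F)
    (hx : ∃ z : F, ((x ^ 2 : Matrix.SpecialLinearGroup (Fin n) F) : Matrix (Fin n) (Fin n) F) = z • (1 : Matrix (Fin n) (Fin n) F)) :
    ∃ P : Matrix.SpecialLinearGroup (Fin n) F, P⁻¹ * x * P ∈ ((Cfsg.Geo.subfieldSubgroup F₀ 1).comap (Matrix.SpecialLinearGroup.toGL : Matrix.SpecialLinearGroup (Fin n) F →* GL (Fin n) F)) := by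
  classical
  obtain ⟨z, hz⟩ := hx
  have h2 := two_eq_zero_of_even_card hev
  obtain ⟨c, hc⟩ := FiniteField.isSquare_of_char_two (ringChar_eq_two_of_even_card hev) z
  have hzn := pow_eq_one_of_sq x hz
  have hc0 : c ≠ 0 := by
    rintro rfl
    rw [hc, mul_zero, zero_pow (by omega)] at hzn
    exact zero_ne_one hzn
  have hTT := sq_apply x hz
  rw [hc, ← pow_two] at hTT
  obtain ⟨ι, _, _, b, π, hπ, hTb⟩ := exists_perm_basis_char_two h2 hc0 hTT
  have hcard : Fintype.card ι = n := by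
    have := Module.finrank_eq_card_basis b
    simpa using this.symm
  let σ : Fin n ≃ ι := (Fintype.equivFinOfCardEq hcard).symm
  have : Nonempty ι := ⟨σ ⟨0, by omega⟩⟩
  have hu := LinearEquiv.isUnit_det' ((Pi.basisFun F (Fin n)).equiv b σ)
  obtain ⟨w, hw, hwp⟩ := exists_invariant_weights hev π hπ (hu.unit)⁻¹
  refine exists_conj_mem_subfield F₀ x ((Pi.basisFun F (Fin n)).equiv (b.unitsSMul w) σ) ?_ c hc0 ?_
  · rw [det_equiv_unitsSMul, hwp, Units.val_inv_eq_inv_val, IsUnit.unit_spec, inv_mul_cancel₀ hu.ne_zero]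
  · intro j
    refine ⟨σ.symm (π (σ j)), 1, F₀.one_mem, ?_⟩
    rw [← Pi.basisFun_apply, ← Pi.basisFun_apply, Module.Basis.equiv_apply, Module.Basis.equiv_apply,
      Equiv.apply_symm_apply, Module.Basis.unitsSMul_apply, Module.Basis.unitsSMul_apply, hw, Units.smul_def,
      map_smul, hTb, mul_one, smul_comm, Units.smul_def]

theorem backward_sq (hodd : Fintype.card F % 2 = 1) (n : ℕ) (hn : 2 ≤ n) (F₀ : Subfield F)
    (x : Matrix.SpecialLinearGroup (Fin n) F) (l : F)
    (hz : ((x ^ 2 : Matrix.SpecialLinearGroup (Fin n) F) : Matrix (Fin n) (Fin n) F) = (l ^ 2) • (1 : Matrix (Fin n) (Fin n) F)) :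
    ∃ P : Matrix.SpecialLinearGroup (Fin n) F, P⁻¹ * x * P ∈ ((Cfsg.Geo.subfieldSubgroup F₀ 1).comap (Matrix.SpecialLinearGroup.toGL : Matrix.SpecialLinearGroup (Fin n) F →* GL (Fin n) F)) := by
  classical
  have h2 := two_ne_zero_of_odd_card hodd
  have hzn := pow_eq_one_of_sq x hz
  have hl0 : l ≠ 0 := by
    rintro rfl
    rw [zero_pow (by omega), zero_pow (by omega)] at hzn
    exact zero_ne_one hzn
  have hTT := sq_apply x hz
  obtain ⟨α, β, b, h1, h3⟩ := exists_eigenbasis h2 hl0 hTT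
  have hcard : Fintype.card (Fin α ⊕ Fin β) = n := by
    have := Module.finrank_eq_card_basis b
    simpa using this.symm
  let σ : Fin n ≃ Fin α ⊕ Fin β := (Fintype.equivFinOfCardEq hcard).symm
  have hu := LinearEquiv.isUnit_det' ((Pi.basisFun F (Fin n)).equiv b σ)
  let k₀ := σ ⟨0, by omega⟩
  refine exists_conj_mem_subfield F₀ x ((Pi.basisFun F (Fin n)).equiv
    (b.unitsSMul (Function.update 1 k₀ (hu.unit)⁻¹)) σ) ?_ l hl0 ?_
  · rw [det_equiv_unitsSMul]
    have : ∏ i, ((Function.update (1 : Fin α ⊕ Fin β → Fˣ) k₀ (hu.unit)⁻¹ i : Fˣ) : F) = ((hu.unit)⁻¹ : Fˣ) := by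
      rw [Finset.prod_eq_single k₀]
      · simp
      · intro i _ hi
        simp [Function.update_of_ne hi]
      · intro h; exact absurd (Finset.mem_univ k₀) h
    rw [this, Units.val_inv_eq_inv_val, IsUnit.unit_spec, inv_mul_cancel₀ hu.ne_zero]
  · intro j
    rw [← Pi.basisFun_apply, Module.Basis.equiv_apply, Module.Basis.unitsSMul_apply, Units.smul_def, map_smul]
    rcases hj : σ j with i | i
    · refine ⟨j, 1, F₀.one_mem, ?_⟩
      rw [← Pi.basisFun_apply, Module.Basis.equiv_apply, Module.Basis.unitsSMul_apply, Units.smul_def, hj, h1,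
        mul_one, smul_comm]
    · refine ⟨j, -1, F₀.neg_mem F₀.one_mem, ?_⟩
      rw [← Pi.basisFun_apply, Module.Basis.equiv_apply, Module.Basis.unitsSMul_apply, Units.smul_def, hj, h3,
        mul_neg, mul_one, smul_comm]

theorem exists_sqrt_of_val_le (hodd : Fintype.card F % 2 = 1) (n : ℕ) (hn : 2 ≤ n) (F₀ : Subfield F)
    (hcard : Fintype.card F = Nat.card F₀ ^ 2)
    (hv : padicValNat 2 n ≤ padicValNat 2 (Fintype.card F - 1))
    (x : Matrix.SpecialLinearGroup (Fin n) F) (z : F)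
    (hz : ((x ^ 2 : Matrix.SpecialLinearGroup (Fin n) F) : Matrix (Fin n) (Fin n) F) = z • (1 : Matrix (Fin n) (Fin n) F)) :
    ∃ l : F, l ^ 2 = z := by
  classical
  by_contra hsq
  push Not at hsq
  have h2 := two_ne_zero_of_odd_card hodd
  have hF := ringChar_ne_two_of_odd_card hodd
  have hzn := pow_eq_one_of_sq x hz
  have hTT := sq_apply x hz
  rcases Nat.even_or_odd' n with ⟨t, ht | ht⟩
  · have hfr : Module.finrank F (Fin n → F) = 2 * t := by simp [ht]
    obtain ⟨ww, hww⟩ := exists_companion_basis hTT hsq hfr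
    have hdet := planeMap_det ww hww (fun _ => 0) (fun _ => 1) (S := Matrix.toLin' (x : Matrix (Fin n) (Fin n) F))
      (by intro k; simp)
    rw [LinearMap.det_toLin', x.2] at hdet
    simp only [ne_eq, OfNat.ofNat_ne_zero, not_false_eq_true, zero_pow, one_pow, mul_one, zero_sub,
      Finset.prod_const, Finset.card_univ, Fintype.card_fin] at hdet
    obtain ⟨i, hi⟩ := exists_sq_eq_of_mem_subfield hodd F₀ hcard (F₀.neg_mem F₀.one_mem)
    have hz0 : -z ≠ 0 := by
      intro h
      apply hsq 0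
      rw [neg_eq_zero] at h
      rw [h]; simp
    have hns : ¬ IsSquare (-z) := by
      rintro ⟨d, hd⟩
      apply hsq (i * d)
      rw [mul_pow, hi, pow_two, ← hd]; ring
    have hA : (-z) ^ (Fintype.card F / 2) = -1 := by
      rcases FiniteField.pow_dichotomy hF hz0 with h | h
      · exact absurd ((FiniteField.isSquare_iff hF hz0).2 h) hns
      · exact h
    refine false_of_pow_eq_neg_one_of_pow_eq_one h2 hA hdet.symm (by omega) ?_
    have e1 : t = n / 2 := by omega
    have e2 : Fintype.card F / 2 = (Fintype.card F - 1) / 2 := by omega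
    rw [e1, e2, padicValNat.div (by omega), padicValNat.div (by omega)]
    omega
  · apply hsq (z ^ (t + 1))
    rw [← pow_mul]
    have : (t + 1) * 2 = n + 1 := by omega
    rw [this, pow_succ, hzn, one_mul]

theorem forward_val (hodd : Fintype.card F % 2 = 1) (n : ℕ) (hn : 2 ≤ n) (F₀ : Subfield F)
    (hcard : Fintype.card F = Nat.card F₀ ^ 2)
    (hall : ∀ x : Matrix.SpecialLinearGroup (Fin n) F,
      (∃ z : F, ((x ^ 2 : Matrix.SpecialLinearGroup (Fin n) F) : Matrix (Fin n) (Fin n) F) = z • (1 : Matrix (Fin n) (Fin n) F)) →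
      (∀ z : F, (x : Matrix (Fin n) (Fin n) F) ≠ z • (1 : Matrix (Fin n) (Fin n) F)) →
      ∃ P : Matrix.SpecialLinearGroup (Fin n) F, P⁻¹ * x * P ∈ ((Cfsg.Geo.subfieldSubgroup F₀ 1).comap (Matrix.SpecialLinearGroup.toGL : Matrix.SpecialLinearGroup (Fin n) F →* GL (Fin n) F))) :
    padicValNat 2 n ≤ padicValNat 2 (Fintype.card F - 1) := by
  classical
  by_contra hcon
  push Not at hcon
  set e := padicValNat 2 (Fintype.card F - 1) with he
  have h2 := two_ne_zero_of_odd_card hodd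
  have hdvd : 2 ^ (e + 1) ∣ n := (pow_dvd_pow 2 hcon).trans pow_padicValNat_dvd
  obtain ⟨t', ht'⟩ := hdvd
  set t := 2 ^ e * t' with ht
  have hnt : n = t * 2 := by rw [ht', ht, pow_succ]; ring
  obtain ⟨y₀, hy₀, hy₀p⟩ := exists_nonsquare_two_pow (F := F) hodd
  rw [← he] at hy₀p
  have hy₀t : y₀ ^ t = 1 := by rw [ht, pow_mul, hy₀p, one_pow]
  obtain ⟨i, hi⟩ := exists_sq_eq_of_mem_subfield hodd F₀ hcard (F₀.neg_mem F₀.one_mem)
  set z := -y₀ with hzdef
  have hzns : ∀ d : F, d ^ 2 ≠ z := by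
    intro d hd
    apply hy₀ (i * d)
    rw [mul_pow, hi, hd, hzdef]; ring
  let τ : Fin n ≃ Fin t × Fin 2 := (finCongr hnt).trans finProdFinEquiv.symm
  let bb : Module.Basis (Fin t × Fin 2) F (Fin n → F) := (Pi.basisFun F (Fin n)).reindex τ
  set T : (Fin n → F) →ₗ[F] (Fin n → F) :=
    bb.constr F (fun k => if k.2 = 0 then bb (k.1, 1) else z • bb (k.1, 0)) with hT
  have hb : ∀ j, T (bb (j, 0)) = bb (j, 1) ∧ T (bb (j, 1)) = z • bb (j, 0) := by
    intro j
    constructor
    · rw [hT, Module.Basis.constr_basis]; simp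
    · rw [hT, Module.Basis.constr_basis]; simp
  have hdet : LinearMap.det T = 1 := by
    rw [planeMap_det bb hb (fun _ => 0) (fun _ => 1) (S := T) (by intro k; simp)]
    simp only [ne_eq, OfNat.ofNat_ne_zero, not_false_eq_true, zero_pow, one_pow, mul_one, zero_sub,
      Finset.prod_const, Finset.card_univ, Fintype.card_fin]
    rw [hzdef, neg_neg, hy₀t]
  have hTT : T ∘ₗ T = z • LinearMap.id := by
    apply bb.ext
    rintro ⟨j, s⟩
    have hs : s = 0 ∨ s = 1 := by fin_cases s <;> simp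
    rcases hs with rfl | rfl
    · simp [(hb j).1, (hb j).2]
    · simp [(hb j).1, (hb j).2]
  set x : Matrix.SpecialLinearGroup (Fin n) F :=
    ⟨LinearMap.toMatrix' T, by rw [LinearMap.det_toMatrix']; exact hdet⟩ with hx
  have hxc : (x : Matrix (Fin n) (Fin n) F) = LinearMap.toMatrix' T := rfl
  have hx2 : ((x ^ 2 : Matrix.SpecialLinearGroup (Fin n) F) : Matrix (Fin n) (Fin n) F)
      = z • (1 : Matrix (Fin n) (Fin n) F) := by
    rw [pow_two, Matrix.SpecialLinearGroup.coe_mul, hxc, ← LinearMap.toMatrix'_comp, hTT, map_smul,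
      LinearMap.toMatrix'_id]
  let i0 : Fin n := ⟨0, by omega⟩
  have hns : ∀ c : F, (x : Matrix (Fin n) (Fin n) F) ≠ c • (1 : Matrix (Fin n) (Fin n) F) := by
    intro c hc
    apply hzns c
    rw [pow_two, Matrix.SpecialLinearGroup.coe_mul, hc] at hx2
    have := congrFun (congrFun hx2 i0) i0
    simp at this
    rw [pow_two]; exact this
  obtain ⟨P, hP⟩ := hall x ⟨z, hx2⟩ hns
  obtain ⟨c, N, hc0, hcN⟩ := exists_entries_of_mem_subfieldSubgroup F₀ _ hP
  have hcN' : ((P⁻¹ * x * P : Matrix.SpecialLinearGroup (Fin n) F) : Matrix (Fin n) (Fin n) F)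
      = c • (F₀.subtype.mapMatrix N) := hcN
  have hsq : ((P⁻¹ * x * P : Matrix.SpecialLinearGroup (Fin n) F) : Matrix (Fin n) (Fin n) F)
      * ((P⁻¹ * x * P : Matrix.SpecialLinearGroup (Fin n) F) : Matrix (Fin n) (Fin n) F)
      = z • (1 : Matrix (Fin n) (Fin n) F) := by
    rw [← Matrix.SpecialLinearGroup.coe_mul]
    have : P⁻¹ * x * P * (P⁻¹ * x * P) = P⁻¹ * x ^ 2 * P := by
      rw [pow_two]; group
    rw [this, Matrix.SpecialLinearGroup.coe_mul, Matrix.SpecialLinearGroup.coe_mul, hx2, Matrix.mul_smul,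
      Matrix.mul_one, Matrix.smul_mul, ← Matrix.SpecialLinearGroup.coe_mul, inv_mul_cancel,
      Matrix.SpecialLinearGroup.coe_one]
  rw [hcN', Matrix.smul_mul, Matrix.mul_smul, ← map_mul, smul_smul] at hsq
  have h3 := congrFun (congrFun hsq i0) i0
  simp only [Matrix.smul_apply, RingHom.mapMatrix_apply, Matrix.map_apply, Subfield.coe_subtype,
    Matrix.one_apply_eq, smul_eq_mul, mul_one] at h3
  obtain ⟨d, hd⟩ := exists_sq_eq_of_mem_subfield hodd F₀ hcard ((N * N) i0 i0).2
  apply hzns (c * d)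
  rw [mul_pow, hd, ← h3, pow_two]

end

/-- Involutions of PSL_n(q) and subfield subgroups. Here `T = PSL_n(F)` for a field `F` with `q = p^f` elements (`n ≥ 2`, `(n, q) ≠ (2, 2), (2, 3)`), `F₀` is the subfield with `q₀` elements where `q = q₀^k` for a prime `k`, and `H` is the subgroup of matrices of determinant 1 lying in the subfield group of `F₀` (invertible matrices over `F₀` times scalars) — a maximal subgroup of type GL_n(q₀) (the case `n = 2`, `q₀ = 2` is excluded); Ω is the set of `T`-conjugates of `H` (cosets of `H`), so an element of `T` of prime order `r` (a matrix `x` of determinant 1 with `x^r` scalar, `x` not scalar) fixes a point of Ω when some conjugate of `x` by a matrix of determinant 1 lies in `H`. Suppose the index of `H` is even. Then every involution of `T` is conjugate in `T` into `H` if and only if either `q` is even, or `k = 2` and `(n)_2 ≤ (q − 1)_2`. (For `q` odd and `k` odd the index of `H` is odd, so that case does not arise.) -/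
theorem result {F : Type*} [Field F] [Fintype F] {p : ℕ} [Fact p.Prime] [CharP F p] {q : ℕ} (hq : Fintype.card F = q)
    (n : ℕ) (hn : 2 ≤ n) (hT : (n, q) ≠ (2, 2) ∧ (n, q) ≠ (2, 3))
    (F₀ : Subfield F) (k q₀ : ℕ) (hk : k.Prime) (hF₀ : Nat.card ↥F₀ = q₀) (hqk : q = q₀ ^ k) (hC5 : ¬ (n = 2 ∧ q₀ = 2)) (hΩ : 2 ∣ ((Cfsg.Geo.subfieldSubgroup F₀ 1).comap (Matrix.SpecialLinearGroup.toGL : Matrix.SpecialLinearGroup (Fin n) F →* GL (Fin n) F)).index) :
    (∀ x : Matrix.SpecialLinearGroup (Fin n) F,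
      (∃ z : F, ((x ^ 2 : Matrix.SpecialLinearGroup (Fin n) F) : Matrix (Fin n) (Fin n) F) = z • (1 : Matrix (Fin n) (Fin n) F)) →
      (∀ z : F, (x : Matrix (Fin n) (Fin n) F) ≠ z • (1 : Matrix (Fin n) (Fin n) F)) →
      ∃ P : Matrix.SpecialLinearGroup (Fin n) F, P⁻¹ * x * P ∈ ((Cfsg.Geo.subfieldSubgroup F₀ 1).comap (Matrix.SpecialLinearGroup.toGL : Matrix.SpecialLinearGroup (Fin n) F →* GL (Fin n) F))) ↔
    (Odd q → (k = 2 ∧ padicValNat 2 n ≤ padicValNat 2 (q - 1))) := by
  subst hq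
  subst hF₀
  constructor
  · intro hall hodd
    have hk2 : k = 2 := by
      rcases hk.eq_two_or_odd' with h | h
      · exact h
      · exfalso
        have := odd_index_subfield n (by omega) F₀ k h hqk hodd
        rw [← Nat.not_even_iff_odd] at this
        exact this (even_iff_two_dvd.2 hΩ)
    subst hk2
    exact ⟨rfl, forward_val (Nat.odd_iff.1 hodd) n hn F₀ hqk hall⟩
  · intro h x hx _
    rcases Nat.mod_two_eq_zero_or_one (Fintype.card F) with hev | hodd
    · exact backward_even hev n hn F₀ x hx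
    · obtain ⟨rfl, hv⟩ := h (Nat.odd_iff.2 hodd)
      obtain ⟨z, hz⟩ := hx
      obtain ⟨l, rfl⟩ := exists_sqrt_of_val_le hodd n hn F₀ hqk hv x z hz
      exact backward_sq hodd n hn F₀ x l hz

end Cfsg.Agent.S5964
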