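import Cfsg.Statements.S5967
import Cfsg.Agent.Lib.Helper99.SympBridge
import Cfsg.Agent.Lib.Helper99.FFArith

set_option autoImplicit false
open scoped MatrixGroups
open Cfsg

namespace Cfsg.Agent.S5967

open Cfsg.Agent.Lib.Helper99

theorem forward {F : Type*} [Field F] [Fintype F]
    (n : ℕ) (hn : 4 ≤ n) (f : (Fin n → F) → (Fin n → F) → F) (hf : Cfsg.Geo.IsSymplecticForm f)
    (hall : ∀ x : Matrix.SpecialLinearGroup (Fin n) F,
      (∃ z : F, ((x ^ 2 : Matrix.SpecialLinearGroup (Fin n) F) : Matrix (Fin n) (Fin n) F) = z • (1 : Matrix (Fin n) (Fin n) F)) →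
      (∀ z : F, (x : Matrix (Fin n) (Fin n) F) ≠ z • (1 : Matrix (Fin n) (Fin n) F)) →
      ∃ P : Matrix.SpecialLinearGroup (Fin n) F, P⁻¹ * x * P ∈ ((Cfsg.Geo.similarityGroup f).comap (Matrix.SpecialLinearGroup.toGL : Matrix.SpecialLinearGroup (Fin n) F →* GL (Fin n) F))) :
    padicValNat 2 (Fintype.card F - 1) ≤ padicValNat 2 n := by
  classical
  by_contra hcon
  push Not at hcon
  obtain ⟨l, hl, h2⟩ := exists_pow_eq_neg_one (F := F) (by omega) hcon
  have hl0 : l ≠ 0 := by
    rintro rfl
    rw [zero_pow (by omega)] at hl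
    have := congrArg Neg.neg hl
    simp at this
  let i0 : Fin n := ⟨0, by omega⟩
  let i1 : Fin n := ⟨1, by omega⟩
  let i2 : Fin n := ⟨2, by omega⟩
  have h10 : i1 ≠ i0 := by simp [i0, i1, Fin.ext_iff]
  have h20 : i2 ≠ i0 := by simp [i0, i2, Fin.ext_iff]
  have h21 : i2 ≠ i1 := by simp [i1, i2, Fin.ext_iff]
  set d : Fin n → F := fun i => l * (if i = i0 then -1 else 1) with hd
  have hd0 : d i0 = -l := by simp [hd]
  have hd1 : ∀ i, i ≠ i0 → d i = l := by
    intro i hi
    simp [hd, hi]
  have hdet : (Matrix.diagonal d).det = 1 := by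
    rw [Matrix.det_diagonal, hd, Finset.prod_mul_distrib, Finset.prod_const, Finset.card_univ,
      Fintype.card_fin, hl, Finset.prod_ite_eq' Finset.univ i0 (fun _ => (-1 : F))]
    simp
  set x : Matrix.SpecialLinearGroup (Fin n) F := ⟨Matrix.diagonal d, hdet⟩ with hx
  have hxc : (x : Matrix (Fin n) (Fin n) F) = Matrix.diagonal d := rfl
  have hx2 : ((x ^ 2 : Matrix.SpecialLinearGroup (Fin n) F) : Matrix (Fin n) (Fin n) F)
      = (l ^ 2) • (1 : Matrix (Fin n) (Fin n) F) := by
    rw [pow_two, Matrix.SpecialLinearGroup.coe_mul, hxc, Matrix.diagonal_mul_diagonal,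
      ← Matrix.diagonal_one, ← Matrix.diagonal_smul]
    congr 1
    funext i
    by_cases hi : i = i0
    · subst hi
      simp [hd0, pow_two]
    · simp [hd1 i hi, pow_two]
  have hns : ∀ z : F, (x : Matrix (Fin n) (Fin n) F) ≠ z • (1 : Matrix (Fin n) (Fin n) F) := by
    intro z hz
    rw [hxc] at hz
    have e0 := congrFun (congrFun hz i0) i0
    have e1 := congrFun (congrFun hz i1) i1
    simp only [Matrix.diagonal_apply_eq, Matrix.smul_apply, Matrix.one_apply_eq, smul_eq_mul, mul_one] at e0 e1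
    rw [hd0] at e0
    rw [hd1 i1 h10] at e1
    have : (2 : F) * l = 0 := by
      rw [two_mul]
      nth_rewrite 1 [e1]
      rw [← e0]; ring
    exact (mul_ne_zero h2 hl0) this
  obtain ⟨P, hP⟩ := hall x ⟨l ^ 2, hx2⟩ hns
  obtain ⟨c, hc⟩ := hP
  set y := P⁻¹ * x * P with hy
  have hc' : ∀ u v, f ((y : Matrix (Fin n) (Fin n) F).mulVec u) ((y : Matrix (Fin n) (Fin n) F).mulVec v)
      = (c : F) * f u v := hc
  set Q : Matrix (Fin n) (Fin n) F := ((P⁻¹ : Matrix.SpecialLinearGroup (Fin n) F) : Matrix (Fin n) (Fin n) F) with hQ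
  have hQx : Q * (x : Matrix (Fin n) (Fin n) F) = (y : Matrix (Fin n) (Fin n) F) * Q := by
    have h3 : P⁻¹ * x = y * P⁻¹ := by
      rw [hy, mul_assoc, mul_inv_cancel, mul_one]
    rw [hQ, ← Matrix.SpecialLinearGroup.coe_mul, ← Matrix.SpecialLinearGroup.coe_mul, h3]
  have hQP : Q * (P : Matrix (Fin n) (Fin n) F) = 1 := by
    rw [hQ, ← Matrix.SpecialLinearGroup.coe_mul, inv_mul_cancel, Matrix.SpecialLinearGroup.coe_one]
  have hPQ : (P : Matrix (Fin n) (Fin n) F) * Q = 1 := by
    rw [hQ, ← Matrix.SpecialLinearGroup.coe_mul, mul_inv_cancel, Matrix.SpecialLinearGroup.coe_one]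
  set G : LinearMap.BilinForm F (Fin n → F) :=
    (formB hf.bilinear).comp (Matrix.toLin' Q) (Matrix.toLin' Q) with hG
  have hGa : ∀ u v, G u v = f (Q.mulVec u) (Q.mulVec v) := fun u v => rfl
  have hGalt : ∀ u, G u u = 0 := fun u => hf.alternating _
  have hGx : ∀ u v, G ((Matrix.diagonal d).mulVec u) ((Matrix.diagonal d).mulVec v) = (c : F) * G u v := by
    intro u v
    rw [hGa, hGa, Matrix.mulVec_mulVec, Matrix.mulVec_mulVec, ← hxc, hQx, ← Matrix.mulVec_mulVec,
      ← Matrix.mulVec_mulVec, hc']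
  have hGe : ∀ i j, (d i * d j - c) * G (Pi.single i 1) (Pi.single j 1) = 0 := by
    intro i j
    have := hGx (Pi.single i 1) (Pi.single j 1)
    rw [Matrix.diagonal_mulVec_single, Matrix.diagonal_mulVec_single] at this
    have e1 : ∀ k, (Pi.single k (d k * 1) : Fin n → F) = d k • Pi.single k 1 := by
      intro k
      rw [← Pi.single_smul]
      simp
    rw [e1, e1, map_smul, map_smul, LinearMap.smul_apply, smul_eq_mul, smul_eq_mul] at this
    rw [sub_mul, ← this]; ring
  have hrad : ∀ w : Fin n → F, (∀ j, G w (Pi.single j 1) = 0) → w = 0 := by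
    intro w hw
    have h3 : G w = 0 := by
      apply (Pi.basisFun F (Fin n)).ext
      intro j
      rw [Pi.basisFun_apply]
      exact hw j
    by_contra hw0
    have hQw : Q.mulVec w ≠ 0 := by
      intro h
      apply hw0
      have := congrArg (fun v => (P : Matrix (Fin n) (Fin n) F).mulVec v) h
      simpa [Matrix.mulVec_mulVec, hPQ] using this
    obtain ⟨v, hv⟩ := (hf.nondegenerate _ hQw).2
    apply hv
    have h4 : G w ((P : Matrix (Fin n) (Fin n) F).mulVec v) = 0 := by rw [h3]; rfl
    rw [hGa, Matrix.mulVec_mulVec, hQP, Matrix.one_mulVec] at h4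
    exact h4
  have hsingle : ∀ i : Fin n, (Pi.single i 1 : Fin n → F) ≠ 0 := by
    intro i h
    have := congrFun h i
    simp at this
  by_cases hcl : (c : F) = -l ^ 2
  · have hz : ∀ i j, i ≠ i0 → j ≠ i0 → G (Pi.single i 1) (Pi.single j 1) = 0 := by
      intro i j hi hj
      have := hGe i j
      rw [hd1 i hi, hd1 j hj, hcl] at this
      refine (mul_eq_zero.1 this).resolve_left ?_
      have : l * l - -l ^ 2 = 2 * (l * l) := by ring
      rw [this]
      exact mul_ne_zero h2 (mul_ne_zero hl0 hl0)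
    by_cases hs : G (Pi.single i1 1) (Pi.single i0 1) = 0
    · apply hsingle i1
      apply hrad
      intro j
      by_cases hj : j = i0
      · rw [hj]; exact hs
      · exact hz i1 j h10 hj
    · have hw := hrad (G (Pi.single i2 1) (Pi.single i0 1) • Pi.single i1 1
          - G (Pi.single i1 1) (Pi.single i0 1) • Pi.single i2 1) (by
        intro j
        rw [map_sub, map_smul, map_smul, LinearMap.sub_apply, LinearMap.smul_apply, LinearMap.smul_apply,
          smul_eq_mul, smul_eq_mul]
        by_cases hj : j = i0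
        · rw [hj]; ring
        · rw [hz i1 j h10 hj, hz i2 j h20 hj]; ring)
      have := congrFun hw i2
      simp [h21] at this
      exact hs this
  · apply hsingle i0
    apply hrad
    intro j
    by_cases hj : j = i0
    · rw [hj]; exact hGalt _
    · have := hGe i0 j
      rw [hd0, hd1 j hj] at this
      refine (mul_eq_zero.1 this).resolve_left ?_
      intro h
      apply hcl
      have : (c : F) = -l * l := (sub_eq_zero.1 h).symm
      rw [this]; ring

theorem backward {F : Type*} [Field F] [Fintype F]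
    (n : ℕ) (hn : 4 ≤ n) (he : Even n) (f : (Fin n → F) → (Fin n → F) → F) (hf : Cfsg.Geo.IsSymplecticForm f)
    (hv : padicValNat 2 (Fintype.card F - 1) ≤ padicValNat 2 n)
    (x : Matrix.SpecialLinearGroup (Fin n) F)
    (hx : ∃ z : F, ((x ^ 2 : Matrix.SpecialLinearGroup (Fin n) F) : Matrix (Fin n) (Fin n) F) = z • (1 : Matrix (Fin n) (Fin n) F)) :
      ∃ P : Matrix.SpecialLinearGroup (Fin n) F, P⁻¹ * x * P ∈ ((Cfsg.Geo.similarityGroup f).comap (Matrix.SpecialLinearGroup.toGL : Matrix.SpecialLinearGroup (Fin n) F →* GL (Fin n) F)) := by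
  classical
  obtain ⟨z, hz⟩ := hx
  set T := Matrix.toLin' (x : Matrix (Fin n) (Fin n) F) with hTdef
  have hTT : ∀ v, T (T v) = z • v := by
    intro v
    have : T (T v) = Matrix.toLin' ((x ^ 2 : Matrix.SpecialLinearGroup (Fin n) F) : Matrix (Fin n) (Fin n) F) v := by
      rw [pow_two, Matrix.SpecialLinearGroup.coe_mul, Matrix.toLin'_mul]
      rfl
    rw [this, hz]
    simp
  have hz0 : z ≠ 0 := by
    rintro rfl
    have h1 := (x ^ 2).2
    have : Nonempty (Fin n) := ⟨⟨0, by omega⟩⟩
    rw [hz, zero_smul, Matrix.det_zero] at h1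
    exact zero_ne_one h1
  have hdetT : LinearMap.det T = 1 := by
    rw [hTdef, LinearMap.det_toLin']
    exact x.2
  have hfr : Module.finrank F (Fin n → F) = n := by simp
  have key : ∃ μ : F, μ ≠ 0 ∧ HasDetPlanes T μ := by
    by_cases h2 : (2 : F) = 0
    · refine ⟨-z, neg_ne_zero.2 hz0, hasDetPlanes_of_monomial hTT ?_ (by rw [hfr]; exact he)⟩
      intro c₁ c₂ h1 h3
      have h4 : (c₁ - c₂) ^ 2 = 0 := by
        have : (c₁ - c₂) ^ 2 = c₁ ^ 2 + c₂ ^ 2 - 2 * (c₁ * c₂) := by ring
        rw [this, h1, h3, h2, ← two_mul, h2]; ring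
      have h5 : c₁ = c₂ := sub_eq_zero.1 (pow_eq_zero_iff (two_ne_zero) |>.1 h4)
      rw [h5, ← pow_two, h3]
      have : z + z = 0 := by rw [← two_mul, h2, zero_mul]
      exact eq_neg_of_add_eq_zero_left this
    · by_cases hsq : ∃ l : F, l ^ 2 = z
      · obtain ⟨l, rfl⟩ := hsq
        have hl0 : l ≠ 0 := by
          rintro rfl
          exact hz0 (by simp)
        obtain ⟨α, β, b, h1, h3⟩ := exists_eigenbasis h2 hl0 hTT
        have hdet := det_of_eigenbasis b h1 h3
        rw [hdetT] at hdet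
        have hαβ : α + β = n := by
          have := Module.finrank_eq_card_basis b
          rw [hfr, Fintype.card_sum, Fintype.card_fin, Fintype.card_fin] at this
          exact this.symm
        have hβ : Even β := by
          by_contra hodd
          rw [Nat.not_even_iff_odd] at hodd
          have h4 : l ^ n = -1 := by
            rw [neg_pow l β, hodd.neg_one_pow] at hdet
            rw [← hαβ, pow_add]
            linear_combination hdet
          have := padicValNat_lt_of_pow_eq_neg_one h2 h4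
          omega
        have hα : Even α := by
          rw [← hαβ] at he
          exact (Nat.even_add.1 he).2 hβ
        exact ⟨l ^ 2, hz0, hasDetPlanes_of_eigen b h1 h3 hα hβ⟩
      · refine ⟨-z, neg_ne_zero.2 hz0, hasDetPlanes_of_monomial hTT ?_ (by rw [hfr]; exact he)⟩
        intro c₁ _ h1 _
        exact absurd ⟨c₁, h1⟩ hsq
  obtain ⟨μ, hμ, hpl⟩ := key
  have : Nonempty (Fin n) := ⟨⟨0, by omega⟩⟩
  obtain ⟨P, hPdet, hP⟩ := exists_conj_similitude (formB_isAlt hf) (formB_nondeg hf) hpl
  obtain ⟨P', hP'⟩ := exists_sl_conj x P hPdet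
  refine ⟨P', ?_⟩
  refine ⟨Units.mk0 μ hμ, ?_⟩
  intro u v
  have := hP u v
  rw [formB_apply, formB_apply, ← hP', ← hP'] at this
  exact this

/-- Involutions of PSL_n(q) and the symplectic-type subgroups. Here `T = PSL_n(F)` for a field `F` with `q` elements, `n ≥ 4` even, `f` is a nondegenerate alternating form on `F^n`, and `H` is the subgroup of matrices of determinant 1 preserving `f` up to a scalar — a maximal subgroup of type Sp_n(q); Ω is the set of `T`-conjugates of `H` (cosets of `H`), so an element of `T` of prime order `r` (a matrix `x` of determinant 1 with `x^r` scalar, `x` not scalar) fixes a point of Ω when some conjugate of `x` by a matrix of determinant 1 preserves `f` up to a scalar. Suppose the index of `H` is even. Then every involution of `T` is conjugate in `T` into `H` if and only if `(q − 1)_2 ≤ (n)_2`. -/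
theorem result {F : Type*} [Field F] [Fintype F] {p : ℕ} [Fact p.Prime] [CharP F p] {q : ℕ} (hq : Fintype.card F = q)
    (n : ℕ) (hn : 4 ≤ n) (he : Even n) (f : (Fin n → F) → (Fin n → F) → F) (hf : Cfsg.Geo.IsSymplecticForm f)
    (hΩ : 2 ∣ ((Cfsg.Geo.similarityGroup f).comap (Matrix.SpecialLinearGroup.toGL : Matrix.SpecialLinearGroup (Fin n) F →* GL (Fin n) F)).index) :
    (∀ x : Matrix.SpecialLinearGroup (Fin n) F,
      (∃ z : F, ((x ^ 2 : Matrix.SpecialLinearGroup (Fin n) F) : Matrix (Fin n) (Fin n) F) = z • (1 : Matrix (Fin n) (Fin n) F)) →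
      (∀ z : F, (x : Matrix (Fin n) (Fin n) F) ≠ z • (1 : Matrix (Fin n) (Fin n) F)) →
      ∃ P : Matrix.SpecialLinearGroup (Fin n) F, P⁻¹ * x * P ∈ ((Cfsg.Geo.similarityGroup f).comap (Matrix.SpecialLinearGroup.toGL : Matrix.SpecialLinearGroup (Fin n) F →* GL (Fin n) F))) ↔
    padicValNat 2 (q - 1) ≤ padicValNat 2 n := by
  subst hq
  exact ⟨fun h => forward n hn f hf h, fun h x hx _ => backward n hn he f hf h x hx⟩

end Cfsg.Agent.S5967
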