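import Cfsg.Statements.S5968
import Cfsg.Agent.Lib.Helper99.SympIndex
import Cfsg.Agent.Lib.Helper99.AltDerange
import Cfsg.Agent.Lib.Helper99.BlockElt

set_option autoImplicit false
open scoped MatrixGroups
open Cfsg

namespace Cfsg.Agent.S5968

open Cfsg.Agent.Lib.Helper99

section

variable {F : Type*} [Field F]

lemma toLin'_pow_eq_one {n r : ℕ} {x : Matrix.SpecialLinearGroup (Fin n) F} (hx : x ^ r = 1) :
    (Matrix.toLin' (x : Matrix (Fin n) (Fin n) F)) ^ r = 1 := by
  have h1 : Matrix.toLin' (x : Matrix (Fin n) (Fin n) F) = Matrix.toLinAlgEquiv' (x : Matrix (Fin n) (Fin n) F) := rfl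
  rw [h1, ← map_pow, ← Matrix.SpecialLinearGroup.coe_pow, hx, Matrix.SpecialLinearGroup.coe_one, map_one]

lemma transvection_mulVec {n : ℕ} (i j : Fin n) (c : F) (v : Fin n → F) :
    (Matrix.transvection i j c).mulVec v = v + (c * v j) • Pi.single i 1 := by
  rw [Matrix.transvection, Matrix.add_mulVec, Matrix.one_mulVec]
  congr 1
  ext k
  simp [Matrix.mulVec, dotProduct, Matrix.single_apply, Pi.single_apply]
  by_cases hk : k = i
  · subst hk; simp
  · simp [hk, Ne.symm hk]

/-- Case `r = p`: a unipotent element with a single Jordan block of size three. -/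
theorem derangement_unipotent {p : ℕ} [Fact p.Prime] [CharP F p] (hp2 : p ≠ 2)
    (n : ℕ) (hn : 4 ≤ n) (f : (Fin n → F) → (Fin n → F) → F) (hf : Cfsg.Geo.IsSymplecticForm f) :
    ∃ x : Matrix.SpecialLinearGroup (Fin n) F,
      (∃ z : F, ((x ^ p : Matrix.SpecialLinearGroup (Fin n) F) : Matrix (Fin n) (Fin n) F) = z • (1 : Matrix (Fin n) (Fin n) F)) ∧
      (∀ z : F, (x : Matrix (Fin n) (Fin n) F) ≠ z • (1 : Matrix (Fin n) (Fin n) F)) ∧
      ∀ P : Matrix.SpecialLinearGroup (Fin n) F, P⁻¹ * x * P ∉ ((Cfsg.Geo.similarityGroup f).comap (Matrix.SpecialLinearGroup.toGL : Matrix.SpecialLinearGroup (Fin n) F →* GL (Fin n) F)) := by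
  classical
  have hp3 : 3 ≤ p := by
    have := (Fact.out : p.Prime).two_le
    omega
  let i0 : Fin n := ⟨0, by omega⟩
  let i1 : Fin n := ⟨1, by omega⟩
  let i2 : Fin n := ⟨2, by omega⟩
  have h10 : i1 ≠ i0 := by simp [i0, i1, Fin.ext_iff]
  have h20 : i2 ≠ i0 := by simp [i0, i2, Fin.ext_iff]
  have h21 : i2 ≠ i1 := by simp [i1, i2, Fin.ext_iff]
  let t01 : Matrix.SpecialLinearGroup (Fin n) F :=
    ⟨Matrix.transvection i0 i1 1, Matrix.det_transvection_of_ne i0 i1 h10.symm 1⟩
  let t12 : Matrix.SpecialLinearGroup (Fin n) F :=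
    ⟨Matrix.transvection i1 i2 1, Matrix.det_transvection_of_ne i1 i2 h21.symm 1⟩
  set x := t01 * t12 with hx
  have hxv : ∀ v, (x : Matrix (Fin n) (Fin n) F).mulVec v
      = v + (v i2) • Pi.single i1 1 + (v i1 + v i2) • Pi.single i0 1 := by
    intro v
    rw [hx, Matrix.SpecialLinearGroup.coe_mul, ← Matrix.mulVec_mulVec]
    show (Matrix.transvection i0 i1 1).mulVec ((Matrix.transvection i1 i2 1).mulVec v) = _
    rw [transvection_mulVec, transvection_mulVec]
    simp
  have hx0 : (x : Matrix (Fin n) (Fin n) F).mulVec (Pi.single i0 1) = Pi.single i0 1 := by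
    rw [hxv]; simp [h10, h20]
  have hx1 : (x : Matrix (Fin n) (Fin n) F).mulVec (Pi.single i1 1) = Pi.single i1 1 + Pi.single i0 1 := by
    rw [hxv]; simp [h21]
  have hx2 : (x : Matrix (Fin n) (Fin n) F).mulVec (Pi.single i2 1)
      = Pi.single i2 1 + Pi.single i1 1 + Pi.single i0 1 := by
    rw [hxv]; simp [h21.symm]
  have hxj : ∀ j, j ≠ i1 → j ≠ i2 → (x : Matrix (Fin n) (Fin n) F).mulVec (Pi.single j 1) = Pi.single j 1 := by
    intro j hj1 hj2
    rw [hxv]; simp [hj1.symm, hj2.symm]
  set N : Matrix (Fin n) (Fin n) F := (x : Matrix (Fin n) (Fin n) F) - 1 with hN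
  have hNv : ∀ v, N.mulVec v = (v i2) • Pi.single i1 1 + (v i1 + v i2) • Pi.single i0 1 := by
    intro v
    rw [hN, Matrix.sub_mulVec, hxv, Matrix.one_mulVec]
    abel
  have hN3 : N ^ 3 = 0 := by
    apply Matrix.ext_of_mulVec_single
    intro j
    rw [pow_succ, pow_two, ← Matrix.mulVec_mulVec, ← Matrix.mulVec_mulVec, hNv, hNv, hNv, Matrix.zero_mulVec]
    simp [h10, h20, h21]
  have : Nonempty (Fin n) := ⟨i0⟩
  have hxp : x ^ p = 1 := by
    apply Subtype.ext
    rw [Matrix.SpecialLinearGroup.coe_pow, Matrix.SpecialLinearGroup.coe_one]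
    have h1 : (x : Matrix (Fin n) (Fin n) F) = 1 + N := by rw [hN]; abel
    rw [h1, add_pow_char_of_commute _ (Commute.one_left N), one_pow]
    have : N ^ p = 0 := by
      rw [show p = 3 + (p - 3) by omega, pow_add, hN3, zero_mul]
    rw [this, add_zero]
  refine ⟨x, ⟨1, by rw [hxp, one_smul, Matrix.SpecialLinearGroup.coe_one]⟩, ?_, ?_⟩
  · intro z hz
    have h1 := hx1
    rw [hz, Matrix.smul_mulVec, Matrix.one_mulVec] at h1
    have := congrFun h1 i0
    simp [h10.symm] at this
  · intro P hP
    obtain ⟨G, τ, hGalt, hGnd, hτ0, hG⟩ := exists_transported_form hf x P hP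
    have hτp := multiplier_pow_eq_one (by omega) hGnd hG (toLin'_pow_eq_one hxp)
    have hτ : τ = 1 := by
      apply frobenius_inj F p
      rw [frobenius_def, frobenius_def, hτp, one_pow]
    rw [hτ] at hG
    simp only [one_mul, Matrix.toLin'_apply] at hG
    have hne : (Pi.single i0 1 : Fin n → F) ≠ 0 := by
      intro h
      have := congrFun h i0
      simp at this
    apply hne
    apply eq_zero_of_forall_single hGnd
    have e01 : G (Pi.single i0 1) (Pi.single i1 1) = 0 := by
      have := hG (Pi.single i0 1) (Pi.single i2 1)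
      rw [hx0, hx2, map_add, map_add, hGalt] at this
      linear_combination this
    have e02 : G (Pi.single i0 1) (Pi.single i2 1) = 0 := by
      have := hG (Pi.single i1 1) (Pi.single i2 1)
      rw [hx1, hx2] at this
      simp only [map_add, LinearMap.add_apply] at this
      rw [hGalt, hGalt, skew_of_alt hGalt (Pi.single i1 1) (Pi.single i0 1), e01] at this
      linear_combination this
    intro j
    by_cases hj1 : j = i1
    · rw [hj1]; exact e01
    · by_cases hj2 : j = i2
      · rw [hj2]; exact e02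
      · have := hG (Pi.single i1 1) (Pi.single j 1)
        rw [hx1, hxj j hj1 hj2, map_add, LinearMap.add_apply] at this
        linear_combination this

lemma natCast_ne_zero_of_not_dvd_card [Fintype F] {r : ℕ} (hr : r.Prime) (hrq : ¬ r ∣ Fintype.card F) :
    (r : F) ≠ 0 := by
  intro h
  have h1 := (ringChar.spec F r).1 h
  have h2 := (ringChar.spec F (Fintype.card F)).1 (Nat.cast_card_eq_zero F)
  rcases (Nat.dvd_prime hr).1 h1 with h3 | h3
  · exact CharP.ringChar_ne_one h3
  · rw [h3] at h2
    exact hrq h2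

lemma dvd_pow_sub_one_iff [Fintype F] (r e : ℕ) :
    r ∣ Fintype.card F ^ e - 1 ↔ ((Fintype.card F : ℕ) : ZMod r) ^ e = 1 := by
  have h1 : 1 ≤ Fintype.card F ^ e := Nat.one_le_pow _ _ Fintype.card_pos
  rw [← ZMod.natCast_eq_zero_iff, Nat.cast_sub h1, sub_eq_zero]
  push_cast
  rfl

/-- Case `c ≥ 2`: one irreducible block, odd-dimensional fixed space. -/
theorem derangement_block [Fintype F] {r : ℕ} [Fact r.Prime] (hrq : ¬ r ∣ Fintype.card F)
    (c k : ℕ) (hc : c = orderOf ((Fintype.card F : ℕ) : ZMod r)) (hc2 : 2 ≤ c) (hk : Odd k)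
    (f : (Fin (c + k) → F) → (Fin (c + k) → F) → F) (hf : Cfsg.Geo.IsSymplecticForm f) :
    ∃ x : Matrix.SpecialLinearGroup (Fin (c + k)) F,
      (∃ z : F, ((x ^ r : Matrix.SpecialLinearGroup (Fin (c + k)) F) : Matrix (Fin (c + k)) (Fin (c + k)) F) = z • (1 : Matrix (Fin (c + k)) (Fin (c + k)) F)) ∧
      (∀ z : F, (x : Matrix (Fin (c + k)) (Fin (c + k)) F) ≠ z • (1 : Matrix (Fin (c + k)) (Fin (c + k)) F)) ∧
      ∀ P : Matrix.SpecialLinearGroup (Fin (c + k)) F, P⁻¹ * x * P ∉ ((Cfsg.Geo.similarityGroup f).comap (Matrix.SpecialLinearGroup.toGL : Matrix.SpecialLinearGroup (Fin (c + k)) F →* GL (Fin (c + k)) F)) := by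
  classical
  have hr : r.Prime := Fact.out
  obtain ⟨x, hxr, hx1, hfix⟩ := exists_order_r_fixed_codim hrq c k hc hc2
  refine ⟨x, ⟨1, by rw [hxr, one_smul, Matrix.SpecialLinearGroup.coe_one]⟩, ?_, ?_⟩
  · intro z hz
    have hpos : 0 < Module.finrank F (LinearMap.ker (Matrix.toLin' (x : Matrix (Fin (c + k)) (Fin (c + k)) F) - 1)) := by
      rw [hfix]; exact hk.pos
    rw [Module.finrank_pos_iff_exists_ne_zero] at hpos
    obtain ⟨⟨v, hv⟩, hv0⟩ := hpos
    have hv0' : v ≠ 0 := fun h => hv0 (Subtype.ext h)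
    rw [LinearMap.mem_ker, LinearMap.sub_apply, Module.End.one_apply, sub_eq_zero, Matrix.toLin'_apply, hz,
      Matrix.smul_mulVec, Matrix.one_mulVec] at hv
    have hz1 : z = 1 := by
      have : (z - 1) • v = 0 := by rw [sub_smul, hv, one_smul, sub_self]
      exact sub_eq_zero.1 ((smul_eq_zero.1 this).resolve_right hv0')
    apply hx1
    apply Subtype.ext
    rw [hz, hz1, one_smul, Matrix.SpecialLinearGroup.coe_one]
  · intro P hP
    obtain ⟨G, τ, hGalt, hGnd, hτ0, hG⟩ := exists_transported_form hf x P hP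
    have hτr := multiplier_pow_eq_one (by omega) hGnd hG (toLin'_pow_eq_one hxr)
    have hτq := FiniteField.pow_card_sub_one_eq_one τ hτ0
    have hr1 : ¬ r ∣ Fintype.card F - 1 := by
      intro h
      have h1 := (dvd_pow_sub_one_iff (F := F) r 1).1 (by simpa using h)
      have := orderOf_dvd_of_pow_eq_one h1
      rw [← hc] at this
      have := Nat.le_of_dvd one_pos this
      omega
    have hτ : τ = 1 := by
      have h1 := pow_gcd_eq_one.2 ⟨hτr, hτq⟩
      rw [(Nat.Prime.coprime_iff_not_dvd hr).2 hr1, pow_one] at h1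
      exact h1
    rw [hτ] at hG
    simp only [one_mul] at hG
    have h1 := nondegOn_fixed hGnd hG (natCast_ne_zero_of_not_dvd_card hr hrq) (toLin'_pow_eq_one hxr)
    have h2 := even_finrank_of_nondegOn hGalt h1
    rw [hfix] at h2
    exact (Nat.not_even_iff_odd.2 hk) h2

lemma isoOn_span {V : Type*} [AddCommGroup V] [Module F V] {B : LinearMap.BilinForm F V} {S : Set V}
    (h : ∀ a ∈ S, ∀ b ∈ S, B a b = 0) : IsoOn B (Submodule.span F S) := by
  have h1 : ∀ a ∈ S, ∀ v ∈ Submodule.span F S, B a v = 0 := by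
    intro a ha v hv
    have : Submodule.span F S ≤ LinearMap.ker (B a) := by
      rw [Submodule.span_le]
      intro b hb
      exact h a ha b hb
    exact this hv
  intro u hu v hv
  have : Submodule.span F S ≤ LinearMap.ker (B.flip v) := by
    rw [Submodule.span_le]
    intro a ha
    exact h1 a ha v hv
  exact this hu

/-- Case `r ∣ q - 1`: a diagonal element. -/
theorem derangement_diag [Fintype F] {r : ℕ} [Fact r.Prime] (hr2 : r ≠ 2) (hr1 : r ∣ Fintype.card F - 1)
    (n : ℕ) (hn : 4 ≤ n) (hgap : ¬ (n = 6 ∧ r = 3))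
    (f : (Fin n → F) → (Fin n → F) → F) (hf : Cfsg.Geo.IsSymplecticForm f) :
    ∃ x : Matrix.SpecialLinearGroup (Fin n) F,
      (∃ z : F, ((x ^ r : Matrix.SpecialLinearGroup (Fin n) F) : Matrix (Fin n) (Fin n) F) = z • (1 : Matrix (Fin n) (Fin n) F)) ∧
      (∀ z : F, (x : Matrix (Fin n) (Fin n) F) ≠ z • (1 : Matrix (Fin n) (Fin n) F)) ∧
      ∀ P : Matrix.SpecialLinearGroup (Fin n) F, P⁻¹ * x * P ∉ ((Cfsg.Geo.similarityGroup f).comap (Matrix.SpecialLinearGroup.toGL : Matrix.SpecialLinearGroup (Fin n) F →* GL (Fin n) F)) := by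
  classical
  have hr : r.Prime := Fact.out
  obtain ⟨u, hu⟩ := exists_prime_orderOf_dvd_card' (G := Fˣ) r (by
    rw [Nat.card_eq_fintype_card, Fintype.card_units]; exact hr1)
  set l : F := (u : F) with hl
  have hl0 : l ≠ 0 := u.ne_zero
  have hlr : l ^ r = 1 := by
    rw [hl, ← Units.val_pow_eq_pow_val, ← hu, pow_orderOf_eq_one, Units.val_one]
  have hl1 : l ≠ 1 := by
    intro h
    have : u = 1 := Units.ext h
    rw [this, orderOf_one] at hu
    exact hr.one_lt.ne hu
  have hcop : ∀ a : ℕ, l ^ a = 1 → ¬ r ∣ a → False := by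
    intro a ha hra
    have h1 := pow_gcd_eq_one.2 ⟨hlr, ha⟩
    rw [(Nat.Prime.coprime_iff_not_dvd hr).2 hra, pow_one] at h1
    exact hl1 h1
  have hr3 : 3 ≤ r := by
    have := hr.two_le
    omega
  let i0 : Fin n := ⟨0, by omega⟩
  let i1 : Fin n := ⟨1, by omega⟩
  let i2 : Fin n := ⟨2, by omega⟩
  let i3 : Fin n := ⟨3, by omega⟩
  have h10 : i1 ≠ i0 := by simp [i0, i1, Fin.ext_iff]
  have h20 : i2 ≠ i0 := by simp [i0, i2, Fin.ext_iff]
  have h21 : i2 ≠ i1 := by simp [i1, i2, Fin.ext_iff]
  have h30 : i3 ≠ i0 := by simp [i0, i3, Fin.ext_iff]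
  have h31 : i3 ≠ i1 := by simp [i1, i3, Fin.ext_iff]
  have h32 : i3 ≠ i2 := by simp [i2, i3, Fin.ext_iff]
  set d : Fin n → F := fun i => (if i = i0 then l else 1) * (if i = i1 then l else 1)
    * (if i = i2 then (l ^ 2)⁻¹ else 1) with hd
  have hd0 : d i0 = l := by simp [hd, h10.symm, h20.symm]
  have hd1 : d i1 = l := by simp [hd, h10, h21.symm]
  have hd2 : d i2 = (l ^ 2)⁻¹ := by simp [hd, h20, h21]
  have hdj : ∀ j, j ≠ i0 → j ≠ i1 → j ≠ i2 → d j = 1 := by
    intro j h0 h1 h2
    simp [hd, h0, h1, h2]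
  have hdet : (Matrix.diagonal d).det = 1 := by
    rw [Matrix.det_diagonal, hd, Finset.prod_mul_distrib, Finset.prod_mul_distrib,
      Finset.prod_ite_eq' Finset.univ i0 (fun _ => l), Finset.prod_ite_eq' Finset.univ i1 (fun _ => l),
      Finset.prod_ite_eq' Finset.univ i2 (fun _ => (l ^ 2)⁻¹)]
    simp only [Finset.mem_univ, if_true]
    field_simp
  have hdr : ∀ j, d j ^ r = 1 := by
    intro j
    by_cases h0 : j = i0
    · rw [h0, hd0, hlr]
    · by_cases h1 : j = i1
      · rw [h1, hd1, hlr]
      · by_cases h2 : j = i2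
        · rw [h2, hd2, inv_pow, ← pow_mul, mul_comm, pow_mul, hlr, one_pow, inv_one]
        · rw [hdj j h0 h1 h2, one_pow]
  set x : Matrix.SpecialLinearGroup (Fin n) F := ⟨Matrix.diagonal d, hdet⟩ with hx
  have hxc : (x : Matrix (Fin n) (Fin n) F) = Matrix.diagonal d := rfl
  have hxr : x ^ r = 1 := by
    apply Subtype.ext
    rw [Matrix.SpecialLinearGroup.coe_pow, hxc, Matrix.diagonal_pow, Matrix.SpecialLinearGroup.coe_one,
      ← Matrix.diagonal_one]
    congr 1
    funext j
    exact hdr j
  refine ⟨x, ⟨1, by rw [hxr, one_smul, Matrix.SpecialLinearGroup.coe_one]⟩, ?_, ?_⟩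
  · intro z hz
    rw [hxc] at hz
    have e0 := congrFun (congrFun hz i0) i0
    have e3 := congrFun (congrFun hz i3) i3
    simp only [Matrix.diagonal_apply_eq, Matrix.smul_apply, Matrix.one_apply_eq, smul_eq_mul, mul_one] at e0 e3
    rw [hd0] at e0
    rw [hdj i3 h30 h31 h32] at e3
    exact hl1 (e0.trans e3.symm)
  · intro P hP
    obtain ⟨G, τ, hGalt, hGnd, hτ0, hG⟩ := exists_transported_form hf x P hP
    have hGe : ∀ i j, G (Pi.single i 1) (Pi.single j 1) ≠ 0 → d i * d j = τ := by
      intro i j hij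
      have := hG (Pi.single i 1) (Pi.single j 1)
      rw [Matrix.toLin'_apply, Matrix.toLin'_apply, hxc, Matrix.diagonal_mulVec_single,
        Matrix.diagonal_mulVec_single] at this
      have e1 : ∀ k, (Pi.single k (d k * 1) : Fin n → F) = d k • Pi.single k 1 := by
        intro k
        rw [← Pi.single_smul]
        simp
      rw [e1, e1, map_smul, map_smul, LinearMap.smul_apply, smul_eq_mul, smul_eq_mul, ← mul_assoc] at this
      rw [mul_comm (d j) (d i)] at this
      exact mul_right_cancel₀ hij this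
    have hpartner : ∀ i, ∃ j, j ≠ i ∧ G (Pi.single i 1) (Pi.single j 1) ≠ 0 := by
      intro i
      by_contra hcon
      push Not at hcon
      have hne : (Pi.single i 1 : Fin n → F) ≠ 0 := by
        intro h
        have := congrFun h i
        simp at this
      apply hne
      apply eq_zero_of_forall_single hGnd
      intro j
      by_cases hj : j = i
      · rw [hj]; exact hGalt _
      · exact hcon j hj
    have hdv : ∀ j, d j = l ∨ d j = (l ^ 2)⁻¹ ∨ d j = 1 := by
      intro j
      by_cases h0 : j = i0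
      · left; rw [h0, hd0]
      · by_cases h1 : j = i1
        · left; rw [h1, hd1]
        · by_cases h2 : j = i2
          · right; left; rw [h2, hd2]
          · right; right; exact hdj j h0 h1 h2
    -- the multiplier
    obtain ⟨j2, hj2, hG2⟩ := hpartner i2
    have hτ2 := hGe i2 j2 hG2
    rw [hd2] at hτ2
    have hdj2 : d j2 = l ∨ d j2 = 1 := by
      by_cases h0 : j2 = i0
      · left; rw [h0, hd0]
      · by_cases h1 : j2 = i1
        · left; rw [h1, hd1]
        · right; exact hdj j2 h0 h1 hj2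
    rcases hdj2 with h | h
    · -- τ = l⁻¹
      rw [h] at hτ2
      obtain ⟨j3, hj3, hG3⟩ := hpartner i3
      have hτ3 := hGe i3 j3 hG3
      rw [hdj i3 h30 h31 h32, one_mul, ← hτ2] at hτ3
      rcases hdv j3 with h' | h' | h'
      · rw [h'] at hτ3
        refine hcop 2 ?_ (fun hd' => by have := Nat.le_of_dvd (by norm_num) hd'; omega)
        field_simp at hτ3
        linear_combination hτ3
      · rw [h'] at hτ3
        apply hl1
        field_simp at hτ3
        exact hτ3.symm
      · rw [h'] at hτ3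
        apply hl1
        field_simp at hτ3
        exact hτ3
    · -- τ = l⁻²
      rw [h, mul_one] at hτ2
      obtain ⟨j0, hj0, hG0⟩ := hpartner i0
      have hτ0' := hGe i0 j0 hG0
      rw [hd0, ← hτ2] at hτ0'
      have hl3 : l ^ 3 = 1 := by
        rcases hdv j0 with h' | h' | h'
        · exfalso
          rw [h'] at hτ0'
          refine hcop 4 ?_ (fun hd' => ?_)
          · field_simp at hτ0'
            linear_combination hτ0'
          · have h4 : r ∣ 2 * 2 := hd'
            rcases hr.dvd_mul.1 h4 with h5 | h5 <;>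
              exact hr2 ((Nat.prime_dvd_prime_iff_eq hr Nat.prime_two).1 h5)
        · exfalso
          rw [h'] at hτ0'
          apply hl1
          field_simp at hτ0'
          exact hτ0'
        · rw [h'] at hτ0'
          field_simp at hτ0'
          linear_combination hτ0'
      have hr3' : r = 3 := by
        by_contra hne
        refine hcop 3 hl3 (fun hd' => hne ((Nat.prime_dvd_prime_iff_eq hr Nat.prime_three).1 hd'))
      have hτl : τ = l := by
        rw [← hτ2]
        field_simp
        linear_combination -hl3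
      have hd2' : d i2 = l := by rw [hd2, hτ2, hτl]
      let A : Finset (Fin n) := {i0, i1, i2}
      have hAcard : A.card = 3 := by
        simp [A, Finset.card_insert_of_notMem, h10.symm, h20.symm, h21.symm]
      have hdA : ∀ i ∈ A, d i = l := by
        intro i hi
        simp only [A, Finset.mem_insert, Finset.mem_singleton] at hi
        rcases hi with rfl | rfl | rfl
        · exact hd0
        · exact hd1
        · exact hd2'
      have hdAc : ∀ i ∉ A, d i = 1 := by
        intro i hi
        simp only [A, Finset.mem_insert, Finset.mem_singleton, not_or] at hi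
        exact hdj i hi.1 hi.2.1 hi.2.2
      have hli := (Pi.basisFun F (Fin n)).linearIndependent
      have hU : IsoOn G (Submodule.span F (Set.range (fun i : {i // i ∈ A} => (Pi.basisFun F (Fin n)) i.1))) := by
        apply isoOn_span
        rintro _ ⟨i, rfl⟩ _ ⟨j, rfl⟩
        by_contra hne
        simp only [Pi.basisFun_apply] at hne
        have := hGe _ _ hne
        rw [hdA _ i.2, hdA _ j.2, hτl] at this
        apply hl1
        exact mul_left_cancel₀ hl0 (by rw [this, mul_one])
      have hW : IsoOn G (Submodule.span F (Set.range (fun i : {i // i ∈ Aᶜ} => (Pi.basisFun F (Fin n)) i.1))) := by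
        apply isoOn_span
        rintro _ ⟨i, rfl⟩ _ ⟨j, rfl⟩
        by_contra hne
        simp only [Pi.basisFun_apply] at hne
        have := hGe _ _ hne
        rw [hdAc _ (Finset.mem_compl.1 i.2), hdAc _ (Finset.mem_compl.1 j.2), hτl, one_mul] at this
        exact hl1 this.symm
      have h1 := two_mul_finrank_le_of_isoOn hGalt hGnd hU
      have h2 := two_mul_finrank_le_of_isoOn hGalt hGnd hW
      have hliA : LinearIndependent F (fun i : {i // i ∈ A} => (Pi.basisFun F (Fin n)) i.1) :=
        hli.comp _ Subtype.val_injective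
      have hliAc : LinearIndependent F (fun i : {i // i ∈ Aᶜ} => (Pi.basisFun F (Fin n)) i.1) :=
        hli.comp _ Subtype.val_injective
      rw [finrank_span_eq_card hliA, Fintype.card_coe, hAcard] at h1
      rw [finrank_span_eq_card hliAc, Fintype.card_coe, Finset.card_compl, hAcard] at h2
      simp only [Module.finrank_fintype_fun_eq_card, Fintype.card_fin] at h1 h2
      exact hgap ⟨by omega, hr3'⟩

end

/-- Derangements of odd prime order of PSL_n(q) on the cosets of a symplectic-type subgroup. Here `T = PSL_n(F)` for a field `F` with `q` elements, `n ≥ 4` even, `f` is a nondegenerate alternating form on `F^n`, and `H` is the subgroup of matrices of determinant 1 preserving `f` up to a scalar — a maximal subgroup of type Sp_n(q); Ω is the set of `T`-conjugates of `H` (cosets of `H`), so an element of `T` of prime order `r` (a matrix `x` of determinant 1 with `x^r` scalar, `x` not scalar) fixes a point of Ω when some conjugate of `x` by a matrix of determinant 1 preserves `f` up to a scalar.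 For every odd prime `r` dividing the index of `H`, with `(n, r) ≠ (6, 3)`, there is an element of `T` of order `r` with no conjugate in `H`. (For `n = 6`, `r = 3` this can fail: when `(q − 1)_3 = 3` every element of order 3 is conjugate into `H`.) -/
theorem result {F : Type*} [Field F] [Fintype F] {p : ℕ} [Fact p.Prime] [CharP F p] {q : ℕ} (hq : Fintype.card F = q)
    (n : ℕ) (hn : 4 ≤ n) (he : Even n) (f : (Fin n → F) → (Fin n → F) → F) (hf : Cfsg.Geo.IsSymplecticForm f)
    (r : ℕ) [Fact r.Prime] (hr2 : r ≠ 2) (hgap : ¬ (n = 6 ∧ r = 3)) (hΩ : r ∣ ((Cfsg.Geo.similarityGroup f).comap (Matrix.SpecialLinearGroup.toGL : Matrix.SpecialLinearGroup (Fin n) F →* GL (Fin n) F)).index) :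
    ∃ x : Matrix.SpecialLinearGroup (Fin n) F,
      (∃ z : F, ((x ^ r : Matrix.SpecialLinearGroup (Fin n) F) : Matrix (Fin n) (Fin n) F) = z • (1 : Matrix (Fin n) (Fin n) F)) ∧
      (∀ z : F, (x : Matrix (Fin n) (Fin n) F) ≠ z • (1 : Matrix (Fin n) (Fin n) F)) ∧
      ∀ P : Matrix.SpecialLinearGroup (Fin n) F, P⁻¹ * x * P ∉ ((Cfsg.Geo.similarityGroup f).comap (Matrix.SpecialLinearGroup.toGL : Matrix.SpecialLinearGroup (Fin n) F →* GL (Fin n) F)) := by
  have hr : r.Prime := Fact.out
  obtain ⟨m, hm⟩ := he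
  have hnm : n = 2 * m := by omega
  rcases prime_dvd_index_similarity hnm (by omega) f hf hr hr2 hΩ with h | ⟨i, hi1, him, hi⟩
  · -- r = p
    obtain ⟨e, hp, he⟩ := FiniteField.card F p
    rw [he] at h
    have hrp : r = p := (Nat.prime_dvd_prime_iff_eq hr hp).1 (hr.dvd_of_dvd_pow h)
    subst hrp
    exact derangement_unipotent hr2 n hn f hf
  · have hrq : ¬ r ∣ Fintype.card F := by
      intro h
      have h1 : r ∣ Fintype.card F ^ (2 * i + 1) := Dvd.dvd.trans h (dvd_pow_self _ (by omega))
      have h2 : 1 ≤ Fintype.card F ^ (2 * i + 1) := Nat.one_le_pow _ _ Fintype.card_pos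
      have h3 : r ∣ 1 := by
        have := Nat.dvd_sub h1 hi
        rwa [Nat.sub_sub_self h2] at this
      exact hr.one_lt.ne' (Nat.dvd_one.1 h3)
    have hc := orderOf_dvd_of_pow_eq_one ((dvd_pow_sub_one_iff (F := F) r (2 * i + 1)).1 hi)
    set c := orderOf ((Fintype.card F : ℕ) : ZMod r) with hcdef
    have hcodd : Odd c := Odd.of_dvd_nat ⟨i, rfl⟩ hc
    have hcle : c ≤ 2 * i + 1 := Nat.le_of_dvd (by omega) hc
    by_cases hc1 : c = 1
    · have h1 : r ∣ Fintype.card F - 1 := by
        have := (dvd_pow_sub_one_iff (F := F) r 1).2 (by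
          rw [← hc1, hcdef]; exact pow_orderOf_eq_one _)
        simpa using this
      exact derangement_diag hr2 h1 n hn hgap f hf
    · obtain ⟨k, rfl⟩ : ∃ k, n = c + k := ⟨n - c, by omega⟩
      have hk : Odd k := by
        have hev : Even (c + k) := ⟨m, hm⟩
        by_contra hk
        rw [Nat.not_odd_iff_even] at hk
        have := (Nat.even_add.1 hev).2 hk
        exact (Nat.not_even_iff_odd.2 hcodd) this
      exact derangement_block hrq c k hcdef (by have := hcodd.pos; omega) hk f hf

end Cfsg.Agent.S5968
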