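import Cfsg.Statements.S5969
import Cfsg.Agent.Lib.Helper99.SympBridge
import Cfsg.Agent.Lib.Helper99.FFArith
import Cfsg.Agent.Lib.Helper99.FFArithB
import Cfsg.Agent.Lib.Helper99.Companion
import Cfsg.Agent.Lib.Helper99.QuadField

set_option autoImplicit false
open scoped MatrixGroups
open Cfsg

namespace Cfsg.Agent.S5969

open Cfsg.Agent.Lib.Helper99

/-- A conjugate of a scalar plus a rank one map does not normalise `K`. -/
theorem not_conj_of_rank_one {F : Type*} [Field F] {n : ℕ} {K : Subalgebra F (Matrix (Fin n) (Fin n) F)}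
    (hK : Cfsg.Geo.IsFieldSubalgebra 2 K) (hn : 3 ≤ n) (x P : Matrix.SpecialLinearGroup (Fin n) F)
    (l : F) (hl : l ≠ 0) (φ : (Fin n → F) →ₗ[F] F) (u : Fin n → F) (hu : u ≠ 0) (hφ : φ ≠ 0)
    (hx : ∀ v, (x : Matrix (Fin n) (Fin n) F).mulVec v = l • v + φ v • u) :
    P⁻¹ * x * P ∉ ((Cfsg.Geo.subalgebraNormalizer K).comap (Matrix.SpecialLinearGroup.toGL : Matrix.SpecialLinearGroup (Fin n) F →* GL (Fin n) F)) := by
  intro hmem
  set Q : Matrix (Fin n) (Fin n) F := ((P⁻¹ : Matrix.SpecialLinearGroup (Fin n) F) : Matrix (Fin n) (Fin n) F) with hQ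
  have hQP : Q * (P : Matrix (Fin n) (Fin n) F) = 1 := by
    rw [hQ, ← Matrix.SpecialLinearGroup.coe_mul, inv_mul_cancel, Matrix.SpecialLinearGroup.coe_one]
  have hPQ : (P : Matrix (Fin n) (Fin n) F) * Q = 1 := by
    rw [hQ, ← Matrix.SpecialLinearGroup.coe_mul, mul_inv_cancel, Matrix.SpecialLinearGroup.coe_one]
  refine false_of_normalizes_rank_one hK (by simpa using hn) _ hmem l hl
    (φ ∘ₗ Matrix.toLin' (P : Matrix (Fin n) (Fin n) F)) (Q.mulVec u) ?_ ?_ ?_
  · intro h
    apply hu
    have := congrArg (fun v => (P : Matrix (Fin n) (Fin n) F).mulVec v) h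
    simpa [Matrix.mulVec_mulVec, hPQ] using this
  · intro h
    apply hφ
    apply LinearMap.ext
    intro v
    have := congrArg (fun ψ : (Fin n → F) →ₗ[F] F => ψ (Q.mulVec v)) h
    simpa [Matrix.mulVec_mulVec, hPQ] using this
  · intro v
    show ((P⁻¹ * x * P : Matrix.SpecialLinearGroup (Fin n) F) : Matrix (Fin n) (Fin n) F).mulVec v = _
    rw [Matrix.SpecialLinearGroup.coe_mul, Matrix.SpecialLinearGroup.coe_mul, ← Matrix.mulVec_mulVec,
      ← Matrix.mulVec_mulVec, hx, Matrix.mulVec_add, Matrix.mulVec_smul, Matrix.mulVec_smul,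
      Matrix.mulVec_mulVec, ← hQ, hQP, Matrix.one_mulVec]
    rfl

theorem forward {F : Type*} [Field F] [Fintype F]
    (n : ℕ) (hn : 4 ≤ n) (K : Subalgebra F (Matrix (Fin n) (Fin n) F)) (hK : Cfsg.Geo.IsFieldSubalgebra 2 K)
    (hall : ∀ x : Matrix.SpecialLinearGroup (Fin n) F,
      (∃ z : F, ((x ^ 2 : Matrix.SpecialLinearGroup (Fin n) F) : Matrix (Fin n) (Fin n) F) = z • (1 : Matrix (Fin n) (Fin n) F)) →
      (∀ z : F, (x : Matrix (Fin n) (Fin n) F) ≠ z • (1 : Matrix (Fin n) (Fin n) F)) →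
      ∃ P : Matrix.SpecialLinearGroup (Fin n) F, P⁻¹ * x * P ∈ ((Cfsg.Geo.subalgebraNormalizer K).comap (Matrix.SpecialLinearGroup.toGL : Matrix.SpecialLinearGroup (Fin n) F →* GL (Fin n) F))) :
    Odd (Fintype.card F) ∧ padicValNat 2 (Fintype.card F - 1) ≤ padicValNat 2 n := by
  classical
  let i0 : Fin n := ⟨0, by omega⟩
  let i1 : Fin n := ⟨1, by omega⟩
  have h10 : i1 ≠ i0 := by simp [i0, i1, Fin.ext_iff]
  have hodd : Odd (Fintype.card F) := by
    by_contra hev
    rw [Nat.odd_iff] at hev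
    have hev' : Fintype.card F % 2 = 0 := by omega
    have h2 := two_eq_zero_of_even_card hev'
    set x : Matrix.SpecialLinearGroup (Fin n) F :=
      ⟨Matrix.transvection i0 i1 1, Matrix.det_transvection_of_ne i0 i1 h10.symm 1⟩ with hx
    have hxc : (x : Matrix (Fin n) (Fin n) F) = Matrix.transvection i0 i1 1 := rfl
    have hx2 : ((x ^ 2 : Matrix.SpecialLinearGroup (Fin n) F) : Matrix (Fin n) (Fin n) F)
        = (1 : F) • (1 : Matrix (Fin n) (Fin n) F) := by
      rw [pow_two, Matrix.SpecialLinearGroup.coe_mul, hxc, Matrix.transvection_mul_transvection_same _ _ h10.symm,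
        one_add_one_eq_two, h2, Matrix.transvection_zero, one_smul]
    have hns : ∀ z : F, (x : Matrix (Fin n) (Fin n) F) ≠ z • (1 : Matrix (Fin n) (Fin n) F) := by
      intro z hz
      rw [hxc] at hz
      have e0 := congrFun (congrFun hz i0) i1
      simp [Matrix.transvection, h10.symm] at e0
    obtain ⟨P, hP⟩ := hall x ⟨1, hx2⟩ hns
    refine not_conj_of_rank_one hK (by omega) x P 1 one_ne_zero (LinearMap.proj i1) (Pi.single i0 1) ?_ ?_ ?_ hP
    · intro h
      have := congrFun h i0
      simp at this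
    · intro h
      have := congrArg (fun ψ : (Fin n → F) →ₗ[F] F => ψ (Pi.single i1 1)) h
      simp at this
    · intro v
      rw [hxc, Matrix.transvection, Matrix.add_mulVec, Matrix.one_mulVec, one_smul]
      congr 1
      ext i
      simp [Matrix.mulVec, dotProduct, Matrix.single_apply, Pi.single_apply]
      by_cases hi : i = i0
      · subst hi; simp
      · simp [hi, Ne.symm hi]
  refine ⟨hodd, ?_⟩
  by_contra hcon
  push Not at hcon
  obtain ⟨l, hl, h2⟩ := exists_pow_eq_neg_one (F := F) (by omega) hcon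
  have hl0 : l ≠ 0 := by
    rintro rfl
    rw [zero_pow (by omega)] at hl
    have := congrArg Neg.neg hl
    simp at this
  set d : Fin n → F := fun i => l * (if i = i0 then -1 else 1) with hd
  have hd0 : d i0 = -l := by simp [hd]
  have hd1 : ∀ i, i ≠ i0 → d i = l := by
    intro i hi
    simp [hd, hi]
  have hdet : (Matrix.diagonal d).det = 1 := by
    rw [Matrix.det_diagonal, hd, Finset.prod_mul_distrib, Finset.prod_const, Finset.card_univ,
      Fintype.card_fin, hl, Finset.prod_ite_eq' Finset.univ i0 (fun _ => (-1 : F))]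
    simp
  set x : Matrix.SpecialLinearGroup (Fin n) F := ⟨Matrix.diagonal d, hdet⟩ with hx
  have hxc : (x : Matrix (Fin n) (Fin n) F) = Matrix.diagonal d := rfl
  have hx2 : ((x ^ 2 : Matrix.SpecialLinearGroup (Fin n) F) : Matrix (Fin n) (Fin n) F)
      = (l ^ 2) • (1 : Matrix (Fin n) (Fin n) F) := by
    rw [pow_two, Matrix.SpecialLinearGroup.coe_mul, hxc, Matrix.diagonal_mul_diagonal,
      ← Matrix.diagonal_one, ← Matrix.diagonal_smul]
    congr 1
    funext i
    by_cases hi : i = i0
    · subst hi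
      simp [hd0, pow_two]
    · simp [hd1 i hi, pow_two]
  have hns : ∀ z : F, (x : Matrix (Fin n) (Fin n) F) ≠ z • (1 : Matrix (Fin n) (Fin n) F) := by
    intro z hz
    rw [hxc] at hz
    have e0 := congrFun (congrFun hz i0) i0
    have e1 := congrFun (congrFun hz i1) i1
    simp only [Matrix.diagonal_apply_eq, Matrix.smul_apply, Matrix.one_apply_eq, smul_eq_mul, mul_one] at e0 e1
    rw [hd0] at e0
    rw [hd1 i1 h10] at e1
    have : (2 : F) * l = 0 := by
      rw [two_mul]
      nth_rewrite 1 [e1]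
      rw [← e0]; ring
    exact (mul_ne_zero h2 hl0) this
  obtain ⟨P, hP⟩ := hall x ⟨l ^ 2, hx2⟩ hns
  refine not_conj_of_rank_one hK (by omega) x P l hl0 (LinearMap.proj i0) (Pi.single i0 (-(2 * l))) ?_ ?_ ?_ hP
  · intro h
    have := congrFun h i0
    simp at this
    exact this.elim h2 hl0
  · intro h
    have := congrArg (fun ψ : (Fin n → F) →ₗ[F] F => ψ (Pi.single i0 1)) h
    simp at this
  · intro v
    rw [hxc]
    ext i
    rw [Matrix.mulVec_diagonal]
    by_cases hi : i = i0
    · subst hi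
      simp [hd0]; ring
    · simp [hd1 i hi, hi]

theorem backward_gen {F : Type*} [Field F] [Fintype F]
    (n : ℕ) (hn : 2 ≤ n) (he : 2 ∣ n) (K : Subalgebra F (Matrix (Fin n) (Fin n) F)) (hK : Cfsg.Geo.IsFieldSubalgebra 2 K)
    (hodd : Odd (Fintype.card F))
    (hv : padicValNat 2 (Fintype.card F - 1) ≤ padicValNat 2 n)
    (x : Matrix.SpecialLinearGroup (Fin n) F)
    (hx : ∃ z : F, ((x ^ 2 : Matrix.SpecialLinearGroup (Fin n) F) : Matrix (Fin n) (Fin n) F) = z • (1 : Matrix (Fin n) (Fin n) F)) :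
      ∃ P : Matrix.SpecialLinearGroup (Fin n) F, P⁻¹ * x * P ∈ ((Cfsg.Geo.subalgebraNormalizer K).comap (Matrix.SpecialLinearGroup.toGL : Matrix.SpecialLinearGroup (Fin n) F →* GL (Fin n) F)) := by
  classical
  have hodd' : Fintype.card F % 2 = 1 := Nat.odd_iff.1 hodd
  have h2 := two_ne_zero_of_odd_card hodd'
  obtain ⟨z, hz⟩ := hx
  obtain ⟨t, ht⟩ := he
  set T := Matrix.toLin' (x : Matrix (Fin n) (Fin n) F) with hTdef
  have hTT : ∀ v, T (T v) = z • v := by
    intro v
    have : T (T v) = Matrix.toLin' ((x ^ 2 : Matrix.SpecialLinearGroup (Fin n) F) : Matrix (Fin n) (Fin n) F) v := by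
      rw [pow_two, Matrix.SpecialLinearGroup.coe_mul, Matrix.toLin'_mul]
      rfl
    rw [this, hz]
    simp
  have hz0 : z ≠ 0 := by
    rintro rfl
    have h1 := (x ^ 2).2
    have : Nonempty (Fin n) := ⟨⟨0, by omega⟩⟩
    rw [hz, zero_smul, Matrix.det_zero] at h1
    exact zero_ne_one h1
  have hdetT : LinearMap.det T = 1 := by
    rw [hTdef, LinearMap.det_toLin']
    exact x.2
  have hfr : Module.finrank F (Fin n → F) = 2 * t := by simp [ht]
  obtain ⟨J₀, hJ₀, ζ, hJsq, hζ, hJns⟩ := exists_sqrt_generator h2 hK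
  have key : ∃ J₁ ∈ K, (∀ c : F, J₁ ≠ c • (1 : Matrix (Fin n) (Fin n) F)) ∧
      ∃ P : (Fin n → F) ≃ₗ[F] (Fin n → F), LinearMap.det (P : (Fin n → F) →ₗ[F] (Fin n → F)) = 1 ∧
      ∀ v, P.symm (T (P (Matrix.toLin' J₁ v))) = Matrix.toLin' J₁ (P.symm (T (P v))) := by
    by_cases hsq : ∃ l : F, l ^ 2 = z
    · obtain ⟨l, rfl⟩ := hsq
      have hl0 : l ≠ 0 := by
        rintro rfl
        exact hz0 (by simp)
      obtain ⟨α, β, b, h1, h3⟩ := exists_eigenbasis h2 hl0 hTT
      have hdet := det_of_eigenbasis b h1 h3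
      rw [hdetT] at hdet
      have hαβ : α + β = n := by
        have := Module.finrank_eq_card_basis b
        rw [hfr, Fintype.card_sum, Fintype.card_fin, Fintype.card_fin] at this
        omega
      have hβ : Even β := by
        by_contra hodd
        rw [Nat.not_even_iff_odd] at hodd
        have h4 : l ^ n = -1 := by
          rw [neg_pow l β, hodd.neg_one_pow] at hdet
          rw [← hαβ, pow_add]
          linear_combination hdet
        have := padicValNat_lt_of_pow_eq_neg_one h2 h4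
        omega
      have hα : Even α := by
        have he : Even (α + β) := by rw [hαβ, ht]; exact even_two_mul t
        exact (Nat.even_add.1 he).2 hβ
      obtain ⟨bb, c, hbb⟩ := exists_paired_eigenbasis b h1 h3 hα hβ (t := t) (by omega)
      refine ⟨J₀, hJ₀, hJns, ?_⟩
      apply exists_conj_commute hodd' hζ ?_ hfr (by omega) bb c (fun _ => 0)
      · intro i
        rw [hbb]; simp
      · intro i
        rw [hbb]; simp
      · intro v
        rw [← LinearMap.comp_apply, ← Matrix.toLin'_mul, hJsq]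
        simp
    · push Not at hsq
      obtain ⟨s, hs0, hs⟩ := exists_eq_mul_sq_of_nonsquares hodd' hsq hζ
      obtain ⟨ww, hww⟩ := exists_companion_basis hTT hsq hfr
      refine ⟨s • J₀, K.smul_mem hJ₀ s, ?_, ?_⟩
      · intro c hc
        apply hJns (s⁻¹ * c)
        rw [mul_smul, ← hc, smul_smul, inv_mul_cancel₀ hs0, one_smul]
      · apply exists_conj_commute hodd' hsq ?_ hfr (by omega) ww (fun _ => 0) (fun _ => 1)
        · intro i
          rw [(hww i).1]; simp
        · intro i
          rw [(hww i).2]; simp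
        · intro v
          rw [← LinearMap.comp_apply, ← Matrix.toLin'_mul, smul_mul_smul_comm, hJsq, smul_smul, hs]
          simp [pow_two, mul_comm]
  obtain ⟨J₁, hJ₁, hJ₁ns, P, hPdet, hP⟩ := key
  obtain ⟨P', hP'⟩ := exists_sl_conj x P hPdet
  refine ⟨P', ?_⟩
  have hcomm : ((P'⁻¹ * x * P' : Matrix.SpecialLinearGroup (Fin n) F) : Matrix (Fin n) (Fin n) F) * J₁
      = J₁ * ((P'⁻¹ * x * P' : Matrix.SpecialLinearGroup (Fin n) F) : Matrix (Fin n) (Fin n) F) := by
    apply Matrix.toLin'.injective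
    apply LinearMap.ext
    intro v
    rw [Matrix.toLin'_mul, Matrix.toLin'_mul, LinearMap.comp_apply, LinearMap.comp_apply,
      Matrix.toLin'_apply _ (Matrix.toLin' J₁ v), hP', hP, Matrix.toLin'_apply _ v, hP']
  exact mem_subalgebraNormalizer_of_generator hJ₁ (span_generator hK hJ₁ hJ₁ns) _ hcomm hcomm

lemma trace_det_of_sq_scalar {F : Type*} [Field F] {X : Matrix (Fin 2) (Fin 2) F} {z : F}
    (hX : ∀ c : F, X ≠ c • (1 : Matrix (Fin 2) (Fin 2) F)) (hsq : X * X = z • (1 : Matrix (Fin 2) (Fin 2) F)) :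
    X.trace = 0 ∧ X.det = -z := by
  have h1 := ch2 X
  rw [hsq] at h1
  have h2 : X.trace • X = (z + X.det) • (1 : Matrix (Fin 2) (Fin 2) F) := by
    rw [add_smul, h1]; abel
  have h3 : X.trace = 0 := by
    by_contra h
    apply hX (X.trace⁻¹ * (z + X.det))
    rw [mul_smul, ← h2, smul_smul, inv_mul_cancel₀ h, one_smul]
  refine ⟨h3, ?_⟩
  rw [h3, zero_smul] at h2
  have := congrFun (congrFun h2 0) 0
  simp at this
  linear_combination -this

/-- The core of the two-dimensional case: an element of the normaliser of trace zero and determinant one. -/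
theorem exists_normalizing_two {F : Type*} [Field F] [Fintype F]
    (K : Subalgebra F (Matrix (Fin 2) (Fin 2) F)) (hK : Cfsg.Geo.IsFieldSubalgebra 2 K) :
    ∃ y J J' : Matrix (Fin 2) (Fin 2) F, y.det = 1 ∧ y.trace = 0 ∧
      (∀ c : F, y ≠ c • (1 : Matrix (Fin 2) (Fin 2) F)) ∧ J ∈ K ∧ J' ∈ K ∧
      (∀ c : F, J ≠ c • (1 : Matrix (Fin 2) (Fin 2) F)) ∧ y * J = J' * y ∧ y * J' = J * y := by
  rcases Nat.mod_two_eq_zero_or_one (Fintype.card F) with hev | hodd
  · have h2 := two_eq_zero_of_even_card hev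
    have hneg : ∀ w : F, -w = w := by
      intro w
      have : w + w = 0 := by rw [← two_mul, h2, zero_mul]
      exact (eq_neg_of_add_eq_zero_left this).symm
    obtain ⟨J, hJ, hns⟩ := exists_generator hK
    have hj10 : J 1 0 ≠ 0 := by
      intro h
      apply hns (J 0 0)
      have h3 : J - (J 0 0) • (1 : Matrix (Fin 2) (Fin 2) F) = 0 := by
        apply fieldSubalgebra_eq_zero_of_mulVec hK (K.sub_mem hJ (K.smul_mem K.one_mem _))
          (v := ![1, 0])
        · intro h0
          have := congrFun h0 0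
          simp at this
        · ext i
          fin_cases i <;> simp [Matrix.mulVec, dotProduct, Fin.sum_univ_two, h]
      exact sub_eq_zero.1 h3
    have ha : J.trace ≠ 0 := by
      intro ha
      obtain ⟨c, hc⟩ := FiniteField.isSquare_of_char_two (ringChar_eq_two_of_even_card hev) J.det
      have h1 := ch2 J
      rw [ha, zero_smul, zero_sub] at h1
      have hN : J - c • (1 : Matrix (Fin 2) (Fin 2) F) ∈ K := K.sub_mem hJ (K.smul_mem K.one_mem _)
      have hNN : (J - c • (1 : Matrix (Fin 2) (Fin 2) F)) * (J - c • (1 : Matrix (Fin 2) (Fin 2) F)) = 0 := by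
        simp only [sub_mul, mul_sub, h1, smul_mul_assoc, mul_smul_comm, one_mul, mul_one, hc]
        have e : -((c * c) • (1 : Matrix (Fin 2) (Fin 2) F)) - c • J - c • (J - c • 1)
            = (2 : F) • (-(c • J)) := by
          module
        rw [e, h2, zero_smul]
      apply hns c
      by_contra hne
      obtain ⟨w, _, hw⟩ := hK.inv _ hN (fun h => hne (sub_eq_zero.1 h))
      apply hne
      have : J - c • (1 : Matrix (Fin 2) (Fin 2) F) = 0 := by
        calc J - c • (1 : Matrix (Fin 2) (Fin 2) F)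
            = (J - c • (1 : Matrix (Fin 2) (Fin 2) F)) * ((J - c • (1 : Matrix (Fin 2) (Fin 2) F)) * w) := by
              rw [hw, mul_one]
          _ = 0 := by rw [← mul_assoc, hNN, zero_mul]
      exact sub_eq_zero.1 this
    obtain ⟨t, ht⟩ : ∃ t : F, t = J.trace / J 1 0 := ⟨_, rfl⟩
    have ht1 : t * J 1 0 = J 0 0 + J 1 1 := by
      rw [ht, div_mul_cancel₀ _ hj10]
      simp [Matrix.trace, Fin.sum_univ_two]
    have ht0 : t ≠ 0 := by rw [ht]; exact div_ne_zero ha hj10
    refine ⟨!![1, t; 0, 1], J, J.trace • (1 : Matrix (Fin 2) (Fin 2) F) - J, ?_, ?_, ?_, hJ,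
      K.sub_mem (K.smul_mem K.one_mem _) hJ, hns, ?_, ?_⟩
    · simp [Matrix.det_fin_two_of]
    · simp [Matrix.trace, Fin.sum_univ_two, one_add_one_eq_two, h2]
    · intro c hc
      have := congrFun (congrFun hc 0) 1
      simp at this
      exact ht0 this
    · ext i j
      fin_cases i <;> fin_cases j <;>
        simp [Matrix.mul_apply, Fin.sum_univ_two, Matrix.trace, ht1]
      · linear_combination (J 0 0) * h2
      · linear_combination (J 0 1) * h2
      · linear_combination (J 1 0) * h2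
      · linear_combination (J 1 1) * h2 + ht1
    · ext i j
      fin_cases i <;> fin_cases j <;>
        simp [Matrix.mul_apply, Fin.sum_univ_two, Matrix.trace, ht1]
      · linear_combination (-J 0 0) * h2
      · linear_combination (-J 0 1) * h2
      · linear_combination (-J 1 0) * h2
      · linear_combination (-J 1 1) * h2 - ht1
  · have h2 := two_ne_zero_of_odd_card hodd
    obtain ⟨J₀, hJ₀, ζ, hJsq, hζ, hJns⟩ := exists_sqrt_generator h2 hK
    obtain ⟨htr, hdet⟩ := trace_det_of_sq_scalar hJns hJsq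
    have h11 : J₀ 1 1 = - J₀ 0 0 := by
      simp [Matrix.trace, Fin.sum_univ_two] at htr
      linear_combination htr
    have hζe : ζ = J₀ 0 0 ^ 2 + J₀ 0 1 * J₀ 1 0 := by
      rw [Matrix.det_fin_two, h11] at hdet
      linear_combination hdet
    have hbc : J₀ 0 1 * J₀ 1 0 ≠ 0 := by
      intro h
      apply hζ (J₀ 0 0)
      rw [hζe, h, add_zero]
    have hζ0 : ζ ≠ 0 := fun h => hζ 0 (by rw [h]; simp)
    obtain ⟨α, β, hαβ⟩ := exists_sq_sub_mul_sq_eq hodd hζ0 (J₀ 0 1 * J₀ 1 0)⁻¹
    have hJeta : J₀ = !![J₀ 0 0, J₀ 0 1; J₀ 1 0, -J₀ 0 0] := by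
      rw [← h11]; exact Matrix.eta_fin_two J₀
    generalize J₀ 0 0 = m at *
    generalize J₀ 0 1 = b at *
    generalize J₀ 1 0 = c at *
    have hdety : (!![β * b * c, -(α * b) - β * m * b; α * c - β * m * c, -(β * b * c)] : Matrix (Fin 2) (Fin 2) F).det = 1 := by
      rw [Matrix.det_fin_two_of]
      have : (b * c) * (α ^ 2 - ζ * β ^ 2) = 1 := by rw [hαβ, mul_inv_cancel₀ hbc]
      rw [hζe] at this
      linear_combination this
    refine ⟨!![β * b * c, -(α * b) - β * m * b; α * c - β * m * c, -(β * b * c)], J₀, -J₀, hdety, ?_, ?_, hJ₀,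
      K.neg_mem hJ₀, hJns, ?_, ?_⟩
    · simp [Matrix.trace, Fin.sum_univ_two]
    · intro w hw
      have e0 := congrFun (congrFun hw 0) 0
      have e1 := congrFun (congrFun hw 1) 1
      have e2 := congrFun (congrFun hw 0) 1
      have e3 := congrFun (congrFun hw 1) 0
      simp at e0 e1 e2 e3
      have hw0 : w = 0 := by
        have : 2 * w = 0 := by linear_combination -e0 - e1
        exact (mul_eq_zero.1 this).resolve_left h2
      rw [hw, hw0, zero_smul, Matrix.det_zero] at hdety
      exact zero_ne_one hdety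
    · rw [hJeta]
      ext i j
      fin_cases i <;> fin_cases j <;>
        simp [Matrix.mul_apply, Fin.sum_univ_two] <;> ring
    · rw [hJeta]
      ext i j
      fin_cases i <;> fin_cases j <;>
        simp [Matrix.mul_apply, Fin.sum_univ_two] <;> ring

theorem backward_two {F : Type*} [Field F] [Fintype F]
    (K : Subalgebra F (Matrix (Fin 2) (Fin 2) F)) (hK : Cfsg.Geo.IsFieldSubalgebra 2 K)
    (x : Matrix.SpecialLinearGroup (Fin 2) F)
    (hx : ∃ z : F, ((x ^ 2 : Matrix.SpecialLinearGroup (Fin 2) F) : Matrix (Fin 2) (Fin 2) F) = z • (1 : Matrix (Fin 2) (Fin 2) F))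
    (hns : ∀ z : F, (x : Matrix (Fin 2) (Fin 2) F) ≠ z • (1 : Matrix (Fin 2) (Fin 2) F)) :
      ∃ P : Matrix.SpecialLinearGroup (Fin 2) F, P⁻¹ * x * P ∈ ((Cfsg.Geo.subalgebraNormalizer K).comap (Matrix.SpecialLinearGroup.toGL : Matrix.SpecialLinearGroup (Fin 2) F →* GL (Fin 2) F)) := by
  obtain ⟨z, hz⟩ := hx
  rw [pow_two, Matrix.SpecialLinearGroup.coe_mul] at hz
  obtain ⟨htr, -⟩ := trace_det_of_sq_scalar hns hz
  obtain ⟨y, J, J', hyd, hyt, hyns, hJ, hJ', hJns, h1, h2⟩ := exists_normalizing_two K hK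
  obtain ⟨G, hG, hxG⟩ : ∃ G : Matrix (Fin 2) (Fin 2) F, G.det = 1 ∧ (x : Matrix (Fin 2) (Fin 2) F) * G = G * y := by
    rcases Nat.mod_two_eq_zero_or_one (Fintype.card F) with hev | hodd
    · exact exists_sl2_conj_even hev _ _ hns hyns x.2 hyd (by rw [htr, hyt])
    · refine exists_sl2_conj hodd _ _ hns hyns x.2 hyd (by rw [htr, hyt]) ?_
      rw [hyt]
      have h2 := two_ne_zero_of_odd_card hodd
      intro h
      have : (2 : F) * 2 = 0 := by linear_combination -h
      exact (mul_ne_zero h2 h2) this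
  let P : Matrix.SpecialLinearGroup (Fin 2) F := ⟨G, hG⟩
  let Y : Matrix.SpecialLinearGroup (Fin 2) F := ⟨y, hyd⟩
  refine ⟨P, ?_⟩
  have hconj : P⁻¹ * x * P = Y := by
    have : x * P = P * Y := by
      apply Subtype.ext
      exact hxG
    rw [mul_assoc, this, inv_mul_cancel_left]
  rw [hconj]
  exact mem_subalgebraNormalizer_of_generator hJ' (span_generator hK hJ hJns) _ h1 h2

/-- Involutions of PSL_n(q) and extension-field subgroups of degree 2. Here `T = PSL_n(F)` for a field `F` with `q = p^f` elements (`n ≥ 2`, `(n, q) ≠ (2, 2), (2, 3)`), `k` is a prime dividing `n`, `K` is a subalgebra of the `n × n` matrices that is a field of degree `k` over `F` (an extension-field structure F_{q^k} on `F^n`), and `H` is the subgroup of matrices of determinant 1 normalizing `K` — a subgroup of type GL_{n/k}(q^k) (maximal except in some small cases; maximality is not assumed); Ω is the set of cosets of `H` in `T`, so an element of `T` of prime order `r` (a matrix `x` of determinant 1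 with `x^r` scalar, `x` not scalar) fixes a point of Ω when some conjugate of `x` by a matrix of determinant 1 normalizes `K`. Take `k = 2` and suppose the index of `H` is even. Then every involution of `T` is conjugate in `T` into `H` if and only if `n = 2`, or `q` is odd and `(q − 1)_2 ≤ (n)_2`. -/
theorem result {F : Type*} [Field F] [Fintype F] {p : ℕ} [Fact p.Prime] [CharP F p] {q : ℕ} (hq : Fintype.card F = q)
    (n : ℕ) (hn : 2 ≤ n) (hT : (n, q) ≠ (2, 2) ∧ (n, q) ≠ (2, 3))
    (k : ℕ) (hk : k.Prime) (hkn : k ∣ n) (K : Subalgebra F (Matrix (Fin n) (Fin n) F)) (hK : Cfsg.Geo.IsFieldSubalgebra k K) (hk2 : k = 2) (hΩ : 2 ∣ ((Cfsg.Geo.subalgebraNormalizer K).comap (Matrix.SpecialLinearGroup.toGL : Matrix.SpecialLinearGroup (Fin n) F →* GL (Fin n) F)).index) :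
    (∀ x : Matrix.SpecialLinearGroup (Fin n) F,
      (∃ z : F, ((x ^ 2 : Matrix.SpecialLinearGroup (Fin n) F) : Matrix (Fin n) (Fin n) F) = z • (1 : Matrix (Fin n) (Fin n) F)) →
      (∀ z : F, (x : Matrix (Fin n) (Fin n) F) ≠ z • (1 : Matrix (Fin n) (Fin n) F)) →
      ∃ P : Matrix.SpecialLinearGroup (Fin n) F, P⁻¹ * x * P ∈ ((Cfsg.Geo.subalgebraNormalizer K).comap (Matrix.SpecialLinearGroup.toGL : Matrix.SpecialLinearGroup (Fin n) F →* GL (Fin n) F))) ↔
    (n = 2 ∨ (Odd q ∧ padicValNat 2 (q - 1) ≤ padicValNat 2 n)) := by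
  subst hq
  subst hk2
  constructor
  · intro hall
    by_cases h2 : n = 2
    · exact Or.inl h2
    · right
      obtain ⟨t, ht⟩ := hkn
      exact forward n (by omega) K hK hall
  · rintro (rfl | ⟨hodd, hv⟩)
    · intro x hx hns
      exact backward_two K hK x hx hns
    · intro x hx _
      exact backward_gen n hn hkn K hK hodd hv x hx

end Cfsg.Agent.S5969
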