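import Cfsg.Statements.S5970
import Cfsg.Agent.Lib.Helper56.Sng.Main

set_option autoImplicit false
open scoped MatrixGroups
open Cfsg

namespace Cfsg.Agent.S5970

open Cfsg.Agent.Lib.Helper56.Sng

/-- Elements of order `n` of PSL_n(q), `n` prime, and the normalizer of a Singer cycle. Here `T = PSL_n(F)` for a field `F` with `q = p^f` elements (`n ≥ 2`, `(n, q) ≠ (2, 2), (2, 3)`), `k` is a prime dividing `n`, `K` is a subalgebra of the `n × n` matrices that is a field of degree `k` over `F` (an extension-field structure F_{q^k} on `F^n`), and `H` is the subgroup of matrices of determinant 1 normalizing `K` — a subgroup of type GL_{n/k}(q^k) (maximal except in some small cases; maximality is not assumed); Ω is the set of cosets of `H` in `T`, so an element of `T` of prime order `r` (a matrix `x` of determinant 1 with `x^r` scalar, `x` not scalar) fixes a point of Ω when some conjugate of `x` by a matrix of determinant 1 normalizes `K`. Take `k = n > 3` prime with `n ≠ p` (so `H` is the normalizer of a Singer cycle),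 and suppose `n` divides the index of `H`. Then every element of `T` of order `n` is conjugate in `T` into `H` if and only if the multiplicative order of `q` modulo `n` is `n − 1`. -/
theorem result {F : Type*} [Field F] [Fintype F] {p : ℕ} [Fact p.Prime] [CharP F p] {q : ℕ} (hq : Fintype.card F = q)
    (n : ℕ) (hn : 2 ≤ n) (hT : (n, q) ≠ (2, 2) ∧ (n, q) ≠ (2, 3))
    (k : ℕ) (hk : k.Prime) (hkn : k ∣ n) (K : Subalgebra F (Matrix (Fin n) (Fin n) F)) (hK : Cfsg.Geo.IsFieldSubalgebra k K) (hkn' : k = n) (hn3 : 3 < n) (hnp : n ≠ p) (hΩ : n ∣ ((Cfsg.Geo.subalgebraNormalizer K).comap (Matrix.SpecialLinearGroup.toGL : Matrix.SpecialLinearGroup (Fin n) F →* GL (Fin n) F)).index) :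
    (∀ x : Matrix.SpecialLinearGroup (Fin n) F,
      (∃ z : F, ((x ^ n : Matrix.SpecialLinearGroup (Fin n) F) : Matrix (Fin n) (Fin n) F) = z • (1 : Matrix (Fin n) (Fin n) F)) →
      (∀ z : F, (x : Matrix (Fin n) (Fin n) F) ≠ z • (1 : Matrix (Fin n) (Fin n) F)) →
      ∃ P : Matrix.SpecialLinearGroup (Fin n) F, P⁻¹ * x * P ∈ ((Cfsg.Geo.subalgebraNormalizer K).comap (Matrix.SpecialLinearGroup.toGL : Matrix.SpecialLinearGroup (Fin n) F →* GL (Fin n) F))) ↔
    orderOf (q : ZMod n) = n - 1 := by
  subst hq
  rw [hkn'] at hk hK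
  have : Fact n.Prime := ⟨hk⟩
  constructor
  · intro hall
    by_contra hc
    obtain ⟨x, hxn, hx1, u, w, hu0, hind, hu, hw⟩ := exists_two_fixed (F := F) hk hn3 hnp hc
    obtain ⟨P, hP⟩ := hall x ⟨1, by rw [hxn, one_smul, Matrix.SpecialLinearGroup.coe_one]⟩ (by
      intro z hz
      have h1 : z • u = u := by
        rw [hz, Matrix.smul_mulVec, Matrix.one_mulVec] at hu
        exact hu
      have h2 : z = 1 := by
        by_contra hz1
        apply hu0
        have : (z - 1) • u = 0 := by rw [sub_smul, h1, one_smul, sub_self]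
        exact (smul_eq_zero.1 this).resolve_left (sub_ne_zero.2 hz1)
      apply hx1
      apply Subtype.ext
      rw [hz, h2, one_smul, Matrix.SpecialLinearGroup.coe_one])
    exact derange hk K hK x P hx1 u w hu0 hind hu hw hP
  · rintro hc x ⟨z, hz⟩ hns
    have hq1 : ¬ n ∣ Fintype.card F - 1 := by
      intro h
      have := (Cfsg.Agent.Lib.Helper25.Elu.ordq_eq_one_iff (F := F) hnp).2 h
      unfold Cfsg.Agent.Lib.Helper25.Elu.ordq at this
      omega
    have hsurj : Function.Surjective (fun a : F => a ^ n) := fun c =>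
      Cfsg.Agent.Lib.Helper25.Elu.exists_pow_eq_of_not_dvd hk hq1 c
    have hinj : Function.Injective (fun a : F => a ^ n) := Finite.injective_iff_surjective.2 hsurj
    have hzn : z ^ n = 1 := by
      have h1 := congrArg Matrix.det hz
      rw [Matrix.det_smul, Matrix.det_one, mul_one, Fintype.card_fin] at h1
      rw [← h1]
      exact (x ^ n).2
    have hz1 : z = 1 := hinj (by simpa using hzn)
    have hy : (x : Matrix (Fin n) (Fin n) F) ^ n = 1 := by
      rw [← Matrix.SpecialLinearGroup.coe_pow, hz, hz1, one_smul]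
    have hy1 : (x : Matrix (Fin n) (Fin n) F) ≠ 1 := by
      intro h
      exact hns 1 (by rw [h, one_smul])
    obtain ⟨v, hv⟩ := exists_cyclic_vec hk (by omega) hnp hc _ hy hy1
    obtain ⟨g, hg⟩ := conj_shift hk.pos _ hy v hv
    obtain ⟨φ, hφ, hφn, hφ1⟩ := exists_frob hk K hK
    have hy' : (φ : Matrix (Fin n) (Fin n) F) ^ n = 1 := by
      rw [← Units.val_pow_eq_pow_val, hφn, Units.val_one]
    have hy1' : (φ : Matrix (Fin n) (Fin n) F) ≠ 1 := by
      intro h
      exact hφ1 (Units.ext h)
    obtain ⟨v', hv'⟩ := exists_cyclic_vec hk (by omega) hnp hc _ hy' hy1'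
    obtain ⟨h, hh⟩ := conj_shift hk.pos _ hy' v' hv'
    exact conj_into hk hq1 K x φ g h hφ hg hh

end Cfsg.Agent.S5970
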