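import Cfsg.Statements.S5971
import Cfsg.Agent.Lib.Helper48.Singer3b
import Cfsg.Agent.Lib.Helper48.SpecProd

set_option autoImplicit false
open scoped MatrixGroups
open Cfsg

namespace Cfsg.Agent.S5971

/-- Elements of order 3 of PSL_3(q) and the normalizer of a Singer cycle. Here `T = PSL_n(F)` for a field `F` with `q = p^f` elements (`n ≥ 2`, `(n, q) ≠ (2, 2), (2, 3)`), `k` is a prime dividing `n`, `K` is a subalgebra of the `n × n` matrices that is a field of degree `k` over `F` (an extension-field structure F_{q^k} on `F^n`), and `H` is the subgroup of matrices of determinant 1 normalizing `K` — a subgroup of type GL_{n/k}(q^k) (maximal except in some small cases; maximality is not assumed); Ω is the set of cosets of `H` in `T`, so an element of `T` of prime order `r` (a matrix `x` of determinant 1 with `x^r` scalar, `x` not scalar) fixes a point of Ω when some conjugate of `x` by a matrix of determinant 1 normalizes `K`. Take `n = k = 3` and suppose 3 divides the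 index of `H`. Then every element of `T` of order 3 is conjugate in `T` into `H` if and only if `q ≡ 4, 7` or `8 (mod 9)`. -/
theorem result {F : Type*} [Field F] [Fintype F] {p : ℕ} [Fact p.Prime] [CharP F p] {q : ℕ} (hq : Fintype.card F = q)
    (n : ℕ) (hn : n = 3) (k : ℕ) (hk : k.Prime) (hkn : k ∣ n) (K : Subalgebra F (Matrix (Fin n) (Fin n) F)) (hK : Cfsg.Geo.IsFieldSubalgebra k K) (hk3 : k = 3) (hΩ : 3 ∣ ((Cfsg.Geo.subalgebraNormalizer K).comap (Matrix.SpecialLinearGroup.toGL : Matrix.SpecialLinearGroup (Fin n) F →* GL (Fin n) F)).index) :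
    (∀ x : Matrix.SpecialLinearGroup (Fin n) F,
      (∃ z : F, ((x ^ 3 : Matrix.SpecialLinearGroup (Fin n) F) : Matrix (Fin n) (Fin n) F) = z • (1 : Matrix (Fin n) (Fin n) F)) →
      (∀ z : F, (x : Matrix (Fin n) (Fin n) F) ≠ z • (1 : Matrix (Fin n) (Fin n) F)) →
      ∃ P : Matrix.SpecialLinearGroup (Fin n) F, P⁻¹ * x * P ∈ ((Cfsg.Geo.subalgebraNormalizer K).comap (Matrix.SpecialLinearGroup.toGL : Matrix.SpecialLinearGroup (Fin n) F →* GL (Fin n) F))) ↔
    (q % 9 = 4 ∨ q % 9 = 7 ∨ q % 9 = 8) := by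
  classical
  subst hn
  subst hk3
  obtain ⟨f, hpp, hqf⟩ := FiniteField.card F p
  rw [hq] at hqf
  have hchar : (3 : F) = 0 ↔ q % 3 = 0 := by
    constructor
    · intro h
      have h1 : ((3 : ℕ) : F) = 0 := by exact_mod_cast h
      have h2 : p ∣ 3 := (CharP.cast_eq_zero_iff F p 3).1 h1
      have h3 : p = 3 := (Nat.prime_dvd_prime_iff_eq hpp Nat.prime_three).1 h2
      rw [hqf, h3]
      exact Nat.mod_eq_zero_of_dvd (dvd_pow_self 3 f.ne_zero)
    · intro h
      have h1 : 3 ∣ p ^ (f : ℕ) := by rw [← hqf]; exact Nat.dvd_of_mod_eq_zero h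
      have h2 : 3 ∣ p := Nat.prime_three.dvd_of_dvd_pow h1
      have h3 : 3 = p := (Nat.prime_dvd_prime_iff_eq Nat.prime_three hpp).1 h2
      have h4 : ((p : ℕ) : F) = 0 := CharP.cast_eq_zero F p
      rw [← h3] at h4
      exact_mod_cast h4
  obtain ⟨φ, hφN, hφc, hφ3, _, _, hφ1⟩ :=
    Cfsg.Agent.Lib.Helper48.exists_frob_strong (by norm_num : 0 < 3) K hK
  have hφ3m : (φ : Matrix (Fin 3) (Fin 3) F) ^ 3 = 1 := by
    rw [← Units.val_pow_eq_pow_val, hφ3, Units.val_one]
  have hφdet : (φ : Matrix (Fin 3) (Fin 3) F).det = 1 := by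
    rw [Matrix.det_eq_sign_charpoly_coeff, hφc]
    simp
    norm_num
  obtain ⟨φs, hφs⟩ : ∃ φs : Matrix.SpecialLinearGroup (Fin 3) F,
      (φs : Matrix (Fin 3) (Fin 3) F) = (φ : Matrix (Fin 3) (Fin 3) F) := ⟨⟨_, hφdet⟩, rfl⟩
  have hφsGL : (Matrix.SpecialLinearGroup.toGL φs : GL (Fin 3) F) = φ := Units.ext hφs
  have hpow : ∀ z : F, z ≠ 0 → z ^ (q - 1) = 1 := by
    intro z hz
    rw [← hq]
    exact FiniteField.pow_card_sub_one_eq_one z hz
  constructor
  · -- every element is conjugate into `H` : determine `q mod 9`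
    intro hall
    by_contra hcon
    have hcases : q % 3 = 0 ∨ q % 9 = 1 ∨ (q % 9 = 2 ∨ q % 9 = 5) := by omega
    rcases hcases with h | h | h
    · obtain ⟨x, hx3, hxns, u, w, hu, hw, hxu, hxw⟩ := Cfsg.Agent.Lib.Helper48.s3_ce_char3 (hchar.2 h)
      obtain ⟨P, hP⟩ := hall x ⟨1, hx3⟩ hxns
      exact hxns 1 (Cfsg.Agent.Lib.Helper48.sing_not_conj Nat.prime_three K hK x P 1 u w hu hw hxu hxw hP)
    · -- an element of order nine
      obtain ⟨g, hg⟩ := IsCyclic.exists_generator (α := Fˣ)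
      have hog : orderOf g = q - 1 := by
        rw [orderOf_eq_card_of_forall_mem_zpowers hg, Nat.card_eq_fintype_card, Fintype.card_units, hq]
      obtain ⟨e, he⟩ := Cfsg.Agent.Lib.Helper48.exists_orderOf_eq_of_dvd (d := 9) g (by
        rw [hog]; omega)
      have h9 : ((e : Fˣ) : F) ^ 9 = 1 := by
        rw [← Units.val_pow_eq_pow_val, ← he, pow_orderOf_eq_one, Units.val_one]
      have h3 : ((e : Fˣ) : F) ^ 3 ≠ 1 := by
        intro h3
        have : e ^ 3 = 1 := Units.ext (by rw [Units.val_pow_eq_pow_val, h3, Units.val_one])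
        have := orderOf_dvd_of_pow_eq_one this
        rw [he] at this
        omega
      obtain ⟨x, hx3, hxns, u, w, hu, hw, hxu, hxw⟩ := Cfsg.Agent.Lib.Helper48.s3_ce_nine _ h9 h3
      obtain ⟨P, hP⟩ := hall x ⟨_, hx3⟩ hxns
      exact hxns _ (Cfsg.Agent.Lib.Helper48.sing_not_conj Nat.prime_three K hK x P _ u w hu hw hxu hxw hP)
    · refine Cfsg.Agent.Lib.Helper48.s3_index q hq h _ φs ?_ ?_ ?_ hΩ
      · rw [Subgroup.mem_comap, hφsGL]
        exact hφN
      · apply Matrix.SpecialLinearGroup.toGL_injective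
        rw [map_pow, hφsGL, hφ3, map_one]
      · intro h1
        apply hφ1 (by norm_num)
        rw [← hφsGL, h1, map_one]
  · intro hq9 x hx hxns
    obtain ⟨z, hz⟩ := hx
    rw [Matrix.SpecialLinearGroup.coe_pow] at hz
    have h3 : (3 : F) ≠ 0 := by
      intro h
      have := hchar.1 h
      omega
    have hz3 : z ^ 3 = 1 := by
      have := congrArg Matrix.det hz
      rw [Matrix.det_pow, x.2, one_pow, Matrix.det_smul, Matrix.det_one, mul_one] at this
      simpa using this.symm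
    have hz0 : z ≠ 0 := by
      rintro rfl
      simp at hz3
    have hz1 : z = 1 := by
      by_cases h8 : q % 9 = 8
      · have hcop : Nat.gcd 3 (q - 1) = 1 :=
          (Nat.Prime.coprime_iff_not_dvd Nat.prime_three).2 (by omega)
        have := pow_gcd_eq_one.2 ⟨hz3, hpow z hz0⟩
        rwa [hcop, pow_one] at this
      · by_contra hne
        apply Cfsg.Agent.Lib.Helper48.s3_no_irr _ z hz x.2 hne
        apply X_pow_sub_C_irreducible_of_prime Nat.prime_three
        intro b hb
        have hb0 : b ≠ 0 := by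
          rintro rfl
          apply hz0
          rw [← hb]; simp
        have hb9 : b ^ 9 = 1 := by
          calc b ^ 9 = (b ^ 3) ^ 3 := by rw [← pow_mul]
            _ = 1 := by rw [hb, hz3]
        obtain ⟨m, hm⟩ : ∃ m, q - 1 = 3 * m := ⟨(q - 1) / 3, by omega⟩
        have hg : Nat.gcd 9 (q - 1) = 3 := by
          rw [hm, show (9 : ℕ) = 3 * 3 from rfl, Nat.gcd_mul_left]
          have : Nat.gcd 3 m = 1 := (Nat.Prime.coprime_iff_not_dvd Nat.prime_three).2 (by omega)
          rw [this]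
        have := pow_gcd_eq_one.2 ⟨hb9, hpow b hb0⟩
        rw [hg, hb] at this
        exact hne this
    rw [hz1, one_smul] at hz
    have hcx := Cfsg.Agent.Lib.Helper48.s3_charpoly _ hz x.2 hxns
    obtain ⟨P, hPd, hP⟩ := Cfsg.Agent.Lib.Helper48.s3_conj h3 _ _ hz hφ3m hcx hφc
    obtain ⟨Ps, hPs⟩ : ∃ Ps : Matrix.SpecialLinearGroup (Fin 3) F,
        (Ps : Matrix (Fin 3) (Fin 3) F) = P := ⟨⟨_, hPd⟩, rfl⟩
    refine ⟨Ps, ?_⟩
    rw [Subgroup.mem_comap]
    have : (Matrix.SpecialLinearGroup.toGL (Ps⁻¹ * x * Ps) : GL (Fin 3) F) = φ := by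
      rw [map_mul, map_mul, map_inv, mul_assoc, inv_mul_eq_iff_eq_mul]
      apply Units.ext
      show (x : Matrix (Fin 3) (Fin 3) F) * (Ps : Matrix (Fin 3) (Fin 3) F) =
        (Ps : Matrix (Fin 3) (Fin 3) F) * (φ : Matrix (Fin 3) (Fin 3) F)
      rw [hPs]
      exact hP
    rw [this]
    exact hφN

end Cfsg.Agent.S5971
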