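import Cfsg.Statements.S5983
import Cfsg.Agent.Lib.Helper97.SPQ.S6
import Cfsg.Agent.Lib.Helper97.SPQ.T3S
import Cfsg.Agent.Lib.Helper97.SPQ.GLS
import Cfsg.Agent.Lib.Helper97.SPQ.A10b
import Cfsg.Agent.Lib.Helper97.SPQ.T4Sb

set_option autoImplicit false
open scoped MatrixGroups
open Cfsg
open Cfsg.Agent.Lib.Helper49 Cfsg.Agent.Lib.Helper97.SPQ

namespace Cfsg.Agent.S5983

/-- Elements of prime order of PSp_n(q), q even, and the subgroups of orthogonal type. Here `T = Sp_{2d}(F)` for a field `F` of characteristic 2 with `q` elements (`d ≥ 2`, `(d, q) ≠ (2, 2)`), realised as the invertible matrices preserving the standard alternating form; `Q` is a non-degenerate quadratic form on `F^{2d}` whose polar form is that alternating form, and `H` is the subgroup of `T` preserving `Q` up to a scalar (equivalently preserving `Q`) — a subgroup of type O^±_{2d}(q) (maximality is not assumed); `Q` is of plus type when `F^{2d}` contains a `d`-dimensional subspace on which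 `Q` vanishes, of minus type otherwise. Ω is the set of cosets of `H` in `T`, so an element of `T` of prime order `r` (`x ∈ T` with `x^r` scalar, `x` not scalar) fixes a point of Ω exactly when some `T`-conjugate of `x` preserves `Q`. Let `r` be a prime dividing the index of `H`. Then every element of `T` of order `r` fixes a point of Ω if and only if `r = 2` and either `Q` is of plus type or `d` is odd. -/
theorem result {F : Type*} [Field F] [Fintype F] {p : ℕ} [Fact p.Prime] [CharP F p] {q : ℕ} (hq : Fintype.card F = q)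
    (hp : p = 2) (d : ℕ) (hd : 2 ≤ d) (hT : (d, q) ≠ (2, 2)) (Q : (Fin d ⊕ Fin d → F) → F) (hQ : Cfsg.Geo.IsNondegenerateQuadraticForm Q)
    (hQf : ∀ u v, QuadraticMap.polar Q u v = Cfsg.sympForm d F u v)
    (r : ℕ) [Fact r.Prime]
    (hΩ : r ∣ (Cfsg.Geo.quadSimilarityGroup Q).relIndex (Cfsg.spGL d F)) :
    (∀ x ∈ Cfsg.spGL d F, (∃ z : F, ((x ^ r : GL (Fin d ⊕ Fin d) F) : Matrix (Fin d ⊕ Fin d) (Fin d ⊕ Fin d) F) = z • (1 : Matrix (Fin d ⊕ Fin d) (Fin d ⊕ Fin d) F)) →
      (∀ z : F, (x : Matrix (Fin d ⊕ Fin d) (Fin d ⊕ Fin d) F) ≠ z • (1 : Matrix (Fin d ⊕ Fin d) (Fin d ⊕ Fin d) F)) →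
      ∃ g ∈ Cfsg.spGL d F, g⁻¹ * x * g ∈ Cfsg.Geo.quadSimilarityGroup Q) ↔
    (r = 2 ∧ (Cfsg.Geo.IsPlusTypeOn Q ⊤ ∨ Odd d)) := by
  subst hp
  have h2 : (2 : F) = 0 := by
    have := CharP.cast_eq_zero F 2
    simpa using this
  obtain ⟨Qf, hQfc, hQn⟩ : ∃ Qf : QuadraticForm F (Fin d ⊕ Fin d → F), ⇑Qf = Q ∧
      (QuadraticMap.polarBilin Qf).Nondegenerate :=
    ⟨Cfsg.Agent.Lib.Helper95.qfOf Q hQ, rfl, Cfsg.Agent.Lib.Helper95.qfOf_nondegenerate Q hQ⟩
  subst hQfc
  have hfr : Module.finrank F (Fin d ⊕ Fin d → F) = 2 * d := by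
    rw [Module.finrank_fintype_fun_eq_card, Fintype.card_sum, Fintype.card_fin]; ring
  have hV : ∃ x : Fin d ⊕ Fin d → F, x ≠ 0 := by
    have : 0 < Module.finrank F (Fin d ⊕ Fin d → F) := by rw [hfr]; omega
    have := Module.nontrivial_of_finrank_pos this
    exact exists_ne 0
  rw [glueSp d (by omega) Qf hQf r]
  rw [relIndex_eq d (by omega) Qf hQf] at hΩ
  constructor
  · intro hE
    by_cases hr2 : r = 2
    · subst hr2
      refine ⟨rfl, ?_⟩
      by_cases hd' : Odd d
      · exact Or.inr hd'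
      · left
        obtain ⟨m, rfl⟩ := Nat.not_odd_iff_even.1 hd'
        obtain ⟨U, hU, hUf⟩ := plus_of_elusSp_two' h2 m (by omega) Qf hQf hE
        refine ⟨U, le_top, hU, ?_⟩
        rw [finrank_top, hfr, hUf]
    · exfalso
      have hodd : Odd r := (Fact.out : r.Prime).odd_of_ne_two hr2
      have hrF : (r : F) ≠ 0 := by
        obtain ⟨m, rfl⟩ := hodd
        push_cast
        rw [h2]; simp
      exact not_elusSp_of_key h2 hQn hV (keySp h2 hQn hrF hΩ) hE
  · rintro ⟨rfl, hyp⟩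
    obtain ⟨d', rfl⟩ : ∃ d', d = d' + 1 := ⟨d - 1, by omega⟩
    refine elusSp_two h2 hQn d' hfr ?_
    rcases hyp with ⟨U, -, hU, hUf⟩ | hodd
    · left
      rw [finrank_top] at hUf
      exact ⟨U, isLagr_of_finrank hQn hU hUf⟩
    · exact Or.inr hodd

end Cfsg.Agent.S5983
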