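import Cfsg.Statements.S5985
import Cfsg.Agent.Lib.Helper97.NSP.R6
import Cfsg.Agent.Lib.Helper97.NSP.P1
import Cfsg.Agent.Lib.Helper97.NSP.INV
import Cfsg.Agent.Lib.Helper97.NSP.GLUE
import Cfsg.Agent.Lib.Helper97.NSP.T4

set_option autoImplicit false
open Cfsg
open Cfsg.Agent.Lib.Helper49 Cfsg.Agent.Lib.Helper48 Cfsg.Agent.Lib.Helper97.NSP

namespace Cfsg.Agent.S5985

/-- Elements of prime order of Ω⁺_n(q), q even, with no fixed nonsingular 1-space. Here `T = PΩ⁺_n(F)`, `n = 2d ≥ 8`, realised through `Ω⁺_n(q)`, the commutator subgroup of the isometry group of `Q = Σ xᵢyᵢ` over the field `F` with `q` elements; an element of `T` of prime order `r` is an element `x` of `Ω⁺_n(q)` with `x^r` scalar and `x` not scalar; `q` is even (so the centre is trivial). Let Ω be the set of 1-dimensional subspaces spanned by a vector `v` with `Q(v) ≠ 0`, and let `r` be a prime dividing their number. Then every element of `T` of order `r` fixes some nonsingular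 1-space if and only if `r = 2` and `n ≡ 2 (mod 4)` (that is, `d` is odd). -/
theorem result {F : Type*} [Field F] [Fintype F] {p : ℕ} [Fact p.Prime] [CharP F p] {q : ℕ} (hq : Fintype.card F = q)
    (hp : p = 2) (d : ℕ) (hd : 4 ≤ d) (r : ℕ) [Fact r.Prime]
    (hrΩ : r ∣ Nat.card {W : Submodule F (Fin d ⊕ Fin d → F) // Module.finrank F ↥W = 1 ∧ ∃ v ∈ W, Cfsg.quadFormPlus d F v ≠ 0}) :
    (∀ x : GL (Fin d ⊕ Fin d) F, x ∈ Cfsg.Geo.omegaGL (Cfsg.quadFormPlus d F) →
      (∃ z : F, ((x ^ r : GL (Fin d ⊕ Fin d) F) : Matrix (Fin d ⊕ Fin d) (Fin d ⊕ Fin d) F) = z • (1 : Matrix (Fin d ⊕ Fin d) (Fin d ⊕ Fin d) F)) →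
      (∀ z : F, (x : Matrix (Fin d ⊕ Fin d) (Fin d ⊕ Fin d) F) ≠ z • (1 : Matrix (Fin d ⊕ Fin d) (Fin d ⊕ Fin d) F)) →
      ∃ W : Submodule F (Fin d ⊕ Fin d → F), (Module.finrank F ↥W = 1 ∧ ∃ v ∈ W, Cfsg.quadFormPlus d F v ≠ 0) ∧ W.map (Matrix.toLin' (x : Matrix (Fin d ⊕ Fin d) (Fin d ⊕ Fin d) F)) ≤ W) ↔ (r = 2 ∧ Odd d) := by
  subst hp
  have h2 : (2 : F) = 0 := by
    have := CharP.cast_eq_zero F 2
    simpa using this
  have hQ := plusQF_nondegenerate d F
  have hfr : Module.finrank F (Fin d ⊕ Fin d → F) = 2 * d := by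
    rw [Module.finrank_fintype_fun_eq_card, Fintype.card_sum, Fintype.card_fin]; ring
  have hgen : ReflGen (plusQF d F) := reflGen_of_ne hQ (Or.inr (by rw [hfr]; omega))
  have hV : ∃ x : Fin d ⊕ Fin d → F, x ≠ 0 := by
    have : 0 < Module.finrank F (Fin d ⊕ Fin d → F) := by rw [hfr]; omega
    have := Module.nontrivial_of_finrank_pos this
    exact exists_ne 0
  rw [← plusQF_coe] at hrΩ ⊢
  rw [glue (plusQF d F) r]
  constructor
  · intro hE
    by_cases hr2 : r = 2
    · subst hr2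
      refine ⟨rfl, ?_⟩
      by_contra hd'
      exact not_elus_two_plus h2 hd (Nat.not_odd_iff_even.1 hd') hE
    · exfalso
      have hodd : Odd r := (Fact.out : r.Prime).odd_of_ne_two hr2
      have hrF : (r : F) ≠ 0 := by
        obtain ⟨m, rfl⟩ := hodd
        push_cast
        rw [h2]; simp
      rw [card_points h2] at hrΩ
      exact not_elus_odd h2 hQ hgen hV hodd (key hQ hrF hrΩ) hE
  · rintro ⟨rfl, hodd⟩
    exact elus_two_of_odd h2 hQ hfr hodd (invol_lagr h2 hQ)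

end Cfsg.Agent.S5985
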