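import Cfsg.Statements.S5986
import Cfsg.Agent.Lib.Helper97.NSP.R6
import Cfsg.Agent.Lib.Helper97.NSP.P1
import Cfsg.Agent.Lib.Helper97.NSP.INV
import Cfsg.Agent.Lib.Helper97.NSP.GLUE
import Cfsg.Agent.Lib.Helper97.NSP.MND

set_option autoImplicit false
open Cfsg
open Cfsg.Agent.Lib.Helper49 Cfsg.Agent.Lib.Helper48 Cfsg.Agent.Lib.Helper97.NSP

namespace Cfsg.Agent.S5986

/-- Elements of prime order of Ω⁻_n(q), q even, with no fixed nonsingular 1-space. Here `T = PΩ⁻_n(F)`, `n = 2d ≥ 8`, realised through `Ω⁻_n(q)`, the commutator subgroup of the isometry group of `Q = Σ_{i<d−1} xᵢyᵢ + z₁² + a z₁z₂ + b z₂²` with `z₁² + a z₁z₂ + b z₂²` anisotropic, over the field `F` with `q` elements; an element of `T` of prime order `r` is an element `x` of `Ω⁻_n(q)` with `x^r` scalar and `x` not scalar; `q` is even (so the centre is trivial). Let Ω be the set of 1-dimensional subspaces spanned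 by a vector `v` with `Q(v) ≠ 0`, and let `r` be a prime dividing their number. Then every element of `T` of order `r` fixes some nonsingular 1-space if and only if `r = 2`. -/
theorem result {F : Type*} [Field F] [Fintype F] {p : ℕ} [Fact p.Prime] [CharP F p] {q : ℕ} (hq : Fintype.card F = q)
    (hp : p = 2) (d : ℕ) (hd : 4 ≤ d) (a b : F) (hab : ∀ x y : F, x ^ 2 + a * x * y + b * y ^ 2 = 0 → x = 0 ∧ y = 0) (r : ℕ) [Fact r.Prime]
    (hrΩ : r ∣ Nat.card {W : Submodule F ((Fin (d - 1) ⊕ Fin (d - 1)) ⊕ Fin 2 → F) // Module.finrank F ↥W = 1 ∧ ∃ v ∈ W, Cfsg.quadFormMinus (d - 1) F a b v ≠ 0}) :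
    (∀ x : GL ((Fin (d - 1) ⊕ Fin (d - 1)) ⊕ Fin 2) F, x ∈ Cfsg.Geo.omegaGL (Cfsg.quadFormMinus (d - 1) F a b) →
      (∃ z : F, ((x ^ r : GL ((Fin (d - 1) ⊕ Fin (d - 1)) ⊕ Fin 2) F) : Matrix ((Fin (d - 1) ⊕ Fin (d - 1)) ⊕ Fin 2) ((Fin (d - 1) ⊕ Fin (d - 1)) ⊕ Fin 2) F) = z • (1 : Matrix ((Fin (d - 1) ⊕ Fin (d - 1)) ⊕ Fin 2) ((Fin (d - 1) ⊕ Fin (d - 1)) ⊕ Fin 2) F)) →
      (∀ z : F, (x : Matrix ((Fin (d - 1) ⊕ Fin (d - 1)) ⊕ Fin 2) ((Fin (d - 1) ⊕ Fin (d - 1)) ⊕ Fin 2) F) ≠ z • (1 : Matrix ((Fin (d - 1) ⊕ Fin (d - 1)) ⊕ Fin 2) ((Fin (d - 1) ⊕ Fin (d - 1)) ⊕ Fin 2) F)) →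
      ∃ W : Submodule F ((Fin (d - 1) ⊕ Fin (d - 1)) ⊕ Fin 2 → F), (Module.finrank F ↥W = 1 ∧ ∃ v ∈ W, Cfsg.quadFormMinus (d - 1) F a b v ≠ 0) ∧ W.map (Matrix.toLin' (x : Matrix ((Fin (d - 1) ⊕ Fin (d - 1)) ⊕ Fin 2) ((Fin (d - 1) ⊕ Fin (d - 1)) ⊕ Fin 2) F)) ≤ W) ↔ r = 2 := by
  subst hp
  have h2 : (2 : F) = 0 := by
    have := CharP.cast_eq_zero F 2
    simpa using this
  have hQ := minus_nondeg h2 (d - 1) a b hab
  have hfr : Module.finrank F ((Fin (d - 1) ⊕ Fin (d - 1)) ⊕ Fin 2 → F) = 2 * d := by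
    rw [Module.finrank_fintype_fun_eq_card, Fintype.card_sum, Fintype.card_sum, Fintype.card_fin,
      Fintype.card_fin]
    omega
  have hgen : ReflGen (minusQF (d - 1) F a b) := reflGen_of_ne hQ (Or.inr (by rw [hfr]; omega))
  have hV : ∃ x : (Fin (d - 1) ⊕ Fin (d - 1)) ⊕ Fin 2 → F, x ≠ 0 := by
    have : 0 < Module.finrank F ((Fin (d - 1) ⊕ Fin (d - 1)) ⊕ Fin 2 → F) := by rw [hfr]; omega
    have := Module.nontrivial_of_finrank_pos this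
    exact exists_ne 0
  rw [← minusQF_coe] at hrΩ ⊢
  rw [glue (minusQF (d - 1) F a b) r]
  constructor
  · intro hE
    by_contra hr2
    have hodd : Odd r := (Fact.out : r.Prime).odd_of_ne_two hr2
    have hrF : (r : F) ≠ 0 := by
      obtain ⟨m, rfl⟩ := hodd
      push_cast
      rw [h2]; simp
    rw [card_points h2] at hrΩ
    exact not_elus_odd h2 hQ hgen hV hodd (key hQ hrF hrΩ) hE
  · rintro rfl
    exact elus_two_of_noLagr h2 hQ hV (not_isLagr_minusQF a b hab hQ) (invol_lagr h2 hQ)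

end Cfsg.Agent.S5986
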