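import Cfsg.Statements.S5997
import Cfsg.Agent.Lib.Helper99.QuatPair

set_option autoImplicit false
open scoped MatrixGroups
open Cfsg

namespace Cfsg.Agent.S5997

open Cfsg.Agent.Lib.Helper99

lemma q8_data {G : Type*} [Group G] (R : Subgroup G) (φ : R ≃* QuaternionGroup 2) :
    ∃ I J : G, I ∈ R ∧ J ∈ R ∧ I * I * (I * I) = 1 ∧ I * I = J * J ∧ I * I ≠ 1 ∧ I * J * I = J ∧
      ∀ h ∈ R, ∃ k : Fin 4, h = I ^ (k : ℕ) ∨ h = J * I ^ (k : ℕ) := by
  refine ⟨(φ.symm (QuaternionGroup.a 1) : R), (φ.symm (QuaternionGroup.xa 0) : R), Subtype.property _,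
    Subtype.property _, ?_, ?_, ?_, ?_, ?_⟩
  · have : φ.symm (QuaternionGroup.a 1) * φ.symm (QuaternionGroup.a 1) *
        (φ.symm (QuaternionGroup.a 1) * φ.symm (QuaternionGroup.a 1)) = 1 := by
      simp only [← map_mul]
      rw [show (QuaternionGroup.a 1 * QuaternionGroup.a 1 * (QuaternionGroup.a 1 * QuaternionGroup.a 1) :
        QuaternionGroup 2) = 1 by decide, map_one]
    exact congrArg Subtype.val this
  · have : φ.symm (QuaternionGroup.a 1) * φ.symm (QuaternionGroup.a 1) =
        (φ.symm (QuaternionGroup.xa 0) * φ.symm (QuaternionGroup.xa 0)) := by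
      simp only [← map_mul]
      rw [show (QuaternionGroup.a 1 * QuaternionGroup.a 1 : QuaternionGroup 2) =
        QuaternionGroup.xa 0 * QuaternionGroup.xa 0 by decide]
    exact congrArg Subtype.val this
  · intro h
    have h' : φ.symm (QuaternionGroup.a 1) * φ.symm (QuaternionGroup.a 1) = 1 := Subtype.ext h
    rw [← map_mul, ← map_one φ.symm] at h'
    exact absurd (φ.symm.injective h') (by decide)
  · have : φ.symm (QuaternionGroup.a 1) * φ.symm (QuaternionGroup.xa 0) * φ.symm (QuaternionGroup.a 1) =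
        φ.symm (QuaternionGroup.xa 0) := by
      simp only [← map_mul]
      rw [show (QuaternionGroup.a 1 * QuaternionGroup.xa 0 * QuaternionGroup.a 1 : QuaternionGroup 2) =
        QuaternionGroup.xa 0 by decide]
    exact congrArg Subtype.val this
  · intro h hh
    have key : ∀ q : QuaternionGroup 2, ∃ k : Fin 4, q = (QuaternionGroup.a 1) ^ (k : ℕ) ∨
        q = QuaternionGroup.xa 0 * (QuaternionGroup.a 1) ^ (k : ℕ) := by decide
    obtain ⟨k, hk⟩ := key (φ ⟨h, hh⟩)
    refine ⟨k, ?_⟩
    rcases hk with hk | hk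
    · left
      have : (⟨h, hh⟩ : R) = φ.symm (QuaternionGroup.a 1) ^ (k : ℕ) := by
        rw [← map_pow, ← hk, MulEquiv.symm_apply_apply]
      exact congrArg Subtype.val this
    · right
      have : (⟨h, hh⟩ : R) = φ.symm (QuaternionGroup.xa 0) * φ.symm (QuaternionGroup.a 1) ^ (k : ℕ) := by
        rw [← map_pow, ← map_mul, ← hk, MulEquiv.symm_apply_apply]
      exact congrArg Subtype.val this

lemma mem_normalizer_of {G : Type*} [Group G] (R : Subgroup G) [Finite R] {I J : G}
    (henum : ∀ h ∈ R, ∃ k : Fin 4, h = I ^ (k : ℕ) ∨ h = J * I ^ (k : ℕ)) {g : G}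
    (h1 : g * I * g⁻¹ ∈ R) (h2 : g * J * g⁻¹ ∈ R) : g ∈ Subgroup.normalizer (R : Set G) := by
  rw [Subgroup.mem_normalizer_iff_map_conj_eq]
  apply Subgroup.eq_of_le_of_card_ge
  · rintro _ ⟨h, hh, rfl⟩
    obtain ⟨k, hk | hk⟩ := henum h hh
    · subst hk
      show g * I ^ (k : ℕ) * g⁻¹ ∈ R
      rw [← conj_pow]
      exact R.pow_mem h1 _
    · subst hk
      show g * (J * I ^ (k : ℕ)) * g⁻¹ ∈ R
      have : g * (J * I ^ (k : ℕ)) * g⁻¹ = (g * J * g⁻¹) * (g * I * g⁻¹) ^ (k : ℕ) := by
        rw [conj_pow]; group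
      rw [this]
      exact R.mul_mem h2 (R.pow_mem h1 _)
  · rw [Subgroup.card_map_of_injective (MulAut.conj g).injective]

lemma commute_of_order {F : Type*} [Field F] (R : Subgroup (GL (Fin 2) F))
    {i j : Matrix (Fin 2) (Fin 2) F}
    (hcases : ∀ h ∈ R, ∃ e : Fin 4, (h : Matrix (Fin 2) (Fin 2) F) = ![1, i, j, i * j] e ∨
      (h : Matrix (Fin 2) (Fin 2) F) = - ![1, i, j, i * j] e)
    {y : GL (Fin 2) F} (hy : y ∈ Subgroup.normalizer (R : Set (GL (Fin 2) F))) {r : ℕ} (hr : r.Prime)
    (hr5 : 5 ≤ r) (hyr : orderOf y = r) {e0 : GL (Fin 2) F} (he0 : e0 ∈ R) : Commute y e0 := by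
  have hc : ∀ m : ℕ, y ^ m * e0 * (y ^ m)⁻¹ ∈ R := fun m =>
    (Subgroup.mem_normalizer_iff.1 (Subgroup.pow_mem _ hy m) e0).1 he0
  choose cl hcl using fun m => hcases _ (hc m)
  have key : ∀ m m' : ℕ, m < m' → m' < 5 → cl m = cl m' → Commute y e0 := by
    intro m m' hlt h5 heq
    have hpm : y ^ m' * e0 * (y ^ m')⁻¹ = y ^ m * e0 * (y ^ m)⁻¹ ∨
        y ^ m' * e0 * (y ^ m')⁻¹ = -(y ^ m * e0 * (y ^ m)⁻¹) := by
      have h1 := hcl m
      have h2 := hcl m'
      rw [← heq] at h2
      rcases h1 with h1 | h1 <;> rcases h2 with h2 | h2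
      · left; apply Units.ext; rw [h1, h2]
      · right; apply Units.ext; rw [Units.val_neg, h1, h2]
      · right; apply Units.ext; rw [Units.val_neg, h1, h2, neg_neg]
      · left; apply Units.ext; rw [h1, h2]
    obtain ⟨s, hs⟩ : ∃ s, m' = m + s := ⟨m' - m, by omega⟩
    have hs0 : 0 < s := by omega
    have hs5 : s < 5 := by omega
    set g := y ^ s with hg
    have hpm' : g * e0 * g⁻¹ = e0 ∨ g * e0 * g⁻¹ = -e0 := by
      have e1 : y ^ m' * e0 * (y ^ m')⁻¹ = y ^ m * (g * e0 * g⁻¹) * (y ^ m)⁻¹ := by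
        rw [hs, pow_add, ← hg]; group
      rw [e1] at hpm
      rcases hpm with h | h
      · left
        have := mul_right_cancel h
        exact mul_left_cancel this
      · right
        have e2 : -(y ^ m * e0 * (y ^ m)⁻¹) = y ^ m * (-e0) * (y ^ m)⁻¹ := by
          rw [mul_neg, neg_mul]
        rw [e2] at h
        have := mul_right_cancel h
        exact mul_left_cancel this
    have hcomm : Commute (g ^ 2) e0 := by
      rcases hpm' with h | h
      · have : Commute g e0 := by
          show g * e0 = e0 * g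
          calc g * e0 = (g * e0 * g⁻¹) * g := by group
            _ = e0 * g := by rw [h]
        exact this.pow_left 2
      · show g ^ 2 * e0 = e0 * g ^ 2
        have e3 : g * e0 = -e0 * g := by
          calc g * e0 = (g * e0 * g⁻¹) * g := by group
            _ = -e0 * g := by rw [h]
        rw [pow_two, mul_assoc, e3, ← mul_assoc, mul_neg, e3]
        simp [mul_assoc]
    have hcop : Nat.Coprime (s * 2) (orderOf y) := by
      rw [hyr, Nat.coprime_comm, Nat.Prime.coprime_iff_not_dvd hr]
      intro hd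
      rcases (Nat.Prime.dvd_mul hr).1 hd with h | h
      · have := Nat.le_of_dvd hs0 h; omega
      · have := Nat.le_of_dvd (by norm_num) h; omega
    obtain ⟨u, hu⟩ := exists_pow_eq_self_of_coprime hcop
    rw [← hu, pow_mul, ← hg]
    exact hcomm.pow_left u
  obtain ⟨m, m', hne, heq⟩ := Fintype.exists_ne_map_eq_of_card_lt (fun m : Fin 5 => cl m) (by simp)
  rcases lt_or_gt_of_ne hne with h | h
  · exact key m m' h m'.2 heq
  · exact key m' m h m.2 heq.symm

/-- Elements of prime order of PSL_2(p) and the normalizer of a quaternion subgroup. Here `T = PSL_2(F)` for the field `F` with `p` elements, `p ≥ 5` prime; `R` is a subgroup of GL_2(F) isomorphic to the quaternion group of order 8 (an absolutely irreducible 2-group of symplectic type), and `H` is the subgroup of matrices of determinant 1 normalizing `R` — a subgroup of type 2^{1+2}.O₂⁻(2), isomorphic modulo scalars to A₄ or S₄ (maximality is not assumed). Ω is the set of cosets of `H` in `T`, so an element of `T` of prime order `r` (a matrix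 `x` of determinant 1 with `x^r` scalar, `x` not scalar) fixes a point of Ω exactly when some conjugate of `x` by a matrix of determinant 1 normalizes `R`. Let `r` be a prime dividing the index of `H`. Then every element of `T` of order `r` fixes a point of Ω if and only if `r = 2` or `r = 3`. -/
theorem result {F : Type*} [Field F] [Fintype F] {p : ℕ} [Fact p.Prime] [CharP F p] (hF : Fintype.card F = p) (hp : 5 ≤ p)
    (R : Subgroup (GL (Fin 2) F)) (hR : Nonempty (↥R ≃* QuaternionGroup 2))
    (r : ℕ) [Fact r.Prime]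
    (hΩ : r ∣ (Cfsg.Geo.subgroupNormalizer R).relIndex (Cfsg.Geo.specialLinear (Fin 2) F)) :
    (∀ x ∈ Cfsg.Geo.specialLinear (Fin 2) F, (∃ z : F, ((x ^ r : GL (Fin 2) F) : Matrix (Fin 2) (Fin 2) F) = z • (1 : Matrix (Fin 2) (Fin 2) F)) →
      (∀ z : F, (x : Matrix (Fin 2) (Fin 2) F) ≠ z • (1 : Matrix (Fin 2) (Fin 2) F)) →
      ∃ g ∈ Cfsg.Geo.specialLinear (Fin 2) F, g⁻¹ * x * g ∈ Cfsg.Geo.subgroupNormalizer R) ↔ (r = 2 ∨ r = 3) := by
  classical
  obtain ⟨φ⟩ := hR
  obtain ⟨I, J, hI, hJ, r1, r2, r3, r4, henum⟩ := q8_data R φ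
  have hpp : p.Prime := Fact.out
  have hp2 : (2 : F) ≠ 0 := by
    intro h
    have h' : ((2 : ℕ) : F) = 0 := by exact_mod_cast h
    have := Nat.le_of_dvd (by norm_num) ((CharP.cast_eq_zero_iff F p 2).1 h')
    omega
  have hp3 : (3 : F) ≠ 0 := by
    intro h
    have h' : ((3 : ℕ) : F) = 0 := by exact_mod_cast h
    have := Nat.le_of_dvd (by norm_num) ((CharP.cast_eq_zero_iff F p 3).1 h')
    omega
  have hcardodd : Fintype.card F % 2 = 1 := by
    rw [hF]
    rcases hpp.eq_two_or_odd with h | h
    · omega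
    · exact h
  obtain ⟨i, hidef⟩ : ∃ i : Matrix (Fin 2) (Fin 2) F, (I : Matrix (Fin 2) (Fin 2) F) = i := ⟨_, rfl⟩
  obtain ⟨j, hjdef⟩ : ∃ j : Matrix (Fin 2) (Fin 2) F, (J : Matrix (Fin 2) (Fin 2) F) = j := ⟨_, rfl⟩
  have hdet : ∀ g : GL (Fin 2) F, (g : Matrix (Fin 2) (Fin 2) F).det ≠ 0 := fun g =>
    ((Matrix.isUnit_iff_isUnit_det _).1 g.isUnit).ne_zero
  have hdi : i.det ≠ 0 := hidef ▸ hdet I
  have hdj : j.det ≠ 0 := hjdef ▸ hdet J
  obtain ⟨hii, hjj, hji⟩ := quat_relations hdi hdj
    (by have := congrArg Units.val r1; simpa [Units.val_mul, hidef] using this)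
    (by have := congrArg Units.val r2; simpa [Units.val_mul, hidef, hjdef] using this)
    (by
      intro h
      apply r3
      apply Units.ext
      simpa [Units.val_mul, hidef] using h)
    (by have := congrArg Units.val r4; simpa [Units.val_mul, hidef, hjdef] using this)
  have hi0 := ne_zero_of_sq hii
  have hj0 := ne_zero_of_sq hjj
  have hins := quat_nonscalar_of_anticomm hii hp2 hji hj0
  obtain ⟨hti, hdi1⟩ := trace_det_of_sq hii hins
  have hcases : ∀ h ∈ R, ∃ e : Fin 4, (h : Matrix (Fin 2) (Fin 2) F) = ![1, i, j, i * j] e ∨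
      (h : Matrix (Fin 2) (Fin 2) F) = - ![1, i, j, i * j] e := by
    intro h hh
    obtain ⟨k, hk | hk⟩ := henum h hh
    · subst hk
      fin_cases k
      · exact ⟨0, Or.inl (by simp)⟩
      · exact ⟨1, Or.inl (by simp [hidef])⟩
      · exact ⟨0, Or.inr (by simp [hidef, pow_two, hii])⟩
      · exact ⟨1, Or.inr (by simp [hidef, pow_succ, hii])⟩
    · subst hk
      fin_cases k
      · exact ⟨2, Or.inl (by simp [hjdef])⟩
      · exact ⟨3, Or.inr (by simp [hidef, hjdef, hji])⟩
      · exact ⟨2, Or.inr (by simp [hidef, hjdef, pow_two, hii])⟩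
      · exact ⟨3, Or.inl (by simp [hidef, hjdef, pow_succ, hii, hji])⟩
  have hmemSL : ∀ g : GL (Fin 2) F, g ∈ Cfsg.Geo.specialLinear (Fin 2) F ↔
      (g : Matrix (Fin 2) (Fin 2) F).det = 1 := by
    intro g
    rw [Cfsg.Geo.specialLinear, MonoidHom.mem_ker, Units.ext_iff]
    simp
  -- conjugating into a given element of the normalizer
  have hconj : ∀ x ∈ Cfsg.Geo.specialLinear (Fin 2) F,
      (∀ z : F, (x : Matrix (Fin 2) (Fin 2) F) ≠ z • (1 : Matrix (Fin 2) (Fin 2) F)) →
      ∀ y : GL (Fin 2) F, y ∈ Cfsg.Geo.subgroupNormalizer R →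
      (∀ z : F, (y : Matrix (Fin 2) (Fin 2) F) ≠ z • (1 : Matrix (Fin 2) (Fin 2) F)) →
      (y : Matrix (Fin 2) (Fin 2) F).det = 1 →
      (x : Matrix (Fin 2) (Fin 2) F).trace = (y : Matrix (Fin 2) (Fin 2) F).trace →
      (y : Matrix (Fin 2) (Fin 2) F).trace ^ 2 ≠ 4 →
      ∃ g ∈ Cfsg.Geo.specialLinear (Fin 2) F, g⁻¹ * x * g ∈ Cfsg.Geo.subgroupNormalizer R := by
    intro x hx hxns y hy hyns hyd htr ht4
    obtain ⟨G, hG, hXG⟩ := exists_sl2_conj hcardodd _ _ hxns hyns ((hmemSL x).1 hx) hyd htr ht4
    refine ⟨Matrix.GeneralLinearGroup.mkOfDetNeZero G (by rw [hG]; exact one_ne_zero), ?_, ?_⟩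
    · rw [hmemSL]; exact hG
    · have : x * Matrix.GeneralLinearGroup.mkOfDetNeZero G (by rw [hG]; exact one_ne_zero) =
          Matrix.GeneralLinearGroup.mkOfDetNeZero G (by rw [hG]; exact one_ne_zero) * y := by
        apply Units.ext
        exact hXG
      rw [mul_assoc, this, ← mul_assoc, inv_mul_cancel, one_mul]
      exact hy
  constructor
  · intro hall
    by_contra hne
    push Not at hne
    obtain ⟨hne2, hne3⟩ := hne
    have hrp : r.Prime := Fact.out
    have hr5 : 5 ≤ r := by
      have h2 := hrp.two_le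
      by_contra hlt
      have : r = 4 := by omega
      rw [this] at hrp
      exact absurd hrp (by norm_num)
    have hdvd : r ∣ Nat.card (Cfsg.Geo.specialLinear (Fin 2) F) :=
      dvd_trans hΩ (Subgroup.relIndex_dvd_card _ _)
    obtain ⟨x, hx⟩ := exists_prime_orderOf_dvd_card' r hdvd
    have hxr : (x : GL (Fin 2) F) ^ r = 1 := by
      have := pow_orderOf_eq_one x
      rw [hx] at this
      exact_mod_cast congrArg Subtype.val this
    have hx1 : (x : GL (Fin 2) F) ≠ 1 := by
      intro h
      have : x = 1 := Subtype.ext h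
      rw [this, orderOf_one] at hx
      omega
    have hxns : ∀ z : F, ((x : GL (Fin 2) F) : Matrix (Fin 2) (Fin 2) F) ≠ z • (1 : Matrix (Fin 2) (Fin 2) F) := by
      intro z hz
      have hd := (hmemSL x).1 x.2
      rw [hz] at hd
      simp at hd
      have hsq : (x : GL (Fin 2) F) ^ 2 = 1 := by
        apply Units.ext
        rw [Units.val_pow_eq_pow_val, hz]
        rcases hd with rfl | rfl <;> simp
      have h1 : orderOf (x : GL (Fin 2) F) ∣ 2 := orderOf_dvd_of_pow_eq_one hsq
      rw [Subgroup.orderOf_coe, hx] at h1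
      have := Nat.le_of_dvd (by norm_num) h1
      omega
    obtain ⟨g, _, hy⟩ := hall x x.2 ⟨1, by rw [hxr]; simp⟩ hxns
    set y := g⁻¹ * (x : GL (Fin 2) F) * g with hydef
    have hyr : orderOf y = r := by
      apply orderOf_eq_prime
      · have : y ^ r = g⁻¹ * (x : GL (Fin 2) F) ^ r * g := by
          have := conj_pow (a := g⁻¹) (b := (x : GL (Fin 2) F)) (i := r)
          rw [inv_inv] at this
          exact this
        rw [this, hxr]; group
      · intro h
        apply hx1
        have : (x : GL (Fin 2) F) = g * y * g⁻¹ := by rw [hydef]; group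
        rw [this, h]; group
    have c1 := commute_of_order R hcases hy hrp hr5 hyr hI
    have c2 := commute_of_order R hcases hy hrp hr5 hyr hJ
    obtain ⟨c, hc⟩ := scalar_of_commute hii hjj hji hp2 (Y := (y : Matrix (Fin 2) (Fin 2) F))
      (by have := congrArg Units.val c1.eq; simpa [Units.val_mul, hidef] using this)
      (by have := congrArg Units.val c2.eq; simpa [Units.val_mul, hjdef] using this)
    apply hxns c
    have : (x : GL (Fin 2) F) = g * y * g⁻¹ := by rw [hydef]; group
    rw [this, Units.val_mul, Units.val_mul, hc]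
    simp
  · have hRle : R ≤ Cfsg.Geo.subgroupNormalizer R := Subgroup.le_normalizer
    rintro (rfl | rfl)
    · intro x hx ⟨z, hz⟩ hxns
      have hXd := (hmemSL x).1 hx
      have hch := ch2 (x : Matrix (Fin 2) (Fin 2) F)
      rw [Units.val_pow_eq_pow_val, pow_two] at hz
      rw [hz, hXd] at hch
      have h3 : (x : Matrix (Fin 2) (Fin 2) F).trace • (x : Matrix (Fin 2) (Fin 2) F) =
          (z + 1) • (1 : Matrix (Fin 2) (Fin 2) F) := by
        rw [add_smul, hch]; abel
      obtain ⟨ht, _⟩ := smul_eq_smul_one_of_nonscalar hxns h3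
      refine hconj x hx hxns I (hRle hI) (hidef ▸ hins) (hidef ▸ hdi1) (by rw [ht, hidef, hti]) ?_
      rw [hidef, hti]
      intro h
      apply hp2
      have : (2 : F) * 2 = 0 := by linear_combination -h
      exact (mul_eq_zero.1 this).elim id id
    · intro x hx ⟨z, hz⟩ hxns
      have hXd := (hmemSL x).1 hx
      have hch := ch2 (x : Matrix (Fin 2) (Fin 2) F)
      rw [hXd] at hch
      set X := (x : Matrix (Fin 2) (Fin 2) F) with hX
      set t := X.trace with ht
      have hcube : X ^ 3 = (t ^ 2 - 1) • X - t • (1 : Matrix (Fin 2) (Fin 2) F) := by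
        rw [pow_succ, pow_two, hch, Matrix.sub_mul, Matrix.smul_mul, hch]
        simp only [Matrix.smul_mul, Matrix.one_mul, smul_sub, smul_smul]
        module
      rw [Units.val_pow_eq_pow_val, ← hX, hcube] at hz
      have h3 : (t ^ 2 - 1) • X = (z + t) • (1 : Matrix (Fin 2) (Fin 2) F) := by
        rw [add_smul, ← hz]; abel
      obtain ⟨ht1, _⟩ := smul_eq_smul_one_of_nonscalar hxns h3
      obtain ⟨w, w1, w2, wt, wd, wns⟩ := exists_hurwitz hii hjj hji hp2
      -- any matrix with the same commutation relations normalizes R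
      have hnorm : ∀ Y : GL (Fin 2) F, (Y : Matrix (Fin 2) (Fin 2) F) * i = (i * j) * (Y : Matrix (Fin 2) (Fin 2) F) →
          (Y : Matrix (Fin 2) (Fin 2) F) * j = i * (Y : Matrix (Fin 2) (Fin 2) F) →
          Y ∈ Cfsg.Geo.subgroupNormalizer R := by
        intro Y h1 h2
        apply mem_normalizer_of R henum
        · have : Y * I = (I * J) * Y := by
            apply Units.ext
            simpa [Units.val_mul, hidef, hjdef] using h1
          rw [this, mul_inv_cancel_right]
          exact R.mul_mem hI hJ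
        · have : Y * J = I * Y := by
            apply Units.ext
            simpa [Units.val_mul, hidef, hjdef] using h2
          rw [this, mul_inv_cancel_right]
          exact hI
      have h14 : (1 : F) ≠ 4 := by
        intro h
        apply hp3
        linear_combination -h
      have htcases : t = -1 ∨ t = 1 := by
        have : (t + 1) * (t - 1) = 0 := by linear_combination ht1
        rcases mul_eq_zero.1 this with h | h
        · left; linear_combination h
        · right; linear_combination h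
      rcases htcases with h | h
      · refine hconj x hx hxns (Matrix.GeneralLinearGroup.mkOfDetNeZero w (by rw [wd]; exact one_ne_zero))
          (hnorm _ w1 w2) wns wd (by rw [← hX, ← ht, h]; exact wt.symm) ?_
        show w.trace ^ 2 ≠ 4
        rw [wt]; intro h'; apply h14; linear_combination h'
      · have wd' : (-w).det = 1 := by
          rw [Matrix.det_neg, wd]; simp
        refine hconj x hx hxns (Matrix.GeneralLinearGroup.mkOfDetNeZero (-w) (by rw [wd']; exact one_ne_zero))
          (hnorm _ (by show -w * i = i * j * -w; rw [Matrix.neg_mul, w1, Matrix.mul_neg])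
            (by show -w * j = i * -w; rw [Matrix.neg_mul, w2, Matrix.mul_neg])) ?_ wd' ?_ ?_
        · intro z hz'
          apply wns (-z)
          have : (-w : Matrix (Fin 2) (Fin 2) F) = z • 1 := hz'
          rw [neg_smul, ← this, neg_neg]
        · rw [← hX, ← ht, h]
          show (1 : F) = (-w).trace
          rw [Matrix.trace_neg, wt, neg_neg]
        · show (-w).trace ^ 2 ≠ 4
          rw [Matrix.trace_neg, wt]; intro h'; apply h14; linear_combination h'

end Cfsg.Agent.S5997
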