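import Cfsg.Statements.S5998
import Cfsg.Agent.Lib.Helper48.E27.STD
import Cfsg.Agent.Lib.Helper48.E27.ELT
import Cfsg.Agent.Lib.Helper48.E27.FIN
import Cfsg.Agent.Lib.Helper48.E27.INV2
import Cfsg.Agent.Lib.Helper48.E27.CUB
import Cfsg.Agent.Lib.Helper48.E27.BIG
import Cfsg.Agent.Lib.Helper48.E27.IDX

set_option autoImplicit false
open scoped MatrixGroups
open Cfsg

namespace Cfsg.Agent.S5998

open Cfsg.Agent.Lib.Helper48 Cfsg.Agent.Lib.Helper77.Asch

/-- Elements of prime order of PSL_3(p), p ≡ 1 (mod 3), and the normalizer of an extraspecial subgroup of order 27. Here `T = PSL_3(F)` for the field `F` with `p` elements, `p` a prime with `p ≡ 1 (mod 3)`; `R` is a non-abelian subgroup of GL_3(F) of order 27 and exponent 3 (an extraspecial group 3^{1+2}, acting absolutely irreducibly), and `H` is the subgroup of matrices of determinant 1 normalizing `R` — a subgroup of type 3^{1+2}.Sp₂(3) (maximality is not assumed). Ω is the set of cosets of `H` in `T`, so an element of `T` of prime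 order `r` (a matrix `x` of determinant 1 with `x^r` scalar, `x` not scalar) fixes a point of Ω exactly when some conjugate of `x` by a matrix of determinant 1 normalizes `R`. Let `r` be a prime dividing the index of `H`. Then every element of `T` of order `r` fixes a point of Ω if and only if `r = 2`, or `r = 3` and `p ≡ 1 (mod 9)`. -/
theorem result {F : Type*} [Field F] [Fintype F] {p : ℕ} [Fact p.Prime] [CharP F p] (hF : Fintype.card F = p) (hp3 : p % 3 = 1)
    (R : Subgroup (GL (Fin 3) F)) (hR : Nat.card R = 27) (hRe : Monoid.exponent R = 3) (hRna : ¬ IsMulCommutative R)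
    (r : ℕ) [Fact r.Prime]
    (hΩ : r ∣ (Cfsg.Geo.subgroupNormalizer R).relIndex (Cfsg.Geo.specialLinear (Fin 3) F)) :
    (∀ x ∈ Cfsg.Geo.specialLinear (Fin 3) F, (∃ z : F, ((x ^ r : GL (Fin 3) F) : Matrix (Fin 3) (Fin 3) F) = z • (1 : Matrix (Fin 3) (Fin 3) F)) →
      (∀ z : F, (x : Matrix (Fin 3) (Fin 3) F) ≠ z • (1 : Matrix (Fin 3) (Fin 3) F)) →
      ∃ g ∈ Cfsg.Geo.specialLinear (Fin 3) F, g⁻¹ * x * g ∈ Cfsg.Geo.subgroupNormalizer R) ↔ (r = 2 ∨ (r = 3 ∧ p % 9 = 1)) := by
  classical
  have hfin : Finite R := Nat.finite_of_card_ne_zero (by rw [hR]; norm_num)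
  have hpp : p.Prime := Fact.out
  have hp7 : 7 ≤ p := by
    have h2 := hpp.two_le
    by_contra hlt
    have : p = 4 := by omega
    rw [this] at hpp
    exact absurd hpp (by norm_num)
  have h2F : (2 : F) ≠ 0 := by
    intro h
    have h1 : ((2 : ℕ) : F) = 0 := by exact_mod_cast h
    rw [CharP.cast_eq_zero_iff F p] at h1
    have := Nat.le_of_dvd (by norm_num) h1
    omega
  have h3F : (3 : F) ≠ 0 := by
    intro h
    have h1 : ((3 : ℕ) : F) = 0 := by exact_mod_cast h
    rw [CharP.cast_eq_zero_iff F p] at h1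
    have := Nat.le_of_dvd (by norm_num) h1
    omega
  obtain ⟨x0, y0, w, hx0, hy0, hw, hc, hgen⟩ := E27.std hF hp3 h3F R hR hRe hRna
  obtain ⟨B, hBx, hBy⟩ := heis_basis Nat.prime_three x0 y0 w hx0 hy0 hw hc
  have hx0R : x0 ∈ R := by rw [hgen]; exact Subgroup.subset_closure (by simp)
  have hy0R : y0 ∈ R := by rw [hgen]; exact Subgroup.subset_closure (by simp)
  have hwq := E27.w_quad w hw
  have hw3 : (w : F) ^ 3 = 1 := by
    rw [← Units.val_pow_eq_pow_val, ← hw, pow_orderOf_eq_one, Units.val_one]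
  have hdet_conj : ∀ a : GL (Fin 3) F, ((B * a * B⁻¹ : GL (Fin 3) F) : Matrix (Fin 3) (Fin 3) F).det
      = (a : Matrix (Fin 3) (Fin 3) F).det := by
    intro a
    rw [← Matrix.GeneralLinearGroup.val_det_apply, ← Matrix.GeneralLinearGroup.val_det_apply, map_mul, map_mul,
      map_inv, mul_comm, ← mul_assoc, inv_mul_cancel, one_mul]
  have hdx0 : (x0 : Matrix (Fin 3) (Fin 3) F).det = 1 := by
    rw [← hdet_conj, hBx, Matrix.det_diagonal, Fin.prod_univ_three]
    simp
    rw [← pow_succ', hw3]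
  have hdy0 : (y0 : Matrix (Fin 3) (Fin 3) F).det = 1 := by
    rw [← hdet_conj, hBy, Matrix.det_fin_three]
    simp [shiftM]
  have hmemSL : ∀ a : GL (Fin 3) F, a ∈ Cfsg.Geo.specialLinear (Fin 3) F ↔
      (a : Matrix (Fin 3) (Fin 3) F).det = 1 := by
    intro a
    show Matrix.GeneralLinearGroup.det a = 1 ↔ _
    rw [Units.ext_iff, Matrix.GeneralLinearGroup.val_det_apply, Units.val_one]
  have hRS : R ≤ Cfsg.Geo.specialLinear (Fin 3) F := by
    rw [hgen, Subgroup.closure_le]
    rintro a (rfl | rfl)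
    · exact (hmemSL _).2 hdx0
    · exact (hmemSL _).2 hdy0
  have hRN : R ≤ Cfsg.Geo.subgroupNormalizer R := Subgroup.le_normalizer
  -- the common final step
  have hfinal : ∀ (x : GL (Fin 3) F) (Q : (Matrix (Fin 3) (Fin 3) F)ˣ) (M : Matrix (Fin 3) (Fin 3) F),
      (Q : Matrix (Fin 3) (Fin 3) F) * (x : Matrix (Fin 3) (Fin 3) F) = M * (Q : Matrix (Fin 3) (Fin 3) F) →
      (∀ a : F, E27.cA a * M = M * E27.cA a) →
      (∀ g0 : GL (Fin 3) F, (g0 : Matrix (Fin 3) (Fin 3) F) = M → B⁻¹ * g0 * B ∈ Cfsg.Geo.subgroupNormalizer R) →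
      ∃ g ∈ Cfsg.Geo.specialLinear (Fin 3) F, g⁻¹ * x * g ∈ Cfsg.Geo.subgroupNormalizer R := by
    intro x Q M hQ hcomm hN
    have hg0 : ((Q * x * Q⁻¹ : GL (Fin 3) F) : Matrix (Fin 3) (Fin 3) F) = M := by
      rw [Units.val_mul, Units.val_mul, hQ, mul_assoc, Units.mul_inv, mul_one]
    exact E27.fin_adj _ B (Q * x * Q⁻¹) x Q (hN _ hg0) (by rw [hg0]; exact hcomm) (by group)
  constructor
  · intro hall
    by_cases hr2 : r = 2
    · exact Or.inl hr2
    by_cases hr3 : r = 3
    · exact Or.inr ⟨hr3, E27.idx hF hp3 R hR hRS (hr3 ▸ hΩ)⟩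
    exfalso
    have hrp : r.Prime := Fact.out
    have hdvd : r ∣ Nat.card (Cfsg.Geo.specialLinear (Fin 3) F) :=
      dvd_trans hΩ (Subgroup.relIndex_dvd_card _ _)
    obtain ⟨⟨x, hxS⟩, hxo⟩ := exists_prime_orderOf_dvd_card' r hdvd
    have hxo' : orderOf x = r := by
      rw [← hxo]; exact (Subgroup.orderOf_mk x hxS).symm
    have hxr : x ^ r = 1 := by rw [← hxo', pow_orderOf_eq_one]
    have hx1 : x ≠ 1 := by
      rintro rfl
      rw [orderOf_one] at hxo'
      exact hrp.one_lt.ne hxo'
    have hns : ∀ z : F, (x : Matrix (Fin 3) (Fin 3) F) ≠ z • (1 : Matrix (Fin 3) (Fin 3) F) := by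
      intro z hz
      have h1 : z ^ 3 = 1 := by
        have := (hmemSL x).1 hxS
        rw [hz, Matrix.det_smul, Matrix.det_one, mul_one] at this
        simpa using this
      have h2 : z ^ r = 1 := by
        have h3 := congrArg (fun g : GL (Fin 3) F => (g : Matrix (Fin 3) (Fin 3) F) 0 0) hxr
        simp only [Units.val_pow_eq_pow_val, hz, smul_pow, one_pow] at h3
        simpa using h3
      have h3 : z ^ (Nat.gcd 3 r) = 1 := pow_gcd_eq_one.2 ⟨h1, h2⟩
      have h4 : Nat.gcd 3 r = 1 := (Nat.coprime_primes Nat.prime_three hrp).2 (Ne.symm hr3)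
      rw [h4, pow_one] at h3
      apply hx1
      apply Units.ext
      rw [hz, h3, one_smul, Units.val_one]
    obtain ⟨g, hg, hgN⟩ := hall x hxS ⟨1, by rw [hxr, one_smul, Units.val_one]⟩ hns
    have hsc := E27.big R hR x0 y0 w hx0 hy0 hw hc hx0R hy0R r hrp hr2 hr3 (g⁻¹ * x * g) hgN (by
      have : (g⁻¹ * x * g) ^ r = g⁻¹ * x ^ r * g := by
        have := conj_pow (a := g⁻¹) (b := x) (i := r)
        simpa using this
      rw [this, hxr]; group)
    have hsc2 : x ∈ Cfsg.Geo.scalars (Fin 3) F := by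
      have := (Cfsg.Geo.scalars_normal (ι := Fin 3) (F := F)).conj_mem _ hsc g
      convert this using 1
      group
    obtain ⟨c, hc'⟩ := (Cfsg.Geo.mem_scalars_iff x).1 hsc2
    exact hns c hc'
  · rintro (rfl | ⟨rfl, hp9⟩)
    · intro x hxS ⟨z, hz⟩ hns
      have hdx := (hmemSL x).1 hxS
      rw [Units.val_pow_eq_pow_val] at hz
      have hz3 : z ^ 3 = 1 := by
        have := congrArg Matrix.det hz
        rw [Matrix.det_pow, hdx, one_pow, Matrix.det_smul, Matrix.det_one, mul_one] at this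
        simpa using this.symm
      have hz0 : z ≠ 0 := by
        rintro rfl
        simp at hz3
      obtain ⟨Q, hQ⟩ := E27.inv2 h2F (z • (x : Matrix (Fin 3) (Fin 3) F))
        (by rw [Matrix.det_smul, hdx, mul_one]; simpa using hz3)
        (by rw [smul_pow, hz, smul_smul, ← pow_succ, hz3, one_smul])
        (by
          intro c hc'
          apply hns (z⁻¹ * c)
          rw [mul_smul, ← hc', smul_smul, inv_mul_cancel₀ hz0, one_smul])
      apply hfinal x Q (z ^ 2 • E27.t0 F)
      · have := congrArg (fun M => z ^ 2 • M) hQ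
        simp only [Matrix.mul_smul, smul_smul, ← pow_succ, hz3, one_smul] at this
        rw [this, Matrix.smul_mul]
      · intro a
        ext i j
        fin_cases i <;> fin_cases j <;> simp [E27.cA, E27.t0, Matrix.mul_apply, Fin.sum_univ_three, mul_comm]
      · intro g0 hg0
        exact E27.elt R x0 y0 B w hw hgen hBx hBy g0 (z ^ 2) (Or.inl hg0)
    · intro x hxS ⟨z, hz⟩ hns
      have hdx := (hmemSL x).1 hxS
      rw [Units.val_pow_eq_pow_val] at hz
      by_cases hz1 : z = 1
      · rw [hz1, one_smul] at hz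
        have hx0m : (x0 : Matrix (Fin 3) (Fin 3) F) ^ 3 = 1 := by
          rw [← Units.val_pow_eq_pow_val, hx0, Units.val_one]
        have hx0ns : ∀ c : F, (x0 : Matrix (Fin 3) (Fin 3) F) ≠ c • 1 := by
          intro c hc'
          have h1 : ((B * x0 * B⁻¹ : GL (Fin 3) F) : Matrix (Fin 3) (Fin 3) F) = c • 1 := by
            rw [Units.val_mul, Units.val_mul, hc', Matrix.mul_smul, Matrix.smul_mul, mul_one, Units.mul_inv]
          rw [hBx] at h1
          have h2 := congrFun (congrFun h1 0) 0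
          have h3 := congrFun (congrFun h1 1) 1
          simp at h2 h3
          have h4 : (w : F) = 1 := by rw [h3, ← h2]
          have : w = 1 := Units.ext h4
          rw [this, orderOf_one] at hw
          omega
        obtain ⟨P, hPd, hP⟩ := Cfsg.Agent.Lib.Helper48.s3_conj h3F (x : Matrix (Fin 3) (Fin 3) F) x0 hz hx0m
          (Cfsg.Agent.Lib.Helper48.s3_charpoly _ hz hdx hns) (Cfsg.Agent.Lib.Helper48.s3_charpoly _ hx0m hdx0 hx0ns)
        obtain ⟨g, hg⟩ : ∃ g : GL (Fin 3) F, (g : Matrix (Fin 3) (Fin 3) F) = P :=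
          ⟨Matrix.GeneralLinearGroup.mkOfDetNeZero P (by rw [hPd]; exact one_ne_zero), rfl⟩
        refine ⟨g, (hmemSL g).2 (by rw [hg, hPd]), ?_⟩
        have h1 : x * g = g * x0 := by
          apply Units.ext
          rw [Units.val_mul, Units.val_mul, hg, hP]
        have h2 : g⁻¹ * x * g = x0 := by
          rw [mul_assoc, h1]; group
        rw [h2]
        exact hRN hx0R
      · obtain ⟨σ, Q, hσ, hQ⟩ := E27.cub (w : F) hwq h3F (x : Matrix (Fin 3) (Fin 3) F) hdx z hz1 hz hns
        rcases hQ with hQ | hQ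
        · apply hfinal x Q _ hQ
          · intro a
            ext i j
            fin_cases i <;> fin_cases j <;> simp [E27.cA, E27.u0, Matrix.mul_apply, Fin.sum_univ_three, mul_comm]
          · intro g0 hg0
            exact E27.elt R x0 y0 B w hw hgen hBx hBy g0 σ (Or.inr (Or.inl hg0))
        · apply hfinal x Q _ hQ
          · intro a
            ext i j
            fin_cases i <;> fin_cases j <;> simp [E27.cA, E27.u0, Matrix.mul_apply, Fin.sum_univ_three, mul_comm]
          · intro g0 hg0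
            exact E27.elt R x0 y0 B w hw hgen hBx hBy g0 σ (Or.inr (Or.inr hg0))

end Cfsg.Agent.S5998
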