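import Cfsg.Statements.S5999
import Cfsg.Agent.Lib.Helper48.E27.STD
import Cfsg.Agent.Lib.Helper48.E27.ELT
import Cfsg.Agent.Lib.Helper48.E27.INV2
import Cfsg.Agent.Lib.Helper48.E27.CUB
import Cfsg.Agent.Lib.Helper48.E27.BIG
import Cfsg.Agent.Lib.Helper48.E27U.NSU
import Cfsg.Agent.Lib.Helper48.E27U.IDXU
import Cfsg.Agent.Lib.Helper48.E27U.UFIN

set_option autoImplicit false
open scoped MatrixGroups
open Cfsg

namespace Cfsg.Agent.S5999

open Cfsg.Agent.Lib.Helper48 Cfsg.Agent.Lib.Helper77.Asch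

/-- Elements of prime order of PSU_3(p), p ≡ 2 (mod 3), and the normalizer of an extraspecial subgroup of order 27. Here `T = PSU_3(p)` for a prime `p ≥ 5` with `p ≡ 2 (mod 3)`, realised through `SU_3(p)`, the matrices of determinant 1 over the field `F` with `p²` elements preserving the hermitian form `Σ uᵢvᵢ^p`; `R` is a non-abelian subgroup of order 27 and exponent 3 of the full unitary group of that form (an extraspecial group 3^{1+2}, acting absolutely irreducibly), and `H` is the subgroup of `SU_3(p)` normalizing `R` — a subgroup of type 3^{1+2}.Sp₂(3) (maximality is not assumed). Ω is the set of cosets of `H`, so an element of `T` of prime order `r` (`x ∈ SU_3(p)` with `x^r` scalar, `x` not scalar) fixes a point of Ω exactly when some `SU_3(p)`-conjugate of `x` normalizes `R`. Let `r` be a prime dividing the index of `H`. Then every element of `T` of order `r` fixes a point of Ω if and only if `r = 2`, or `r = 3` and `p ≡ 8 (mod 9)`. -/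
theorem result {F : Type*} [Field F] [Fintype F] {p : ℕ} [Fact p.Prime] [CharP F p] (hF : Fintype.card F = p ^ 2) (hp : 5 ≤ p) (hp3 : p % 3 = 2)
    (R : Subgroup (GL (Fin 3) F)) (hRU : R ≤ Cfsg.GU 3 F p) (hR : Nat.card R = 27) (hRe : Monoid.exponent R = 3) (hRna : ¬ IsMulCommutative R)
    (r : ℕ) [Fact r.Prime]
    (hΩ : r ∣ (Cfsg.Geo.subgroupNormalizer R).relIndex (Cfsg.GU 3 F p ⊓ Cfsg.Geo.specialLinear (Fin 3) F)) :
    (∀ x ∈ Cfsg.GU 3 F p ⊓ Cfsg.Geo.specialLinear (Fin 3) F, (∃ z : F, ((x ^ r : GL (Fin 3) F) : Matrix (Fin 3) (Fin 3) F) = z • (1 : Matrix (Fin 3) (Fin 3) F)) →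
      (∀ z : F, (x : Matrix (Fin 3) (Fin 3) F) ≠ z • (1 : Matrix (Fin 3) (Fin 3) F)) →
      ∃ g ∈ Cfsg.GU 3 F p ⊓ Cfsg.Geo.specialLinear (Fin 3) F, g⁻¹ * x * g ∈ Cfsg.Geo.subgroupNormalizer R) ↔ (r = 2 ∨ (r = 3 ∧ p % 9 = 8)) := by
  classical
  have hfin : Finite R := Nat.finite_of_card_ne_zero (by rw [hR]; norm_num)
  have hpp : p.Prime := Fact.out
  have h2F : (2 : F) ≠ 0 := by
    intro h
    have h1 : ((2 : ℕ) : F) = 0 := by exact_mod_cast h
    rw [CharP.cast_eq_zero_iff F p] at h1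
    have := Nat.le_of_dvd (by norm_num) h1
    omega
  have h3F : (3 : F) ≠ 0 := by
    intro h
    have h1 : ((3 : ℕ) : F) = 0 := by exact_mod_cast h
    rw [CharP.cast_eq_zero_iff F p] at h1
    have := Nat.le_of_dvd (by norm_num) h1
    omega
  have hp23 : (p ^ 2) % 3 = 1 := by rw [Nat.pow_mod, hp3]
  have hcop6 : Nat.Coprime 6 p := by
    apply Nat.Coprime.symm
    rw [Nat.Prime.coprime_iff_not_dvd hpp]
    intro h
    have := Nat.le_of_dvd (by norm_num) h
    interval_cases p <;> omega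
  have hcop9 : Nat.Coprime 9 p := by
    apply Nat.Coprime.symm
    rw [Nat.Prime.coprime_iff_not_dvd hpp]
    intro h
    have := Nat.le_of_dvd (by norm_num) h
    interval_cases p <;> omega
  obtain ⟨x0, y0, w, hx0, hy0, hw, hc, hgen⟩ := E27.std hF hp23 h3F R hR hRe hRna
  obtain ⟨B, hBx, hBy⟩ := heis_basis Nat.prime_three x0 y0 w hx0 hy0 hw hc
  have hx0R : x0 ∈ R := by rw [hgen]; exact Subgroup.subset_closure (by simp)
  have hy0R : y0 ∈ R := by rw [hgen]; exact Subgroup.subset_closure (by simp)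
  have hwq := E27.w_quad w hw
  have hw3 : (w : F) ^ 3 = 1 := by
    rw [← Units.val_pow_eq_pow_val, ← hw, pow_orderOf_eq_one, Units.val_one]
  have hdet_conj : ∀ P a : GL (Fin 3) F, ((P * a * P⁻¹ : GL (Fin 3) F) : Matrix (Fin 3) (Fin 3) F).det
      = (a : Matrix (Fin 3) (Fin 3) F).det := by
    intro P a
    rw [← Matrix.GeneralLinearGroup.val_det_apply, ← Matrix.GeneralLinearGroup.val_det_apply, map_mul, map_mul,
      map_inv, mul_comm, ← mul_assoc, inv_mul_cancel, one_mul]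
  have hdx0 : (x0 : Matrix (Fin 3) (Fin 3) F).det = 1 := by
    rw [← hdet_conj B, hBx, Matrix.det_diagonal, Fin.prod_univ_three]
    simp
    rw [← pow_succ', hw3]
  have hdy0 : (y0 : Matrix (Fin 3) (Fin 3) F).det = 1 := by
    rw [← hdet_conj B, hBy, Matrix.det_fin_three]
    simp [shiftM]
  have hmemSL : ∀ a : GL (Fin 3) F, a ∈ Cfsg.Geo.specialLinear (Fin 3) F ↔
      (a : Matrix (Fin 3) (Fin 3) F).det = 1 := by
    intro a
    show Matrix.GeneralLinearGroup.det a = 1 ↔ _
    rw [Units.ext_iff, Matrix.GeneralLinearGroup.val_det_apply, Units.val_one]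
  have hRS : R ≤ Cfsg.Geo.specialLinear (Fin 3) F := by
    rw [hgen, Subgroup.closure_le]
    rintro a (rfl | rfl)
    · exact (hmemSL _).2 hdx0
    · exact (hmemSL _).2 hdy0
  have hRS' : R ≤ Cfsg.GU 3 F p ⊓ Cfsg.Geo.specialLinear (Fin 3) F := le_inf hRU hRS
  have hRN : R ≤ Cfsg.Geo.subgroupNormalizer R := Subgroup.le_normalizer
  -- the common final step
  have hfinal : ∀ (x : GL (Fin 3) F), x ∈ Cfsg.GU 3 F p ⊓ Cfsg.Geo.specialLinear (Fin 3) F →
      ∀ (e : ℕ), e.Coprime p → x ^ e = 1 →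
      ∀ (Q : (Matrix (Fin 3) (Fin 3) F)ˣ) (M : Matrix (Fin 3) (Fin 3) F),
      (Q : Matrix (Fin 3) (Fin 3) F) * (x : Matrix (Fin 3) (Fin 3) F) = M * (Q : Matrix (Fin 3) (Fin 3) F) →
      (∀ g0 : GL (Fin 3) F, (g0 : Matrix (Fin 3) (Fin 3) F) = M → B⁻¹ * g0 * B ∈ Cfsg.Geo.subgroupNormalizer R) →
      ∃ g ∈ Cfsg.GU 3 F p ⊓ Cfsg.Geo.specialLinear (Fin 3) F, g⁻¹ * x * g ∈ Cfsg.Geo.subgroupNormalizer R := by
    intro x hxS e he hxe Q M hQ hN
    have hg0 : ((Q * x * Q⁻¹ : GL (Fin 3) F) : Matrix (Fin 3) (Fin 3) F) = M := by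
      rw [Units.val_mul, Units.val_mul, hQ, mul_assoc, Units.mul_inv, mul_one]
    obtain ⟨h, hh⟩ : ∃ h : GL (Fin 3) F, h = B⁻¹ * (Q * x * Q⁻¹) * B := ⟨_, rfl⟩
    have hhN : h ∈ Cfsg.Geo.subgroupNormalizer R := by rw [hh]; exact hN _ hg0
    have hconj : h = (B⁻¹ * Q) * x * (B⁻¹ * Q)⁻¹ := by rw [hh]; group
    have hhd : (h : Matrix (Fin 3) (Fin 3) F).det = 1 := by
      rw [hconj, hdet_conj]; exact (hmemSL x).1 hxS.2
    have hhU : h ∈ Cfsg.GU 3 F p := E27U.nsu hF hp3 R hRU x0 y0 w hx0 hy0 hw hc hx0R hy0R h hhN hhd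
    have hhe : h ^ e = 1 := by rw [hconj, conj_pow, hxe]; group
    have hchar : (x : Matrix (Fin 3) (Fin 3) F).charpoly = (h : Matrix (Fin 3) (Fin 3) F).charpoly := by
      rw [hconj, Units.val_mul, Units.val_mul, Matrix.charpoly_mul_comm, ← mul_assoc, Units.inv_mul, one_mul]
    obtain ⟨g, hg, hgx⟩ := E27U.ufin hF x h hxS ⟨hhU, (hmemSL h).2 hhd⟩ e he hxe hhe hchar
    exact ⟨g, hg, hgx ▸ hhN⟩
  constructor
  · intro hall
    by_cases hr2 : r = 2
    · exact Or.inl hr2
    by_cases hr3 : r = 3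
    · exact Or.inr ⟨hr3, E27U.idxu hF hp3 R hR hRS' (hr3 ▸ hΩ)⟩
    exfalso
    have hrp : r.Prime := Fact.out
    have hdvd : r ∣ Nat.card (Cfsg.GU 3 F p ⊓ Cfsg.Geo.specialLinear (Fin 3) F : Subgroup (GL (Fin 3) F)) :=
      dvd_trans hΩ (Subgroup.relIndex_dvd_card _ _)
    obtain ⟨⟨x, hxS⟩, hxo⟩ := exists_prime_orderOf_dvd_card' r hdvd
    have hxo' : orderOf x = r := by
      rw [← hxo]; exact (Subgroup.orderOf_mk x hxS).symm
    have hxr : x ^ r = 1 := by rw [← hxo', pow_orderOf_eq_one]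
    have hx1 : x ≠ 1 := by
      rintro rfl
      rw [orderOf_one] at hxo'
      exact hrp.one_lt.ne hxo'
    have hns : ∀ z : F, (x : Matrix (Fin 3) (Fin 3) F) ≠ z • (1 : Matrix (Fin 3) (Fin 3) F) := by
      intro z hz
      have h1 : z ^ 3 = 1 := by
        have := (hmemSL x).1 hxS.2
        rw [hz, Matrix.det_smul, Matrix.det_one, mul_one] at this
        simpa using this
      have h2 : z ^ r = 1 := by
        have h3 := congrArg (fun g : GL (Fin 3) F => (g : Matrix (Fin 3) (Fin 3) F) 0 0) hxr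
        simp only [Units.val_pow_eq_pow_val, hz, smul_pow, one_pow] at h3
        simpa using h3
      have h3 : z ^ (Nat.gcd 3 r) = 1 := pow_gcd_eq_one.2 ⟨h1, h2⟩
      have h4 : Nat.gcd 3 r = 1 := (Nat.coprime_primes Nat.prime_three hrp).2 (Ne.symm hr3)
      rw [h4, pow_one] at h3
      apply hx1
      apply Units.ext
      rw [hz, h3, one_smul, Units.val_one]
    obtain ⟨g, hg, hgN⟩ := hall x hxS ⟨1, by rw [hxr, one_smul, Units.val_one]⟩ hns
    have hsc := E27.big R hR x0 y0 w hx0 hy0 hw hc hx0R hy0R r hrp hr2 hr3 (g⁻¹ * x * g) hgN (by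
      have : (g⁻¹ * x * g) ^ r = g⁻¹ * x ^ r * g := by
        have := conj_pow (a := g⁻¹) (b := x) (i := r)
        simpa using this
      rw [this, hxr]; group)
    have hsc2 : x ∈ Cfsg.Geo.scalars (Fin 3) F := by
      have := (Cfsg.Geo.scalars_normal (ι := Fin 3) (F := F)).conj_mem _ hsc g
      convert this using 1
      group
    obtain ⟨c, hc'⟩ := (Cfsg.Geo.mem_scalars_iff x).1 hsc2
    exact hns c hc'
  · rintro (rfl | ⟨rfl, hp9⟩)
    · intro x hxS ⟨z, hz⟩ hns
      have hdx := (hmemSL x).1 hxS.2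
      rw [Units.val_pow_eq_pow_val] at hz
      have hz3 : z ^ 3 = 1 := by
        have := congrArg Matrix.det hz
        rw [Matrix.det_pow, hdx, one_pow, Matrix.det_smul, Matrix.det_one, mul_one] at this
        simpa using this.symm
      have hz0 : z ≠ 0 := by
        rintro rfl
        simp at hz3
      have hx6 : x ^ 6 = 1 := by
        apply Units.ext
        have : (x : Matrix (Fin 3) (Fin 3) F) ^ 6 = ((x : Matrix (Fin 3) (Fin 3) F) ^ 2) ^ 3 := by rw [← pow_mul]
        rw [Units.val_pow_eq_pow_val, this, hz, smul_pow, one_pow, hz3, one_smul, Units.val_one]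
      obtain ⟨Q, hQ⟩ := E27.inv2 h2F (z • (x : Matrix (Fin 3) (Fin 3) F))
        (by rw [Matrix.det_smul, hdx, mul_one]; simpa using hz3)
        (by rw [smul_pow, hz, smul_smul, ← pow_succ, hz3, one_smul])
        (by
          intro c hc'
          apply hns (z⁻¹ * c)
          rw [mul_smul, ← hc', smul_smul, inv_mul_cancel₀ hz0, one_smul])
      apply hfinal x hxS 6 hcop6 hx6 Q (z ^ 2 • E27.t0 F)
      · have := congrArg (fun M => z ^ 2 • M) hQ
        simp only [Matrix.mul_smul, smul_smul, ← pow_succ, hz3, one_smul] at this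
        rw [this, Matrix.smul_mul]
      · intro g0 hg0
        exact E27.elt R x0 y0 B w hw hgen hBx hBy g0 (z ^ 2) (Or.inl hg0)
    · intro x hxS ⟨z, hz⟩ hns
      have hdx := (hmemSL x).1 hxS.2
      rw [Units.val_pow_eq_pow_val] at hz
      by_cases hz1 : z = 1
      · rw [hz1, one_smul] at hz
        have hx0m : (x0 : Matrix (Fin 3) (Fin 3) F) ^ 3 = 1 := by
          rw [← Units.val_pow_eq_pow_val, hx0, Units.val_one]
        have hx0ns : ∀ c : F, (x0 : Matrix (Fin 3) (Fin 3) F) ≠ c • 1 := by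
          intro c hc'
          have h1 : ((B * x0 * B⁻¹ : GL (Fin 3) F) : Matrix (Fin 3) (Fin 3) F) = c • 1 := by
            rw [Units.val_mul, Units.val_mul, hc', Matrix.mul_smul, Matrix.smul_mul, mul_one, Units.mul_inv]
          rw [hBx] at h1
          have h2 := congrFun (congrFun h1 0) 0
          have h3 := congrFun (congrFun h1 1) 1
          simp at h2 h3
          have h4 : (w : F) = 1 := by rw [h3, ← h2]
          have : w = 1 := Units.ext h4
          rw [this, orderOf_one] at hw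
          omega
        have hx9 : x ^ 9 = 1 := by
          apply Units.ext
          have : (x : Matrix (Fin 3) (Fin 3) F) ^ 9 = ((x : Matrix (Fin 3) (Fin 3) F) ^ 3) ^ 3 := by rw [← pow_mul]
          rw [Units.val_pow_eq_pow_val, this, hz, one_pow, Units.val_one]
        have hx09 : x0 ^ 9 = 1 := by
          have : x0 ^ 9 = (x0 ^ 3) ^ 3 := by rw [← pow_mul]
          rw [this, hx0, one_pow]
        obtain ⟨g, hg, hgx⟩ := E27U.ufin hF x x0 hxS (hRS' hx0R) 9 hcop9 hx9 hx09
          (by rw [Cfsg.Agent.Lib.Helper48.s3_charpoly _ hz hdx hns,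
            Cfsg.Agent.Lib.Helper48.s3_charpoly _ hx0m hdx0 hx0ns])
        exact ⟨g, hg, hgx ▸ hRN hx0R⟩
      · have hz3 : z ^ 3 = 1 := by
          have := congrArg Matrix.det hz
          rw [Matrix.det_pow, hdx, one_pow, Matrix.det_smul, Matrix.det_one, mul_one] at this
          simpa using this.symm
        have hx9 : x ^ 9 = 1 := by
          apply Units.ext
          have : (x : Matrix (Fin 3) (Fin 3) F) ^ 9 = ((x : Matrix (Fin 3) (Fin 3) F) ^ 3) ^ 3 := by rw [← pow_mul]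
          rw [Units.val_pow_eq_pow_val, this, hz, smul_pow, one_pow, hz3, one_smul, Units.val_one]
        obtain ⟨σ, Q, hσ, hQ⟩ := E27.cub (w : F) hwq h3F (x : Matrix (Fin 3) (Fin 3) F) hdx z hz1 hz hns
        rcases hQ with hQ | hQ
        · apply hfinal x hxS 9 hcop9 hx9 Q _ hQ
          intro g0 hg0
          exact E27.elt R x0 y0 B w hw hgen hBx hBy g0 σ (Or.inr (Or.inl hg0))
        · apply hfinal x hxS 9 hcop9 hx9 Q _ hQ
          intro g0 hg0
          exact E27.elt R x0 y0 B w hw hgen hBx hBy g0 σ (Or.inr (Or.inr hg0))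

end Cfsg.Agent.S5999
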